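import Cfsg.Statements.S0169
import Mathlib
import Cfsg.Agent.Lib.PF.Clifford2
import Cfsg.Agent.Lib.Char.Basic

set_option autoImplicit false
open Cfsg

namespace Cfsg.Agent.S0169

/-- Itô's Theorem on character degrees: the degree of an irreducible complex representation of a finite group divides the index of any abelian normal subgroup. -/
theorem result {G : Type*} [Group G] [Finite G] {V : Type*} [AddCommGroup V] [Module ℂ V] [FiniteDimensional ℂ V] (ρ : Representation ℂ G V) [ρ.IsIrreducible] (H : Subgroup G) [H.Normal] (hH : ∀ a ∈ H, ∀ b ∈ H, a * b = b * a) : Module.finrank ℂ V ∣ H.index := by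
  classical
  have := Fintype.ofFinite G
  have h1 : ρ.character ∈ H51.irr (⊤ : Subgroup G) := H51.mem_irr_top.2 (H6.isIrrCharacter_character ρ)
  have h2 := H51.deg_dvd_relIndex_of_comm (N := H) (L := ⊤)
    ⟨le_top, fun g _ h hh => Subgroup.Normal.conj_mem inferInstance h hh g⟩
    (by
      rw [Subgroup.commutator_eq_bot_iff_le_centralizer]
      intro a ha b hb
      exact hH b hb a ha) h1
  rw [Subgroup.relIndex_top_right,
    H51.deg_eq_of_apply (n := Module.finrank ℂ V) (by simp)] at h2
  exact h2

end Cfsg.Agent.S0169
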