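import Mathlib
import Cfsg.Statements.S2589
import Cfsg.Agent.Lib.StarAlg.SpConj
-- import your own Cfsg.Agent.* helpers here

set_option autoImplicit false
open Cfsg

namespace Cfsg.Agent.S2589

/-- Two semisimple elements of the finite symplectic group Sp_2m(F) (elements of order prime to the characteristic) are conjugate in Sp_2m(F) if and only if they are conjugate in GL_2m(F). -/
theorem result {F : Type*} [Field F] [Fintype F] {p : ℕ} [Fact p.Prime] [CharP F p] {m : ℕ} (A B : Matrix.symplecticGroup (Fin m) F) (hA : (orderOf A).Coprime p) : IsConj A B ↔ IsConj (A : Matrix (Fin m ⊕ Fin m) (Fin m ⊕ Fin m) F) (B : Matrix (Fin m ⊕ Fin m) (Fin m ⊕ Fin m) F) := by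
  constructor
  · intro h
    exact (Matrix.symplecticGroup (Fin m) F).subtype.map_isConj h
  · rintro ⟨g, hg⟩
    have hN : ((orderOf A : ℕ) : F) ≠ 0 := by
      rw [Ne, CharP.cast_eq_zero_iff F p]
      exact (Nat.Prime.coprime_iff_not_dvd Fact.out).mp hA.symm
    have hpow : (A : Matrix (Fin m ⊕ Fin m) (Fin m ⊕ Fin m) F) ^ orderOf A = 1 := by
      rw [← SubmonoidClass.coe_pow, pow_orderOf_eq_one]; rfl
    let e := Matrix.toLinAlgEquiv' (R := F) (n := Fin m ⊕ Fin m)
    obtain ⟨h, hh, hAB⟩ := H66.exists_isometry_conj_alt (H66.sympBilin m F)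
      (H66.sympBilin_nondegenerate m) (H66.sympBilin_isAlt m) (e A) (e B) _ hN
      (by rw [← map_pow, hpow, map_one])
      ((H66.mem_symplecticGroup_iff _).mp A.2) ((H66.mem_symplecticGroup_iff _).mp B.2)
      (e g) (g.isUnit.map e) (by rw [← map_mul, ← map_mul, hg.eq])
    obtain ⟨H, rfl⟩ := e.surjective h
    refine isConj_iff.mpr ⟨⟨H, (H66.mem_symplecticGroup_iff _).mpr hh⟩, ?_⟩
    rw [mul_inv_eq_iff_eq_mul]
    apply Subtype.ext
    apply e.injective
    rw [← map_mul, ← map_mul] at hAB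
    exact hAB

end Cfsg.Agent.S2589
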