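import Mathlib
import Cfsg.Agent.Base
import Cfsg.Agent.Lib.TI2.Basic
import Cfsg.Agent.Lib.PGroup.Commutator
import Cfsg.Agent.Lib.Comp.FStar
import Cfsg.Agent.S1784
import Cfsg.Statements.S1774

set_option autoImplicit false
open Cfsg

namespace Cfsg.Agent.S1774

open Subgroup H5 H79.TI Cfsg.Agent.S1784
open scoped commutatorElement

theorem cyc2 {T : Type*} [Group T] [Finite T] {A : Subgroup T} (hA : IsCyclic A) {z x : T}
    (hzA : z ∈ A) (hx : x ∈ A) (hz : orderOf z = 2) (h2 : x ^ 2 = 1) : x = 1 ∨ x = z := by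
  classical
  by_contra h
  push Not at h
  have := Fintype.ofFinite A
  have hz1 : z ≠ 1 := fun e => by simp [e] at hz
  have h1 := IsCyclic.card_pow_eq_one_le (α := A) (n := 2) two_pos
  have h3 : ({1, ⟨z, hzA⟩, ⟨x, hx⟩} : Finset A) ⊆ Finset.univ.filter fun a : A => a ^ 2 = 1 := by
    intro a ha
    simp only [Finset.mem_insert, Finset.mem_singleton] at ha
    simp only [Finset.mem_filter, Finset.mem_univ, true_and]
    rcases ha with rfl | rfl | rfl
    · simp
    · exact Subtype.ext (by simpa using hz ▸ pow_orderOf_eq_one z)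
    · exact Subtype.ext h2
  have h4 := Finset.card_le_card h3
  rw [Finset.card_eq_three.2 ⟨_, _, _, ?_, ?_, ?_, rfl⟩] at h4
  · omega
  · exact fun e => hz1 (congrArg Subtype.val e).symm
  · exact fun e => h.1 (congrArg Subtype.val e).symm
  · exact fun e => h.2 (congrArg Subtype.val e).symm

theorem sq_mem {T : Type*} [Group T] [Finite T] (hT : Cfsg.IsOfSymplecticType T)
    (h4 : ∀ t : T, t ^ 4 = 1) {z : T} (hz : orderOf z = 2) (hzc : z ∈ center T) :
    frattini T ≤ zpowers z := by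
  by_contra hle
  have hZ : IsCyclic (center T) := hT.2 _ inferInstance inferInstance
  have hz2 : z ^ 2 = 1 := hz ▸ pow_orderOf_eq_one z
  have hzS : z ∈ frattini T := by
    obtain ⟨z', h1, h2, h3⟩ := exists_mem_center_orderOf_eq hT.1 (frattini T)
      (fun e => hle (e ▸ bot_le))
    rcases cyc2 hZ hzc h2 hz (h3 ▸ pow_orderOf_eq_one z') with e | e
    · simp [e] at h3
    · exact e ▸ h1
  set A := frattini T ⊓ centralizer (frattini T : Set T) with hAd
  have hA : IsCyclic A := hT.2 _ inferInstance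
    ⟨⟨fun a b => Subtype.ext (b.2.2 a a.2.1)⟩⟩
  have hzA : z ∈ A := ⟨hzS, fun g _ => mem_center_iff.1 hzc g⟩
  have hcz : ∀ c ∈ zpowers z, c ∈ center T := zpowers_le.2 hzc
  have inA : ∀ v ∈ frattini T, (∀ g : T, ⁅g, v⁆ ∈ zpowers z) → v ∈ A := by
    intro v hv h
    refine ⟨hv, ?_⟩
    rw [frattini_eq_closure_sq hT.1]
    show v ∈ centralizer _
    rw [centralizer_closure]
    rintro _ ⟨g, rfl⟩
    have := commutator_pow_left (x := g) (y := v) (mem_center_iff.1 (hcz _ (h g)) g) 2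
    rcases zp_two hz (h g) with e | e
    · rw [e, one_pow] at this; exact commutatorElement_eq_one_iff_commute.1 this
    · rw [e, hz2] at this; exact commutatorElement_eq_one_iff_commute.1 this
  have two : ∀ x ∈ A, x ^ 2 = 1 → x ∈ zpowers z := fun x hx h => by
    rcases cyc2 hA hzA hx hz h with e | e <;> rw [e]
    exacts [one_mem _, mem_zpowers _]
  obtain ⟨w, hw1, hw2, hw3, hw4⟩ := exists_step hT.1 (zpowers z) (frattini T) hle
  have hwA : w ∈ A := inA w hw1 fun g => by
    rw [← commutatorElement_inv]; exact inv_mem (hw4 g)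
  have hww : w ^ 2 = z := (zp_two hz hw3).resolve_left fun e => hw2 (two w hwA e)
  have hKA : zpowers w ≤ A := zpowers_le.2 hwA
  have hzK : zpowers z ≤ zpowers w := zpowers_le.2 (hww ▸ pow_mem (mem_zpowers w) 2)
  have hsq : ∀ g : T, (g ^ 2) ^ 2 = 1 := fun g => by rw [← pow_mul]; exact h4 g
  by_cases hS : frattini T ≤ zpowers w
  · apply hle
    rw [frattini_eq_closure_sq hT.1, closure_le]
    rintro _ ⟨g, rfl⟩
    exact two _ (hKA (hS (pow_mem_frattini hT.1 g))) (hsq g)
  obtain ⟨v, hv1, hv2, hv3, hv4⟩ := exists_step hT.1 (zpowers w) (frattini T) hS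
  have hv5 := two _ (hKA hv3) (hsq v)
  have hvA : v ∈ A := inA v hv1 fun g => by
    have h1 : ⁅g, v⁆ ∈ A := by rw [← commutatorElement_inv]; exact inv_mem (hKA (hv4 g))
    refine two _ h1 ?_
    have h2 : Commute ⁅g, v⁆ v := (h1.2 v hv1).symm
    have h3 : (⁅g, v⁆ * v) ^ 2 = v ^ 2 := by
      rw [← conj_eq_commutator_mul, conj_pow, mem_center_iff.1 (hcz _ hv5) g, mul_inv_cancel_right]
    rw [h2.mul_pow] at h3
    simpa using h3
  rcases zp_two hz hv5 with e | e
  · exact hv2 (hzK (two v hvA e))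
  · have h1 : Commute v w := hwA.2 v hv1
    have := hzK (two _ (mul_mem hvA hwA) (by rw [h1.mul_pow, e, hww, ← pow_two, hz2]))
    exact hv2 (by simpa using mul_mem this (inv_mem (mem_zpowers w)))

structure Lg {G : Type*} [Group G] (z : G) (Q : Subgroup G) : Prop where
  ord : orderOf z = 2
  mem : z ∈ Q
  le : ∀ q ∈ Q, Commute q z
  norm : ∀ c, Commute c z → ∀ q ∈ Q, c * q * c⁻¹ ∈ Q
  sq : ∀ q ∈ Q, q ^ 2 ∈ zpowers z
  cent : ∀ c, Commute c z → (∀ q ∈ Q, ⁅c, q⁆ ∈ zpowers z) → c ∈ Q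
  inv : ∀ x ∈ Q, x ^ 2 = 1 → (∀ q ∈ Q, Commute q x) → x ∈ zpowers z

variable {G : Type*} [Group G]

theorem zp_conj {z c g : G} (h : c ∈ zpowers z) : g * c * g⁻¹ ∈ zpowers (g * z * g⁻¹) := by
  obtain ⟨k, rfl⟩ := h
  exact ⟨k, by simp only [conj_zpow]⟩

theorem Lg.conj {z : G} {Q : Subgroup G} (h : Lg z Q) (g : G) : Lg (g * z * g⁻¹) (cj g Q) := by
  have cm : ∀ c, Commute c (g * z * g⁻¹) → Commute (g⁻¹ * c * g) z := fun c hc => by
    have := hc.map (MulAut.conj g⁻¹)
    simpa [mul_assoc] using this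
  refine ⟨?_, conj_mem_cj h.mem, ?_, ?_, ?_, ?_, ?_⟩
  · rw [← h.ord]; exact (MulAut.conj g).orderOf_eq z
  · rintro _ ⟨q, hq, rfl⟩
    exact (h.le q hq).map (MulAut.conj g)
  · intro c hc q hq
    have := h.norm _ (cm c hc) _ (mem_cj.1 hq)
    rw [mem_cj]
    convert this using 1; group
  · rintro _ ⟨q, hq, rfl⟩
    have := zp_conj (g := g) (h.sq q hq)
    rwa [← conj_pow] at this
  · intro c hc hq
    refine mem_cj.2 (h.cent _ (cm c hc) fun q hq' => ?_)
    have := zp_conj (g := g⁻¹) (hq _ (conj_mem_cj hq'))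
    convert this using 1
    · group
    · simp only [commutatorElement_def]; group
  · rintro _ ⟨x, hx, rfl⟩ h2 hc
    refine zp_conj (h.inv x hx ?_ fun q hq => ?_)
    · exact (MulAut.conj g).injective (by rw [map_pow, map_one]; exact h2)
    · exact (MulAut.conj g).injective (by
        rw [map_mul, map_mul]; exact hc _ (conj_mem_cj hq))

theorem Lg.comm {z : G} {Q : Subgroup G} (h : Lg z Q) {a b : G} (ha : a ∈ Q) (hb : b ∈ Q) :
    ⁅a, b⁆ ∈ zpowers z := by
  have := mul_mem (mul_mem (h.sq a ha) (h.sq _ (mul_mem (inv_mem ha) hb))) (inv_mem (h.sq b hb))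
  convert this using 1
  simp only [commutatorElement_def, pow_two]; group

theorem Lg.swap {z : G} {Q : Subgroup G} (h : Lg z Q) {x : G} (hx : x ∈ Q) (ho : orderOf x = 2)
    (hne : x ≠ z) : ∃ q ∈ Q, ⁅q, x⁆ = z := by
  by_contra hc
  push Not at hc
  rcases zp_two h.ord (h.inv x hx (ho ▸ pow_orderOf_eq_one x) fun q hq =>
    commutatorElement_eq_one_iff_commute.1 ((zp_two h.ord (h.comm hq hx)).resolve_right (hc q hq)))
    with e | e
  · simp [e] at ho
  · exact hne e

theorem Lg.symm {z : G} {Q : Subgroup G} (h : Lg z Q) {g : G} (hne : g * z * g⁻¹ ≠ z)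
    (hx : g * z * g⁻¹ ∈ Q) : z ∈ cj g Q := by
  by_contra hzP
  have hP := h.conj g
  set x := g * z * g⁻¹ with hxd
  set P := cj g Q with hPd
  have hzz : z * z = 1 := by rw [← pow_two, ← h.ord, pow_orderOf_eq_one]
  have hxx : x * x = 1 := by rw [← pow_two, ← hP.ord, pow_orderOf_eq_one]
  have hzi : z⁻¹ = z := inv_eq_of_mul_eq_one_right hzz
  have hxz : Commute x z := h.le x hx
  obtain ⟨q, hq, hqx⟩ := h.swap hx hP.ord hne
  have hq1 : q * x * q⁻¹ = z * x := by rw [conj_eq_commutator_mul, hqx]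
  have hq2 : q * z * q⁻¹ = z := by rw [(h.le q hq).eq, mul_inv_cancel_right]
  have s2 : ∀ p ∈ P, ⁅z, p⁆ ∈ zpowers x → Commute p z := by
    intro p hp hc
    rcases zp_two hP.ord hc with e | e
    · exact (commutatorElement_eq_one_iff_commute.1 e).symm
    exfalso
    have hp1 : p * z * p⁻¹ = z * x := by
      rw [← e, commutatorElement_def, hzi, ← mul_assoc, ← mul_assoc, ← mul_assoc, hzz, one_mul]
    have hp2 : p * x * p⁻¹ = x := by rw [(hP.le p hp).eq, mul_inv_cancel_right]
    have e1 : (q * p * q) * x * (q * p * q)⁻¹ = z := by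
      calc _ = q * (p * (q * x * q⁻¹) * p⁻¹) * q⁻¹ := by group
        _ = q * ((p * z * p⁻¹) * (p * x * p⁻¹)) * q⁻¹ := by rw [hq1]; group
        _ = z := by rw [hp1, hp2, mul_assoc z, hxx, mul_one, hq2]
    have e2 : (q * p * q) * z * (q * p * q)⁻¹ = x := by
      calc _ = q * (p * (q * z * q⁻¹) * p⁻¹) * q⁻¹ := by group
        _ = q * (z * x) * q⁻¹ := by rw [hq2, hp1]
        _ = (q * z * q⁻¹) * (q * x * q⁻¹) := by group
        _ = x := by rw [hq1, hq2, ← mul_assoc, hzz, one_mul]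
    have e3 : Commute (g⁻¹ * (q * p * q)) z := by
      have : g⁻¹ * (q * p * q) * z * (g⁻¹ * (q * p * q))⁻¹ = z := by
        calc _ = g⁻¹ * ((q * p * q) * z * (q * p * q)⁻¹) * g := by group
          _ = z := by rw [e2, hxd]; group
      exact mul_inv_eq_iff_eq_mul.1 this
    apply hzP
    have := h.norm _ e3 x hx
    rw [hPd, mem_cj, ← e1]
    convert this using 1; group
  have zP : ∀ c ∈ zpowers z, c ∈ P → c = 1 := fun c hc hcP =>
    (zp_two h.ord hc).resolve_right fun e => hzP (e ▸ hcP)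
  have dec : ∀ a ∈ Q, Commute a x ∨ Commute (q⁻¹ * a) x := by
    intro a ha
    rcases zp_two h.ord (h.comm ha hx) with e | e
    · exact Or.inl (commutatorElement_eq_one_iff_commute.1 e)
    · right
      have : a * x * a⁻¹ = q * x * q⁻¹ := by rw [conj_eq_commutator_mul, e, hq1]
      calc q⁻¹ * a * x = q⁻¹ * (a * x * a⁻¹) * a := by group
        _ = _ := by rw [this]; group
  have lemA : ∀ y ∈ Q, y ^ 2 = 1 → (∀ r ∈ Q, Commute r x → Commute r y) →
      y ∈ zpowers z ∨ y * x ∈ zpowers z := by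
    intro y hy hy2 hc
    have gen : ∀ u, Commute q u → (∀ r ∈ Q, Commute r x → Commute r u) → ∀ a ∈ Q, Commute a u := by
      intro u h1 h2 a ha
      rcases dec a ha with e | e
      · exact h2 a ha e
      · simpa using h1.mul_left (h2 _ (mul_mem (inv_mem hq) ha) e)
    rcases zp_two h.ord (h.comm hq hy) with e | e
    · exact Or.inl (h.inv y hy hy2 (gen y (commutatorElement_eq_one_iff_commute.1 e) hc))
    · right
      have hxy := hc x hx (Commute.refl x)
      refine h.inv _ (mul_mem hy hx) (by rw [hxy.symm.mul_pow, hy2, one_mul, pow_two, hxx])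
        (gen _ ?_ fun r hr hrx => (hc r hr hrx).mul_right hrx)
      rw [← commutatorElement_eq_one_iff_commute, commutator_mul_right_of_commute
        (by rw [hqx]; exact h.le y hy), e, hqx, hzz]
  have s3 : ∀ y ∈ Q, y ∈ P → y ∈ zpowers x := by
    intro y hy hyP
    rcases lemA y hy (zP _ (h.sq y hy) (pow_mem hyP 2)) (fun r hr hrx =>
      commutatorElement_eq_one_iff_commute.1 (zP _ (h.comm hr hy)
        (mul_mem (hP.norm r hrx y hyP) (inv_mem hyP)))) with e | e
    · rw [zP y e hyP]; exact one_mem _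
    · rw [eq_inv_of_mul_eq_one_left (zP _ e (mul_mem hyP hP.mem))]
      exact inv_mem (mem_zpowers x)
  have s4 : ∀ w ∈ P, Commute w z → ∀ r ∈ Q, Commute r x → ⁅r, w⁆ ∈ zpowers x := by
    intro w hw hwz r hr hrx
    refine s3 _ ?_ (mul_mem (hP.norm r hrx w hw) (inv_mem hw))
    have := mul_mem hr (h.norm w hwz _ (inv_mem hr))
    simpa [commutatorElement_def, mul_assoc] using this
  have hcP : ∀ c, Commute c x → ∀ p ∈ P, ⁅c, p⁆ ∈ P := fun c hc p hp =>
    mul_mem (hP.norm c hc p hp) (inv_mem hp)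
  have s5 : ∀ p ∈ P, Commute ⁅z, p⁆ z := by
    intro p hp
    refine s2 _ (hcP z hxz.symm p hp) ?_
    have := hP.sq _ (inv_mem (hcP z hxz.symm p hp))
    convert this using 1
    have e : z * ⁅z, p⁆ * z⁻¹ = ⁅z, p⁆⁻¹ := by
      rw [commutatorElement_def, ← mul_assoc, ← mul_assoc, ← mul_assoc, hzz, one_mul]
      simp only [mul_inv_rev, inv_inv, hzi, mul_assoc]
    rw [commutatorElement_def, e, pow_two]
  have s6 : ∀ r ∈ Q, Commute r x → ∀ p ∈ P, Commute ⁅r, p⁆ z := by
    intro r hr hrx p hp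
    refine s2 _ (hcP r hrx p hp) ?_
    have := mul_mem (s4 _ (hcP z hxz.symm p hp) (s5 p hp) r hr hrx)
      (hP.comm (hcP z hxz.symm p hp) (hcP r hrx p hp))
    convert this using 1
    have e : z * r * z⁻¹ = r := by rw [← (h.le r hr).eq, mul_inv_cancel_right]
    calc ⁅z, ⁅r, p⁆⁆ = (z * r * z⁻¹) * (z * p * z⁻¹) * (z * r * z⁻¹)⁻¹ * (z * p * z⁻¹)⁻¹ * ⁅r, p⁆⁻¹ := by
          simp only [commutatorElement_def]; group
      _ = _ := by rw [e]; simp only [commutatorElement_def]; group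
  have s7 : ∀ r ∈ Q, Commute r x → r ^ 2 = 1 := by
    intro r hr hrx
    refine zP _ (h.sq r hr) (hP.cent _ (hrx.pow_left 2) fun p hp => ?_)
    have := mul_mem (s4 _ (hcP r hrx p hp) (s6 r hr hrx p hp) r hr hrx) (hP.sq _ (hcP r hrx p hp))
    convert this using 1
    simp only [commutatorElement_def, pow_two]; group
  have s8 : ∀ r ∈ Q, Commute r x → r ∈ zpowers z ∨ r * x ∈ zpowers z := by
    intro r hr hrx
    refine lemA r hr (s7 r hr hrx) fun r' hr' hrx' => ?_
    have h1 := s7 r hr hrx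
    have h2 := s7 r' hr' hrx'
    have h3 := s7 _ (mul_mem hr hr') (hrx.mul_left hrx')
    rw [pow_two] at h1 h2 h3
    have := inv_eq_of_mul_eq_one_right h3
    rw [mul_inv_rev, inv_eq_of_mul_eq_one_right h1, inv_eq_of_mul_eq_one_right h2] at this
    exact this
  refine hzP (hP.cent z hxz.symm fun p hp => s3 _ ?_ (hcP z hxz.symm p hp))
  have hw := hcP z hxz.symm p hp
  have hwz := s5 p hp
  generalize ⁅z, p⁆ = w at hw hwz
  have hwx := hP.le w hw
  have hwz' : ∀ c ∈ zpowers z, Commute w c := by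
    rintro _ ⟨k, rfl⟩; exact hwz.zpow_right k
  have hwR : ∀ r ∈ Q, Commute r x → Commute w r := by
    intro r hr hrx
    rcases s8 r hr hrx with e | e
    · exact hwz' r e
    · simpa using (hwz' _ e).mul_right hwx.inv_right
  have hwq : ⁅w, q⁆ ∈ zpowers z := by
    have h1 : ⁅w, q⁆ ∈ Q := mul_mem (h.norm w hwz q hq) (inv_mem hq)
    have h2 : Commute ⁅w, q⁆ x := by
      have e1 : w * (z * x) * w⁻¹ = z * x := by
        rw [(hwz.mul_right hwx).eq, mul_inv_cancel_right]
      have e2 : w⁻¹ * x * w = x := by rw [mul_assoc, ← hwx.eq, inv_mul_cancel_left]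
      have e3 : q⁻¹ * (z * x) * q = x := by rw [← hq1]; group
      have e4 : q⁻¹ * x * q = z * x := by
        have e5 : q⁻¹ * z * q = z := by rw [mul_assoc, ← (h.le q hq).eq, inv_mul_cancel_left]
        calc q⁻¹ * x * q = (q⁻¹ * z * q)⁻¹ * (q⁻¹ * (z * x) * q) := by group
          _ = z * x := by rw [e3, e5, hzi]
      have e6 : w⁻¹ * (z * x) * w = z * x := by
        rw [mul_assoc, ← (hwz.mul_right hwx).eq, inv_mul_cancel_left]
      have e7 : q * (z * x) * q⁻¹ = x := by
        calc q * (z * x) * q⁻¹ = q * (q⁻¹ * x * q) * q⁻¹ := by rw [e4]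
          _ = x := by group
      have : ⁅w, q⁆ * x * ⁅w, q⁆⁻¹ = x := by
        calc _ = w * (q * (w⁻¹ * (q⁻¹ * x * q) * w) * q⁻¹) * w⁻¹ := by
              simp only [commutatorElement_def]; group
          _ = x := by rw [e4, e6, e7, hwx.eq, mul_inv_cancel_right]
      exact mul_inv_eq_iff_eq_mul.1 this
    refine (s8 _ h1 h2).resolve_right fun e => ?_
    have h3 : (⁅w, q⁆ * q) ^ 2 = q ^ 2 := by
      rw [← conj_eq_commutator_mul, conj_pow, (hwz' _ (h.sq q hq)).eq, mul_inv_cancel_right]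
    have h4 : ⁅q, ⁅w, q⁆⁆ = z := by
      have hc : Commute q (⁅w, q⁆ * x) := by
        rcases zp_two h.ord e with e | e <;> rw [e]
        exacts [Commute.one_right _, h.le q hq]
      have : ⁅w, q⁆ = (⁅w, q⁆ * x) * x := by rw [mul_assoc, hxx, mul_one]
      rw [this, commutator_mul_right_of_commute (by rw [hqx]; exact h.le _ (mul_mem h1 hx)), hqx,
        commutatorElement_eq_one_iff_commute.2 hc, one_mul]
    have h5 := s7 _ h1 h2
    generalize ⁅w, q⁆ = c at h1 h3 h4 h5
    have h6 : q * c * q⁻¹ = z * c := by rw [conj_eq_commutator_mul, h4]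
    have h7 : (c * q) ^ 2 = z * q ^ 2 := by
      calc (c * q) ^ 2 = c * (q * c * q⁻¹) * q ^ 2 := by simp only [pow_two]; group
        _ = z * (c ^ 2) * q ^ 2 := by rw [h6, ← mul_assoc, (h.le c h1).eq, pow_two c, mul_assoc z]
        _ = _ := by rw [h5, mul_one]
    rw [h3] at h7
    have := h.ord
    rw [show z = 1 by simpa using h7] at this
    simp at this
  refine h.cent w hwz fun a ha => ?_
  rcases dec a ha with e | e
  · rw [commutatorElement_eq_one_iff_commute.2 (hwR a ha e)]; exact one_mem _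
  · have h1 := hwR _ (mul_mem (inv_mem hq) ha) e
    convert hwq using 1
    calc ⁅w, a⁆ = w * q * ((q⁻¹ * a) * w⁻¹) * a⁻¹ := by simp only [commutatorElement_def]; group
      _ = _ := by rw [← h1.inv_left.eq]; simp only [commutatorElement_def]; group

/-- Let G be a finite group and let z be an involution of G such that Q, the generalized Fitting subgroup of the centralizer C of z, is a 2-group of symplectic type (every characteristic abelian subgroup of Q is cyclic); suppose every element of Q has order dividing 4. Let g ∈ G with z' = g z g⁻¹ ≠ z and z' ∈ Q. Then z lies in the conjugate g Q g⁻¹, and the subgroup X generated by Q and g Q g⁻¹ induces every automorphism of the four-group generated by z and z': for any two distinct non-identity elements u, v of that four-group there is x ∈ X with x z x⁻¹ = u and x z' x⁻¹ = v. -/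
theorem result {G : Type*} [Group G] [Finite G] (z : G) (hz : orderOf z = 2) (hQ : Cfsg.IsOfSymplecticType ↥(Cfsg.generalizedFittingSubgroup ↥(Subgroup.centralizer ({z} : Set G))))
    (h4 : ∀ q ∈ (Cfsg.generalizedFittingSubgroup ↥(Subgroup.centralizer ({z} : Set G))).map (Subgroup.centralizer ({z} : Set G)).subtype, q ^ 4 = 1) (g : G) (hne : g * z * g⁻¹ ≠ z) (hin : g * z * g⁻¹ ∈ (Cfsg.generalizedFittingSubgroup ↥(Subgroup.centralizer ({z} : Set G))).map (Subgroup.centralizer ({z} : Set G)).subtype) :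
    z ∈ ((Cfsg.generalizedFittingSubgroup ↥(Subgroup.centralizer ({z} : Set G))).map (Subgroup.centralizer ({z} : Set G)).subtype).map (MulAut.conj g).toMonoidHom ∧
      ∀ u ∈ Subgroup.closure ({z, g * z * g⁻¹} : Set G), ∀ v ∈ Subgroup.closure ({z, g * z * g⁻¹} : Set G),
        u ≠ 1 → v ≠ 1 → u ≠ v →
          ∃ x ∈ (Cfsg.generalizedFittingSubgroup ↥(Subgroup.centralizer ({z} : Set G))).map (Subgroup.centralizer ({z} : Set G)).subtype ⊔ ((Cfsg.generalizedFittingSubgroup ↥(Subgroup.centralizer ({z} : Set G))).map (Subgroup.centralizer ({z} : Set G)).subtype).map (MulAut.conj g).toMonoidHom, x * z * x⁻¹ = u ∧ x * (g * z * g⁻¹) * x⁻¹ = v := by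
  let C := centralizer ({z} : Set G)
  let F := Cfsg.generalizedFittingSubgroup C
  let Q := F.map C.subtype
  have hzC : z ∈ C := mem_centralizer_singleton_iff.2 rfl
  have hcen : (⟨z, hzC⟩ : C) ∈ center C :=
    mem_center_iff.2 fun y => Subtype.ext (mem_centralizer_singleton_iff.1 y.2)
  have hzF : (⟨z, hzC⟩ : C) ∈ F := H23.centralizer_fStar_le fun y _ => mem_center_iff.1 hcen y
  have hF : F = Cfsg.pCore 2 C := H23.fStar_eq_pCore_iff_isPGroup.2 hQ.1
  let z' : F := ⟨⟨z, hzC⟩, hzF⟩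
  have hz' : orderOf z' = 2 := by rw [← orderOf_coe, ← orderOf_coe]; exact hz
  have hz'c : z' ∈ center F := mem_center_iff.2 fun y => Subtype.ext (mem_center_iff.1 hcen y)
  have hΦ := sq_mem hQ (fun t => Subtype.ext (Subtype.ext (h4 _ ⟨t, t.2, rfl⟩))) hz' hz'c
  have hmz : ∀ c : F, c ∈ zpowers z' → ((c : C) : G) ∈ zpowers z := by
    rintro _ ⟨k, rfl⟩
    exact ⟨k, rfl⟩
  have h : Lg z Q := by
    refine ⟨hz, ⟨_, hzF, rfl⟩, ?_, ?_, ?_, ?_, ?_⟩
    · rintro _ ⟨q, -, rfl⟩
      exact mem_centralizer_singleton_iff.1 q.2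
    · rintro c hc _ ⟨q, hq, rfl⟩
      exact ⟨_, H23.fStar_normal.conj_mem q hq ⟨c, mem_centralizer_singleton_iff.2 hc⟩, rfl⟩
    · rintro _ ⟨q, hq, rfl⟩
      exact hmz _ (hΦ (pow_mem_frattini hQ.1 ⟨q, hq⟩))
    · intro c hc hq
      refine ⟨⟨c, mem_centralizer_singleton_iff.2 hc⟩, ?_, rfl⟩
      have hC := H23.isPGroup_fStar_iff.1 hQ.1
      by_cases hΦ1 : z' ∈ frattini F
      · show _ ∈ F
        rw [hF]
        refine mem_of_frattini hC fun q hq' => ?_
        rw [← hF] at hq' ⊢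
        rcases zp_two hz (hq _ ⟨q, hq', rfl⟩) with e | e
        · rw [show ⁅(⟨c, mem_centralizer_singleton_iff.2 hc⟩ : C), q⁆ = 1 from Subtype.ext e]
          exact one_mem _
        · exact ⟨z', hΦ1, Subtype.ext e.symm⟩
      · exfalso
        have hx2 : orderOf (g * z * g⁻¹) = 2 := by rw [← hz]; exact (MulAut.conj g).orderOf_eq z
        obtain ⟨x, hx, hxe⟩ := hin
        have hxc : (⟨x, hx⟩ : F) ∈ center F := mem_center_iff.2 fun y => by
          have h1 := commutatorElement_mem_frattini hQ.1 y ⟨x, hx⟩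
          rcases zp_two hz' (hΦ h1) with e | e
          · exact commutatorElement_eq_one_iff_commute.1 e
          · exact absurd (e ▸ h1) hΦ1
        rcases cyc2 (hQ.2 _ inferInstance inferInstance) hz'c hxc hz'
          (Subtype.ext (Subtype.ext (by
            have := hx2 ▸ pow_orderOf_eq_one (g * z * g⁻¹)
            rw [← hxe] at this; exact this))) with e | e
        · rw [← hxe, show x = 1 from congrArg Subtype.val e] at hx2
          simp at hx2
        · exact hne (by rw [← hxe, show x = _ from congrArg Subtype.val e]; rfl)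
    · rintro _ ⟨x, hx, rfl⟩ h2 hc
      rcases cyc2 (hQ.2 _ inferInstance inferInstance) hz'c (x := ⟨x, hx⟩) (mem_center_iff.2 fun y =>
        Subtype.ext (Subtype.ext (hc _ ⟨y, y.2, rfl⟩))) hz' (Subtype.ext (Subtype.ext h2)) with e | e
      · exact hmz ⟨x, hx⟩ (e ▸ one_mem _)
      · exact hmz ⟨x, hx⟩ (e ▸ mem_zpowers _)
  have hzP := h.symm hne hin
  refine ⟨hzP, ?_⟩
  have hP := h.conj g
  change ∀ u ∈ _, ∀ v ∈ _, _ → _ → _ → ∃ x ∈ Q ⊔ cj g Q, _
  generalize cj g Q = P at hP hzP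
  generalize g * z * g⁻¹ = x at hP hne hin
  have hzz : z * z = 1 := by rw [← pow_two, ← h.ord, pow_orderOf_eq_one]
  have hxx : x * x = 1 := by rw [← pow_two, ← hP.ord, pow_orderOf_eq_one]
  have hxz : Commute x z := h.le x hin
  obtain ⟨q, hq, hqx⟩ := h.swap hin hP.ord hne
  obtain ⟨p, hp, hpz⟩ := hP.swap hzP hz hne.symm
  have hq1 : q * x * q⁻¹ = z * x := by rw [conj_eq_commutator_mul, hqx]
  have hq2 : q * z * q⁻¹ = z := by rw [(h.le q hq).eq, mul_inv_cancel_right]
  have hp1 : p * z * p⁻¹ = z * x := by rw [conj_eq_commutator_mul, hpz, hxz.eq]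
  have hp2 : p * x * p⁻¹ = x := by rw [(hP.le p hp).eq, mul_inv_cancel_right]
  have hq3 : q * (z * x) * q⁻¹ = x := by
    rw [← conj_mul, hq1, hq2, ← mul_assoc, hzz, one_mul]
  have hp3 : p * (z * x) * p⁻¹ = z := by
    rw [← conj_mul, hp1, hp2, mul_assoc, hxx, mul_one]
  have cm : ∀ a b y : G, (a * b) * y * (a * b)⁻¹ = a * (b * y * b⁻¹) * a⁻¹ := fun a b y => by group
  have cl : ∀ u ∈ closure ({z, x} : Set G), u ≠ 1 → u = z ∨ u = x ∨ u = z * x := by
    intro u hu h1
    rw [Set.insert_eq, Subgroup.closure_union, ← zpowers_eq_closure, ← zpowers_eq_closure,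
      mem_sup_zpowers_iff (centralizer_le_normalizer _ (by
        rintro _ ⟨k, rfl⟩; exact (hxz.zpow_right k).symm.eq))] at hu
    obtain ⟨k, hk, i, rfl⟩ := hu
    rcases zp_two hz hk with e | e <;> rcases zp_two hP.ord (zpow_mem (mem_zpowers x) i) with e' | e' <;>
      simp_all
  have mq : q ∈ Q ⊔ P := mem_sup_left hq
  have mp : p ∈ Q ⊔ P := mem_sup_right hp
  intro u hu v hv hu1 hv1 huv
  rcases cl u hu hu1 with rfl | rfl | rfl <;> rcases cl v hv hv1 with rfl | rfl | rfl
  · exact absurd rfl huv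
  · exact ⟨1, one_mem _, by simp, by simp⟩
  · exact ⟨q, mq, hq2, hq1⟩
  · exact ⟨q * (p * q), mul_mem mq (mul_mem mp mq), by rw [cm, cm, hq2, hp1, hq3],
      by rw [cm, cm, hq1, hp3, hq2]⟩
  · exact absurd rfl huv
  · exact ⟨q * p, mul_mem mq mp, by rw [cm, hp1, hq3], by rw [cm, hp2, hq1]⟩
  · exact ⟨p * q, mul_mem mp mq, by rw [cm, hq2, hp1], by rw [cm, hq1, hp3]⟩
  · exact ⟨p, mp, hp1, hp2⟩
  · exact absurd rfl huv

end Cfsg.Agent.S1774
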