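import Mathlib
import Cfsg.Statements.S5433
-- import your own Cfsg.Agent.* helpers here

set_option autoImplicit false
open Cfsg

namespace Cfsg.Agent.S5433


/-- Let Q be a large extraspecial 2-subgroup of the finite group G (extraspecial; centralizer equal to its centre; normal in the centralizer of its centre; normalizing no non-trivial subgroup of odd order), and L a normal subgroup of G containing Q. Then G is the product of L and the normalizer of Q. -/
theorem result {G : Type*} [Group G] [Finite G] (Q : Subgroup G) (hQ : Cfsg.IsLargeExtraspecial Q) (L : Subgroup G) [L.Normal] (hQL : Q ≤ L) : L ⊔ Subgroup.normalizer (Q : Set G) = ⊤ := by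
  have : Fact (Nat.Prime 2) := ⟨Nat.prime_two⟩
  obtain ⟨⟨⟨hp, -, -⟩, hc⟩, h1, h2, -⟩ := hQ
  have hp' : IsPGroup 2 (Q.subgroupOf L) := hp.of_equiv (Subgroup.subgroupOfEquivOfLe hQL).symm
  obtain ⟨P, hP⟩ := hp'.exists_le_sylow
  have hF := Sylow.normalizer_sup_eq_top P
  set T : Subgroup G := (P : Subgroup L).map L.subtype with hT
  have hQT : Q ≤ T := fun x hx => ⟨⟨x, hQL hx⟩, hP hx, rfl⟩
  set Z : Subgroup G := (Subgroup.center Q).map Q.subtype with hZ
  have hZc : Nat.card Z = 2 := by
    rw [hZ, Subgroup.card_map_of_injective Q.subtype_injective, hc]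
  have hTp : IsPGroup 2 T := P.2.map _
  have hnt : Nontrivial T := by
    obtain ⟨x, hx, -⟩ := (Nat.card_eq_two_iff' (1 : Z)).1 hZc
    obtain ⟨x, y, hy, rfl⟩ := x
    refine ⟨⟨⟨y, hQT y.2⟩, 1, fun h => hx ?_⟩⟩
    apply Subtype.ext
    simpa using congrArg Subtype.val h
  have := hTp.center_nontrivial
  obtain ⟨⟨⟨t, htT⟩, htc⟩, ht1⟩ := exists_ne (1 : Subgroup.center T)
  have ht1' : t ≠ 1 := fun h => ht1 (Subtype.ext (Subtype.ext h))
  have hcent : ∀ s : G, (∀ x ∈ T, x * s = s * x) → s ∈ Z := by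
    intro s hs
    rw [← h1, Subgroup.mem_centralizer_iff]
    exact fun x hx => hs x (hQT hx)
  have htc' : ∀ x ∈ T, x * t = t * x := fun x hx =>
    congrArg Subtype.val (Subgroup.mem_center_iff.1 htc ⟨x, hx⟩)
  have huniq : ∀ s ∈ Z, s ≠ 1 → s = t := by
    intro s hs hs1
    obtain ⟨x, -, hx⟩ := (Nat.card_eq_two_iff' (1 : Z)).1 hZc
    have e1 := hx ⟨s, hs⟩ (fun h => hs1 (congrArg Subtype.val h))
    have e2 := hx ⟨t, hcent t htc'⟩ (fun h => ht1' (congrArg Subtype.val h))
    exact congrArg Subtype.val (e1.trans e2.symm)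
  rw [eq_top_iff, ← hF, sup_comm]
  apply sup_le_sup_left
  refine le_trans ?_ h2
  intro g hg
  have hgt : g * t * g⁻¹ = t := by
    apply huniq
    · apply hcent
      intro x hx
      have hx' : g⁻¹ * x * g ∈ T := by
        have := (Subgroup.mem_normalizer_iff.1 ((Subgroup.normalizer _).inv_mem hg) x).1 hx
        simpa using this
      have := htc' _ hx'
      calc x * (g * t * g⁻¹) = g * (g⁻¹ * x * g * t) * g⁻¹ := by group
        _ = g * (t * (g⁻¹ * x * g)) * g⁻¹ := by rw [this]
        _ = _ := by group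
    · intro h
      apply ht1'
      simpa using h
  rw [Subgroup.mem_centralizer_iff]
  intro s hs
  by_cases hs1 : s = 1
  · simp [hs1]
  · rw [huniq s hs hs1]
    calc t * g = g * t * g⁻¹ * g := by rw [hgt]
      _ = _ := by group

end Cfsg.Agent.S5433
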