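import Cfsg.Statements.S2552
import Cfsg.Agent.Base

set_option autoImplicit false
open Cfsg

namespace Cfsg.Agent.S2552



/-- Let F be a finite field and n ≥ 1. For every k, the special linear group SL_n(F) acts transitively on the set of k-dimensional subspaces of F^n: any two subspaces of the same dimension are carried onto each other by some matrix of determinant 1. -/
theorem result {F : Type*} [Field F] [Fintype F] (n : ℕ) (hn : 1 ≤ n) (U₁ U₂ : Submodule F (Fin n → F)) (h : Module.finrank F U₁ = Module.finrank F U₂) : ∃ g : Matrix.SpecialLinearGroup (Fin n) F, U₁.map ((Matrix.SpecialLinearGroup.toLin' g : (Fin n → F) ≃ₗ[F] (Fin n → F)) : (Fin n → F) →ₗ[F] (Fin n → F)) = U₂ := by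
  have : Nonempty (Fin n) := ⟨⟨0, hn⟩⟩
  obtain ⟨e, he⟩ := Submodule.exists_linearEquiv_restrict_eq (LinearEquiv.ofFinrankEq U₁ U₂ h)
  obtain ⟨v, hv0, hv⟩ : ∃ v : Fin n → F, v ≠ 0 ∧ (v ∈ U₁ ∨ U₁ = ⊥) := by
    by_cases h1 : U₁ = ⊥
    · obtain ⟨v, hv⟩ := exists_ne (0 : Fin n → F)
      exact ⟨v, hv, Or.inr h1⟩
    · obtain ⟨v, hv, hv0⟩ := Submodule.exists_mem_ne_zero_of_ne_bot h1
      exact ⟨v, hv0, Or.inl hv⟩
  have hd : LinearMap.det (e : (Fin n → F) →ₗ[F] (Fin n → F)) ≠ 0 := e.isUnit_det'.ne_zero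
  obtain ⟨φ, hφ⟩ := Module.Projective.exists_dual_eq_one F hv0
  let c := (LinearMap.det (e : (Fin n → F) →ₗ[F] (Fin n → F)))⁻¹ - 1
  let τ := LinearMap.transvection (c • φ) v
  let g : Matrix.SpecialLinearGroup (Fin n) F :=
    ⟨LinearMap.toMatrix' ((e : (Fin n → F) →ₗ[F] (Fin n → F)) ∘ₗ τ), by
      rw [LinearMap.det_toMatrix', LinearMap.det_comp, LinearMap.transvection.det]
      simp [c, hφ, hd]⟩
  refine ⟨g, Submodule.eq_of_le_of_finrank_eq ?_ (by rw [LinearEquiv.finrank_map_eq, h])⟩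
  rintro _ ⟨w, hw, rfl⟩
  have h1 : τ w ∈ U₁ := by
    rcases hv with hv | hv
    · exact U₁.add_mem hw (U₁.smul_mem _ hv)
    · subst hv
      rw [(Submodule.mem_bot F).mp hw, map_zero]
      exact Submodule.zero_mem _
  have h2 : (Matrix.SpecialLinearGroup.toLin' g : (Fin n → F) →ₗ[F] (Fin n → F)) w = e (τ w) := by
    change Matrix.toLin' (LinearMap.toMatrix' _) w = _
    rw [Matrix.toLin'_toMatrix']
    rfl
  rw [h2, ← he ⟨_, h1⟩]
  exact Subtype.prop _

end Cfsg.Agent.S2552
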