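import Mathlib
import Cfsg.Statements.S5622
import Cfsg.Agent.Lib.Spor96.AbsGolay

set_option autoImplicit false
open Cfsg

namespace Cfsg.Agent.S5622

open H96.AbsGolay


/-- Let C be a self-dual binary code of length 24 with minimum weight at least 8 (a 12-dimensional subspace of the 24-dimensional space over the field with two elements, any two of whose words have dot product zero, with no non-zero word of weight below 8 — an abstract extended binary Golay code). Then the minimum weight of C is exactly 8, and the supports of the words of weight 8 (the octads) form a Steiner system S(5, 8, 24) on the 24 coordinates: every 5 coordinates lie in the support of exactly one word of weight 8. -/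
theorem result (C : Submodule (ZMod 2) (Fin 24 → ZMod 2)) (hdim : Module.finrank (ZMod 2) C = 12) (horth : ∀ v ∈ C, ∀ w ∈ C, ∑ i, v i * w i = 0) (hmin : ∀ w ∈ C, w ≠ 0 → 8 ≤ hammingNorm w) : (∃ w ∈ C, hammingNorm w = 8) ∧ Cfsg.IsSteinerSystem 5 8 (Cfsg.wordsOfWeight (C : Set (Fin 24 → ZMod 2)) 8) := by
  constructor
  · obtain ⟨o, ho, h8, -⟩ := exists_octad hdim horth hmin {0, 1, 2, 3, 4} (by decide)
    exact ⟨o, ho, h8⟩
  · refine ⟨fun b hb => hb.2, fun s hs => ?_⟩
    obtain ⟨o, ho, h8, hso⟩ := exists_octad hdim horth hmin s hs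
    refine ⟨support₂ o, ⟨⟨⟨o, ho, rfl⟩, h8⟩, hso⟩, ?_⟩
    rintro _ ⟨⟨⟨o', ho', rfl⟩, h8'⟩, hso'⟩
    by_contra hne
    have h1 := close hmin (C.sub_mem ho' ho) (fun e => hne (by rw [e]))
    have h2 : 5 ≤ (support₂ o' ∩ support₂ o).card := by
      rw [← hs]; exact Finset.card_le_card (Finset.subset_inter hso' hso)
    rw [← norm_eq_card] at h8'
    omega

end Cfsg.Agent.S5622
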