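import Cfsg.Statements.S0375
import Mathlib
import Cfsg.Agent.Base
import Cfsg.Agent.Lib.Design.Aut
import Cfsg.Agent.S5622

set_option autoImplicit false
open Cfsg

namespace Cfsg.Agent.S0375

/-- A doubly even self-dual binary code of length 24 with no words of weight 4 is equivalent to the length-24 code built from the squares modulo 23. -/
theorem result (C : Submodule (ZMod 2) (Fin 24 → ZMod 2)) (hdim : Module.finrank (ZMod 2) C = 12) (horth : ∀ v ∈ C, ∀ w ∈ C, ∑ i, v i * w i = 0) (h4 : ∀ w ∈ C, 4 ∣ hammingNorm w) (hno4 : ∀ w ∈ C, hammingNorm w ≠ 4) : ∃ e : Fin 24 ≃ Cfsg.GolayPt, ∀ w : Cfsg.GolayPt → ZMod 2, w ∈ Cfsg.golayCode ↔ (fun i => w (e i)) ∈ C := by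
  have hmin : ∀ w ∈ C, w ≠ 0 → 8 ≤ hammingNorm w := fun w hw h0 => by
    have h1 := h4 w hw
    have h2 := hno4 w hw
    have h3 : hammingNorm w ≠ 0 := hammingNorm_ne_zero_iff.2 h0
    omega
  obtain ⟨g, hg, hB, -⟩ := H17.aut24 (Fintype.card_fin 24) (S5622.result C hdim horth hmin).2
  let e : Fin 24 ≃ GolayPt := Equiv.ofBijective g ⟨g.injective, hg⟩
  have hs : ∀ v : Fin 24 → ZMod 2, (support₂ v).map g = support₂ fun p => v (e.symm p) := by
    intro v
    ext p
    obtain ⟨a, rfl⟩ := hg p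
    rw [Finset.mem_map', H15.mem_support₂, H15.mem_support₂]
    show _ ↔ v (e.symm (e a)) ≠ 0
    rw [e.symm_apply_apply]
  have h1 : ∀ s ∈ H15.CodeSets, (fun i => H15.wordOf s (e i)) ∈ C := by
    refine H15.codeSets_induction ?_ (fun s t hs ht => ?_) fun b hb => ?_
    · rw [H15.wordOf_empty]; exact C.zero_mem
    · rw [H15.wordOf_symmDiff]; exact C.add_mem hs ht
    · have := (hB (support₂ fun i => H15.wordOf (H15.ofMask b) (e i))).2 (by
        rw [hs]
        simp only [Equiv.apply_symm_apply]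
        rw [H15.support₂_wordOf]
        exact H15.basisL_octad b hb)
      obtain ⟨⟨o, ho, eo⟩, -⟩ := this
      rw [← H96.AbsGolay.word_supp (fun i => _), ← eo, H96.AbsGolay.word_supp]
      exact ho
  have h2 : ∀ v ∈ C, (fun p => v (e.symm p)) ∈ golayCode := by
    refine H96.AbsGolay.octad_induction hdim horth hmin golayCode.zero_mem fun w _ o ho h8 hw => ?_
    refine golayCode.add_mem hw (H15.support₂_mem_codeSets_iff.1 ?_)
    rw [← hs]
    exact ((hB _).1 ⟨⟨o, ho, rfl⟩, h8⟩).1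
  refine ⟨e, fun w => ⟨fun hw => ?_, fun hw => by simpa using h2 _ hw⟩⟩
  have := h1 _ (H15.support₂_mem_codeSets_iff.2 hw)
  rwa [H15.wordOf_support₂] at this

end Cfsg.Agent.S0375
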