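import Cfsg.Statements.S0406
import Cfsg.Agent.Lib.LEx73.LeechA
import Cfsg.Agent.Lib.Leech.Gen
import Cfsg.Agent.S0375

set_option autoImplicit false
open Matrix
open Cfsg Finset H73.Lch

namespace Cfsg.Agent.S0406

variable {β : LinearMap.BilinForm ℤ (Fin 24 → ℤ)}

theorem card_le_of_orth {κ : Type*} [Fintype κ] (v : κ → Fin 24 → ℤ) (h0 : ∀ i, β (v i) (v i) ≠ 0)
    (h1 : ∀ i j, i ≠ j → β (v i) (v j) = 0) : Fintype.card κ ≤ 24 := by
  have : LinearIndependent ℤ v := by
    rw [Fintype.linearIndependent_iff]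
    intro g hg j
    have := congrArg (fun x => β x (v j)) hg
    simp only [map_sum, map_smul, LinearMap.sum_apply, LinearMap.smul_apply, smul_eq_mul, map_zero,
      LinearMap.zero_apply] at this
    rw [sum_eq_single j (fun i _ hi => by rw [h1 i j hi, mul_zero])
      (fun f => absurd (mem_univ j) f)] at this
    exact (mul_eq_zero.1 this).resolve_right (h0 j)
  simpa using this.fintype_card_le_finrank

/-- An even positive definite form without roots. -/
structure Ev (β : LinearMap.BilinForm ℤ (Fin 24 → ℤ)) : Prop where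
  symm : ∀ x y, β x y = β y x
  min : ∀ x, x ≠ 0 → 4 ≤ β x x
  even : ∀ x, (2 : ℤ) ∣ β x x

/-- reduction modulo two -/
def red (x : Fin 24 → ℤ) : Fin 24 → ZMod 2 := fun i => x i

theorem red_eq_iff {x y : Fin 24 → ℤ} : red x = red y ↔ ∃ z : Fin 24 → ℤ, x - y = (2 : ℤ) • z := by
  constructor
  · intro h
    choose z hz using fun i => (cast_eq_iff _ _).1 (congrFun h i)
    exact ⟨z, funext hz⟩
  · rintro ⟨z, hz⟩
    exact funext fun i => (cast_eq_iff _ _).2 ⟨z i, congrFun hz i⟩

theorem Ev.short (h : Ev β) {x y : Fin 24 → ℤ} (hx : β x x ≤ 8) (hy : β y y ≤ 8)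
    (hr : red x = red y) (h1 : x ≠ y) (h2 : x ≠ -y) : β x x = 8 ∧ β y y = 8 ∧ β x y = 0 := by
  obtain ⟨z, hz⟩ := red_eq_iff.1 hr
  have ex : x = y + (2 : ℤ) • z := by rw [← hz]; abel
  have hz0 : z ≠ 0 := by rintro rfl; exact h1 (by simpa using ex)
  have hw0 : y + z ≠ 0 := by
    intro e
    apply h2
    rw [ex, eq_neg_of_add_eq_zero_right e, two_smul]; abel
  have a1 := h.min z hz0
  have a2 := h.min _ hw0
  rw [ex] at hx ⊢
  simp only [map_add, map_smul, LinearMap.add_apply, LinearMap.smul_apply, smul_eq_mul,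
    h.symm z y] at *
  omega

theorem exists_half {S : Finset (Fin 24 → ℤ)} (h0 : 0 ∉ S) (hn : ∀ x ∈ S, -x ∈ S) :
    ∃ T ⊆ S, S.card ≤ 2 * T.card ∧ ∀ x ∈ T, -x ∉ T := by
  classical
  let f : (Fin 24 → ℤ) → ℕ := Encodable.encode
  have hf : Function.Injective f := Encodable.encode_injective
  refine ⟨S.filter fun x => f x < f (-x), filter_subset _ _, ?_, fun x hx hx' => ?_⟩
  · have e1 := card_filter_add_card_filter_not (s := S) (fun x => f x < f (-x))
    have e2 : (S.filter fun x => ¬ f x < f (-x)).card ≤ (S.filter fun x => f x < f (-x)).card := by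
      refine card_le_card_of_injOn (fun x => -x) (fun x hx => ?_) (neg_injective.injOn)
      obtain ⟨h1, h2⟩ := mem_filter.1 hx
      refine mem_filter.2 ⟨hn x h1, ?_⟩
      have : f x ≠ f (-x) := fun e => h0 (by
        have e3 : x = 0 := funext fun i => by
          have := congrFun (hf e) i
          simp only [Pi.neg_apply, Pi.zero_apply] at this ⊢
          omega
        exact e3 ▸ h1)
      simp only [neg_neg]
      omega
    omega
  · have h1 := (mem_filter.1 hx).2
    have h2 := (mem_filter.1 hx').2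
    rw [neg_neg] at h2
    omega

/-- A frame: pairwise orthogonal vectors of norm eight, congruent modulo two. -/
structure Fr (β : LinearMap.BilinForm ℤ (Fin 24 → ℤ)) {ι : Type} [DecidableEq ι]
    (v : ι → Fin 24 → ℤ) : Prop where
  orth : ∀ i j, β (v i) (v j) = if i = j then 8 else 0
  cong : ∀ i j, red (v i) = red (v j)

theorem Ev.exists_frame (h : Ev β) {S4 S6 S8 : Finset (Fin 24 → ℤ)}
    (h4 : ∀ x, x ∈ S4 ↔ β x x = 4) (h6 : ∀ x, x ∈ S6 ↔ β x x = 6) (h8 : ∀ x, x ∈ S8 ↔ β x x = 8)
    (c4 : S4.card = 196560) (c6 : S6.card = 16773120) (c8 : S8.card = 398034000) :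
    ∃ v : Fin 24 → Fin 24 → ℤ, Fr β v := by
  classical
  obtain ⟨a, ha⟩ : ∃ a, 48 ≤ (S8.filter fun x => red x = a).card := by
    by_contra hno
    push Not at hno
    have e1 := card_le_mul_card_image (f := red) S8 47 (fun a _ => by have := hno a; omega)
    have hlt : ∀ x ∈ S4 ∪ S6, β x x < 8 ∧ x ≠ 0 := by
      intro x hx
      rcases mem_union.1 hx with f | f
      · rw [h4] at f
        exact ⟨by omega, by rintro rfl; simp at f⟩
      · rw [h6] at f
        exact ⟨by omega, by rintro rfl; simp at f⟩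
    have e2 := card_le_mul_card_image (f := red) (S4 ∪ S6) 2 (fun a ha => by
      obtain ⟨x, hx, rfl⟩ := mem_image.1 ha
      refine (card_le_card (t := {x, -x}) fun y hy => ?_).trans card_le_two
      obtain ⟨h1, h2⟩ := mem_filter.1 hy
      by_contra hne
      simp only [mem_insert, mem_singleton, not_or] at hne
      have := h.short (hlt y h1).1.le (hlt x hx).1.le h2 hne.1 hne.2
      have := (hlt y h1).1
      omega)
    have e3 : (S4 ∪ S6).card = 196560 + 16773120 := by
      rw [card_union_of_disjoint, c4, c6]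
      rw [disjoint_left]
      intro x f1 f2
      rw [h4] at f1
      rw [h6] at f2
      omega
    have d1 : Disjoint ((S4 ∪ S6).image red) (S8.image red) := by
      rw [disjoint_left]
      intro a f1 f2
      obtain ⟨x, hx, rfl⟩ := mem_image.1 f1
      obtain ⟨y, hy, e⟩ := mem_image.1 f2
      rw [h8] at hy
      have := (hlt x hx).1
      have := h.short hy.le (hlt x hx).1.le e (by rintro rfl; omega)
        (by rintro rfl; simp at hy; omega)
      omega
    have d2 : red 0 ∉ (S4 ∪ S6).image red ∪ S8.image red := by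
      intro f
      have key : ∀ x, β x x ≤ 8 → x ≠ 0 → red x ≠ red 0 := fun x f1 f2 f3 => by
        have := (h.short f1 (by simp) f3 f2 (by simpa using f2)).2.1
        simp at this
      rcases mem_union.1 f with f | f
      · obtain ⟨x, hx, e⟩ := mem_image.1 f
        exact key x (hlt x hx).1.le (hlt x hx).2 e
      · obtain ⟨x, hx, e⟩ := mem_image.1 f
        rw [h8] at hx
        exact key x hx.le (by rintro rfl; simp at hx) e
    have e4 := card_le_univ (insert (red 0) ((S4 ∪ S6).image red ∪ S8.image red))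
    rw [card_insert_of_notMem d2, card_union_of_disjoint d1, Fintype.card_fun, ZMod.card,
      Fintype.card_fin] at e4
    omega
  obtain ⟨T, hT, c1, c2⟩ := exists_half (S := S8.filter fun x => red x = a)
    (fun f => by simpa [h8] using (mem_filter.1 f).1) (fun x hx => by
      obtain ⟨f1, f2⟩ := mem_filter.1 hx
      refine mem_filter.2 ⟨by simpa [h8] using f1, ?_⟩
      rw [← f2, red_eq_iff]
      exact ⟨-x, by rw [two_smul]; abel⟩)
  obtain ⟨T', hT', c3⟩ := exists_subset_card_eq (s := T) (n := 24) (by omega)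
  let e : Fin 24 ≃ T' := (T'.equivFinOfCardEq c3).symm
  have hm : ∀ i, β (e i) (e i) = 8 ∧ red (e i) = a := fun i => by
    have := mem_filter.1 (hT (hT' (e i).2))
    exact ⟨(h8 _).1 this.1, this.2⟩
  refine ⟨fun i => e i, fun i j => ?_, fun i j => (hm i).2.trans (hm j).2.symm⟩
  split_ifs with hij
  · rw [← hij]; exact (hm i).1
  · refine (h.short (hm i).1.le (hm j).1.le ((hm i).2.trans (hm j).2.symm)
      (fun f => hij (e.injective (Subtype.ext f))) (fun f => ?_)).2.2
    exact c2 _ (hT' (e j).2) (f ▸ hT' (e i).2)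

/-- the coordinates with respect to a frame -/
def co (β : LinearMap.BilinForm ℤ (Fin 24 → ℤ)) {ι : Type} (v : ι → Fin 24 → ℤ) :
    (Fin 24 → ℤ) →+ (ι → ℤ) where
  toFun x i := β x (v i)
  map_zero' := by funext i; simp
  map_add' x y := by funext i; simp

theorem co_apply {ι : Type} (v : ι → Fin 24 → ℤ) (x : Fin 24 → ℤ) (i : ι) :
    co β v x i = β x (v i) := rfl

section
variable {ι : Type} [Fintype ι] [DecidableEq ι] {v : ι → Fin 24 → ℤ}

theorem Ev.parseval (h : Ev β) (hv : Fr β v) (hι : Fintype.card ι = 24) (x y : Fin 24 → ℤ) :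
    ∑ i, co β v x i * co β v y i = 8 * β x y := by
  have e : (8 : ℤ) • x - ∑ i, β x (v i) • v i = 0 := by
    by_contra hne
    have ho : ∀ j, β ((8 : ℤ) • x - ∑ i, β x (v i) • v i) (v j) = 0 := by
      intro j
      simp only [map_sub, map_sum, map_smul, LinearMap.sub_apply, LinearMap.sum_apply,
        LinearMap.smul_apply, smul_eq_mul, hv.orth, mul_ite, mul_zero, sum_ite_eq', mem_univ,
        if_true]
      ring
    have := card_le_of_orth (β := β)
      (fun o : Option ι => o.elim ((8 : ℤ) • x - ∑ i, β x (v i) • v i) v) (fun o => by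
        cases o with
        | none => have := h.min _ hne; simp only [Option.elim]; omega
        | some i => simp [hv.orth]) (fun o o' hne' => by
        cases o <;> cases o'
        · exact absurd rfl hne'
        · exact ho _
        · exact (h.symm _ _).trans (ho _)
        · simp only [Option.elim]
          rw [hv.orth, if_neg (fun f => hne' (by rw [f]))])
    rw [Fintype.card_option, hι] at this
    omega
  have := congrArg (fun z => β z y) (sub_eq_zero.1 e)
  simp only [map_sum, map_smul, LinearMap.sum_apply, LinearMap.smul_apply, smul_eq_mul] at this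
  rw [this]
  exact sum_congr rfl fun i _ => by rw [co_apply, co_apply, h.symm y]

theorem Ev.parseval' (h : Ev β) (hv : Fr β v) (hι : Fintype.card ι = 24) (x : Fin 24 → ℤ) :
    ∑ i, co β v x i ^ 2 = 8 * β x x := by
  rw [← h.parseval hv hι]
  exact sum_congr rfl fun i _ => pow_two _

theorem Ev.preL (h : Ev β) (hv : Fr β v) (hι : Fintype.card ι = 24) : PreL (co β v).range := by
  have e8 : ∀ i, co β v (v i) = Pi.single i 8 := fun i => funext fun j => by
    rw [co_apply, hv.orth, Pi.single_apply]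
    simp only [eq_comm]
  refine ⟨?_, ?_, ?_, fun i => ⟨v i, e8 i⟩, fun i j => ?_⟩
  · rintro _ ⟨x, rfl⟩ _ ⟨y, rfl⟩
    rw [h.parseval hv hι]
    exact dvd_mul_right _ _
  · rintro _ ⟨x, rfl⟩
    rw [h.parseval' hv hι]
    have := h.even x
    omega
  · rintro _ ⟨x, rfl⟩ hx
    rw [h.parseval' hv hι]
    have := h.min x (by rintro rfl; exact hx (map_zero _))
    omega
  · obtain ⟨z, hz⟩ := red_eq_iff.1 (hv.cong i j)
    refine ⟨z, funext fun k => ?_⟩
    have := congrFun (congrArg (co β v) hz) k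
    rw [map_sub, e8, e8, map_zsmul] at this
    simp only [Pi.sub_apply, Pi.smul_apply, smul_eq_mul, Pi.single_apply] at this ⊢
    split_ifs at this ⊢ <;> omega

theorem Ev.inj (h : Ev β) (hv : Fr β v) (hι : Fintype.card ι = 24) :
    Function.Injective (co β v) := by
  rw [injective_iff_map_eq_zero]
  intro x hx
  by_contra h0
  have h1 := h.min x h0
  have h2 := h.parseval' hv hι x
  rw [hx] at h2
  simp at h2
  omega

end

theorem eq_leech {Λ : AddSubgroup (GolayPt → ℤ)} (h : PreL Λ) (hc : cd Λ = golayCode)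
    {j : GolayPt} (hj : H16.odd3 j ∈ Λ) : Λ = leechLattice := by
  have hL : H16.odd3 j ∈ leechLattice := (H16.cong_odd3 j).mem H16.empty_mem_code
  have hodd : ∀ i, ¬ (2 : ℤ) ∣ H16.odd3 j i := fun i => by
    rw [H16.odd3_apply]; split_ifs <;> omega
  have hcong : ∀ y : GolayPt → ℤ, ∀ i, (4 : ℤ) ∣ ((2 : ℤ) • y) i - 0 -
      2 * H16.ind (support₂ fun i => (y i : ZMod 2)) i := by
    intro y i
    rw [H16.ind_apply]
    simp only [H16.mem_support₂, ne_eq, cast_eq_zero_iff, Pi.smul_apply, smul_eq_mul]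
    split_ifs <;> omega
  have hev : ∀ y : GolayPt → ℤ, (2 : ℤ) • y ∈ Λ → H16.Cong ((2 : ℤ) • y) 0
      (support₂ fun i => (y i : ZMod 2)) := by
    intro y hy
    refine ⟨hcong y, ?_⟩
    have h1 := h.dot _ hy _ hj
    rw [H16.odd3_eq] at h1
    simp only [Pi.sub_apply, mul_sub, sum_sub_distrib, Pi.single_apply, mul_ite, mul_zero,
      sum_ite_eq', mem_univ, if_true, mul_one, Pi.smul_apply, smul_eq_mul] at h1 ⊢
    omega
  have hhalf : ∀ x : GolayPt → ℤ, (∀ i, (2 : ℤ) ∣ x i) → ∃ y, x = (2 : ℤ) • y := fun x hx => by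
    choose y hy using hx
    exact ⟨y, funext hy⟩
  have h1 : ∀ x ∈ Λ, (∀ i, (2 : ℤ) ∣ x i) → x ∈ leechLattice := by
    intro x hx h2
    obtain ⟨y, rfl⟩ := hhalf x h2
    exact (hev y hx).mem (H16.support₂_mem_code (hc ▸ ⟨y, hx, fun _ => rfl⟩))
  have h2 : ∀ x ∈ leechLattice, (∀ i, (2 : ℤ) ∣ x i) → x ∈ Λ := by
    intro x hx h2
    rcases (H16.mem_leech_iff' x).1 hx with ⟨c, hc', e⟩ | ⟨c, -, e⟩
    · obtain ⟨y, hy, ey⟩ : H16.word c ∈ cd Λ := hc ▸ (H16.mem_code_iff c).1 hc'
      have e1 := hev y hy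
      rw [show (fun i => (y i : ZMod 2)) = H16.word c from funext ey, H16.support₂_word] at e1
      have : x - (2 : ℤ) • y ∈ Λ := by
        refine h.mem_of_four j (fun i => ?_) ?_
        · have := e.1 i
          have := e1.1 i
          rw [Pi.sub_apply]
          omega
        · have := e.2
          have := e1.2
          simp only [Pi.sub_apply, sum_sub_distrib]
          omega
      simpa using Λ.add_mem this hy
    · have := e.1 j
      have := h2 j
      omega
  ext x
  constructor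
  · intro hx
    by_cases e : (2 : ℤ) ∣ x j
    · exact h1 x hx fun i => by have := h.par hx i j; omega
    · have := h1 _ (Λ.sub_mem hx hj) fun i => by
        have := h.par hx i j
        have := hodd i
        rw [Pi.sub_apply]
        omega
      simpa using leechLattice.add_mem this hL
  · intro hx
    by_cases e : (2 : ℤ) ∣ x j
    · exact h2 x hx fun i => by have := H16.two_dvd_sub_of_mem hx i j; omega
    · have := h2 _ (leechLattice.sub_mem hx hL) fun i => by
        have := H16.two_dvd_sub_of_mem hx i j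
        have := hodd i
        rw [Pi.sub_apply]
        omega
      simpa using Λ.add_mem this hj

theorem auto_lemmas_S0406 : True := by
  have := @red.eq_1
  have := @co.eq_1
  trivial

/-- A rank-24 even lattice with no roots and the stated numbers of vectors of norms 4, 6, 8 is isomorphic to the Leech lattice. -/
theorem result (B : Matrix (Fin 24) (Fin 24) ℤ) (hsymm : B.IsSymm) (hpos : ∀ x : Fin 24 → ℤ, x ≠ 0 → 0 < x ⬝ᵥ (B *ᵥ x)) (heven : ∀ x : Fin 24 → ℤ, (2 : ℤ) ∣ x ⬝ᵥ (B *ᵥ x)) (h2 : ∀ x : Fin 24 → ℤ, x ⬝ᵥ (B *ᵥ x) ≠ 2) (h4 : {x : Fin 24 → ℤ | x ⬝ᵥ (B *ᵥ x) = 4}.ncard = 196560) (h6 : {x : Fin 24 → ℤ | x ⬝ᵥ (B *ᵥ x) = 6}.ncard = 16773120) (h8 : {x : Fin 24 → ℤ | x ⬝ᵥ (B *ᵥ x) = 8}.ncard = 398034000) : ∃ f : (Fin 24 → ℤ) ≃+ Cfsg.leechLattice, ∀ x : Fin 24 → ℤ, Cfsg.sqNorm ((f x : Cfsg.leechLattice) : Cfsg.GolayPt → ℤ) = 8 * (x ⬝ᵥ (B *ᵥ x)) := by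
  classical
  let β : LinearMap.BilinForm ℤ (Fin 24 → ℤ) := Matrix.toBilin' B
  have hβ : ∀ x y, β x y = x ⬝ᵥ (B *ᵥ y) := fun x y => Matrix.toBilin'_apply' B x y
  have h : Ev β := by
    refine ⟨fun x y => ?_, fun x hx => ?_, fun x => hβ x x ▸ heven x⟩
    · rw [hβ, hβ, dotProduct_mulVec, ← mulVec_transpose, hsymm.eq, dotProduct_comm]
    · have := hpos x hx
      have := heven x
      have := h2 x
      rw [hβ]
      omega
  have fin : ∀ (k : ℤ) (n : ℕ), n ≠ 0 → {x : Fin 24 → ℤ | x ⬝ᵥ (B *ᵥ x) = k}.ncard = n →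
      ∃ S : Finset (Fin 24 → ℤ), (∀ x, x ∈ S ↔ β x x = k) ∧ S.card = n := by
    intro k n hn e
    have hf := Set.finite_of_ncard_ne_zero (e ▸ hn)
    exact ⟨hf.toFinset, fun x => by rw [Set.Finite.mem_toFinset, hβ]; rfl, by
      rw [← e, Set.ncard_eq_toFinset_card _ hf]⟩
  obtain ⟨S4, a4, c4⟩ := fin 4 _ (by norm_num) h4
  obtain ⟨S6, a6, c6⟩ := fin 6 _ (by norm_num) h6
  obtain ⟨S8, a8, c8⟩ := fin 8 _ (by norm_num) h8
  obtain ⟨v, hv⟩ := h.exists_frame a4 a6 a8 c4 c6 c8
  have hι := Fintype.card_fin 24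
  have hP := h.preL hv hι
  obtain ⟨hdim, _, ⟨x₀, rfl⟩, j, hj1, hj2⟩ := hP.main hι (M := S4.image (co β v)) (fun y hy => by
    obtain ⟨x, hx, rfl⟩ := mem_image.1 hy
    exact ⟨⟨x, rfl⟩, by rw [h.parseval' hv hι, (a4 x).1 hx]; rfl⟩)
    (by rw [card_image_of_injective _ (h.inj hv hι), c4])
  obtain ⟨e, he⟩ := Cfsg.Agent.S0375.result _ hdim (fun v hv w hw => hP.orth hv hw)
    (fun w hw => hP.four_dvd hw) (fun w hw f => by
      have := hP.eight_le hw (by rintro rfl; simp at f)
      omega)
  let ε : Fin 24 → ℤ := fun i => if (4 : ℤ) ∣ co β v x₀ i - 1 then 1 else -1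
  have hε : ∀ i, ε i = 1 ∨ ε i = -1 := fun i => by
    simp only [ε]; split_ifs <;> simp
  let v' : GolayPt → Fin 24 → ℤ := fun p => ε (e.symm p) • v (e.symm p)
  have hco : ∀ x p, co β v' x p = ε (e.symm p) * co β v x (e.symm p) := fun x p => by
    simp only [co_apply, v', map_smul, smul_eq_mul]
  have hred : ∀ p, red (v' p) = red (v (e.symm p)) := fun p => by
    rcases hε (e.symm p) with f | f
    · simp only [v', f, one_smul]
    · rw [red_eq_iff]
      exact ⟨-v (e.symm p), by simp only [v', f, two_smul, neg_smul, one_smul]; abel⟩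
  have hv' : Fr β v' := by
    refine ⟨fun p q => ?_, fun p q => by rw [hred, hred]; exact hv.cong _ _⟩
    simp only [v', map_smul, LinearMap.smul_apply, smul_eq_mul, hv.orth,
      EmbeddingLike.apply_eq_iff_eq]
    split_ifs with f
    · subst f
      rcases hε (e.symm p) with g | g <;> rw [g] <;> rfl
    · simp
  have hP' := h.preL hv' H16.card_pt
  have hcast : ∀ (i : Fin 24) (a : ℤ), ((ε i * a : ℤ) : ZMod 2) = a := fun i a => by
    rw [cast_eq_iff]
    rcases hε i with g | g <;> rw [g] <;> omega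
  have hc : cd (co β v').range = golayCode := by
    ext w
    rw [he]
    constructor
    · rintro ⟨y, ⟨x, hx⟩, ey⟩
      refine ⟨fun i => ε i * y (e i), ⟨x, funext fun i => ?_⟩, fun i => by rw [hcast, ey]⟩
      have := congrFun hx (e i)
      rw [hco, e.symm_apply_apply] at this
      simp only [Pi.smul_apply, smul_eq_mul] at this ⊢
      rcases hε i with g | g <;> rw [g] at this ⊢ <;> omega
    · rintro ⟨y, ⟨x, hx⟩, ey⟩
      refine ⟨fun p => ε (e.symm p) * y (e.symm p), ⟨x, funext fun p => ?_⟩, fun p => by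
        rw [hcast, ey]; simp⟩
      rw [hco, hx]
      simp only [Pi.smul_apply, smul_eq_mul]
      ring
  have hj : H16.odd3 (e j) ∈ (co β v').range := by
    refine ⟨x₀, funext fun p => ?_⟩
    rw [hco, H16.odd3_apply]
    simp only [ε, ← e.symm_apply_eq]
    by_cases f : e.symm p = j
    · rw [if_pos f, f]
      split_ifs <;> omega
    · have := hj2 _ f
      rw [if_neg f]
      split_ifs <;> omega
  have hL := eq_leech hP' hc hj
  refine ⟨(AddMonoidHom.ofInjective (h.inj hv' H16.card_pt)).trans (AddEquiv.addSubgroupCongr hL),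
    fun x => ?_⟩
  rw [← hβ, ← h.parseval' hv' H16.card_pt]
  rfl

end Cfsg.Agent.S0406
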