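import Mathlib
import Cfsg.Statements.S1632
import Cfsg.Agent.Lib.Theta.Modular

set_option autoImplicit false
open Matrix
open Cfsg

namespace Cfsg.Agent.S1632

section
open UpperHalfPlane ModularForm MatrixGroups EisensteinSeries ArithmeticFunction

theorem bern4 : bernoulli 4 = -1 / 30 := by
  rw [bernoulli_eq_bernoulli'_of_ne_one (by norm_num), bernoulli'_four]

theorem bern6 : bernoulli 6 = 1 / 42 := by decide +kernel

theorem e4 (m : ℕ) : (qExpansion 1 E₄).coeff m =
    ((if m = 0 then 1 else 240 * ArithmeticFunction.sigma 3 m : ℕ) : ℂ) := by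
  rw [E_qExpansion_coeff _ ⟨2, rfl⟩, bern4]
  split_ifs <;> norm_num

theorem e6 (m : ℕ) : (qExpansion 1 E₆).coeff m =
    ((if m = 0 then 1 else -504 * ArithmeticFunction.sigma 5 m : ℤ) : ℂ) := by
  rw [E_qExpansion_coeff _ ⟨3, rfl⟩, bern6]
  split_ifs <;> norm_num

noncomputable def cmb : ModularForm 𝒮ℒ 12 :=
  (7 / 12 : ℂ) • ModularForm.mcast (by decide) (E₄.pow 3) +
    (5 / 12 : ℂ) • ModularForm.mcast (by decide) (E₆.pow 2)

theorem cmb_q : qExpansion 1 cmb =
    (7 / 12 : ℂ) • (qExpansion 1 E₄ * qExpansion 1 E₄ * qExpansion 1 E₄) +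
      (5 / 12 : ℂ) • (qExpansion 1 E₆ * qExpansion 1 E₆) := by
  rw [cmb, FunLike.coe_add, ModularForm.qExpansion_add one_pos one_mem_strictPeriods_SL,
    FunLike.coe_smul, FunLike.coe_smul, ModularForm.qExpansion_smul one_pos one_mem_strictPeriods_SL,
    ModularForm.qExpansion_smul one_pos one_mem_strictPeriods_SL]
  simp only [coe_mcast, ModularForm.qExpansion_pow one_pos one_mem_strictPeriods_SL]
  ring_nf

theorem cmb_coeff : (qExpansion 1 cmb).coeff 0 = 1 ∧ (qExpansion 1 cmb).coeff 1 = 0 ∧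
    (qExpansion 1 cmb).coeff 2 = 196560 ∧ (qExpansion 1 cmb).coeff 3 = 16773120 ∧
    (qExpansion 1 cmb).coeff 4 = 398034000 := by
  have a0 : (qExpansion 1 E₄).coeff 0 = 1 := by rw [e4]; norm_num
  have a1 : (qExpansion 1 E₄).coeff 1 = 240 := by rw [e4]; norm_num
  have a2 : (qExpansion 1 E₄).coeff 2 = 2160 := by
    rw [e4, show ArithmeticFunction.sigma 3 2 = 9 by decide]; norm_num
  have a3 : (qExpansion 1 E₄).coeff 3 = 6720 := by
    rw [e4, show ArithmeticFunction.sigma 3 3 = 28 by decide]; norm_num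
  have a4 : (qExpansion 1 E₄).coeff 4 = 17520 := by
    rw [e4, show ArithmeticFunction.sigma 3 4 = 73 by decide]; norm_num
  have b0 : (qExpansion 1 E₆).coeff 0 = 1 := by rw [e6]; norm_num
  have b1 : (qExpansion 1 E₆).coeff 1 = -504 := by rw [e6]; norm_num
  have b2 : (qExpansion 1 E₆).coeff 2 = -16632 := by
    rw [e6, show ArithmeticFunction.sigma 5 2 = 33 by decide]; norm_num
  have b3 : (qExpansion 1 E₆).coeff 3 = -122976 := by
    rw [e6, show ArithmeticFunction.sigma 5 3 = 244 by decide]; norm_num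
  have b4 : (qExpansion 1 E₆).coeff 4 = -532728 := by
    rw [e6, show ArithmeticFunction.sigma 5 4 = 1057 by decide]; norm_num
  rw [cmb_q]
  simp only [map_add, PowerSeries.coeff_smul, PowerSeries.coeff_mul, Finset.Nat.antidiagonal_succ,
    Finset.Nat.antidiagonal_zero, Finset.sum_cons, Finset.sum_map, Finset.sum_singleton,
    Function.Embedding.coe_prodMap, Function.Embedding.coeFn_mk, Prod.map_apply, Nat.succ_eq_add_one,
    Function.Embedding.refl_apply, smul_eq_mul, Nat.reduceAdd, zero_add, a0, a1, a2, a3, a4, b0, b1, b2,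
    b3, b4]
  norm_num

end

/-- An even unimodular lattice of rank 24 without roots has 196560, 16773120 and 398034000 vectors of norms 4, 6 and 8. -/
theorem result (B : Matrix (Fin 24) (Fin 24) ℤ) (hsymm : B.IsSymm) (hpos : ∀ x : Fin 24 → ℤ, x ≠ 0 → 0 < x ⬝ᵥ (B *ᵥ x)) (heven : ∀ x : Fin 24 → ℤ, (2 : ℤ) ∣ x ⬝ᵥ (B *ᵥ x)) (hdet : B.det = 1) (h2 : ∀ x : Fin 24 → ℤ, x ⬝ᵥ (B *ᵥ x) ≠ 2) : {x : Fin 24 → ℤ | x ⬝ᵥ (B *ᵥ x) = 4}.ncard = 196560 ∧ {x : Fin 24 → ℤ | x ⬝ᵥ (B *ᵥ x) = 6}.ncard = 16773120 ∧ {x : Fin 24 → ℤ | x ⬝ᵥ (B *ᵥ x) = 8}.ncard = 398034000 := by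
  have h : H56.EU B := ⟨hsymm, hpos, heven, hdet⟩
  obtain ⟨c0, c1, c2, c3, c4⟩ := cmb_coeff
  have hz : h.form - cmb = 0 := by
    refine ModularForm.sturm_bound_levelOne (k := 12) ?_
    have : (1 + 1 : ℕ) ≤ (UpperHalfPlane.qExpansion 1 (h.form - cmb)).order := by
      refine PowerSeries.nat_le_order _ _ fun i hi => ?_
      rw [ModularForm.qExpansion_sub one_pos one_mem_strictPeriods_SL, map_sub, h.coeff]
      interval_cases i
      · rw [c0]
        have : {x : Fin 24 → ℤ | x ⬝ᵥ (B *ᵥ x) = 2 * ((0 : ℕ) : ℤ)} = {0} := by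
          ext x
          constructor
          · intro hx
            by_contra c
            have := hpos x c
            simp only [Set.mem_ofPred_eq] at hx
            omega
          · rintro rfl; simp
        rw [this]; simp
      · rw [c1]
        have : {x : Fin 24 → ℤ | x ⬝ᵥ (B *ᵥ x) = 2 * ((1 : ℕ) : ℤ)} = ∅ := by
          ext x
          simpa using h2 x
        rw [this]; simp
    exact lt_of_lt_of_le (by exact_mod_cast (by norm_num)) this
  rw [← sub_eq_zero.1 hz, h.coeff] at c2 c3 c4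
  exact ⟨by exact_mod_cast c2, by exact_mod_cast c3, by exact_mod_cast c4⟩

end Cfsg.Agent.S1632
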