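import Mathlib
import Cfsg.Statements.S2588
import Cfsg.Agent.Lib.StarAlg.Unitary
-- import your own Cfsg.Agent.* helpers here

set_option autoImplicit false
open Cfsg

namespace Cfsg.Agent.S2588

/-- An invertible matrix A over the field with q² elements is conjugate in GL_n(q²) to an element of the general unitary group GU_n(q) (isometries of the Hermitian form Σ u_i v_i^q) if and only if A is similar to the inverse transpose of its entrywise q-th power (A ~ A^(−qT), the image of A under the map sending a matrix to the inverse transpose of its entrywise q-th power — inverse transpose composed with the field automorphism — whose fixed points form GU_n(q)). -/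
theorem result {K : Type*} [Field K] [Fintype K] {q n : ℕ} (hK : Fintype.card K = q ^ 2) (A : GL (Fin n) K) : (∃ B : ↥(Cfsg.GU n K q), IsConj A (B : GL (Fin n) K)) ↔ IsConj (A : Matrix (Fin n) (Fin n) K) (((A : Matrix (Fin n) (Fin n) K).map (fun x : K => x ^ q)).transpose)⁻¹ := by
  obtain ⟨σ, hσ, hσσ, hne⟩ := H66.exists_conjHom hK
  have hfun : (fun x : K => x ^ q) = σ := by ext x; rw [hσ]
  rw [hfun, ← H66.cstar_apply]
  have hAu : IsUnit (H66.cstar σ (A : Matrix (Fin n) (Fin n) K)) := H66.isUnit_cstar σ A.isUnit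
  have hdet : IsUnit (H66.cstar σ (A : Matrix (Fin n) (Fin n) K)).det :=
    (Matrix.isUnit_iff_isUnit_det _).mp hAu
  constructor
  · rintro ⟨B, hB⟩
    obtain ⟨g, hg⟩ := isConj_iff.mp hB
    have hg' : (g : Matrix (Fin n) (Fin n) K) * (A : Matrix (Fin n) (Fin n) K) =
        ((B : GL (Fin n) K) : Matrix (Fin n) (Fin n) K) * (g : Matrix (Fin n) (Fin n) K) := by
      rw [← Units.val_mul, ← Units.val_mul, ← hg]; simp
    have hBu := (H66.mem_GU_iff hσ _).mp B.2
    have hP : IsUnit (H66.cstar σ (g : Matrix (Fin n) (Fin n) K) * g) :=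
      (H66.isUnit_cstar σ g.isUnit).mul g.isUnit
    refine ⟨hP.unit, ?_⟩
    change _ * _ = _ * _
    rw [hP.unit_spec]
    apply hAu.mul_left_cancel
    rw [← mul_assoc _ _⁻¹, Matrix.mul_nonsing_inv _ hdet, one_mul, mul_assoc, hg', ← mul_assoc,
      ← mul_assoc, ← H66.cstar_mul, hg', H66.cstar_mul, mul_assoc _ _ (B : GL (Fin n) K).1, hBu,
      mul_one]
  · rintro ⟨P, hP⟩
    have hP' : H66.cstar σ (A : Matrix (Fin n) (Fin n) K) * P * A = P := by
      rw [mul_assoc, hP.eq, ← mul_assoc, Matrix.mul_nonsing_inv _ hdet, one_mul]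
    obtain ⟨H, hHu, hH, hHA⟩ := H66.exists_hermitian_invariant hσσ hne _ _ P.isUnit hP'
    obtain ⟨c, hcu, hc⟩ := H66.exists_cstar_mul_eq hσσ hne H hH hHu
    obtain ⟨d, hd⟩ := hcu.exists_right_inv
    have hd' : d * c = 1 := mul_eq_one_comm.mp hd
    obtain ⟨B, hB⟩ := H66.exists_GU_of_cstar_mul hσ (c * (A : Matrix (Fin n) (Fin n) K) * d) (by
      calc _ = H66.cstar σ d * (H66.cstar σ (A : Matrix (Fin n) (Fin n) K) *
            (H66.cstar σ c * c) * A) * d := by
            rw [H66.cstar_mul, H66.cstar_mul]; simp only [mul_assoc]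
        _ = H66.cstar σ (c * d) * (c * d) := by
            rw [hc, hHA, ← hc, H66.cstar_mul]; simp only [mul_assoc]
        _ = 1 := by rw [hd, H66.cstar_one, mul_one])
    refine ⟨B, isConj_iff.mpr ⟨hcu.unit, ?_⟩⟩
    rw [mul_inv_eq_iff_eq_mul]
    apply Units.ext
    rw [Units.val_mul, Units.val_mul, hB, hcu.unit_spec, mul_assoc, hd', mul_one]

end Cfsg.Agent.S2588
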