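import Mathlib
import Cfsg.Statements.S2637
import Cfsg.Agent.Lib.Reg66.RestrScal
import Cfsg.Agent.S2589
-- import your own Cfsg.Agent.* helpers here

set_option autoImplicit false
open Cfsg

namespace Cfsg.Agent.S2637

open Polynomial

theorem isConj_of_aeval_irreducible {F n : Type*} [Field F] [Fintype n] [DecidableEq n]
    {π : F[X]} (hπ : Irreducible π) (hm : π.Monic) {A B : Matrix n n F} (hA : aeval A π = 0)
    (hB : aeval B π = 0) : IsConj A B := by
  refine H65.isConj_of_rank_irred_pow fun ρ k hρ hρm => ?_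
  by_cases h : π = ρ
  · rw [← h, hA, hB]
  · obtain ⟨a, b, hab⟩ := H65.isCoprime_of_monic_irreducible_ne hπ hm hρ hρm h
    have key : ∀ C : Matrix n n F, aeval C π = 0 → (aeval C ρ ^ k).rank = Fintype.card n := by
      intro C hC
      have := congrArg (aeval C) hab
      rw [map_add, map_mul, hC, mul_zero, zero_add, map_mul, map_one] at this
      exact Matrix.rank_of_isUnit _ ((IsUnit.of_mul_eq_one_right _ this).pow k)
    rw [key A hA, key B hB]


/-- Centraliser of a fixed-point-free element of order three in Sp_2m(q) when q ≡ 2 (mod 3): if x ∈ Sp_2m(F) (|F| = q, m ≥ 1) satisfies x³ = 1 and x − 1 is invertible, then its centraliser in Sp_2m(F) has the order of the unitary group GU_m(q), namely q^(m(m−1)/2) Π_(i=1)^m (q^i − (−1)^i) (x lies in the centre of a subgroup GU_m(q) of Sp_2m(q)). -/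
theorem result {F : Type*} [Field F] [Fintype F] {q : ℕ} (hF : Fintype.card F = q) (hq : q % 3 = 2) {m : ℕ} (hm : 1 ≤ m) (x : Matrix.symplecticGroup (Fin m) F) (hx3 : x ^ 3 = 1) (hfpf : IsUnit ((x : Matrix (Fin m ⊕ Fin m) (Fin m ⊕ Fin m) F) - 1)) : (Nat.card ↥(Subgroup.centralizer ({x} : Set ↥(Matrix.symplecticGroup (Fin m) F))) : ℤ) = (q : ℤ) ^ (m * (m - 1) / 2) * ∏ i : Fin m, ((q : ℤ) ^ ((i : ℕ) + 1) - (-1) ^ ((i : ℕ) + 1)) := by
  classical
  have hq2 : 2 ≤ q := by omega
  have hroot : ∀ a : F, a ^ 2 + a + 1 ≠ 0 := fun a ha => by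
    have h3 : a ^ 3 = 1 := by linear_combination (a - 1) * ha
    have ha0 : a ≠ 0 := by rintro rfl; simp at ha
    have h1 := FiniteField.pow_card_sub_one_eq_one a ha0
    obtain ⟨k, hk⟩ : ∃ k, q - 1 = 3 * k + 1 := ⟨(q - 1) / 3, by omega⟩
    rw [hF, hk, pow_succ, pow_mul, h3, one_pow, one_mul] at h1
    subst h1
    have h4 : ((q : ℕ) : F) = 0 := hF ▸ FiniteField.cast_card_eq_zero F
    have h5 : (3 : F) = 0 := by linear_combination ha
    rw [show q = 3 * k + 2 by omega] at h4
    push_cast at h4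
    exact one_ne_zero (α := F) (by linear_combination (k + 1) * h5 - h4)
  set π : F[X] := X ^ 2 + X + 1 with hπ
  have hdeg : π.natDegree = 2 := by rw [hπ]; compute_degree!
  have hmon : π.Monic := by rw [hπ]; monicity!
  have hirr : Irreducible π := by
    rw [hmon.irreducible_iff_roots_eq_zero_of_degree_le_three (by omega) (by omega),
      Multiset.eq_zero_iff_forall_notMem]
    intro a ha
    have := (mem_roots hmon.ne_zero).mp ha
    exact hroot a (by simpa [hπ] using this)
  have := Fact.mk hirr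
  let K := AdjoinRoot π
  have hcard : Nat.card K = q ^ 2 := by rw [H65.natCard_adjoinRoot π hirr.ne_zero, hF, hdeg]
  have : Finite K := Nat.finite_of_card_ne_zero (by rw [hcard]; positivity)
  let _ : Fintype K := Fintype.ofFinite K
  have hsq : H11.U.IsSq K q := ⟨by rw [← Nat.card_eq_fintype_card, hcard]⟩
  obtain ⟨R⟩ := H66.nonempty_retr (F := F) (K := K) (q := q) fun z => ⟨fun hz =>
    H65.mem_range_algebraMap_of_pow_card (by rw [hF]; exact hz), by
      rintro ⟨k, rfl⟩
      rw [H11.U.cj_apply, ← map_pow, ← hF, FiniteField.pow_card]⟩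
  let ω : K := AdjoinRoot.root π
  have hω0 : ω ^ 2 + ω + 1 = 0 := by
    have := AdjoinRoot.aeval_eq (f := π) π
    rw [AdjoinRoot.mk_self] at this
    simpa [hπ] using this
  have hω3 : ω ^ 3 = 1 := by linear_combination (ω - 1) * hω0
  have hω : ω * H11.U.cj q ω = 1 := by
    rw [H11.U.mul_cj, show q + 1 = 3 * ((q + 1) / 3) by omega, pow_mul, hω3, one_pow]
  have hω' : H11.U.cj q ω ≠ ω := fun h => by
    apply hroot (R.π ω)
    apply (algebraMap F K).injective
    rw [map_add, map_add, map_pow, R.alg_π ω h, map_one, map_zero, hω0]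
  obtain ⟨d, Φ, hd, hΦ⟩ := H66.exists_sp_coords hF R m
  have hr := H66.range_guToSp R hd Φ hΦ hω hω'
  set y := H66.guToSp R Φ hΦ (H11.U.toGU _ (H11.U.isIso_smul_one hω)) with hy
  have hx0 : aeval x.1 π = 0 := by
    have h3 : x.1 ^ 3 = 1 := congrArg Subtype.val hx3
    apply hfpf.mul_left_cancel
    simp only [hπ, map_add, map_pow, aeval_X, map_one]
    rw [mul_zero, ← sub_eq_zero.mpr h3]
    noncomm_ring
  have hy0 : aeval y.1 π = 0 := by
    simp only [hπ, map_add, map_pow, aeval_X, map_one]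
    refine Matrix.toLin'.injective (LinearMap.ext fun v => Φ.injective ?_)
    have h1 : ∀ w, Φ (y.1.mulVec w) = ω • Φ w := fun w => by
      rw [hy, H66.guToSp_val, H66.resMat_mulVec, H11.U.toGU_val, Matrix.smul_mulVec,
        Matrix.one_mulVec]
    rw [Matrix.toLin'_apply, Matrix.toLin'_apply]
    simp only [Matrix.add_mulVec, pow_two, ← Matrix.mulVec_mulVec, map_add, h1,
      Matrix.one_mulVec, Matrix.zero_mulVec, map_zero]
    rw [smul_smul, ← add_smul, ← pow_two, ← one_smul K (Φ v), smul_smul, ← add_smul, mul_one, hω0,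
      zero_smul]
  obtain ⟨p, hp⟩ := CharP.exists F
  have := Fact.mk (CharP.char_is_prime F p)
  have hc : IsConj x y := (Cfsg.Agent.S2589.result (p := p) x y (by
    refine Nat.Coprime.coprime_dvd_left (orderOf_dvd_of_pow_eq_one hx3) ?_
    rw [Nat.coprime_primes Nat.prime_three Fact.out]
    rintro rfl
    exact hroot 1 (by have := CharP.cast_eq_zero F 3; push_cast at this; linear_combination this))).mpr
    (isConj_of_aeval_irreducible hirr hmon hx0 hy0)
  obtain ⟨g, hg⟩ := isConj_iff.mp hc
  have h1 : Nat.card (Subgroup.centralizer {x}) = Nat.card (Subgroup.centralizer {y}) := by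
    refine Nat.card_congr ((MulAut.conj g).toEquiv.subtypeEquiv fun z => ?_)
    rw [Subgroup.mem_centralizer_singleton_iff, Subgroup.mem_centralizer_singleton_iff, ← hg,
      ← (MulAut.conj g).injective.eq_iff, map_mul, map_mul]
    rfl
  rw [h1, ← hr, ← Nat.card_congr (MonoidHom.ofInjective (H66.guToSp_injective R Φ hΦ)).toEquiv,
    H11.U.card_GU, Finset.prod_range]
  push_cast
  congr 1
  refine Finset.prod_congr rfl fun i _ => ?_
  split_ifs with h
  · rw [h.add_one.neg_one_pow]; ring
  · rw [(Nat.not_even_iff_odd.mp h).add_one.neg_one_pow, Nat.cast_sub (Nat.one_le_pow _ _ (by omega))]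
    push_cast; ring
end Cfsg.Agent.S2637
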