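import Cfsg.Statements.S1780
import Mathlib


set_option autoImplicit false
open Cfsg

namespace Cfsg.Agent.S1780

/-- Let A be a finite abelian 2-group and t an automorphism of A whose order is a power of 2. If every element of A fixed by t² is fixed by t, then t fixes every element of A. -/
theorem result {A : Type*} [CommGroup A] [Finite A]
    (hA : IsPGroup 2 A) (t : MulAut A) (ht : ∃ k : ℕ, orderOf t = 2 ^ k) (hC : ∀ a : A, t (t a) = a → t a = a) :
    ∀ a : A, t a = a := by
  obtain ⟨k, hk⟩ := ht
  obtain ⟨m, hm⟩ := IsPGroup.iff_card.mp hA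
  let T : Module.End ℤ (Additive A) := (MonoidHom.toAdditive t.toMonoidHom).toIntLinearMap
  have hT : ∀ a : A, T (Additive.ofMul a) = Additive.ofMul (t a) := fun a => rfl
  have hTn : ∀ (n : ℕ) (a : A), (T ^ n) (Additive.ofMul a) = Additive.ofMul ((t ^ n) a) := by
    intro n
    induction n with
    | zero => intro a; simp
    | succ n ih => intro a; rw [pow_succ, pow_succ, Module.End.mul_apply, hT, ih]; rfl
  have hT1 : T ^ (2 ^ k) = 1 := by
    apply LinearMap.ext
    intro a
    have := hTn (2 ^ k) (Additive.toMul a)
    rw [← hk, pow_orderOf_eq_one] at this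
    rw [← hk]
    exact this
  have h2 : ((2 : ℕ) : Module.End ℤ (Additive A)) ^ m = 0 := by
    apply LinearMap.ext
    intro a
    have h : (Additive.toMul a) ^ (2 ^ m) = 1 := by rw [← hm]; exact pow_card_eq_one'
    rw [← Nat.cast_pow]
    simp only [Module.End.natCast_apply]
    exact h
  obtain ⟨r, hr⟩ := (Commute.one_right T).exists_add_pow_prime_pow_eq Nat.prime_two k
  have hnil : (T + 1) ^ (2 ^ k * m) = 0 := by
    rw [pow_mul, hr, hT1, one_pow]
    have : (1 : Module.End ℤ (Additive A)) + 1 + ((2 : ℕ) : Module.End ℤ (Additive A)) * T * 1 * r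
        = ((2 : ℕ) : Module.End ℤ (Additive A)) * (1 + T * r) := by
      rw [mul_add, mul_one, mul_one, mul_assoc]; congr 1; norm_num
    rw [this, (Nat.cast_commute 2 _).mul_pow, h2, zero_mul]
  have key : ∀ (n : ℕ) (a : Additive A), T (((T + 1) ^ n) a) = ((T + 1) ^ n) a → T a = a := by
    intro n
    induction n with
    | zero => intro a h; simpa using h
    | succ n ih =>
      intro a h
      rw [pow_succ, Module.End.mul_apply] at h
      have h1 := ih _ h
      have h2 : T (T a) = a := by
        simp only [LinearMap.add_apply, Module.End.one_apply, map_add] at h1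
        rw [add_comm (T a) a] at h1
        exact add_right_cancel h1
      exact hC (Additive.toMul a) h2
  intro a
  have := key (2 ^ k * m) (Additive.ofMul a) (by rw [hnil]; simp)
  exact this

end Cfsg.Agent.S1780
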