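import Cfsg.Statements.S1781
import Mathlib
import Cfsg.Agent.S1780

set_option autoImplicit false
open Cfsg

namespace Cfsg.Agent.S1781

/-- If `t ∈ A` normalises the abelian 2-group `B`, `A ⊓ B = 1`, `t² ≠ 1` and `A` is an abelian TI subgroup,
then `t` centralises `B`. -/
theorem aux {G : Type*} [Group G] [Finite G] (A B : Subgroup G)
    (hA2 : IsPGroup 2 ↥A) (hB2 : IsPGroup 2 ↥B) (hBa : IsMulCommutative ↥B)
    (hti : ∀ h : G, A.map (MulAut.conj h).toMonoidHom = A ∨ A.map (MulAut.conj h).toMonoidHom ⊓ A = ⊥)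
    (hAB : A ⊓ B = ⊥) (t : G) (htA : t ∈ A) (htB : t ∈ Subgroup.normalizer (B : Set G))
    (ht2 : t ^ 2 ≠ 1) : ∀ b ∈ B, t * b * t⁻¹ = b := by
  let _ : CommGroup B := { (inferInstance : Group B) with mul_comm := fun a b => hBa.is_comm.comm a b }
  let τ : MulAut B := B.normalizerMonoidHom ⟨t, htB⟩
  have hτ : ∀ b : B, ((τ b : B) : G) = t * b * t⁻¹ := fun b => rfl
  have hord : ∃ k : ℕ, orderOf τ = 2 ^ k := by
    obtain ⟨k, hk⟩ := hA2 ⟨t, htA⟩
    have h1 : t ^ 2 ^ k = 1 := by simpa using congrArg Subtype.val hk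
    have h2 : τ ^ 2 ^ k = 1 := by
      rw [← map_pow]
      have : (⟨t, htB⟩ : Subgroup.normalizer (B : Set G)) ^ 2 ^ k = 1 := Subtype.ext (by simpa using h1)
      rw [this, map_one]
    obtain ⟨j, _, hj⟩ := (Nat.dvd_prime_pow Nat.prime_two).mp (orderOf_dvd_of_pow_eq_one h2)
    exact ⟨j, hj⟩
  have := Cfsg.Agent.S1780.result hB2 τ hord (by
    intro b hb
    have hb' : t * (t * b * t⁻¹) * t⁻¹ = b := by
      have := congrArg Subtype.val hb
      rwa [hτ, hτ] at this
    have hc : (b : G) * t ^ 2 * (b : G)⁻¹ = t ^ 2 := by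
      rw [mul_inv_eq_iff_eq_mul]
      calc (b : G) * t ^ 2 = (t * (t * b * t⁻¹) * t⁻¹) * t ^ 2 := by rw [hb']
        _ = t ^ 2 * b := by rw [pow_two]; group
    rcases hti b with h | h
    · have h1 : (b : G) * t * (b : G)⁻¹ ∈ A := by
        rw [← h]; exact ⟨t, htA, rfl⟩
      have h2 : (b : G) * t * (b : G)⁻¹ * t⁻¹ ∈ A ⊓ B := by
        refine ⟨A.mul_mem h1 (A.inv_mem htA), ?_⟩
        have : (b : G) * t * (b : G)⁻¹ * t⁻¹ = b * (t * (b : G)⁻¹ * t⁻¹) := by group
        rw [this]
        exact B.mul_mem b.2 ((Subgroup.mem_normalizer_iff.mp htB _).mp (B.inv_mem b.2))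
      rw [hAB, Subgroup.mem_bot] at h2
      apply Subtype.ext
      rw [hτ]
      calc t * b * t⁻¹ = ((b : G) * t * (b : G)⁻¹ * t⁻¹) * (t * b * t⁻¹) := by rw [h2, one_mul]
        _ = b := by group
    · exfalso
      apply ht2
      have : t ^ 2 ∈ A.map (MulAut.conj (b : G)).toMonoidHom ⊓ A :=
        ⟨⟨t ^ 2, A.pow_mem htA 2, hc⟩, A.pow_mem htA 2⟩
      rwa [h, Subgroup.mem_bot] at this)
  intro b hb
  have h := congrArg Subtype.val (this ⟨b, hb⟩)
  rwa [hτ] at h

/-- Let A be an abelian 2-subgroup of the finite group G such that every conjugate of A equals A or meets A trivially, and let g ∈ G with g A g⁻¹ ≠ A. Then either the subgroup of those elements of A that normalize g A g⁻¹ is an elementary abelian 2-group, or A and g A g⁻¹ commute elementwise. -/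
theorem result {G : Type*} [Group G] [Finite G] (A : Subgroup G)
    (hA2 : IsPGroup 2 ↥A) (hAa : IsMulCommutative ↥A)
    (hti : ∀ h : G, A.map (MulAut.conj h).toMonoidHom = A ∨ A.map (MulAut.conj h).toMonoidHom ⊓ A = ⊥)
    (g : G) (hg : A.map (MulAut.conj g).toMonoidHom ≠ A) :
    Cfsg.IsElementaryAbelian 2 (A ⊓ Subgroup.normalizer ((A.map (MulAut.conj g).toMonoidHom : Subgroup G) : Set G)) ∨
      ⁅A, A.map (MulAut.conj g).toMonoidHom⁆ = ⊥ := by
  set B := A.map (MulAut.conj g).toMonoidHom with hB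
  have hAB : A ⊓ B = ⊥ := by
    rcases hti g with h | h
    · exact absurd h hg
    · rw [inf_comm]; exact h
  have hB2 : IsPGroup 2 B := hA2.map _
  have hBa : IsMulCommutative B := Subgroup.map_isMulCommutative _ _
  have hBti : ∀ h : G, B.map (MulAut.conj h).toMonoidHom = B ∨ B.map (MulAut.conj h).toMonoidHom ⊓ B = ⊥ := by
    intro h
    have e : B.map (MulAut.conj h).toMonoidHom =
        (A.map (MulAut.conj (g⁻¹ * h * g)).toMonoidHom).map (MulAut.conj g).toMonoidHom := by
      rw [hB, Subgroup.map_map, Subgroup.map_map]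
      congr 1
      ext x
      simp [mul_assoc]
    rcases hti (g⁻¹ * h * g) with h1 | h1
    · left; rw [e, h1]
    · right
      rw [e, hB, ← Subgroup.map_inf _ _ _ (MulAut.conj g).injective, h1, Subgroup.map_bot]
  by_cases hE : ∀ a ∈ A ⊓ Subgroup.normalizer (B : Set G), a ^ 2 = 1
  · left
    refine ⟨⟨⟨fun a b => Subtype.ext ?_⟩⟩, hE⟩
    have := hAa.is_comm.comm ⟨a, a.2.1⟩ ⟨b, b.2.1⟩
    simpa using congrArg Subtype.val this
  · right
    push Not at hE
    obtain ⟨t, ⟨htA, htB⟩, ht2⟩ := hE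
    have h1 := aux A B hA2 hB2 hBa hti hAB t htA htB ht2
    have ht1 : t ≠ 1 := by rintro rfl; simp at ht2
    -- B normalises A
    have hBA : B ≤ Subgroup.normalizer (A : Set G) := by
      intro b hb
      rcases hti b with h | h
      · exact Subgroup.mem_normalizer_iff_map_conj_eq.mpr h
      · exfalso
        apply ht1
        have : t ∈ A.map (MulAut.conj b).toMonoidHom ⊓ A := by
          refine ⟨⟨t, htA, ?_⟩, htA⟩
          have := h1 b hb
          change b * t * b⁻¹ = t
          calc b * t * b⁻¹ = (t * b * t⁻¹) * t * b⁻¹ := by rw [this]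
            _ = t := by group
        rwa [h, Subgroup.mem_bot] at this
    have hs : g * t * g⁻¹ ∈ B := ⟨t, htA, rfl⟩
    have hs2 : (g * t * g⁻¹) ^ 2 ≠ 1 := by
      intro h
      apply ht2
      have : g * t ^ 2 * g⁻¹ = 1 := by rw [← h, pow_two, pow_two]; group
      calc t ^ 2 = g⁻¹ * (g * t ^ 2 * g⁻¹) * g := by group
        _ = 1 := by rw [this]; group
    have h2 := aux B A hB2 hA2 hAa hBti (by rw [inf_comm]; exact hAB) _ hs (hBA hs) hs2
    have hs1 : g * t * g⁻¹ ≠ 1 := by intro h; rw [h] at hs2; simp at hs2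
    have hAB' : A ≤ Subgroup.normalizer (B : Set G) := by
      intro a ha
      rcases hBti a with h | h
      · exact Subgroup.mem_normalizer_iff_map_conj_eq.mpr h
      · exfalso
        apply hs1
        have : g * t * g⁻¹ ∈ B.map (MulAut.conj a).toMonoidHom ⊓ B := by
          refine ⟨⟨_, hs, ?_⟩, hs⟩
          have := h2 a ha
          set s := g * t * g⁻¹
          change a * s * a⁻¹ = s
          calc a * s * a⁻¹ = (s * a * s⁻¹) * s * a⁻¹ := by rw [this]
            _ = s := by group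
        rwa [h, Subgroup.mem_bot] at this
    rw [eq_bot_iff, ← hAB, Subgroup.commutator_le]
    intro a ha b hb
    rw [commutatorElement_def]
    refine ⟨?_, ?_⟩
    · have : a * b * a⁻¹ * b⁻¹ = a * (b * a⁻¹ * b⁻¹) := by group
      rw [this]
      exact A.mul_mem ha ((Subgroup.mem_normalizer_iff.mp (hBA hb) _).mp (A.inv_mem ha))
    · exact B.mul_mem ((Subgroup.mem_normalizer_iff.mp (hAB' ha) _).mp hb) (B.inv_mem hb)

end Cfsg.Agent.S1781
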