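import Cfsg.Statements.S5359
import Cfsg.Agent.Lib.L0.Refl3

set_option autoImplicit false
open scoped MatrixGroups
open Cfsg

namespace Cfsg.Agent.S5359

/-- Let Q be a non-degenerate quadratic form on the n-dimensional coordinate space over the field with three elements, n odd and at least 5, and c a non-zero scalar. Then the subgroup of the isometry group of Q generated by the reflections in vectors of norm c has index 2 in the isometry group. -/
theorem result (n : ℕ) (hn : 5 ≤ n) (hodd : Odd n) (Q : QuadraticForm (ZMod 3) (Fin n → ZMod 3)) (hQ : (QuadraticMap.polarBilin Q).Nondegenerate) (c : ZMod 3) (hc : c ≠ 0) : (Cfsg.reflectionSubgroup (⇑Q) c).index = 2 := by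
  classical
  have h2 : (2 : ZMod 3) ≠ 0 := by decide
  have hQ' := H12.nondeg_iff.mpr hQ
  have hG := H12.good_of_two_ne_zero hQ' h2
  have hn' : 2 ≤ Module.finrank (ZMod 3) (Fin n → ZMod 3) := by simp; omega
  let e := H12.isoEquiv Q (q := ⇑Q) (fun _ => rfl)
  set R := Cfsg.reflectionSubgroup (⇑Q) c with hR
  have hR1 : ∀ v, Q v = c → H12.refl Q v ∈ R.map e.toMonoidHom := by
    intro v hv
    refine ⟨e.symm (H12.refl Q v), Subgroup.subset_closure ⟨v, hv, ?_⟩,
      e.apply_symm_apply _⟩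
    rw [H12.isoEquiv_eq_iff Q (fun _ => rfl) _ _ (H12.reflectionMatrix_mulVec Q v)]
    exact e.apply_symm_apply _
  have hR2 : R.map e.toMonoidHom = Subgroup.closure {g | ∃ v, Q v = c ∧ g = H12.refl Q v} := by
    apply le_antisymm
    · rw [Subgroup.map_le_iff_le_comap, hR, Cfsg.reflectionSubgroup, Subgroup.closure_le]
      rintro g ⟨w, hw, hg⟩
      rw [H12.isoEquiv_eq_iff Q (fun _ => rfl) _ _ (H12.reflectionMatrix_mulVec Q w)] at hg
      exact Subgroup.subset_closure ⟨w, hw, hg⟩
    · rw [Subgroup.closure_le]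
      rintro g ⟨w, hw, rfl⟩
      exact hR1 w hw
  have hn5 : 5 ≤ Module.finrank (ZMod 3) (Fin n → ZMod 3) := by simpa using hn
  have hOm : H12.Om Q ≤ R.map e.toMonoidHom := by
    obtain ⟨u, hu⟩ := hQ'.universal hn' c
    obtain ⟨w, h1, -, hw⟩ := L0.R3.exists_orth_Q_eq hQ' h2 hn5 (hu ▸ hc) (s := 0) (by simp) c
    refine H12.Om_le_of_normalized hQ' hn5 ?_ (hR1 u hu) ?_ ?_
    · intro g _ m hm
      rw [hR2] at hm ⊢
      induction hm using Subgroup.closure_induction with
      | mem x hx =>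
        obtain ⟨v, hv, rfl⟩ := hx
        exact Subgroup.subset_closure ⟨g.1 v, by rw [H12.O.map_Q, hv], H12.refl_conj g v⟩
      | one => simp
      | mul x y _ _ hx hy => simpa [mul_assoc] using mul_mem hx hy
      | inv x _ hx => simpa [mul_assoc] using inv_mem hx
    · intro h
      have := H12.dk_refl hQ' hG (v := u) (hu ▸ hc)
      rw [h, map_one] at this
      exact absurd this (by decide)
    · intro h
      have h3 := H12.refl_apply_of_orth (Q := Q) (v := u) (x := w) (by rwa [QuadraticMap.polar_comm])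
      rw [h, H12.negO_apply] at h3
      have h4 : (2 : ZMod 3) • w = 0 := by linear_combination (norm := module) -h3
      exact H12.ne_zero_of_Q_ne (hw ▸ hc) ((smul_eq_zero.1 h4).resolve_left h2)
  obtain ⟨v, hv⟩ := hQ'.universal hn' c
  have hv0 : Q v ≠ 0 := by rwa [hv]
  obtain ⟨ψ, hψ1, hψ2, hψ3⟩ : ∃ ψ : H12.O Q →* ℤˣ,
      (∀ (w : Fin n → ZMod 3) (t : ZMod 3), t ≠ 0 → Q w = c * t ^ 2 → ψ (H12.refl Q w) = 1) ∧
      Function.Surjective ψ ∧
      ∀ g, ψ g = 1 → H12.dk hQ' hG g = 1 → H12.spin hQ' hG g = 1 := by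
    have hs : ∀ (w : Fin n → ZMod 3) (t : ZMod 3), t ≠ 0 → Q w = c * t ^ 2 →
        H12.spin hQ' hG (H12.refl Q w) = H12.spin hQ' hG (H12.refl Q v) := by
      intro w t ht hw
      apply Units.ext
      rw [H12.coe_spin_refl hQ' hG hv0, H12.coe_spin_refl hQ' hG
        (by rw [hw]; exact mul_ne_zero hc (pow_ne_zero _ ht)), hw, hv, map_mul,
        quadraticChar_sq_one' ht, mul_one]
    rcases Int.units_eq_one_or (H12.spin hQ' hG (H12.refl Q v)) with h | h
    · refine ⟨H12.spin hQ' hG, fun w t ht hw => by rw [hs w t ht hw, h], fun s => ?_,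
        fun g hg _ => hg⟩
      obtain ⟨g, hg⟩ := H12.dk_spin_surjective hQ' hG h2 hn' (1, s)
      exact ⟨g, congrArg Prod.snd hg⟩
    · refine ⟨H12.dk hQ' hG * H12.spin hQ' hG, fun w t ht hw => ?_, fun s => ?_,
        fun g hg hg' => ?_⟩
      · rw [MonoidHom.mul_apply, hs w t ht hw, h, H12.dk_refl hQ' hG
          (by rw [hw]; exact mul_ne_zero hc (pow_ne_zero _ ht))]
        simp
      · obtain ⟨g, hg⟩ := H12.dk_spin_surjective hQ' hG h2 hn' (1, s)
        refine ⟨g, ?_⟩
        rw [MonoidHom.mul_apply, show H12.dk hQ' hG g = 1 from congrArg Prod.fst hg,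
          show H12.spin hQ' hG g = s from congrArg Prod.snd hg, one_mul]
      · rwa [MonoidHom.mul_apply, hg', one_mul] at hg
  have key : R = ψ.ker.comap e.toMonoidHom := by
    apply le_antisymm
    · rw [hR, Cfsg.reflectionSubgroup, Subgroup.closure_le]
      rintro g ⟨w, hw, hg⟩
      rw [H12.isoEquiv_eq_iff Q (fun _ => rfl) _ _ (H12.reflectionMatrix_mulVec Q w)] at hg
      change ψ (H12.isoEquiv Q (fun _ => rfl) g) = 1
      rw [hg, hψ1 w 1 one_ne_zero (by simpa using hw)]
    · intro g hg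
      have hg' : ψ (e g) = 1 := hg
      refine (Subgroup.mem_map_iff_mem (f := e.toMonoidHom) e.injective).mp ?_
      change e g ∈ _
      rcases Int.units_eq_one_or (H12.dk hQ' hG (e g)) with h | h
      · exact hOm ((H12.mem_Om_iff hQ' hG _).mpr ⟨h, hψ3 _ hg' h⟩)
      · have h1 : H12.dk hQ' hG (H12.refl Q v * e g) = 1 := by
          rw [map_mul, h, H12.dk_refl hQ' hG hv0]; simp
        have h3 : ψ (H12.refl Q v * e g) = 1 := by
          rw [map_mul, hg', hψ1 v 1 one_ne_zero (by simpa using hv), one_mul]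
        exact (Subgroup.mul_mem_cancel_left _ (hR1 v hv)).mp
          (hOm ((H12.mem_Om_iff hQ' hG _).mpr ⟨h1, hψ3 _ h3 h1⟩))
  rw [key, Subgroup.index_comap_of_surjective _ e.surjective, Subgroup.index_ker,
    MonoidHom.range_eq_top.mpr hψ2, Subgroup.card_top]
  simp

end Cfsg.Agent.S5359
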