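import Cfsg.Statements.S2570
import Cfsg.Agent.Lib.MatConj.Centralizer

set_option autoImplicit false
open Cfsg

namespace Cfsg.Agent.S2570

open H65 Polynomial Module

theorem card_filter_toType {n : ℕ} (μ : Nat.Partition n) (j : ℕ) :
    (Finset.univ.filter fun x : μ.parts => (x : ℕ) = j).card = μ.parts.count j := by
  have h := Multiset.map_univ_coe μ.parts
  conv_rhs => rw [← h]
  rw [Multiset.count_map]
  simp only [Finset.card, Finset.filter_val, eq_comm]

theorem sum_toType {n : ℕ} (μ : Nat.Partition n) : ∑ x : μ.parts, (x : ℕ) = n := by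
  have h := Multiset.map_univ_coe μ.parts
  rw [Finset.sum, h, μ.parts_sum]


/-- Number of conjugacy classes of elements of order p in GL_n over a finite field of characteristic p: they correspond to the Jordan types, that is, to the partitions of n with all parts at most p other than the partition into ones, so there are (number of partitions of n with parts ≤ p) − 1 of them. -/
theorem result {F : Type*} [Field F] [Fintype F] {p : ℕ} [Fact p.Prime] [CharP F p] (n : ℕ) : Nat.card {C : ConjClasses (GL (Fin n) F) // ∃ g : GL (Fin n) F, ConjClasses.mk g = C ∧ orderOf g = p} = (Finset.univ.filter (fun μ : Nat.Partition n => ∀ a ∈ μ.parts, a ≤ p)).card - 1 := by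
  classical
  have hp : 1 < p := (Fact.out : p.Prime).one_lt
  have hex : ∀ μ : Nat.Partition n, ∃ g : GL (Fin n) F,
      Similar (Matrix.toLin' (g : Matrix (Fin n) (Fin n) F) - 1)
        (nilModel F fun x : μ.parts => (x : ℕ)) := fun μ => by
    obtain ⟨u, hu⟩ := exists_sl_unipotent (F := F) (n := Fin n) (fun x : μ.parts => (x : ℕ))
      (by rw [sum_toType, Fintype.card_fin])
    exact ⟨Matrix.SpecialLinearGroup.toGL u, hu⟩
  choose g hg using hex
  have hpow : ∀ x : GL (Fin n) F, x ^ p = 1 ↔ ((x : Matrix (Fin n) (Fin n) F) - 1) ^ p = 0 := by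
    intro x
    have := pow_char_pow_eq_one_iff (F := F) p (x : Matrix (Fin n) (Fin n) F) 1
    rw [pow_one] at this
    rw [← this, Units.ext_iff, Units.val_pow_eq_pow_val, Units.val_one]
  have hle : ∀ (μ : Nat.Partition n) (j : ℕ),
      ((g μ : Matrix (Fin n) (Fin n) F) - 1) ^ j = 0 ↔ ∀ a ∈ μ.parts, a ≤ j := by
    intro μ j
    rw [sub_one_pow_eq_zero_iff_of_similar_nilModel (hg μ)]
    exact ⟨fun h a ha => h ⟨a, 0, Multiset.count_pos.mpr ha⟩, fun h x => h _ Multiset.coe_mem⟩
  have hinj : ∀ μ ν, IsConj (g μ) (g ν) → μ = ν := by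
    intro μ ν h
    rw [isConj_gl_iff_similar] at h
    have h1 := card_eq_of_similar_nilModel ((hg μ).symm.trans (h.sub_one.trans (hg ν)))
    ext j
    rcases Nat.eq_zero_or_pos j with rfl | hj
    · rw [Multiset.count_eq_zero.mpr fun h => (μ.parts_pos h).false,
        Multiset.count_eq_zero.mpr fun h => (ν.parts_pos h).false]
    · rw [← card_filter_toType, ← card_filter_toType, h1 j hj]
  have hsurj : ∀ x : GL (Fin n) F, IsNilpotent ((x : Matrix (Fin n) (Fin n) F) - 1) →
      ∃ μ, IsConj (g μ) x := by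
    intro x hx
    obtain ⟨t, d, hd, h⟩ := exists_nilModel ((isNilpotent_toLin'_iff' _).mpr hx)
    have h1 := h.finrank_eq
    rw [finrank_nilModel, Module.finrank_fin_fun] at h1
    let μ : Nat.Partition n := ⟨Finset.univ.val.map d, fun hi => by
      obtain ⟨k, -, rfl⟩ := Multiset.mem_map.mp hi
      exact hd k, h1.symm⟩
    refine ⟨μ, ?_⟩
    rw [isConj_gl_iff_similar]
    rw [toLin'_sub_one] at h
    refine ((hg μ).trans ((similar_nilModel_of_card_eq _ _ fun j => ?_).trans h.symm)).of_sub_one
    rw [card_filter_toType, Multiset.count_map]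
    simp only [Finset.card, Finset.filter_val, eq_comm]
  obtain ⟨μ₀, hμ₀⟩ := hsurj 1 (by simp)
  have h0 : g μ₀ = 1 := isConj_one_left.mp hμ₀
  have h1 : μ₀ ∈ Finset.univ.filter (fun μ : Nat.Partition n => ∀ a ∈ μ.parts, a ≤ p) := by
    rw [Finset.mem_filter, ← hle, h0]
    simp [show p ≠ 0 by omega]
  rw [← Finset.card_erase_of_mem h1, ← Nat.card_eq_finsetCard]
  symm
  refine Nat.card_congr (Equiv.ofBijective (fun μ => ⟨ConjClasses.mk (g μ.1), g μ.1, rfl, ?_⟩)
    ⟨?_, ?_⟩)
  · have h2 := μ.2
    simp only [Finset.mem_erase, Finset.mem_filter, Finset.mem_univ, true_and] at h2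
    refine orderOf_eq_prime ((hpow _).mpr ((hle _ _).mpr h2.2)) fun h => h2.1 (hinj _ _ ?_)
    rw [h, h0]
  · intro μ ν h
    exact Subtype.ext (hinj _ _ (ConjClasses.mk_eq_mk_iff_isConj.mp (congrArg Subtype.val h)))
  · rintro ⟨C, x, rfl, hx⟩
    have h2 := (hpow x).mp (hx ▸ pow_orderOf_eq_one x)
    obtain ⟨μ, hμ⟩ := hsurj x ⟨p, h2⟩
    refine ⟨⟨μ, ?_⟩, Subtype.ext (ConjClasses.mk_eq_mk_iff_isConj.mpr hμ)⟩
    simp only [Finset.mem_erase, Finset.mem_filter, Finset.mem_univ, true_and]
    constructor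
    · rintro rfl
      rw [h0, isConj_one_right] at hμ
      rw [hμ, orderOf_one] at hx
      omega
    · rw [← hle, ← hpow, ← isConj_one_left]
      have := hμ.pow p
      rwa [← hx, pow_orderOf_eq_one, hx] at this

end Cfsg.Agent.S2570
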