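import Mathlib
import Cfsg.Statements.S0010
import Cfsg.Agent.Lib.Core.PCore

set_option autoImplicit false
open Cfsg

namespace Cfsg.Agent.S0010

/-- The largest normal p-subgroup of a finite group is the intersection of all its Sylow p-subgroups. -/
theorem result {G : Type*} [Group G] [Finite G] (p : ℕ) [Fact p.Prime] :
    Cfsg.pCore p G = ⨅ P : Sylow p G, (P : Subgroup G) := by
  exact H1.pCore_eq_iInf_sylow

end Cfsg.Agent.S0010
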