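import Mathlib
import Cfsg.Statements.S0020
import Cfsg.Agent.Lib.Core.Permutable
import Cfsg.Agent.Lib.Core.Hall

set_option autoImplicit false
open Pointwise
open Cfsg

namespace Cfsg.Agent.S0020

/-- A finite solvable group admits a Sylow system: Sylow subgroups, one for each prime, that pairwise permute as sets. -/
theorem result {G : Type*} [Group G] [Finite G] [Group.IsSolvable G] :
    ∃ S : (p : Nat.Primes) → Sylow (p : ℕ) G,
      ∀ p q : Nat.Primes, (S p : Set G) * (S q : Set G) = (S q : Set G) * (S p : Set G) := by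
  classical
  choose K hK using fun p : ℕ => H3.exists_isPiHall (G := G) ({p}ᶜ : Set ℕ)
  have hK1 : ∀ p : ℕ, p.Prime → ¬ p ∣ Nat.card (K p) := fun p hp hd => (hK p).1 p hp hd rfl
  have hK2 : ∀ p q : ℕ, q.Prime → q ∣ (K p).index → q = p := fun p q hq hd => by
    by_contra h
    exact (hK p).2 q hq h hd
  set T := (Nat.card G).primeFactors with hT
  have hidx : ∀ U : Finset ℕ, ∀ q : ℕ, q.Prime → q ∣ (⨅ i ∈ U, K i).index → q ∈ U := by
    intro U q hq hd
    rw [H1.index_biInf_dvd_prod_of_coprime U K fun i _ j _ hij =>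
      Nat.coprime_of_dvd fun r hr h1 h2 => hij ((hK2 i r hr h1).symm.trans (hK2 j r hr h2))] at hd
    obtain ⟨i, hi, hd'⟩ := (Prime.dvd_finsetProd_iff hq.prime _).mp hd
    rwa [hK2 i q hq hd']
  have hcard : ∀ U : Finset ℕ, ∀ q : ℕ, q.Prime → q ∣ Nat.card (⨅ i ∈ U, K i : Subgroup G) →
      q ∈ T ∧ q ∉ U := by
    intro U q hq hd
    refine ⟨Nat.mem_primeFactors.mpr ⟨hq, hd.trans (Subgroup.card_subgroup_dvd_card _),
      Nat.card_pos.ne'⟩, fun hU => hK1 q hq (hd.trans (Subgroup.card_dvd_of_le ?_))⟩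
    exact iInf₂_le (f := fun i (_ : i ∈ U) => K i) q hU
  have hP : ∀ p : Nat.Primes, IsPGroup p (⨅ i ∈ T.erase p, K i : Subgroup G) := fun p => by
    have := Fact.mk p.2
    refine IsPGroup.of_card (Nat.eq_prime_pow_of_unique_prime_dvd Nat.card_pos.ne'
      fun {q} hq hd => ?_)
    obtain ⟨h1, h2⟩ := hcard _ q hq hd
    by_contra h
    exact h2 (Finset.mem_erase.mpr ⟨h, h1⟩)
  have hI : ∀ p : Nat.Primes, ¬ (p : ℕ) ∣ (⨅ i ∈ T.erase p, K i : Subgroup G).index :=
    fun p hd => (Finset.mem_erase.mp (hidx _ p p.2 hd)).1 rfl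
  refine ⟨fun p => @IsPGroup.toSylow _ _ _ (Fact.mk p.2) _ (hP p) (hI p), fun p q => ?_⟩
  have hle : ∀ U V : Finset ℕ, U ⊆ V → (⨅ i ∈ V, K i : Subgroup G) ≤ ⨅ i ∈ U, K i :=
    fun U V h => biInf_mono h
  refine H1.mul_comm_of_coe_eq_mul (K := ⨅ i ∈ (T.erase p).erase q, K i)
    (A := ⨅ i ∈ T.erase p, K i) (B := ⨅ i ∈ T.erase q, K i)
    (H1.coe_eq_mul_of_coprime_relIndex (hle _ _ (Finset.erase_subset _ _))
      (hle _ _ (Finset.erase_subset_erase _ (Finset.erase_subset _ _))) ?_)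
  refine Nat.coprime_of_dvd fun r hr h1 h2 => ?_
  have h3 := hidx _ r hr (h1.trans (Subgroup.relIndex_dvd_index_of_le
    (hle _ _ (Finset.erase_subset _ _))))
  have h4 := hidx _ r hr (h2.trans (Subgroup.relIndex_dvd_index_of_le
    (hle _ _ (Finset.erase_subset_erase _ (Finset.erase_subset _ _)))))
  exact (hcard _ r hr (h1.trans (Subgroup.relIndex_dvd_card _ _))).2
    (Finset.mem_erase.mpr ⟨(Finset.mem_erase.mp h4).1, h3⟩)

end Cfsg.Agent.S0020
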