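import Mathlib
import Cfsg.Statements.S0021
import Cfsg.Agent.Lib.Core.Permutable
import Cfsg.Agent.S0006

set_option autoImplicit false
open Pointwise
open Cfsg

namespace Cfsg.Agent.S0021

/-- A finite group with a family of pairwise permuting Sylow subgroups, one for each prime, is solvable (this direction rests on Burnside's two-prime Theorem). -/
theorem result {G : Type*} [Group G] [Finite G]
    (S : (p : Nat.Primes) → Sylow (p : ℕ) G)
    (hS : ∀ p q : Nat.Primes, (S p : Set G) * (S q : Set G) = (S q : Set G) * (S p : Set G)) :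
    Group.IsSolvable G := by
  classical
  refine Cfsg.Agent.S0006.main _ rfl fun p hp => ?_
  let s : Finset Nat.Primes :=
    ((Nat.card G).primeFactors.erase p).preimage Subtype.val Subtype.val_injective.injOn
  obtain ⟨-, h2⟩ := H1.biSup_comm_and_card_dvd s (fun q => (S q : Subgroup G)) hS
  refine ⟨⨆ q ∈ s, (S q : Subgroup G), ⟨_, Nat.eq_prime_pow_of_unique_prime_dvd
    Subgroup.index_ne_zero_of_finite fun {q} hq hd => ?_⟩, fun hd => ?_⟩
  · by_contra hqp
    have := Fact.mk hq
    have hs : (⟨q, hq⟩ : Nat.Primes) ∈ s := by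
      exact Finset.mem_preimage.mpr (Finset.mem_erase.mpr ⟨hqp, Nat.mem_primeFactors.mpr
        ⟨hq, hd.trans (Subgroup.index_dvd_card _), Nat.card_pos.ne'⟩⟩)
    exact (S ⟨q, hq⟩).not_dvd_index (hd.trans (Subgroup.index_dvd_of_le
      (le_iSup₂_of_le (f := fun (q : Nat.Primes) (_ : q ∈ s) => (S q : Subgroup G)) _ hs le_rfl)))
  · obtain ⟨q, hq, hd'⟩ := (Prime.dvd_finsetProd_iff hp.prime _).mp (hd.trans h2)
    have := Fact.mk q.2
    obtain ⟨k, hk⟩ := IsPGroup.iff_card.mp (S q).isPGroup'
    rw [hk] at hd'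
    have h3 := (Nat.prime_dvd_prime_iff_eq hp q.2).mp (hp.dvd_of_dvd_pow hd')
    exact (Finset.mem_erase.mp (Finset.mem_preimage.mp hq)).1 h3.symm

end Cfsg.Agent.S0021
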