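import Mathlib
import Cfsg.Statements.S0031
import Cfsg.Agent.Base

set_option autoImplicit false
open Cfsg

namespace Cfsg.Agent.S0031

/-- A fixed-point-free automorphism of a finite group maps some Sylow p-subgroup to itself. -/
theorem result {G : Type*} [Group G] [Finite G] (φ : G ≃* G)
    (hφ : MonoidHom.FixedPointFree (φ : G →* G)) (p : ℕ) [Fact p.Prime] :
    ∃ P : Sylow p G, (P : Subgroup G).map (φ : G →* G) = P := by
  have hs : Function.Surjective (φ : G →* G) := φ.surjective
  obtain ⟨P⟩ : Nonempty (Sylow p G) := inferInstance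
  obtain ⟨g, hg⟩ := MulAction.exists_smul_eq G (P.mapSurjective hs) P
  obtain ⟨y, hy⟩ := hφ.commutatorMap_surjective g
  rw [MonoidHom.commutatorMap_apply, div_eq_mul_inv] at hy
  refine ⟨y⁻¹ • P, ?_⟩
  have h1 : (P : Subgroup G).map (φ : G →* G) = (g⁻¹ • P : Sylow p G) := by
    rw [← Sylow.coe_mapSurjective hs, ← hg, inv_smul_smul, hg]
  have h2 : ((y⁻¹ • P : Sylow p G) : Subgroup G).map (φ : G →* G) =
      ((P : Subgroup G).map (φ : G →* G)).map (MulAut.conj ((φ : G →* G) y)⁻¹).toMonoidHom := by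
    change ((P : Subgroup G).map (MulAut.conj y⁻¹).toMonoidHom).map _ = _
    rw [Subgroup.map_map, Subgroup.map_map]
    congr 1
    ext x
    simp
  rw [h2, h1]
  change ((((φ : G →* G) y)⁻¹ • g⁻¹ • P : Sylow p G) : Subgroup G) = _
  rw [smul_smul, ← hy]
  simp

end Cfsg.Agent.S0031
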