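import Mathlib
import Cfsg.Statements.S0047
import Cfsg.Agent.Lib.Core.Fitting

set_option autoImplicit false
open Cfsg
open scoped commutatorElement

namespace Cfsg.Agent.S0047

theorem comm_commutator {G : Type*} [Group G] (A B : Subgroup G)
    [hA : IsMulCommutative A] [hB : IsMulCommutative B]
    (hAB : ∀ g : G, ∃ a ∈ A, ∃ b ∈ B, g = a * b) {a b a₁ b₁ : G} (ha : a ∈ A) (hb : b ∈ B)
    (ha₁ : a₁ ∈ A) (hb₁ : b₁ ∈ B) :
    (b₁ * a₁) * ⁅a, b⁆ * (b₁ * a₁)⁻¹ = (a₁ * b₁) * ⁅a, b⁆ * (a₁ * b₁)⁻¹ := by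
  have cA : ∀ x ∈ A, ∀ y ∈ A, x * y = y * x := fun x hx y hy =>
    congrArg Subtype.val (hA.is_comm.comm (⟨x, hx⟩ : A) ⟨y, hy⟩)
  have cB : ∀ x ∈ B, ∀ y ∈ B, x * y = y * x := fun x hx y hy =>
    congrArg Subtype.val (hB.is_comm.comm (⟨x, hx⟩ : B) ⟨y, hy⟩)
  obtain ⟨a₂, ha₂, b₂, hb₂, h2⟩ := hAB (a₁ * b * a₁⁻¹)⁻¹
  obtain ⟨a₃, ha₃, b₃, hb₃, h3⟩ := hAB (b₁ * a * b₁⁻¹)
  have h2' : a₁ * b * a₁⁻¹ = b₂⁻¹ * a₂⁻¹ := by rw [← mul_inv_rev, ← h2, inv_inv]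
  have r1 : ∀ x ∈ A, ∀ y ∈ A, ∀ z : G, ⁅x, z * y⁆ = ⁅x, z⁆ := fun x hx y hy z => by
    have := cA x hx y hy
    calc ⁅x, z * y⁆ = x * z * (y * x⁻¹ * y⁻¹) * z⁻¹ := by
          simp only [commutatorElement_def]; group
      _ = x * z * x⁻¹ * z⁻¹ := by
          rw [← cA x⁻¹ (A.inv_mem hx) y hy]; group
      _ = ⁅x, z⁆ := rfl
  have r2 : ∀ x ∈ B, ∀ y ∈ B, ∀ z : G, ⁅z * x, y⁆ = ⁅z, y⁆ := fun x hx y hy z => by
    calc ⁅z * x, y⁆ = z * (x * y * x⁻¹) * z⁻¹ * y⁻¹ := by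
          simp only [commutatorElement_def]; group
      _ = z * y * z⁻¹ * y⁻¹ := by
          rw [cB x hx y hy]; group
      _ = ⁅z, y⁆ := rfl
  have fixA : ∀ x ∈ A, a₁ * x * a₁⁻¹ = x := fun x hx => by rw [cA a₁ ha₁ x hx]; group
  have fixB : ∀ x ∈ B, b₁ * x * b₁⁻¹ = x := fun x hx => by rw [cB b₁ hb₁ x hx]; group
  calc (b₁ * a₁) * ⁅a, b⁆ * (b₁ * a₁)⁻¹ = b₁ * (a₁ * ⁅a, b⁆ * a₁⁻¹) * b₁⁻¹ := by group
    _ = b₁ * ⁅a, b₂⁻¹⁆ * b₁⁻¹ := by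
        rw [conjugate_commutatorElement, fixA a ha, h2', r1 a ha _ (A.inv_mem ha₂)]
    _ = ⁅a₃, b₂⁻¹⁆ := by
        rw [conjugate_commutatorElement, fixB _ (B.inv_mem hb₂), h3,
          r2 b₃ hb₃ _ (B.inv_mem hb₂)]
    _ = a₁ * ⁅a₃, b⁆ * a₁⁻¹ := by
        rw [conjugate_commutatorElement, fixA a₃ ha₃, h2', r1 a₃ ha₃ _ (A.inv_mem ha₂)]
    _ = a₁ * (b₁ * ⁅a, b⁆ * b₁⁻¹) * a₁⁻¹ := by
        rw [conjugate_commutatorElement a b b₁, fixB b hb, h3, r2 b₃ hb₃ b hb]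
    _ = (a₁ * b₁) * ⁅a, b⁆ * (a₁ * b₁)⁻¹ := by group

theorem commutator_comm_self {G : Type*} [Group G] (A B : Subgroup G)
    [hA : IsMulCommutative A] [hB : IsMulCommutative B]
    (hAB : ∀ g : G, ∃ a ∈ A, ∃ b ∈ B, g = a * b) : ⁅⁅A, B⁆, ⁅A, B⁆⁆ = ⊥ := by
  rw [Subgroup.commutator_eq_bot_iff_le_centralizer, Subgroup.commutator_le]
  intro a ha b hb
  have : ⁅A, B⁆ ≤ Subgroup.centralizer {⁅a, b⁆} := by
    rw [Subgroup.commutator_le]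
    intro a₁ ha₁ b₁ hb₁
    rw [Subgroup.mem_centralizer_singleton_iff]
    have h := comm_commutator A B hAB ha hb (A.inv_mem ha₁) (B.inv_mem hb₁)
    calc ⁅a₁, b₁⁆ * ⁅a, b⁆ = a₁ * b₁ * (a₁⁻¹ * b₁⁻¹ * ⁅a, b⁆ * (a₁⁻¹ * b₁⁻¹)⁻¹) * (a₁⁻¹ * b₁⁻¹) := by
          rw [commutatorElement_def a₁ b₁]; group
      _ = ⁅a, b⁆ * ⁅a₁, b₁⁆ := by
          rw [← h, commutatorElement_def a₁ b₁]; group
  intro y hy
  exact Subgroup.mem_centralizer_singleton_iff.mp (this hy)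

theorem commutator_le {G : Type*} [Group G] (A B : Subgroup G)
    [hA : IsMulCommutative A] [hB : IsMulCommutative B]
    (hAB : ∀ g : G, ∃ a ∈ A, ∃ b ∈ B, g = a * b) : commutator G ≤ ⁅A, B⁆ := by
  have hn : (⁅A, B⁆ : Subgroup G).Normal := by
    rw [← Subgroup.normalizer_eq_top_iff, eq_top_iff]
    intro g _
    obtain ⟨a, ha, b, hb, rfl⟩ := hAB g
    exact Subgroup.mul_mem _ (Subgroup.normalizer_commutator_ge_left A B ha)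
      (Subgroup.normalizer_commutator_ge_right A B hb)
  rw [← Subgroup.Normal.quotient_commutative_iff_commutator_le]
  have hab : ∀ a ∈ A, ∀ b ∈ B, Commute (a : G ⧸ (⁅A, B⁆ : Subgroup G)) (b : G ⧸ (⁅A, B⁆ : Subgroup G)) := by
    intro a ha b hb
    rw [← commutatorElement_eq_one_iff_commute]
    have := map_commutatorElement (QuotientGroup.mk' ⁅A, B⁆) a b
    exact this.symm.trans
      ((QuotientGroup.eq_one_iff _).mpr (Subgroup.commutator_mem_commutator ha hb))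
  have haa : ∀ a ∈ A, ∀ b ∈ A, Commute (a : G ⧸ (⁅A, B⁆ : Subgroup G)) (b : G ⧸ (⁅A, B⁆ : Subgroup G)) :=
    fun x hx y hy => Commute.map (f := QuotientGroup.mk' ⁅A, B⁆)
      (congrArg Subtype.val (hA.is_comm.comm (⟨x, hx⟩ : A) ⟨y, hy⟩))
  have hbb : ∀ a ∈ B, ∀ b ∈ B, Commute (a : G ⧸ (⁅A, B⁆ : Subgroup G)) (b : G ⧸ (⁅A, B⁆ : Subgroup G)) :=
    fun x hx y hy => Commute.map (f := QuotientGroup.mk' ⁅A, B⁆)
      (congrArg Subtype.val (hB.is_comm.comm (⟨x, hx⟩ : B) ⟨y, hy⟩))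
  refine ⟨⟨fun x y => ?_⟩⟩
  obtain ⟨x, rfl⟩ := QuotientGroup.mk_surjective x
  obtain ⟨y, rfl⟩ := QuotientGroup.mk_surjective y
  obtain ⟨a, ha, b, hb, rfl⟩ := hAB x
  obtain ⟨c, hc, d, hd, rfl⟩ := hAB y
  rw [QuotientGroup.mk_mul, QuotientGroup.mk_mul]
  exact (((haa a ha c hc).mul_right (hab a ha d hd)).mul_left
    ((hab c hc b hb).symm.mul_right (hbb b hb d hd))).eq

/-- A finite group which is the product AB of two abelian subgroups A and B is solvable. -/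
theorem result {G : Type*} [Group G] [Finite G] (A B : Subgroup G)
    [IsMulCommutative A] [IsMulCommutative B] (hAB : ∀ g : G, ∃ a ∈ A, ∃ b ∈ B, g = a * b) :
    Group.IsSolvable G := by
  refine ⟨⟨2, le_bot_iff.mp ?_⟩⟩
  rw [← commutator_comm_self A B hAB]
  exact Subgroup.commutator_mono (commutator_le A B hAB) (commutator_le A B hAB)

end Cfsg.Agent.S0047
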