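import Cfsg.Statements.S0052
import Mathlib
import Cfsg.Agent.Lib.Core.HallSZ

set_option autoImplicit false
open Pointwise
open Cfsg

namespace Cfsg.Agent.S0052

/-- Gaschütz's Theorem, conjugacy: for an abelian normal subgroup K ≤ U with the order of K coprime to the index of U, two complements of K in G having the same intersection with U are conjugate. -/
theorem result {G : Type*} [Group G] [Finite G] (K U : Subgroup G) [K.Normal] [IsMulCommutative K]
    (hKU : K ≤ U) (hcop : (Nat.card K).Coprime U.index)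
    (H₀ H₁ : Subgroup G) (h₀ : Subgroup.IsComplement' K H₀) (h₁ : Subgroup.IsComplement' K H₁) (hU : H₀ ⊓ U = H₁ ⊓ U) :
    ∃ g : G, MulAut.conj g • H₀ = H₁ := by
  have hidx : (H₀ ⊓ U).relIndex H₀ = U.index := by
    have h1 : U ⊔ H₀ = ⊤ := top_le_iff.1 (h₀.sup_eq_top ▸ sup_le_sup_right hKU H₀)
    have h2 : K ⊔ (H₀ ⊓ U) = U := by
      rw [← H3.sup_inf_assoc_of_le_normalizer Subgroup.le_normalizer_of_normal hKU, h₀.sup_eq_top,
        top_inf_eq]
    have h3 : Nat.card U = Nat.card K * Nat.card ↥(H₀ ⊓ U) := by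
      rw [← H3.card_sup_of_inf_eq_bot Subgroup.le_normalizer_of_normal, h2]
      exact eq_bot_iff.2 ((inf_le_inf_left K inf_le_left).trans (disjoint_iff.1 h₀.disjoint).le)
    have h4 := H3.relIndex_mul_card (inf_le_left : H₀ ⊓ U ≤ H₀)
    have h5 := h₀.card_mul_card
    have h6 := U.index_mul_card
    have h7 : 0 < Nat.card K * Nat.card ↥(H₀ ⊓ U) := Nat.mul_pos Nat.card_pos Nat.card_pos
    apply Nat.eq_of_mul_eq_mul_right h7
    rw [← h3, h6, ← h5, h3, ← h4]; ring
  obtain ⟨e, -, he⟩ := H3.exists_conj_le_of_abelian_relIndex K H₀ H₁ (H₀ ⊓ U)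
    (h₁.sup_eq_top ▸ le_top) (disjoint_iff.1 h₁.disjoint) (hU ▸ inf_le_left) (hidx ▸ hcop)
  refine ⟨e, Subgroup.eq_of_le_of_card_ge he ?_⟩
  rw [H3.card_conj_smul, ← h₀.symm.index_eq_card, ← h₁.symm.index_eq_card]

end Cfsg.Agent.S0052
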