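import Mathlib
import Cfsg.Statements.S0063
import Cfsg.Agent.Lib.Core.Frattini

set_option autoImplicit false
open Cfsg

namespace Cfsg.Agent.S0063

universe u

theorem aux (p : ℕ) [hp : Fact p.Prime] (m : ℕ) : ∀ {G : Type u} [Group G] [Finite G],
    Nat.card G ∣ p ^ (m + 2) → Group.nilpotencyClass G ≤ m + 1 := by
  induction m with
  | zero =>
    intro G _ _ h
    have hG : IsPGroup p G := IsPGroup.of_card_dvd_pow h
    have := hG.isNilpotent
    rw [zero_add, Group.IsNilpotent.nilpotencyClass_le_one_iff]
    obtain ⟨k, hk, hk'⟩ := (Nat.dvd_prime_pow hp.out).mp h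
    interval_cases k
    · have : Subsingleton G := (Nat.card_eq_one_iff_unique.mp (by simpa using hk')).1
      exact ⟨⟨fun _ _ => Subsingleton.elim _ _⟩⟩
    · have : IsCyclic G := isCyclic_of_prime_card (p := p) (by simpa using hk')
      infer_instance
    · exact IsPGroup.isMulCommutative_of_card_eq_prime_sq hk'
  | succ m ih =>
    intro G _ _ h
    have hG : IsPGroup p G := IsPGroup.of_card_dvd_pow h
    have := hG.isNilpotent
    rcases subsingleton_or_nontrivial G with hs | hs
    · rw [Group.nilpotencyClass_zero_iff_subsingleton.mpr hs]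
      exact Nat.zero_le _
    rw [Group.nilpotencyClass_eq_quotient_center_plus_one]
    refine Nat.succ_le_succ (ih ?_)
    have h1 : p ∣ Nat.card (Subgroup.center G) :=
      ((hG.to_subgroup _).card_eq_or_dvd).resolve_left
        (fun h => hG.bot_lt_center.ne' (Subgroup.card_eq_one.mp h))
    have h2 := Subgroup.card_eq_card_quotient_mul_card_subgroup (Subgroup.center G)
    have h3 : Nat.card (G ⧸ Subgroup.center G) * p ∣ p ^ (m + 2) * p := by
      rw [← pow_succ]
      exact (Nat.mul_dvd_mul_left _ h1).trans (h2 ▸ h)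
    exact Nat.dvd_of_mul_dvd_mul_right hp.out.pos h3

/-- A finite group of prime-power order p ^ m with m > 1 is nilpotent of class at most m - 1. -/
theorem result {G : Type*} [Group G] [Finite G] (p m : ℕ) [Fact p.Prime]
    (hG : Nat.card G = p ^ m) (hm : 1 < m) : Group.nilpotencyClass G ≤ m - 1 := by
  obtain ⟨k, rfl⟩ : ∃ k, m = k + 2 := ⟨m - 2, by omega⟩
  exact aux p k hG.dvd

end Cfsg.Agent.S0063
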