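import Mathlib
import Cfsg.Statements.S0064
import Cfsg.Agent.Lib.Core.Fitting
import Cfsg.Agent.Lib.Solv.Zipper

set_option autoImplicit false
open Cfsg

namespace Cfsg.Agent.S0064

/-- A finite group is nilpotent exactly when each of its subgroups is subnormal. -/
theorem result {G : Type*} [Group G] [Finite G] :
    Group.IsNilpotent G ↔ ∀ H : Subgroup G, H.IsSubnormal := by
  refine ⟨fun _ H => H21.isSubnormal_of_isNilpotent H, fun h => ?_⟩
  refine H1.isNilpotent_of_sylow_normal fun p _ P => ?_
  have h1 : (P : Subgroup G) = pCore p G :=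
    le_antisymm (H1.le_pCore_of_isSubnormal (h _) P.isPGroup') (H1.pCore_le_sylow P)
  rw [h1]
  infer_instance

end Cfsg.Agent.S0064
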