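import Mathlib
import Cfsg.Statements.S0065
import Cfsg.Agent.Lib.PGroup.Basic

set_option autoImplicit false
open Cfsg

namespace Cfsg.Agent.S0065

/-- A nontrivial normal subgroup of a nilpotent group intersects the centre nontrivially. -/
theorem result {G : Type*} [Group G] [Finite G] [Group.IsNilpotent G]
    (N : Subgroup G) [N.Normal] (hN : N ≠ ⊥) : N ⊓ Subgroup.center G ≠ ⊥ := by
  exact H5.inf_center_ne_bot_of_nilpotent N hN

end Cfsg.Agent.S0065
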