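import Cfsg.Statements.S0068
import Mathlib
import Cfsg.Agent.Lib.Core.HallSZ

set_option autoImplicit false
open Cfsg

namespace Cfsg.Agent.S0068

/-- Frobenius complements of even order: if H complements a nontrivial normal subgroup K, each nonidentity element of H has trivial centraliser in K, and H has even order, then H contains a unique involution s, K is abelian, and s inverts every element of K. -/
theorem result {G : Type*} [Group G] [Finite G] (K H : Subgroup G) [K.Normal]
    (hc : Subgroup.IsComplement' K H) (hK : K ≠ ⊥) (hfpf : ∀ h ∈ H, h ≠ 1 → K ⊓ Subgroup.centralizer {h} = ⊥)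
    (heven : 2 ∣ Nat.card H) :
    (∃ s ∈ H, orderOf s = 2 ∧ (∀ t ∈ H, orderOf t = 2 → t = s) ∧ ∀ k ∈ K, s * k * s⁻¹ = k⁻¹) ∧ IsMulCommutative K := by
  have key : ∀ s ∈ H, orderOf s = 2 → (∀ k ∈ K, s * k * s⁻¹ = k⁻¹) ∧ IsMulCommutative K := by
    intro s hs h2
    have hs1 : s ≠ 1 := fun h => by rw [h, orderOf_one] at h2; omega
    have hss : s * s = 1 := by rw [← pow_two, ← h2, pow_orderOf_eq_one]
    have hφ : MonoidHom.FixedPointFree (MulAut.conjNormal (H := K) s) := fun k hk => by
      have h1 : (k : G) ∈ K ⊓ Subgroup.centralizer {s} := Subgroup.mem_inf.2 ⟨k.2, by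
        rw [Subgroup.mem_centralizer_singleton_iff]
        have := congrArg Subtype.val hk
        rw [MulAut.conjNormal_apply, mul_inv_eq_iff_eq_mul] at this
        exact this.symm⟩
      rw [hfpf s hs hs1] at h1
      exact Subtype.ext h1
    have hinv : Function.Involutive (MulAut.conjNormal (H := K) s) := fun k => by
      rw [← MulAut.mul_apply, ← map_mul, hss, map_one, MulAut.one_apply]
    refine ⟨fun k hk => ?_, ⟨⟨fun a b => (hφ.commute_all_of_involutive hinv a b).eq⟩⟩⟩
    have := congrArg Subtype.val (congrFun (hφ.coe_eq_inv_of_involutive hinv) ⟨k, hk⟩)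
    simpa using this
  obtain ⟨s, hs⟩ := exists_prime_orderOf_dvd_card' (G := H) 2 heven
  have hs2 : orderOf (s : G) = 2 := by rw [Subgroup.orderOf_coe, hs]
  refine ⟨⟨s, s.2, hs2, fun t ht ht2 => ?_, (key s s.2 hs2).1⟩, (key s s.2 hs2).2⟩
  by_contra hne
  have h1 := hfpf ((s : G)⁻¹ * t) (H.mul_mem (H.inv_mem s.2) ht)
    (fun h => hne (inv_mul_eq_one.1 h).symm)
  refine hK (eq_bot_iff.2 (h1 ▸ le_inf le_rfl fun k hk => ?_))
  rw [Subgroup.mem_centralizer_singleton_iff]
  have h2 := (key s s.2 hs2).1 k hk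
  have h3 := (key t ht ht2).1 k hk
  calc k * ((s : G)⁻¹ * t) = (s : G)⁻¹ * (s * k * (s : G)⁻¹) * t := by group
    _ = (s : G)⁻¹ * (t * k * t⁻¹) * t := by rw [h2, h3]
    _ = (s : G)⁻¹ * t * k := by group

end Cfsg.Agent.S0068
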