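import Cfsg.Statements.S0069
import Mathlib
import Cfsg.Agent.Base
import Cfsg.Agent.Lib.FrobC.Perfect
import Cfsg.Agent.Lib.Core.CoprimeAbelian

set_option autoImplicit false
open Cfsg

namespace Cfsg.Agent.S0069

open Subgroup

theorem aux {A : Type*} [Group A] [Finite A] [Nontrivial A] (h : H82.IntFPF A) :
    center A ≠ ⊥ := by
  by_cases h2 : 2 ∣ Nat.card A
  · haveI := Fact.mk Nat.prime_two
    obtain ⟨z, hz⟩ := exists_prime_orderOf_dvd_card' 2 h2
    intro h3
    have := h.invol_mem_center hz
    rw [h3, mem_bot] at this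
    rw [this, orderOf_one] at hz
    omega
  haveI := h.isZGroup_of_odd ((Nat.Prime.coprime_iff_not_dvd Nat.prime_two).2 h2).symm
  have hco := IsZGroup.coprime_commutator_index A
  obtain ⟨K, hK⟩ := exists_right_complement'_of_coprime hco
  have hK0 : K ≠ ⊥ := by
    rintro rfl
    exact (Group.IsSolvable.commutator_lt_top_of_nontrivial A).ne (isComplement'_bot_right.1 hK)
  obtain ⟨a, ha, hp⟩ := H2.exists_mem_prime_orderOf hK0
  haveI := IsZGroup.isCyclic_commutator A
  have h1 : a ∈ centralizer (commutator A : Set A) := by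
    refine h.mem_centralizer_of_comm inferInstance hp (le_normalizer_of_normal (mem_top a)) ?_
    refine (hco.symm.coprime_dvd_left ?_)
    rw [hK.symm.index_eq_card]
    exact K.orderOf_dvd_natCard ha
  have h3 : a ∈ centralizer (K : Set A) := by
    refine mem_centralizer_iff.2 fun k hk => ?_
    rw [← commutatorElement_eq_one_iff_mul_comm, ← mem_bot, ← hK.disjoint.eq_bot]
    exact ⟨commutator_mem_commutator (mem_top k) (mem_top a),
      K.mul_mem (K.mul_mem (K.mul_mem hk ha) (K.inv_mem hk)) (K.inv_mem ha)⟩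
  intro h4
  have h5 : a ∈ center A := by
    rw [← centralizer_univ, ← coe_top, ← hK.sup_eq_top]
    exact le_centralizer_iff.1 (sup_le (le_centralizer_iff.1 (zpowers_le.2 h1))
      (le_centralizer_iff.1 (zpowers_le.2 h3))) (mem_zpowers a)
  rw [h4, mem_bot] at h5
  rw [h5, orderOf_one] at hp
  exact Nat.not_prime_one hp

/-- A Frobenius complement has nontrivial centre: if H ≠ 1 complements a nontrivial normal subgroup K and every nonidentity element of H has trivial centraliser in K, then the centre of H is nontrivial. -/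
theorem result {G : Type*} [Group G] [Finite G] (K H : Subgroup G) [K.Normal]
    (hc : Subgroup.IsComplement' K H) (hK : K ≠ ⊥) (hH : H ≠ ⊥) (hfpf : ∀ h ∈ H, h ≠ 1 → K ⊓ Subgroup.centralizer {h} = ⊥) :
    Subgroup.center H ≠ ⊥ := by
  haveI := (nontrivial_iff_ne_bot K).2 hK
  haveI := (nontrivial_iff_ne_bot H).2 hH
  refine aux (H82.FPF.intFPF (φ := (MulAut.conjNormal (H := K)).comp H.subtype) fun a ha k hk => ?_)
  refine Subtype.ext (mem_bot.1 (hfpf a a.2 (fun h => ha (Subtype.ext h)) ▸ ⟨k.2, ?_⟩))
  exact mem_centralizer_singleton_iff.2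
    (mul_inv_eq_iff_eq_mul.1 (congrArg Subtype.val hk)).symm

end Cfsg.Agent.S0069
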