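import Cfsg.Statements.S0073
import Mathlib
import Cfsg.Agent.Lib.Transfer.Control

set_option autoImplicit false
open Cfsg

namespace Cfsg.Agent.S0073

/-- For a finite non-abelian simple group, either the cube of the least prime divisor of the order divides the order, or 12 does. -/
theorem result {G : Type*} [Group G] [Finite G] [IsSimpleGroup G] (hG : ∃ x y : G, x * y ≠ y * x) : (Nat.card G).minFac ^ 3 ∣ Nat.card G ∨ 12 ∣ Nat.card G := by
  obtain ⟨x, y, hxy⟩ := hG
  have hne : Nat.card G ≠ 1 := Finite.one_lt_card.ne'
  have hp := Nat.minFac_prime hne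
  have := Fact.mk hp
  set p := (Nat.card G).minFac with hpdef
  by_contra hcon
  push Not at hcon
  obtain ⟨h3, h12⟩ := hcon
  obtain ⟨P⟩ := (Sylow.nonempty : Nonempty (Sylow p G))
  obtain ⟨n, hn⟩ := P.2.exists_card_eq
  have hnd : p ^ n ∣ Nat.card G := hn ▸ Subgroup.card_subgroup_dvd_card _
  have hn2 : n ≤ 2 := by
    by_contra h
    exact h3 ((pow_dvd_pow p (by omega)).trans hnd)
  have hc : Cfsg.HasNormalPComplement p G := by
    refine H4.hasNormalPComplement_of_not_dvd_pow_sub_one P hn fun q hq hqp hd i h1 h2 hdi => ?_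
    have hle : p ≤ q := Nat.minFac_le_of_dvd hq.two_le hd
    have hlt : p < q := lt_of_le_of_ne hle (Ne.symm hqp)
    have hp2 := hp.two_le
    have hq1 : ¬ q ∣ p - 1 := fun h => by
      have := Nat.le_of_dvd (by omega) h
      omega
    obtain rfl | rfl : i = 1 ∨ i = 2 := by omega
    · exact hq1 (by simpa using hdi)
    · have e : p ^ 2 - 1 = (p + 1) * (p - 1) := by
        have := Nat.sq_sub_sq p 1
        simpa using this
      rw [e] at hdi
      have hq2 := ((Nat.Prime.dvd_mul hq).mp hdi).resolve_right hq1
      have hq3 : q = p + 1 := le_antisymm (Nat.le_of_dvd (by omega) hq2) hlt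
      have hp' : p = 2 := by
        rcases hp.eq_two_or_odd' with h | h
        · exact h
        · exfalso
          have : Even q := by rw [hq3]; exact h.add_one
          have := (Nat.Prime.even_iff hq).mp this
          omega
      obtain rfl : n = 2 := by omega
      rw [hp'] at hnd hq3
      subst hq3
      exact h12 (Nat.Coprime.mul_dvd_of_dvd_of_dvd (m := 4) (n := 3) (by norm_num) hnd hd)
  have := H4.isMulCommutative_of_isSimpleGroup_of_hasNormalPComplement hc (Nat.minFac_dvd _)
  exact hxy (this.is_comm.comm x y)

end Cfsg.Agent.S0073
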