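import Cfsg.Statements.S0078
import Mathlib
import Cfsg.Agent.Lib.Transfer.Control

set_option autoImplicit false
open Cfsg

namespace Cfsg.Agent.S0078

/-- In a p-normal group, a Sylow p-subgroup P meets O^p(G) exactly where it meets O^p(V), for any subgroup V containing the normalizer of the centre of P. -/
theorem result {G : Type*} [Group G] [Finite G] {p : ℕ} [Fact p.Prime] (P : Sylow p G) (hn : ∀ Q : Sylow p G, (P : Subgroup G) ⊓ Subgroup.centralizer (P : Set G) ≤ (Q : Subgroup G) → (Q : Subgroup G) ⊓ Subgroup.centralizer (Q : Set G) = (P : Subgroup G) ⊓ Subgroup.centralizer (P : Set G)) (V : Subgroup G) (hV : Subgroup.normalizer (((P : Subgroup G) ⊓ Subgroup.centralizer (P : Set G) : Subgroup G) : Set G) ≤ V) : (P : Subgroup G) ⊓ Cfsg.pResidual p G = (P : Subgroup G) ⊓ (Cfsg.pResidual p V).map V.subtype := by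
  set Z : Subgroup G := (P : Subgroup G) ⊓ Subgroup.centralizer (P : Set G) with hZ
  have hW : Cfsg.IsWeaklyClosed Z P := by
    refine H4.isWeaklyClosed_iff.mpr ⟨inf_le_left, fun g hg => ?_⟩
    have h1 := hn (g⁻¹ • P) fun z hz => H4.mem_smul_sylow_iff.mpr (by rw [inv_inv]; exact hg z hz)
    rw [← Subgroup.inv_mem_iff, H1.mem_normalizer_iff_conj_smul_eq]
    conv_rhs => rw [← h1]
    rw [hZ, Subgroup.smul_inf, ← P.coe_coe, ← H1.centralizer_conj_smul]
    rfl
  have hPV : (P : Subgroup G) ≤ V := by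
    refine le_trans ?_ hV
    exact (Subgroup.le_centralizer_iff.mp (inf_le_right : Z ≤ _)).trans
      (Subgroup.centralizer_le_normalizer _)
  rw [inf_comm, inf_comm (P : Subgroup G)]
  refine H4.pResidual_inf_eq_of_controls_fusion P hPV fun x hx g hg => ?_
  obtain ⟨n, hn, h⟩ := H4.IsWeaklyClosed.normalizer_controls_fusion P inf_le_right hW x hx g hg
  exact ⟨n, hV hn, h⟩

end Cfsg.Agent.S0078
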