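import Cfsg.Statements.S0082
import Mathlib
import Cfsg.Agent.Lib.Transfer.Control

set_option autoImplicit false
open Cfsg

namespace Cfsg.Agent.S0082


theorem le_or_le_of_sup {G : Type*} [Group G] {p : ℕ} [hp : Fact p.Prime] {P A B : Subgroup G}
    (hP : IsPGroup p P) (hc : IsCyclic P) (h : A ⊔ B = P) : P ≤ A ∨ P ≤ B := by
  obtain ⟨x, rfl⟩ := (Subgroup.isCyclic_iff_exists_zpowers_eq_top P).mp hc
  obtain ⟨n, hn⟩ := hP ⟨x, Subgroup.mem_zpowers x⟩
  have hn' : x ^ p ^ n = 1 := congrArg Subtype.val hn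
  have key : ∀ A : Subgroup G, A ≤ Subgroup.zpowers x → x ∉ A → A ≤ Subgroup.zpowers (x ^ p) := by
    intro A hA hx y hy
    obtain ⟨k, rfl⟩ := (IsOfFinOrder.mem_powers_iff_mem_zpowers
      (isOfFinOrder_iff_pow_eq_one.mpr ⟨_, pow_pos hp.out.pos n, hn'⟩)).mpr (hA hy)
    by_cases hk : p ∣ k
    · obtain ⟨m, rfl⟩ := hk
      exact ⟨m, by simp [pow_mul]⟩
    · exact absurd (H4.mem_of_pow_mem_of_coprime hy (Nat.Coprime.coprime_dvd_left
        (orderOf_dvd_of_pow_eq_one hn') (((Nat.Prime.coprime_iff_not_dvd hp.out).mpr hk).pow_left n))) hx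
  by_contra hcon
  simp only [Subgroup.zpowers_le, not_or] at hcon
  have h1 : x ∈ Subgroup.zpowers (x ^ p) :=
    sup_le (key A (le_sup_left.trans h.le) hcon.1) (key B (le_sup_right.trans h.le) hcon.2)
      (h.ge (Subgroup.mem_zpowers x))
  rw [mem_zpowers_pow_iff] at h1
  have h2 : orderOf x = 1 :=
    Nat.eq_one_of_dvd_coprimes (Nat.Coprime.pow_left n h1) (orderOf_dvd_of_pow_eq_one hn') dvd_rfl
  exact hcon.1 (orderOf_eq_one_iff.mp h2 ▸ A.one_mem)

/-- With a cyclic Sylow p-subgroup, either there is a normal p-complement or the elements of order prime to p generate the whole group. -/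
theorem result {G : Type*} [Group G] [Finite G] {p : ℕ} [Fact p.Prime] (P : Sylow p G) (hP : IsCyclic P) : Cfsg.HasNormalPComplement p G ∨ Cfsg.pResidual p G = ⊤ := by
  have hc : IsMulCommutative P := inferInstance
  have hc' : IsMulCommutative (P : Subgroup G) := hc
  set N := Subgroup.normalizer (P : Set G) with hN
  have hPN : (P : Subgroup G) ≤ N := Subgroup.le_normalizer
  have h := H4.commutator_sup_centralizer_of_hall hc' hPN le_rfl
    (Nat.Coprime.coprime_dvd_right (Subgroup.relIndex_dvd_index_of_le hPN) P.card_coprime_index)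
  rcases le_or_le_of_sup P.2 hP h with h1 | h1
  · right
    rw [← H4.inf_pResidual_eq_commutator_normalizer P] at h1
    rw [← H4.pResidual_sup_sylow P, sup_eq_left.mpr (h1.trans inf_le_right)]
  · left
    exact H4.hasNormalPComplement_of_normalizer_le_centralizer P
      (Subgroup.le_centralizer_iff.mp (h1.trans inf_le_right))

end Cfsg.Agent.S0082
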