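import Cfsg.Statements.S0083
import Mathlib
import Cfsg.Agent.Lib.Transfer.Control

set_option autoImplicit false
open Cfsg

namespace Cfsg.Agent.S0083

/-- For an abelian Sylow p-subgroup P, a normal p-complement exists exactly when the normalizer of P is an internal direct product of P with some subgroup. -/
theorem result {G : Type*} [Group G] [Finite G] {p : ℕ} [Fact p.Prime] (P : Sylow p G) (hP : IsMulCommutative P) : Cfsg.HasNormalPComplement p G ↔ ∃ Q : Subgroup G, Q ≤ Subgroup.centralizer (P : Set G) ∧ Q ⊓ (P : Subgroup G) = ⊥ ∧ Q ⊔ (P : Subgroup G) = Subgroup.normalizer (P : Set G) := by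
  have hc' : IsMulCommutative (P : Subgroup G) := hP
  constructor
  · intro h
    refine ⟨Cfsg.pResidual p G ⊓ Subgroup.normalizer (P : Set G), ?_, ?_, ?_⟩
    · rintro x ⟨hx, hxN⟩
      exact H4.mem_centralizer_of_hasNormalPComplement' h P.2 hxN
        ((H4.mem_pResidual_iff_of_hasNormalPComplement h).mp hx)
    · rw [eq_bot_iff, ← (H4.hasNormalPComplement_iff_inf_eq_bot P).mp h]
      exact inf_le_inf_right _ inf_le_left
    · refine le_antisymm (sup_le inf_le_right Subgroup.le_normalizer) fun g hg => ?_
      obtain ⟨r, hr, t, ht, rfl⟩ := H4.exists_pResidual_mul (H4.coprime_index_sylow P) g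
      exact Subgroup.mul_mem_sup
        ⟨hr, (Subgroup.mul_mem_cancel_right _ (Subgroup.le_normalizer ht)).mp hg⟩ ht
  · rintro ⟨Q, h1, -, h3⟩
    apply H4.hasNormalPComplement_of_normalizer_le_centralizer P
    rw [← h3]
    exact sup_le h1 (P : Subgroup G).le_centralizer

end Cfsg.Agent.S0083
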