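import Cfsg.Statements.S0090
import Mathlib
import Cfsg.Agent.Lib.Transfer.Control

set_option autoImplicit false
open Cfsg

namespace Cfsg.Agent.S0090

/-- An abelian normal Hall subgroup A splits as the internal direct product of G' ∩ A and Z(G) ∩ A, and [A, G] = G' ∩ A. -/
theorem result {G : Type*} [Group G] [Finite G] (A : Subgroup G) [A.Normal] (hc : IsMulCommutative A) (hHall : Nat.Coprime (Nat.card A) A.index) : ⁅A, (⊤ : Subgroup G)⁆ = commutator G ⊓ A ∧ (commutator G ⊓ A) ⊓ (Subgroup.center G ⊓ A) = ⊥ ∧ (commutator G ⊓ A) ⊔ (Subgroup.center G ⊓ A) = A := by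
  have h1 : ⁅A, (⊤ : Subgroup G)⁆ = commutator G ⊓ A := by
    refine le_antisymm (le_inf (Subgroup.commutator_mono le_top le_rfl)
      (Subgroup.commutator_le_left _ _)) ?_
    rw [Subgroup.commutator_comm]
    exact H4.commutator_inf_le_of_fusion
      (Nat.Coprime.coprime_dvd_right (Subgroup.relIndex_dvd_card _ _) hHall.symm)
      fun x hx u _ => Subgroup.commutator_mem_commutator trivial hx
  refine ⟨h1, ?_, ?_⟩
  · rw [eq_bot_iff, ← H4.inf_commutator_inf_center_eq_bot hc hHall]
    rintro x ⟨⟨h1, h2⟩, h3, -⟩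
    exact ⟨⟨h2, h1⟩, h3⟩
  · have := H4.commutator_sup_centralizer_of_hall (K := ⊤) hc le_top
      Subgroup.le_normalizer_of_normal (by rwa [Subgroup.relIndex_top_right])
    rwa [h1, Subgroup.coe_top, Subgroup.centralizer_univ, inf_comm A] at this

end Cfsg.Agent.S0090
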