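import Cfsg.Statements.S0092
import Mathlib
import Cfsg.Agent.Base
import Cfsg.Agent.Lib.Transfer.Control
import Cfsg.Agent.Lib.Core.HallSZ

set_option autoImplicit false
open Cfsg

namespace Cfsg.Agent.S0092

open Subgroup
open scoped Pointwise commutatorElement

/-- If the Sylow p-subgroups of O^p(G) are abelian then G splits over O^p(G). -/
theorem result {G : Type*} [Group G] [Finite G] {p : ℕ} [Fact p.Prime] (h : ∀ Q : Sylow p (Cfsg.pResidual p G), IsMulCommutative Q) : ∃ K : Subgroup G, K.IsComplement' (Cfsg.pResidual p G) := by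
  classical
  have hp : p.Prime := Fact.out
  set R := Cfsg.pResidual p G with hR
  haveI : R.Normal := H4.pResidual_normal p G
  obtain ⟨Q0⟩ : Nonempty (Sylow p R) := inferInstance
  haveI := h Q0
  set Q : Subgroup G := (Q0 : Subgroup R).map R.subtype with hQ
  have hQR : Q ≤ R := map_subtype_le _
  have hQp : IsPGroup p Q := Q0.isPGroup'.map _
  have hQc : IsMulCommutative Q := by rw [hQ]; infer_instance
  have hFr : normalizer (Q : Set G) ⊔ R = ⊤ := Sylow.normalizer_sup_eq_top Q0
  set N := normalizer (Q : Set G) with hN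
  set M := N ⊓ R with hM
  have hQM : Q ≤ M := le_inf le_normalizer hQR
  have hMN : M ≤ N := inf_le_left
  have hidx : ¬ p ∣ Q.relIndex M := by
    have h1 : Q.relIndex R = (Q0 : Subgroup R).index := by
      rw [hQ, relIndex, subgroupOf, comap_map_eq_self_of_injective (subtype_injective _)]
    have h2 : Q.relIndex M ∣ Q.relIndex R :=
      Dvd.intro _ (relIndex_mul_relIndex Q M R hQM inf_le_right)
    intro hd
    exact Q0.not_dvd_index (h1 ▸ hd.trans h2)
  have hcop : (Nat.card Q).Coprime (Q.relIndex M) := by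
    obtain ⟨k, hk⟩ := IsPGroup.iff_card.1 hQp
    rw [hk]
    exact Nat.Coprime.pow_left _ ((Nat.Prime.coprime_iff_not_dvd hp).2 hidx)
  obtain ⟨L, hLM, hQL, hQL0, hLc⟩ := H3.exists_complement_in hQM hMN hcop
  have hLN : L ≤ N := hLM.trans hMN
  -- Q ≤ [M, M]
  have hQMM : Q ≤ ⁅M, M⁆ := by
    have h1 := H4.inf_pResidual_eq_commutator_normalizer Q0
    rw [show Cfsg.pResidual p R = ⊤ from H4.pResidual_pResidual p G, inf_top_eq] at h1
    have h2 : Q = ⁅Q, (normalizer ((Q0 : Subgroup R) : Set R)).map R.subtype⁆ := by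
      rw [hQ, ← Subgroup.map_commutator]
      exact congrArg _ h1
    rw [h2]
    refine commutator_mono (h2 ▸ hQM) ?_
    refine le_inf ?_ (map_subtype_le _)
    exact Subgroup.le_normalizer_map _
  have hCQ : ∀ q ∈ Q, (∀ l ∈ L, q * l = l * q) → q = 1 := by
    intro q hq hql
    have h1 := H4.commutator_inf_centralizer_of_hall hQc hQM hcop
    have h2 : q ∈ ⁅M, M⁆ ⊓ (Q ⊓ centralizer (M : Set G)) := by
      refine ⟨hQMM hq, hq, ?_⟩
      intro m hm
      rw [← hQL] at hm
      obtain ⟨a, ha, l, hl, rfl⟩ := (H3.mem_sup_iff_of_le_normalizer hLN).1 hm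
      have hc : a * q = q * a :=
        congrArg Subtype.val (hQc.is_comm.comm (⟨a, ha⟩ : Q) ⟨q, hq⟩)
      rw [mul_assoc, ← hql l hl, ← mul_assoc, hc, mul_assoc]
    rw [h1] at h2
    exact h2
  set T := N ⊓ normalizer (L : Set G) with hT
  have hNT : N ≤ R ⊔ T := by
    intro n hn
    have hle : MulAut.conj n • L ≤ Q ⊔ L := by
      rw [hQL, H3.conj_smul_le_iff]
      intro x hx
      exact ⟨N.mul_mem (N.mul_mem hn (hLN hx)) (N.inv_mem hn),
        Normal.conj_mem inferInstance _ (hLM hx).2 n⟩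
    have hsolv : Group.IsSolvable Q := by
      haveI := hQp.isNilpotent
      infer_instance
    obtain ⟨e, he, hel⟩ := H3.exists_conj_eq_of_coprime hLN hle (H3.card_conj_smul n L)
      (hLc ▸ hcop) (Or.inl hsolv)
    rw [H3.conj_smul_conj_smul, H3.conj_smul_eq_self_iff] at hel
    have h1 : e * n ∈ T := ⟨N.mul_mem (le_normalizer he) hn, hel⟩
    have h2 : n = e⁻¹ * (e * n) := by group
    rw [h2]
    exact mul_mem (mem_sup_left (R.inv_mem (hQR he))) (mem_sup_right h1)
  have hTR : T ⊓ R ≤ L := by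
    rintro x ⟨⟨hxN, hxL⟩, hxR⟩
    have hxM : x ∈ Q ⊔ L := by rw [hQL]; exact ⟨hxN, hxR⟩
    obtain ⟨a, ha, l, hl, rfl⟩ := (H3.mem_sup_iff_of_le_normalizer hLN).1 hxM
    have haL : a ∈ normalizer (L : Set G) := by
      have := (normalizer (L : Set G)).mul_mem hxL
        ((normalizer (L : Set G)).inv_mem (le_normalizer hl))
      simpa using this
    have ha1 : a = 1 := by
      refine hCQ a ha fun m hm => ?_
      have h1 : a * m * a⁻¹ * m⁻¹ ∈ Q ⊓ L := by
        refine ⟨?_, L.mul_mem (H3.conj_mem_of_mem_normalizer haL hm) (L.inv_mem hm)⟩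
        have := Q.mul_mem ha (H3.conj_mem_of_mem_normalizer (hLN hm) (Q.inv_mem ha))
        simpa [mul_assoc] using this
      rw [hQL0, mem_bot] at h1
      calc a * m = (a * m * a⁻¹ * m⁻¹) * (m * a) := by group
        _ = m * a := by rw [h1, one_mul]
    rw [ha1, one_mul]; exact hl
  obtain ⟨P⟩ : Nonempty (Sylow p T) := inferInstance
  set K : Subgroup G := (P : Subgroup T).map T.subtype with hK
  have hKT : K ≤ T := map_subtype_le _
  have hKp : IsPGroup p K := P.isPGroup'.map _
  have hTK : T ≤ R ⊔ K := by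
    have h1 := congrArg (Subgroup.map T.subtype) (H4.pResidual_sup_sylow P)
    rw [Subgroup.map_sup, ← MonoidHom.range_eq_map, range_subtype] at h1
    rw [← h1]
    exact sup_le_sup_right (H4.map_subtype_pResidual_le T) _
  have htop : R ⊔ K = ⊤ := by
    rw [eq_top_iff, ← hFr]
    exact sup_le (hNT.trans (sup_le le_sup_left hTK)) le_sup_left
  refine ⟨K, isComplement'_of_disjoint_and_mul_eq_univ ?_ ?_⟩
  · rw [disjoint_iff, eq_bot_iff]
    have h1 : K ⊓ R ≤ K ⊓ L := le_inf inf_le_left ((inf_le_inf_right R hKT).trans hTR)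
    refine h1.trans (disjoint_iff_inf_le.1 (disjoint_of_coprime_natCard ?_))
    obtain ⟨k, hk⟩ := IsPGroup.iff_card.1 hKp
    rw [hk, hLc]
    exact Nat.Coprime.pow_left _ ((Nat.Prime.coprime_iff_not_dvd hp).2 hidx)
  · rw [← Subgroup.mul_normal K R, sup_comm, htop]
    rfl

end Cfsg.Agent.S0092
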