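import Mathlib
import Cfsg.Statements.S0094
import Cfsg.Agent.Lib.PGroup.Commutator
import Cfsg.Agent.Lib.PGroup.Frattini

set_option autoImplicit false
open Cfsg

namespace Cfsg.Agent.S0094

/-- In a special p-group every central element has order dividing p. -/
theorem result {P : Type*} [Group P] [Finite P] {p : ℕ} [Fact p.Prime] (h : Cfsg.IsSpecial p P) (z : P) (hz : z ∈ Subgroup.center P) : z ^ p = 1 := by
  obtain ⟨hP, h1, h2⟩ := h
  have h3 : ⁅⁅(⊤ : Subgroup P), (⊤ : Subgroup P)⁆, (⊤ : Subgroup P)⁆ = ⊥ := by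
    rw [← commutator_def, h2, Subgroup.commutator_center_left]
  refine H5.commutator_pow_eq_one_of_class_two h3 (fun x _ => ?_) (by rwa [← commutator_def, h2])
  rw [Subgroup.coe_top, Subgroup.centralizer_univ, ← h1]
  exact H5.pow_mem_frattini hP x

end Cfsg.Agent.S0094
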