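import Mathlib
import Cfsg.Statements.S0095
import Cfsg.Agent.Lib.PGroup.Extra

set_option autoImplicit false
open Cfsg

namespace Cfsg.Agent.S0095

/-- The order of an extraspecial p-group is an odd power p^(2n+1) of p with n ≥ 1. -/
theorem result {P : Type*} [Group P] [Finite P] {p : ℕ} [Fact p.Prime] (h : Cfsg.IsExtraspecial p P) : ∃ n : ℕ, 1 ≤ n ∧ Nat.card P = p ^ (2 * n + 1) := by
  obtain ⟨z, h1, -, h3⟩ := H5.exists_wes_top h
  obtain ⟨n, hn⟩ := h1.exists_card Fact.out
  rw [Subgroup.card_top] at hn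
  refine ⟨n, Nat.pos_of_ne_zero ?_, hn⟩
  rintro rfl
  exact h3 (Subgroup.eq_of_le_of_card_ge le_top (by
    rw [Subgroup.card_top, hn, h1.card_zpowers]; simp)).symm

end Cfsg.Agent.S0095
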