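import Mathlib
import Cfsg.Statements.S0097
import Cfsg.Agent.Lib.PGroup.Extra

set_option autoImplicit false
open Cfsg

namespace Cfsg.Agent.S0097

/-- For odd p and E extraspecial, the subgroup generated by the elements of order dividing p has exponent dividing p and index at most p. -/
theorem result {E : Type*} [Group E] [Finite E] {p : ℕ} [Fact p.Prime] (hp : p ≠ 2) (h : Cfsg.IsExtraspecial p E) : (Subgroup.closure {x : E | x ^ p = 1}).index ≤ p ∧ ∀ g ∈ Subgroup.closure {x : E | x ^ p = 1}, g ^ p = 1 := by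
  obtain ⟨z, h1, -, -⟩ := H5.exists_wes_top h
  have hpp : p.Prime := Fact.out
  have hmul : ∀ x y : E, (x * y) ^ p = x ^ p * y ^ p := fun x y =>
    H5.mul_pow_eq_of_class_two_of_odd (h1.commute (h1.comm y trivial x trivial) trivial)
      (h1.commute (h1.comm y trivial x trivial) trivial) (hpp.odd_of_ne_two hp)
      (h1.pow_eq_one (h1.comm y trivial x trivial))
  rw [H5.closure_pow_eq_one_eq_ker p hmul]
  refine ⟨?_, fun g hg => hg⟩
  rw [Subgroup.index_ker]
  refine (Subgroup.card_le_of_le ?_).trans h1.card_zpowers.le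
  rintro _ ⟨x, rfl⟩
  exact h1.pow_mem trivial

end Cfsg.Agent.S0097
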