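import Mathlib
import Cfsg.Statements.S0099
import Cfsg.Agent.Lib.LargeExtra.Types

set_option autoImplicit false
open Cfsg

namespace Cfsg.Agent.S0099

/-- Among three extraspecial 2-groups of equal order, some two are isomorphic. -/
theorem result {E₁ : Type*} {E₂ : Type*} {E₃ : Type*} [Group E₁] [Group E₂] [Group E₃] [Finite E₁] [Finite E₂] [Finite E₃] (h₁ : Cfsg.IsExtraspecial 2 E₁) (h₂ : Cfsg.IsExtraspecial 2 E₂) (h₃ : Cfsg.IsExtraspecial 2 E₃) (h12 : Nat.card E₁ = Nat.card E₂) (h23 : Nat.card E₂ = Nat.card E₃) : Nonempty (E₁ ≃* E₂) ∨ Nonempty (E₂ ≃* E₃) ∨ Nonempty (E₁ ≃* E₃) := by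
  obtain ⟨z₁, -, V₁, _, _, _, P₁, m₁, q₁, -, v₁, -, c₁⟩ := H95.exists_pres_of_extraspecial h₁
  obtain ⟨z₂, -, V₂, _, _, _, P₂, m₂, q₂, -, v₂, -, c₂⟩ := H95.exists_pres_of_extraspecial h₂
  obtain ⟨z₃, -, V₃, _, _, _, P₃, m₃, q₃, -, v₃, -, c₃⟩ := H95.exists_pres_of_extraspecial h₃
  obtain rfl : m₁ = m₂ := by
    have := Nat.pow_right_injective le_rfl (c₁.symm.trans (h12.trans c₂))
    omega
  obtain rfl : m₁ = m₃ := by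
    have := Nat.pow_right_injective le_rfl (c₂.symm.trans (h23.trans c₃))
    omega
  by_cases h : H66.IsPlusType P₁.q ↔ H66.IsPlusType P₂.q
  · obtain ⟨Φ, hΦ⟩ := H66.exists_equiv_of_isPlusType_iff q₁ q₂ v₁ v₂ h
    obtain ⟨φ, -⟩ := P₁.exists_equiv P₂ Φ hΦ
    exact Or.inl ⟨φ⟩
  by_cases h' : H66.IsPlusType P₂.q ↔ H66.IsPlusType P₃.q
  · obtain ⟨Φ, hΦ⟩ := H66.exists_equiv_of_isPlusType_iff q₂ q₃ v₂ v₃ h'
    obtain ⟨φ, -⟩ := P₂.exists_equiv P₃ Φ hΦ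
    exact Or.inr (Or.inl ⟨φ⟩)
  · obtain ⟨Φ, hΦ⟩ := H66.exists_equiv_of_isPlusType_iff q₁ q₃ v₁ v₃ (by tauto)
    obtain ⟨φ, -⟩ := P₁.exists_equiv P₃ Φ hΦ
    exact Or.inr (Or.inr ⟨φ⟩)

end Cfsg.Agent.S0099
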