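import Cfsg.Statements.S0104
import Mathlib
import Cfsg.Agent.Lib.Transfer.Control

set_option autoImplicit false
open Cfsg

namespace Cfsg.Agent.S0104

/-- A subgroup Z of a Sylow p-subgroup P that is normalized by N_G(P) is weakly closed in P exactly when it is normal in every Sylow p-subgroup containing it. -/
theorem result {G : Type*} [Group G] [Finite G] {p : ℕ} [Fact p.Prime] (P : Sylow p G) (Z : Subgroup G) (hZP : Z ≤ (P : Subgroup G)) (hZN : Subgroup.normalizer (P : Set G) ≤ Subgroup.normalizer (Z : Set G)) : Cfsg.IsWeaklyClosed Z P ↔ ∀ R : Sylow p G, Z ≤ (R : Subgroup G) → (R : Subgroup G) ≤ Subgroup.normalizer (Z : Set G) := by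
  constructor
  · intro h R hZR r hr
    exact H4.IsWeaklyClosed.mem_normalizer_of_isPGroup P h R.isPGroup' hZR
      fun w hw => mul_mem (mul_mem hr (hZR hw)) (inv_mem hr)
  · intro h
    refine H4.isWeaklyClosed_iff.2 ⟨hZP, fun g hg => ?_⟩
    have h1 : Z ≤ ((g⁻¹ • P : Sylow p G) : Subgroup G) := fun w hw =>
      H4.mem_smul_sylow_iff.2 (by rw [inv_inv]; exact hg w hw)
    obtain ⟨k, hk, hkg⟩ := H4.exists_mem_normalizer_sylow_of_le_normalizer P (h P hZP) (h _ h1)
    have h2 : k⁻¹ * (k * g⁻¹) ∈ Subgroup.normalizer (Z : Set G) := mul_mem (inv_mem hk) (hZN hkg)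
    simpa using h2

end Cfsg.Agent.S0104
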