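import Cfsg.Statements.S0106
import Mathlib
import Cfsg.Agent.Lib.H4.QuatSL23

set_option autoImplicit false
open Cfsg

namespace Cfsg.Agent.S0106

/-- A finite group with generalized quaternion Sylow 2-subgroups either has a normal 2-complement or has a section isomorphic to SL(2,3). -/
theorem result {G : Type*} [Group G] [Finite G] (T : Sylow 2 G) (n : ℕ) (hn : 1 ≤ n) (hT : Nonempty ((T : Subgroup G) ≃* QuaternionGroup (2 ^ n))) : Cfsg.HasNormalPComplement 2 G ∨ ∃ (H K : Subgroup G) (hK : (K.subgroupOf H).Normal), Nonempty ((H ⧸ K.subgroupOf H) ≃* Matrix.SpecialLinearGroup (Fin 2) (ZMod 3)) := by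
  by_contra hcon
  push Not at hcon
  obtain ⟨h1, h2⟩ := hcon
  rw [H4.hasNormalPComplement_iff_forall_le_sylow T] at h1
  push Not at h1
  obtain ⟨Q, hQ, g, hg, ho, hc⟩ := h1
  obtain ⟨e⟩ := hT
  have hu : ∀ x ∈ Q, ∀ y ∈ Q, orderOf x = 2 → orderOf y = 2 → x = y := by
    intro x hx y hy h3 h4
    have := H4.quat_inv_unique (x := e ⟨x, hQ hx⟩) (y := e ⟨y, hQ hy⟩)
      (by rw [MulEquiv.orderOf_eq, ← Subgroup.orderOf_coe]; exact h3)
      (by rw [MulEquiv.orderOf_eq, ← Subgroup.orderOf_coe]; exact h4)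
    exact congrArg Subtype.val (e.injective this)
  obtain ⟨⟨e'⟩, -, x, hx, ⟨k, hk⟩, h5, h6⟩ := H4.exists_three_elt (T.isPGroup'.to_le hQ) hu hg
    (Nat.coprime_two_right.1 ho) hc
  obtain ⟨H, K, hK, he⟩ := H4.sl23_section e' (Subgroup.zpowers_le.2 hg hx) hk h5 h6
  exact (h2 H K hK).elim he.some

end Cfsg.Agent.S0106
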