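import Cfsg.Statements.S0107
import Mathlib
import Cfsg.Agent.Lib.Inv73.Transfer
import Cfsg.Agent.Lib.Transfer.Control

set_option autoImplicit false
open Cfsg

namespace Cfsg.Agent.S0107

/-- A finite group with no nontrivial 2-group quotient and dihedral Sylow 2-subgroups of order at least 8 has a single class of involutions. -/
theorem result {G : Type*} [Group G] [Finite G] (T : Sylow 2 G) (n : ℕ) (hn : 2 ≤ n) (hT : Nonempty ((T : Subgroup G) ≃* DihedralGroup (2 ^ n))) (hO : Cfsg.pResidual 2 G = ⊤) (x y : G) (hx : orderOf x = 2) (hy : orderOf y = 2) : ∃ g : G, g * x * g⁻¹ = y := by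
  obtain ⟨e⟩ := hT
  have hG : ∀ N : Subgroup G, N.Normal → N.index ≠ 2 := fun N hN h => by
    have h1 : pResidual 2 G ≤ N := H4.pResidual_le_of_index_dvd_pow (k := 1) (by rw [h, pow_one])
    rw [hO, top_le_iff] at h1
    rw [h1, Subgroup.index_top] at h
    omega
  have : NeZero (2 ^ n) := ⟨by positivity⟩
  let a : G := (e.symm (DihedralGroup.r 1) : (T : Subgroup G))
  have ha : orderOf a = 2 ^ n := by
    rw [Subgroup.orderOf_coe, MulEquiv.orderOf_eq, DihedralGroup.orderOf_r_one]
  have hle : Subgroup.zpowers a ≤ T := Subgroup.zpowers_le.2 (e.symm (DihedralGroup.r 1)).2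
  have hi : (Subgroup.zpowers a).relIndex (T : Subgroup G) = 2 := by
    have h1 := H4.card_mul_relIndex_of_le hle
    rw [Nat.card_zpowers, ha, Nat.card_congr e.toEquiv, DihedralGroup.nat_card, mul_comm 2] at h1
    exact Nat.eq_of_mul_eq_mul_left (by positivity) h1
  obtain ⟨g, hg⟩ := H73.exists_conj_mem_of_no_index_two hG T _ hi x hx
  obtain ⟨h, hh⟩ := H73.exists_conj_mem_of_no_index_two hG T _ hi y hy
  have key : ∀ u v : Subgroup.zpowers a, orderOf u = 2 → orderOf v = 2 → u = v := by
    intro u v hu hv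
    classical
    have := Fintype.ofFinite (Subgroup.zpowers a)
    have h1 := IsCyclic.card_orderOf_eq_totient (α := Subgroup.zpowers a) (d := 2)
      (hu ▸ orderOf_dvd_card)
    rw [Nat.totient_two] at h1
    exact Finset.card_le_one.1 h1.le u (by simp [hu]) v (by simp [hv])
  have h2 := congrArg Subtype.val (key ⟨_, hg⟩ ⟨_, hh⟩
    (by rw [← Subgroup.orderOf_coe, ← hx]; exact (MulAut.conj g).orderOf_eq x)
    (by rw [← Subgroup.orderOf_coe, ← hy]; exact (MulAut.conj h).orderOf_eq y))
  refine ⟨h⁻¹ * g, ?_⟩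
  simp only at h2
  rw [mul_inv_rev, inv_inv, mul_assoc h⁻¹, mul_assoc h⁻¹, ← mul_assoc (g * x), h2]
  group

end Cfsg.Agent.S0107
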