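import Cfsg.Statements.S0109
import Mathlib
import Cfsg.Agent.Base
import Cfsg.Agent.Lib.Thompson.Stable
import Cfsg.Agent.Lib.Thompson.Factor
import Cfsg.Agent.Lib.Thompson.Replacement
import Cfsg.Agent.Lib.FGS.PLength
import Cfsg.Agent.Lib.Core.Fitting

set_option autoImplicit false
open Cfsg

namespace Cfsg.Agent.S0109

open Subgroup

/-- The Thompson factorization Theorem for solvable groups states that, with p odd (and abelian Sylow 2-subgroups when p = 3) and no nontrivial normal subgroup of order prime to p, every element of G is a product of an element normalizing J(P) and an element centralizing the elements of order dividing p in the centre of P. -/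
theorem result {G : Type*} [Group G] [Finite G] {p : ℕ} [Fact p.Prime] (hp : p ≠ 2) (hs : Group.IsSolvable G) (h3 : p = 3 → ∀ T : Sylow 2 G, IsMulCommutative T) (hF : ∀ N : Subgroup G, N.Normal → Nat.Coprime (Nat.card N) p → N = ⊥) (P : Sylow p G) (g : G) : ∃ a ∈ Subgroup.normalizer (Cfsg.thompsonSubgroupOf p (P : Subgroup G) : Set G), ∃ c ∈ Subgroup.centralizer {x : G | x ∈ (P : Subgroup G) ∧ (∀ y ∈ (P : Subgroup G), x * y = y * x) ∧ x ^ p = 1}, g = a * c := by
  have hst : H24.LocallyStable p G := by
    by_cases h : p = 3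
    · obtain ⟨T⟩ : Nonempty (Sylow 2 G) := inferInstance
      exact H24.locallyStable_of_abelian_sylow_two p hp T (h3 h T)
    · refine H24.locallyStable_of_isPSolvable p ?_ H76.isPSolvable_of_isSolvable
      have h1 := (Fact.out : p.Prime).two_le
      have h4 : p ≠ 4 := by rintro rfl; exact absurd (Fact.out : Nat.Prime 4) (by norm_num)
      omega
  have hc := H1.centralizer_pCore_le_of_isSolvable (H1.pPrimeCore_eq_bot_iff.2 hF)
  have hV := H24.omegaZClosure_isElementaryAbelian hc
  have hVP : H24.omegaZClosure G p ≤ P :=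
    ((H24.omegaZClosure_le_center_pCore hc).trans inf_le_left).trans (H1.pCore_le_sylow P)
  have hJ : thompsonSubgroupOf p (P : Subgroup G) ≤ centralizer (H24.omegaZClosure G p : Set G) := by
    refine H24.thompsonSubgroupOf_le_iff.2 fun A hA => H24.le_centralizer_of_commutator_eq_bot' ?_
    by_contra hne
    obtain ⟨-, h1, h2⟩ := H24.thompson_replacement hA hVP hV le_normalizer_of_normal
    refine h2 hne (H24.commutator_eq_bot_of_le_centralizer' fun a ha => ?_)
    have := hst.isPStableOn (H24.omegaZClosure G p) (fun x => ⟨1, Subtype.ext (by simpa using hV.2 x x.2)⟩) a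
      (le_bot_iff.1 (h1 ▸ commutator_mono (commutator_mono le_rfl (zpowers_le.2 ha)) (zpowers_le.2 ha)))
    rwa [H24.pCore_quotient_centralizer_omegaZClosure, mem_bot, QuotientGroup.eq_one_iff] at this
  obtain ⟨n, hn, c, hc, rfl⟩ := mem_sup_of_normal_right.1
    (H24.normalizer_thompson_sup_eq_top P _ hJ ▸ mem_top g)
  exact ⟨n, hn, c, fun x hx => hc x (H24.le_omegaZClosure P (Subgroup.subset_closure ⟨⟨hx.1, fun y hy => (hx.2.1 y hy).symm⟩, hx.2.2⟩)), rfl⟩

end Cfsg.Agent.S0109
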