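import Mathlib
import Cfsg.Statements.S0110
import Cfsg.Agent.Lib.PGroup.Extra

set_option autoImplicit false
open Cfsg
open scoped commutatorElement

namespace Cfsg.Agent.S0110

/-- In a p-group G, an extraspecial subgroup E with [G, E] ≤ Z(E) satisfies G = E C_G(E). -/
theorem result {G : Type*} [Group G] [Finite G] {p : ℕ} [Fact p.Prime] (hG : IsPGroup p G) (E : Subgroup G) (hE : Cfsg.IsExtraspecial p E) (h : ⁅(⊤ : Subgroup G), E⁆ ≤ E ⊓ Subgroup.centralizer (E : Set G)) : E ⊔ Subgroup.centralizer (E : Set G) = ⊤ := by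
  obtain ⟨z, h1, -⟩ := H5.exists_wes hE
  rw [h1.cent] at h
  have hc : ∀ g : G, ∀ x ∈ E, ⁅g, x⁆ ∈ Subgroup.zpowers z := fun g x hx =>
    h (Subgroup.commutator_mem_commutator (Subgroup.mem_top g) hx)
  have hn : (Subgroup.zpowers z).Normal := ⟨fun x hx g => by
    rw [H5.conj_eq_commutator_mul]
    exact mul_mem (hc g x (h1.zpowers_le hx)) hx⟩
  have hz := H5.le_center_of_card_eq_prime hG _ h1.card_zpowers (Subgroup.mem_zpowers z)
  refine eq_top_iff.2 fun g _ => ?_
  obtain ⟨w, hw, hw'⟩ := h1.exists_mul_centralizer Fact.out E g (hc g)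
    (Subgroup.mem_center_iff.1 hz g)
  rw [show g = w * (w⁻¹ * g) by group]
  exact mul_mem (Subgroup.mem_sup_left hw) (Subgroup.mem_sup_right hw')

end Cfsg.Agent.S0110
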