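import Mathlib
import Cfsg.Statements.S0114
import Cfsg.Agent.Lib.PGroup.MaxClass2

set_option autoImplicit false
open Cfsg

namespace Cfsg.Agent.S0114

/-- The central quotient of a 2-group of maximal class is dihedral. -/
theorem result {X : Type*} [Group X] [Finite X] (n : ℕ) (hn : 3 ≤ n) (hX : Nat.card X = 2 ^ n) (hc : Group.nilpotencyClass X = n - 1) : Nonempty (X ⧸ Subgroup.center X ≃* DihedralGroup (2 ^ (n - 2))) := by
  obtain ⟨k, rfl⟩ : ∃ m, n = m + 3 := ⟨n - 3, by omega⟩
  have hP : IsPGroup 2 X := IsPGroup.of_card hX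
  have := hP.isNilpotent
  obtain ⟨h1, h2⟩ := H5.index_commutator_of_maxClass hX hc
  obtain ⟨a, b, m, hm, ha, hi, hb, h⟩ := H5.exists_gens_of_index_four hP h1
    (fun x => by simpa [pow_two] using h2 x) (H5.commutator_ne_bot_of_class (by omega))
  have hba : b * a * b⁻¹ = a⁻¹ ∨ (2 ≤ m ∧ b * a * b⁻¹ = a⁻¹ * a ^ 2 ^ m) := by
    rcases h with h | h | h
    exacts [Or.inl h.2, Or.inl h.2, Or.inr ⟨h.1, h.2.2⟩]
  have hZ := H5.center_eq_zpowers_half ha hba hm hi hb
  have hmk : m = k + 1 := by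
    have := (Subgroup.zpowers a).card_mul_index
    rw [hi, hX, Nat.card_zpowers, ha, ← pow_succ] at this
    have := Nat.pow_right_injective le_rfl this
    omega
  have hz : ((a ^ 2 ^ m : X) : X ⧸ Subgroup.center X) = 1 := by
    rw [QuotientGroup.eq_one_iff, hZ]; exact Subgroup.mem_zpowers _
  have hZa : Subgroup.center X ≤ Subgroup.zpowers a := by
    rw [hZ, Subgroup.zpowers_le]; exact pow_mem (Subgroup.mem_zpowers a) _
  have hoa : orderOf (a : X ⧸ Subgroup.center X) = 2 ^ m := by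
    obtain ⟨j, rfl⟩ : ∃ j, m = j + 1 := ⟨m - 1, by omega⟩
    refine orderOf_eq_prime_pow ?_ (by rw [← QuotientGroup.mk_pow, hz])
    rw [← QuotientGroup.mk_pow, QuotientGroup.eq_one_iff, hZ]
    intro h3
    have h4 : a ^ 2 ^ j * a ^ 2 ^ j = 1 := by
      rcases H83.mem_zpowers_invol (H5.half_mul_self ha) h3 with h | h
      · rw [h, one_mul]
      · rw [h, H5.half_mul_self ha]
    rw [← pow_add, ← two_mul, ← pow_succ'] at h4
    exact H5.half_ne_one ha h4
  obtain ⟨e⟩ := H41.nonempty_mulEquiv_dihedral (H := (⊤ : Subgroup (X ⧸ Subgroup.center X)))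
    (a := (a : X ⧸ Subgroup.center X)) (b := (b : X ⧸ Subgroup.center X)) (m := 2 ^ m)
    (by positivity) hoa
    (by
      rw [← QuotientGroup.mk_mul]
      rcases h with h | h | h
      · rw [h.1]; rfl
      · rw [h.1, hz]
      · rw [h.2.1]; rfl)
    (by
      rw [← QuotientGroup.mk_mul, ← QuotientGroup.mk_inv, ← QuotientGroup.mk_mul]
      rcases hba with h | h
      · rw [h]; rfl
      · rw [h.2, QuotientGroup.mk_mul, hz, mul_one]; rfl)
    (by
      rintro ⟨i, hi⟩
      simp only at hi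
      rw [← QuotientGroup.mk_zpow, QuotientGroup.eq] at hi
      exact hb ((Subgroup.mul_mem_cancel_left _
        (inv_mem (zpow_mem (Subgroup.mem_zpowers a) i))).1 (hZa hi)))
    (by
      intro g
      refine iff_of_true (Subgroup.mem_top g) ?_
      obtain ⟨x, rfl⟩ := QuotientGroup.mk_surjective g
      obtain ⟨i, rfl | rfl⟩ := (H83.mem_top_iff_of_index_two hi hb x).1 (Subgroup.mem_top x)
      · exact ⟨i, Or.inl rfl⟩
      · exact ⟨i, Or.inr rfl⟩)
  subst hmk
  exact ⟨Subgroup.topEquiv.symm.trans e⟩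

end Cfsg.Agent.S0114
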