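import Cfsg.Statements.S0131
import Mathlib
import Cfsg.Agent.Lib.Transfer.Control

set_option autoImplicit false
open Cfsg

namespace Cfsg.Agent.S0131

/-- P/P' has a normal complement in G exactly when the focal subgroup G' ∩ P is as small as possible, namely P'. -/
theorem result {G : Type*} [Group G] [Finite G] {p : ℕ} [Fact p.Prime] (P : Sylow p G) : (∃ N : Subgroup G, N.Normal ∧ N ⊓ (P : Subgroup G) = ⁅(P : Subgroup G), (P : Subgroup G)⁆ ∧ N ⊔ (P : Subgroup G) = ⊤) ↔ commutator G ⊓ (P : Subgroup G) = ⁅(P : Subgroup G), (P : Subgroup G)⁆ := by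
  constructor
  · rintro ⟨N, hN, h1, h2⟩
    refine le_antisymm ?_ (le_inf (Subgroup.commutator_mono le_top le_top)
      (Subgroup.commutator_le_self _))
    rw [← h1]
    refine inf_le_inf_right _ ?_
    rw [commutator_def, ← h2, Subgroup.commutator_le]
    intro a ha b hb
    rw [← SetLike.mem_coe, Subgroup.normal_mul] at ha hb
    obtain ⟨n, hn, x, hx, rfl⟩ := ha
    obtain ⟨m, hm, y, hy, rfl⟩ := hb
    have h3 := Subgroup.commutator_mem_commutator hx hy
    rw [← h1] at h3
    have h4 := (QuotientGroup.eq_one_iff _).2 h3.1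
    rw [← QuotientGroup.eq_one_iff]
    simp only [commutatorElement_def, QuotientGroup.mk_mul, QuotientGroup.mk_inv,
      (QuotientGroup.eq_one_iff n).2 hn, (QuotientGroup.eq_one_iff m).2 hm, one_mul] at h4 ⊢
    exact h4
  · intro h
    have hc : Nat.Coprime (P : Subgroup G).index
        (⁅(P : Subgroup G), (P : Subgroup G)⁆.relIndex (P : Subgroup G)) :=
      Nat.Coprime.coprime_dvd_right (Subgroup.relIndex_dvd_card _ _) P.card_coprime_index.symm
    exact ⟨(P : Subgroup G).transferFocal.ker, inferInstance, by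
      rw [H4.ker_transferFocal_inf hc, ← H4.commutator_inf_eq_focalSubgroup hc, h],
      H4.ker_transferFocal_sup hc⟩

end Cfsg.Agent.S0131
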