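import Mathlib
import Cfsg.Statements.S0162
import Cfsg.Agent.Lib.Deg.FS

set_option autoImplicit false
open Cfsg

namespace Cfsg.Agent.S0162



/-- If a finite group has odd order, its order is congruent to its number of conjugacy classes modulo 16. -/
theorem result {G : Type*} [Group G] [Finite G] (hodd : Odd (Nat.card G)) : Nat.card G ≡ Nat.card (ConjClasses G) [MOD 16] := by
  classical
  have := Fintype.ofFinite G
  have hodd' : ∀ χ : IrrCharacter G, Odd (charDegree (χ : G → ℂ)) := fun χ =>
    hodd.of_dvd_nat (H87.deg_dvd_card χ.2)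
  have h8 : ∀ χ : IrrCharacter G, ∃ k : ℕ, charDegree (χ : G → ℂ) ^ 2 = 8 * k + 1 := fun χ => by
    obtain ⟨m, hm⟩ := hodd' χ
    obtain ⟨k, hk⟩ := Nat.even_mul_succ_self m
    exact ⟨k, by rw [hm]; nlinarith⟩
  choose k hk using h8
  have hsum : Nat.card G = 8 * ∑ χ, k χ + Nat.card (ConjClasses G) := by
    rw [← H87.sum_deg_sq, ← H6.card_irr_eq_card_conjClasses, Nat.card_eq_fintype_card]
    simp only [hk, Finset.sum_add_distrib, Finset.mul_sum]
    simp
  have hev : ((∑ χ, k χ : ℕ) : ZMod 2) = 0 := by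
    rw [Nat.cast_sum]
    refine Finset.sum_involution (fun χ _ => H87.irrConj χ) (fun χ _ => ?_) (fun χ _ h e => h ?_)
      (fun _ _ => Finset.mem_univ _) (fun χ _ => H87.irrConj_irrConj χ)
    · have : k (H87.irrConj χ) = k χ := by
        have h1 := hk (H87.irrConj χ)
        rw [H87.deg_irrConj, hk χ] at h1
        omega
      rw [this]; exact CharTwo.add_self_eq_zero _
    · have h1 := H87.eq_one_of_isReal_of_odd hodd χ.2 ((H87.irrConj_eq_iff χ).1 e)
      have h2 := hk χ
      rw [h1, H87.deg_one] at h2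
      have : k χ = 0 := by omega
      simp [this]
  rw [ZMod.natCast_eq_zero_iff] at hev
  obtain ⟨m, hm⟩ := hev
  rw [hsum, hm]
  unfold Nat.ModEq
  omega

end Cfsg.Agent.S0162
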