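import Cfsg.Statements.S0168
import Mathlib
import Cfsg.Agent.Lib.Char.More
-- import your own Cfsg.Agent.* helpers here

set_option autoImplicit false
open Cfsg

namespace Cfsg.Agent.S0168

/-- The Burnside–Brauer Theorem. Let χ be the character of a faithful complex representation of a finite group, taking m distinct values. Then every irreducible character has nonzero inner product with χ ^ i for some i < m. -/
theorem result {G : Type*} [Group G] [Fintype G] {V : Type*} [AddCommGroup V] [Module ℂ V] [FiniteDimensional ℂ V] (ρ : Representation ℂ G V) (hfaithful : Function.Injective ρ) (ψ : G → ℂ) (hψ : Cfsg.IsIrrCharacter G ψ) : ∃ i : ℕ, i < Nat.card (Set.range ρ.character) ∧ Cfsg.classInner (fun g => ρ.character g ^ i) ψ ≠ 0 := by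
  classical
  by_contra hc
  push Not at hc
  set S : Finset ℂ := Finset.univ.image ρ.character with hS
  have hcard : Nat.card (Set.range ρ.character) = S.card := by
    rw [← Nat.card_eq_finsetCard, hS]
    refine Nat.card_congr (Equiv.subtypeEquivRight fun x => ?_)
    simp
  have h1S : ρ.character 1 ∈ S := Finset.mem_image_of_mem _ (Finset.mem_univ _)
  set p : Polynomial ℂ := ∏ a ∈ S.erase (ρ.character 1), (Polynomial.X - Polynomial.C a) with hp
  have hdeg : p.natDegree < S.card := by
    rw [hp, Polynomial.natDegree_finsetProd_X_sub_C_eq_card, Finset.card_erase_of_mem h1S]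
    have := Finset.card_pos.mpr ⟨_, h1S⟩
    omega
  have h1 : (fun g => p.eval (ρ.character g)) =
      ∑ i ∈ Finset.range S.card, p.coeff i • fun g => ρ.character g ^ i := by
    funext g
    rw [Polynomial.eval_eq_sum_range' hdeg, Finset.sum_apply]
    rfl
  have h2 : classInner (fun g => p.eval (ρ.character g)) ψ = 0 := by
    rw [h1, H6.classInner_sum_left]
    refine Finset.sum_eq_zero fun i hi => ?_
    rw [H6.classInner_smul_left, hc i (by rw [hcard]; exact Finset.mem_range.mp hi), mul_zero]
  have h3 := H6.card_mul_classInner (fun g => p.eval (ρ.character g)) ψ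
  rw [h2, mul_zero, Finset.sum_eq_single 1] at h3
  · rcases mul_eq_zero.mp h3.symm with h4 | h4
    · rw [hp, Polynomial.eval_prod, Finset.prod_eq_zero_iff] at h4
      obtain ⟨a, ha, h5⟩ := h4
      simp only [Polynomial.eval_sub, Polynomial.eval_X, Polynomial.eval_C] at h5
      exact (Finset.mem_erase.mp ha).1 (sub_eq_zero.mp h5).symm
    · exact H6.irr_one_ne_zero hψ ((map_eq_zero _).mp h4)
  · intro g _ hg
    have h4 : ρ.character g ≠ ρ.character 1 := by
      intro h
      rw [Representation.char_one, H6.character_eq_finrank_iff] at h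
      apply hg
      apply hfaithful
      rw [h, map_one]
      rfl
    rw [hp, Polynomial.eval_prod, Finset.prod_eq_zero (i := ρ.character g)
      (Finset.mem_erase.mpr ⟨h4, Finset.mem_image_of_mem _ (Finset.mem_univ _)⟩) (by simp),
      zero_mul]
  · simp

end Cfsg.Agent.S0168
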