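import Mathlib
import Cfsg.Statements.S0170
import Cfsg.Agent.Lib.Char.More
import Cfsg.Agent.Lib.Char.Mackey
import Cfsg.Agent.Lib.Char.InduceChar
-- import your own Cfsg.Agent.* helpers here

set_option autoImplicit false
open Cfsg

namespace Cfsg.Agent.S0170

/-- Exceptional characters. Let S be a subset of a finite group contained in its normalizer N and meeting its conjugates by elements outside N only in the identity. Given n ≥ 2 distinct irreducible characters of N of equal degree that vanish on N away from S, there exist a sign ε and n distinct irreducible characters θ_i of G such that inducing χ_i − χ_j to G gives ε (θ_i − θ_j) for all i, j. -/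
theorem result {G : Type*} [Group G] [Fintype G] (S : Set G) (hSN : S ⊆ Subgroup.normalizer S) (hTI : ∀ g : G, g ∉ Subgroup.normalizer S → ∀ s ∈ S, g * s * g⁻¹ ∈ S → s = 1) (n : ℕ) (hn : 2 ≤ n) (χ : Fin n → (Subgroup.normalizer S → ℂ)) (hirr : ∀ i, Cfsg.IsIrrCharacter (Subgroup.normalizer S) (χ i)) (hinj : Function.Injective χ) (hvan : ∀ i, ∀ x : Subgroup.normalizer S, (x : G) ∉ S → χ i x = 0) (hdeg : ∀ i j, χ i 1 = χ j 1) : ∃ ε : ℂ, (ε = 1 ∨ ε = -1) ∧ ∃ θ : Fin n → (G → ℂ), (∀ i, Cfsg.IsIrrCharacter G (θ i)) ∧ Function.Injective θ ∧ ∀ i j, Cfsg.indFun (Subgroup.normalizer S) (χ i) - Cfsg.indFun (Subgroup.normalizer S) (χ j) = ε • (θ i - θ j) := by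
  classical
  let i₀ : Fin n := ⟨0, by omega⟩
  have hcf := fun i => H6.irr_isClassFunction (hirr i)
  have hsub : ∀ i, ∀ x : Subgroup.normalizer S, (x : G) ∉ S → (χ i - χ i₀) x = 0 := fun i x hx => by
    rw [Pi.sub_apply, hvan i x hx, hvan i₀ x hx, sub_zero]
  have h1 : ∀ i, (χ i - χ i₀) 1 = 0 := fun i => by rw [Pi.sub_apply, hdeg i i₀, sub_self]
  obtain ⟨ε, hε, θ, hθ, hθi, hτ⟩ := H6.exists_irr_of_gram i₀
    (fun i => indFun (Subgroup.normalizer S) (χ i - χ i₀))
    (by simp only [sub_self]; exact H7.indFun_zero _)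
    (fun i => H7.isGeneralizedCharacter_indFun _
      (H6.isGen_sub (H6.irr_isGen (hirr i)) (H6.irr_isGen (hirr i₀))))
    (fun i => by simp only [H7.indFun_one, h1, mul_zero])
    (fun i j hi hj => by
      rw [H7.classInner_indFun_of_TI _ S hTI (H7.isClassFunction_sub (hcf j) (hcf i₀)) (hsub i)
        (hsub j) (h1 i), H7.classInner_sub_left, H7.classInner_sub_right, H7.classInner_sub_right,
        H6.irr_inner (hirr i) (hirr j), H6.irr_inner_ne (hirr i) (hirr i₀) (hinj.ne hi),
        H6.irr_inner_ne (hirr i₀) (hirr j) (hinj.ne hj.symm), H6.irr_inner_self (hirr i₀)]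
      simp only [hinj.eq_iff]
      split_ifs <;> norm_num)
  refine ⟨ε, hε, θ, hθ, hθi, fun i j => ?_⟩
  have e1 := hτ i
  have e2 := hτ j
  simp only [H7.indFun_sub] at e1 e2
  linear_combination (norm := module) e1 - e2

end Cfsg.Agent.S0170
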