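import Cfsg.Statements.S0172
import Mathlib
import Cfsg.Agent.Base
import Cfsg.Agent.Lib.Core.Frobenius
import Cfsg.Agent.Lib.Core.HallSZ

set_option autoImplicit false
open Cfsg

namespace Cfsg.Agent.S0172

open Subgroup

theorem sum_cent (G : Type*) [Group G] [Fintype G] :
    ∑ g : G, Nat.card (centralizer ({g} : Set G)) = Nat.card (ConjClasses G) * Nat.card G := by
  rw [← card_comm_eq_card_conjClasses_mul_card,
    Nat.card_congr (Equiv.subtypeProdEquivSigmaSubtype (fun a b : G => Commute a b)),
    Nat.card_sigma]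
  refine Finset.sum_congr rfl fun g _ => Nat.card_congr (Equiv.subtypeEquivRight fun x => ?_)
  rw [mem_centralizer_singleton_iff]
  exact ⟨fun h => h.symm, fun h => h.symm⟩

theorem card_cent_sub {G : Type*} [Group G] {L : Subgroup G} (a : L)
    (h : centralizer {(a : G)} ≤ L) :
    Nat.card (centralizer {(a : G)}) = Nat.card (centralizer ({a} : Set L)) := by
  rw [← H3.card_subgroupOf_of_le h]
  congr 2
  ext x
  simp only [mem_subgroupOf, mem_centralizer_singleton_iff, Subtype.ext_iff, coe_mul]

theorem card_cent_conj {G : Type*} [Group G] (x a : G) :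
    Nat.card (centralizer ({x * a * x⁻¹} : Set G)) = Nat.card (centralizer ({a} : Set G)) := by
  symm
  refine Nat.card_congr ((MulAut.conj x).toEquiv.subtypeEquiv fun y => ?_)
  simp only [mem_centralizer_singleton_iff]
  change _ ↔ x * y * x⁻¹ * (x * a * x⁻¹) = x * a * x⁻¹ * (x * y * x⁻¹)
  constructor
  · intro h
    calc _ = x * (y * a) * x⁻¹ := by group
      _ = _ := by rw [h]; group
  · intro h
    calc y * a = x⁻¹ * (x * y * x⁻¹ * (x * a * x⁻¹)) * x := by group
      _ = _ := by rw [h]; group

theorem cent_one (G : Type*) [Group G] : Nat.card (centralizer ({1} : Set G)) = Nat.card G := by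
  have : centralizer ({1} : Set G) = ⊤ := by
    ext x; simp [mem_centralizer_singleton_iff]
  rw [this, card_top]

/-- Class number of a Frobenius group: if G = K H with K normal, K ⊓ H trivial and no non-identity element of H commuting with a non-identity element of K, then |H| * k(G) + 1 = |H| * k(H) + k(K), where k denotes the number of conjugacy classes. -/
theorem result {G : Type*} [Group G] [Finite G] (K H : Subgroup G) [K.Normal] (hKH : K ⊓ H = ⊥) (hKH' : K ⊔ H = ⊤) (hfpf : ∀ h ∈ H, h ≠ 1 → ∀ k ∈ K, h * k = k * h → k = 1) : Nat.card H * Nat.card (ConjClasses G) + 1 = Nat.card H * Nat.card (ConjClasses H) + Nat.card (ConjClasses K) := by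
  classical
  haveI := Fintype.ofFinite G
  have hsr : ∀ r ∈ H, r ≠ 1 → K ⊓ centralizer {r} = ⊥ := fun r hr h1 =>
    H2.inf_centralizer_singleton_eq_bot_iff.2 fun k hk h => hfpf r hr h1 k hk h.symm
  have hHK : H ≤ normalizer (K : Set G) := by rw [normalizer_eq_top]; exact le_top
  have hG : Nat.card G = Nat.card K * Nat.card H := by
    rw [← H3.card_sup_of_inf_eq_bot hHK hKH, hKH', card_top]
  have e1 := sum_cent G
  have e2 := sum_cent K
  have e3 := sum_cent H
  rw [← Finset.sum_filter_add_sum_filter_not Finset.univ (· ∈ K)] at e1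
  have a1 : ∑ g ∈ Finset.univ.filter (· ∈ K), Nat.card (centralizer ({g} : Set G)) =
      ∑ k : K, Nat.card (centralizer ({(k : G)} : Set G)) :=
    Finset.sum_subtype _ (by simp) _
  have a2 : ∑ k ∈ Finset.univ.erase (1 : K), Nat.card (centralizer ({(k : G)} : Set G)) =
      ∑ k ∈ Finset.univ.erase (1 : K), Nat.card (centralizer ({k} : Set K)) := by
    refine Finset.sum_congr rfl fun k hk => card_cent_sub k ?_
    have := H2.sup_inf_centralizer_le_of_semiregular hHK hsr k.2
      (fun h => (Finset.mem_erase.1 hk).1 (Subtype.ext h))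
    rwa [hKH', top_inf_eq] at this
  have a3 : ∑ g ∈ Finset.univ.filter (fun g => ¬ g ∈ K), Nat.card (centralizer ({g} : Set G)) =
      ∑ q ∈ (Finset.univ : Finset K) ×ˢ (Finset.univ.erase (1 : H)),
        Nat.card (centralizer ({q.2} : Set H)) := by
    symm
    refine Finset.sum_bij (fun q _ => (q.1 : G) * q.2 * (q.1 : G)⁻¹) ?_ ?_ ?_ ?_
    · rintro ⟨x, h⟩ hq
      simp only [Finset.mem_filter, Finset.mem_univ, true_and]
      intro hm
      have h1 : (h : G) ∈ K ⊓ H := by
        refine ⟨?_, h.2⟩
        simpa [mul_assoc] using K.mul_mem (K.mul_mem (K.inv_mem x.2) hm) x.2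
      rw [hKH, mem_bot] at h1
      exact (Finset.mem_erase.1 (Finset.mem_product.1 hq).2).1 (Subtype.ext h1)
    · rintro ⟨x, h⟩ hq ⟨y, h'⟩ _ he
      have hne : (h : G) ≠ 1 := fun h1 =>
        (Finset.mem_erase.1 (Finset.mem_product.1 hq).2).1 (Subtype.ext h1)
      have he' : (x : G) * h * (x : G)⁻¹ = y * h' * (y : G)⁻¹ := he
      have h2 : ((y : G)⁻¹ * x) * h * ((y : G)⁻¹ * x)⁻¹ = h' := by
        calc _ = (y : G)⁻¹ * ((x : G) * h * (x : G)⁻¹) * y := by group
          _ = _ := by rw [he']; group
      have h3 := H2.eq_one_of_conj_mem_of_semiregular hHK hsr (K.mul_mem (K.inv_mem y.2) x.2)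
        h.2 hne (h2 ▸ h'.2)
      rw [h3] at h2
      rw [inv_mul_eq_one] at h3
      exact Prod.ext (Subtype.ext h3.symm) (Subtype.ext (by simpa using h2))
    · intro g hg
      have hgK : g ∉ K := (Finset.mem_filter.1 hg).2
      obtain ⟨x, hx, hxg⟩ := H2.exists_conj_mem_of_semiregular hHK hsr
        (hKH' ▸ mem_top g) hgK
      refine ⟨(⟨x, hx⟩, ⟨_, hxg⟩), ?_, by simp [mul_assoc]⟩
      simp only [Finset.mem_product, Finset.mem_univ, Finset.mem_erase, true_and, and_true]
      intro h1
      have h2 : x⁻¹ * g * x = 1 := congrArg Subtype.val h1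
      rw [H2.inv_conj_eq_one_iff] at h2
      exact hgK (h2 ▸ K.one_mem)
    · rintro ⟨x, h⟩ hq
      have hne : (h : G) ≠ 1 := fun h1 =>
        (Finset.mem_erase.1 (Finset.mem_product.1 hq).2).1 (Subtype.ext h1)
      rw [card_cent_conj]
      refine (card_cent_sub h ?_).symm
      have := H2.sup_inf_centralizer_le_right_of_semiregular hHK hsr h.2 hne
      rwa [hKH', top_inf_eq] at this
  rw [Finset.sum_product] at a3
  simp only [Finset.sum_const, Finset.card_univ, smul_eq_mul, ← Nat.card_eq_fintype_card] at a3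
  rw [← Finset.add_sum_erase _ _ (Finset.mem_univ (1 : K)), a2, coe_one, cent_one] at a1
  rw [← Finset.add_sum_erase _ _ (Finset.mem_univ (1 : K)), cent_one] at e2
  rw [← Finset.add_sum_erase _ _ (Finset.mem_univ (1 : H)), cent_one] at e3
  rw [a1, a3, hG] at e1
  refine Nat.eq_of_mul_eq_mul_left (Nat.card_pos (α := K)) ?_
  nlinarith

end Cfsg.Agent.S0172
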