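import Cfsg.Statements.S0175
import Mathlib
import Cfsg.Agent.Base
import Cfsg.Agent.Lib.Char.Clifford
import Cfsg.Agent.Lib.Char.More

set_option autoImplicit false
open Cfsg

namespace Cfsg.Agent.S0175

open Subgroup
open scoped commutatorElement

/-- Taketa's Theorem on M-groups: if every irreducible complex character of a finite group is induced from a linear character (a homomorphism to ℂˣ) of some subgroup, the group is solvable. -/
theorem result {G : Type*} [Group G] [Fintype G] (hM : ∀ χ : G → ℂ, Cfsg.IsIrrCharacter G χ → ∃ (H : Subgroup G) (lam : H →* ℂˣ), χ = Cfsg.indFun H (fun h => (lam h : ℂ))) : Group.IsSolvable G := by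
  classical
  have key : ∀ n : ℕ, ∀ χ : G → ℂ, IsIrrCharacter G χ → (χ 1).re ≤ n →
      ∀ x ∈ derivedSeries G n, χ x = χ 1 := by
    intro n
    induction n with
    | zero =>
      intro χ hχ h
      obtain ⟨m, hm, h1⟩ := H6.irr_one_pos hχ
      rw [h1] at h
      simp at h
      omega
    | succ n ih =>
      intro χ hχ h
      obtain ⟨H, lam, rfl⟩ := hM χ hχ
      have hdeg : (H.index : ℝ) ≤ n + 1 := by
        rw [H7.indFun_one] at h
        simpa using h
      have hDH : derivedSeries G n ≤ H := by
        intro x hx
        have hπ := H7.isCharacter_indFun_one H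
        have h1 : classInner (indFun H (fun _ => (1 : ℂ))) (fun _ => 1) ≠ 0 := by
          rw [H7.classInner_indFun_left H _ (H7.isClassFunction_const 1), H7.classInner_one_one]
          exact one_ne_zero
        have hsub := H6.isCharacter_sub_of_inner_ne_zero hπ H6.isIrrCharacter_one h1
        have h2 : indFun H (fun _ => (1 : ℂ)) x = indFun H (fun _ => (1 : ℂ)) 1 := by
          rw [H6.classFun_apply_eq_sum_irr (H6.char_isClassFunction hπ) x,
            H6.classFun_apply_eq_sum_irr (H6.char_isClassFunction hπ) 1]
          refine Finset.sum_congr rfl fun ψ _ => ?_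
          by_cases h0 : classInner (indFun H (fun _ => (1 : ℂ))) ψ.1 = 0
          · rw [h0, zero_mul, zero_mul]
          congr 1
          by_cases hψ : ψ.1 = fun _ => 1
          · rw [hψ]
          refine ih ψ.1 ψ.2 ?_ x hx
          have h3 : classInner (indFun H (fun _ => (1 : ℂ)) - fun _ => 1) ψ.1 ≠ 0 := by
            rw [H6.classInner_sub_left, H6.irr_inner_ne H6.isIrrCharacter_one ψ.2 (Ne.symm hψ),
              sub_zero]
            exact h0
          have h4 := H6.irr_one_le_of_inner_ne_zero hsub ψ.2 h3
          rw [Pi.sub_apply, H7.indFun_one] at h4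
          simp at h4
          linarith
        rw [H7.indFun_one, mul_one, H7.indFun_one_eq_card_fixedBy] at h2
        have h3 : Nat.card (MulAction.fixedBy (G ⧸ H) x) = Nat.card (G ⧸ H) := by
          exact_mod_cast h2
        have h4 : MulAction.fixedBy (G ⧸ H) x = Set.univ :=
          Set.eq_univ_iff_ncard _ |>.2 h3
        have h5 : ((1 : G) : G ⧸ H) ∈ MulAction.fixedBy (G ⧸ H) x := h4 ▸ Set.mem_univ _
        rw [MulAction.mem_fixedBy, MulAction.Quotient.smul_coe, QuotientGroup.eq] at h5
        simpa using h5
      have hker : derivedSeries G (n + 1) ≤ lam.ker.map H.subtype := by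
        rw [derivedSeries_succ, commutator_le]
        intro a ha b hb
        refine ⟨⁅(⟨a, hDH ha⟩ : H), ⟨b, hDH hb⟩⁆, ?_, rfl⟩
        change lam _ = 1
        rw [map_commutatorElement, commutatorElement_eq_one_iff_commute]
        exact Commute.all _ _
      intro x hx
      rw [H7.indFun_apply, H7.indFun_apply]
      congr 1
      refine Finset.sum_congr rfl fun g _ => ?_
      have h1 : g⁻¹ * x * g ∈ derivedSeries G (n + 1) := by
        simpa using (derivedSeries_normal G (n + 1)).conj_mem x hx g⁻¹
      obtain ⟨y, hy, hy'⟩ := hker h1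
      have hy2 : lam y = 1 := hy
      rw [← hy', mul_one, inv_mul_cancel, H7.extendByZero_one]
      change extendByZero H _ (y : G) = _
      rw [H7.extendByZero_coe, hy2, map_one]
  refine ⟨⟨Nat.card G, ?_⟩⟩
  rw [eq_bot_iff]
  intro x hx
  refine H6.eq_one_of_forall_irr fun χ => key _ χ.1 χ.2 ?_ x hx
  obtain ⟨m, -, h1, h2⟩ := H6.irr_one_dvd_card χ.2
  rw [h1]
  simpa using Nat.le_of_dvd Nat.card_pos h2

end Cfsg.Agent.S0175
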