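import Cfsg.Statements.S0184
import Mathlib
import Cfsg.Agent.Lib.Char.More
-- import your own Cfsg.Agent.* helpers here

set_option autoImplicit false
open Cfsg

namespace Cfsg.Agent.S0184

/-- A finite p-group admits a faithful irreducible complex representation if and only if its centre is cyclic. -/
theorem result {G : Type*} [Group G] [Finite G] (p : ℕ) [Fact p.Prime] (hG : IsPGroup p G) : (∃ (n : ℕ) (ρ : Representation ℂ G (Fin n → ℂ)), ρ.IsIrreducible ∧ Function.Injective ρ) ↔ IsCyclic (Subgroup.center G) := by
  constructor
  · rintro ⟨n, ρ, hρ, hinj⟩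
    have hn := H6.nontrivial_of_isIrreducible ρ
    have key : ∀ z : Subgroup.center G, ∃ c : ℂ, ρ z = c • LinearMap.id := fun z =>
      H6.schur_scalar ρ (ρ z) fun g => by
        change ρ z * ρ g = ρ g * ρ z
        rw [← map_mul, ← map_mul, Subgroup.mem_center_iff.mp z.2 g]
    choose c hc using key
    have hsi : Function.Injective fun a : ℂ =>
        a • (LinearMap.id : (Fin n → ℂ) →ₗ[ℂ] (Fin n → ℂ)) :=
      smul_left_injective ℂ (one_ne_zero (α := Module.End ℂ (Fin n → ℂ)))
    let f : Subgroup.center G →* ℂ :=
      { toFun := c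
        map_one' := hsi (by
          beta_reduce
          rw [← hc, one_smul, OneMemClass.coe_one, map_one]; rfl)
        map_mul' := fun a b => hsi (by
          beta_reduce
          rw [← hc, Subgroup.coe_mul, map_mul, hc, hc, mul_smul]
          ext; simp [mul_left_comm]) }
    refine isCyclic_of_injective_ringHom f fun a b hab => Subtype.ext (hinj ?_)
    rw [hc, hc]
    exact congrArg (· • _) hab
  · intro hZ
    rcases subsingleton_or_nontrivial G with hG1 | hG1
    · obtain ⟨n, ρ, hρ, -⟩ := H6.isIrrCharacter_one (G := G)
      exact ⟨n, ρ, hρ, fun a b _ => Subsingleton.elim a b⟩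
    have hp : p.Prime := Fact.out
    have hZn : Nontrivial (Subgroup.center G) := hG.center_nontrivial
    have hZp : IsPGroup p (Subgroup.center G) := hG.to_subgroup _
    -- every nontrivial subgroup of the centre contains the elements of order `p`
    obtain ⟨z, hz⟩ : ∃ z : Subgroup.center G, orderOf z = p := by
      apply exists_prime_orderOf_dvd_card'
      obtain ⟨k, hk0, hk⟩ := hZp.nontrivial_iff_card.mp hZn
      rw [hk]
      exact dvd_pow_self p hk0.ne'
    have hz1 : (z : G) ≠ 1 := by
      intro h
      have : z = 1 := Subtype.ext h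
      rw [this, orderOf_one] at hz
      exact hp.one_lt.ne hz
    obtain ⟨χ, hχ⟩ : ∃ χ : IrrCharacter G, (χ : G → ℂ) z ≠ (χ : G → ℂ) 1 := by
      by_contra h
      push Not at h
      exact hz1 (H6.eq_one_of_forall_irr h)
    obtain ⟨χ, n, ρ, hρ, rfl⟩ := χ
    refine ⟨n, ρ, hρ, ?_⟩
    rw [← MonoidHom.ker_eq_bot_iff]
    by_contra hker
    apply hχ
    change ρ.character z = ρ.character 1
    rw [← H6.mem_charKer (H6.isCharacter_character ρ), H6.charKer_character]
    -- the kernel meets the centre
    have : Group.IsNilpotent G := hG.isNilpotent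
    have h1 : (MonoidHom.ker ρ).subgroupOf (Subgroup.center G) ≠ ⊥ := by
      have hN : IsPGroup p (MonoidHom.ker ρ) := hG.to_subgroup _
      have hNn : Nontrivial (MonoidHom.ker ρ) := (Subgroup.nontrivial_iff_ne_bot _).mpr hker
      have h2 := IsPGroup.exists_fixed_point_of_prime_dvd_card_of_fixed_point
        (hG.of_equiv ConjAct.toConjAct) (MonoidHom.ker ρ)
        (by
          obtain ⟨k, hk0, hk⟩ := hN.nontrivial_iff_card.mp hNn
          rw [hk]
          exact dvd_pow_self p hk0.ne') (a := 1) (fun g => smul_one g)
      obtain ⟨y, hy, hy1⟩ := h2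
      intro hb
      have hyc : (y : G) ∈ Subgroup.center G := by
        rw [Subgroup.mem_center_iff]
        intro g
        have := congrArg Subtype.val (hy (ConjAct.toConjAct g))
        change g * y * g⁻¹ = y at this
        rw [mul_inv_eq_iff_eq_mul] at this
        exact this
      have : (⟨y, hyc⟩ : Subgroup.center G) ∈ (MonoidHom.ker ρ).subgroupOf (Subgroup.center G) :=
        y.2
      rw [hb, Subgroup.mem_bot] at this
      have h5 : (y : G) = 1 := congrArg Subtype.val this
      exact hy1 (Subtype.ext h5).symm
    set K := (MonoidHom.ker ρ).subgroupOf (Subgroup.center G) with hK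
    have h2 : p ∣ Nat.card K := by
      obtain ⟨k, hk0, hk⟩ := (hZp.to_subgroup K).nontrivial_iff_card.mp
        ((Subgroup.nontrivial_iff_ne_bot _).mpr h1)
      rw [hk]
      exact dvd_pow_self p hk0.ne'
    classical
    obtain ⟨w, hw⟩ := exists_prime_orderOf_dvd_card' p h2
    have hw' : orderOf (w : Subgroup.center G) = p := by rw [Subgroup.orderOf_coe, hw]
    have := Fintype.ofFinite (Subgroup.center G)
    have h3 := IsCyclic.card_pow_eq_one_le (α := Subgroup.center G) hp.pos
    have h4 : (Finset.univ.filter fun a : Subgroup.center G =>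
        a ∈ Subgroup.zpowers (w : Subgroup.center G)) =
        Finset.univ.filter fun a : Subgroup.center G => a ^ p = 1 := by
      apply Finset.eq_of_subset_of_card_le
      · intro a ha
        obtain ⟨k, rfl⟩ := (Finset.mem_filter.mp ha).2
        simp only [Finset.mem_filter, Finset.mem_univ, true_and]
        rw [← zpow_natCast, ← zpow_mul, mul_comm, zpow_mul, zpow_natCast, ← hw',
          pow_orderOf_eq_one, one_zpow]
      · refine h3.trans ?_
        rw [← Fintype.card_subtype, ← Nat.card_eq_fintype_card, Nat.card_zpowers, hw']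
    have h5 : z ∈ Finset.univ.filter fun a : Subgroup.center G => a ^ p = 1 := by
      simp only [Finset.mem_filter, Finset.mem_univ, true_and]
      rw [← hz, pow_orderOf_eq_one]
    rw [← h4] at h5
    have h6 : Subgroup.zpowers (w : Subgroup.center G) ≤ K := by
      rw [Subgroup.zpowers_le]; exact w.2
    exact h6 (Finset.mem_filter.mp h5).2

end Cfsg.Agent.S0184
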