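import Cfsg.Statements.S0186
import Mathlib
import Cfsg.Agent.Lib.Char.More
-- import your own Cfsg.Agent.* helpers here

set_option autoImplicit false
open Cfsg

namespace Cfsg.Agent.S0186

/-- Let G be a finite simple group of order n and p a prime dividing n. If G has more than n / p^2 conjugacy classes, then every Sylow p-subgroup of G is abelian. -/
theorem result {G : Type*} [Group G] [Finite G] [IsSimpleGroup G] (p : ℕ) [Fact p.Prime] (hp : p ∣ Nat.card G) (hmany : Nat.card G < p ^ 2 * Nat.card (ConjClasses G)) (P : Sylow p G) (a b : G) (ha : a ∈ P) (hb : b ∈ P) : a * b = b * a := by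
  classical
  have hpp : p.Prime := Fact.out
  by_contra hab
  -- `p ^ 2` divides the order
  have hp2 : p ^ 2 ∣ Nat.card G := by
    refine dvd_trans ?_ (Subgroup.card_subgroup_dvd_card (P : Subgroup G))
    obtain ⟨k, hk⟩ := IsPGroup.iff_card.mp P.isPGroup'
    rw [hk]
    apply pow_dvd_pow
    by_contra hlt
    have hc : IsCyclic (P : Subgroup G) := by
      apply isCyclic_of_card_dvd_prime (p := p)
      rw [hk]
      exact (pow_dvd_pow p (by omega : k ≤ 1)).trans (by simp)
    have := hc.isMulCommutative.is_comm.comm (⟨a, ha⟩ : (P : Subgroup G)) ⟨b, hb⟩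
    exact hab (congrArg Subtype.val this)
  choose d hd0 hd using fun ψ : IrrCharacter G => H6.irr_one_pos ψ.2
  have hsum : ∑ ψ, d ψ ^ 2 = Nat.card G := by
    have := H6.sum_irr_one_sq (G := G)
    simp only [hd] at this
    exact_mod_cast this
  let one : IrrCharacter G := ⟨_, H6.isIrrCharacter_one⟩
  obtain ⟨χ, hχ1, hχ⟩ : ∃ χ, χ ≠ one ∧ d χ < p := by
    by_contra hc
    push Not at hc
    rw [← Finset.add_sum_erase _ _ (Finset.mem_univ one)] at hsum
    have h1 : (Finset.univ.erase one).card • p ^ 2 ≤ ∑ ψ ∈ Finset.univ.erase one, d ψ ^ 2 :=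
      Finset.card_nsmul_le_sum _ _ _ fun ψ hψ =>
        Nat.pow_le_pow_left (hc ψ (Finset.mem_erase.mp hψ).1) 2
    rw [Finset.card_erase_of_mem (Finset.mem_univ _), Finset.card_univ, ← Nat.card_eq_fintype_card,
      H6.card_irr_eq_card_conjClasses, smul_eq_mul] at h1
    obtain ⟨m, hm⟩ := hp2
    have h2 : 0 < d one ^ 2 := pow_pos (hd0 one) 2
    rw [hm] at hmany hsum
    have h3 : m < Nat.card (ConjClasses G) := lt_of_mul_lt_mul_left hmany (Nat.zero_le _)
    have h4 : (Nat.card (ConjClasses G) - 1) * p ^ 2 < m * p ^ 2 := by rw [mul_comm m]; omega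
    have h5 := lt_of_mul_lt_mul_right h4 (Nat.zero_le _)
    omega
  have h1 := H6.char_commutator_of_lt_primes
    (H6.isCharacter_restrict (P : Subgroup G) (H6.irr_isCharacter χ.2)) (n := d χ) (hd χ)
    (fun q hq hqd => by
      obtain ⟨k, hk⟩ := IsPGroup.iff_card.mp P.isPGroup'
      rw [hk] at hqd
      rw [(Nat.prime_dvd_prime_iff_eq hq hpp).mp (hq.dvd_of_dvd_pow hqd)]
      exact hχ)
    (Subgroup.commutator_mem_commutator (Subgroup.mem_top (⟨a, ha⟩ : (P : Subgroup G)))
      (Subgroup.mem_top ⟨b, hb⟩))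
  have h2 := H6.eq_one_of_simple χ.2 (fun h => hχ1 (Subtype.ext h)) h1
  exact hab (commutatorElement_eq_one_iff_mul_comm.mp h2)

end Cfsg.Agent.S0186
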