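import Cfsg.Statements.S0192
import Mathlib
import Cfsg.Agent.Lib.Char.Basic
import Cfsg.Agent.Lib.Char.Inner

set_option autoImplicit false
open Cfsg

namespace Cfsg.Agent.S0192

theorem inner_eq_finrank {G : Type*} [Group G] {V : Type*} [AddCommGroup V] [Module ℂ V]
    [FiniteDimensional ℂ V] (ρ : Representation ℂ G V) (H : Subgroup G) [Fintype H] :
    (Cfsg.classInner (fun x : H => ρ.character x) (fun _ => 1)).re =
      Module.finrank ℂ (Representation.invariants (ρ.comp H.subtype : Representation ℂ H V)) := by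
  have : Invertible (Nat.card H : ℂ) := invertibleOfNonzero H6.card_ne_zero
  rw [H6.classInner_one_right]
  have h := Representation.card_inv_mul_sum_char_eq_finrank
    (ρ.comp H.subtype : Representation ℂ H V)
  have h2 : (Nat.card H : ℂ)⁻¹ * ∑ g : H, ρ.character g =
    Module.finrank ℂ (Representation.invariants (ρ.comp H.subtype : Representation ℂ H V)) := h
  rw [h2]
  simp

/-- Brauer's generation criterion. Let G be a finite simple group, H₁ and H₂ subgroups, and χ a non-principal irreducible character. If the multiplicity of the principal character in χ restricted to H₁ ⊓ H₂ is less than the sum of the corresponding multiplicities for H₁ and H₂, then H₁ and H₂ do not generate G. -/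
theorem result {G : Type*} [Group G] [Fintype G] [IsSimpleGroup G] (H₁ H₂ : Subgroup G) [Fintype H₁] [Fintype H₂] [Fintype ↥(H₁ ⊓ H₂)] (χ : G → ℂ) (hχ : Cfsg.IsIrrCharacter G χ) (hχ1 : χ ≠ fun _ => 1) (hlt : (Cfsg.classInner (fun x : ↥(H₁ ⊓ H₂) => χ x) (fun _ => 1)).re < (Cfsg.classInner (fun x : H₁ => χ x) (fun _ => 1)).re + (Cfsg.classInner (fun x : H₂ => χ x) (fun _ => 1)).re) : H₁ ⊔ H₂ ≠ ⊤ := by
  intro htop
  obtain ⟨n, ρ, hρ, rfl⟩ := hχ
  rw [inner_eq_finrank, inner_eq_finrank, inner_eq_finrank] at hlt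
  set U₁ := Representation.invariants (ρ.comp H₁.subtype : Representation ℂ H₁ (Fin n → ℂ))
  set U₂ := Representation.invariants (ρ.comp H₂.subtype : Representation ℂ H₂ (Fin n → ℂ))
  set U := Representation.invariants
    (ρ.comp (H₁ ⊓ H₂).subtype : Representation ℂ ↥(H₁ ⊓ H₂) (Fin n → ℂ))
  have hle : U₁ ⊔ U₂ ≤ U := by
    refine sup_le (fun v hv g => hv ⟨g, g.2.1⟩) (fun v hv g => hv ⟨g, g.2.2⟩)
  have hinv : ∀ v ∈ U₁ ⊓ U₂, ∀ g : G, ρ g v = v := by
    intro v hv g
    let S : Subgroup G :=
      { carrier := {g | ρ g v = v}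
        mul_mem' := fun {a b} ha hb => by
          change ρ (a * b) v = v
          rw [map_mul, Module.End.mul_apply, hb, ha]
        one_mem' := by simp
        inv_mem' := fun {a} ha => by
          change ρ a⁻¹ v = v
          conv_lhs => rw [← show ρ a v = v from ha]
          exact ρ.inv_self_apply a v }
    have : H₁ ⊔ H₂ ≤ S := sup_le (fun g hg => hv.1 ⟨g, hg⟩) (fun g hg => hv.2 ⟨g, hg⟩)
    rw [htop] at this
    exact this (Subgroup.mem_top g)
  have hbot : U₁ ⊓ U₂ = ⊥ := by
    rcases ((H6.isIrreducible_iff ρ).1 hρ).2 (U₁ ⊓ U₂) (fun g v hv => by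
      rw [hinv v hv g]; exact hv) with h | h
    · exact h
    · exfalso
      apply hχ1
      have htriv : ∀ g v, ρ g v = v := fun g v => hinv v (h ▸ Submodule.mem_top) g
      have := H6.nontrivial_of_isIrreducible ρ
      obtain ⟨v, hv⟩ := exists_ne (0 : Fin n → ℂ)
      have h1 : Module.finrank ℂ (Fin n → ℂ) = 1 := by
        rcases ((H6.isIrreducible_iff ρ).1 hρ).2 (Submodule.span ℂ {v}) (fun g w hw => by
          rw [htriv]; exact hw) with h2 | h2
        · exact absurd (Submodule.span_singleton_eq_bot.1 h2) hv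
        · rw [← finrank_top, ← h2, finrank_span_singleton hv]
      funext g
      have : ρ g = LinearMap.id := LinearMap.ext (htriv g)
      rw [(H6.character_eq_finrank_iff ρ g).2 this, h1, Nat.cast_one]
  have h1 := Submodule.finrank_sup_add_finrank_inf_eq U₁ U₂
  rw [hbot, finrank_bot, add_zero] at h1
  have h2 := Submodule.finrank_mono hle
  have h3 : Module.finrank ℂ U < Module.finrank ℂ U₁ + Module.finrank ℂ U₂ := by
    exact_mod_cast hlt
  omega

end Cfsg.Agent.S0192
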