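import Cfsg.Statements.S0194
import Mathlib
import Cfsg.Agent.Base
import Cfsg.Agent.Lib.Char.Clifford
import Cfsg.Agent.Lib.Deg.FS

set_option autoImplicit false
open scoped ComplexConjugate
open Cfsg

namespace Cfsg.Agent.S0194

/-- Let G have odd order, H be a normal subgroup and θ a non-principal irreducible character of H. Then the function induced from θ is orthogonal to its complex conjugate. -/
theorem result {G : Type*} [Group G] [Fintype G] (hodd : Odd (Nat.card G)) (H : Subgroup G) [H.Normal] (θ : H → ℂ) (hθ : Cfsg.IsIrrCharacter H θ) (hθ1 : θ ≠ fun _ => 1) : Cfsg.classInner (fun g => conj (Cfsg.indFun H θ g)) (Cfsg.indFun H θ) = 0 := by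
  classical
  have h1 : (fun g => conj (Cfsg.indFun H θ g)) = Cfsg.indFun H (fun h => conj (θ h)) :=
    funext fun g => H7.conj_indFun H θ g
  rw [h1]
  refine H7.classInner_indFun_of_not_mem_conjOrbit (H6.isIrrCharacter_conj hθ) hθ ?_
  intro hmem
  obtain ⟨g, hg⟩ := H7.mem_conjOrbit.1 hmem
  have h2 : H7.conjChar g θ = fun h => conj (θ h) := by
    have := H7.conjChar_conj g (fun h => conj (θ h))
    simp only [Complex.conj_conj] at this
    rw [← hg] at this
    exact this
  have h3 : g * g ∈ H7.inertia θ := by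
    rw [H7.mem_inertia, H7.conjChar_mul, h2, ← hg]
  have h4 : g ∈ H7.inertia θ := by
    obtain ⟨k, hk⟩ := hodd
    have h5 : g = (g * g) ^ (k + 1) := by
      rw [← pow_two, ← pow_mul, show 2 * (k + 1) = Nat.card G + 1 by omega, pow_succ,
        pow_card_eq_one', one_mul]
    rw [h5]
    exact (H7.inertia θ).pow_mem h3 _
  rw [H7.mem_inertia, h2] at h4
  refine hθ1 (H87.eq_one_of_isReal_of_odd (hodd.of_dvd_nat (Subgroup.card_subgroup_dvd_card H)) hθ ?_)
  intro h
  exact Complex.conj_eq_iff_im.1 (congrFun h4 h)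

end Cfsg.Agent.S0194
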