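import Cfsg.Statements.S0203
import Mathlib
import Cfsg.Agent.Lib.Invol.KleinSylow

set_option autoImplicit false
open Cfsg

namespace Cfsg.Agent.S0203

/-- If a Sylow 2-subgroup P of a finite group G is a Klein four-group, then G has three classes of involutions if and only if P has a normal complement in G. -/
theorem result {G : Type*} [Group G] [Finite G] (P : Sylow 2 G) (hP : IsKleinFour (P : Subgroup G)) : Nat.card {C : ConjClasses G // ∃ t : G, orderOf t = 2 ∧ ConjClasses.mk t = C} = 3 ↔ ∃ N : Subgroup G, N.Normal ∧ Subgroup.IsComplement' N (P : Subgroup G) := by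
  constructor
  · intro h3
    by_cases h : Subgroup.normalizer ((P : Subgroup G) : Set G) ≤ Subgroup.centralizer (P : Set G)
    · exact ⟨_, inferInstance, MonoidHom.ker_transferSylow_isComplement' P h⟩
    · rw [H9.klein_card_classes_eq_one P hP h] at h3
      omega
  · rintro ⟨N, hN, hc⟩
    refine H9.klein_card_classes_eq_three P hP (H9.eq_of_isConj_of_isComplement' hc ?_)
    exact fun x hx y hy => congrArg Subtype.val
      ((IsKleinFour.isMulCommutative (G := (P : Subgroup G))).is_comm.comm ⟨x, hx⟩ ⟨y, hy⟩)

end Cfsg.Agent.S0203
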