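import Cfsg.Statements.S0210
import Mathlib
import Cfsg.Agent.Lib.Invol.Dihedral

set_option autoImplicit false
open Cfsg

namespace Cfsg.Agent.S0210

/-- If x, y are involutions whose product has even order, no element of the subgroup generated by x and y conjugates x to y. -/
theorem result {G : Type*} [Group G] [Finite G] (x y : G) (hx : orderOf x = 2) (hy : orderOf y = 2) (heven : Even (orderOf (x * y))) (d : G) (hd : d ∈ Subgroup.closure ({x, y} : Set G)) : d * x * d⁻¹ ≠ y := by
  have hx' := H9.mul_self_of_orderOf_two hx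
  have hy' := H9.mul_self_of_orderOf_two hy
  obtain ⟨k, hk⟩ := H9.exists_conj_left_eq hx' hy' hd
  rw [hk]
  intro h
  have h2 := h.trans (H9.right_eq hx' hy')
  have h3 := zpow_eq_zpow_iff_modEq.1 (mul_right_cancel h2)
  obtain ⟨m, hm⟩ := heven
  obtain ⟨c, hc⟩ := h3.dvd
  rw [hm] at hc
  push_cast at hc
  have : (m : ℤ) * c + m * c = -1 - 2 * k := by linarith
  omega

end Cfsg.Agent.S0210
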