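import Cfsg.Statements.S0237
import Mathlib
import Cfsg.Agent.Lib.Invol.Dihedral

set_option autoImplicit false
open Cfsg

namespace Cfsg.Agent.S0237

/-- If x is real (conjugate to x⁻¹) in a finite group G, the number of g with g x g⁻¹ = x⁻¹ equals |C_G(x)|. -/
theorem result {G : Type*} [Group G] [Finite G] (x : G) (hreal : IsConj x x⁻¹) : Nat.card {g : G // g * x * g⁻¹ = x⁻¹} = Nat.card (Subgroup.centralizer ({x} : Set G)) := by
  obtain ⟨c, hc⟩ := isConj_iff.1 hreal
  refine Nat.card_congr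
    { toFun := fun g => ⟨c⁻¹ * g.1, ?_⟩
      invFun := fun h => ⟨c * h.1, ?_⟩
      left_inv := fun g => by simp
      right_inv := fun g => by simp }
  · rw [Subgroup.mem_centralizer_singleton_iff]
    calc c⁻¹ * g.1 * x = c⁻¹ * (g.1 * x * g.1⁻¹) * g.1 := by group
      _ = c⁻¹ * (c * x * c⁻¹) * g.1 := by rw [g.2, hc]
      _ = x * (c⁻¹ * g.1) := by group
  · calc c * h.1 * x * (c * h.1)⁻¹ = c * (h.1 * x) * (c * h.1)⁻¹ := by group
      _ = c * x * c⁻¹ := by rw [Subgroup.mem_centralizer_singleton_iff.1 h.2]; group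
      _ = x⁻¹ := hc

end Cfsg.Agent.S0237
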