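import Cfsg.Statements.S0236
import Mathlib
import Cfsg.Agent.Lib.Invol.Dihedral

set_option autoImplicit false
open Cfsg

namespace Cfsg.Agent.S0236

/-- If x is an involution, the number of ordered pairs (u, v) of involutions with uv = x, plus one, equals the number of involutions in the centralizer of x. -/
theorem result {G : Type*} [Group G] [Finite G] (x : G) (hx : orderOf x = 2) : Nat.card {p : G × G // orderOf p.1 = 2 ∧ orderOf p.2 = 2 ∧ p.1 * p.2 = x} + 1 = Nat.card {t : G // orderOf t = 2 ∧ Commute t x} := by
  classical
  have hx' := H9.mul_self_of_orderOf_two hx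
  rw [← Finite.card_option]
  have h1 : ∀ u v : G, orderOf u = 2 → orderOf v = 2 → u * v = x → Commute u x := by
    intro u v hu hv h
    have := H9.left_inverts (H9.mul_self_of_orderOf_two hu) (H9.mul_self_of_orderOf_two hv)
    rw [h] at this
    exact (H9.commute_of_inverts_of_mul_self this hx').symm
  have h2 : ∀ t : G, orderOf t = 2 → Commute t x → t ≠ x → orderOf (t * x) = 2 := by
    intro t ht hc hne
    apply H9.orderOf_eq_two_of_mul_self
    · intro h
      exact hne (by rw [eq_inv_of_mul_eq_one_left h, H9.inv_eq_of_orderOf_two hx])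
    · rw [hc.symm.mul_mul_mul_comm, hx', H9.mul_self_of_orderOf_two ht, one_mul]
  refine Nat.card_congr
    { toFun := fun o => match o with
        | none => ⟨x, hx, Commute.refl x⟩
        | some p => ⟨p.1.1, p.2.1, h1 _ _ p.2.1 p.2.2.1 p.2.2.2⟩
      invFun := fun t => if h : t.1 = x then none else
        some ⟨(t.1, t.1 * x), t.2.1, h2 _ t.2.1 t.2.2 h, by
          change t.1 * (t.1 * x) = x
          rw [← mul_assoc, H9.mul_self_of_orderOf_two t.2.1, one_mul]⟩
      left_inv := ?_
      right_inv := ?_ }
  · rintro (_ | ⟨⟨u, v⟩, hu, hv, h⟩)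
    · simp
    · have hne : u ≠ x := by
        rintro rfl
        exact H9.ne_one_of_orderOf_two hv (by simpa using h)
      have : u * x = v := by
        rw [← show u * v = x from h, ← mul_assoc, H9.mul_self_of_orderOf_two hu, one_mul]
      simp [hne, this]
  · rintro ⟨t, ht⟩
    by_cases h : t = x
    · subst h; simp
    · simp [h]

end Cfsg.Agent.S0236
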