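import Cfsg.Statements.S0238
import Mathlib
import Cfsg.Agent.Lib.Invol.Dihedral
import Cfsg.Agent.S0236
import Cfsg.Agent.S0237

set_option autoImplicit false
open Cfsg

namespace Cfsg.Agent.S0238

/-- For every x in a finite group G, the number c of ordered pairs (u, v) of involutions with uv = x is at most |C_G(x)|; c = 0 when x is not conjugate to x⁻¹; and c + 2 ≤ |C_G(x)| when x is an involution. -/
theorem result {G : Type*} [Group G] [Finite G] (x : G) : Nat.card {p : G × G // orderOf p.1 = 2 ∧ orderOf p.2 = 2 ∧ p.1 * p.2 = x} ≤ Nat.card (Subgroup.centralizer ({x} : Set G)) ∧ (¬ IsConj x x⁻¹ → Nat.card {p : G × G // orderOf p.1 = 2 ∧ orderOf p.2 = 2 ∧ p.1 * p.2 = x} = 0) ∧ (orderOf x = 2 → Nat.card {p : G × G // orderOf p.1 = 2 ∧ orderOf p.2 = 2 ∧ p.1 * p.2 = x} + 2 ≤ Nat.card (Subgroup.centralizer ({x} : Set G))) := by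
  have hinv : ∀ p : {p : G × G // orderOf p.1 = 2 ∧ orderOf p.2 = 2 ∧ p.1 * p.2 = x},
      p.1.1 * x * p.1.1⁻¹ = x⁻¹ := by
    rintro ⟨⟨u, v⟩, hu, hv, rfl⟩
    exact H9.left_inverts (H9.mul_self_of_orderOf_two hu) (H9.mul_self_of_orderOf_two hv)
  have h0 : ¬ IsConj x x⁻¹ →
      Nat.card {p : G × G // orderOf p.1 = 2 ∧ orderOf p.2 = 2 ∧ p.1 * p.2 = x} = 0 := by
    intro h
    have : IsEmpty {p : G × G // orderOf p.1 = 2 ∧ orderOf p.2 = 2 ∧ p.1 * p.2 = x} :=
      ⟨fun p => h (isConj_iff.2 ⟨_, hinv p⟩)⟩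
    exact Nat.card_of_isEmpty
  refine ⟨?_, h0, ?_⟩
  · by_cases h : IsConj x x⁻¹
    · rw [← Cfsg.Agent.S0237.result x h]
      refine Nat.card_le_card_of_injective (fun p => ⟨p.1.1, hinv p⟩) ?_
      rintro ⟨⟨u, v⟩, hu, hv, h1⟩ ⟨⟨u', v'⟩, hu', hv', h2⟩ h
      have h : u = u' := congrArg Subtype.val h
      subst h
      have : v = v' := mul_left_cancel (h1.trans h2.symm)
      subst this
      rfl
    · rw [h0 h]; exact Nat.zero_le _
  · intro hx
    rw [show (2 : ℕ) = 1 + 1 from rfl, ← add_assoc, Cfsg.Agent.S0236.result x hx,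
      ← Finite.card_option]
    refine Nat.card_le_card_of_injective (fun o => match o with
      | none => 1
      | some t => ⟨t.1, Subgroup.mem_centralizer_singleton_iff.2 t.2.2.eq⟩) ?_
    rintro (_ | ⟨t, ht⟩) (_ | ⟨s, hs⟩) h
    · rfl
    · exact absurd (congrArg Subtype.val h).symm (H9.ne_one_of_orderOf_two hs.1)
    · exact absurd (congrArg Subtype.val h) (H9.ne_one_of_orderOf_two ht.1)
    · have : t = s := congrArg Subtype.val h
      subst this
      rfl

end Cfsg.Agent.S0238
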