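import Cfsg.Statements.S0233
import Mathlib
import Cfsg.Agent.Lib.Invol.Count
import Cfsg.Agent.S0237
import Cfsg.Agent.S0238

set_option autoImplicit false
open Cfsg

namespace Cfsg.Agent.S0233

/-- Let G be a finite group of even order with exactly n involutions whose centre has odd order, and put a = |G|/n. Then G has a proper subgroup H with |G : H| = 2 or |G : H| < a(a+1)/2; over ℕ the latter reads 2·|G:H|·n² < |G|·(|G| + n). -/
theorem result {G : Type*} [Group G] [Finite G] (heven : Even (Nat.card G)) (hZ : Odd (Nat.card (Subgroup.center G))) : ∃ H : Subgroup G, H ≠ ⊤ ∧ (H.index = 2 ∨ 2 * H.index * (Nat.card {t : G // orderOf t = 2}) ^ 2 < Nat.card G * (Nat.card G + Nat.card {t : G // orderOf t = 2})) := by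
  classical
  have : Fintype G := Fintype.ofFinite G
  by_cases h2 : ∃ H : Subgroup G, H.index = 2
  · obtain ⟨H, hH⟩ := h2
    refine ⟨H, ?_, Or.inl hH⟩
    rintro rfl
    simp at hH
  push Not at h2
  obtain ⟨t₀, ht₀⟩ := H9.exists_involution_of_even heven
  have hnt : Nontrivial G := ⟨⟨t₀, 1, H9.ne_one_of_orderOf_two ht₀⟩⟩
  obtain ⟨H, hH, hmin⟩ := Set.Finite.exists_minimalFor (fun H : Subgroup G => H.index)
    {H : Subgroup G | H ≠ ⊤} (Set.toFinite _) ⟨⊥, bot_ne_top⟩
  have hmin' : ∀ K : Subgroup G, K ≠ ⊤ → H.index ≤ K.index := by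
    intro K hK
    by_contra h
    push Not at h
    exact h.not_ge (hmin hK h.le)
  refine ⟨H, hH, Or.inr ?_⟩
  set j := H.index
  set N := Nat.card G with hN
  set n := Nat.card {t : G // orderOf t = 2} with hn
  let c : G → ℕ := fun x =>
    Nat.card {p : G × G // orderOf p.1 = 2 ∧ orderOf p.2 = 2 ∧ p.1 * p.2 = x}
  have key : ∀ x : G, 2 * j * c x + (if x = 1 then N else 0) + (if orderOf x = 2 then 4 * j else 0)
      ≤ N + (if x = 1 then 2 * j * n else 0) + (if orderOf x = 2 then N else 0) := by
    intro x
    obtain ⟨h1, h0, h3⟩ := Cfsg.Agent.S0238.result x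
    have hCi := (Subgroup.centralizer ({x} : Set G)).index_mul_card
    by_cases hx1 : x = 1
    · subst hx1
      have : c 1 = n := H9.card_involution_pairs_one
      simp [this, add_comm]
    by_cases hx2 : orderOf x = 2
    · simp only [if_neg hx1, if_pos hx2]
      have hj : j ≤ (Subgroup.centralizer ({x} : Set G)).index := by
        apply hmin'
        intro htop
        have hxc : x ∈ Subgroup.center G := by
          rw [Subgroup.mem_center_iff]
          intro g
          exact Subgroup.mem_centralizer_singleton_iff.1 (htop ▸ Subgroup.mem_top g)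
        exact (H9.odd_card_iff_forall_orderOf_ne_two _).1 hZ x hxc hx2
      have h4 : j * (c x + 2) ≤ N := hN ▸ hCi ▸ Nat.mul_le_mul hj (h3 hx2)
      nlinarith
    · simp only [if_neg hx1, if_neg hx2, add_zero]
      by_cases hr : IsConj x x⁻¹
      · let K : Subgroup G :=
          { carrier := {g | g * x * g⁻¹ = x ∨ g * x * g⁻¹ = x⁻¹}
            one_mem' := Or.inl (by simp)
            mul_mem' := by
              have e : ∀ a b : G, a * b * x * (a * b)⁻¹ = a * (b * x * b⁻¹) * a⁻¹ := by
                intro a b; group
              have e' : ∀ a : G, a * x⁻¹ * a⁻¹ = (a * x * a⁻¹)⁻¹ := by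
                intro a; group
              rintro a b (ha | ha) (hb | hb)
              · left; rw [e, hb, ha]
              · right; rw [e, hb, e', ha]
              · right; rw [e, hb, ha]
              · left; rw [e, hb, e', ha, inv_inv]
            inv_mem' := by
              rintro a (ha | ha)
              · left
                calc a⁻¹ * x * a⁻¹⁻¹ = a⁻¹ * (a * x * a⁻¹) * a⁻¹⁻¹ := by rw [ha]
                  _ = x := by group
              · right
                calc a⁻¹ * x * a⁻¹⁻¹ = a⁻¹ * (a * x * a⁻¹)⁻¹ * a⁻¹⁻¹ := by rw [ha, inv_inv x]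
                  _ = x⁻¹ := by group }
        have hxx : x ≠ x⁻¹ := fun h =>
          hx2 (H9.orderOf_eq_two_of_mul_self hx1 (mul_eq_one_iff_eq_inv.2 h))
        have hK : Nat.card K = 2 * Nat.card (Subgroup.centralizer ({x} : Set G)) := by
          have e1 : Nat.card K = Nat.card {g : G // g * x * g⁻¹ = x} +
              Nat.card {g : G // g * x * g⁻¹ = x⁻¹} := by
            rw [← Nat.card_sum]
            refine Nat.card_congr (subtypeOrEquiv _ _ ?_)
            rw [Pi.disjoint_iff]
            intro g
            rw [Prop.disjoint_iff]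
            rintro ⟨h, h'⟩
            exact hxx (h.symm.trans h')
          rw [e1, Cfsg.Agent.S0237.result x hr, two_mul]
          congr 1
          refine Nat.card_congr (Equiv.subtypeEquivRight fun g => ?_)
          rw [Subgroup.mem_centralizer_singleton_iff, mul_inv_eq_iff_eq_mul]
        have hKi := K.index_mul_card
        have hpos : 0 < Nat.card (Subgroup.centralizer ({x} : Set G)) := Nat.card_pos
        have hKtop : K ≠ ⊤ := by
          intro h
          apply h2 (Subgroup.centralizer ({x} : Set G))
          rw [h, Subgroup.card_top, ← hCi] at hK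
          exact Nat.eq_of_mul_eq_mul_right hpos hK
        have hj := hmin' K hKtop
        rw [hK] at hKi
        calc 2 * j * c x ≤ 2 * K.index * Nat.card (Subgroup.centralizer ({x} : Set G)) :=
              Nat.mul_le_mul (Nat.mul_le_mul_left 2 hj) h1
          _ = N := by rw [hN, ← hKi]; ring
      · have : c x = 0 := h0 hr
        simp [this]
  have hsum := Finset.sum_le_sum (s := Finset.univ) (fun x _ => key x)
  simp only [Finset.sum_add_distrib, ← Finset.mul_sum, Finset.sum_ite_eq', Finset.mem_univ, if_true,
    ← Finset.sum_filter, Finset.sum_const, smul_eq_mul, Finset.card_univ] at hsum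
  rw [← Fintype.card_subtype, ← Nat.card_eq_fintype_card, ← Nat.card_eq_fintype_card,
    H9.sum_card_involution_pairs] at hsum
  have hpos : 0 < N := Nat.card_pos
  change 2 * j * n ^ 2 + N + 4 * (n * j) ≤ N * N + 2 * j * n + n * N at hsum
  nlinarith [Nat.zero_le (j * n)]

end Cfsg.Agent.S0233
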