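import Cfsg.Statements.S0212
import Mathlib
import Cfsg.Agent.Lib.Invol.Count
import Cfsg.Agent.S0233

set_option autoImplicit false
open Cfsg

namespace Cfsg.Agent.S0212

/-- The Brauer–Fowler bound: if G is a finite simple group and t an involution of G whose centralizer has order n, then |G| ≤ (2n^2)!. -/
theorem result {G : Type*} [Group G] [Finite G] [IsSimpleGroup G] (t : G) (ht : orderOf t = 2) : Nat.card G ≤ Nat.factorial (2 * (Nat.card (Subgroup.centralizer ({t} : Set G))) ^ 2) := by
  set n := Nat.card (Subgroup.centralizer ({t} : Set G)) with hn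
  have hn2 : 2 ≤ n := by
    have : 2 ∣ n := ht ▸ Subgroup.orderOf_dvd_natCard _ (Subgroup.mem_centralizer_singleton_iff.2 rfl)
    exact Nat.le_of_dvd Nat.card_pos this
  have heven : Even (Nat.card G) := by
    rw [even_iff_two_dvd, ← ht]; exact orderOf_dvd_natCard t
  have hCi := (Subgroup.centralizer ({t} : Set G)).index_mul_card
  rcases IsSimpleGroup.eq_bot_or_eq_top_of_normal (Subgroup.center G) inferInstance with hZ | hZ
  · obtain ⟨H, hH, h⟩ := Cfsg.Agent.S0233.result heven (by rw [hZ]; simp)
    refine (Nat.le_of_dvd (Nat.factorial_pos _) (H9.card_dvd_factorial_index_of_simple hH)).trans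
      (Nat.factorial_le ?_)
    rcases h with h | h
    · rw [h]; nlinarith
    · have hm := H9.index_centralizer_le_card_involutions ht
      set m := Nat.card {t : G // orderOf t = 2}
      have h1 : Nat.card G ≤ m * n := hCi ▸ Nat.mul_le_mul_right _ hm
      have h2 : Nat.card G * (Nat.card G + m) ≤ (m * n) * (m * n + m) := by gcongr
      have h3 : 2 * H.index * m ^ 2 < (n * (n + 1)) * m ^ 2 := by
        calc _ < _ := h
          _ ≤ _ := h2
          _ = _ := by ring
      have h4 := lt_of_mul_lt_mul_right h3 (Nat.zero_le _)
      nlinarith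
  · have : Subgroup.centralizer ({t} : Set G) = ⊤ := by
      rw [eq_top_iff]
      intro g _
      exact Subgroup.mem_centralizer_singleton_iff.2
        (Subgroup.mem_center_iff.1 (hZ ▸ Subgroup.mem_top t) g)
    rw [this, Subgroup.card_top] at hn
    rw [← hn]
    exact le_trans (by nlinarith) (Nat.self_le_factorial _)

end Cfsg.Agent.S0212
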