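import Cfsg.Statements.S0213
import Mathlib
import Cfsg.Agent.Lib.Invol.Count

set_option autoImplicit false
open Cfsg

namespace Cfsg.Agent.S0213

/-- Thompson Order Formula, two-class case: if every involution of the finite group G is conjugate to exactly one of the non-conjugate involutions x₁, x₂, and nᵢ is the number of pairs (u, v) with u conjugate to x₁, v conjugate to x₂ and xᵢ in the cyclic group generated by uv, then |G| = |C(x₂)| n₁ + |C(x₁)| n₂. -/
theorem result {G : Type*} [Group G] [Finite G] (x₁ x₂ : G) (h₁ : orderOf x₁ = 2) (h₂ : orderOf x₂ = 2) (hnc : ¬ IsConj x₁ x₂) (hall : ∀ t : G, orderOf t = 2 → IsConj x₁ t ∨ IsConj x₂ t) : Nat.card G = Nat.card (Subgroup.centralizer ({x₂} : Set G)) * Nat.card {p : G × G // IsConj x₁ p.1 ∧ IsConj x₂ p.2 ∧ x₁ ∈ Subgroup.zpowers (p.1 * p.2)} + Nat.card (Subgroup.centralizer ({x₁} : Set G)) * Nat.card {p : G × G // IsConj x₁ p.1 ∧ IsConj x₂ p.2 ∧ x₂ ∈ Subgroup.zpowers (p.1 * p.2)} := by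
  classical
  have : Fintype G := Fintype.ofFinite G
  let F : G → ℕ := fun z =>
    Nat.card {p : G × G // IsConj x₁ p.1 ∧ IsConj x₂ p.2 ∧ z ∈ Subgroup.zpowers (p.1 * p.2)}
  have hF : ∀ z w : G, IsConj z w → F z = F w := by
    have aux : ∀ (g z : G) (p : G × G),
        IsConj x₁ p.1 ∧ IsConj x₂ p.2 ∧ z ∈ Subgroup.zpowers (p.1 * p.2) →
        IsConj x₁ (g * p.1 * g⁻¹) ∧ IsConj x₂ (g * p.2 * g⁻¹) ∧
          g * z * g⁻¹ ∈ Subgroup.zpowers (g * p.1 * g⁻¹ * (g * p.2 * g⁻¹)) := by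
      rintro g z ⟨u, v⟩ ⟨h1, h2, k, hk⟩
      refine ⟨h1.trans (isConj_iff.2 ⟨g, rfl⟩), h2.trans (isConj_iff.2 ⟨g, rfl⟩), k, ?_⟩
      simp only at hk ⊢
      rw [← hk, ← conj_zpow]
      congr 1
      group
    intro z w h
    obtain ⟨g, rfl⟩ := isConj_iff.1 h
    exact Nat.card_congr
      { toFun := fun p => ⟨(g * p.1.1 * g⁻¹, g * p.1.2 * g⁻¹), aux g z p.1 p.2⟩
        invFun := fun p => ⟨(g⁻¹ * p.1.1 * g⁻¹⁻¹, g⁻¹ * p.1.2 * g⁻¹⁻¹), by
          have := aux g⁻¹ _ p.1 p.2
          simpa only [inv_inv, mul_assoc, inv_mul_cancel_left, inv_mul_cancel, mul_one] using this⟩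
        left_inv := fun p => by simp [mul_assoc]
        right_inv := fun p => by simp [mul_assoc] }
  have heven : ∀ u v : G, IsConj x₁ u → IsConj x₂ v → Even (orderOf (u * v)) := by
    intro u v hu hv
    refine H9.even_orderOf_mul_of_not_isConj (H9.mul_self_of_orderOf_two ?_)
      (H9.mul_self_of_orderOf_two ?_) (fun h => hnc (hu.trans (h.trans hv.symm)))
    · rw [← H9.orderOf_eq_of_isConj hu, h₁]
    · rw [← H9.orderOf_eq_of_isConj hv, h₂]
  have hsum := H9.natCard_eq_sum_fiber (fun p : {u : G // IsConj x₁ u} × {v : G // IsConj x₂ v} =>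
    (p.1.1 * p.2.1) ^ (orderOf (p.1.1 * p.2.1) / 2))
  have hfib : ∀ z : G, Nat.card {p : {u : G // IsConj x₁ u} × {v : G // IsConj x₂ v} //
      (p.1.1 * p.2.1) ^ (orderOf (p.1.1 * p.2.1) / 2) = z} =
      (if IsConj x₁ z then F x₁ else 0) + (if IsConj x₂ z then F x₂ else 0) := by
    intro z
    by_cases hz : orderOf z = 2
    · have h1 : Nat.card {p : {u : G // IsConj x₁ u} × {v : G // IsConj x₂ v} //
          (p.1.1 * p.2.1) ^ (orderOf (p.1.1 * p.2.1) / 2) = z} = F z :=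
        Nat.card_congr
          { toFun := fun p => ⟨(p.1.1.1, p.1.2.1), p.1.1.2, p.1.2.2,
              ⟨((orderOf (p.1.1.1 * p.1.2.1) / 2 : ℕ) : ℤ), (zpow_natCast _ _).trans p.2⟩⟩
            invFun := fun p => ⟨(⟨p.1.1, p.2.1⟩, ⟨p.1.2, p.2.2.1⟩),
              (H9.eq_pow_half_of_mem_zpowers hz p.2.2.2).2.symm⟩
            left_inv := fun _ => rfl
            right_inv := fun _ => rfl }
      rw [h1]
      rcases hall z hz with h | h
      · rw [if_pos h, if_neg (fun h' => hnc (h.trans h'.symm)), hF _ _ h, add_zero]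
      · rw [if_pos h, if_neg (fun h' => hnc (h'.trans h.symm)), hF _ _ h, zero_add]
    · rw [if_neg (fun h => hz (by rw [← H9.orderOf_eq_of_isConj h, h₁])),
        if_neg (fun h => hz (by rw [← H9.orderOf_eq_of_isConj h, h₂]))]
      have : IsEmpty {p : {u : G // IsConj x₁ u} × {v : G // IsConj x₂ v} //
          (p.1.1 * p.2.1) ^ (orderOf (p.1.1 * p.2.1) / 2) = z} :=
        ⟨fun p => hz (p.2 ▸ H9.orderOf_pow_half (heven _ _ p.1.1.2 p.1.2.2))⟩
      exact Nat.card_of_isEmpty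
  simp only [hfib, Finset.sum_add_distrib, ← Finset.sum_filter, Finset.sum_const, smul_eq_mul,
    Nat.card_prod] at hsum
  rw [← Fintype.card_subtype, ← Fintype.card_subtype, ← Nat.card_eq_fintype_card,
    ← Nat.card_eq_fintype_card] at hsum
  have e1 := H9.card_isConj_mul_card_centralizer x₁
  have e2 := H9.card_isConj_mul_card_centralizer x₂
  change Nat.card G = _ * F x₁ + _ * F x₂
  have hpos : 0 < Nat.card G := Nat.card_pos
  apply Nat.eq_of_mul_eq_mul_left hpos
  set a := Nat.card {u : G // IsConj x₁ u}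
  set b := Nat.card {u : G // IsConj x₂ u}
  set c := Nat.card (Subgroup.centralizer ({x₁} : Set G))
  set d := Nat.card (Subgroup.centralizer ({x₂} : Set G))
  calc Nat.card G * Nat.card G = (a * c) * (b * d) := by rw [e1, e2]
    _ = (a * b) * (c * d) := by ring
    _ = (a * c) * (d * F x₁) + (b * d) * (c * F x₂) := by rw [hsum]; ring
    _ = _ := by rw [e1, e2]; ring

end Cfsg.Agent.S0213
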