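import Cfsg.Statements.S0216
import Mathlib
import Cfsg.Agent.Lib.Invol.Dihedral

set_option autoImplicit false
open Cfsg

namespace Cfsg.Agent.S0216

/-- For an involution u in a Sylow 2-subgroup P of a finite group G, the following are equivalent: no G-conjugate of u other than u lies in P; every commutator of u with an element of G has odd order. -/
theorem result {G : Type*} [Group G] [Finite G] (P : Sylow 2 G) (u : G) (hu : orderOf u = 2) (huP : u ∈ P) : (∀ g : G, g * u * g⁻¹ ∈ P → g * u * g⁻¹ = u) ↔ (∀ g : G, Odd (orderOf (u * g * u⁻¹ * g⁻¹))) := by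
  have hu' := H9.mul_self_of_orderOf_two hu
  constructor
  · intro hiso g
    by_contra hodd
    rw [Nat.not_odd_iff_even] at hodd
    set v := g * u * g⁻¹ with hv
    have hvv : v * v = 1 := H9.mul_self_of_orderOf_two (by rw [hv, H9.orderOf_conj, hu])
    have huv : u * g * u⁻¹ * g⁻¹ = u * v := by
      rw [hv, H9.inv_eq_of_orderOf_two hu]; group
    rw [huv] at hodd
    have hz := H9.orderOf_pow_half hodd
    have hc := (H9.pow_half_commute hu' hvv hodd).1
    set m := orderOf (u * v) / 2 with hm
    have hconj : IsConj u ((u * v) ^ m * u) := by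
      rcases Nat.even_or_odd' m with ⟨k, hk | hk⟩
      · refine isConj_iff.2 ⟨(u * v) ^ (k : ℤ), ?_⟩
        rw [H9.zpow_conj_left hu' hvv, hk, ← zpow_natCast]
        simp
      · have h1 : IsConj u v := isConj_iff.2 ⟨g, rfl⟩
        refine h1.trans (isConj_iff.2 ⟨(u * v) ^ ((k : ℤ) + 1), ?_⟩)
        rw [← zpow_neg, mul_assoc, H9.right_mul_zpow hu' hvv, neg_neg, ← mul_assoc, ← zpow_add]
        have h3 : (u * v) ^ m * u = (u * v) ^ (m + 1) * v := by
          rw [pow_succ, mul_assoc, mul_assoc, hvv, mul_one]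
        rw [h3, ← zpow_natCast, hk]
        congr 2
        push_cast
        ring
    have hzz := H9.mul_self_of_orderOf_two hz
    have hQ := H9.isPGroup_closure_pair_of_commute hzz hu' hc
    have h1 : (u * v) ^ m ∈ Subgroup.closure ({(u * v) ^ m, u} : Set G) :=
      Subgroup.subset_closure (by simp)
    have h2 : u ∈ Subgroup.closure ({(u * v) ^ m, u} : Set G) :=
      Subgroup.subset_closure (by simp)
    have := H9.eq_of_isolated P hiso hQ (mul_mem h1 h2) h2 hconj (IsConj.refl u)
    exact H9.ne_one_of_orderOf_two hz (by simpa using this)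
  · intro h g hg
    have hmem : u * g * u⁻¹ * g⁻¹ ∈ (P : Subgroup G) := by
      have : u * g * u⁻¹ * g⁻¹ = u * (g * u * g⁻¹)⁻¹ := by group
      rw [this]
      exact mul_mem huP (inv_mem hg)
    have h1 : u * g * u⁻¹ * g⁻¹ = 1 := by
      by_contra hne
      have h2 := P.isPGroup'.dvd_orderOf (g := ⟨_, hmem⟩) (by simpa using hne)
      rw [Subgroup.orderOf_mk] at h2
      exact (Nat.not_even_iff_odd.2 (h g)) (even_iff_two_dvd.2 h2)
    calc g * u * g⁻¹ = (u * g * u⁻¹ * g⁻¹)⁻¹ * u := by group
      _ = u := by rw [h1]; simp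

end Cfsg.Agent.S0216
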