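import Cfsg.Statements.S0220
import Mathlib
import Cfsg.Agent.Lib.Invol.Dihedral
import Cfsg.Agent.S0219

set_option autoImplicit false
open Cfsg

namespace Cfsg.Agent.S0220

/-- If x is an involution of a finite group G and a Sylow 2-subgroup of the centralizer of x is cyclic, then G has a subgroup of index 2; in particular G is not simple unless it has order 2. -/
theorem result {G : Type*} [Group G] [Finite G] (x : G) (hx : orderOf x = 2) (S : Sylow 2 ↥(Subgroup.centralizer ({x} : Set G))) (hS : IsCyclic (S : Subgroup ↥(Subgroup.centralizer ({x} : Set G)))) : ∃ H : Subgroup G, H.index = 2 := by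
  revert S
  set C := Subgroup.centralizer ({x} : Set G) with hC
  intro S hS
  obtain ⟨T, hT⟩ := S.exists_comap_subtype_eq
  have hxC : x ∈ C := Subgroup.mem_centralizer_singleton_iff.2 rfl
  have heven : Even (Nat.card G) := by
    rw [even_iff_two_dvd, ← hx]; exact orderOf_dvd_natCard x
  -- x lies in S
  have hxS : (⟨x, hxC⟩ : C) ∈ (S : Subgroup C) := by
    obtain ⟨g, hg⟩ := H9.exists_conj_involution_mem_sylow S (x := (⟨x, hxC⟩ : C))
      (Subtype.ext (H9.mul_self_of_orderOf_two hx))
    have : g * ⟨x, hxC⟩ * g⁻¹ = ⟨x, hxC⟩ := by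
      apply Subtype.ext
      have := Subgroup.mem_centralizer_singleton_iff.1 g.2
      simp only [Subgroup.coe_mul, Subgroup.coe_inv]
      rw [this, mul_inv_cancel_right]
    rwa [this] at hg
  have hxT : x ∈ (T : Subgroup G) := by
    rw [← hT] at hxS; exact hxS
  -- a central involution of T
  have hnt : Nontrivial (T : Subgroup G) :=
    ⟨⟨⟨x, hxT⟩, 1, by simpa using H9.ne_one_of_orderOf_two hx⟩⟩
  have hcn := T.isPGroup'.center_nontrivial
  obtain ⟨z, hzc, hz⟩ := H9.exists_involution_of_isPGroup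
    (T.isPGroup'.to_subgroup (Subgroup.center (T : Subgroup G)))
    ((Subgroup.nontrivial_iff_ne_bot _).1 hcn)
  have hzC : (z : G) ∈ C := by
    rw [hC, Subgroup.mem_centralizer_singleton_iff]
    exact (congrArg Subtype.val (Subgroup.mem_center_iff.1 hzc ⟨x, hxT⟩)).symm
  have hzS : (⟨z, hzC⟩ : C) ∈ (S : Subgroup C) := by
    rw [← hT]; exact z.2
  obtain ⟨c, hc⟩ := hS.exists_generator
  have e1 := (H9.eq_pow_half_of_mem_zpowers (z := ⟨_, hxS⟩) (by
    rw [Subgroup.orderOf_mk, Subgroup.orderOf_mk, hx]) (hc _)).2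
  have e2 := (H9.eq_pow_half_of_mem_zpowers (z := ⟨_, hzS⟩) (by
    rw [Subgroup.orderOf_mk, Subgroup.orderOf_mk, Subgroup.orderOf_coe, hz]) (hc _)).2
  have hxz : x = z := congrArg (fun w : (S : Subgroup C) => ((w : C) : G)) (e1.trans e2.symm)
  have hTC : (T : Subgroup G) ≤ C := by
    intro t ht
    rw [hC, Subgroup.mem_centralizer_singleton_iff, hxz]
    exact congrArg Subtype.val (Subgroup.mem_center_iff.1 hzc ⟨t, ht⟩)
  refine Cfsg.Agent.S0219.result heven T ?_
  have e : (S : Subgroup C) ≃* (T : Subgroup G) :=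
    (MulEquiv.subgroupCongr hT.symm).trans (Subgroup.subgroupOfEquivOfLe hTC)
  exact isCyclic_of_surjective e e.surjective

end Cfsg.Agent.S0220
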