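import Cfsg.Statements.S0221
import Mathlib
import Cfsg.Agent.Lib.CompW.TwoFus

set_option autoImplicit false
open Cfsg

namespace Cfsg.Agent.S0221

/-- Let G be a finite group with no subgroup of index 2 whose 2-rank is at least 3 (it contains an elementary abelian subgroup of order 8). Then the centralizer of every involution of G also contains an elementary abelian subgroup of order 8. -/
theorem result {G : Type*} [Group G] [Finite G] (hno : ∀ H : Subgroup G, H.index ≠ 2) (hrank : ∃ E : Subgroup G, Nat.card E = 8 ∧ ∀ e ∈ E, e ^ 2 = 1) (x : G) (hx : orderOf x = 2) : ∃ E : Subgroup G, E ≤ Subgroup.centralizer ({x} : Set G) ∧ Nat.card E = 8 ∧ ∀ e ∈ E, e ^ 2 = 1 := by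
  have : Fact (Nat.Prime 2) := ⟨Nat.prime_two⟩
  obtain ⟨A, hA, hA2⟩ := hrank
  have hinv : ∀ a ∈ A, a⁻¹ = a := fun a ha =>
    inv_eq_of_mul_eq_one_right (by rw [← pow_two, hA2 a ha])
  have hEA : H3.CW.EAk 2 3 A := by
    refine ⟨⟨⟨⟨fun a b => Subtype.ext ?_⟩⟩, hA2⟩, by rw [hA]; norm_num⟩
    show (a : G) * b = b * a
    rw [← hinv _ (mul_mem a.2 b.2), mul_inv_rev, hinv _ a.2, hinv _ b.2]
  obtain ⟨B, hB, hxB⟩ := H3.CW.exists_eak_three_mem hEA (fun N _ => hno N) hx
  have hBp : IsPGroup 2 B := fun b => ⟨1, Subtype.ext (by simpa using hB.1.2 b b.2)⟩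
  obtain ⟨E, hE⟩ := Sylow.exists_subgroup_card_pow_prime_of_le_card Nat.prime_two hBp hB.2
  refine ⟨E.map B.subtype, ?_, ?_, ?_⟩
  · rintro _ ⟨e, -, rfl⟩
    exact Subgroup.mem_centralizer_singleton_iff.mpr
      (congrArg Subtype.val (hB.1.1.is_comm.comm e ⟨x, hxB⟩))
  · rw [Subgroup.card_map_of_injective B.subtype_injective, hE]; norm_num
  · rintro _ ⟨e, -, rfl⟩
    exact hB.1.2 _ e.2

end Cfsg.Agent.S0221
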