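import Cfsg.Statements.S0226
import Mathlib
import Cfsg.Agent.Lib.Invol.Dihedral

set_option autoImplicit false
open Cfsg

namespace Cfsg.Agent.S0226

/-- A finite group of even order has an odd number of involutions. -/
theorem result {G : Type*} [Group G] [Finite G] (heven : Even (Nat.card G)) : Odd (Nat.card {t : G // orderOf t = 2}) := by
  classical
  have : Fintype G := Fintype.ofFinite G
  let f : Function.End G := fun x => x⁻¹
  have hf : f ^ 2 ^ 1 = 1 := by
    rw [pow_one, pow_two]
    funext x
    exact inv_inv x
  have h := Equiv.Perm.card_fixedPoints_modEq (f := f) (p := 2) (n := 1) hf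
  have e : f.fixedPoints ≃ Option {t : G // orderOf t = 2} :=
    { toFun := fun x => if h : x.1 = 1 then none else some ⟨x.1, H9.orderOf_eq_two_of_mul_self h (by
        have : x.1⁻¹ = x.1 := x.2
        exact mul_eq_one_iff_eq_inv.2 this.symm)⟩
      invFun := fun o => match o with
        | none => ⟨1, inv_one⟩
        | some t => ⟨t.1, H9.inv_eq_of_orderOf_two t.2⟩
      left_inv := by
        rintro ⟨x, hx⟩
        by_cases h : x = 1
        · subst h; simp
        · simp [h]
      right_inv := by
        rintro (_ | ⟨t, ht⟩)
        · simp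
        · simp [H9.ne_one_of_orderOf_two ht] }
  rw [← Nat.card_eq_fintype_card, ← Nat.card_eq_fintype_card, Nat.card_congr e,
    Finite.card_option] at h
  obtain ⟨m, hm⟩ := heven
  rw [Nat.odd_iff]
  unfold Nat.ModEq at h
  omega

end Cfsg.Agent.S0226
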