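import Cfsg.Statements.S0229
import Mathlib
import Cfsg.Agent.Lib.Invol.Dihedral

set_option autoImplicit false
open Cfsg

namespace Cfsg.Agent.S0229

/-- Let t be an involution of a Sylow 2-subgroup S of a finite group G, conjugate in G to no other element of S, and let s be an involution of G not conjugate to t. Then the order of st is twice an odd number. -/
theorem result {G : Type*} [Group G] [Finite G] (S : Sylow 2 G) (t : G) (ht : orderOf t = 2) (htS : t ∈ S) (hiso : ∀ g : G, g * t * g⁻¹ ∈ S → g * t * g⁻¹ = t) (s : G) (hs : orderOf s = 2) (hns : ¬ IsConj s t) : orderOf (s * t) % 4 = 2 := by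
  have hs' := H9.mul_self_of_orderOf_two hs
  have ht' := H9.mul_self_of_orderOf_two ht
  have he := H9.even_orderOf_mul_of_not_isConj hs' ht' hns
  by_contra h4
  have hz := H9.orderOf_pow_half he
  have hc := (H9.pow_half_commute hs' ht' he).2
  obtain ⟨k, hk⟩ : ∃ k, orderOf (s * t) / 2 = 2 * k := by
    obtain ⟨m, hm⟩ := he
    exact ⟨orderOf (s * t) / 4, by omega⟩
  rw [hk] at hz hc
  have hconj : IsConj t ((s * t) ^ (2 * k) * t) := by
    refine isConj_iff.2 ⟨(s * t) ^ (k : ℤ), ?_⟩
    rw [← zpow_neg, mul_assoc, H9.right_mul_zpow hs' ht', neg_neg, ← mul_assoc, ← zpow_add,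
      ← zpow_natCast]
    congr 2
    push_cast
    ring
  have hzz := H9.mul_self_of_orderOf_two hz
  have hQ := H9.isPGroup_closure_pair_of_commute hzz ht' hc
  have h1 : (s * t) ^ (2 * k) ∈ Subgroup.closure ({(s * t) ^ (2 * k), t} : Set G) :=
    Subgroup.subset_closure (by simp)
  have h2 : t ∈ Subgroup.closure ({(s * t) ^ (2 * k), t} : Set G) :=
    Subgroup.subset_closure (by simp)
  have := H9.eq_of_isolated S hiso hQ (mul_mem h1 h2) h2 hconj (IsConj.refl t)
  exact H9.ne_one_of_orderOf_two hz (by simpa using this)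

end Cfsg.Agent.S0229
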