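import Cfsg.Statements.S0230
import Mathlib
import Cfsg.Agent.Lib.Invol.Count

set_option autoImplicit false
open Cfsg

namespace Cfsg.Agent.S0230

/-- Let G be a finite group with two non-conjugate involutions, and let t be an involution whose centralizer has maximal order among centralizers of involutions. Then |G| < |C_G(t)|^3. -/
theorem result {G : Type*} [Group G] [Finite G] (s t : G) (hs : orderOf s = 2) (ht : orderOf t = 2) (hnc : ¬ IsConj s t) (hmax : ∀ u : G, orderOf u = 2 → Nat.card (Subgroup.centralizer ({u} : Set G)) ≤ Nat.card (Subgroup.centralizer ({t} : Set G))) : Nat.card G < Nat.card (Subgroup.centralizer ({t} : Set G)) ^ 3 := by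
  classical
  have : Fintype G := Fintype.ofFinite G
  set n := Nat.card (Subgroup.centralizer ({t} : Set G)) with hn
  have hs' := H9.mul_self_of_orderOf_two hs
  let C : G → Finset G := fun z => Finset.univ.filter (· ∈ Subgroup.centralizer ({z} : Set G))
  have hC : ∀ z, (C z).card = Nat.card (Subgroup.centralizer ({z} : Set G)) := by
    intro z
    rw [Nat.card_eq_fintype_card, Fintype.card_subtype]
  let Z : Finset G := (C s).filter (orderOf · = 2)
  have hZ : Z.card < n := by
    refine lt_of_lt_of_le (Finset.card_lt_card ⟨Finset.filter_subset _ _, fun h => ?_⟩)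
      ((hC s).le.trans (hmax s hs))
    have := h (show (1 : G) ∈ C s by simp [C])
    simp [Z] at this
  have hT : (Finset.univ.filter (IsConj t ·)) ⊆ Z.biUnion C := by
    intro v hv
    have hv : IsConj t v := by simpa only [Finset.mem_filter, Finset.mem_univ, true_and] using hv
    have hvo : orderOf v = 2 := by rw [← H9.orderOf_eq_of_isConj hv, ht]
    obtain ⟨z, hz, h1, h2⟩ := H9.exists_involution_commute_of_not_isConj hs'
      (H9.mul_self_of_orderOf_two hvo) (fun h => hnc (h.trans hv.symm))
    refine Finset.mem_biUnion.2 ⟨z, ?_, ?_⟩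
    · simp only [Z, C, Finset.mem_filter, Finset.mem_univ, true_and]
      exact ⟨Subgroup.mem_centralizer_singleton_iff.2 h1.eq, hz⟩
    · simp only [C, Finset.mem_filter, Finset.mem_univ, true_and]
      exact Subgroup.mem_centralizer_singleton_iff.2 h2.symm.eq
  have h1 : Nat.card {v : G // IsConj t v} ≤ Z.card * n := by
    rw [Nat.card_eq_fintype_card, Fintype.card_subtype]
    refine (Finset.card_le_card hT).trans (Finset.card_biUnion_le_card_mul _ _ _ ?_)
    intro z hz
    rw [hC]
    exact hmax z (Finset.mem_filter.1 hz).2
  have hpos : 0 < n := Nat.card_pos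
  rw [← H9.card_isConj_mul_card_centralizer t, ← hn]
  calc _ ≤ Z.card * n * n := Nat.mul_le_mul_right _ h1
    _ < n * n * n := by gcongr
    _ = n ^ 3 := by ring

end Cfsg.Agent.S0230
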