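import Cfsg.Statements.S0231
import Mathlib
import Cfsg.Agent.Lib.Invol.Dihedral

set_option autoImplicit false
open scoped Pointwise
open Cfsg

namespace Cfsg.Agent.S0231

/-- Let T be a Sylow 2-subgroup of the finite group G which is not normal and which intersects every other Sylow 2-subgroup trivially. Then G has a single conjugacy class of involutions. -/
theorem result {G : Type*} [Group G] [Finite G] (T : Sylow 2 G) (hnn : ¬ (T : Subgroup G).Normal) (hTI : ∀ g : G, MulAut.conj g • (T : Subgroup G) ≠ T → MulAut.conj g • (T : Subgroup G) ⊓ T = ⊥) (s t : G) (hs : orderOf s = 2) (ht : orderOf t = 2) : IsConj s t := by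
  have hTI' : ∀ (P Q : Sylow 2 G) (x : G), x ≠ 1 → x ∈ (P : Subgroup G) → x ∈ (Q : Subgroup G) →
      P = Q := by
    intro P Q x hx hP hQ
    obtain ⟨g, rfl⟩ := MulAction.exists_smul_eq G T P
    obtain ⟨k, rfl⟩ := MulAction.exists_smul_eq G (g • T) Q
    by_contra hne
    have h1 : MulAut.conj (g⁻¹ * k * g) • (T : Subgroup G) ≠ T := by
      intro h
      apply hne
      have h2 : (g⁻¹ * k * g) • T = T := Sylow.ext h
      rw [mul_smul, mul_smul, inv_smul_eq_iff] at h2
      exact h2.symm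
    have h2 : g⁻¹ * x * g ∈ MulAut.conj (g⁻¹ * k * g) • (T : Subgroup G) ⊓ T := by
      rw [Sylow.coe_subgroup_smul, Subgroup.mem_pointwise_smul_iff_inv_smul_mem] at hP
      rw [← mul_smul, Sylow.coe_subgroup_smul, Subgroup.mem_pointwise_smul_iff_inv_smul_mem] at hQ
      refine ⟨?_, (by simpa using hP : g⁻¹ * x * g ∈ (T : Subgroup G))⟩
      change g⁻¹ * x * g ∈ MulAut.conj (g⁻¹ * k * g) • (T : Subgroup G)
      rw [Subgroup.mem_pointwise_smul_iff_inv_smul_mem]
      simpa [mul_assoc] using hQ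
    rw [hTI _ h1, Subgroup.mem_bot] at h2
    apply hx
    calc x = g * (g⁻¹ * x * g) * g⁻¹ := by group
      _ = 1 := by rw [h2]; simp
  obtain ⟨T', hT'⟩ : ∃ T' : Sylow 2 G, T' ≠ T := by
    by_contra h
    push Not at h
    have : Subsingleton (Sylow 2 G) := ⟨fun a b => (h a).trans (h b).symm⟩
    exact hnn T.normal_of_subsingleton
  obtain ⟨g, hg⟩ := H9.exists_conj_involution_mem_sylow T (H9.mul_self_of_orderOf_two hs)
  obtain ⟨k, hk⟩ := H9.exists_conj_involution_mem_sylow T' (H9.mul_self_of_orderOf_two ht)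
  have hs1 : orderOf (g * s * g⁻¹) = 2 := by rw [H9.orderOf_conj, hs]
  have ht1 : orderOf (k * t * k⁻¹) = 2 := by rw [H9.orderOf_conj, ht]
  by_contra hnc
  obtain ⟨z, hz, h1, h2⟩ := H9.exists_involution_commute_of_not_isConj
    (H9.mul_self_of_orderOf_two hs1) (H9.mul_self_of_orderOf_two ht1) (fun h => hnc
      ((isConj_iff.2 ⟨g, rfl⟩).trans (h.trans (isConj_iff.2 ⟨k, rfl⟩).symm)))
  have key : ∀ (P : Sylow 2 G) (x : G), orderOf x = 2 → x ∈ (P : Subgroup G) → Commute z x →
      z ∈ (P : Subgroup G) := by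
    intro P x hx hxP hc
    obtain ⟨Q, hQ⟩ := (H9.isPGroup_closure_pair_of_commute (H9.mul_self_of_orderOf_two hz)
      (H9.mul_self_of_orderOf_two hx) hc).exists_le_sylow
    rw [hTI' P Q x (H9.ne_one_of_orderOf_two hx) hxP (hQ (Subgroup.subset_closure (by simp)))]
    exact hQ (Subgroup.subset_closure (by simp))
  exact hT' (hTI' T' T z (H9.ne_one_of_orderOf_two hz) (key T' _ ht1 hk h2) (key T _ hs1 hg h1))

end Cfsg.Agent.S0231
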