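import Cfsg.Statements.S0232
import Mathlib
import Cfsg.Agent.Lib.Invol.Count
import Cfsg.Agent.S0233
import Cfsg.Agent.S0219

set_option autoImplicit false
open Cfsg

namespace Cfsg.Agent.S0232

/-- A finite group G of even order greater than 2 has a proper subgroup H with |G| < |H|^3. -/
theorem result {G : Type*} [Group G] [Finite G] (heven : Even (Nat.card G)) (hgt : 2 < Nat.card G) : ∃ H : Subgroup G, H ≠ ⊤ ∧ Nat.card G < (Nat.card H) ^ 3 := by
  induction h : Nat.card G using Nat.strong_induction_on generalizing G with
  | _ N ih =>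
  subst h
  have hidx2 : ∀ H : Subgroup G, H.index = 2 → H ≠ ⊤ ∧ Nat.card G < Nat.card H ^ 3 := by
    intro H hH
    refine ⟨by rintro rfl; simp at hH, ?_⟩
    have := H.index_mul_card
    rw [hH] at this
    have h2 : 2 ≤ Nat.card H := by omega
    rw [← this, pow_succ]
    exact Nat.mul_lt_mul_of_pos_right (by nlinarith) (by omega)
  rcases Nat.even_or_odd (Nat.card (Subgroup.center G)) with hZ | hZ
  · obtain ⟨z, hzc, hz⟩ := (H9.even_card_iff_exists_involution _).1 hZ
    have hnorm : (Subgroup.zpowers z).Normal := by
      constructor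
      intro a ha g
      have : a ∈ Subgroup.center G := (Subgroup.zpowers_le_of_mem hzc) ha
      rw [Subgroup.mem_center_iff.1 this g, mul_inv_cancel_right]
      exact ha
    have hq := Subgroup.card_eq_card_quotient_mul_card_subgroup (Subgroup.zpowers z)
    rw [Nat.card_zpowers, hz] at hq
    rcases Nat.even_or_odd (Nat.card (G ⧸ Subgroup.zpowers z)) with hQ | hQ
    · by_cases h2 : 2 < Nat.card (G ⧸ Subgroup.zpowers z)
      · obtain ⟨K, hK, hK'⟩ := ih _ (by omega) hQ h2 rfl
        refine ⟨K.comap (QuotientGroup.mk' _), ?_, ?_⟩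
        · intro h
          apply hK
          rw [← Subgroup.map_comap_eq_self_of_surjective (QuotientGroup.mk'_surjective _) K, h,
            Subgroup.map_top_of_surjective _ (QuotientGroup.mk'_surjective _)]
        · have e1 := (K.comap (QuotientGroup.mk' (Subgroup.zpowers z))).index_mul_card
          rw [Subgroup.index_comap_of_surjective _ (QuotientGroup.mk'_surjective _), hq,
            ← K.index_mul_card, mul_assoc] at e1
          rw [Nat.eq_of_mul_eq_mul_left (Nat.pos_of_ne_zero Subgroup.index_ne_zero_of_finite) e1,
            mul_pow]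
          omega
      · obtain ⟨m, hm⟩ := hQ
        exact ⟨_, hidx2 (Subgroup.zpowers z) (by rw [Subgroup.index]; omega)⟩
    · obtain ⟨T⟩ : Nonempty (Sylow 2 G) := inferInstance
      have hT : Nat.card T = 2 := by
        rw [T.card_eq_multiplicity, hq, Nat.factorization_mul Nat.card_pos.ne' two_ne_zero,
          Finsupp.add_apply, Nat.factorization_eq_zero_of_not_dvd hQ.not_two_dvd_nat,
          Nat.Prime.factorization_self Nat.prime_two]
        rfl
      obtain ⟨H, hH⟩ := Cfsg.Agent.S0219.result heven T (isCyclic_of_prime_card hT)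
      exact ⟨H, hidx2 H hH⟩
  · obtain ⟨H, hH, h | h⟩ := Cfsg.Agent.S0233.result heven hZ
    · exact ⟨H, hidx2 H h⟩
    · obtain ⟨t, ht⟩ := H9.exists_involution_of_even heven
      set C := Subgroup.centralizer ({t} : Set G) with hC
      have hCtop : C ≠ ⊤ := by
        intro htop
        have hxc : t ∈ Subgroup.center G := by
          rw [Subgroup.mem_center_iff]
          intro g
          exact Subgroup.mem_centralizer_singleton_iff.1 (hC ▸ htop ▸ Subgroup.mem_top g)
        exact (H9.odd_card_iff_forall_orderOf_ne_two _).1 hZ t hxc ht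
      have hm := H9.index_centralizer_le_card_involutions ht
      set m := Nat.card {t : G // orderOf t = 2}
      set n := Nat.card C
      have hnpos : 0 < n := Nat.card_pos
      have h1 : Nat.card G ≤ m * n := C.index_mul_card ▸ Nat.mul_le_mul_right _ hm
      have h2 : Nat.card G * (Nat.card G + m) ≤ (m * n) * (m * n + m) := by gcongr
      have h3 : 2 * H.index * m ^ 2 < (n * (n + 1)) * m ^ 2 := by
        calc _ < _ := h
          _ ≤ _ := h2
          _ = _ := by ring
      have h4 := lt_of_mul_lt_mul_right h3 (Nat.zero_le _)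
      have h5 : H.index < n ^ 2 := by nlinarith
      have hHpos : 0 < Nat.card H := Nat.card_pos
      rcases le_total n (Nat.card H) with hle | hle
      · refine ⟨H, hH, ?_⟩
        rw [← H.index_mul_card, pow_succ]
        exact Nat.mul_lt_mul_of_pos_right (h5.trans_le (by gcongr)) hHpos
      · refine ⟨C, hCtop, ?_⟩
        rw [← H.index_mul_card, pow_succ]
        exact Nat.mul_lt_mul_of_lt_of_le h5 hle hnpos

end Cfsg.Agent.S0232
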