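import Cfsg.Statements.S0234
import Mathlib
import Cfsg.Agent.Lib.Invol.Count
import Cfsg.Agent.S0233
import Cfsg.Agent.S0219

set_option autoImplicit false
open Cfsg

namespace Cfsg.Agent.S0234

theorem card_even_involutions :
    Fintype.card {σ : Equiv.Perm (Fin 5) // σ ≠ 1 ∧ σ * σ = 1 ∧ Equiv.Perm.sign σ = 1} = 15 := by
  decide +kernel

/-- In a finite simple group G of even order greater than 2, the number n of involutions satisfies 3n < |G|. -/
theorem result {G : Type*} [Group G] [Finite G] [IsSimpleGroup G] (heven : Even (Nat.card G)) (hgt : 2 < Nat.card G) : 3 * Nat.card {t : G // orderOf t = 2} < Nat.card G := by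
  have hno2 : ∀ H : Subgroup G, H.index ≠ 2 := fun H hH => by
    have := H9.card_eq_two_of_simple_of_index_two hH
    omega
  have hZ : Subgroup.center G = ⊥ := by
    rcases IsSimpleGroup.eq_bot_or_eq_top_of_normal (Subgroup.center G) inferInstance with hZ | hZ
    · exact hZ
    · exfalso
      obtain ⟨z, hz⟩ := H9.exists_involution_of_even heven
      have hnorm : (Subgroup.zpowers z).Normal := by
        constructor
        intro a ha g
        have : a ∈ Subgroup.center G := hZ ▸ Subgroup.mem_top a
        rw [Subgroup.mem_center_iff.1 this g, mul_inv_cancel_right]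
        exact ha
      have hc := Nat.card_zpowers z
      rcases IsSimpleGroup.eq_bot_or_eq_top_of_normal _ hnorm with h | h
      · rw [h, hz] at hc; simp at hc
      · rw [h, hz, Subgroup.card_top] at hc; omega
  obtain ⟨H, hH, h | h⟩ := Cfsg.Agent.S0233.result heven (by rw [hZ]; simp)
  · exact absurd h (hno2 H)
  by_contra hcon
  push Not at hcon
  set n := Nat.card {t : G // orderOf t = 2} with hn
  have h2 : Nat.card G * (Nat.card G + n) ≤ (3 * n) * (3 * n + n) := by gcongr
  have h3 : 2 * H.index * n ^ 2 < 12 * n ^ 2 := by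
    calc _ < _ := h
      _ ≤ _ := h2
      _ = _ := by ring
  have h4 : H.index ≤ 5 := by
    have := lt_of_mul_lt_mul_right h3 (Nat.zero_le _)
    omega
  have : Fintype (G ⧸ H) := Fintype.ofFinite _
  obtain ⟨ι⟩ : Nonempty (G ⧸ H ↪ Fin 5) := Function.Embedding.nonempty_of_card_le (by
    rw [← Nat.card_eq_fintype_card, Fintype.card_fin]; exact h4)
  let φ : G →* Equiv.Perm (Fin 5) :=
    (Equiv.Perm.viaEmbeddingHom ι).comp (MulAction.toPermHom G (G ⧸ H))
  have hφ : Function.Injective φ :=
    (Equiv.Perm.viaEmbeddingHom_injective ι).comp (H9.toPermHom_injective_of_simple hH)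
  have hsign : ∀ g, φ g ∈ alternatingGroup (Fin 5) := by
    by_contra hc
    push Not at hc
    obtain ⟨g, hg⟩ := hc
    apply hno2 ((alternatingGroup (Fin 5)).comap φ)
    have h1 : ((alternatingGroup (Fin 5)).comap φ).index ∣ 2 := by
      rw [← alternatingGroup.index_eq_two (α := Fin 5), Subgroup.index_comap]
      exact Subgroup.relIndex_dvd_index_of_normal _ _
    rcases (Nat.dvd_prime Nat.prime_two).1 h1 with h1 | h1
    · rw [Subgroup.index_eq_one] at h1
      exact absurd (show g ∈ (alternatingGroup (Fin 5)).comap φ from h1 ▸ Subgroup.mem_top g) hg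
    · exact h1
  have hn15 : n ≤ 15 := by
    rw [← card_even_involutions, ← Nat.card_eq_fintype_card]
    refine Nat.card_le_card_of_injective (fun t => ⟨φ t.1, ?_, ?_, hsign _⟩) ?_
    · exact fun h => H9.ne_one_of_orderOf_two t.2 (hφ (h.trans φ.map_one.symm))
    · rw [← map_mul, H9.mul_self_of_orderOf_two t.2, map_one]
    · intro a b hab
      exact Subtype.ext (hφ (congrArg Subtype.val hab))
  have h60 : Nat.card G ∣ 60 := by
    have := Subgroup.card_dvd_of_injective (φ.codRestrict _ hsign)
      ((MonoidHom.injective_codRestrict _ _ _).2 hφ)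
    rwa [nat_card_alternatingGroup, Nat.card_fin] at this
  obtain ⟨T⟩ : Nonempty (Sylow 2 G) := inferInstance
  have hT := T.card_eq_multiplicity
  have hTi := (T : Subgroup G).index_mul_card
  have hcyc : Nat.card T ≠ 2 := fun hT2 => by
    obtain ⟨K, hK⟩ := Cfsg.Agent.S0219.result heven T (isCyclic_of_prime_card hT2)
    exact hno2 K hK
  have hmem : Nat.card G ∈ Nat.divisors 60 := Nat.mem_divisors.2 ⟨h60, by norm_num⟩
  have hdiv : Nat.divisors 60 = {1, 2, 3, 4, 5, 6, 10, 12, 15, 20, 30, 60} := by decide +kernel
  rw [hdiv] at hmem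
  simp only [Finset.mem_insert, Finset.mem_singleton] at hmem
  obtain ⟨m, hm⟩ := heven
  have hcases : Nat.card G = 4 ∨ Nat.card G = 12 ∨ Nat.card G = 20 ∨ Nat.card G = 6 ∨
      Nat.card G = 10 ∨ Nat.card G = 30 := by omega
  rcases hcases with hc | hc | hc | hc | hc | hc
  · obtain ⟨K, hK⟩ := Sylow.exists_subgroup_card_pow_prime (G := G) 2 (n := 1) (by rw [hc]; norm_num)
    have := K.index_mul_card
    rw [hK, hc] at this
    exact hno2 K (by omega)
  · obtain ⟨K, hK⟩ := Sylow.exists_subgroup_card_pow_prime (G := G) 2 (n := 2) (by rw [hc]; norm_num)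
    have := K.index_mul_card
    rw [hK, hc] at this
    have h3 : K.index = 3 := by omega
    have := H9.card_dvd_factorial_index_of_simple (H := K) (by rintro rfl; simp at h3)
    rw [hc, h3] at this
    norm_num [Nat.factorial] at this
  · have : Fact (Nat.Prime 5) := ⟨by norm_num⟩
    obtain ⟨K, hK⟩ := Sylow.exists_subgroup_card_pow_prime (G := G) 5 (n := 1) (by rw [hc]; norm_num)
    have := K.index_mul_card
    rw [hK, hc] at this
    have h3 : K.index = 4 := by omega
    have := H9.card_dvd_factorial_index_of_simple (H := K) (by rintro rfl; simp at h3)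
    rw [hc, h3] at this
    norm_num [Nat.factorial] at this
  all_goals
    apply hcyc
    rw [hT, hc]
    decide +kernel

end Cfsg.Agent.S0234
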