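import Cfsg.Statements.S0235
import Mathlib
import Cfsg.Agent.Lib.Invol.Dihedral

set_option autoImplicit false
open Cfsg

namespace Cfsg.Agent.S0235

/-- If x² ≠ 1, the ordered pairs (u, v) of involutions with uv = x correspond bijectively to the involutions t with t x t⁻¹ = x⁻¹ (via (u, v) ↦ u), so the two counts agree. -/
theorem result {G : Type*} [Group G] [Finite G] (x : G) (hx : x ^ 2 ≠ 1) : Nat.card {p : G × G // orderOf p.1 = 2 ∧ orderOf p.2 = 2 ∧ p.1 * p.2 = x} = Nat.card {t : G // orderOf t = 2 ∧ t * x * t⁻¹ = x⁻¹} := by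
  refine Nat.card_congr
    { toFun := fun p => ⟨p.1.1, p.2.1, ?_⟩
      invFun := fun t => ⟨(t.1, t.1 * x), t.2.1, ?_, ?_⟩
      left_inv := ?_
      right_inv := fun t => rfl }
  · obtain ⟨⟨u, v⟩, hu, hv, rfl⟩ := p
    exact H9.left_inverts (H9.mul_self_of_orderOf_two hu) (H9.mul_self_of_orderOf_two hv)
  · obtain ⟨t, ht, h⟩ := t
    have ht' := H9.inv_eq_of_orderOf_two ht
    apply H9.orderOf_eq_two_of_mul_self
    · intro h1
      apply hx
      have h1 : t * x = 1 := h1
      rw [eq_inv_of_mul_eq_one_right h1, ht', pow_two, H9.mul_self_of_orderOf_two ht]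
    · change t * x * (t * x) = 1
      rw [ht'] at h
      rw [← mul_assoc, h, inv_mul_cancel]
  · change t.1 * (t.1 * x) = x
    rw [← mul_assoc, H9.mul_self_of_orderOf_two t.2.1, one_mul]
  · rintro ⟨⟨u, v⟩, hu, hv, rfl⟩
    apply Subtype.ext
    change (u, u * (u * v)) = (u, v)
    rw [← mul_assoc, H9.mul_self_of_orderOf_two hu, one_mul]

end Cfsg.Agent.S0235
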