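import Cfsg.Statements.S0239
import Mathlib
import Cfsg.Agent.Lib.Invol.Dihedral

set_option autoImplicit false
open Cfsg

namespace Cfsg.Agent.S0239

/-- If some nontrivial element x of a finite group G is conjugate to x⁻¹, then |G| is even. -/
theorem result {G : Type*} [Group G] [Finite G] (x : G) (hx : x ≠ 1) (hreal : IsConj x x⁻¹) : Even (Nat.card G) := by
  by_contra hodd
  rw [Nat.not_even_iff_odd] at hodd
  obtain ⟨g, hg⟩ := isConj_iff.1 hreal
  obtain ⟨m, hm⟩ := hodd
  have h2 : Commute (g ^ 2) x := by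
    have : g ^ 2 * x * (g ^ 2)⁻¹ = x := by
      calc g ^ 2 * x * (g ^ 2)⁻¹ = g * (g * x * g⁻¹) * g⁻¹ := by rw [pow_two]; group
        _ = g * x⁻¹ * g⁻¹ := by rw [hg]
        _ = (g * x * g⁻¹)⁻¹ := by group
        _ = x := by rw [hg, inv_inv]
    exact mul_inv_eq_iff_eq_mul.1 this
  have h3 : Commute g x := by
    have : g = (g ^ 2) ^ (m + 1) := by
      rw [← pow_mul, show 2 * (m + 1) = (2 * m + 1) + 1 by ring, pow_succ, ← hm,
        pow_card_eq_one', one_mul]
    rw [this]
    exact h2.pow_left _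
  rw [h3.eq, mul_inv_cancel_right] at hg
  have ho := H9.orderOf_eq_two_of_mul_self hx (mul_eq_one_iff_eq_inv.2 hg)
  have := orderOf_dvd_natCard x
  rw [ho, hm] at this
  omega

end Cfsg.Agent.S0239
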