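import Cfsg.Statements.S0240
import Mathlib
import Cfsg.Agent.Lib.Invol.Dihedral

set_option autoImplicit false
open Cfsg

namespace Cfsg.Agent.S0240

/-- Let G be a finite group with n involutions and H a subgroup with |H|·(n+1) > |G|. Then some nontrivial h ∈ H is strongly real in G: an involution t of G satisfies t h t⁻¹ = h⁻¹. -/
theorem result {G : Type*} [Group G] [Finite G] (H : Subgroup G) (hH : Nat.card G < Nat.card H * (Nat.card {t : G // orderOf t = 2} + 1)) : ∃ h : G, h ∈ H ∧ h ≠ 1 ∧ ∃ t : G, orderOf t = 2 ∧ t * h * t⁻¹ = h⁻¹ := by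
  by_contra hcon
  push Not at hcon
  let f : Option {t : G // orderOf t = 2} → G := fun o => match o with
    | none => 1
    | some t => t.1
  have hinj : Function.Injective (fun o => (f o : G ⧸ H)) := by
    rintro (_ | ⟨t, ht⟩) (_ | ⟨s, hs⟩) h
    · rfl
    · have h1 : (1 : G)⁻¹ * s ∈ H := QuotientGroup.eq.1 h
      exact absurd (by rw [H9.inv_eq_of_orderOf_two hs, H9.mul_self_of_orderOf_two hs, one_mul])
        (hcon s (by simpa using h1) (H9.ne_one_of_orderOf_two hs) s hs)
    · have h1 : (1 : G)⁻¹ * t ∈ H := QuotientGroup.eq.1 h.symm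
      exact absurd (by rw [H9.inv_eq_of_orderOf_two ht, H9.mul_self_of_orderOf_two ht, one_mul])
        (hcon t (by simpa using h1) (H9.ne_one_of_orderOf_two ht) t ht)
    · have h1 : t⁻¹ * s ∈ H := QuotientGroup.eq.1 h
      rw [H9.inv_eq_of_orderOf_two ht] at h1
      by_contra hne
      refine hcon _ h1 ?_ t ht (H9.left_inverts (H9.mul_self_of_orderOf_two ht)
        (H9.mul_self_of_orderOf_two hs))
      intro h2
      apply hne
      have : t = s := by rw [eq_inv_of_mul_eq_one_left h2, H9.inv_eq_of_orderOf_two hs]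
      subst this
      rfl
  have h1 := Nat.card_le_card_of_injective _ hinj
  rw [Finite.card_option] at h1
  rw [Subgroup.card_eq_card_quotient_mul_card_subgroup H, mul_comm] at hH
  exact absurd (Nat.mul_le_mul_left _ h1) hH.not_ge

end Cfsg.Agent.S0240
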