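import Cfsg.Statements.S0241
import Mathlib
import Cfsg.Agent.Lib.Invol.Dihedral

set_option autoImplicit false
open Cfsg

namespace Cfsg.Agent.S0241

/-- If x ≠ 1 is conjugate to x⁻¹ in a finite group G and |C_G(x)| is odd, then some involution t satisfies t x t⁻¹ = x⁻¹. -/
theorem result {G : Type*} [Group G] [Finite G] (x : G) (hx : x ≠ 1) (hreal : IsConj x x⁻¹) (hodd : Odd (Nat.card (Subgroup.centralizer ({x} : Set G)))) : ∃ t : G, orderOf t = 2 ∧ t * x * t⁻¹ = x⁻¹ := by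
  obtain ⟨g, hg⟩ := isConj_iff.1 hreal
  obtain ⟨m, hm⟩ := hodd
  have h2 : Commute (g ^ 2) x := by
    have : g ^ 2 * x * (g ^ 2)⁻¹ = x := by
      calc g ^ 2 * x * (g ^ 2)⁻¹ = g * (g * x * g⁻¹) * g⁻¹ := by rw [pow_two]; group
        _ = g * x⁻¹ * g⁻¹ := by rw [hg]
        _ = (g * x * g⁻¹)⁻¹ := by group
        _ = x := by rw [hg, inv_inv]
    exact mul_inv_eq_iff_eq_mul.1 this
  have h3 : (g ^ 2) ^ (2 * m + 1) = 1 := by
    have := pow_card_eq_one' (x := (⟨g ^ 2, Subgroup.mem_centralizer_singleton_iff.2 h2.eq⟩ :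
      Subgroup.centralizer ({x} : Set G)))
    rw [hm] at this
    exact congrArg Subtype.val this
  have h4 : g ^ (2 * m + 1) * x * (g ^ (2 * m + 1))⁻¹ = x⁻¹ := by
    rw [pow_succ', pow_mul, mul_assoc g, (h2.pow_left m).eq, ← hg]
    group
  refine ⟨g ^ (2 * m + 1), H9.orderOf_eq_two_of_mul_self ?_ ?_, h4⟩
  · intro h
    rw [h, one_mul, inv_one, mul_one] at h4
    have ho := H9.orderOf_eq_two_of_mul_self hx (mul_eq_one_iff_eq_inv.2 h4)
    have := Subgroup.orderOf_dvd_natCard (Subgroup.centralizer ({x} : Set G))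
      (Subgroup.mem_centralizer_singleton_iff.2 rfl)
    rw [ho, hm] at this
    omega
  · rw [← pow_two, ← pow_mul, mul_comm, pow_mul, h3]

end Cfsg.Agent.S0241
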