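import Mathlib
import Cfsg.Statements.S0250
import Cfsg.Agent.Lib.GL.ProjLine
-- import your own Cfsg.Agent.* helpers here

set_option autoImplicit false
open Cfsg

namespace Cfsg.Agent.S0250

/-- SL_2(2) is isomorphic to S_3. -/
theorem result {F : Type*} [Field F] [Fintype F] (hF : Fintype.card F = 2) : Nonempty (Matrix.SpecialLinearGroup (Fin 2) F ≃* Equiv.Perm (Fin 3)) := by
  have hq : Nat.card F = 2 := by rw [Nat.card_eq_fintype_card, hF]
  have hP : Nat.card (Projectivization F (Fin 2 → F)) = 3 := by rw [H10.card_projLine, hq]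
  let e : Projectivization F (Fin 2 → F) ≃ Fin 3 := Finite.equivFinOfCardEq hP
  let φ := e.permCongrHom.toMonoidHom.comp
    (MulAction.toPermHom (Matrix.SpecialLinearGroup (Fin 2) F) (Projectivization F (Fin 2 → F)))
  refine H10.nonempty_mulEquiv_of_injective φ (e.permCongrHom.injective.comp ?_) ?_
  · rw [← MonoidHom.ker_eq_bot_iff, Projectivization.SL_mulAction_ker, ← Subgroup.card_eq_one,
      H10.card_center_SL, hq]
    simp
  · rw [H10.card_SL_two, hq, Nat.card_perm]
    simp [Nat.factorial]

end Cfsg.Agent.S0250
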