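import Mathlib
import Cfsg.Statements.S0267
import Cfsg.Agent.Lib.GL.ProjLine
-- import your own Cfsg.Agent.* helpers here

set_option autoImplicit false
open Cfsg

namespace Cfsg.Agent.S0267

/-- SL_2(q) is 3-transitive on the q+1 points of the projective line if and only if q is even. -/
theorem result {F : Type*} [Field F] [Fintype F] : MulAction.IsMultiplyPretransitive (Matrix.SpecialLinearGroup (Fin 2) F) (Projectivization F (Fin 2 → F)) 3 ↔ ringChar F = 2 := by
  rw [H10.SL_two_isMultiplyPretransitive_iff]
  refine ⟨fun h => ?_, fun h a => FiniteField.isSquare_of_char_two h a⟩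
  by_contra h2
  obtain ⟨a, ha⟩ := FiniteField.exists_nonsquare h2
  exact ha (h a)

end Cfsg.Agent.S0267
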