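import Cfsg.Statements.S0275
import Mathlib
import Cfsg.Agent.Lib.SL2.Trace
import Cfsg.Agent.S0274
import Cfsg.Agent.S0261
import Cfsg.Agent.S0016

set_option autoImplicit false
open Cfsg

namespace Cfsg.Agent.S0275

/-- If p is odd and H is a subgroup of SL_2(q), q a power of p, with more than one Sylow p-subgroup, then the Sylow 2-subgroups of H are generalised quaternion. -/
theorem result {F : Type*} [Field F] [Fintype F] (p : ℕ) [Fact p.Prime] [CharP F p] (hp : p ≠ 2) (H : Subgroup (Matrix.SpecialLinearGroup (Fin 2) F)) (hH : 1 < Nat.card (Sylow p H)) (S : Sylow 2 H) : ∃ k : ℕ, 1 ≤ k ∧ Nonempty ((S : Subgroup H) ≃* QuaternionGroup (2 ^ k)) := by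
  have := Fact.mk Nat.prime_two
  have hpp : p.Prime := Fact.out
  have h2 : (2 : F) ≠ 0 := by
    intro h
    have h' : ((2 : ℕ) : F) = 0 := by exact_mod_cast h
    rw [CharP.cast_eq_zero_iff F p] at h'
    exact hp ((Nat.prime_dvd_prime_iff_eq hpp Nat.prime_two).1 h')
  obtain ⟨K, hK, ⟨e⟩⟩ := Cfsg.Agent.S0274.result p hp H hH
  obtain ⟨P⟩ : Nonempty (Sylow 2 (Matrix.SpecialLinearGroup (Fin 2) (ZMod p))) := inferInstance
  obtain ⟨k, hk, ⟨e'⟩⟩ := Cfsg.Agent.S0261.result (F := ZMod p)
    (by rw [ZMod.card]; exact hpp.odd_of_ne_two hp) P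
  have hnc : ¬ IsCyclic (S : Subgroup H) := by
    intro hc
    let f : P →* H := (Subgroup.inclusion hK).comp (e.symm.toMonoidHom.comp P.toSubgroup.subtype)
    have hf : Function.Injective f := (Subgroup.inclusion_injective hK).comp
      (e.symm.injective.comp P.toSubgroup.subtype_injective)
    have hr : IsPGroup 2 f.range := P.isPGroup'.of_surjective _ f.rangeRestrict_surjective
    obtain ⟨T, hT⟩ := hr.exists_le_sylow
    have hTc : IsCyclic (T : Subgroup H) := isCyclic_of_surjective _ (S.equiv T).surjective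
    have h1 : IsCyclic f.range := Subgroup.isCyclic_of_le hT
    have h3 : IsCyclic (QuaternionGroup (2 ^ k)) :=
      isCyclic_of_surjective _ ((MonoidHom.ofInjective hf).symm.trans e').surjective
    have h4 := (IsCyclic.isMulCommutative (α := QuaternionGroup (2 ^ k))).is_comm.comm
      (QuaternionGroup.a 1) (QuaternionGroup.xa 0)
    simp only [QuaternionGroup.a_mul_xa, zero_sub, QuaternionGroup.xa_mul_a, zero_add,
      QuaternionGroup.xa.injEq] at h4
    have h5 : ((2 : ℕ) : ZMod (2 * 2 ^ k)) = 0 := by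
      push_cast; linear_combination -h4
    rw [ZMod.natCast_eq_zero_iff] at h5
    have h6 := Nat.le_of_dvd two_pos h5
    have h7 : 2 ^ 1 ≤ 2 ^ k := Nat.pow_le_pow_right two_pos hk
    omega
  have hinv : ∀ A : Subgroup (S : Subgroup H), Nat.card A = 2 → ∀ x : (S : Subgroup H),
      x ∈ A ↔ x = 1 ∨ (x.1.1 : Matrix.SpecialLinearGroup (Fin 2) F) = -1 := by
    have key : ∀ x : (S : Subgroup H), x ^ 2 = 1 → x ≠ 1 →
        (x.1.1 : Matrix.SpecialLinearGroup (Fin 2) F) = -1 := by
      intro x hx hx1
      have hx' : (x.1.1 : Matrix.SpecialLinearGroup (Fin 2) F) ^ 2 = 1 :=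
        congrArg (fun y => y.1.1) hx
      have hne : (x.1.1 : Matrix.SpecialLinearGroup (Fin 2) F) ≠ 1 :=
        fun h => hx1 (Subtype.ext (Subtype.ext h))
      have h3 : ((x.1.1 : Matrix.SpecialLinearGroup (Fin 2) F) :
          Matrix.ProjectiveSpecialLinearGroup (Fin 2) F) ^ 2 = 1 := by
        rw [← QuotientGroup.mk_pow, hx', QuotientGroup.mk_one]
      rcases H29.psl_sq_eq_one_iff.1 h3 with h4 | h4
      · exfalso
        have h5 := H29.sl_sq x.1.1
        rw [← H29.sl_val_pow, hx', h4, zero_smul, zero_sub] at h5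
        exact H29.neg_one_ne_one_sl h2 (Subtype.ext h5.symm)
      · exact (H29.psl_mk_eq_one_iff'.1 h4).resolve_left hne
    intro A hA x
    constructor
    · intro hx
      by_cases hx1 : x = 1
      · exact Or.inl hx1
      · refine Or.inr (key x ?_ hx1)
        have := pow_card_eq_one' (x := (⟨x, hx⟩ : A))
        rw [hA] at this
        exact congrArg Subtype.val this
    · rintro (rfl | hx)
      · exact A.one_mem
      · have hnt : Nontrivial A := Finite.one_lt_card_iff_nontrivial.1 (by omega)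
        obtain ⟨y, hy⟩ := exists_ne (1 : A)
        have h1 := pow_card_eq_one' (x := y)
        rw [hA] at h1
        have h3 := key y.1 (congrArg Subtype.val h1) (fun h => hy (Subtype.ext h))
        have : x = y.1 := Subtype.ext (Subtype.ext (hx.trans h3.symm))
        rw [this]; exact y.2
  rcases Cfsg.Agent.S0016.result 2 S.isPGroup' (fun A B hA hB => by
    ext x; rw [hinv A hA, hinv B hB]) with h | ⟨-, n, ⟨e''⟩⟩
  · exact absurd h hnc
  · refine ⟨n, ?_, ⟨e''⟩⟩
    rcases Nat.eq_zero_or_pos n with rfl | h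
    · exfalso
      have : IsCyclic (QuaternionGroup (2 ^ 0)) := QuaternionGroup.quaternionGroup_one_isCyclic
      exact hnc (isCyclic_of_surjective _ e''.symm.surjective)
    · exact h

end Cfsg.Agent.S0275
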