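import Mathlib
import Cfsg.Statements.S0300
import Cfsg.Agent.Lib.Orth12.LowRank3

set_option autoImplicit false
open Cfsg

namespace Cfsg.Agent.S0300

/-- PΩ^-_4(q) is isomorphic to PSL_2(q^2). -/
theorem result {F K : Type*} [Field F] [Fintype F] [Field K] [Fintype K] {q : ℕ} (hF : Fintype.card F = q) (hK : Fintype.card K = q ^ 2) (a b : F) (hab : ∀ z₁ z₂ : F, z₁ ^ 2 + a * z₁ * z₂ + b * z₂ ^ 2 = 0 → z₁ = 0 ∧ z₂ = 0) : Nonempty (Cfsg.POmega F (Cfsg.quadFormMinus 1 F a b) ≃* Matrix.ProjectiveSpecialLinearGroup (Fin 2) K) := by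
  have : H11.U.IsSq K q := ⟨hK⟩
  obtain ⟨e⟩ := H12.nonempty_POm_four_minus (K := K) hF hab
  exact ⟨(H12.pcommCongr (H12.minusIso 1 a b)).trans e⟩

end Cfsg.Agent.S0300
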