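import Mathlib
import Cfsg.Statements.S0305
import Cfsg.Agent.Lib.Orth12.Forms

set_option autoImplicit false
open Cfsg

namespace Cfsg.Agent.S0305

/-- GO^+_2(q) is dihedral of order 2(q-1). -/
theorem result {F : Type*} [Field F] [Fintype F] {q : ℕ} (hF : Fintype.card F = q) : Nonempty (Cfsg.isometryGroup F (Cfsg.quadFormPlus 1 F) ≃* DihedralGroup (q - 1)) := by
  have hq : Nat.card F = q := by rw [Nat.card_eq_fintype_card, hF]
  obtain ⟨e⟩ := H12.dihedral_hyp (Q := H12.hypN 0 (0 : QuadraticForm F (Fin 0 → F)))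
  rw [hq] at e
  exact ⟨(H12.plusIso F 1).trans ((H12.congrO (H12.plusEquiv F 1) (H12.hypN_plusEquiv 1)).trans
    ((H12.congrO (H12.hypSucc F _ 0) (H12.hyp_hypSucc 0)).trans e))⟩

end Cfsg.Agent.S0305
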