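import Cfsg.Statements.S0310
import Cfsg.Agent.Lib.BN.Parabolic

set_option autoImplicit false
open Cfsg

namespace Cfsg.Agent.S0310

/-- For a set `J` of distinguished generators, the subgroup generated by `B` and `J` is exactly the union of
the double cosets `B n B` with `n` in the subgroup generated by `J` (so `B W_J B` is a subgroup). -/
theorem result {G : Type*} [Group G] (P : Cfsg.BNPair G) {J : Set G}
    (hJ : J ⊆ P.S) (g : G) :
    g ∈ P.parabolic J ↔ ∃ n ∈ Subgroup.closure J, g ∈ DoubleCoset.doubleCoset n (P.B : Set G) P.B := by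
  constructor
  · intro hg
    rw [← H13.BN.image_preimage_of_subset hJ, H13.BN.parabolic_eq_cellSubgroup] at hg
    obtain ⟨w, hw, hg⟩ := hg
    obtain ⟨l, hl, rfl⟩ := (H13.BN.invGen P).exists_word_of_mem_closure hw
    have h1 : (QuotientGroup.mk (H13.wp (H13.BN.genN P) l) : H13.BN.Weyl P) =
        H13.wp (H13.BN.gen P) l := by
      rw [← QuotientGroup.mk'_apply, H13.map_wp]; rfl
    rw [← h1, H13.BN.cell_mk] at hg
    refine ⟨_, ?_, hg⟩
    have : ((H13.wp (H13.BN.genN P) l : P.N) : G) = H13.wp (fun s : P.S => (s : G)) l :=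
      H13.map_wp _ P.N.subtype l
    rw [this]
    exact H13.wp_mem _ l fun s hs => Subgroup.subset_closure (hl s hs)
  · rintro ⟨n, hn, hg⟩
    obtain ⟨x, hx, y, hy, rfl⟩ := DoubleCoset.mem_doubleCoset.1 hg
    exact mul_mem (mul_mem (H13.BN.B_le_parabolic J hx)
      ((le_sup_right : _ ≤ P.parabolic J) hn)) (H13.BN.B_le_parabolic J hy)

end Cfsg.Agent.S0310
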