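import Cfsg.Statements.S0321
import Cfsg.Agent.Lib.BN.Parabolic

set_option autoImplicit false
open Cfsg

namespace Cfsg.Agent.S0321

/-- For `n ∈ N` not in `B`, the union `B ∪ B n B` is (the underlying set of) a subgroup exactly when `n` agrees
modulo `B ⊓ N` with one of the distinguished representatives; thus the distinguished involutions are
determined by `B` and `N`. -/
theorem result {G : Type*} [Group G] (P : Cfsg.BNPair G) {n : G}
    (hn : n ∈ P.N) (hnB : n ∉ P.B) :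
    (∃ H : Subgroup G, (H : Set G) = (P.B : Set G) ∪ DoubleCoset.doubleCoset n (P.B : Set G) P.B) ↔ ∃ s ∈ P.S, s⁻¹ * n ∈ P.B := by
  rw [← H13.BN.cell_mk P ⟨n, hn⟩]
  constructor
  · rintro ⟨H, hH⟩
    have hB : P.B ≤ H := fun b hb => by
      rw [← SetLike.mem_coe, hH]; exact Or.inl hb
    have hnc := H13.BN.coe_mem_cell P ⟨n, hn⟩
    have hnH : n ∈ H := by
      rw [← SetLike.mem_coe, hH]; exact Or.inr hnc
    obtain ⟨l, hl, hw⟩ := (H13.BN.invGen P).exists_red (QuotientGroup.mk ⟨n, hn⟩)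
    rcases l with _ | ⟨s, l⟩
    · exact absurd ((H13.BN.mk_eq_one_iff P).1 hw.symm) hnB
    · have hs : (s : G) ∈ H := H13.BN.letters_mem hB _ hl (hw ▸ hnc) hnH s (by simp)
      rw [← SetLike.mem_coe, hH] at hs
      refine ⟨s, s.2, ?_⟩
      exact (H13.BN.mk_eq_mk_iff P (n := H13.BN.genN P s) (n' := ⟨n, hn⟩)).1
        (H13.BN.eq_of_mem_cell (H13.BN.coe_mem_cell_gen P s)
          (hs.resolve_left (H13.BN.gen_not_mem s)))
  · rintro ⟨s, hs, h⟩
    have h1 : H13.BN.gen P ⟨s, hs⟩ = QuotientGroup.mk ⟨n, hn⟩ :=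
      (H13.BN.mk_eq_mk_iff P (n := H13.BN.genN P ⟨s, hs⟩) (n' := ⟨n, hn⟩)).2 h
    rw [← h1]
    refine ⟨⟨⟨⟨(P.B : Set G) ∪ H13.BN.cell P (H13.BN.gen P ⟨s, hs⟩), ?_⟩, Or.inl (one_mem _)⟩, ?_⟩,
      rfl⟩
    · rintro x y (hx | hx) (hy | hy)
      · exact Or.inl (mul_mem hx hy)
      · exact Or.inr (H13.BN.mul_mem_cell hx hy)
      · exact Or.inr (H13.BN.cell_mul_mem hx hy)
      · have := H13.BN.gen_mul_mem hx hy
        rwa [(H13.BN.invGen P).sq, H13.BN.mem_cell_one] at this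
    · rintro x (hx | hx)
      · exact Or.inl (inv_mem hx)
      · exact Or.inr (H13.BN.inv_mem_cell_gen hx)

end Cfsg.Agent.S0321
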