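import Cfsg.Statements.S0322
import Cfsg.Agent.Lib.BN.Parabolic

set_option autoImplicit false
open Cfsg

namespace Cfsg.Agent.S0322

/-- A group with a (B,N)-pair of rank one acts doubly transitively on the left cosets of `B`. -/
theorem result {G : Type*} [Group G] (P : Cfsg.BNPair G) (h : P.rank = 1) : MulAction.IsMultiplyPretransitive G (G ⧸ P.B) 2 := by
  obtain ⟨s, hs⟩ := Nat.card_eq_one_iff_exists.1 h
  have hW : ∀ w : H13.BN.Weyl P, w = 1 ∨ w = H13.BN.gen P s := by
    intro w
    obtain ⟨l, rfl⟩ := (H13.BN.invGen P).wp_surjective w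
    induction l with
    | nil => exact Or.inl rfl
    | cons a l ih =>
      rw [H13.wp_cons, hs a]
      rcases ih with ih | ih
      · right; rw [ih, mul_one]
      · left; rw [ih, (H13.BN.invGen P).sq]
  have key : ∀ g : G, g ∉ P.B → g ∈ H13.BN.cell P (H13.BN.gen P s) := by
    intro g hg
    obtain ⟨w, hw⟩ := H13.BN.exists_mem_cell (P := P) g
    rcases hW w with rfl | rfl
    · exact absurd ((H13.BN.mem_cell_one P).1 hw) hg
    · exact hw
  rw [MulAction.is_two_pretransitive_iff]
  intro a b c d hab hcd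
  obtain ⟨a, rfl⟩ := QuotientGroup.mk_surjective a
  obtain ⟨b, rfl⟩ := QuotientGroup.mk_surjective b
  obtain ⟨c, rfl⟩ := QuotientGroup.mk_surjective c
  obtain ⟨d, rfl⟩ := QuotientGroup.mk_surjective d
  rw [ne_eq, QuotientGroup.eq] at hab hcd
  obtain ⟨x, hx, y, hy, e⟩ := H13.BN.exists_eq_of_mem_cell (key _ hab) (key _ hcd)
  refine ⟨c * x * a⁻¹, ?_, ?_⟩
  · rw [MulAction.Quotient.smul_mk, QuotientGroup.eq]
    simpa using hx
  · rw [MulAction.Quotient.smul_mk, QuotientGroup.eq]
    have : d = c * (x * (a⁻¹ * b) * y) := by rw [← e]; group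
    rw [this]
    simpa [mul_assoc] using hy

end Cfsg.Agent.S0322
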