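import Cfsg.Statements.S0323
import Mathlib

set_option autoImplicit false
open scoped Pointwise
open Cfsg

namespace Cfsg.Agent.S0323

/-- A doubly transitive action on a set with at least three points yields a (B,N)-pair of rank one:
`B` is the stabiliser of a point `x`, `N` the setwise stabiliser of a pair `{x, y}`. -/
theorem result {G Ω : Type*} [Group G] [MulAction G Ω]
    (h2 : MulAction.IsMultiplyPretransitive G Ω 2) {x y z : Ω} (hxy : x ≠ y) (hyz : y ≠ z) (hxz : x ≠ z) :
    ∃ P : Cfsg.BNPair G, P.B = MulAction.stabilizer G x ∧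
      P.N = MulAction.stabilizer G ({x, y} : Set Ω) ∧ P.rank = 1 := by
  rw [MulAction.is_two_pretransitive_iff] at h2
  obtain ⟨s, hsx, hsy⟩ := h2 hxy hxy.symm
  have memN : ∀ n : G, n ∈ MulAction.stabilizer G ({x, y} : Set Ω) ↔
      (n • x = x ∧ n • y = y) ∨ (n • x = y ∧ n • y = x) := by
    intro n
    rw [MulAction.mem_stabilizer_iff, Set.smul_set_insert, Set.smul_set_singleton,
      Set.pair_eq_pair_iff]
  have hsN : s ∈ MulAction.stabilizer G ({x, y} : Set Ω) := (memN s).2 (Or.inr ⟨hsx, hsy⟩)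
  have big : ∀ g g' : G, g • x ≠ x → g' • x ≠ x → g' ∈ DoubleCoset.doubleCoset g
      (MulAction.stabilizer G x : Set G) (MulAction.stabilizer G x) := by
    intro g g' hg hg'
    obtain ⟨b, hb1, hb2⟩ := h2 hg.symm hg'.symm
    refine DoubleCoset.mem_doubleCoset.2 ⟨b, hb1, (b * g)⁻¹ * g', ?_, by group⟩
    rw [SetLike.mem_coe, MulAction.mem_stabilizer_iff, mul_smul, ← hb2, inv_smul_eq_iff, mul_smul]
  refine ⟨⟨MulAction.stabilizer G x, MulAction.stabilizer G ({x, y} : Set Ω), {s}, ?_, ?_, ?_, ?_,
    ?_, ?_, ?_, ?_⟩, rfl, rfl, ?_⟩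
  · rw [eq_top_iff]
    intro g _
    by_cases hg : g • x = x
    · exact (le_sup_left : MulAction.stabilizer G x ≤ _) hg
    · obtain ⟨a, ha, b, hb, rfl⟩ := DoubleCoset.mem_doubleCoset.1
        (big s g (by rw [hsx]; exact hxy.symm) hg)
      exact mul_mem (mul_mem ((le_sup_left : MulAction.stabilizer G x ≤ _) ha)
        ((le_sup_right : MulAction.stabilizer G ({x, y} : Set Ω) ≤ _) hsN))
        ((le_sup_left : MulAction.stabilizer G x ≤ _) hb)
  · rintro n hn t ⟨ht1, ht2⟩
    have ht1' : t • x = x := ht1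
    have hty : t • y = y := by
      rcases (memN t).1 ht2 with h | h
      · exact h.2
      · exact absurd (ht1'.symm.trans h.1) hxy
    rw [MulAction.mem_stabilizer_iff, mul_smul, mul_smul]
    rcases (memN n).1 hn with h | h
    · rw [inv_smul_eq_iff.2 h.1.symm, ht1', h.1]
    · rw [inv_smul_eq_iff.2 h.2.symm, hty, h.2]
  · rintro _ rfl
    exact hsN
  · rintro _ rfl
    rw [MulAction.mem_stabilizer_iff, mul_smul, hsx, hsy]
  · rintro _ rfl _ rfl _
    rfl
  · apply le_antisymm
    · exact sup_le ((Subgroup.closure_le _).2 (by rintro _ rfl; exact hsN)) inf_le_right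
    · intro n hn
      rcases (memN n).1 hn with h | h
      · exact (le_sup_right : _ ≤ Subgroup.closure {s} ⊔ _) ⟨h.1, hn⟩
      · have : n = s * (s⁻¹ * n) := by group
        rw [this]
        refine mul_mem ((le_sup_left : Subgroup.closure {s} ≤ _) (Subgroup.subset_closure rfl))
          ((le_sup_right : _ ≤ Subgroup.closure {s} ⊔ _)
            (Subgroup.mem_inf.2 ⟨?_, mul_mem (inv_mem hsN) hn⟩))
        rw [MulAction.mem_stabilizer_iff, mul_smul, h.1, inv_smul_eq_iff, hsx]
  · rintro s' hs' n hn b hb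
    rw [Set.mem_singleton_iff.1 hs']
    rcases (memN n).1 hn with h | h
    · left
      exact DoubleCoset.mem_doubleCoset.2 ⟨1, one_mem _, n⁻¹ * b * n,
        mul_mem (mul_mem (inv_mem (show n ∈ MulAction.stabilizer G x from h.1)) hb)
          (show n ∈ MulAction.stabilizer G x from h.1), by group⟩
    · by_cases h' : (s * b * n) • x = x
      · left
        have h3 : s * n ∈ MulAction.stabilizer G x := by
          rw [MulAction.mem_stabilizer_iff, mul_smul, h.1, hsy]
        exact DoubleCoset.mem_doubleCoset.2 ⟨s * b * n * (s * n)⁻¹,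
          mul_mem (show s * b * n ∈ MulAction.stabilizer G x from h') (inv_mem h3), 1, one_mem _,
          by group⟩
      · right
        exact big _ _ (by rw [h.1]; exact hxy.symm) h'
  · rintro s' hs' h
    rw [Set.mem_singleton_iff.1 hs'] at h
    obtain ⟨b, hb1, hb2⟩ := h2 hxy hxz
    have : s * b * s ∈ (MulAction.stabilizer G x : Set G) := h ▸ ⟨b, hb1, rfl⟩
    rw [SetLike.mem_coe, MulAction.mem_stabilizer_iff, mul_smul, mul_smul, hsx, hb2] at this
    exact hyz (smul_left_cancel s (hsy.trans this.symm))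
  · simp [Cfsg.BNPair.rank]

end Cfsg.Agent.S0323
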