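import Cfsg.Statements.S0326


set_option autoImplicit false
open Cfsg

namespace Cfsg.Agent.S0326

/-- The Suzuki–Tits ovoid over a finite field with `q` elements has `q² + 1` points. -/
theorem result {F : Type*} [Field F] [Fintype F] (m : ℕ) :
    Nat.card (Cfsg.suzukiOvoid F m) = Fintype.card F ^ 2 + 1 := by
  have h0 : (![1, 0, 0, 0] : Fin 4 → F) ≠ 0 := by simp
  have h1 : ∀ x y : F,
      (![x * y + x ^ (2 ^ (m + 1) + 2) + y ^ (2 ^ (m + 1)), y, x, 1] : Fin 4 → F) ≠ 0 := by
    intro x y h
    have := congrFun h 3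
    simp at this
  let f : Option (F × F) → Cfsg.suzukiOvoid F m := fun o =>
    o.elim ⟨Projectivization.mk F _ h0, _, h0, rfl, Or.inl rfl⟩
      (fun p => ⟨Projectivization.mk F _ (h1 p.1 p.2), _, h1 p.1 p.2, rfl, Or.inr ⟨p.1, p.2, rfl⟩⟩)
  have hb : Function.Bijective f := by
    constructor
    · rintro (_ | ⟨x, y⟩) (_ | ⟨x', y'⟩) h
      · rfl
      · obtain ⟨c, hc⟩ := (Projectivization.mk_eq_mk_iff' F _ _ _ _).1 (congrArg Subtype.val h).symm
        have := congrFun hc 3
        simp at this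
      · obtain ⟨c, hc⟩ := (Projectivization.mk_eq_mk_iff' F _ _ _ _).1 (congrArg Subtype.val h)
        have := congrFun hc 3
        simp at this
      · obtain ⟨c, hc⟩ := (Projectivization.mk_eq_mk_iff' F _ _ _ _).1 (congrArg Subtype.val h)
        have h3 := congrFun hc 3
        have h2 := congrFun hc 2
        have h1 := congrFun hc 1
        simp at h1 h2 h3
        subst h3
        rw [one_mul] at h1 h2
        rw [h1, h2]
    · rintro ⟨_, v, hv, rfl, rfl | ⟨x, y, rfl⟩⟩
      · exact ⟨none, rfl⟩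
      · exact ⟨some (x, y), rfl⟩
  rw [← Nat.card_eq_of_bijective _ hb, Nat.card_eq_fintype_card, Fintype.card_option,
    Fintype.card_prod, sq]

end Cfsg.Agent.S0326
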