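import Cfsg.Statements.S0327
import Cfsg.Agent.Lib.Suzuki.Structure

set_option autoImplicit false
open Cfsg

namespace Cfsg.Agent.S0327

/-- The Suzuki group (`m ≥ 1`) is a Zassenhaus group on the `q² + 1` points of the Suzuki–Tits ovoid. -/
theorem result {F : Type*} [Field F] [Fintype F] {m : ℕ} (hm : 1 ≤ m)
    (hF : Fintype.card F = 2 ^ (2 * m + 1)) :
    Cfsg.IsZassenhausGroup (Cfsg.Sz F m) (Cfsg.suzukiOvoid F m) := by
  haveI : H14.Sz.SzF F m := ⟨hm, hF⟩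
  let S := H14.Sz.stdModel F m
  refine ⟨S.instFaithfulPt, S.two_trans, fun g a b c hab hbc hac ha hb hc =>
    S.eq_one_of_fix_three hab hbc hac ha hb hc, ?_, ?_⟩
  · obtain ⟨k, hk⟩ := H14.Sz.exists_unit_ne_one F
    exact ⟨S.h k, fun h => hk (S.h_eq_one.1 h), S.inf, S.pt 0 0, S.inf_ne_pt 0 0, S.h_smul_inf k,
      S.h_smul_zero k⟩
  · intro N hN htr
    rcases S.isSimpleGroup.eq_bot_or_eq_top_of_normal N hN with rfl | rfl
    · obtain ⟨⟨g, hg⟩, h⟩ := htr.exists_smul_eq S.inf (S.pt 0 0)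
      rw [Subgroup.mem_bot] at hg
      subst hg
      exact absurd ((one_smul (Cfsg.Sz F m) S.inf).symm.trans h) (S.inf_ne_pt 0 0)
    · refine ⟨S.inf, fun h => ?_⟩
      have h1 : (⟨S.u 0 1, Subgroup.mem_top _⟩ : (⊤ : Subgroup (Cfsg.Sz F m))) ∈
          MulAction.stabilizer (⊤ : Subgroup (Cfsg.Sz F m))
            (show Cfsg.suzukiOvoid F m from S.inf) := S.u_smul_inf 0 1
      rw [h, Subgroup.mem_bot] at h1
      exact one_ne_zero (S.u_eq_one.1 (congrArg Subtype.val h1)).2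

end Cfsg.Agent.S0327
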