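import Cfsg.Statements.S0328
import Cfsg.Agent.Lib.Suzuki.Model

set_option autoImplicit false
open Cfsg

namespace Cfsg.Agent.S0328

/-- The stabiliser in the Suzuki group of the two ovoid points spanned by `(1,0,0,0)` and `(0,0,0,1)` is
isomorphic to the multiplicative group of the field (cyclic of order `q - 1`). -/
theorem result {F : Type*} [Field F] [Fintype F] {m : ℕ} (hm : 1 ≤ m)
    (hF : Fintype.card F = 2 ^ (2 * m + 1)) :
    Nonempty (↥(MulAction.stabilizer (Cfsg.Sz F m) (Cfsg.suzukiPointInfinity F) ⊓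
        MulAction.stabilizer (Cfsg.Sz F m) (Cfsg.suzukiPointZero F)) ≃* Fˣ) := by
  haveI : H14.Sz.SzF F m := ⟨hm, hF⟩
  have h1 : MulAction.stabilizer (Cfsg.Sz F m) (Cfsg.suzukiPointInfinity F) ⊓
      MulAction.stabilizer (Cfsg.Sz F m) (Cfsg.suzukiPointZero F) = (H14.Sz.stdModel F m).H := by
    have h0 : Cfsg.suzukiPointZero F = ((H14.Sz.stdModel F m).pt 0 0).1 := by
      show Projectivization.mk F _ _ = Projectivization.mk F (H14.Sz.vec 0 0) _
      congr 1
      rw [H14.Sz.vec, H14.Sz.nrm_zero_zero]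
    ext g
    rw [H14.Sz.Model.mem_H_iff, h0]
    exact and_congr ⟨fun h => Subtype.ext h, fun h => congrArg Subtype.val h⟩
      ⟨fun h => Subtype.ext h, fun h => congrArg Subtype.val h⟩
  rw [h1]
  exact ⟨(H14.Sz.stdModel F m).hEquiv.symm⟩

end Cfsg.Agent.S0328
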