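import Cfsg.Statements.S0332
import Cfsg.Agent.Lib.Suzuki.Tori

set_option autoImplicit false
open Cfsg

namespace Cfsg.Agent.S0332

/-- The Suzuki group is a CN-group: every non-identity element has nilpotent centraliser. -/
theorem result {F : Type*} [Field F] [Fintype F] {m : ℕ} (hm : 1 ≤ m)
    (hF : Fintype.card F = 2 ^ (2 * m + 1)) : Cfsg.IsCNGroup (Cfsg.Sz F m) := by
  haveI : H14.Sz.SzF F m := ⟨hm, hF⟩
  let S := H14.Sz.stdModel F m
  intro g hg
  rcases S.trichotomy g with ⟨x, hx⟩ | ⟨x, hx⟩ | h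
  · haveI := (S.conj x).isNilpotent_U
    have hle := (S.conj x).centralizer_le_U hx hg
    exact Group.nilpotent_of_mulEquiv (Subgroup.subgroupOfEquivOfLe hle)
  · rw [(S.conj x).centralizer_eq_H hx hg]
    letI := IsCyclic.commGroup (α := (S.conj x).H)
    exact CommGroup.isNilpotent
  · haveI := (H14.Sz.Model.Free.isTorus h).isCyclic
    letI := IsCyclic.commGroup (α := Subgroup.centralizer ({g} : Set (Cfsg.Sz F m)))
    exact CommGroup.isNilpotent

end Cfsg.Agent.S0332
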