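import Cfsg.Statements.S0335
import Cfsg.Agent.Lib.Suzuki.Model

set_option autoImplicit false
open Cfsg

namespace Cfsg.Agent.S0335

/-- The Suzuki–Tits point set is an ovoid: any three distinct points of it are projectively independent
(no line of projective 3-space meets it in more than two points). -/
theorem result {F : Type*} [Field F] [Fintype F] {m : ℕ} (hm : 1 ≤ m)
    (hF : Fintype.card F = 2 ^ (2 * m + 1)) (p : Fin 3 ↪ Cfsg.suzukiOvoid F m) :
    Projectivization.Independent (fun i => (p i : Projectivization F (Fin 4 → F))) := by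
  haveI : H14.Sz.SzF F m := ⟨hm, hF⟩
  let S := H14.Sz.stdModel F m
  have h01 : p 0 ≠ p 1 := p.injective.ne (by decide)
  obtain ⟨g, h0, h1⟩ := S.exists_smul_pair h01
  have h2 : g⁻¹ • (show S.Pt from p 2) ≠ S.inf := fun e =>
    p.injective.ne (show (0 : Fin 3) ≠ 2 by decide) (h0.symm.trans (by rw [← e, smul_inv_smul]))
  obtain ⟨x, y, hxy⟩ := S.exists_pt_of_ne h2
  have h3 : g • S.pt x y = p 2 := by rw [← hxy, smul_inv_smul]
  have hn : H14.Sz.nrm x y ≠ 0 := H14.Sz.nrm_ne_zero (by
    rintro ⟨rfl, rfl⟩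
    exact p.injective.ne (show (1 : Fin 3) ≠ 2 by decide) (h1.symm.trans h3))
  have hxy0 : ¬ (x = 0 ∧ y = 0) := by
    rintro ⟨rfl, rfl⟩; exact hn H14.Sz.nrm_zero_zero
  let v : Fin 3 → (Fin 4 → F) := ![![1, 0, 0, 0], H14.Sz.vec 0 0, H14.Sz.vec x y]
  have hv : LinearIndependent F v := by
    rw [Fintype.linearIndependent_iff]
    intro c hc
    have e0 := congrFun hc 0
    have e1 := congrFun hc 1
    have e2 := congrFun hc 2
    have e3 := congrFun hc 3
    simp [v, Fin.sum_univ_three, H14.Sz.vec, H14.Sz.nrm_zero_zero] at e0 e1 e2 e3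
    have c2 : c 2 = 0 := by
      by_contra h
      exact hxy0 ⟨e2.resolve_left h, e1.resolve_left h⟩
    intro i
    fin_cases i
    · simpa [c2] using e0
    · simpa [c2] using e3
    · exact c2
  have hv2 := hv.map' (DistribMulAction.toLinearEquiv F (Fin 4 → F)
    (g : Matrix.SpecialLinearGroup (Fin 4) F)).toLinearMap (LinearEquiv.ker _)
  have := Projectivization.Independent.mk _ hv2.ne_zero hv2
  convert this using 2 with i
  fin_cases i
  · exact (congrArg Subtype.val h0).symm
  · exact (congrArg Subtype.val h1).symm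
  · exact (congrArg Subtype.val h3).symm

end Cfsg.Agent.S0335
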