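import Cfsg.Statements.S0341
import Cfsg.Agent.Lib.Zass.Basic
import Cfsg.Agent.S1545
import Cfsg.Agent.Lib.Core.CoprimeBasic

set_option autoImplicit false
open Cfsg

namespace Cfsg.Agent.S0341

/-- If a finite group acts faithfully and doubly transitively, no non-identity element fixes three points, some
non-identity element fixes two points, and some normal subgroup acts regularly, then the number of points
is `2^p` with `p` prime. -/
theorem result {G Ω : Type*} [Group G]
    [MulAction G Ω] [Fintype Ω] [FaithfulSMul G Ω] (h2 : MulAction.IsMultiplyPretransitive G Ω 2)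
    (h3 : ∀ g : G, ∀ a b c : Ω, a ≠ b → b ≠ c → a ≠ c → g • a = a → g • b = b → g • c = c → g = 1)
    (hfix : ∃ g : G, g ≠ 1 ∧ ∃ a b : Ω, a ≠ b ∧ g • a = a ∧ g • b = b)
    (N : Subgroup G) [N.Normal] (hNt : MulAction.IsPretransitive N Ω)
    (hNr : ∀ a : Ω, MulAction.stabilizer N a = ⊥) :
    ∃ p : ℕ, p.Prime ∧ Fintype.card Ω = 2 ^ p := by
  have h : H13.Zass.Pre G Ω := ⟨inferInstance, h2, h3, hfix⟩
  have := h.finite
  obtain ⟨x₀, hx₀, a, b, hab, hx₀a, hx₀b⟩ := hfix
  have : Nonempty Ω := ⟨a⟩
  obtain ⟨hcomm, p, hp, hpN⟩ := Cfsg.Agent.S0054.result h2 N hNt hNr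
  have hN : N.Normal := inferInstance
  have reg : ∀ x ∈ N, ∀ c : Ω, x • c = c → x = 1 := fun x hx c hxc => by
    have : (⟨x, hx⟩ : N) ∈ MulAction.stabilizer N c := hxc
    rw [hNr c] at this
    exact congrArg Subtype.val (Subgroup.mem_bot.1 this)
  have reg' : ∀ x ∈ N, ∀ y ∈ N, x • a = y • a → x = y := fun x hx y hy e => by
    have := reg (y⁻¹ * x) (mul_mem (inv_mem hy) hx) a (by rw [mul_smul, e, inv_smul_smul])
    exact (inv_mul_eq_one.1 this).symm
  have hcardN : Nat.card N = Fintype.card Ω := by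
    rw [← Nat.card_eq_fintype_card]
    exact Nat.card_eq_of_bijective (fun n : N => (n : G) • a)
      ⟨fun u v e => Subtype.ext (reg' u u.2 v v.2 e), fun c => hNt.exists_smul_eq a c⟩
  -- an element of prime order fixing `a` and `b`
  obtain ⟨r, hr, hrd⟩ := Nat.exists_prime_and_dvd (n := orderOf x₀) (by simpa using hx₀)
  set x := x₀ ^ (orderOf x₀ / r) with hxdef
  have hxr : orderOf x = r := orderOf_pow_orderOf_div (orderOf_pos x₀).ne' hrd
  have hx : x ≠ 1 := by intro e; rw [e, orderOf_one] at hxr; exact hr.one_lt.ne hxr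
  have hxa : x • a = a := pow_mem (show x₀ ∈ MulAction.stabilizer G a from hx₀a) _
  have hxb : x • b = b := pow_mem (show x₀ ∈ MulAction.stabilizer G b from hx₀b) _
  obtain ⟨⟨m, hm⟩, hma⟩ := hNt.exists_smul_eq a b
  have hma : m • a = b := hma
  have hm1 : m ≠ 1 := by rintro rfl; exact hab (by simpa using hma)
  have hxia : x⁻¹ • a = a := inv_smul_eq_iff.2 hxa.symm
  have hC : ∀ y ∈ N, x * y = y * x ↔ y = 1 ∨ y = m := by
    intro y hy
    constructor
    · intro e
      have : x • (y • a) = y • a := by rw [← mul_smul, e, mul_smul, hxa]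
      rcases h.eq_or_eq hx hab hxa hxb this with e' | e'
      · exact Or.inl (reg y hy a e')
      · exact Or.inr (reg' y hy m hm (e'.trans hma.symm))
    · rintro (rfl | rfl)
      · simp
      · have := reg' _ (hN.conj_mem y hy x) y hy (by rw [mul_smul, mul_smul, hxia, hma, hxb])
        exact mul_inv_eq_iff_eq_mul.1 this
  have hm2 : m * m = 1 := by
    have e := (hC m hm).2 (Or.inr rfl)
    rcases (hC (m * m) (mul_mem hm hm)).1 (by rw [← mul_assoc, e, mul_assoc, e, mul_assoc]) with
      e' | e'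
    · exact e'
    · exact absurd (by simpa using e') hm1
  have hp2 : p = 2 := by
    have h1 : orderOf m = 2 := orderOf_eq_prime (by rw [sq, hm2]) hm1
    have h2 := orderOf_dvd_of_pow_eq_one (hpN m hm)
    rw [h1] at h2
    exact ((Nat.prime_dvd_prime_iff_eq Nat.prime_two hp).1 h2).symm
  subst hp2
  have hCcard : Nat.card ↥(N ⊓ Subgroup.centralizer ((Subgroup.zpowers x : Subgroup G) : Set G))
      = 2 := by
    rw [Nat.card_eq_two_iff' (1 : ↥(N ⊓ _))]
    have hmem : ∀ y : G, y ∈ Subgroup.centralizer ((Subgroup.zpowers x : Subgroup G) : Set G) ↔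
        x * y = y * x := by
      intro y
      rw [Subgroup.zpowers_eq_closure, Subgroup.centralizer_closure,
        Subgroup.mem_centralizer_singleton_iff, eq_comm]
    refine ⟨⟨m, hm, (hmem m).2 ((hC m hm).2 (Or.inr rfl))⟩, fun e => hm1 (congrArg Subtype.val e),
      ?_⟩
    rintro ⟨y, hy1, hy2⟩ hy
    exact Subtype.ext (((hC y hy1).1 ((hmem y).1 hy2)).resolve_left
      fun e => hy (Subtype.ext e))
  have hN2 : IsPGroup 2 N := fun y => ⟨1, Subtype.ext (by simpa using hpN y y.2)⟩
  have : Fact (Nat.Prime 2) := ⟨Nat.prime_two⟩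
  obtain ⟨k, hk⟩ := IsPGroup.iff_card.1 hN2
  have h4 := h.four_le_card
  rw [Nat.card_eq_fintype_card] at h4
  rcases hr.eq_two_or_odd' with rfl | hodd
  · -- an involution with two fixed points: the degree is four
    refine ⟨2, Nat.prime_two, ?_⟩
    have hx2 : x * x = 1 := by rw [← sq, ← hxr, pow_orderOf_eq_one]
    have hxi : x⁻¹ = x := inv_eq_of_mul_eq_one_right hx2
    have cN : ∀ y ∈ N, ∀ z ∈ N, y * z = z * y := fun y hy z hz =>
      congrArg Subtype.val (hcomm.is_comm.comm (⟨y, hy⟩ : N) ⟨z, hz⟩)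
    have sN : ∀ y ∈ N, y * y = 1 := fun y hy => by rw [← sq]; exact hpN y hy
    let φ : N →* N := MonoidHom.mk' (fun y => ⟨y * (x * y * x⁻¹),
      mul_mem y.2 (hN.conj_mem y y.2 x)⟩) (fun y z => Subtype.ext (by
        have := cN z z.2 _ (hN.conj_mem y y.2 x)
        simp only [Subgroup.coe_mul]
        calc (y : G) * z * (x * (y * z) * x⁻¹) = y * (z * (x * y * x⁻¹)) * (x * z * x⁻¹) := by group
          _ = _ := by rw [this]; group))
    have hsub : ∀ S : Subgroup N, (∀ y ∈ S, x * y = y * x) → Nat.card S ≤ 2 := by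
      intro S hS
      have : (S : Set N) ⊆ {1, ⟨m, hm⟩} := fun y hy => by
        rcases (hC y y.2).1 (hS y hy) with e | e
        · exact Or.inl (Subtype.ext e)
        · exact Or.inr (Subtype.ext e)
      exact (Set.ncard_le_ncard this).trans ((Set.ncard_insert_le _ _).trans (by simp))
    have h5 := hsub φ.ker fun y hy => by
      have e : (y : G) * (x * y * x⁻¹) = 1 := congrArg Subtype.val (MonoidHom.mem_ker.1 hy)
      rw [← sN y y.2, mul_left_cancel_iff] at e
      exact mul_inv_eq_iff_eq_mul.1 e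
    have h6 := hsub φ.range (by
      rintro _ ⟨y, rfl⟩
      change x * ((y : G) * (x * y * x⁻¹)) = (y : G) * (x * y * x⁻¹) * x
      rw [cN y y.2 _ (hN.conj_mem y y.2 x), hxi]
      calc x * (x * y * x * y) = (x * x) * y * x * y := by group
        _ = y * x * y * (x * x) := by rw [hx2]; group
        _ = y * (x * y * x) * x := by group
        _ = x * y * x * y * x := by
          have := cN y y.2 _ (hN.conj_mem y y.2 x)
          rw [hxi] at this
          rw [this])
    have h7 : Nat.card φ.ker * Nat.card φ.range = Nat.card N := by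
      rw [← Subgroup.index_ker, Subgroup.card_mul_index]
    have := Nat.mul_le_mul h5 h6
    omega
  · refine ⟨r, hr, ?_⟩
    obtain ⟨K, hK⟩ := h.exists_isKer a
    have hKc := hK.card_add_one hab.symm
    rw [Nat.card_eq_fintype_card (α := Ω)] at hKc
    have hEa : ∀ e ∈ Subgroup.zpowers x, e • a = a ∧ e • b = b := fun e he =>
      ⟨(Subgroup.zpowers_le.2 (show x ∈ MulAction.stabilizer G a from hxa)) he,
        (Subgroup.zpowers_le.2 (show x ∈ MulAction.stabilizer G b from hxb)) he⟩
    have hK1 : K ≠ ⊥ := by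
      intro e
      rw [e, Subgroup.card_bot] at hKc
      omega
    have hKE : K ⊓ Subgroup.zpowers x = ⊥ := by
      rw [eq_bot_iff]
      rintro y ⟨hy1, hy2⟩
      exact hK.eq_of_smul_eq hy1 (one_mem _) hab.symm (by simpa using (hEa y hy2).2)
    have hle : K ⊔ Subgroup.zpowers x ≤ MulAction.stabilizer G a :=
      sup_le hK.le_stabilizer fun e he => (hEa e he).1
    have hCK : N ⊓ Subgroup.centralizer (K : Set G) = ⊥ := by
      rw [eq_bot_iff]
      rintro y ⟨hy1, hy2⟩
      obtain ⟨⟨u, hu⟩, hu1⟩ := Subgroup.ne_bot_iff_exists_ne_one.1 hK1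
      refine reg y hy1 a (hK.fix u hu (fun e => hu1 (Subtype.ext e)) _ ?_)
      rw [← mul_smul, hy2 u hu, mul_smul, hK.le u hu]
    have hcs : Nat.card ↥(K ⊔ Subgroup.zpowers x) = Nat.card K * r := by
      rw [H2.card_sup_of_le_normalizer _ (by rwa [inf_comm]), Nat.card_zpowers, hxr]
      intro e he
      rw [Subgroup.mem_normalizer_iff]
      intro u
      refine ⟨hK.conj e (hEa e he).1 u, fun hu => ?_⟩
      have := hK.conj e⁻¹ (hEa _ (inv_mem he)).1 _ hu
      simpa [mul_assoc] using this
    have hk0 : k ≠ 0 := by rintro rfl; omega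
    have key := Cfsg.Agent.S1545.result K (Subgroup.zpowers x) N hK1 (by simpa using hx) hKE
      (fun e he u hu => hK.conj e (hEa e he).1 u hu)
      (fun e he he1 u hu hc => hK.eq_one_of_commute h hab.symm he1 (hEa e he).1 (hEa e he).2 hu hc)
      (fun y _ z hz => hN.conj_mem z hz y)
      (by
        rw [eq_bot_iff]
        rintro y ⟨hy1, hy2⟩
        exact reg y hy1 a (hle hy2))
      (Group.isSolvable_of_comm fun y z => hcomm.is_comm.comm y z)
      (by
        rw [hcs, hk]
        refine Nat.Coprime.pow_left _ (Nat.coprime_two_left.2 (Odd.mul ?_ hodd))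
        have : Even (Nat.card K + 1) := by
          rw [hKc, ← hcardN, hk]; exact (Nat.even_pow.2 ⟨even_two, hk0⟩)
        exact Nat.not_even_iff_odd.1 (Nat.even_add_one.1 this))
    have hCKE : N ⊓ Subgroup.centralizer ((K ⊔ Subgroup.zpowers x : Subgroup G) : Set G) = ⊥ := by
      rw [eq_bot_iff, ← hCK]
      exact inf_le_inf_left _ (Subgroup.centralizer_le (SetLike.coe_subset_coe.2 le_sup_left))
    rw [hCKE, hCK, hCcard, Nat.card_zpowers, hxr, hcardN] at key
    simpa using key

end Cfsg.Agent.S0341
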