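import Cfsg.Statements.S0351
import Mathlib
import Cfsg.Agent.Lib.Design.Count

set_option autoImplicit false
open Cfsg

namespace Cfsg.Agent.S0351

/-- Derived design: removing a point p from the blocks through p of an S(t+1, k+1, v) yields an S(t, k, v-1) on the points other than p. -/
theorem result {α : Type*} [Fintype α] [DecidableEq α] {t k : ℕ} {B : Set (Finset α)} (hB : Cfsg.IsSteinerSystem (t + 1) (k + 1) B) (p : α) : Cfsg.IsSteinerSystem t k {b' : Finset {a : α // a ≠ p} | ∃ b ∈ B, p ∈ b ∧ b' = Finset.subtype (fun a => a ≠ p) b} := by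
  classical
  constructor
  · rintro b' ⟨b, hb, hp, rfl⟩
    rw [Finset.card_subtype]
    have h := hB.1 b hb
    have : Finset.filter (fun a => a ≠ p) b = b.erase p := by
      ext x; simp [and_comm]
    rw [this, Finset.card_erase_of_mem hp, h]; rfl
  · intro s hs
    have hc : (insert p (s.map (Function.Embedding.subtype _))).card = t + 1 := by
      rw [Finset.card_insert_of_notMem, Finset.card_map, hs]
      intro h
      obtain ⟨x, -, hx⟩ := Finset.mem_map.mp h
      exact x.2 hx
    obtain ⟨b, ⟨hb, hsb⟩, hu⟩ := hB.2 _ hc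
    refine ⟨Finset.subtype (fun a => a ≠ p) b, ⟨⟨b, hb, hsb (Finset.mem_insert_self _ _), rfl⟩, ?_⟩, ?_⟩
    · intro x hx
      rw [Finset.mem_subtype]
      exact hsb (Finset.mem_insert_of_mem (Finset.mem_map_of_mem _ hx))
    · rintro c' ⟨⟨c, hc, hpc, rfl⟩, hsc⟩
      have : c = b := by
        apply hu
        refine ⟨hc, Finset.insert_subset hpc ?_⟩
        intro y hy
        obtain ⟨x, hx, rfl⟩ := Finset.mem_map.mp hy
        exact Finset.mem_subtype.mp (hsc hx)
      rw [this]

end Cfsg.Agent.S0351
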