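import Cfsg.Statements.S0353
import Mathlib
import Cfsg.Agent.Lib.Design.Count

set_option autoImplicit false
open Cfsg

namespace Cfsg.Agent.S0353

/-- In an S(5, 8, 24), the symmetric difference of two blocks meeting in four points is a block. -/
theorem result {α : Type*} [Fintype α] [DecidableEq α] (hα : Fintype.card α = 24) {B : Set (Finset α)} (hB : Cfsg.IsSteinerSystem 5 8 B) {b c : Finset α} (hb : b ∈ B) (hc : c ∈ B) (h4 : (b ∩ c).card = 4) : symmDiff b c ∈ B := by
  have key : ∀ d : Finset α, (d ∩ symmDiff b c).card + 2 * (d ∩ b ∩ c).card =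
      (d ∩ b).card + (d ∩ c).card := by
    intro d
    have h1 : d ∩ symmDiff b c = ((d ∩ b) ∪ (d ∩ c)) \ (d ∩ b ∩ c) := by
      ext x; simp only [Finset.mem_inter, Finset.mem_symmDiff, Finset.mem_sdiff, Finset.mem_union]
      tauto
    have h2 : (d ∩ b) ∩ (d ∩ c) = d ∩ b ∩ c := by
      ext x; simp only [Finset.mem_inter]; tauto
    have h3 := Finset.card_union_add_card_inter (d ∩ b) (d ∩ c)
    have h4 := Finset.card_sdiff_add_card_eq_card
      (s := d ∩ b ∩ c) (t := (d ∩ b) ∪ (d ∩ c)) (by
        intro x; simp only [Finset.mem_inter, Finset.mem_union]; tauto)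
    rw [h2] at h3
    rw [h1]; omega
  apply H17.w24_mem_of_even hB
  · have := key Finset.univ
    simp only [Finset.univ_inter] at this
    rw [h4, hB.1 b hb, hB.1 c hc] at this
    omega
  · intro d hd
    have h1 := H17.w24_even hα hB hd hb
    have h2 := H17.w24_even hα hB hd hc
    have := key d
    rw [Nat.even_iff] at *
    omega

end Cfsg.Agent.S0353
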