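import Mathlib
import Cfsg.Statements.S0371
import Cfsg.Agent.Lib.Golay.M24
-- import your own Cfsg.Agent.* helpers here

set_option autoImplicit false
open Cfsg

namespace Cfsg.Agent.S0371

/-- Multiplication by a nonzero square residue modulo 23, fixing the extra point, lies in the group of the length-24 code. -/
theorem result (u : (ZMod 23)ˣ) (hu : IsSquare u) : Equiv.optionCongr (Units.mulLeft u) ∈ Cfsg.M24 := by
  obtain ⟨v, rfl⟩ := hu
  rw [H15.mem_M24_iff_codeOf]
  have key : ∀ w : ZMod 23, w ≠ 0 →
      H15.inM24 (H15.codeOf (Option.map fun x => (w * w) * x)) = true := by decide +kernel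
  have : Fact (1 < 23) := ⟨by norm_num⟩
  exact key v v.ne_zero

end Cfsg.Agent.S0371
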