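import Mathlib
import Cfsg.Statements.S0377
import Cfsg.Agent.Lib.Golay.Mathieu
-- import your own Cfsg.Agent.* helpers here

set_option autoImplicit false
open Cfsg

namespace Cfsg.Agent.S0377

/-- A point stabiliser in the group of the length-24 code is simple. -/
theorem result (p : Cfsg.GolayPt) : IsSimpleGroup (MulAction.stabilizer Cfsg.M24 p) := by
  have := H15.isSimple_stab1 p
  exact (H15.subEquiv (G := Cfsg.M24) (K := H15.St p) (fun _ => Iff.rfl)).isSimpleGroup

end Cfsg.Agent.S0377
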