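import Mathlib
import Cfsg.Statements.S0378
import Cfsg.Agent.Lib.Golay.Mathieu
-- import your own Cfsg.Agent.* helpers here

set_option autoImplicit false
open Cfsg

namespace Cfsg.Agent.S0378

/-- A two-point stabiliser in the group of the length-24 code has order 443520 = 2^7·3^2·5·7·11. -/
theorem result (p q : Cfsg.GolayPt) (hpq : p ≠ q) : Nat.card ↥(MulAction.stabilizer Cfsg.M24 p ⊓ MulAction.stabilizer Cfsg.M24 q) = 443520 := by
  rw [← H15.card_stab2 hpq, inf_assoc]
  exact Nat.card_congr (H15.subEquiv (G := Cfsg.M24) (K := H15.St p ⊓ H15.St q)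
    (fun _ => Iff.rfl)).toEquiv

end Cfsg.Agent.S0378
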