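import Mathlib
import Cfsg.Statements.S0383
import Cfsg.Agent.Lib.Golay.Mathieu
-- import your own Cfsg.Agent.* helpers here

set_option autoImplicit false
open scoped Pointwise
open Cfsg

namespace Cfsg.Agent.S0383

/-- A dodecad stabiliser in the group of the length-24 code is simple. -/
theorem result (d : Finset Cfsg.GolayPt) (hd : d ∈ Cfsg.dodecads) : IsSimpleGroup (MulAction.stabilizer Cfsg.M24 d) := by
  have := H15.isSimple_stab_dodecad hd
  exact (H15.subEquiv (G := Cfsg.M24) (K := H15.St d) (fun _ => Iff.rfl)).isSimpleGroup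

end Cfsg.Agent.S0383
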