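import Mathlib
import Cfsg.Statements.S0384
import Cfsg.Agent.Lib.Golay.Mathieu
-- import your own Cfsg.Agent.* helpers here

set_option autoImplicit false
open scoped Pointwise
open Cfsg

namespace Cfsg.Agent.S0384

/-- A dodecad stabiliser is sharply 5-transitive on the dodecad. -/
theorem result (d : Finset Cfsg.GolayPt) (hd : d ∈ Cfsg.dodecads) (x y : Fin 5 ↪ Cfsg.GolayPt) (hx : ∀ i, x i ∈ d) (hy : ∀ i, y i ∈ d) : ∃! g : MulAction.stabilizer Cfsg.M24 d, ∀ i, ((g : Cfsg.M24) : Equiv.Perm Cfsg.GolayPt) (x i) = y i := by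
  obtain ⟨g, hg, e, h⟩ := H15.M24_trans_dodecad_flag hd hd x y x.injective y.injective hx hy
  refine ⟨⟨⟨g, hg⟩, e⟩, h, fun g' h' => ?_⟩
  have hg' : ((g' : Cfsg.M24) : Equiv.Perm Cfsg.GolayPt) • d = d := g'.2
  have : g⁻¹ * ((g' : Cfsg.M24) : Equiv.Perm Cfsg.GolayPt) = 1 := by
    refine H15.eq_one_of_fix_dodecad (Cfsg.M24.mul_mem (Cfsg.M24.inv_mem hg) g'.1.2) hd ?_ x
      x.injective hx fun i => ?_
    · rw [mul_smul, hg', inv_smul_eq_iff, e]
    · rw [Equiv.Perm.mul_apply, h' i, ← h i]; simp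
  exact Subtype.ext (Subtype.ext (inv_mul_eq_one.1 this).symm)

end Cfsg.Agent.S0384
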