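import Mathlib
import Cfsg.Statements.S0385
import Cfsg.Agent.Lib.Golay.Mathieu
-- import your own Cfsg.Agent.* helpers here

set_option autoImplicit false
open Cfsg

namespace Cfsg.Agent.S0385

/-- The 6-point intersections of octads with a fixed dodecad form a Steiner system S(5, 6, 12) on the dodecad. -/
theorem result (d : Finset Cfsg.GolayPt) (hd : d ∈ Cfsg.dodecads) : Cfsg.IsSteinerSystem 5 6 {h : Finset {p : Cfsg.GolayPt // p ∈ d} | ∃ o ∈ Cfsg.octads, (o ∩ d).card = 6 ∧ h = Finset.subtype (fun p => p ∈ d) o} := by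
  refine ⟨?_, fun s hs => ?_⟩
  · rintro _ ⟨o, ho, h6, rfl⟩
    rw [Finset.card_subtype, ← h6]
    congr 1
  · have hs' : (s.map (Function.Embedding.subtype _)).card = 5 := by rw [Finset.card_map, hs]
    obtain ⟨o, ⟨ho, hso⟩, huniq⟩ := H15.steiner_octads.2 _ hs'
    have hsd : s.map (Function.Embedding.subtype _) ⊆ d := by
      intro p hp
      obtain ⟨q, -, rfl⟩ := Finset.mem_map.1 hp
      exact q.2
    have h5 : 5 ≤ (o ∩ d).card := hs' ▸ Finset.card_le_card (Finset.subset_inter hso hsd)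
    have h6 : (o ∩ d).card = 6 := by
      rcases H15.card_inter_octad_dodecad ho hd with h | h | h <;> omega
    refine ⟨Finset.subtype (fun p => p ∈ d) o, ⟨⟨o, ho, h6, rfl⟩, fun q hq => ?_⟩, ?_⟩
    · rw [Finset.mem_subtype]
      exact hso (Finset.mem_map.2 ⟨q, hq, rfl⟩)
    · rintro _ ⟨⟨o', ho', -, rfl⟩, hsub⟩
      have : o' = o := huniq o' ⟨ho', fun p hp => by
        obtain ⟨q, hq, rfl⟩ := Finset.mem_map.1 hp
        exact Finset.mem_subtype.1 (hsub hq)⟩
      rw [this]

end Cfsg.Agent.S0385
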