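import Mathlib
import Cfsg.Statements.S0386
import Cfsg.Agent.Lib.Golay.Mathieu
-- import your own Cfsg.Agent.* helpers here

set_option autoImplicit false
open Cfsg

namespace Cfsg.Agent.S0386

open scoped Pointwise in

/-- For a fixed dodecad, 132 octads meet it in 6 points, 132 in 2 points and 495 in 4 points. -/
theorem result (d : Finset Cfsg.GolayPt) (hd : d ∈ Cfsg.dodecads) : {o : Finset Cfsg.GolayPt | o ∈ Cfsg.octads ∧ (o ∩ d).card = 6}.ncard = 132 ∧ {o : Finset Cfsg.GolayPt | o ∈ Cfsg.octads ∧ (o ∩ d).card = 2}.ncard = 132 ∧ {o : Finset Cfsg.GolayPt | o ∈ Cfsg.octads ∧ (o ∩ d).card = 4}.ncard = 495 := by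
  obtain ⟨k, hk, e⟩ := H15.M24_trans_dodecads hd H15.squareDodecad_mem
  rw [H15.squareDodecad_eq] at e
  have key : ∀ n : ℕ, {o : Finset Cfsg.GolayPt | o ∈ Cfsg.octads ∧ (o ∩ d).card = n}.ncard =
      H15.countLt2 64 64 (fun u => Nat.beq (H15.wt (H15.cw u)) 8 &&
        Nat.beq (H15.wt (Nat.land (H15.cw u) 340831)) n) := by
    intro n
    rw [← H15.ncard_codeSets_filter (fun m => Nat.beq (H15.wt m) 8 &&
        Nat.beq (H15.wt (Nat.land m 340831)) n)
      {o : Finset Cfsg.GolayPt | o ∈ Cfsg.octads ∧ (o ∩ H15.ofMask 340831).card = n}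
      (fun u hu => by
        simp only [Set.mem_ofPred_eq, H15.mem_octads_iff, H15.ofMask_cw_mem hu, true_and,
          Bool.and_eq_true, Nat.beq_eq, ← H15.card_ofMask, H15.ofMask_land])
      (fun s hs => hs.1.1)]
    apply Set.ncard_congr (fun o _ => k • o)
    · intro o ho
      exact ⟨H15.smul_mem_octads hk ho.1, by rw [← e, ← H15.smul_inter, H15.card_smul]; exact ho.2⟩
    · intro a b _ _ h
      exact smul_left_cancel k h
    · intro o ho
      refine ⟨k⁻¹ • o, ⟨H15.smul_mem_octads (Cfsg.M24.inv_mem hk) ho.1, ?_⟩, smul_inv_smul k o⟩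
      rw [← H15.card_smul k, H15.smul_inter, smul_inv_smul, e]; exact ho.2
  rw [key, key, key]
  decide +kernel

end Cfsg.Agent.S0386
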