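import Mathlib
import Cfsg.Statements.S0396
import Cfsg.Agent.Lib.Leech.Count

set_option autoImplicit false
open Cfsg

namespace Cfsg.Agent.S0396

/-- Exactly 398034000 lattice vectors have sum of squares 64. -/
theorem result : {x : Cfsg.GolayPt → ℤ | x ∈ Cfsg.leechLattice ∧ Cfsg.sqNorm x = 64}.ncard = 398034000 := by
  exact H16.ncard_norm64

end Cfsg.Agent.S0396
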