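import Mathlib
import Cfsg.Statements.S0405
import Cfsg.Agent.Lib.Leech.Simple
import Cfsg.Agent.Lib.Leech.Sub

set_option autoImplicit false
open Cfsg

namespace Cfsg.Agent.S0405

/-- Joint stabiliser of two vectors of sum of squares 48 with coordinate dot product −32 is simple of order 44352000. -/
theorem result (v w : Cfsg.leechLattice) (hv : Cfsg.sqNorm (v : Cfsg.GolayPt → ℤ) = 48) (hw : Cfsg.sqNorm (w : Cfsg.GolayPt → ℤ) = 48) (hvw : Cfsg.dotInt (v : Cfsg.GolayPt → ℤ) (w : Cfsg.GolayPt → ℤ) = -32) : Cfsg.IsHS ↥(MulAction.stabilizer Cfsg.Co0 v ⊓ MulAction.stabilizer Cfsg.Co0 w) := by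
  obtain ⟨h1, h2, -⟩ := H16.hs_side hv hw hvw
  have h3 : MulAction.stabilizer Cfsg.Co0 v ⊓ MulAction.stabilizer Cfsg.Co0 w =
      H16.Stab v ⊓ H16.Stab (-(v + w)) := by
    ext g
    exact and_congr_right fun h => (H16.fix_side h).symm
  rw [h3]
  obtain ⟨k, e1, e2⟩ := H16.exists_smul_VUP hv h1 h2
  rw [← e2, ← e1]
  obtain ⟨e⟩ := H16.stab2_conj_equiv k H16.vV H16.vUP
  have := H16.isSimple_HS
  exact ⟨e.symm.isSimpleGroup, (Nat.card_congr e.toEquiv).symm.trans H16.card_HS⟩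

end Cfsg.Agent.S0405
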