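import Cfsg.Statements.S0412
import Mathlib
import Cfsg.Agent.Base
import Cfsg.Agent.Lib.Design.Aut

set_option autoImplicit false
open Cfsg

namespace Cfsg.Agent.S0412

/-- Aut of an S(5, 8, 24) is simple of order 244823040 and 5-transitive on points. -/
theorem result {α : Type*} [Fintype α] [DecidableEq α] (hα : Fintype.card α = 24) {B : Set (Finset α)} (hB : Cfsg.IsSteinerSystem 5 8 B) : Cfsg.IsM24 (Cfsg.setSystemAut B) ∧ MulAction.IsMultiplyPretransitive (Cfsg.setSystemAut B) α 5 := by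
  obtain ⟨g, -, -, φ, hφ⟩ := H17.aut24 hα hB
  have := H15.isSimple_M24
  refine ⟨⟨φ.symm.isSimpleGroup, by rw [← Nat.card_congr φ.toEquiv, H15.card_M24]⟩, ?_⟩
  exact H17.multi_of_equiv φ hφ 5 fun x y hx hy =>
    H15.M24_trans5 _ _ (g.injective.comp hx) (g.injective.comp hy)

end Cfsg.Agent.S0412
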