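import Cfsg.Statements.S0423
import Mathlib
import Cfsg.Agent.Lib.J2.Rank3


set_option autoImplicit false
open Cfsg

namespace Cfsg.Agent.S0423

/-- Existence of a simple group of order 604800. -/
theorem result : ∃ G : Subgroup (Equiv.Perm (Fin 100)), Cfsg.IsJ2 G := by
-----
  refine ⟨_, H74.J2.equiv100.symm.isSimpleGroup, ?_⟩
  rw [← Nat.card_congr H74.J2.equiv100.toEquiv, H74.J2.card_J2]

end Cfsg.Agent.S0423
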