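import Cfsg.Statements.S0425
import Mathlib
import Cfsg.Agent.Base
import Cfsg.Agent.Lib.Design.Aut

set_option autoImplicit false
open Cfsg

namespace Cfsg.Agent.S0425

/-- Aut of an S(5, 6, 12) is simple of order 95040 and sharply 5-transitive on points. -/
theorem result {α : Type*} [Fintype α] [DecidableEq α] (hα : Fintype.card α = 12) {B : Set (Finset α)} (hB : Cfsg.IsSteinerSystem 5 6 B) : Cfsg.IsM12 (Cfsg.setSystemAut B) ∧ MulAction.IsMultiplyPretransitive (Cfsg.setSystemAut B) α 5 ∧ ∀ x : Fin 5 ↪ α, MulAction.stabilizer (Cfsg.setSystemAut B) x = ⊥ := by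
  obtain ⟨g, hg, -, φ, hφ⟩ := H17.aut12 hα hB
  have := H15.isSimple_stab_dodecad H15.dod1_mem
  refine ⟨⟨φ.symm.isSimpleGroup,
    by rw [← Nat.card_congr φ.toEquiv, H15.card_stab_dodecad H15.dod1_mem]⟩, ?_, fun x => ?_⟩
  · refine H17.multi_of_equiv φ hφ 5 fun x y hx hy => ?_
    obtain ⟨k, hk, h1, h⟩ := H15.M24_trans_dodecad_flag H15.dod1_mem H15.dod1_mem _ _
      (g.injective.comp hx) (g.injective.comp hy) (fun i => (hg _).2 ⟨_, rfl⟩)
      (fun i => (hg _).2 ⟨_, rfl⟩)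
    exact ⟨k, ⟨hk, h1⟩, h⟩
  · rw [eq_bot_iff]
    intro τ hτ
    obtain ⟨k, rfl⟩ := φ.surjective τ
    have : k = 1 := Subtype.ext <| H15.eq_one_of_fix_dodecad k.2.1 H15.dod1_mem k.2.2 _
      (g.injective.comp x.injective) (fun i => (hg _).2 ⟨_, rfl⟩) fun i => by
        have h := congrArg (fun e : Fin 5 ↪ α => g (e i)) (MulAction.mem_stabilizer_iff.1 hτ)
        exact (hφ k (x i)).symm.trans h
    rw [this, map_one]
    exact Subgroup.mem_bot.2 rfl

end Cfsg.Agent.S0425
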