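import Cfsg.Statements.S0426
import Mathlib
import Cfsg.Agent.Base
import Cfsg.Agent.Lib.Design.Aut

set_option autoImplicit false
open Cfsg

namespace Cfsg.Agent.S0426

/-- Aut of an S(4, 5, 11) is simple of order 7920 and sharply 4-transitive on points. -/
theorem result {α : Type*} [Fintype α] [DecidableEq α] (hα : Fintype.card α = 11) {B : Set (Finset α)} (hB : Cfsg.IsSteinerSystem 4 5 B) : Cfsg.IsM11 (Cfsg.setSystemAut B) ∧ MulAction.IsMultiplyPretransitive (Cfsg.setSystemAut B) α 4 ∧ ∀ x : Fin 4 ↪ α, MulAction.stabilizer (Cfsg.setSystemAut B) x = ⊥ := by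
  obtain ⟨g, hg, -, φ, hφ⟩ := H17.aut11 hα hB
  have := H15.isSimple_stab_dodecad_pt H15.dod1_mem H17.none_mem_dod1
  have key : ∀ x : Fin 4 → α, Function.Injective x →
      Function.Injective (Fin.cons none (fun i => g (x i)) : Fin 5 → GolayPt) := fun x hx =>
    Fin.cons_injective_iff.2 ⟨fun ⟨i, hi⟩ => ((hg _).2 ⟨_, rfl⟩).2 hi, g.injective.comp hx⟩
  have key2 : ∀ (x : Fin 4 → α) (i : Fin 5),
      (Fin.cons none (fun i => g (x i)) : Fin 5 → GolayPt) i ∈ H15.ofMask H15.dod1 := fun x i =>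
    Fin.cases H17.none_mem_dod1 (fun i => ((hg _).2 ⟨_, rfl⟩).1) i
  refine ⟨⟨φ.symm.isSimpleGroup, by
    rw [← Nat.card_congr φ.toEquiv, H15.card_stab_dodecad_pt H15.dod1_mem H17.none_mem_dod1]⟩,
    ?_, fun x => ?_⟩
  · refine H17.multi_of_equiv φ hφ 4 fun x y hx hy => ?_
    obtain ⟨k, hk, h1, h⟩ := H15.M24_trans_dodecad_flag H15.dod1_mem H15.dod1_mem _ _
      (key x hx) (key y hy) (key2 x) (key2 y)
    exact ⟨k, ⟨⟨hk, h1⟩, h 0⟩, fun i => h i.succ⟩
  · rw [eq_bot_iff]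
    intro τ hτ
    obtain ⟨k, rfl⟩ := φ.surjective τ
    have : k = 1 := Subtype.ext <| H15.eq_one_of_fix_dodecad k.2.1.1 H15.dod1_mem k.2.1.2 _
      (key x x.injective) (key2 x) fun i => Fin.cases k.2.2 (fun i => by
        have h := congrArg (fun e : Fin 4 ↪ α => g (e i)) (MulAction.mem_stabilizer_iff.1 hτ)
        exact (hφ k (x i)).symm.trans h) i
    rw [this, map_one]
    exact Subgroup.mem_bot.2 rfl

end Cfsg.Agent.S0426
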