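import Cfsg.Statements.S0427
import Mathlib
import Cfsg.Agent.Lib.Design.W22Count

set_option autoImplicit false
open Cfsg

namespace Cfsg.Agent.S0427

open Finset H17 in
theorem adj_iff {α : Type*} [Fintype α] {B : Set (Finset α)} (hB : Cfsg.IsSteinerSystem 3 6 B)
    (b c : B) : (Cfsg.blockGraph B).Adj b c ↔ Disjoint (b : Finset α) c := by
  rw [Cfsg.blockGraph, SimpleGraph.fromRel_adj]
  constructor
  · rintro ⟨-, h | h⟩
    exacts [h, h.symm]
  · intro h
    refine ⟨?_, Or.inl h⟩
    rintro rfl
    have := hB.1 b b.2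
    rw [disjoint_self, Finset.bot_eq_empty] at h
    simp [h] at this

theorem card_set {α : Type*} {B : Set (Finset α)} (S : Set B) [Fintype S] (D : Finset (Finset α))
    (h : ∀ d, d ∈ D ↔ ∃ hd : d ∈ B, (⟨d, hd⟩ : B) ∈ S) : Fintype.card S = D.card := by
  rw [← Nat.card_eq_fintype_card, Nat.card_coe_set_eq,
    ← Set.ncard_image_of_injective S Subtype.val_injective, ← Set.ncard_coe_finset]
  congr 1
  ext d
  simp only [Set.mem_image, Subtype.exists, exists_and_right, exists_eq_right, Finset.mem_coe, h]

/-- The block graph (adjacent = disjoint) of an S(3, 6, 22) is strongly regular with parameters (77, 16, 0, 4). -/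
theorem result {α : Type*} [Fintype α] (hα : Fintype.card α = 22) {B : Set (Finset α)} (hB : Cfsg.IsSteinerSystem 3 6 B) [Fintype B] [DecidableRel (Cfsg.blockGraph B).Adj] : (Cfsg.blockGraph B).IsSRGWith 77 16 0 4 := by
  classical
  refine ⟨?_, ?_, ?_, ?_⟩
  · rw [← Nat.card_eq_fintype_card, Nat.card_coe_set_eq, H17.ncard_eq_thru]
    exact H17.w22_lam0 hα hB _ rfl
  · intro b
    rw [← SimpleGraph.card_neighborSet_eq_degree, card_set _ (H17.disj B ∅ b),
      H17.w22_disj_card hα hB b.2]
    intro d
    simp only [H17.mem_disj, Finset.empty_subset, true_and, SimpleGraph.mem_neighborSet,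
      adj_iff hB, exists_prop, disjoint_comm]
  · intro b c hbc
    have h := H17.w22_common hα hB b.2 c.2 (fun h => hbc.ne (Subtype.ext h))
    rw [if_pos ((adj_iff hB b c).mp hbc)] at h
    rw [card_set _ ((H17.disj B ∅ b).filter fun d => Disjoint d c), h]
    intro d
    simp only [H17.mem_disj, Finset.empty_subset, true_and, SimpleGraph.mem_commonNeighbors,
      adj_iff hB, exists_prop, Finset.mem_filter, and_assoc, disjoint_comm (a := d)]
  · intro b c hne hbc
    have h := H17.w22_common hα hB b.2 c.2 (fun h => hne (Subtype.ext h))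
    rw [if_neg (fun h => hbc ((adj_iff hB b c).mpr h))] at h
    rw [card_set _ ((H17.disj B ∅ b).filter fun d => Disjoint d c), h]
    intro d
    simp only [H17.mem_disj, Finset.empty_subset, true_and, SimpleGraph.mem_commonNeighbors,
      adj_iff hB, exists_prop, Finset.mem_filter, and_assoc, disjoint_comm (a := d)]

end Cfsg.Agent.S0427
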