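import Cfsg.Statements.S0439
import Mathlib
import Cfsg.Agent.Lib.ThreeTrans.Small

set_option autoImplicit false
open Cfsg

namespace Cfsg.Agent.S0439

/-- In the symmetric group of degree n ≥ 2, the set of transpositions is a conjugacy class of 3-transpositions which generates the group. -/
theorem result (n : ℕ) (hn : 2 ≤ n) : Cfsg.IsThreeTranspositionClass {σ : Equiv.Perm (Fin n) | σ.IsSwap} := by
  haveI : Nontrivial (Fin n) := Fin.nontrivial_iff_two_le.2 hn
  exact H94.class_swap (Fin n)

end Cfsg.Agent.S0439
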