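import Cfsg.Statements.S0442
import Mathlib
import Cfsg.Agent.Lib.Invol.Dihedral

set_option autoImplicit false
open Cfsg

namespace Cfsg.Agent.S0442

/-- A standard trick for producing elements of an involution centraliser: for an involution a and an element g, let b be the conjugate g⁻¹ * a * g. If a * b has odd order 2m + 1 then g * (a * b) ^ m commutes with a; if a * b has even order 2m then (a * b) ^ m and (a * (g * a * g⁻¹)) ^ m commute with a. -/
theorem result {G : Type*} [Group G] (a g : G) (ha : orderOf a = 2) : (∀ m : ℕ, orderOf (a * (g⁻¹ * a * g)) = 2 * m + 1 → Commute (g * (a * (g⁻¹ * a * g)) ^ m) a) ∧ (∀ m : ℕ, orderOf (a * (g⁻¹ * a * g)) = 2 * m → Commute ((a * (g⁻¹ * a * g)) ^ m) a ∧ Commute ((a * (g * a * g⁻¹)) ^ m) a) := by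
  have h1 : a * a = 1 := H9.mul_self_of_orderOf_two ha
  have key : ∀ (b : G) (m : ℕ), b * b = 1 → (a * b) ^ (2 * m) = 1 → Commute ((a * b) ^ m) a := by
    intro b m hb h
    refine H9.commute_of_inverts_of_mul_self (H9.conj_pow_of_inverts (H9.left_inverts h1 hb) m) ?_
    rw [← pow_add, ← two_mul, h]
  have hb : (g⁻¹ * a * g) * (g⁻¹ * a * g) = 1 := by
    calc _ = g⁻¹ * (a * a) * g := by group
      _ = 1 := by rw [h1]; group
  have hb' : (g * a * g⁻¹) * (g * a * g⁻¹) = 1 := by
    calc _ = g * (a * a) * g⁻¹ := by group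
      _ = 1 := by rw [h1]; group
  refine ⟨fun m hm => ?_, fun m hm => ⟨key _ m hb (by rw [← hm, pow_orderOf_eq_one]), key _ m hb' ?_⟩⟩
  · set b := g⁻¹ * a * g with hbdef
    have h2 : (a * b) ^ (2 * m + 1) = 1 := by rw [← hm, pow_orderOf_eq_one]
    have h3 := H9.conj_pow_of_inverts (H9.left_inverts h1 hb) m
    have h4 : (a * b) ^ m * a = b * (a * b) ^ m := by
      have h5 : ((a * b) ^ m)⁻¹ = (a * b) * (a * b) ^ m := by
        rw [inv_eq_iff_mul_eq_one, ← pow_succ', ← pow_add, ← h2]; congr 1; ring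
      have h6 : a * ((a * b) ^ m * a) = a * (b * (a * b) ^ m) := by
        rw [← mul_assoc, ← mul_assoc a b, ← h5, ← h3, inv_eq_of_mul_eq_one_right h1]
      exact mul_left_cancel h6
    show g * (a * b) ^ m * a = a * (g * (a * b) ^ m)
    rw [mul_assoc, h4, hbdef]
    group
  · have h2 : (a * (g⁻¹ * a * g)) ^ (2 * m) = 1 := by rw [← hm, pow_orderOf_eq_one]
    have h3 : a * (g * a * g⁻¹) = g * (a * (g⁻¹ * a * g))⁻¹ * g⁻¹ := by
      rw [mul_inv_rev, inv_eq_of_mul_eq_one_right hb, inv_eq_of_mul_eq_one_right h1]; group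
    rw [h3, conj_pow, inv_pow, h2]
    group

end Cfsg.Agent.S0442
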