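import Cfsg.Statements.S0444
import Mathlib
import Cfsg.Agent.Lib.ThreeTrans.Basic
import Cfsg.Agent.Lib.ThreeTrans.SymHom

set_option autoImplicit false
open Cfsg

namespace Cfsg.Agent.S0444

/-- Two members of a set of 3-transpositions which do not commute generate a subgroup isomorphic to the symmetric group on three letters. -/
theorem result {G : Type*} [Group G] {E : Set G} (hE : Cfsg.IsThreeTranspositionSet E) {d e : G} (hd : d ∈ E) (he : e ∈ E) (h : ¬ Commute d e) : Nonempty (Subgroup.closure ({d, e} : Set G) ≃* Equiv.Perm (Fin 3)) := by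
  obtain ⟨φ, h1, h2⟩ := H94.exists_hom_perm3 (H94.TS.mul_self hE hd) (H94.TS.mul_self hE he)
    (H94.TS.braid hE hd he h)
  have hi := H94.perm3_injective φ (by rw [h1, h2]; rintro rfl; exact h (Commute.refl _))
  have hr : φ.range = Subgroup.closure ({d, e} : Set G) := by
    rw [H94.range_eq_closure_of_swaps]
    congr 1
    ext x
    simp only [Set.mem_range, Fin.exists_fin_two, Set.mem_insert_iff, Set.mem_singleton_iff]
    rw [← h1, ← h2]
    exact or_congr eq_comm eq_comm
  exact ⟨(MulEquiv.subgroupCongr hr.symm).trans (MonoidHom.ofInjective hi).symm⟩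

end Cfsg.Agent.S0444
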