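import Mathlib
import Cfsg.Statements.S0458
import Cfsg.Agent.Lib.J3.Unitary
-- import your own Cfsg.Agent.* helpers here

set_option autoImplicit false
open Cfsg

namespace Cfsg.Agent.S0458

/-- Janko's third group exists as a transitive permutation group of degree 6156 with point stabiliser of order 8160: a simple group of order 50232960. -/
theorem result : ∃ H : Subgroup (Equiv.Perm (Fin 6156)), Cfsg.IsJ3 H ∧ MulAction.IsPretransitive H (Fin 6156) ∧ Nat.card (MulAction.stabilizer H (0 : Fin 6156)) = 8160 := by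
  obtain ⟨ω, X⟩ := H15.J3M.exists_is4
  have := H15.J3M.isSimple_J3 X
  obtain ⟨P, e, h1, ⟨f⟩⟩ := H15.Mdl.exists_perm_realization _ (H15.J3M.index_H X) (by norm_num)
  exact ⟨P, ⟨e.symm.isSimpleGroup, (Nat.card_congr e.symm.toEquiv).trans (H15.J3M.card_J3 X)⟩, h1,
    (Nat.card_congr f.symm.toEquiv).trans ((H15.J3M.enH X).card (H15.J3M.snd X))⟩

end Cfsg.Agent.S0458
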