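import Mathlib
import Cfsg.Statements.S0460
import Cfsg.Agent.Lib.ON.Sub

set_option autoImplicit false
open Cfsg

namespace Cfsg.Agent.S0460

attribute [-instance] H87.ON.normal_sc

/-- The O'Nan group exists as a transitive permutation group of degree 122760: simple of order 460815505920, point stabiliser of order 3753792, and containing simple subgroups of orders 175560 and 7920. -/
theorem result : ∃ H : Subgroup (Equiv.Perm (Fin 122760)), Cfsg.IsON H ∧ MulAction.IsPretransitive H (Fin 122760) ∧ Nat.card (MulAction.stabilizer H (0 : Fin 122760)) = 3753792 ∧ (∃ K : Subgroup H, Cfsg.IsJ1 K) ∧ (∃ K : Subgroup H, Cfsg.IsM11 K) := by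
  have := H87.ON.simple
  obtain ⟨P, e, h1, ⟨f⟩⟩ := H15.Mdl.exists_perm_realization H87.ON.H H87.ON.index_H (by norm_num)
  refine ⟨P, ⟨e.symm.isSimpleGroup, (Nat.card_congr e.toEquiv).symm.trans H87.ON.card⟩, h1, (Nat.card_congr f.toEquiv).symm.trans H87.ON.card_H,
    ⟨(H54.wgen H87.ON.x H87.ON.EJ).map e.toMonoidHom, ?_⟩,
    ⟨(H54.wgen H87.ON.x H87.ON.EM).map e.toMonoidHom, ?_⟩⟩
  · have := H87.ON.isJ1.1
    exact ⟨(e.subgroupMap _).symm.isSimpleGroup,
      (Subgroup.card_map_of_injective e.injective).trans H87.ON.isJ1.2⟩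
  · have := H87.ON.isM11.1
    exact ⟨(e.subgroupMap _).symm.isSimpleGroup,
      (Subgroup.card_map_of_injective e.injective).trans H87.ON.isM11.2⟩

end Cfsg.Agent.S0460
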