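import Cfsg.Statements.S0463
import Cfsg.Agent.Lib.HN.A12
-- import your own Cfsg.Agent.* helpers here

set_option autoImplicit false
open Cfsg

namespace Cfsg.Agent.S0463

/-- The Harada–Norton group exists as a transitive permutation group of degree 1140000: simple of order 273030912000000 with point stabiliser isomorphic to the alternating group of degree 12. -/
theorem result : ∃ H : Subgroup (Equiv.Perm (Fin 1140000)), Cfsg.IsHN H ∧ MulAction.IsPretransitive H (Fin 1140000) ∧ Nonempty (MulAction.stabilizer H (0 : Fin 1140000) ≃* alternatingGroup (Fin 12)) := by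
  obtain ⟨H, e, h1, ⟨f⟩⟩ := H54.exists_perm_group H54.HN.faithfulA
    ((1 : Spor.HN) : Spor.HN ⧸ H54.HN.fA.range) 1140000 H54.HN.indexA
  have := H54.HN.simple
  exact ⟨H, ⟨e.symm.isSimpleGroup, (Nat.card_congr e.toEquiv).symm.trans H54.HN.card⟩, h1,
    ⟨f.symm.trans ((MulEquiv.subgroupCongr (MulAction.stabilizer_quotient _)).trans H54.HN.equivA.some)⟩⟩

end Cfsg.Agent.S0463
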