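import Mathlib
import Cfsg.Statements.S0464
import Cfsg.Agent.Lib.Th.Struct

set_option autoImplicit false
open Cfsg

namespace Cfsg.Agent.S0464

open H78.Th

theorem aux {G H : Type} [Group G] [Group H] (e : G ≃* H) (hG : Cfsg.IsTh G) (K L : Subgroup G)
    (hK : K.index = 143127000) (h : L ≤ K) (hL : IsSimpleGroup L) (hc : Nat.card L = 211341312) :
    Cfsg.IsTh H ∧ ∃ K : Subgroup H, K.index = 143127000 ∧ ∃ L : Subgroup H, L ≤ K ∧ Cfsg.Is3D4 L := by
  have := hG.1
  refine ⟨⟨e.symm.isSimpleGroup, (Nat.card_congr e.toEquiv).symm.trans hG.2⟩,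
    K.map e.toMonoidHom, ?_, L.map e.toMonoidHom, Subgroup.map_mono h,
    (e.subgroupMap L).symm.isSimpleGroup, 2, Nat.prime_two.prime.isPrimePow, ?_⟩
  · rw [Subgroup.index_map_of_bijective e.bijective]; exact hK
  · rw [Subgroup.card_map_of_injective e.injective, hc]; norm_num

/-- The Thompson group exists as a group of 248 × 248 matrices over the field with three elements: a simple subgroup of GL(248, 3) of order 90745943887872000, possessing a subgroup of index 143127000 which contains a simple subgroup of the order of a triality-twisted D4 group. -/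
theorem result : ∃ H : Subgroup (GL (Fin 248) (ZMod 3)), Cfsg.IsTh H ∧ ∃ K : Subgroup H, K.index = 143127000 ∧ ∃ L : Subgroup H, L ≤ K ∧ Cfsg.Is3D4 L := by
  exact ⟨ρ.range, aux (MonoidHom.ofInjective ρ_inj) isTh K1 L6 index_K1.1 L6_le_K1 simple_L6 card_L6⟩

end Cfsg.Agent.S0464
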