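import Mathlib
import Cfsg.Agent.Lib.MonOrd.Baby
import Cfsg.Statements.S0465
-- import your own Cfsg.Agent.* helpers here

set_option autoImplicit false
open Cfsg

namespace Cfsg.Agent.S0465


/-- The Baby Monster as matrices in characteristic 2: for some finite field F of characteristic 2, GL(4370, F) has a simple subgroup of order 4154781481226426191177580544000000. -/
theorem result : ∃ (F : Type) (_ : Field F) (_ : Fintype F), CharP F 2 ∧ ∃ H : Subgroup (GL (Fin 4370) F), Cfsg.IsB H := by
  exact ⟨ZMod 2, inferInstance, inferInstance, inferInstance, H95.Gr.exists_GL_B⟩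

end Cfsg.Agent.S0465
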