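import Mathlib
import Cfsg.Agent.Lib.MonOrd.Baby
import Cfsg.Statements.S0466
-- import your own Cfsg.Agent.* helpers here

set_option autoImplicit false
open Cfsg

namespace Cfsg.Agent.S0466

open H95.Gr in
/-- The Baby Monster as a 4-transposition group: there is a simple group of its order with a conjugacy class of 13571955000 involutions such that the product of any two of them has order at most 4, the centraliser of each having order 4 · 76532479683774853939200. -/
theorem result : ∃ (G : Type) (_ : Group G) (_ : Finite G), Cfsg.IsB G ∧ ∃ D : Set G, (∃ d ∈ D, D = conjugatesOf d) ∧ Nat.card D = 13571955000 ∧ (∀ d ∈ D, orderOf d = 2) ∧ (∀ d ∈ D, ∀ e ∈ D, orderOf (d * e) ≤ 4) ∧ ∀ d ∈ D, Nat.card (Subgroup.centralizer ({d} : Set G)) = 306129918735099415756800 := by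
  exact ⟨BM, inferInstance, inferInstance, isB_BM, DB, nonempty_DB.imp fun d hd => ⟨hd, DB_eq hd⟩,
    card_DB, fun _ => order_DB, fun _ hd _ => order_mul_DB hd, fun _ => card_cent_DB⟩

end Cfsg.Agent.S0466
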