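import Mathlib
import Cfsg.Agent.Lib.MonOrd.Order
import Cfsg.Statements.S0469
-- import your own Cfsg.Agent.* helpers here

set_option autoImplicit false
open Cfsg

namespace Cfsg.Agent.S0469

open H95 H95.Gr in
/-- In some simple group of the Monster's order there is an involution whose centraliser C has a normal extraspecial subgroup Q of order 2 ^ 25 such that C / Q is simple of the order of the largest Conway group. -/
theorem result : ∃ (G : Type) (_ : Group G) (_ : Finite G), Cfsg.IsM G ∧ ∃ z : G, orderOf z = 2 ∧ ∃ (Q : Subgroup (Subgroup.centralizer ({z} : Set G))) (_ : Q.Normal), Nat.card Q = 2 ^ 25 ∧ Cfsg.IsExtraspecial 2 Q ∧ Cfsg.IsCo1 ((Subgroup.centralizer ({z} : Set G)) ⧸ Q) := by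
  refine ⟨GG, inferInstance, inferInstance, isM_GG, zA, orderOf_eq_two_of iz_z.sq iz_z.ne_one,
    phi.ker, inferInstance, card_ker_phi, ?_, ?_⟩
  · rw [ker_phi]
    exact isExtraspecial_of_equiv (Subgroup.subgroupOfEquivOfLe QQ_le).symm es_QQ.isExtraspecial
  · have e := QuotientGroup.quotientKerEquivOfSurjective phi mon.surj
    have : IsSimpleGroup Spor.Co1 := H16.isSimple_Co1
    exact ⟨e.isSimpleGroup, (Nat.card_congr e.toEquiv).trans H16.card_Co1⟩

end Cfsg.Agent.S0469
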