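import Mathlib
import Cfsg.Statements.S0476
import Cfsg.Agent.Lib.J4.MdJ
-- import your own Cfsg.Agent.* helpers here

set_option autoImplicit false
open Cfsg

namespace Cfsg.Agent.S0476

/-- In some simple group of the order of Janko's fourth group there is an involution whose centraliser C has a normal extraspecial subgroup Q of order 2 ^ 13, a normal subgroup N of order 3 · 2 ^ 13 containing Q, and a subgroup M of index 2 containing N as a normal subgroup with M / N simple of order 443520. -/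
theorem result : ∃ (G : Type) (_ : Group G) (_ : Finite G), Cfsg.IsJ4 G ∧ ∃ z : G, orderOf z = 2 ∧ ∃ (Q N M : Subgroup (Subgroup.centralizer ({z} : Set G))), Q.Normal ∧ N.Normal ∧ Q ≤ N ∧ N ≤ M ∧ Nat.card Q = 2 ^ 13 ∧ Cfsg.IsExtraspecial 2 Q ∧ Nat.card N = 3 * 2 ^ 13 ∧ M.index = 2 ∧ ∃ (_ : (N.subgroupOf M).Normal), Cfsg.IsM22 (M ⧸ N.subgroupOf M) := by
  open H66.J4 H15 Subgroup in
  have m := mdJ
  have hr : m.πH.range = M22ext := le_antisymm (by rintro _ ⟨g, rfl⟩; exact m.π_mem' g.2) fun x hx => by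
    obtain ⟨g, hg, e⟩ := m.exists_lift hx
    exact ⟨⟨g, m.K_le_H hg⟩, e⟩
  have e := subgroupOfEquivOfLe m.Q_le_H
  have f : (Spor.M22.comap m.πH ⧸ m.πH.ker.subgroupOf (Spor.M22.comap m.πH)) ≃* Spor.M22 :=
    (QuotientGroup.quotientMulEquivOfEq (Subgroup.ext fun _ =>
      ⟨fun h => Subtype.ext h, fun h => congrArg Subtype.val h⟩)).trans
      (QuotientGroup.quotientKerEquivOfSurjective (m.πH.subgroupComap Spor.M22) fun x => by
        obtain ⟨g, hg⟩ := hr.ge (M22_le_ext x.2)
        exact ⟨⟨g, show m.πH g ∈ Spor.M22 from hg ▸ x.2⟩, Subtype.ext hg⟩)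
  have := isSimple_M22
  refine ⟨Spor.J4, inferInstance, inferInstance, isJ4, m.z, m.orderOf_z, m.Q.subgroupOf m.H, m.πH.ker,
    Spor.M22.comap m.πH, (normal_subgroupOf_iff m.Q_le_H).2 fun h k hh hk => H75.J4.Md.conj_mem_Q hk hh,
    inferInstance, fun x hx => m.π_Q hx, MonoidHom.ker_le_comap _ _, (Nat.card_congr e.toEquiv).trans m.card_Q,
    ?_, m.card_ker, ?_, inferInstance,
    f.isSimpleGroup, (Nat.card_congr f.toEquiv).trans card_M22⟩
  · have := m.L3.toES.top.map e.symm.toMonoidHom fun x _ hx => by simpa using hx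
    rw [map_top_of_surjective _ e.symm.surjective] at this
    exact this.isExtraspecial_top
  have := (Spor.M22.subgroupOf M22ext).card_mul_index
  rw [Nat.card_congr (subgroupOfEquivOfLe M22_le_ext).toEquiv, card_M22, card_M22ext] at this
  rw [index_comap, hr, relIndex]
  omega

end Cfsg.Agent.S0476
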