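import Mathlib
import Cfsg.Statements.S0478
import Cfsg.Agent.Lib.J3.Unitary
-- import your own Cfsg.Agent.* helpers here

set_option autoImplicit false
open Cfsg

namespace Cfsg.Agent.S0478

/-- A triple cover of Janko's third group inside a unitary group: for a field F with four elements, the special unitary group of dimension 9 (with respect to the form with q = 2) has a subgroup whose centre has order 3 and whose quotient by its centre is simple of order 50232960. -/
theorem result : ∃ (F : Type) (_ : Field F) (_ : Fintype F), Fintype.card F = 4 ∧ ∃ H : Subgroup (Cfsg.SU 9 F 2), Nat.card (Subgroup.center H) = 3 ∧ Cfsg.IsJ3 (H ⧸ Subgroup.center H) := by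
  obtain ⟨ω, X⟩ := H15.J3M.exists_is4
  obtain ⟨H, ⟨e⟩⟩ := H15.J3M.exists_equiv_SU X
  have hc : (Subgroup.center _).map (e : Spor.threeJ3 _ ω →* H) = Subgroup.center H := by
    ext x
    obtain ⟨y, rfl⟩ := e.surjective x
    exact (Subgroup.mem_map_iff_mem (f := (e : Spor.threeJ3 _ ω →* H)) e.injective).trans
      (MulEquivClass.apply_mem_center_iff e).symm
  have := H15.J3M.isSimple_J3 X
  have f := QuotientGroup.congr _ _ e hc
  refine ⟨GaloisField 2 2, inferInstance, Fintype.ofFinite _, ?_, H, ?_, f.symm.isSimpleGroup,
    (Nat.card_congr f.symm.toEquiv).trans (H15.J3M.card_J3 X)⟩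
  · rw [Fintype.card_eq_nat_card, GaloisField.card 2 2 (by norm_num)]; norm_num
  · rw [← hc, Subgroup.card_map_of_injective e.injective, H15.J3M.card_center X]

end Cfsg.Agent.S0478
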