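import Mathlib
import Cfsg.Statements.S0479
import Cfsg.Agent.Lib.ON.Cover

set_option autoImplicit false
open Cfsg

namespace Cfsg.Agent.S0479

attribute [-instance] H87.ON.normal_sc

theorem aux {n F : Type*} [Fintype n] [DecidableEq n] [CommRing F] {X : Subgroup (Matrix n n F)ˣ}
    (h : commutator X = ⊤) (f : X →* Spor.ON) (hf : Function.Surjective f)
    (hc : Subgroup.center X = f.ker) (h3 : Nat.card (Subgroup.center X) = 3) :
    ∃ H : Subgroup (Matrix.SpecialLinearGroup n F), Nat.card (Subgroup.center H) = 3 ∧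
      Cfsg.IsON (H ⧸ Subgroup.center H) := by
  obtain ⟨Y, ⟨e⟩⟩ := H87.ON.exists_toSL h
  obtain ⟨h, ⟨e'⟩⟩ := H87.ON.cover_gen f hf hc e
  exact ⟨Y, h.trans h3, H87.ON.isON_of_equiv e'⟩

/-- A triple cover of the O'Nan group as 45 × 45 matrices over the field with seven elements: SL(45, 7) has a subgroup whose centre has order 3 and whose quotient by its centre is simple of order 460815505920. -/
theorem result : ∃ H : Subgroup (Matrix.SpecialLinearGroup (Fin 45) (ZMod 7)), Nat.card (Subgroup.center H) = 3 ∧ Cfsg.IsON (H ⧸ Subgroup.center H) := by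
  exact aux H87.ON.perfect_X3 H87.ON.proj H87.ON.proj_surj
    (H87.ON.center_X3.trans H87.ON.proj_ker.symm) H87.ON.card_center_X3

end Cfsg.Agent.S0479
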