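import Cfsg.Statements.S5361
import Mathlib
import Cfsg.Agent.Lib.ThreeTrans.Primitive

set_option autoImplicit false
open Cfsg

namespace Cfsg.Agent.S5361

/-- Let D be a conjugacy class of 3-transpositions generating the finite group G, and suppose the centre of G is trivial and some two different members of D commute. Then the following are equivalent: (1) the commutator subgroup of G is simple (possibly of prime order); (2) G acts primitively on D by conjugation; (3) the largest normal 2-subgroup and the largest normal 3-subgroup of G are trivial and the commuting graph of D is connected. -/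
theorem result {G : Type*} [Group G] [Finite G] {D : Set G} (hD : Cfsg.IsThreeTranspositionClass D) (hZ : Subgroup.center G = ⊥) (hw : ∃ a ∈ D, ∃ b ∈ D, a ≠ b ∧ Commute a b) : (IsSimpleGroup (commutator G) ↔ Cfsg.IsPrimitiveUnderConj D) ∧ (Cfsg.IsPrimitiveUnderConj D ↔ (Cfsg.pCore 2 G = ⊥ ∧ Cfsg.pCore 3 G = ⊥ ∧ (Cfsg.commutingGraph D).Connected)) := by
  have hG := H94.group_of_class hD
  have hT := H94.TT.ofClass hD
  have hD2 : ∃ a ∈ D, ∃ b ∈ D, a ≠ b := by
    obtain ⟨a, ha, b, hb, hab, -⟩ := hw
    exact ⟨a, ha, b, hb, hab⟩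
  refine ⟨⟨H94.primitive_of_simple_commutator hD hD2, fun hp => ?_⟩, fun hp => ?_, fun h => ?_⟩
  · obtain ⟨h1, -, -, -⟩ := H94.exists_quasisimple_of_primitive hG hp hw
    refine H23.IsQuasisimple.isSimpleGroup_of_center_eq_bot h1 ?_
    rw [← Subgroup.map_eq_bot_iff_of_injective _ (commutator G).subtype_injective,
      H23.map_center_subtype, ← le_bot_iff, ← hZ]
    exact (H23.inf_centralizer_le_fitting (Subgroup.Normal.isSubnormal inferInstance)).trans
      (H94.fitting_le_center hG (H94.pCore_two_le_center_of_primitive hG hp)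
        (H94.pCore_three_le_center_of_primitive hG hp hw))
  · refine ⟨?_, ?_, H94.connected_iff.2 ⟨?_, H94.reach_commute_of_primitive hT hp hw⟩⟩
    · rw [← le_bot_iff, ← hZ]; exact H94.pCore_two_le_center_of_primitive hG hp
    · rw [← le_bot_iff, ← hZ]; exact H94.pCore_three_le_center_of_primitive hG hp hw
    · obtain ⟨a, ha, -⟩ := hw
      exact ⟨a, ha⟩
  · exact H94.primitive_of_connected hD hD2 (h.1 ▸ bot_le) (h.2.1 ▸ bot_le) (H94.connected_iff.1 h.2.2).2

end Cfsg.Agent.S5361
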