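import Cfsg.Statements.S5375
import Mathlib
import Cfsg.Agent.Lib.Fischer.T24
import Cfsg.Agent.S1698

set_option autoImplicit false
open Cfsg

namespace Cfsg.Agent.S5375

/-- Let G be a finite group with trivial centre generated by a conjugation-invariant set D of 3-transpositions on which it acts primitively, of type M(24). Then the layer of G (its largest semisimple normal subgroup) has index 2, D has exactly 306936 members, G has order 2^22 · 3^16 · 5^2 · 7^3 · 11 · 13 · 17 · 23 · 29, the width of D is 24, and for every d in D the subgroup generated by the members of D other than d commuting with d is the centralizer of d. -/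
theorem result {G : Type*} [Group G] [Finite G] {D : Set G} (hD : Cfsg.IsThreeTranspositionGroup D) (hprim : Cfsg.IsPrimitiveUnderConj D) (ht : Cfsg.IsOfTypeM24 G D) : (Cfsg.layer G).index = 2 ∧ D.ncard = 306936 ∧ Nat.card G = 2 ^ 22 * 3 ^ 16 * 5 ^ 2 * 7 ^ 3 * 11 * 13 * 17 * 23 * 29 ∧ Cfsg.commutingWidth D = 24 ∧ ∀ d ∈ D, Subgroup.closure {y : G | y ∈ D ∧ y ≠ d ∧ Commute d y} = Subgroup.centralizer ({d} : Set G) := by
  obtain ⟨l, hl, -, -, k, L, h⟩ := H94.exists_std24 hD hprim ht
  obtain ⟨M, -⟩ := h.exists_model
  refine ⟨?_, h.ncard, h.card.trans (by norm_num), h.width,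
    fun d hd => H94.closure_eq_centralizer_of_typeM24 hD hprim ht hd⟩
  obtain ⟨-, h1, h2, -⟩ := H94.exists_quasisimple_of_primitive hD hprim h.fp.width
  obtain ⟨φ, hφ, -⟩ := M.exists_hom
  have e : commutator G = (commutator Spor.Fi24).map φ := by
    rw [commutator, commutator, Subgroup.map_commutator, Subgroup.map_top_of_surjective _ hφ]
  have c : Nat.card (commutator Spor.Fi24) = 1255205709190661721292800 := Cfsg.Agent.S1698.result.2
  have : Finite (commutator Spor.Fi24) := Nat.finite_of_card_ne_zero (by rw [c]; norm_num)
  have h3 : Nat.card (commutator G) ≤ 1255205709190661721292800 := by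
    rw [e, ← c]
    exact Nat.card_le_card_of_surjective _ (φ.subgroupMap_surjective _)
  have h4 := (commutator G).index_mul_card
  rw [h.card] at h4
  rw [h2]
  generalize (commutator G).index = n at *
  interval_cases n <;> omega

end Cfsg.Agent.S5375
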