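import Cfsg.Statements.S0480
import Cfsg.Agent.Lib.Fischer.Final
import Cfsg.Agent.Lib.L0.Refl3
import Cfsg.Agent.S5361
import Cfsg.Agent.S5375

set_option autoImplicit false
open Cfsg

namespace Cfsg.Agent.S0480

open H12 H94 Subgroup Module in
theorem pom {V : Type*} [AddCommGroup V] [Module (ZMod 3) V] [FiniteDimensional (ZMod 3) V]
    {Q : QuadraticForm (ZMod 3) V} (hQ : Nondeg Q) (hn : 5 ≤ finrank (ZMod 3) V)
    (hp : _root_.commutator (Rc Q 1 ⧸ center (Rc Q 1)) = ⊤) :
    Odd (finrank (ZMod 3) V) ∧ Nonempty (Rc Q 1 ⧸ center (Rc Q 1) ≃* Om Q ⧸ center (Om Q)) := by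
  obtain ⟨u, hu⟩ := hQ.universal (by omega) 1
  have u0 : Q u ≠ 0 := hu ▸ one_ne_zero
  have hle : Om Q ≤ Rc Q 1 := by
    obtain ⟨w, h1, -, hw⟩ := L0.R3.exists_orth_Q_eq hQ z3_two hn u0 (s := 0) (by simp) 1
    refine Om_le_of_normalized hQ hn (fun g _ m hm => ?_) (refl_mem_Rc hu)
      (fun e => refl_not_mem_Om hQ u0 (e ▸ one_mem _)) fun e => ?_
    · induction hm using closure_induction with
      | mem x hx =>
        obtain ⟨v, hv, rfl⟩ := hx
        exact refl_conj g v ▸ refl_mem_Rc (by rw [O.map_Q]; exact hv)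
      | one => simp
      | mul x y _ _ hx hy => simpa [mul_assoc] using mul_mem hx hy
      | inv x _ hx => simpa [mul_assoc] using inv_mem hx
    · have h3 := refl_apply_of_orth (Q := Q) (v := u) (x := w) (by rwa [QuadraticMap.polar_comm])
      rw [e, negO_apply] at h3
      have h4 : (2 : ZMod 3) • w = 0 := by linear_combination (norm := module) -h3
      exact ne_zero_of_Q_ne (hw ▸ one_ne_zero) ((smul_eq_zero.1 h4).resolve_left z3_two)
  have key : ∀ g : Rc Q 1, ∃ k : Om Q, inclusion hle k = (g : Rc Q 1 ⧸ center (Rc Q 1)) := fun g => by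
    have : (g : Rc Q 1 ⧸ center (Rc Q 1)) ∈ ((Om Q).subgroupOf (Rc Q 1)).map (QuotientGroup.mk' _) := by
      refine SetLike.le_def.1 ?_ (mem_top _)
      rw [← hp, _root_.commutator, ← map_top_of_surjective _ (QuotientGroup.mk'_surjective _), ← map_commutator]
      refine map_mono (commutator_le.2 fun x _ y _ => ?_)
      exact commutator_mem_commutator (mem_top x.1) (mem_top y.1)
    obtain ⟨k, hk, e⟩ := this
    exact ⟨⟨k.1, hk⟩, e⟩
  obtain ⟨e, f, h⟩ := hQ.exists_hyp_of_three_le (by omega)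
  have k : center (Om Q) = (center (Rc Q 1)).comap (inclusion hle) := by
    ext g
    rw [mem_comap, mem_center_Rc hQ one_ne_zero (by omega), h.mem_center_Om_iff hQ (good3 hQ) (by omega)]; rfl
  refine ⟨?_, ⟨(MulEquiv.ofBijective (QuotientGroup.map _ _ (inclusion hle) k.le) ⟨?_, fun x => ?_⟩).symm⟩⟩
  · obtain ⟨x, hx⟩ := key ⟨_, refl_mem_Rc hu⟩
    rw [QuotientGroup.eq, mem_center_Rc hQ one_ne_zero (by omega)] at hx
    have hd := ((mem_Om_iff hQ (good3 hQ) _).1 x.2).1
    rcases hx with hx | hx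
    · exact absurd ((inv_mul_eq_one.1 hx : x.1 = refl Q u) ▸ x.2) (refl_not_mem_Om hQ u0)
    · have := congrArg (dk hQ (good3 hQ)) (inv_mul_eq_iff_eq_mul.1 hx : refl Q u = x.1 * negO Q)
      rw [map_mul, hd, dk_refl hQ _ u0, dk_negO hQ _ z3_two, one_mul] at this
      exact (Nat.even_or_odd _).resolve_left fun c => by
        rw [c.neg_one_pow] at this; exact absurd this (by decide)
  · rw [← MonoidHom.ker_eq_bot_iff, eq_bot_iff]
    intro x hx
    obtain ⟨x, rfl⟩ := QuotientGroup.mk_surjective x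
    rw [MonoidHom.mem_ker, QuotientGroup.map_mk, QuotientGroup.eq_one_iff, ← mem_comap, ← k] at hx
    exact (QuotientGroup.eq_one_iff _).2 hx
  · obtain ⟨g, rfl⟩ := QuotientGroup.mk_surjective x
    obtain ⟨y, hy⟩ := key g
    exact ⟨y, hy⟩

/-- The simple 3-transposition groups: if a finite non-abelian simple group G is generated by a conjugacy class of 3-transpositions, then G is isomorphic to a symplectic group Sp(2n, 2), or to a projective special unitary group PSU(n, 2) (defined over the field with four elements), or to the projective commutator subgroup of an orthogonal group in odd dimension over the field with three elements, or G has order 64561751654400, or G has order 4089470473293004800. -/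
theorem result {G : Type*} [Group G] [Finite G] [IsSimpleGroup G] (hna : ∃ x y : G, x * y ≠ y * x) {D : Set G} (hD : Cfsg.IsThreeTranspositionClass D) : (∃ n : ℕ, Nonempty (G ≃* Matrix.symplecticGroup (Fin n) (ZMod 2))) ∨ (∃ (F : Type) (_ : Field F) (_ : Fintype F) (n : ℕ), Fintype.card F = 4 ∧ Nonempty (G ≃* Cfsg.PSU n F 2)) ∨ (∃ m : ℕ, Nonempty (G ≃* Cfsg.POmega (ZMod 3) (Cfsg.quadFormOdd m (ZMod 3)))) ∨ Cfsg.IsFi22 G ∨ Cfsg.IsFi23 G := by
  obtain ⟨x, y, hxy⟩ := hna
  have hZ : Subgroup.center G = ⊥ := (Subgroup.Normal.eq_bot_or_eq_top inferInstance).resolve_right fun e =>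
    hxy (Subgroup.mem_center_iff.1 (e ▸ Subgroup.mem_top y) x)
  have hC : commutator G = ⊤ := (Subgroup.Normal.eq_bot_or_eq_top inferInstance).resolve_left fun e =>
    hxy (commutatorElement_eq_one_iff_mul_comm.1 ((Subgroup.eq_bot_iff_forall _).1 e _
      (Subgroup.commutator_mem_commutator (Subgroup.mem_top x) (Subgroup.mem_top y))))
  have hs : IsSimpleGroup (commutator G) := by rw [hC]; exact Subgroup.topEquiv.isSimpleGroup
  have h := H56.FP.of_simple hD hs ⟨⟨x, hC ▸ trivial⟩, ⟨y, hC ▸ trivial⟩, fun e => hxy (congrArg Subtype.val e)⟩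
  have hp := (Cfsg.Agent.S5361.result hD hZ h.width).1.1 hs
  have i1 : ∀ {H : Type} [Group H], (G ≃* H) → (commutator H).index = 1 := fun e => by
    rw [← H12.index_commutator_congr e, hC, Subgroup.index_top]
  have sym : ∀ n, 2 ≤ n → (G ≃* Equiv.Perm (Fin n)) → False := fun n hn e => by
    have : Nontrivial (Fin n) := Fin.nontrivial_iff_two_le.2 hn
    obtain ⟨a, b, hab⟩ := exists_pair_ne (Fin n)
    have := Abelianization.commutator_subset_ker (Equiv.Perm.sign (α := Fin n))
      (Subgroup.index_eq_one.1 (i1 e) ▸ Subgroup.mem_top (Equiv.swap a b))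
    rw [MonoidHom.mem_ker, Equiv.Perm.sign_swap hab] at this
    exact absurd this (by decide)
  rcases h.locW_or with hW | ⟨φ, -⟩
  swap
  · exact (sym 5 (by omega) φ.symm).elim
  by_cases hV : H56.LocV D
  swap
  · rcases h.sp_or_u hZ hV with ⟨m, e, -⟩ | ⟨n, -, e, -⟩
    exacts [Or.inl ⟨m, ⟨e⟩⟩, Or.inr (Or.inl ⟨H30.F4, inferInstance, inferInstance, n, rfl, ⟨e⟩⟩)]
  rcases h.classify hp hZ hV hW with ⟨n, hn, e, -⟩ | (⟨m, hm, e, -⟩ | ⟨m, hm, e, -⟩) | ⟨n, hn, Q, hQ, e, -⟩ | k | k | k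
  · exact (sym n (by omega) e).elim
  · have hQ := H12.nondeg_QPlus (F := ZMod 2) m
    have f := H12.finrank_plus (F := ZMod 2) m
    exact absurd ((i1 (e.trans (H12.plusIso _ m))).symm.trans
      (H12.index_Om_even hQ (H12.good_of_finrank_ne hQ (by omega)) rfl (by omega))) (by decide)
  · have hQ := H12.nondeg_QMinus_of_disc (F := ZMod 2) (a := 1) (b := 1) (by decide) m
    have f : Module.finrank (ZMod 2) ((Fin m ⊕ Fin m) ⊕ Fin 2 → ZMod 2) = m + m + 2 := by simp
    exact absurd ((i1 (e.trans (H12.minusIso m 1 1))).symm.trans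
      (H12.index_Om_even hQ (H12.good_of_finrank_ne hQ (by omega)) rfl (by omega))) (by decide)
  · have hQ' := H12.nondeg_iff.2 hQ
    obtain ⟨e1⟩ := H94.reflectionSubgroup_equiv Q 1
    have e2 := e.trans (H94.centerQuotCongr e1)
    obtain ⟨⟨m, hm⟩, ⟨e3⟩⟩ := pom hQ' (by simpa using hn) (Subgroup.index_eq_one.1 (i1 e2))
    obtain ⟨e4⟩ := H94.O_equiv_odd hQ' hm
    exact Or.inr (Or.inr (Or.inl ⟨m, ⟨e2.trans (e3.trans (H12.pcommCongr e4))⟩⟩))
  · obtain ⟨M⟩ := H94.model22_of_type h.isGroup hp k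
    exact Or.inr (Or.inr (Or.inr (Or.inl ⟨inferInstance, M.card⟩)))
  · obtain ⟨M⟩ := H7.model23_of_type h.isGroup hp k
    exact Or.inr (Or.inr (Or.inr (Or.inr ⟨inferInstance, M.card⟩)))
  · obtain ⟨h1, -, h2, -⟩ := Cfsg.Agent.S5375.result h.isGroup hp k
    rcases (inferInstance : (layer G).Normal).eq_bot_or_eq_top with c | c <;> rw [c] at h1
    · rw [Subgroup.index_bot, h2] at h1; norm_num at h1
    · simp at h1

end Cfsg.Agent.S0480
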