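import Mathlib
import Cfsg.Statements.S0499
import Cfsg.Agent.Lib.Cls.OddAut
import Cfsg.Agent.Lib.Transfer.NormalComplement

set_option autoImplicit false
open Cfsg

namespace Cfsg.Agent.S0499



/-- A non-abelian finite simple group of even order has order divisible by 12, 16 or 56. -/
theorem result {G : Type*} [Group G] [Finite G] [IsSimpleGroup G]
    (hG : ¬ IsMulCommutative G) (h2 : Even (Nat.card G)) :
    12 ∣ Nat.card G ∨ 16 ∣ Nat.card G ∨ 56 ∣ Nat.card G := by
  by_contra hcon
  simp only [not_or] at hcon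
  obtain ⟨h12, h16, h56⟩ := hcon
  have key : Cfsg.HasNormalPComplement 2 G := by
    apply H4.hasNormalPComplement_of_forall_normalizer
    intro Q hQ g hg hgo
    by_contra hc
    obtain ⟨r, hr, hrg, F, hF, hmod⟩ := H19.exists_prime_card_modEq hg hc
    obtain ⟨a, ha⟩ := IsPGroup.iff_card.mp hQ
    obtain ⟨b, hb⟩ := IsPGroup.iff_card.mp (hQ.to_subgroup F)
    have hlt := H1.card_lt_of_ne_top hF
    have hQG : 2 ^ a ∣ Nat.card G := ha ▸ Q.card_subgroup_dvd_card
    have hrG : r ∣ Nat.card G := hrg.trans (orderOf_dvd_natCard g)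
    have hr2 : r ≠ 2 := by
      rintro rfl
      exact absurd (Nat.Coprime.eq_one_of_dvd hgo.symm hrg) (by norm_num)
    rw [ha, hb] at hlt hmod
    have hba : b < a := (Nat.pow_lt_pow_iff_right (by norm_num)).mp hlt
    have ha3 : a ≤ 3 := by
      by_contra h
      exact h16 ((Nat.pow_dvd_pow 2 (show 4 ≤ a by omega)).trans hQG)
    have hd : r ∣ 2 ^ a - 2 ^ b := (Nat.modEq_iff_dvd' hlt.le).mp hmod.symm
    have h3 : r = 3 → 4 ∣ Nat.card G → False := fun h h4 =>
      h12 (Nat.Coprime.mul_dvd_of_dvd_of_dvd (by norm_num : Nat.Coprime 3 4) (h ▸ hrG) h4)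
    have h7 : r = 7 → 8 ∣ Nat.card G → False := fun h h4 =>
      h56 (Nat.Coprime.mul_dvd_of_dvd_of_dvd (by norm_num : Nat.Coprime 7 8) (h ▸ hrG) h4)
    have hrle : r ≤ 7 := by
      have := Nat.le_of_dvd (by omega) hd
      have : 2 ^ a ≤ 2 ^ 3 := Nat.pow_le_pow_right (by norm_num) ha3
      have : 0 < 2 ^ b := by positivity
      omega
    have := hr.two_le
    interval_cases a <;> interval_cases b <;> interval_cases r <;>
      first
        | (norm_num at hd; done)
        | (norm_num at hr; done)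
        | exact hr2 rfl
        | exact h3 rfl (dvd_trans (by decide) hQG)
        | exact h7 rfl (dvd_trans (by decide) hQG)
  obtain ⟨N, hN, h1, k, hk⟩ := H4.hasNormalPComplement_iff_exists.mp key
  rcases hN.eq_bot_or_eq_top with rfl | rfl
  · rw [Subgroup.index_bot] at hk
    have := (IsPGroup.of_card hk).isNilpotent
    exact hG ⟨⟨fun a b => mul_comm a b⟩⟩
  · exact h1 (by simpa using even_iff_two_dvd.mp h2)

end Cfsg.Agent.S0499
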