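import Mathlib
import Cfsg.Statements.S0505
import Cfsg.Agent.Lib.Cls.Basic
import Cfsg.Agent.Lib.Core.Fitting
import Cfsg.Agent.Lib.LocEven.CharP

set_option autoImplicit false
open Cfsg

namespace Cfsg.Agent.S0505



/-- Let G be a finite group of even order in which the centralizer of every involution is solvable and has trivial
core (no nontrivial normal subgroup of odd order). Then G is of characteristic 2 type. -/
theorem result {G : Type*} [Group G] [Finite G]
    (h2 : Even (Nat.card G))
    (hs : ∀ t : G, orderOf t = 2 → Group.IsSolvable (Subgroup.centralizer ({t} : Set G)))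
    (hc : ∀ t : G, orderOf t = 2 → Cfsg.oddCore (Subgroup.centralizer ({t} : Set G)) = ⊥) :
    Cfsg.IsCharacteristicTwoType G := by
  refine ⟨h2, fun T hT hne => ?_⟩
  obtain ⟨t, htT, ht, hc'⟩ := H19.exists_mem_orderOf_eq_commute hT hT Subgroup.le_normalizer hne
  have hTC : T ≤ Subgroup.centralizer ({t} : Set G) := fun x hx =>
    Subgroup.mem_centralizer_singleton_iff.mpr (hc' x (Subgroup.mem_sup_left hx)).symm
  have := hs t ht
  have h1 : H70.CharP 2 (Subgroup.centralizer ({t} : Set G)) :=
    H70.charP_iff.mpr (H1.centralizer_pCore_le_of_isSolvable (hc t ht))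
  have h3 := h1.inf_centralizer hT hTC
  have h4 : Subgroup.centralizer ({t} : Set G) ⊓ Subgroup.centralizer (T : Set G) =
      ⊤ ⊓ Subgroup.centralizer (T : Set G) := by
    rw [top_inf_eq, inf_eq_right]
    exact Subgroup.centralizer_le (by simpa using htT)
  rw [h4] at h3
  exact H70.charP_iff.mp (H70.CharP.of_centralizer hT h3 Subgroup.le_normalizer
    (inf_le_right.trans (Subgroup.centralizer_le_normalizer _)) (by simp))

end Cfsg.Agent.S0505
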