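import Cfsg.Statements.S0518
import Mathlib
import Cfsg.Agent.Base
import Cfsg.Agent.Lib.LocEven.JTrans

set_option autoImplicit false
open Cfsg

namespace Cfsg.Agent.S0518

/-- Let G be a finite group of characteristic 2 type with trivial 2-core in which every 2-local subgroup is solvable
and, for every Sylow 2-subgroup S, the centralizer of the set of central involutions of S lies in the normalizer of S.
Then either G has a strongly embedded subgroup, or the subgroup generated by the elements of odd order has two distinct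
maximal 2-local subgroups, each isomorphic to the symmetric group of degree 4, whose intersection has order 8. -/
theorem result {G : Type*} [Group G] [Finite G]
    (hL : Cfsg.IsCharacteristicTwoType G) (hO : Cfsg.pCore 2 G = ⊥)
    (hN : ∀ N : Subgroup G, Cfsg.IsTwoLocal N → Group.IsSolvable N)
    (hZ : ∀ S : Sylow 2 G,
      Subgroup.centralizer {z : G | z ∈ (S : Subgroup G) ∧ z ^ 2 = 1 ∧ ∀ s ∈ (S : Subgroup G), s * z = z * s} ≤
        Subgroup.normalizer ((S : Subgroup G) : Set G))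
    (H : Subgroup G) (hH : H = Subgroup.closure {g : G | Odd (orderOf g)}) :
    (∃ K : Subgroup G, Cfsg.IsStronglyEmbedded K) ∨
      ∃ M₁ M₂ : Subgroup H, M₁ ≠ M₂ ∧ Cfsg.IsMaximalTwoLocal M₁ ∧ Cfsg.IsMaximalTwoLocal M₂ ∧
        Nonempty (M₁ ≃* Equiv.Perm (Fin 4)) ∧ Nonempty (M₂ ≃* Equiv.Perm (Fin 4)) ∧ Nat.card ↥(M₁ ⊓ M₂) = 8 := by
  have hH' : H = Cfsg.pResidual 2 G := by
    rw [hH, Cfsg.pResidual]
    simp only [Nat.coprime_two_right]
  subst hH'
  have hG : H70.ZN G := ⟨hL, hN, fun S => le_trans (Subgroup.centralizer_le fun z hz =>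
    H70.mem_oz2.2 ⟨hz.1, hz.2.2, hz.2.1⟩) (hZ S)⟩
  rcases hG.main hO with h | ⟨T, K, L, K', L', p⟩
  · exact .inl h
  have key : ∀ {T K L K' L' : Subgroup G}, H70.UP T K L K' L' →
      Nonempty (L.subgroupOf (Cfsg.pResidual 2 G) ≃* Equiv.Perm (Fin 4)) := fun {T K L K' L'} p => by
    obtain ⟨e⟩ := p.iso_res
    rw [← Subgroup.inf_subgroupOf_right]
    exact ⟨(Subgroup.subgroupOfEquivOfLe inf_le_right).trans e⟩
  refine .inr ⟨_, _, fun e => p.ne (p.h.eq_of_le p.h' rfl fun x hx => ?_), p.max_res, p.symm.max_res,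
    key p, key p.symm, ?_⟩
  · exact (e.ge (show (⟨x, p.h'.K_le_res hx⟩ : Cfsg.pResidual 2 G) ∈ L'.subgroupOf _ from p.h'.KL hx) :)
  · rw [← p.card_inf_res, ← H69.card_subgroupOf (inf_le_right : T ⊓ Cfsg.pResidual 2 G ≤ _),
      Subgroup.inf_subgroupOf_right, ← p.inf]
    rfl

end Cfsg.Agent.S0518
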