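import Mathlib
import Cfsg.Statements.S0520
import Cfsg.Agent.Lib.Cls.Four
import Cfsg.Agent.Lib.LocStruct.SylowIn

set_option autoImplicit false
open Cfsg

namespace Cfsg.Agent.S0520
open H69



/-- Let G be a finite group of 2-rank at least 2 and S a Sylow 2-subgroup whose commuting graph of Klein four-subgroups is
connected. Then the commuting graph of Klein four-subgroups of G is disconnected if and only if the 2-generated core — the
subgroup generated by the normalizers N_G(Q) of the subgroups Q of S that contain a Klein four-group — is a proper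
subgroup of G. -/
theorem result {G : Type*} [Group G] [Finite G] (h2 : ¬ Cfsg.PRankLE 2 1 G)
    (S : Sylow 2 G) (hS : Cfsg.IsFourConnected (S : Subgroup G)) :
    ¬ Cfsg.IsFourConnected G ↔
      (⨆ Q : {Q : Subgroup G // Q ≤ (S : Subgroup G) ∧ ¬ Cfsg.PRankLE 2 1 Q},
          Subgroup.normalizer ((Q : Subgroup G) : Set G)) ≠ ⊤ := by
  set Γ := (⨆ Q : {Q : Subgroup G // Q ≤ (S : Subgroup G) ∧ ¬ Cfsg.PRankLE 2 1 Q},
          Subgroup.normalizer ((Q : Subgroup G) : Set G)) with hΓ
  have hfour : ∀ {V : Subgroup G} (g : G), IsKleinFour V → IsKleinFour (V ^ᶜ g) :=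
    fun g hV => H19.isKleinFour_map hV (MulAut.conj g).injective
  -- a four-group inside `S`
  obtain ⟨U, hUS, hU⟩ : ∃ U ≤ (S : Subgroup G), IsKleinFour U := by
    obtain ⟨V, hV⟩ := H19.not_pRankLE_two_one_iff.mp h2
    obtain ⟨g, -, hg⟩ := (isSylowIn_top S).exists_cj_le (H19.isPGroup_of_isKleinFour hV) le_top
    exact ⟨_, hg, hfour g hV⟩
  have hN : ∀ Q V : Subgroup G, Q ≤ S → V ≤ Q → IsKleinFour V → 𝐍(Q) ≤ Γ := by
    intro Q V hQ hV hV4
    exact le_iSup (fun Q : {Q : Subgroup G // Q ≤ (S : Subgroup G) ∧ ¬ Cfsg.PRankLE 2 1 Q} =>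
      Subgroup.normalizer ((Q : Subgroup G) : Set G))
      ⟨Q, hQ, H19.not_pRankLE_two_one_subgroup_iff.mpr ⟨V, hV, hV4⟩⟩
  have hNS : 𝐍((S : Subgroup G)) ≤ Γ := hN S U le_rfl hUS hU
  have hSΓ : (S : Subgroup G) ≤ Γ := Subgroup.le_normalizer.trans hNS
  have hsyl := isSylowIn_of_le S hSΓ
  have hN' : ∀ Q V : Subgroup G, Q ≤ Γ → IsPGroup 2 Q → V ≤ Q → IsKleinFour V → 𝐍(Q) ≤ Γ := by
    intro Q V hQ hQ2 hV hV4
    obtain ⟨g, hg, hQg⟩ := hsyl.exists_cj_le hQ2 hQ
    have := hN _ _ hQg (cj_mono g hV) (hfour g hV4)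
    rw [← cj_normalizer, cj_le_iff, cj_eq_of_mem (Γ.inv_mem hg)] at this
    exact this
  rw [not_iff_not]
  constructor
  · intro hG
    rw [eq_top_iff]
    intro g _
    have h1 : ∀ V : Subgroup G, H19.FourConn U V → V ≤ Γ := by
      intro V hV
      induction hV with
      | refl => exact hUS.trans hSΓ
      | tail _ h ih =>
        refine le_trans ?_ (hN' _ _ ih (H19.isPGroup_of_isKleinFour h.1) le_rfl h.1)
        exact le_normalizer_of_le_centralizer (fun b hb a ha => h.2.2 a ha b hb)
    have h3 := h1 _ (hG _ _ hU (hfour g hU))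
    have h4 : (S : Subgroup G) ^ᶜ g ≤ Γ := by
      by_contra hc
      have hT : IsPGroup 2 ((S : Subgroup G) ^ᶜ g) := isPGroup_cj S.isPGroup' g
      have hlt : (S : Subgroup G) ^ᶜ g ⊓ Γ < (S : Subgroup G) ^ᶜ g :=
        lt_of_le_of_ne inf_le_left (fun h => hc (inf_eq_left.mp h))
      have h5 := lt_inf_normalizer_of_lt hT hlt
      have h6 := hN' _ (U ^ᶜ g) inf_le_right hT.to_inf_left (le_inf (cj_mono g hUS) h3) (hfour g hU)
      exact absurd (inf_le_inf_left _ h6) (not_le_of_gt h5)
    have h5 : IsSylowIn 2 ((S : Subgroup G) ^ᶜ g) Γ := by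
      have := (isSylowIn_top S).cj g
      rw [cj_top] at this
      exact this.mono h4 le_top
    obtain ⟨k, hk, hkg⟩ := h5.conj hsyl
    rw [cj_cj, cj_eq_self_iff] at hkg
    simpa using Γ.mul_mem (Γ.inv_mem hk) (hNS hkg)
  · intro htop
    let H : Subgroup G :=
      { carrier := {g | H19.FourConn U (U ^ᶜ g)}
        one_mem' := by
          change H19.FourConn U (U ^ᶜ 1)
          rw [cj_one]; exact H19.FourConn.refl _
        mul_mem' := by
          intro a b ha hb
          change H19.FourConn U (U ^ᶜ (a * b))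
          rw [← cj_cj]
          exact H19.FourConn.trans ha (H19.FourConn.map hb (MulAut.conj a).injective)
        inv_mem' := by
          intro a ha
          change H19.FourConn U (U ^ᶜ a⁻¹)
          have := H19.FourConn.map (f := (MulAut.conj a⁻¹).toMonoidHom) ha
            (MulAut.conj a⁻¹).injective
          rw [cj_cj_inv] at this
          exact this.symm }
    have hΓH : Γ ≤ H := by
      refine iSup_le fun Q => ?_
      obtain ⟨V, hVQ, hV⟩ := H19.not_pRankLE_two_one_subgroup_iff.mp Q.2.2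
      intro n hn
      change H19.FourConn U (U ^ᶜ n)
      have h1 := H19.fourConn_of_le hS hU hV hUS (hVQ.trans Q.2.1)
      have h3 := H19.fourConn_of_le hS hV (hfour n hV) (hVQ.trans Q.2.1)
        ((cj_le_of_mem_normalizer hVQ hn).trans Q.2.1)
      exact (h1.trans h3).trans (H19.FourConn.map h1 (MulAut.conj n).injective).symm
    have key : ∀ W : Subgroup G, IsKleinFour W → H19.FourConn U W := by
      intro W hW
      obtain ⟨g, -, hg⟩ := (isSylowIn_top S).exists_cj_le (H19.isPGroup_of_isKleinFour hW) le_top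
      have h1 := H19.fourConn_of_le hS hU (hfour g hW) hUS hg
      have h3 := H19.FourConn.map (f := (MulAut.conj g⁻¹).toMonoidHom) h1
        (MulAut.conj g⁻¹).injective
      rw [cj_cj_inv] at h3
      have h4 : g⁻¹ ∈ H := hΓH (htop ▸ Subgroup.mem_top _)
      exact H19.FourConn.trans h4 h3
    intro V W hV hW
    exact (key V hV).symm.trans (key W hW)

end Cfsg.Agent.S0520
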