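import Mathlib
import Cfsg.Agent.Base
import Cfsg.Agent.Lib.FGS.PLength
import Cfsg.Agent.Lib.OddLocal.PStable
import Cfsg.Agent.Lib.BG5.Rank
import Cfsg.Agent.Lib.SigGen.Key
import Cfsg.Statements.S0521

set_option autoImplicit false
open Cfsg

namespace Cfsg.Agent.S0521

open Subgroup
open scoped commutatorElement

theorem le_centralizer_of_card_dvd {G : Type*} [Group G] [Finite G] {p : ℕ} [hp : Fact p.Prime]
    {W S : Subgroup G} (hW : Nat.card W ∣ p) (hS : IsPGroup p S) (hSW : S ≤ normalizer (W : Set G)) :
    W ≤ centralizer (S : Set G) := by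
  by_cases h1 : W = ⊥
  · rw [h1]; exact bot_le
  have hWp : Nat.card W = p := by
    rcases (Nat.dvd_prime hp.out).1 hW with h | h
    · exact absurd (card_eq_one.1 h) h1
    · exact h
  have hne := H49.inf_centralizer_ne_bot_of_le_normalizer hS (IsPGroup.of_card (n := 1) (by simpa using hWp)) h1 hSW
  have hd : Nat.card (W ⊓ centralizer (S : Set G) : Subgroup G) ∣ p := hWp ▸ card_dvd_of_le inf_le_left
  rcases (Nat.dvd_prime hp.out).1 hd with h | h
  · exact absurd (card_eq_one.1 h) hne
  · have := eq_of_le_of_card_ge (inf_le_left : W ⊓ centralizer (S : Set G) ≤ W) (by rw [h, hWp])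
    rw [← this]; exact inf_le_right

/-- Let X be a finite solvable group of odd order, p a prime and S a Sylow p-subgroup of X whose commutator subgroup is
cyclic. Then the product of the largest normal subgroup of X of order prime to p with S is a normal subgroup of X. -/
theorem result {X : Type*} [Group X] [Finite X] [Group.IsSolvable X]
    (hX : Odd (Nat.card X)) (p : ℕ) [Fact p.Prime] (S : Sylow p X) (hS : IsCyclic (commutator (S : Subgroup X))) :
    (Cfsg.pPrimeCore p X ⊔ (S : Subgroup X)).Normal := by
  have hp : p.Prime := Fact.out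
  by_cases hp2 : p = 2
  · subst hp2
    have : (S : Subgroup X) = ⊥ := by
      obtain ⟨k, hk⟩ := S.isPGroup'.exists_card_eq
      have hd : 2 ^ k ∣ Nat.card X := hk ▸ card_subgroup_dvd_card _
      have := hX.of_dvd_nat hd
      rcases k with _ | k
      · exact card_eq_one.1 (by simpa using hk)
      · exact absurd this (by rw [pow_succ]; simp [Nat.odd_mul])
    rw [this, sup_bot_eq]
    infer_instance
  obtain ⟨H, _, _, f, hf, hcomap, hab, hexp, hC⟩ :=
    H76.exists_reduced (p := p) (G := X) H76.isPSolvable_of_isSolvable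
  have hHodd : Odd (Nat.card H) := hX.of_dvd_nat (card_dvd_of_surjective f hf)
  set V := pCore p H with hV
  set T := (S : Subgroup X).map f with hT
  have hTp : IsPGroup p T := S.isPGroup'.map f
  have hVT : V ≤ T := H76.pCore_le_map_sylow hf S
  have hcyc : IsCyclic (⁅T, T⁆ : Subgroup H) := by
    rw [hT, ← map_commutator, ← H45.map_subtype_commutator, map_map]
    exact isCyclic_of_surjective _ (MonoidHom.subgroupMap_surjective _ _)
  have hW : Nat.card (⁅V, T⁆ : Subgroup H) ∣ p := by
    have hc : IsCyclic (⁅V, T⁆ : Subgroup H) := H45.cyclicS hcyc (commutator_mono hVT le_rfl)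
    rw [← IsCyclic.exponent_eq_card]
    apply Monoid.exponent_dvd_of_forall_pow_eq_one
    intro g
    exact Subtype.ext (hexp g (commutator_le_left V T g.2))
  have hq : ⁅⁅V, T⁆, T⁆ = ⊥ := commutator_eq_bot_iff_le_centralizer.2
    (le_centralizer_of_card_dvd hW hTp (H79.SG.right_norm_comm V T))
  have h1 := H50.PStable.map_le_pCore_of_normal p hp2 hHodd (P := V) (H1.isPGroup_pCore) (QuotientGroup.mk' V)
    (QuotientGroup.mk'_surjective V) (by rw [QuotientGroup.ker_mk']; exact hC) hq
  rw [H1.pCore_quotient_pCore, le_bot_iff, Subgroup.map_eq_bot_iff, QuotientGroup.ker_mk'] at h1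
  have hS1 : (S : Subgroup X) ≤ pPrimePCore p X := by
    rw [← hcomap]; exact map_le_iff_le_comap.1 h1
  have : pPrimeCore p X ⊔ (S : Subgroup X) = pPrimePCore p X := by
    apply le_antisymm
    · refine sup_le ?_ hS1
      intro x hx
      show QuotientGroup.mk' _ x ∈ pCore p _
      rw [QuotientGroup.mk'_apply, (QuotientGroup.eq_one_iff x).2 hx]
      exact one_mem _
    · have := comap_mono (f := QuotientGroup.mk' (pPrimeCore p X))
        (H76.pCore_le_map_sylow (QuotientGroup.mk'_surjective (pPrimeCore p X)) S)
      rw [comap_map_eq, QuotientGroup.ker_mk', sup_comm] at this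
      exact this
  rw [this]
  infer_instance

end Cfsg.Agent.S0521
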