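import Cfsg.Statements.S0522
import Cfsg.Agent.Lib.Loc45.Trans
import Cfsg.Agent.Lib.BG.Api.Rank2

set_option autoImplicit false
open Cfsg
open H45 H69

namespace Cfsg.Agent.S0522

/-- Transitivity Theorem (odd-order setting). Let X be a finite group of odd order in which the normalizer of every
nontrivial p-subgroup is solvable, P a Sylow p-subgroup, and B an abelian subgroup of P, normalized by P, with
C_P(B) = B and containing an elementary abelian subgroup of order p^3. Then for every prime q ≠ p, any two q-subgroups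
that are maximal among the q-subgroups normalized by B are conjugate by an element of the centralizer of B. -/
theorem result {X : Type*} [Group X] [Finite X] (hX : Odd (Nat.card X)) (p : ℕ)
    [Fact p.Prime] (hloc : ∀ T : Subgroup X, IsPGroup p T → T ≠ ⊥ → Group.IsSolvable (Subgroup.normalizer (T : Set X)))
    (P : Sylow p X) (B : Subgroup X) (hBP : B ≤ (P : Subgroup X))
    (hBn : ∀ x ∈ (P : Subgroup X), ∀ b ∈ B, x * b * x⁻¹ ∈ B) (hBa : IsMulCommutative B)
    (hBc : (P : Subgroup X) ⊓ Subgroup.centralizer (B : Set X) = B)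
    (hB3 : ∃ E : Subgroup X, E ≤ B ∧ (∀ e ∈ E, e ^ p = 1) ∧ p ^ 3 ≤ Nat.card E)
    (q : ℕ) [Fact q.Prime] (hqp : q ≠ p) (Q₁ Q₂ : Subgroup X)
    (h₁ : IsPGroup q Q₁ ∧ B ≤ Subgroup.normalizer (Q₁ : Set X) ∧
      ∀ R : Subgroup X, IsPGroup q R → B ≤ Subgroup.normalizer (R : Set X) → Q₁ ≤ R → R = Q₁)
    (h₂ : IsPGroup q Q₂ ∧ B ≤ Subgroup.normalizer (Q₂ : Set X) ∧
      ∀ R : Subgroup X, IsPGroup q R → B ≤ Subgroup.normalizer (R : Set X) → Q₂ ≤ R → R = Q₂) :
    ∃ c ∈ Subgroup.centralizer (B : Set X), Q₂ = Q₁.map (MulAut.conj c).toMonoidHom := by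
  have hp : p.Prime := Fact.out
  have hBp : IsPGroup p B := P.isPGroup'.to_le hBP
  have hS : IsSCN (P : Subgroup X) B := ⟨hBP, fun x hx =>
    Subgroup.mem_normalizer_fintype (fun b hb => hBn x hx b hb), hBc⟩
  have h1 := SCN_Sylow_cent (isSylowIn_top P) hS
  rw [top_inf_eq] at h1
  have hm : ∀ Q : Subgroup X, (IsPGroup q Q ∧ B ≤ Subgroup.normalizer (Q : Set X) ∧
      ∀ R : Subgroup X, IsPGroup q R → B ≤ Subgroup.normalizer (R : Set X) → Q ≤ R → R = Q) →
      Q ∈ maxInvSubgroups ⊤ B {q} := fun Q h => mem_maxInvSubgroups.2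
    ⟨⟨le_top, H1.isPiSubgroup_singleton_iff.2 h.1, h.2.1⟩, fun R _ a b c =>
      h.2.2 R (H1.isPiSubgroup_singleton_iff.1 a) b c⟩
  obtain ⟨E, hEB, hE, hc⟩ := hB3
  have h3 : 2 < pRk p B := (min_not_pRankLE_iff hp).1 (H49.not_pRankLE_of_lt hEB
    ⟨abelianS hBa hEB, hE⟩ (lt_of_lt_of_le (Nat.pow_lt_pow_right hp.one_lt (by norm_num)) hc))
  have h2 : p = 2 → ∀ S : Subgroup X, IsPGroup p S → ⁅⁅S, S⁆, S⁆ = ⊥ := by
    intro h S hS
    subst h
    rcases hS.card_eq_or_dvd with h | h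
    · rw [Subgroup.card_eq_one.1 h]; simp
    · exact absurd (h.trans (Subgroup.card_subgroup_dvd_card S)) hX.not_two_dvd_nat
  obtain ⟨k, hk, e⟩ := H45.TB.transitivity (p := p) (fun T a b => by
      have := hloc T a b
      exact H23.isPConstrained_of_isSolvable) h2 hBp hBa h3
    (fun x hx hxp => h1.le_of_normal_syl ⟨h1.le, Subgroup.centralizer_le_normalizer _⟩
      (Subgroup.zpowers_le.2 hx) (p_elt_singleton_iff.1 hxp) (Subgroup.mem_zpowers x))
    hqp (hm _ h₁) (hm _ h₂)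
  exact ⟨k, pcore_sub _ _ hk, e⟩

end Cfsg.Agent.S0522
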