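import Mathlib
import Cfsg.Statements.S0530
import Cfsg.Agent.Lib.Solv.Supersolvable2
-- import your own Cfsg.Agent.* helpers here

set_option autoImplicit false
open Cfsg

namespace Cfsg.Agent.S0530

/-- A finite group whose order is twice a prime power is supersolvable. -/
theorem result {G : Type*} [Group G] [Finite G] (p n : ℕ) (hp : p.Prime) (hG : Nat.card G = 2 * p ^ n) : Cfsg.IsSupersolvable G := by
  haveI := Fact.mk hp
  obtain ⟨K, hK⟩ := Sylow.exists_subgroup_card_pow_prime p (n := n) (G := G) (hG ▸ Dvd.intro_left 2 rfl)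
  refine H21.isSupersolvable_of_index_dvd_two K (IsPGroup.of_card hK) ?_
  have h := K.index_mul_card
  rw [hK, hG] at h
  rw [Nat.eq_of_mul_eq_mul_right (pow_pos hp.pos n) h]

end Cfsg.Agent.S0530
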