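import Cfsg.Statements.S0534
import Mathlib
import Cfsg.Agent.Base
import Cfsg.Agent.Lib.Solv.Supersolvable2
import Cfsg.Agent.Lib.Core.Hall

set_option autoImplicit false
open Cfsg

namespace Cfsg.Agent.S0534

open Subgroup

/-- Let G be a finite solvable group and A a finite abelian group such that every prime dividing the order of A divides the order of G and, for each prime p dividing the order of G, the exponent of p in the order of A is one less than its exponent in the order of G. Then G × A has a subgroup of every order dividing its order. -/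
theorem result {G A : Type*} [Group G] [CommGroup A] [Finite G] [Finite A] [Group.IsSolvable G] (hA : ∀ p : ℕ, p.Prime → p ∣ Nat.card A → p ∣ Nat.card G) (hexp : ∀ p : ℕ, p.Prime → p ∣ Nat.card G → (Nat.card A).factorization p + 1 = (Nat.card G).factorization p) : Cfsg.HasSubgroupOfEveryOrder (G × A) := by
  classical
  intro d hd
  rw [Nat.card_prod] at hd
  have hG0 : Nat.card G ≠ 0 := Nat.card_pos.ne'
  have hA0 : Nat.card A ≠ 0 := Nat.card_pos.ne'
  have hd0 : d ≠ 0 := by
    rintro rfl
    exact mul_ne_zero hG0 hA0 (Nat.eq_zero_of_zero_dvd hd)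
  obtain ⟨H, hH⟩ := H3.exists_isPiHall (G := G)
    {p | (Nat.card G).factorization p ≤ d.factorization p}
  obtain ⟨h1, h2⟩ := H3.isPiHall_iff.1 hH
  have hH0 : Nat.card H ≠ 0 := Nat.card_pos.ne'
  have hi0 : H.index ≠ 0 := index_ne_zero_of_finite
  have hfac : ∀ p, (Nat.card G).factorization p =
      (Nat.card H).factorization p + H.index.factorization p := by
    intro p
    rw [← H.card_mul_index, Nat.factorization_mul hH0 hi0]
    rfl
  have hdle : ∀ p, d.factorization p ≤
      (Nat.card G).factorization p + (Nat.card A).factorization p := by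
    intro p
    have := (Nat.factorization_le_iff_dvd hd0 (mul_ne_zero hG0 hA0)).2 hd p
    rwa [Nat.factorization_mul hG0 hA0] at this
  have hHd : Nat.card H ∣ d := by
    rw [← Nat.factorization_prime_le_iff_dvd hH0 hd0]
    intro p hp
    by_cases hpd : p ∣ Nat.card H
    · have h3 : (Nat.card G).factorization p ≤ d.factorization p := h1 p hp hpd
      have := hfac p
      omega
    · rw [Nat.factorization_eq_zero_of_not_dvd hpd]
      exact Nat.zero_le _
  obtain ⟨e, he⟩ := hHd
  have he0 : e ≠ 0 := by
    rintro rfl
    exact hd0 (by simpa using he)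
  have heA : e ∣ Nat.card A := by
    rw [← Nat.factorization_prime_le_iff_dvd he0 hA0]
    intro p hp
    have h3 : d.factorization p = (Nat.card H).factorization p + e.factorization p := by
      rw [he, Nat.factorization_mul hH0 he0]
      rfl
    have h4 := hfac p
    have h5 := hdle p
    by_cases hπ : (Nat.card G).factorization p ≤ d.factorization p
    · have h6 : ¬ p ∣ H.index := fun hd' => h2 p hp hd' hπ
      have h7 := Nat.factorization_eq_zero_of_not_dvd h6
      omega
    · have h6 : p ∣ Nat.card G := by
        by_contra h6
        exact hπ (by rw [Nat.factorization_eq_zero_of_not_dvd h6]; exact Nat.zero_le _)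
      have h7 := hexp p hp h6
      omega
  obtain ⟨B, hB⟩ := H21.hasSubgroupOfEveryOrder_of_isSupersolvable
    (H21.isSupersolvable_of_isNilpotent A) e heA
  refine ⟨H.prod B, ?_⟩
  rw [Nat.card_congr (prodEquiv H B).toEquiv, Nat.card_prod, hB, he]

end Cfsg.Agent.S0534
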