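import Cfsg.Statements.S0535
import Mathlib
import Cfsg.Agent.Base
import Cfsg.Agent.S0006
import Cfsg.Agent.Lib.Core.GrpBasic

set_option autoImplicit false
open Cfsg

namespace Cfsg.Agent.S0535

open Subgroup

/-- Suppose that for every nontrivial subgroup H of a finite group and every prime p dividing the order of H there is a proper subgroup of H whose index in H is a power of p. Then the group is solvable. -/
theorem result {G : Type*} [Group G] [Finite G] (h : ∀ H : Subgroup G, H ≠ ⊥ → ∀ p : ℕ, p.Prime → p ∣ Nat.card H → ∃ K : Subgroup H, K ≠ ⊤ ∧ ∃ k : ℕ, K.index = p ^ k) : Group.IsSolvable G := by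
  classical
  refine Cfsg.Agent.S0006.main _ rfl fun p hp => ?_
  have hex : ∃ n, ∃ H : Subgroup G, (∃ k, H.index = p ^ k) ∧ Nat.card H = n :=
    ⟨_, ⊤, ⟨0, by simp⟩, rfl⟩
  obtain ⟨H, ⟨k, hk⟩, hH⟩ := Nat.find_spec hex
  refine ⟨H, ⟨k, hk⟩, fun hd => ?_⟩
  have hne : H ≠ ⊥ := by
    rintro rfl
    rw [card_bot] at hd
    exact hp.one_lt.ne' (Nat.dvd_one.1 hd)
  obtain ⟨K, hK, l, hl⟩ := h H hne p hp hd
  have hlt : Nat.card (K.map H.subtype) < Nat.find hex := by
    rw [← hH, card_map_of_injective (subtype_injective H)]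
    exact H1.card_lt_of_ne_top hK
  refine Nat.find_min hex hlt ⟨K.map H.subtype, ⟨l + k, ?_⟩, rfl⟩
  rw [index_map_subtype, hl, hk, pow_add]

end Cfsg.Agent.S0535
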