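import Cfsg.Statements.S0537
import Mathlib
import Cfsg.Agent.Base
import Cfsg.Agent.Lib.Tech58.Schmidt

set_option autoImplicit false
open Cfsg

namespace Cfsg.Agent.S0537

open Subgroup

/-- A finite non-abelian group in which every proper subgroup is abelian is either of prime-power order, or is generated by a cyclic Sylow p-subgroup and a normal Sylow q-subgroup that is elementary abelian, for distinct primes p and q. -/
theorem result {G : Type*} [Group G] [Finite G] (hna : ¬ IsMulCommutative G) (h : ∀ H : Subgroup G, H ≠ ⊤ → IsMulCommutative H) : (∃ p : ℕ, p.Prime ∧ IsPGroup p G) ∨ ∃ p q : ℕ, p.Prime ∧ q.Prime ∧ p ≠ q ∧ ∃ (P : Sylow p G) (Q : Sylow q G), IsCyclic P ∧ (Q : Subgroup G).Normal ∧ Cfsg.IsElementaryAbelian q (Q : Subgroup G) ∧ (P : Subgroup G) ⊔ Q = ⊤ := by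
  by_cases hn : Group.IsNilpotent G
  · left
    by_contra h1
    push Not at h1
    refine hna (H58.comm_of_isNilpotent_of_abP fun p hp Q hQ a ha b hb => ?_)
    have := h Q fun h2 => h1 p hp (hQ.of_surjective Q.subtype fun g => ⟨⟨g, h2 ▸ mem_top g⟩, rfl⟩)
    exact congrArg Subtype.val (this.is_comm.comm (⟨a, ha⟩ : Q) ⟨b, hb⟩)
  right
  obtain ⟨p, q, hp, hq, hpq, P, Q, g, h1, h2, h3, h4⟩ := H58.schmidt (G := G)
    ⟨hn, fun H hH => H1.isNilpotent_of_isMulCommutative (h := h H hH)⟩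
  haveI := Fact.mk hp
  haveI := Fact.mk hq
  have hQt : (Q : Subgroup G) ≠ ⊤ := fun h5 => hn (Q.2.of_surjective (Q : Subgroup G).subtype
    fun g => ⟨⟨g, h5 ▸ mem_top g⟩, rfl⟩).isNilpotent
  have hQ := h _ hQt
  have hc : ∀ a ∈ (Q : Subgroup G), ∀ b ∈ (Q : Subgroup G), Commute a b := fun a ha b hb =>
    congrArg Subtype.val (hQ.is_comm.comm (⟨a, ha⟩ : (Q : Subgroup G)) ⟨b, hb⟩)
  refine ⟨p, q, hp, hq, hpq, P, Q, ?_, h2, ⟨hQ, ?_⟩, by rw [sup_comm, h3]⟩
  · change IsCyclic (P : Subgroup G)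
    rw [h1]
    infer_instance
  let W : Subgroup G :=
    { carrier := {x | x ∈ (Q : Subgroup G) ∧ x ^ q = 1}
      mul_mem' := fun {a b} ha hb => ⟨mul_mem ha.1 hb.1, by
        rw [(hc a ha.1 b hb.1).mul_pow, ha.2, hb.2, one_mul]⟩
      one_mem' := ⟨one_mem _, one_pow _⟩
      inv_mem' := fun {a} ha => ⟨inv_mem ha.1, by rw [inv_pow, ha.2, inv_one]⟩ }
  haveI hWn : W.Normal := ⟨fun a ha g => ⟨h2.conj_mem a ha.1 g, by
    rw [conj_pow, ha.2, mul_one, mul_inv_cancel]⟩⟩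
  have hinf : (P : Subgroup G) ⊓ Q = ⊥ := (IsPGroup.disjoint_of_ne p q hpq _ _ P.2 Q.2).eq_bot
  have htop : W ⊔ P = ⊤ := by
    by_contra h5
    have h6 := h _ h5
    refine h4 (H2.le_centralizer_of_prime_order (A := P) hQ le_normalizer_of_normal
      (IsPGroup.coprime_card_of_ne p q hpq _ _ P.2 Q.2) (fun v hv hvp => ?_)
      (h1 ▸ mem_zpowers g))
    obtain ⟨k, hk⟩ := H35.isPElt_of_mem Q.2 hv
    have hvo : orderOf v = q :=
      (Nat.prime_dvd_prime_iff_eq hvp hq).1 (hvp.dvd_of_dvd_pow (dvd_of_eq hk))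
    exact mem_centralizer_iff.2 fun y hy => congrArg Subtype.val (h6.is_comm.comm
      (⟨y, mem_sup_right hy⟩ : (W ⊔ P : Subgroup G))
      ⟨v, mem_sup_left ⟨hv, hvo ▸ pow_orderOf_eq_one v⟩⟩)
  intro a ha
  obtain ⟨w, hw, y, hy, rfl⟩ := H3.mem_sup_iff_of_normal.1 (htop ▸ mem_top a)
  have : y ∈ (P : Subgroup G) ⊓ Q := ⟨hy, by
    have := mul_mem (inv_mem hw.1) ha
    rwa [inv_mul_cancel_left] at this⟩
  rw [hinf, mem_bot] at this
  rw [this, mul_one]
  exact hw.2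

end Cfsg.Agent.S0537
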