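import Cfsg.Statements.S0546
import Mathlib
import Cfsg.Agent.Base
import Cfsg.Agent.Lib.Tech58.Carter

set_option autoImplicit false
open Cfsg

namespace Cfsg.Agent.S0546

open Subgroup

/-- The normal closure of a system normalizer of a finite solvable group is the whole group. -/
theorem result {G : Type*} [Group G] [Finite G] [Group.IsSolvable G] (K : Nat.Primes → Subgroup G) (hK : Cfsg.IsComplementSystem K) : Subgroup.normalClosure ((Cfsg.systemNormalizer K : Subgroup G) : Set G) = ⊤ := by
  set N := normalClosure ((systemNormalizer K : Subgroup G) : Set G)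
  by_contra hN
  haveI : Nontrivial (G ⧸ N) := QuotientGroup.nontrivial_iff.2 hN
  haveI : IsMulCommutative (G ⧸ commutator G) :=
    Normal.quotient_commutative_iff_commutator_le.2 le_rfl
  have h1 := H58.sup_systemNormalizer hK (commutator G) H1.isNilpotent_of_isMulCommutative
  have h2 := congrArg (map (QuotientGroup.mk' N)) h1
  rw [Subgroup.map_sup, (Subgroup.map_eq_bot_iff (systemNormalizer K)).2
    (by rw [QuotientGroup.ker_mk']; exact le_normalClosure),
    bot_sup_eq, map_top_of_surjective _ (QuotientGroup.mk'_surjective N), commutator_def,
    map_commutator, map_top_of_surjective _ (QuotientGroup.mk'_surjective N)] at h2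
  exact (IsSolvable.commutator_lt_top_of_nontrivial (G ⧸ N)).ne h2

end Cfsg.Agent.S0546
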