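import Mathlib
import Cfsg.Statements.S0547
import Cfsg.Agent.Lib.Solv.Primitive
-- import your own Cfsg.Agent.* helpers here

set_option autoImplicit false
open Cfsg

namespace Cfsg.Agent.S0547

/-- Let a finite solvable group G act faithfully and primitively on a set, and let M be a minimal normal subgroup of G. Then M is transitive with trivial point stabilizers, and the number of points equals the order of M, which is a prime power p ^ d with d ≥ 1. -/
theorem result {G : Type*} [Group G] [Finite G] [Group.IsSolvable G] {Ω : Type*} [Nonempty Ω] [MulAction G Ω] [FaithfulSMul G Ω] (hprim : MulAction.IsPreprimitive G Ω) (M : Subgroup G) [M.Normal] (hM : M ≠ ⊥) (hmin : ∀ K : Subgroup G, K.Normal → K ≤ M → K = ⊥ ∨ K = M) : MulAction.IsPretransitive M Ω ∧ (∀ ω : Ω, MulAction.stabilizer M ω = ⊥) ∧ ∃ p d : ℕ, p.Prime ∧ 0 < d ∧ Nat.card Ω = p ^ d ∧ Nat.card M = p ^ d := by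
  haveI := H21.isPretransitive_of_normal_of_ne_bot hprim M hM
  have hMN : H3.IsMinNormal M := ⟨inferInstance, hM, hmin⟩
  obtain ⟨hc, p, hp, hpd, -, hMp⟩ := hMN.elementary inferInstance
  have hstab : ∀ ω : Ω, MulAction.stabilizer M ω = ⊥ := by
    intro ω
    rw [eq_bot_iff]
    intro m hm
    exact Subtype.ext (H21.eq_one_of_centralizes_of_smul_eq M (Subgroup.le_centralizer M m.2) hm)
  refine ⟨this, hstab, ?_⟩
  haveI := Fact.mk hp
  obtain ⟨d, hd⟩ := hMp.exists_card_eq
  obtain ⟨ω⟩ := ‹Nonempty Ω›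
  refine ⟨p, d, hp, Nat.pos_of_ne_zero ?_, ?_, hd⟩
  · rintro rfl
    exact hM (Subgroup.card_eq_one.1 (by simpa using hd))
  · rw [← hd, ← MulAction.index_stabilizer_of_transitive M ω, hstab, Subgroup.index_bot]

end Cfsg.Agent.S0547
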