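import Mathlib
import Cfsg.Statements.S0548
import Cfsg.Agent.Lib.Solv.Primitive
-- import your own Cfsg.Agent.* helpers here

set_option autoImplicit false
open Cfsg

namespace Cfsg.Agent.S0548

/-- Let a finite solvable group G act faithfully and primitively on a set, let M be a minimal normal subgroup and H the stabilizer of a point. Then H is a complement to M, no non-identity element of H centralizes M, and the only subgroups of M normalized by H are the trivial subgroup and M. -/
theorem result {G : Type*} [Group G] [Finite G] [Group.IsSolvable G] {Ω : Type*} [MulAction G Ω] [FaithfulSMul G Ω] (hprim : MulAction.IsPreprimitive G Ω) (M : Subgroup G) [M.Normal] (hM : M ≠ ⊥) (hmin : ∀ K : Subgroup G, K.Normal → K ≤ M → K = ⊥ ∨ K = M) (ω : Ω) : Subgroup.IsComplement' M (MulAction.stabilizer G ω) ∧ MulAction.stabilizer G ω ⊓ Subgroup.centralizer (M : Set G) = ⊥ ∧ ∀ K : Subgroup G, K ≤ M → MulAction.stabilizer G ω ≤ Subgroup.normalizer (K : Set G) → K = ⊥ ∨ K = M := by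
  haveI := H21.isPretransitive_of_normal_of_ne_bot hprim M hM
  have hMN : H3.IsMinNormal M := ⟨inferInstance, hM, hmin⟩
  haveI := hMN.isMulCommutative inferInstance
  have hc : Subgroup.IsComplement' M (MulAction.stabilizer G ω) :=
    Subgroup.isComplement'_stabilizer ω
      (fun m hm => Subtype.ext
        (H21.eq_one_of_centralizes_of_smul_eq M (Subgroup.le_centralizer M m.2) hm))
      (fun g => MulAction.exists_smul_eq M _ _)
  refine ⟨hc, ?_, fun K hK hn => hmin K ?_ hK⟩
  · rw [eq_bot_iff]
    intro x hx
    exact H21.eq_one_of_centralizes_of_smul_eq M hx.2 hx.1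
  · refine H21.normal_of_sup_eq_top hc.sup_eq_top ?_ hn
    exact (Subgroup.le_centralizer_iff.1 (hK.trans (Subgroup.le_centralizer M))).trans
      (Subgroup.centralizer_le_normalizer _)

end Cfsg.Agent.S0548
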