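import Mathlib
import Cfsg.Statements.S0550
import Cfsg.Agent.Lib.Solv.Primitive
-- import your own Cfsg.Agent.* helpers here

set_option autoImplicit false
open Cfsg

namespace Cfsg.Agent.S0550

/-- Let U be a maximal subgroup with trivial normal core in a finite group G, and A ≠ B two minimal normal subgroups. Then A is the centralizer of B and B that of A, U complements each of them, A and B are non-abelian, and A, B and (A ⊔ B) ∩ U are pairwise isomorphic. -/
theorem result {G : Type*} [Group G] [Finite G] (U : Subgroup G) (hU : IsCoatom U) (hcore : U.normalCore = ⊥) (A B : Subgroup G) [A.Normal] [B.Normal] (hA : A ≠ ⊥) (hB : B ≠ ⊥) (hAmin : ∀ K : Subgroup G, K.Normal → K ≤ A → K = ⊥ ∨ K = A) (hBmin : ∀ K : Subgroup G, K.Normal → K ≤ B → K = ⊥ ∨ K = B) (hAB : A ≠ B) : Subgroup.centralizer (B : Set G) = A ∧ Subgroup.centralizer (A : Set G) = B ∧ Subgroup.IsComplement' A U ∧ Subgroup.IsComplement' B U ∧ ¬ IsMulCommutative A ∧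 Nonempty (A ≃* B) ∧ Nonempty (A ≃* ↥((A ⊔ B) ⊓ U)) := by
  have hA' : H3.IsMinNormal A := ⟨inferInstance, hA, hAmin⟩
  have hB' : H3.IsMinNormal B := ⟨inferInstance, hB, hBmin⟩
  have h1 : Subgroup.centralizer (B : Set G) = A :=
    ((H21.centralizer_minimal_of_corefree hU hcore hB A inferInstance
      (hA'.le_centralizer_of_ne hB' hAB)).resolve_left hA).symm
  have h2 : Subgroup.centralizer (A : Set G) = B :=
    ((H21.centralizer_minimal_of_corefree hU hcore hA B inferInstance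
      (hB'.le_centralizer_of_ne hA' hAB.symm)).resolve_left hB).symm
  have h3 : A ⊓ U = ⊥ := h1 ▸ H21.centralizer_inf_eq_bot_of_corefree hU hcore hB
  have h4 : B ⊓ U = ⊥ := h2 ▸ H21.centralizer_inf_eq_bot_of_corefree hU hcore hA
  have h5 : A ⊔ U = ⊤ := sup_comm U A ▸ H21.sup_eq_top_of_corefree hU hcore hA
  have h6 : B ⊔ U = ⊤ := sup_comm U B ▸ H21.sup_eq_top_of_corefree hU hcore hB
  have hAB0 : A ⊓ B = ⊥ := hA'.inf_eq_bot_of_ne hB' hAB
  have h7 : A ⊔ U ⊓ (A ⊔ B) = A ⊔ B := by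
    rw [← H3.sup_inf_assoc_of_le_normalizer Subgroup.le_normalizer_of_normal le_sup_left, h5,
      top_inf_eq]
  have h8 : B ⊔ U ⊓ (A ⊔ B) = A ⊔ B := by
    rw [← H3.sup_inf_assoc_of_le_normalizer Subgroup.le_normalizer_of_normal le_sup_right, h6,
      top_inf_eq]
  obtain ⟨e1⟩ := H21.nonempty_mulEquiv_of_sup_eq (N := B) (X := A) (Y := (A ⊔ B) ⊓ U) hAB0
    (by rw [inf_assoc, inf_comm U, h4, inf_bot_eq]) (by rw [inf_comm, sup_comm (U ⊓ (A ⊔ B)) B, h8])
  obtain ⟨e2⟩ := H21.nonempty_mulEquiv_of_sup_eq (N := A) (X := B) (Y := (A ⊔ B) ⊓ U)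
    (by rw [inf_comm, hAB0])
    (by rw [inf_assoc, inf_comm U, h3, inf_bot_eq]) (by rw [inf_comm, sup_comm (U ⊓ (A ⊔ B)) A, h7, sup_comm])
  refine ⟨h1, h2, H21.isComplement'_of_normal_of_inf_eq_bot_of_sup_eq_top h3 h5,
    H21.isComplement'_of_normal_of_inf_eq_bot_of_sup_eq_top h4 h6, fun hc => ?_,
    ⟨e1.trans e2.symm⟩, ⟨e1⟩⟩
  have : A ≤ B := h2 ▸ Subgroup.le_centralizer A
  exact hA (by rw [← hAB0, inf_eq_left.2 this])

end Cfsg.Agent.S0550
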