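import Mathlib
import Cfsg.Statements.S0552
import Cfsg.Agent.Lib.Core.Fitting
-- import your own Cfsg.Agent.* helpers here

set_option autoImplicit false
open Cfsg

namespace Cfsg.Agent.S0552

/-- Let σ be an automorphism of a finite solvable group G fixing every element of the Fitting subgroup. If σ is not the identity then the order of σ and the order of G have a common prime factor. -/
theorem result {G : Type*} [Group G] [Finite G] [Group.IsSolvable G] (σ : G ≃* G) (hσ : ∀ x ∈ Cfsg.fittingSubgroup G, σ x = x) (hne : σ ≠ MulEquiv.refl G) : ¬ (orderOf σ).Coprime (Nat.card G) := by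
  intro hcop
  apply hne
  ext g
  have hc : g⁻¹ * σ g ∈ Cfsg.fittingSubgroup G := by
    apply H1.centralizer_fitting_le
    rw [Subgroup.mem_centralizer_iff]
    intro x hx
    have h1 := hσ _ (H1.fitting_normal.conj_mem x hx g)
    rw [map_mul, map_mul, map_inv, hσ x hx] at h1
    calc x * (g⁻¹ * σ g) = g⁻¹ * (g * x * g⁻¹) * σ g := by group
      _ = g⁻¹ * (σ g * x * (σ g)⁻¹) * σ g := by rw [h1]
      _ = g⁻¹ * σ g * x := by group
  set c := g⁻¹ * σ g with hcdef
  have h1 : ∀ n : ℕ, (σ ^ n) g = g * c ^ n := by
    intro n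
    induction n with
    | zero => simp
    | succ n ih =>
      rw [pow_succ', MulAut.mul_apply, ih, map_mul, map_pow, hσ c hc, pow_succ', ← mul_assoc,
        hcdef, mul_inv_cancel_left]
  have h2 : c ^ orderOf σ = 1 := by
    have := h1 (orderOf σ)
    rw [pow_orderOf_eq_one] at this
    simpa using this
  have h3 : orderOf c = 1 := Nat.eq_one_of_dvd_coprimes hcop (orderOf_dvd_of_pow_eq_one h2)
    (orderOf_dvd_natCard c)
  rw [orderOf_eq_one_iff, hcdef, inv_mul_eq_one] at h3
  exact h3.symm

end Cfsg.Agent.S0552
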