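import Mathlib
import Cfsg.Statements.S0553
import Cfsg.Agent.Lib.Solv.Primitive
import Cfsg.Agent.Lib.Core.Frattini
-- import your own Cfsg.Agent.* helpers here

set_option autoImplicit false
open Cfsg

namespace Cfsg.Agent.S0553

universe u

private theorem aux (n : ℕ) : ∀ (G : Type u) [Group G] [Finite G] [Group.IsSolvable G]
    [Nontrivial G], Nat.card G = n →
    (∀ M : Subgroup G, IsCoatom M → (Nat.card M).Coprime M.index) →
    ∃ p : ℕ, p.Prime ∧ p ∣ Nat.card G ∧ ∀ P : Sylow p G, (P : Subgroup G).Normal := by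
  induction n using Nat.strong_induction_on with
  | _ n ih =>
  intro G _ _ _ _ hn h
  obtain ⟨N, p, hp, hN, hN0, -, hNc, -, hNp, hmin⟩ :=
    H1.exists_elementary_abelian_normal_le (⊤ : Subgroup G) top_ne_bot inferInstance
  by_cases hNF : N ≤ frattini G
  · have hNt : N ≠ ⊤ := fun h => H1.frattini_ne_top (top_le_iff.1 (h ▸ hNF))
    haveI : Nontrivial (G ⧸ N) := QuotientGroup.nontrivial_iff.2 hNt
    obtain ⟨q, hq, hqd, hQ⟩ := ih _ (hn ▸ H21.card_quotient_lt hN0) (G ⧸ N) rfl (fun M hM => by
      have h1 := h _ (Subgroup.isCoatom_comap_of_surjective (QuotientGroup.mk'_surjective N) hM)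
      rw [Subgroup.index_comap_of_surjective M (QuotientGroup.mk'_surjective N),
        H1.card_comap_mk'] at h1
      exact Nat.Coprime.coprime_mul_right h1)
    haveI := Fact.mk hq
    refine ⟨q, hq, hqd.trans (Subgroup.card_quotient_dvd_card N), fun Q => ?_⟩
    have h1 := (hQ (Q.mapSurjective (QuotientGroup.mk'_surjective N))).comap (QuotientGroup.mk' N)
    rw [Sylow.coe_mapSurjective, Subgroup.comap_map_eq, QuotientGroup.ker_mk'] at h1
    have h2 := Q.normalizer_sup_eq_top' (N := (Q : Subgroup G) ⊔ N) le_sup_left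
    rw [← Q.coe_coe, ← sup_assoc, sup_eq_left.2 (Subgroup.le_normalizer (H := (Q : Subgroup G)))] at h2
    exact Subgroup.normalizer_eq_top_iff.1 (H1.eq_top_of_sup_eq_top_of_le_frattini hNF h2)
  · obtain ⟨M, hM, hNM⟩ : ∃ M : Subgroup G, IsCoatom M ∧ ¬ N ≤ M := by
      by_contra hcon
      push Not at hcon
      exact hNF (H1.le_frattini_iff.2 hcon)
    have h1 : M ⊔ N = ⊤ := H21.sup_eq_top_of_isCoatom_of_not_le hM hNM
    have h2 : (M ⊓ N).Normal := by
      refine H21.normal_of_sup_eq_top h1
        (H2.le_normalizer_inf Subgroup.le_normalizer Subgroup.le_normalizer_of_normal) ?_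
      refine le_trans ?_ (Subgroup.centralizer_le_normalizer _)
      exact Subgroup.le_centralizer_iff.1 (inf_le_right.trans (Subgroup.le_centralizer N))
    have h3 : M ⊓ N = ⊥ := (hmin _ h2 inf_le_right).resolve_right fun h => hNM (inf_eq_right.1 h)
    have hc := H21.isComplement'_of_normal_of_inf_eq_bot_of_sup_eq_top (N := N) (U := M)
      (by rw [inf_comm, h3]) (by rw [sup_comm, h1])
    haveI := Fact.mk hp
    have hpN : p ∣ Nat.card N := by
      rcases hNp.card_eq_or_dvd with h | h
      · exact absurd (Subgroup.card_eq_one.1 h) hN0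
      · exact h
    have h4 : ¬ p ∣ N.index := by
      have := h M hM
      rw [hc.index_eq_card, ← hc.symm.index_eq_card] at this
      exact fun hd => hp.not_dvd_one (this ▸ Nat.dvd_gcd hd hpN)
    refine ⟨p, hp, hpN.trans (Subgroup.card_subgroup_dvd_card N), fun P => ?_⟩
    haveI := (hNp.toSylow h4).unique_of_normal hN
    rw [Subsingleton.elim P (hNp.toSylow h4)]
    exact hN

/-- Let G be a nontrivial finite solvable group in which every maximal subgroup has order coprime to its index. Then for some prime p dividing the order of G the Sylow p-subgroups of G are normal. -/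
theorem result {G : Type*} [Group G] [Finite G] [Group.IsSolvable G] [Nontrivial G] (h : ∀ M : Subgroup G, IsCoatom M → (Nat.card M).Coprime M.index) : ∃ p : ℕ, p.Prime ∧ p ∣ Nat.card G ∧ ∀ P : Sylow p G, (P : Subgroup G).Normal := by
  exact aux _ G rfl h

end Cfsg.Agent.S0553
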