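import Mathlib
import Cfsg.Statements.S0554
import Cfsg.Agent.Lib.Solv.Primitive
-- import your own Cfsg.Agent.* helpers here

set_option autoImplicit false
open Cfsg

namespace Cfsg.Agent.S0554

universe u

private theorem aux (t : ℕ) (p : Fin t → ℕ) (hp : ∀ i, (p i).Prime) (n : ℕ) :
    ∀ (G : Type u) [Group G] [Finite G] [Group.IsSolvable G], Nat.card G = n →
    (∀ q : ℕ, q.Prime → q ∣ Nat.card G → ∃ i, p i = q) → ∀ (S : (i : Fin t) → Sylow (p i) G),
    ∀ g : G, ∃ s : (i : Fin t) → G, (∀ i, s i ∈ (S i : Subgroup G)) ∧ g = (List.ofFn s).prod := by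
  induction n using Nat.strong_induction_on with
  | _ n ih =>
  intro G _ _ _ hn hall S g
  rcases subsingleton_or_nontrivial G with hG | hG
  · exact ⟨fun _ => 1, fun i => Subgroup.one_mem _, Subsingleton.elim _ _⟩
  obtain ⟨N, q, hq, hN, hN0, -, -, -, hNq, -⟩ :=
    H1.exists_elementary_abelian_normal_le (⊤ : Subgroup G) top_ne_bot inferInstance
  haveI := Fact.mk hq
  have hqN : q ∣ Nat.card N := by
    rcases hNq.card_eq_or_dvd with h | h
    · exact absurd (Subgroup.card_eq_one.1 h) hN0
    · exact h
  obtain ⟨j, rfl⟩ := hall q hq (hqN.trans (Subgroup.card_subgroup_dvd_card N))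
  obtain ⟨s', hs', hg⟩ := ih _ (hn ▸ H21.card_quotient_lt hN0) (G ⧸ N) rfl
    (fun r hr hd => hall r hr (hd.trans (Subgroup.card_quotient_dvd_card N)))
    (fun i => haveI := Fact.mk (hp i); (S i).mapSurjective (QuotientGroup.mk'_surjective N))
    (g : G ⧸ N)
  choose s hs hss using hs'
  have h1 : (((List.ofFn s).prod : G) : G ⧸ N) = g := by
    rw [hg, ← QuotientGroup.mk'_apply, map_list_prod, List.map_ofFn]
    congr 2
    exact funext hss
  rw [QuotientGroup.eq] at h1
  obtain ⟨n', hn', h2⟩ := H21.exists_ofFn_update_prod t s j _ h1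
  refine ⟨Function.update s j (s j * n'), fun i => ?_, by rw [h2, mul_inv_cancel_left]⟩
  by_cases hi : i = j
  · subst hi
    rw [Function.update_self]
    exact Subgroup.mul_mem _ (hs i) (hNq.le_sylow_of_normal _ hn')
  · rw [Function.update_of_ne hi]
    exact hs i

/-- Let G be a finite solvable group and let S assign to each of t distinct primes, including every prime divisor of the order of G, a Sylow subgroup of G. Then every element of G is a product s_0 s_1 ⋯ s_(t-1) with s_i in S i, the factors taken in the given order. -/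
theorem result {G : Type*} [Group G] [Finite G] [Group.IsSolvable G] (t : ℕ) (p : Fin t → ℕ) (hp : ∀ i, (p i).Prime) (hinj : Function.Injective p) (hall : ∀ q : ℕ, q.Prime → q ∣ Nat.card G → ∃ i, p i = q) (S : (i : Fin t) → Sylow (p i) G) : ∀ g : G, ∃ s : (i : Fin t) → G, (∀ i, s i ∈ (S i : Subgroup G)) ∧ g = (List.ofFn s).prod := by
  exact aux t p hp _ G rfl hall S

end Cfsg.Agent.S0554
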