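import Mathlib
import Cfsg.Statements.S0555
import Cfsg.Agent.Lib.Solv.Primitive
-- import your own Cfsg.Agent.* helpers here

set_option autoImplicit false
open Cfsg

namespace Cfsg.Agent.S0555

/-- Let i ≥ 1. If in the derived series of a group the quotient of the i-th term by the (i+1)-st and the quotient of the (i+1)-st by the (i+2)-nd are both cyclic, then the (i+1)-st and (i+2)-nd terms coincide. -/
theorem result {G : Type*} [Group G] (i : ℕ) (hi : 1 ≤ i) (h₁ : IsCyclic (↥(derivedSeries G i) ⧸ (derivedSeries G (i + 1)).subgroupOf (derivedSeries G i))) (h₂ : IsCyclic (↥(derivedSeries G (i + 1)) ⧸ (derivedSeries G (i + 2)).subgroupOf (derivedSeries G (i + 1)))) : derivedSeries G (i + 1) = derivedSeries G (i + 2) := by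
  haveI := derivedSeries_normal G
  obtain ⟨h, hh, hH⟩ := H21.exists_eq_sup_zpowers_of_isCyclic_quotient
    (derivedSeries_antitone G (Nat.le_succ i)) h₁
  obtain ⟨g, hg, hG⟩ := H21.exists_eq_sup_zpowers_of_isCyclic_quotient
    (derivedSeries_antitone G (Nat.le_succ (i + 1))) h₂
  have h1 : ⁅derivedSeries G (i + 1), derivedSeries G i⁆ ≤ derivedSeries G (i + 2) := by
    rw [Subgroup.commutator_le]
    intro x hx y hy
    refine H21.commutatorElement_mem_of_step (derivedSeries G (i + 2)) g (hG ▸ this _) (hG ▸ hx) ?_
    rw [← derivedSeries_one]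
    exact derivedSeries_antitone G hi hy
  refine le_antisymm ?_ (derivedSeries_antitone G (Nat.le_succ (i + 1)))
  have hz : Subgroup.zpowers h ≤ derivedSeries G i := by simpa using hh
  have h2 : ⁅derivedSeries G (i + 1) ⊔ Subgroup.zpowers h, Subgroup.zpowers h⁆ ≤
      derivedSeries G (i + 2) := by
    refine H2.commutator_sup_le Subgroup.le_normalizer_of_normal Subgroup.le_normalizer_of_normal
      ((Subgroup.commutator_mono le_rfl hz).trans h1) ?_
    rw [H3.commutator_eq_bot_of_isMulCommutative]
    exact bot_le
  have h3 : ⁅derivedSeries G (i + 1) ⊔ Subgroup.zpowers h, derivedSeries G i⁆ ≤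
      derivedSeries G (i + 2) := by
    refine H2.commutator_sup_le Subgroup.le_normalizer_of_normal Subgroup.le_normalizer_of_normal
      h1 ?_
    rw [Subgroup.commutator_comm]
    exact (Subgroup.commutator_mono hH.le le_rfl).trans h2
  exact (Subgroup.commutator_mono hH.le le_rfl).trans h3

end Cfsg.Agent.S0555
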