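import Cfsg.Agent.Base
import Cfsg.Statements.S0558
import Cfsg.Agent.Lib.Fact.Wielandt

set_option autoImplicit false
open Cfsg

namespace Cfsg.Agent.S0558

open Subgroup

/-- Let H be a subgroup of a finite group G that is not a Sylow subgroup of G for any prime, and suppose that for every prime p dividing the order of H and every Sylow p-subgroup P of H the normalizer of P in G is exactly H. Then some normal subgroup of G is a complement to H. -/
theorem result {G : Type*} [Group G] [Finite G] (H : Subgroup G) (hnot : ∀ p : ℕ, p.Prime → ∀ P : Sylow p G, (P : Subgroup G) ≠ H) (hnorm : ∀ p : ℕ, p.Prime → p ∣ Nat.card H → ∀ P : Sylow p H, Subgroup.normalizer (((P : Subgroup H).map H.subtype : Subgroup G) : Set G) = H) : ∃ N : Subgroup G, N.Normal ∧ Subgroup.IsComplement' N H := by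
  have hnil : Group.IsNilpotent H := by
    refine H1.isNilpotent_of_sylow_normal fun p hp P => ?_
    by_cases hd : p ∣ Nat.card H
    · rw [← normalizer_eq_top_iff, eq_top_iff]
      intro x _
      have h1 : (x : G) ∈ normalizer (((P : Subgroup H).map H.subtype : Subgroup G) : Set G) := by
        rw [hnorm p hp.out hd P]; exact x.2
      rw [H1.mem_normalizer_iff_conj_smul_eq] at h1 ⊢
      apply map_injective H.subtype_injective
      rw [H1.map_conj_smul]
      exact h1
    · obtain ⟨k, hk⟩ := P.2.exists_card_eq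
      have : (P : Subgroup H) = ⊥ := by
        rw [← card_eq_one, hk]
        rcases k with _ | k
        · rfl
        · exact absurd ((dvd_pow_self p k.succ_ne_zero).trans (hk ▸ card_subgroup_dvd_card _)) hd
      rw [this]; infer_instance
  have hN : ∀ r : ℕ, r.Prime → r ∣ Nat.card H → normalizer (piCoreOf {r} H : Set G) = H := by
    intro r hr hd
    have := Fact.mk hr
    obtain ⟨P, hP⟩ := H22.exists_sylow_of_isPiHallOf (H22.isPiHallOf_piCoreOf hnil {r})
    rw [← hP]
    exact hnorm r hr hd P
  have hsyl : ∀ r : ℕ, r.Prime → r ∣ Nat.card H → ∃ S : Sylow r G, (S : Subgroup G) = piCoreOf {r} H := by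
    intro r hr hd
    have := Fact.mk hr
    have h1 : IsPGroup r (piCoreOf {r} H) :=
      H1.isPiSubgroup_singleton_iff.mp (H1.isPiSubgroup_piCoreOf H)
    obtain ⟨S, hS⟩ := h1.exists_le_sylow
    refine ⟨S, (hS.eq_or_lt.resolve_right fun hlt => ?_).symm⟩
    have h2 := H5.lt_inf_normalizer S.2 hlt
    rw [hN r hr hd] at h2
    exact h2.not_ge (H22.le_piCoreOf_of_isNilpotent hnil inf_le_right
      (H1.isPiSubgroup_singleton_iff.mpr (S.2.to_inf_left)))
  have hHall : IsPiHall {p | p ∣ Nat.card H} H := by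
    refine ⟨fun p _ h => h, fun p hp hd h => ?_⟩
    have := Fact.mk hp
    obtain ⟨S, hS⟩ := hsyl p hp hd
    exact S.not_dvd_index (h.trans (index_dvd_of_le (hS ▸ H1.piCoreOf_le H)))
  have hne : Nat.card H ≠ 1 := by
    intro e
    obtain ⟨p, hp1, hp⟩ := Nat.exists_infinite_primes (Nat.card G + 1)
    have := Fact.mk hp
    obtain ⟨P⟩ : Nonempty (Sylow p G) := inferInstance
    apply hnot p hp P
    obtain ⟨k, hk⟩ := P.2.exists_card_eq
    rw [card_eq_one.mp e, ← card_eq_one, hk]
    rcases k with _ | k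
    · rfl
    · have := Nat.le_of_dvd Nat.card_pos
        ((dvd_pow_self p k.succ_ne_zero).trans (hk ▸ card_subgroup_dvd_card (P : Subgroup G)))
      omega
  obtain ⟨p, hp, hpH⟩ := Nat.exists_prime_and_dvd hne
  obtain ⟨q, hq, hqH, hpq⟩ : ∃ q : ℕ, q.Prime ∧ q ∣ Nat.card H ∧ p ≠ q := by
    by_contra hc
    push Not at hc
    obtain ⟨S, hS⟩ := hsyl p hp hpH
    apply hnot p hp S
    rw [hS]
    exact le_antisymm (H1.piCoreOf_le H) (H22.le_piCoreOf_of_isNilpotent hnil le_rfl
      fun q hq hd => (hc q hq hd).symm)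
  exact ⟨_, H4.pResidual_normal _ G, H22.isComplement'_pResidual_of_normalizer_le hnil hHall hp hq
    hpq hpH hqH fun r hr hd => (hN r hr hd).le⟩

end Cfsg.Agent.S0558
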