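import Cfsg.Agent.Base
import Cfsg.Statements.S0560
import Cfsg.Agent.Lib.Fact.Hall

set_option autoImplicit false
open Pointwise
open Cfsg

namespace Cfsg.Agent.S0560

/-- Let the finite group G be the product HK of two subgroups and p a prime. Then there are Sylow p-subgroups P of H and Q of K and a Sylow p-subgroup R of G whose underlying set is the product set of P and Q. -/
theorem result {G : Type*} [Group G] [Finite G] (H K : Subgroup G) (hHK : ∀ g : G, ∃ h ∈ H, ∃ k ∈ K, g = h * k) (p : ℕ) [Fact p.Prime] : ∃ (P : Sylow p H) (Q : Sylow p K) (R : Sylow p G), ((R : Subgroup G) : Set G) = (((P : Subgroup H).map H.subtype : Subgroup G) : Set G) * (((Q : Subgroup K).map K.subtype : Subgroup G) : Set G) := by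
  obtain ⟨P⟩ : Nonempty (Sylow p H) := inferInstance
  obtain ⟨Q⟩ : Nonempty (Sylow p K) := inferInstance
  obtain ⟨R⟩ : Nonempty (Sylow p G) := inferInstance
  obtain ⟨x, hx⟩ := H4.exists_conj_smul_le_sylow R (P.2.map H.subtype)
  obtain ⟨y, hy⟩ := H4.exists_conj_smul_le_sylow R (Q.2.map K.subtype)
  obtain ⟨a, ha, b, hb, g, h1, h2⟩ := H22.Fz.exists_conj_le hHK hx hy
  refine ⟨(⟨a, ha⟩ : H) • P, (⟨b, hb⟩ : K) • Q, g • R, ?_⟩
  refine (H22.Fz.hall_mul hHK (H22.isPiHallOf_sylow _) (H22.isPiHallOf_sylow _)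
    (H1.isPiSubgroup_singleton_iff.mpr (g • R).2) ?_ ?_).1
  · rw [Sylow.coe_subgroup_smul, H1.map_conj_smul]; exact h1
  · rw [Sylow.coe_subgroup_smul, H1.map_conj_smul]; exact h2

end Cfsg.Agent.S0560
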