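import Cfsg.Agent.Base
import Cfsg.Statements.S0563
import Cfsg.Agent.Lib.Fact.KW2

set_option autoImplicit false
open Pointwise
open Cfsg

namespace Cfsg.Agent.S0563

/-- If a finite group G is the product AB of two nilpotent subgroups of coprime orders, then G is solvable, and for every Sylow p-subgroup P of A and Sylow q-subgroup Q of B the product set PQ is a subgroup. -/
theorem result {G : Type*} [Group G] [Finite G] (A B : Subgroup G) (hA : Group.IsNilpotent A) (hB : Group.IsNilpotent B) (hcop : (Nat.card A).Coprime (Nat.card B)) (hAB : ∀ g : G, ∃ a ∈ A, ∃ b ∈ B, g = a * b) : Group.IsSolvable G ∧ ∀ (p q : ℕ) [Fact p.Prime] [Fact q.Prime] (P : Sylow p A) (Q : Sylow q B), ∃ S : Subgroup G, (S : Set G) = (((P : Subgroup A).map A.subtype : Subgroup G) : Set G) * (((Q : Subgroup B).map B.subtype : Subgroup G) : Set G) := by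
  have hs := H22.Fz.isSolvable_of_coprime hAB hA hB hcop
  refine ⟨hs, fun p q hp hq P Q => ?_⟩
  obtain ⟨h1, h2⟩ := H22.Fz.isPiHall_of_coprime hAB hcop
  have hP := H22.isPiHallOf_sylow P
  have hQ := H22.isPiHallOf_sylow Q
  have key : ∀ {π : Set ℕ} {A : Subgroup G} {p : ℕ} {P : Subgroup G}, IsPiHall π A →
      IsPiHallOf {p} P A → ∃ σ : Set ℕ, IsPiHall σ P := by
    intro π A p P hA hP
    by_cases h : p ∈ π
    · exact ⟨_, H22.isPiHall_of_isPiHallOf hA hP (Set.singleton_subset_iff.mpr h)⟩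
    · refine ⟨∅, fun r hr hd => h ?_, fun r _ hr => hr.elim⟩
      have := hA.1 r hr (hd.trans (Subgroup.card_dvd_of_le hP.1))
      rwa [hP.2.1 r hr hd] at this
  obtain ⟨σ, h3⟩ := key h1 hP
  obtain ⟨τ, h4⟩ := key h2 hQ
  exact ⟨_, (H22.Fz.permutes_of_isPiHall hAB (H22.le_normalizer_of_isPiHallOf hA hP)
    (H22.le_normalizer_of_isPiHallOf hB hQ) h3 h4).coe_sup⟩

end Cfsg.Agent.S0563
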