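import Cfsg.Agent.Base
import Cfsg.Statements.S0565
import Cfsg.Agent.Lib.Fact.KW3

set_option autoImplicit false
open Cfsg

namespace Cfsg.Agent.S0565

open Subgroup H22

universe u

theorem aux (n : ℕ) : ∀ {G : Type u} [Group G] [Finite G] (A B : Subgroup G), Nat.card G = n →
    Group.IsNilpotent A → Group.IsNilpotent B → Fz A B → (A ≠ ⊤ ∨ B ≠ ⊤) →
    ∃ N : Subgroup G, N.Normal ∧ N ≠ ⊤ ∧ (A ≤ N ∨ B ≤ N) := by
  induction n using Nat.strong_induction_on with | _ n ih => ?_
  intro G _ _ A B hn hA hB h hp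
  by_cases hG : Group.IsNilpotent G
  · rcases hp with hp | hp
    · obtain ⟨M, hM, hAM⟩ := (eq_top_or_exists_le_coatom A).resolve_left hp
      exact ⟨M, H1.normal_of_isCoatom_of_isNilpotent hM, hM.1, Or.inl hAM⟩
    · obtain ⟨M, hM, hAM⟩ := (eq_top_or_exists_le_coatom B).resolve_left hp
      exact ⟨M, H1.normal_of_isCoatom_of_isNilpotent hM, hM.1, Or.inr hAM⟩
  have hAt : A ≠ ⊤ := by
    rintro rfl
    exact hG (Group.nilpotent_of_mulEquiv topEquiv)
  have hBt : B ≠ ⊤ := by
    rintro rfl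
    exact hG (Group.nilpotent_of_mulEquiv topEquiv)
  by_contra hcon
  have hsup : ∀ N : Subgroup G, ∀ [N.Normal], N ≠ ⊥ → A ⊔ N = ⊤ ∧ B ⊔ N = ⊤ := by
    intro N _ hN
    by_contra hc
    have key : ∀ K : Subgroup G, K.map (QuotientGroup.mk' N) = ⊤ → K ⊔ N = ⊤ := fun K hK => by
      have := congrArg (comap (QuotientGroup.mk' N)) hK
      rwa [comap_map_eq, QuotientGroup.ker_mk', comap_top] at this
    obtain ⟨M, hM, hMt, hM'⟩ := ih _ (hn ▸ H1.card_quotient_lt hN) _ _ rfl
      (isNilpotent_map hA (QuotientGroup.mk' N)) (isNilpotent_map hB (QuotientGroup.mk' N))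
      (h.quotient N) (by
        by_contra hc'
        push Not at hc'
        exact hc ⟨key A hc'.1, key B hc'.2⟩)
    refine hcon ⟨M.comap (QuotientGroup.mk' N), inferInstance, fun e => hMt ?_,
      hM'.imp map_le_iff_le_comap.mp map_le_iff_le_comap.mp⟩
    rw [← map_comap_eq_self_of_surjective (QuotientGroup.mk'_surjective N) M, e,
      map_top_of_surjective _ (QuotientGroup.mk'_surjective N)]
  have := h.isSolvable hA hB
  have htop : (⊤ : Subgroup G) ≠ ⊥ := fun e => hAt (le_antisymm le_top (e ▸ bot_le))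
  obtain ⟨N, hN, -, hNc, p, hp, hpN, -, hNp⟩ := H3.exists_normal_elementary_le ⊤ htop inferInstance
  have := hN.normal
  have := Fact.mk hp
  have key : ∀ {A : Subgroup G}, Group.IsNilpotent A → A ≠ ⊤ →
      (∀ N : Subgroup G, ∀ [N.Normal], N ≠ ⊥ → A ⊔ N = ⊤) → ¬ p ∣ Nat.card A := by
    intro A hA hAt hsup hd
    set P := piCoreOf {p} A
    have hAP : A ≤ normalizer (P : Set G) := H1.le_normalizer_piCoreOf A
    have hP : IsPGroup p P := H1.isPiSubgroup_singleton_iff.mp (H1.isPiSubgroup_piCoreOf A)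
    have h1 : (N ⊓ centralizer (P : Set G)).Normal := by
      rw [← normalizer_eq_top_iff, eq_top_iff, ← hsup N hN.ne_bot]
      refine sup_le (H2.le_normalizer_inf le_normalizer_of_normal
        (H2.le_normalizer_centralizer hAP)) fun a ha => ?_
      exact centralizer_le_normalizer _ fun x hx => mul_comm_of_mem hNc hx.1 ha
    have h2 : N ⊓ centralizer (P : Set G) = N := by
      refine (hN.eq_bot_or_eq _ h1 inf_le_left).resolve_left fun e => ?_
      obtain ⟨z, hz, hzc, -, hzo⟩ :=
        H5.exists_mem_centralizer_of_normalizes hP hNp le_normalizer_of_normal hN.ne_bot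
      have : z ∈ N ⊓ centralizer (P : Set G) := ⟨hz, hzc⟩
      rw [e, mem_bot] at this
      rw [this, orderOf_one] at hzo
      exact hp.one_lt.ne hzo
    have h3 : P.Normal := by
      rw [← normalizer_eq_top_iff, eq_top_iff, ← hsup N hN.ne_bot]
      exact sup_le hAP ((h2 ▸ inf_le_right : N ≤ _).trans (centralizer_le_normalizer _))
    have h4 := hsup P (piCoreOf_singleton_ne_bot hA hp hd)
    rw [sup_of_le_left (H1.piCoreOf_le A)] at h4
    exact hAt h4
  rcases (Nat.Prime.dvd_mul hp).mp ((hpN.trans (card_subgroup_dvd_card N)).trans h.card_dvd) with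
    h1 | h1
  · exact key hA hAt (fun N _ hN => (hsup N hN).1) h1
  · exact key hB hBt (fun N _ hN => (hsup N hN).2) h1

/-- Let the finite group G be the product AB of nilpotent subgroups A and B, not both equal to G. Then there is a proper normal subgroup of G containing A or containing B. -/
theorem result {G : Type*} [Group G] [Finite G] (A B : Subgroup G) (hA : Group.IsNilpotent A) (hB : Group.IsNilpotent B) (hAB : ∀ g : G, ∃ a ∈ A, ∃ b ∈ B, g = a * b) (hproper : A ≠ ⊤ ∨ B ≠ ⊤) : ∃ N : Subgroup G, N.Normal ∧ N ≠ ⊤ ∧ (A ≤ N ∨ B ≤ N) := by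
  exact aux _ A B rfl hA hB hAB hproper

end Cfsg.Agent.S0565
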