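import Mathlib
import Cfsg.Statements.S0567


set_option autoImplicit false
open Cfsg

namespace Cfsg.Agent.S0567

open scoped commutatorElement

open Subgroup in
theorem iter_mono {G : Type*} [Group G] {H K : Subgroup G} (h : H ≤ K) (m : ℕ) {X Y : Subgroup G}
    (hXY : X ≤ Y) : (fun L : Subgroup G => ⁅L, H⁆)^[m] X ≤ (fun L : Subgroup G => ⁅L, K⁆)^[m] Y := by
  induction m with
  | zero => exact hXY
  | succ m ih =>
    rw [Function.iterate_succ_apply', Function.iterate_succ_apply']
    exact commutator_mono ih h

/-- A subgroup H of a group G is subnormal exactly when, for some m, the subgroup obtained from G by taking the commutator with H m times in succession is contained in H. -/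
theorem result {G : Type*} [Group G] (H : Subgroup G) : H.IsSubnormal ↔ ∃ m : ℕ, (fun K : Subgroup G => ⁅K, H⁆)^[m] ⊤ ≤ H := by
  constructor
  · intro h
    induction h with
    | top => exact ⟨0, le_rfl⟩
    | step H K hle _ hN ih =>
      obtain ⟨m, hm⟩ := ih
      refine ⟨m + 1, ?_⟩
      rw [Function.iterate_succ_apply']
      refine (Subgroup.commutator_mono ((iter_mono hle m le_rfl).trans hm) le_rfl).trans ?_
      rw [Subgroup.normal_subgroupOf_iff_le_normalizer hle] at hN
      rw [Subgroup.commutator_le]
      intro k hk h hh
      rw [commutatorElement_def]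
      exact H.mul_mem ((Subgroup.mem_normalizer_iff.mp (hN hk) h).mp hh) (H.inv_mem hh)
  · rintro ⟨m, hm⟩
    have hanti : ∀ i : ℕ, (fun K : Subgroup G => ⁅K, H⁆)^[i + 1] ⊤ ≤
        (fun K : Subgroup G => ⁅K, H⁆)^[i] ⊤ := fun i => by
      rw [Function.iterate_succ_apply]
      exact iter_mono le_rfl i le_top
    have key : ∀ i : ℕ, ((fun K : Subgroup G => ⁅K, H⁆)^[i] ⊤ ⊔ H).IsSubnormal := by
      intro i
      induction i with
      | zero => simp
      | succ i ih =>
        have hle := sup_le_sup_right (hanti i) H
        refine Subgroup.IsSubnormal.step _ _ hle ih ?_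
        rw [Subgroup.normal_subgroupOf_iff_le_normalizer hle, Function.iterate_succ_apply']
        set K := (fun K : Subgroup G => ⁅K, H⁆)^[i] ⊤
        refine sup_le ?_ (le_sup_right.trans Subgroup.le_normalizer)
        rw [Subgroup.le_normalizer_iff]
        intro k hk x hx
        have h1 : ⁅K, H⁆ ⊔ H ≤ (⁅K, H⁆ ⊔ H).comap (MulAut.conj k).toMonoidHom := by
          refine sup_le (fun y hy => ?_) (fun y hy => ?_)
          · refine Subgroup.mem_sup_left ?_
            exact (Subgroup.mem_normalizer_iff.mp
              (Subgroup.normalizer_commutator_ge_left K H hk) y).mp hy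
          · have : (MulAut.conj k).toMonoidHom y = ⁅k, y⁆ * y := by
              simp [commutatorElement_def]
            rw [Subgroup.mem_comap, this]
            exact Subgroup.mul_mem_sup (Subgroup.commutator_mem_commutator hk hy) hy
        exact h1 hx
    have := key m
    rwa [sup_eq_right.mpr hm] at this

end Cfsg.Agent.S0567
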