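import Cfsg.Statements.S0568
import Mathlib
import Cfsg.Agent.Base
import Cfsg.Agent.Lib.Tech58.Carter

set_option autoImplicit false
open Cfsg

namespace Cfsg.Agent.S0568

open Subgroup

/-- Let D be the system normalizer of a Hall complement system of a finite solvable group G, and let A < B be normal subgroups with no normal subgroup of G strictly between them (a chief factor). If G centralizes B modulo A then B ≤ A ⊔ D (D covers the factor); otherwise B ∩ D ≤ A (D avoids it). -/
theorem result {G : Type*} [Group G] [Finite G] [Group.IsSolvable G] (K : Nat.Primes → Subgroup G) (hK : Cfsg.IsComplementSystem K) (A B : Subgroup G) [A.Normal] [B.Normal] (hAB : A < B) (hchief : ∀ N : Subgroup G, N.Normal → A ≤ N → N ≤ B → N = A ∨ N = B) : (⁅B, (⊤ : Subgroup G)⁆ ≤ A → B ≤ A ⊔ Cfsg.systemNormalizer K) ∧ (¬ ⁅B, (⊤ : Subgroup G)⁆ ≤ A → B ⊓ Cfsg.systemNormalizer K ≤ A) := by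
  have hs := QuotientGroup.mk'_surjective A
  have hmap := H58.systemNormalizer_map hK hs
  have hc : ⁅B, (⊤ : Subgroup G)⁆ ≤ A ↔ B.map (QuotientGroup.mk' A) ≤ center _ := by
    rw [← centralizer_univ, ← coe_top, ← commutator_eq_bot_iff_le_centralizer,
      ← map_top_of_surjective _ hs, ← map_commutator, Subgroup.map_eq_bot_iff,
      QuotientGroup.ker_mk']
  rw [hc]
  refine ⟨fun h => ?_, fun h => ?_⟩
  · have h1 : B.map (QuotientGroup.mk' A) ≤ (systemNormalizer K).map (QuotientGroup.mk' A) :=
      hmap ▸ h.trans (le_iInf fun p => center_le_normalizer _)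
    rw [map_le_iff_le_comap, comap_map_eq, QuotientGroup.ker_mk', sup_comm] at h1
    exact h1
  · haveI : (B.map (QuotientGroup.mk' A)).Normal := Normal.map inferInstance _ hs
    have h1 := H58.inf_systemNormalizer_eq_bot (H58.system_map hK hs) (fun L hL hLB => by
      have h2 : A ≤ L.comap (QuotientGroup.mk' A) := fun x hx => by
        rw [mem_comap, QuotientGroup.mk'_apply, (QuotientGroup.eq_one_iff x).2 hx]
        exact one_mem _
      have h3 : L.comap (QuotientGroup.mk' A) ≤ B := by
        refine (comap_mono hLB).trans ?_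
        rw [comap_map_eq, QuotientGroup.ker_mk']
        exact sup_le le_rfl hAB.le
      rcases hchief _ (hL.comap _) h2 h3 with h4 | h4
      · left
        rw [← map_comap_eq_self_of_surjective hs L, h4, Subgroup.map_eq_bot_iff, QuotientGroup.ker_mk']
      · right
        rw [← h4, map_comap_eq_self_of_surjective hs]) h
    intro x hx
    rw [hmap] at h1
    exact (QuotientGroup.eq_one_iff x).1
      (mem_bot.1 (h1 ▸ ⟨mem_map_of_mem _ hx.1, mem_map_of_mem _ hx.2⟩))

end Cfsg.Agent.S0568
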