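import Cfsg.Statements.S0569
import Mathlib
import Cfsg.Agent.Base
import Cfsg.Agent.Lib.Tech58.Carter

set_option autoImplicit false
open Cfsg

namespace Cfsg.Agent.S0569

open scoped Pointwise

/-- In a finite solvable group: each nilpotent self-normalizing subgroup contains the system normalizer of some Hall complement system, and the system normalizer of any Hall complement system lies in some nilpotent self-normalizing subgroup. -/
theorem result {G : Type*} [Group G] [Finite G] [Group.IsSolvable G] : (∀ C : Subgroup G, Cfsg.IsCarterSubgroup C → ∃ K : Nat.Primes → Subgroup G, Cfsg.IsComplementSystem K ∧ Cfsg.systemNormalizer K ≤ C) ∧ ∀ K : Nat.Primes → Subgroup G, Cfsg.IsComplementSystem K → ∃ C : Subgroup G, Cfsg.IsCarterSubgroup C ∧ Cfsg.systemNormalizer K ≤ C := by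
  refine ⟨fun C hC => H58.exists_system_le_carter hC, fun K hK => ?_⟩
  obtain ⟨C, hC⟩ := H58.exists_carter (G := G)
  obtain ⟨L, hL, h⟩ := H58.exists_system_le_carter hC
  obtain ⟨g, hg⟩ := H58.system_conj hL hK
  refine ⟨_, H58.IsCarter.smul hC g, ?_⟩
  rw [← funext hg, H58.systemNormalizer_smul]
  exact Subgroup.pointwise_smul_le_pointwise_smul_iff.2 h

end Cfsg.Agent.S0569
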