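import Cfsg.Agent.Base
import Cfsg.Statements.S0571
import Cfsg.Agent.Lib.Fact.Ito2
import Cfsg.Agent.Lib.Solv.Supersolvable

set_option autoImplicit false
open Cfsg

namespace Cfsg.Agent.S0571

universe u in
theorem aux (n : ℕ) : ∀ {G : Type u} [Group G] [Finite G] (A B : Subgroup G), Nat.card G = n →
    IsCyclic A → IsCyclic B → H22.Fz A B → Cfsg.IsSupersolvable G := by
  induction n using Nat.strong_induction_on with
  | _ n ih =>
  intro G _ _ A B hn hA hB h
  rcases subsingleton_or_nontrivial G with hG | hG
  · exact H21.isSupersolvable_of_subsingleton G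
  obtain ⟨N, hN, hN1, hle⟩ := h.exists_normal_le_of_comm (H45.cyclic_abelian hA)
    (H45.cyclic_abelian hB)
  have hc : IsCyclic N := hle.elim (H45.cyclicS hA) (H45.cyclicS hB)
  refine H21.isSupersolvable_of_isCyclic_normal N (ih _ (hn ▸ H1.card_quotient_lt hN1) _ _ rfl
    ?_ ?_ (h.quotient N))
  · exact isCyclic_of_surjective _ (MonoidHom.subgroupMap_surjective _ A)
  · exact isCyclic_of_surjective _ (MonoidHom.subgroupMap_surjective _ B)

/-- If a finite group G is the product AB of two cyclic subgroups (every element is a product ab), then G is supersolvable. -/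
theorem result {G : Type*} [Group G] [Finite G] (A B : Subgroup G) [IsCyclic A] [IsCyclic B] (hAB : ∀ g : G, ∃ a ∈ A, ∃ b ∈ B, g = a * b) : Cfsg.IsSupersolvable G := by
  exact aux _ A B rfl inferInstance inferInstance hAB

end Cfsg.Agent.S0571
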