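import Cfsg.Agent.Base
import Cfsg.Statements.S0574
import Cfsg.Agent.Lib.Fact.Ito2
import Cfsg.Agent.Lib.Fact.KW3

set_option autoImplicit false
open Cfsg

namespace Cfsg.Agent.S0574

open Subgroup H69 H45 in
open scoped commutatorElement in
theorem step {G : Type*} [Group G] [Finite G] {A B D : Subgroup G} (h : H22.Fz A B)
    (hA : IsMulCommutative A) {z : G} (hz : z ∈ 𝐂(B)) (hD : D = normalClosure {z})
    (hi : ⁅D, D⁆ ⊓ ⁅B, B⁆ = ⊥) : ⁅⁅D, D⁆, ⁅D, D⁆⁆ = ⊥ := by
  have hDn : D.Normal := hD ▸ normalClosure_normal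
  have hzD : z ∈ D := hD ▸ subset_normalClosure rfl
  set φ := QuotientGroup.mk' ⁅D, D⁆
  have h1 : ∀ d ∈ D, ∀ d' ∈ D, Commute (φ d) (φ d') := fun d hd d' hd' => by
    rw [← commutatorElement_eq_one_iff_commute, ← map_commutatorElement]
    exact (QuotientGroup.eq_one_iff _).2 (commutator_mem_commutator hd hd')
  have h2 : ∀ a ∈ A, Commute (φ a) (φ z) → ∀ d ∈ D, Commute (φ a) (φ d) := by
    intro a ha hc
    have : D ≤ (centralizer {φ a}).comap φ := by
      refine hD.le.trans ((closure_le _).2 fun c hc' => ?_)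
      obtain ⟨y, hy, hyc⟩ := Group.mem_conjugatesOfSet_iff.1 hc'
      obtain rfl : y = z := hy
      obtain ⟨g, rfl⟩ := isConj_iff.1 hyc
      obtain ⟨a', ha', b, hb, rfl⟩ := h g
      have e : a' * b * y * (a' * b)⁻¹ = a' * y * a'⁻¹ := by
        rw [mul_assoc a', hz b hb]; group
      change φ _ ∈ centralizer {φ a}
      rw [mem_centralizer_singleton_iff, e, map_mul, map_mul, map_inv]
      have h3 : Commute (φ a) (φ a') := (show Commute a a' from H22.mul_comm_of_mem hA ha ha').map φ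
      exact ((h3.mul_right hc).mul_right h3.inv_right).eq.symm
    intro d hd
    exact (mem_centralizer_singleton_iff.1 (this hd)).symm
  have hAB : MulEq A B ⊤ := ⟨le_top, le_top, fun g _ => h g⟩
  have hH : MulEq A (B ⊓ (A ⊔ D)) (A ⊔ D) := hAB.modl' le_sup_left le_top
  have h3 : ∀ b ∈ B ⊓ (A ⊔ D), ∃ a ∈ A, ∃ d ∈ D, b = a * d ∧ ∀ d ∈ D, Commute (φ a) (φ d) := by
    intro b hb
    obtain ⟨a, ha, d, hd, e⟩ := (mem_sup_of_le_normalizer_right le_normalizer_of_normal).1 hb.2
    refine ⟨a, ha, d, hd, e, h2 a ha ?_⟩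
    have h4 : Commute (φ b) (φ z) := (show Commute b z from hz b hb.1).map φ
    have : φ a = φ b * (φ d)⁻¹ := by rw [e, map_mul, mul_inv_cancel_right]
    rw [this]
    exact h4.mul_left (h1 d hd z hzD).inv_left
  have hB₁ : IsMulCommutative ↥(B ⊓ (A ⊔ D)) := by
    refine H22.isMulCommutative_of_forall fun b hb b' hb' => ?_
    obtain ⟨a, ha, d, hd, e, hc⟩ := h3 b hb
    obtain ⟨a', ha', d', hd', e', hc'⟩ := h3 b' hb'
    have h4 : Commute (φ b) (φ b') := by
      rw [e, e', map_mul, map_mul]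
      exact (((show Commute a a' from H22.mul_comm_of_mem hA ha ha').map φ).mul_right
        (hc d' hd')).mul_left ((hc' d hd).symm.mul_right (h1 d hd d' hd'))
    rw [← commutatorElement_eq_one_iff_commute, ← map_commutatorElement] at h4
    have h5 := hi.le (mem_inf.2 ⟨(QuotientGroup.eq_one_iff _).1 h4,
      commutator_mem_commutator hb.1 hb'.1⟩)
    exact commutatorElement_eq_one_iff_mul_comm.1 (mem_bot.1 h5)
  have h6 := H22.commutator_commutator_eq_bot_of_permutes
    (H22.Permutes.of_coe_eq (mulEq_iff_coe.1 hH).symm) hA hB₁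
  rw [hH.sup_eq] at h6
  rw [eq_bot_iff, ← h6]
  exact der_mono (der_mono le_sup_right)

open Subgroup H69 H45 ArithmeticFunction in
open scoped commutatorElement in
universe u in
theorem aux (n : ℕ) : ∀ {G : Type u} [Group G] [Finite G] (A B : Subgroup G), Nat.card G = n →
    IsMulCommutative A → ⁅B, B⁆ ≤ 𝐂(B) → H22.Fz A B →
    derivedSeries G (2 * (1 + cardFactors (Nat.card ↥⁅B, B⁆))) = ⊥ := by
  induction n using Nat.strong_induction_on with
  | _ n ih =>
  intro G _ _ A B hn hA hB h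
  by_cases hB1 : ⁅B, B⁆ = ⊥
  · rw [hB1, card_bot, cardFactors_one]
    exact h.derivedSeries_two hA (abelian_iff_der_eq_bot.2 hB1)
  have hBn : Group.IsNilpotent B := by
    refine nilpotent_iff_ucn.2 ⟨2, le_antisymm (ucn_le _ _) (le_ucn_succ_iff.2 ⟨le_rfl, ?_⟩)⟩
    rw [ucn_one]
    exact le_inf (der_le B) hB
  have hsol := h.isSolvable (abelian_nil hA) hBn
  obtain ⟨D, ⟨hDn, hD1⟩, hmin⟩ := (wellFounded_lt (α := Subgroup G)).has_min
    {D | D.Normal ∧ D ⊓ ⁅B, B⁆ ≠ ⊥} ⟨⊤, inferInstance, by rwa [top_inf_eq]⟩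
  obtain ⟨⟨z, hz⟩, hz1⟩ := (Subgroup.ne_bot_iff_exists_ne_one).1 hD1
  have hz1 : z ≠ 1 := fun e => hz1 (Subtype.ext e)
  have hD : D = normalClosure {z} := by
    by_contra hne
    refine hmin (normalClosure {z}) ⟨normalClosure_normal, fun e => hz1 (mem_bot.1 ?_)⟩
      (lt_of_le_of_ne (normalClosure_le_normal (Set.singleton_subset_iff.2 hz.1)) (Ne.symm hne))
    rw [← e]
    exact ⟨subset_normalClosure rfl, hz.2⟩
  have hD0 : D ≠ ⊥ := fun e => hD1 (by rw [e, bot_inf_eq])
  have hi : ⁅D, D⁆ ⊓ ⁅B, B⁆ = ⊥ := by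
    by_contra hne
    exact hmin _ ⟨inferInstance, hne⟩ (sol_der1_proper inferInstance hD0)
  have hD2 := step h hA (hB hz.2) hD hi
  set φ := QuotientGroup.mk' D
  have hq := ih _ (hn ▸ H1.card_quotient_lt hD0) (A.map φ) (B.map φ) rfl inferInstance
    (by
      rw [← Subgroup.map_commutator]
      rintro _ ⟨x, hx, rfl⟩ _ ⟨y, hy, rfl⟩
      rw [← map_mul, ← map_mul, hB hx y hy]) (h.quotient D)
  rw [← Subgroup.map_commutator, ← map_derivedSeries_eq (QuotientGroup.mk'_surjective D),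
    Subgroup.map_eq_bot_iff, QuotientGroup.ker_mk'] at hq
  have hc := congrArg cardFactors (H1.card_map_mk'_mul D ⁅B, B⁆)
  rw [cardFactors_mul Nat.card_pos.ne' Nat.card_pos.ne'] at hc
  change cardFactors (Nat.card ↥(⁅B, B⁆.map φ)) + _ = _ at hc
  have hpos : 0 < cardFactors (Nat.card ↥(D ⊓ ⁅B, B⁆)) :=
    cardFactors_pos_iff_one_lt.2 ((one_lt_card_iff_ne_bot _).2 hD1)
  rw [eq_bot_iff, ← hD2]
  refine (derivedSeries_antitone G (show 2 * (1 + cardFactors (Nat.card ↥(⁅B, B⁆.map φ))) + 1 + 1 ≤ _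
    by omega)).trans ?_
  rw [derivedSeries_succ, derivedSeries_succ]
  exact der_mono (der_mono hq)

/-- Let the finite group G be the product AB of an abelian subgroup A and a subgroup B of nilpotency class at most two, and let Ω be the number of prime factors, with multiplicity, of the order of the commutator subgroup of B. Then the term of index 2(1 + Ω) of the derived series of G is trivial. -/
theorem result {G : Type*} [Group G] [Finite G] (A B : Subgroup G) [IsMulCommutative A] (hB : commutator ↥B ≤ Subgroup.center ↥B) (hAB : ∀ g : G, ∃ a ∈ A, ∃ b ∈ B, g = a * b) : derivedSeries G (2 * (1 + (Nat.card ↥(commutator ↥B)).primeFactorsList.length)) = ⊥ := by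
  have h := aux _ A B rfl inferInstance (by
    rw [← H45.map_subtype_commutator]
    rintro _ ⟨x, hx, rfl⟩ y hy
    exact congrArg Subtype.val (Subgroup.mem_center_iff.1 (hB hx) ⟨y, hy⟩)) hAB
  rwa [← H45.map_subtype_commutator, Subgroup.card_subtype,
    ArithmeticFunction.cardFactors_apply] at h

end Cfsg.Agent.S0574
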