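import Cfsg.Agent.Base
import Cfsg.Statements.S0575
import Cfsg.Agent.Lib.Fact.Ito

set_option autoImplicit false
open Cfsg

namespace Cfsg.Agent.S0575

/-- If H is a normal subgroup of a finite group G, then the Frattini subgroup of H, viewed in G, lies in the Frattini subgroup of G. -/
theorem result {G : Type*} [Group G] [Finite G] (H : Subgroup G) [H.Normal] : (frattini ↥H).map H.subtype ≤ frattini G := by
  exact H22.map_frattini_le_of_normal H

end Cfsg.Agent.S0575
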