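import Cfsg.Agent.Base
import Cfsg.Statements.S0576
import Cfsg.Agent.Lib.Fact.Ito

set_option autoImplicit false
open Cfsg

namespace Cfsg.Agent.S0576

/-- Let H be a normal subgroup of a finite group G with H contained in the Frattini subgroup of G. Then the group of inner automorphisms of H is contained in the Frattini subgroup of the automorphism group of H. -/
theorem result {G : Type*} [Group G] [Finite G] (H : Subgroup G) [H.Normal] (hH : H ≤ frattini G) : (MulAut.conj : ↥H →* MulAut ↥H).range ≤ frattini (MulAut ↥H) := by
  have : Finite (MulAut H) := Finite.of_injective _ MulEquiv.toEquiv_injective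
  have : (MulAut.conj : ↥H →* MulAut ↥H).range.Normal := ⟨by
    rintro _ ⟨h, rfl⟩ φ
    exact ⟨φ h, by ext x; simp⟩⟩
  let f : G →* MulAut H := MulAut.conjNormal
  refine H22.le_frattini_of_le_map_frattini (U := f.range) ?_
  rintro _ ⟨h, rfl⟩
  have h1 := frattini_le_comap_frattini_of_surjective f.rangeRestrict_surjective (hH h.2)
  refine ⟨_, h1, ?_⟩
  ext x
  simp [f]

end Cfsg.Agent.S0576
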