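import Cfsg.Statements.S0577
import Mathlib
import Cfsg.Agent.Base
import Cfsg.Agent.Lib.Tech58.Schmidt
import Cfsg.Agent.Lib.Core.Frattini

set_option autoImplicit false
open Cfsg

namespace Cfsg.Agent.S0577

open Subgroup
open scoped commutatorElement

/-- Let G be a finite minimal non-nilpotent group and Q a normal Sylow q-subgroup of G, and let D be the commutator subgroup of Q regarded in G (a normal subgroup). Then G modulo D is non-abelian and all its proper subgroups are abelian. -/
theorem result {G : Type*} [Group G] [Finite G] (hG : Cfsg.IsMinimalNonNilpotent G) (q : ℕ) [Fact q.Prime] (hq : q ∣ Nat.card G) (Q : Sylow q G) (hQ : (Q : Subgroup G).Normal) (D : Subgroup G) [D.Normal] (hD : D = (commutator ↥(Q : Subgroup G)).map (Q : Subgroup G).subtype) : ¬ IsMulCommutative (G ⧸ D) ∧ ∀ K : Subgroup (G ⧸ D), K ≠ ⊤ → IsMulCommutative K := by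
  obtain ⟨p, r, hp, hr, hpr, P, R, g, h1, h2, h3, h4⟩ := H58.schmidt hG
  haveI := Fact.mk hp
  haveI := Fact.mk hr
  have hprime : ∀ s : ℕ, s.Prime → s ∣ Nat.card G → s = r ∨ s = p := by
    intro s hs hd
    obtain ⟨k, hk⟩ := IsPGroup.iff_card.1 P.2
    obtain ⟨l, hl⟩ := IsPGroup.iff_card.1 R.2
    have h5 := H1.card_sup_dvd_of_normal (P : Subgroup G) R
    rw [sup_comm, h3, card_top] at h5
    rcases hs.dvd_mul.1 (hd.trans h5) with h6 | h6
    · exact Or.inr ((Nat.prime_dvd_prime_iff_eq hs hp).1 (hs.dvd_of_dvd_pow (hk ▸ h6)))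
    · exact Or.inl ((Nat.prime_dvd_prime_iff_eq hs hr).1 (hs.dvd_of_dvd_pow (hl ▸ h6)))
  have hgP : g ∈ (P : Subgroup G) := h1 ▸ mem_zpowers g
  obtain rfl : q = r := by
    refine (hprime q Fact.out hq).resolve_right ?_
    rintro rfl
    haveI := Sylow.unique_of_normal Q hQ
    rw [Subsingleton.elim P Q] at hgP
    have h5 := H1.pCore_le_centralizer_pCore (G := G) hpr
    rw [H1.pCore_eq_of_sylow_normal R, H1.pCore_eq_of_sylow_normal Q] at h5
    exact h4 (h5 hgP)
  haveI := Sylow.unique_of_normal Q hQ
  obtain rfl : Q = R := Subsingleton.elim _ _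
  have hD' : D = ⁅(Q : Subgroup G), (Q : Subgroup G)⁆ := by
    rw [hD, map_subtype_commutator]
  have hs := QuotientGroup.mk'_surjective D
  refine ⟨fun hc => h4 ?_, fun K hK => ?_⟩
  · refine H2.le_centralizer_of_commutator_le_frattini (A := P) le_normalizer_of_normal
      ((IsPGroup.coprime_card_of_ne p q hpr _ _ P.2 Q.2).coprime_dvd_right
        (card_subgroup_dvd_card _)) ?_ hgP
    refine le_trans ?_ (hD ▸ map_mono (H1.commutator_le_frattini Q.2))
    exact (commutator_mono le_top le_top).trans
      (Normal.quotient_commutative_iff_commutator_le.1 hc)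
  · haveI : Group.IsNilpotent K := by
      rw [← map_comap_eq_self_of_surjective hs K]
      exact H1.isNilpotent_map (hG.2 _ fun h5 => hK (comap_injective hs
        (by rw [h5, comap_top]))) _
    refine H58.comm_of_isNilpotent_of_abP fun s hs' => ?_
    haveI := Fact.mk hs'
    refine H58.AbP.subgroup ?_ K
    by_cases hd : s ∣ Nat.card G
    · rcases hprime s hs' hd with rfl | rfl
      · refine H58.abP_of_sylow (Q.mapSurjective hs) ?_
        rintro _ ⟨a, ha, rfl⟩ _ ⟨b, hb, rfl⟩
        rw [← commutatorElement_eq_one_iff_mul_comm, ← map_commutatorElement]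
        exact (QuotientGroup.eq_one_iff _).2 (hD' ▸ commutator_mem_commutator ha hb)
      · refine (H58.cycP_of_sylow P ?_).abP.quotient D
        rw [h1]
        infer_instance
    · refine H58.AbP.quotient (fun T hT a ha b hb => ?_) D
      rw [(H35.isPElt_of_mem hT ha).eq_one_of_not_dvd
        fun h5 => hd (h5.trans (orderOf_dvd_natCard a)), one_mul, mul_one]

end Cfsg.Agent.S0577
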