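import Cfsg.Agent.Base
import Cfsg.Statements.S0578
import Cfsg.Agent.Lib.Fact.Ito
import Cfsg.Agent.Lib.Transfer.NormalComplement
import Cfsg.Agent.Lib.PGroup.Basic

set_option autoImplicit false
open Cfsg

namespace Cfsg.Agent.S0578

universe u

theorem aux (n : ℕ) : ∀ {G : Type u} [Group G] [Finite G], Nat.card G = n →
    (∀ A : Subgroup G, IsMulCommutative A →
      Subgroup.normalizer (A : Set G) = Subgroup.centralizer (A : Set G)) → IsMulCommutative G := by
  induction n using Nat.strong_induction_on with | _ n ih => ?_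
  intro G _ _ hn h
  have hsub : ∀ H : Subgroup G, H ≠ ⊤ → IsMulCommutative H := by
    intro H hH
    refine ih _ (hn ▸ H1.card_lt_of_ne_top hH) rfl fun A hA => ?_
    refine le_antisymm (fun x hx => ?_) (Subgroup.centralizer_le_normalizer _)
    have h1 : (x : G) ∈ Subgroup.normalizer ((A.map H.subtype : Subgroup G) : Set G) :=
      Subgroup.le_normalizer_map _ ⟨x, hx, rfl⟩
    rw [h _ inferInstance] at h1
    intro y hy
    exact Subtype.ext (h1 y ⟨y, hy, rfl⟩)
  -- a central normal subgroup with an abelian supplement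
  have key : ∀ N P : Subgroup G, N.Normal → N ≠ ⊤ → IsMulCommutative P → N ⊔ P = ⊤ →
      IsMulCommutative G := by
    intro N P hN hNt hP hNP
    have h1 := h N (hsub N hNt)
    rw [Subgroup.normalizer_eq_top_iff.mpr hN] at h1
    have h2 : ∀ x ∈ N, ∀ g : G, x * g = g * x := fun x hx g => by
      have : g ∈ Subgroup.centralizer (N : Set G) := h1 ▸ Subgroup.mem_top g
      exact this x hx
    refine ⟨⟨fun a b => ?_⟩⟩
    obtain ⟨x, hx, y, hy, rfl⟩ := H22.Fz.of_normal_left hNP a
    obtain ⟨z, hz, w, hw, rfl⟩ := H22.Fz.of_normal_left hNP b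
    have e := H22.mul_comm_of_mem hP hy hw
    exact (Commute.mul_left (h2 x hx _) (Commute.mul_right (h2 z hz y).symm e)).eq
  rcases subsingleton_or_nontrivial G with hG | hG
  · infer_instance
  obtain ⟨p, hp, hpd⟩ := Nat.exists_prime_and_dvd (Finite.one_lt_card (α := G)).ne'
  have := Fact.mk hp
  obtain ⟨P⟩ : Nonempty (Sylow p G) := inferInstance
  by_cases hP : (P : Subgroup G) = ⊤
  · have hG : IsPGroup p G := (hP ▸ P.2 : IsPGroup p (⊤ : Subgroup G)).of_equiv Subgroup.topEquiv
    obtain ⟨M, -, hM, -, hMc⟩ := H5.exists_le_normal_index_eq hG (K := ⊥) bot_ne_top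
    obtain ⟨x, hx⟩ : ∃ x, x ∉ M := by
      by_contra hc
      push Not at hc
      exact hMc.1 (eq_top_iff.mpr fun x _ => hc x)
    exact key M _ hM hMc.1 inferInstance (H5.sup_zpowers_eq_top_of_isCoatom hMc hx)
  · have h1 := H4.hasNormalPComplement_of_normalizer_le_centralizer P (h P (hsub P hP)).le
    have := H4.pResidual_normal p G
    refine key (pResidual p G) P this (fun e => ?_) (hsub P hP) (H4.pResidual_sup_sylow P)
    apply H4.hasNormalPComplement_iff_not_dvd.mp h1
    rwa [e, Subgroup.card_top]

/-- If in a finite group the normalizer of each abelian subgroup coincides with its centralizer, then the group is abelian. -/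
theorem result {G : Type*} [Group G] [Finite G] (h : ∀ A : Subgroup G, IsMulCommutative A → Subgroup.normalizer (A : Set G) = Subgroup.centralizer (A : Set G)) : IsMulCommutative G := by
  exact aux _ rfl h

end Cfsg.Agent.S0578
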