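import Cfsg.Statements.S0582
import Mathlib
import Cfsg.Agent.Base
import Cfsg.Agent.Lib.Solv.Supersolvable2
import Cfsg.Agent.Lib.Core.HallSZ
import Cfsg.Agent.Lib.Core.GrpBasic

set_option autoImplicit false
open Pointwise
open Cfsg

namespace Cfsg.Agent.S0582

open Subgroup
open scoped Pointwise

universe u

theorem card_map_mk_mul {G : Type u} [Group G] [Finite G] {H Q : Subgroup G} [Q.Normal]
    (h : Q ≤ H) : Nat.card (H.map (QuotientGroup.mk' Q)) * Nat.card Q = Nat.card H := by
  have h1 := (H.map (QuotientGroup.mk' Q)).card_mul_index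
  rw [H21.index_map_mk' h] at h1
  have h2 := H.card_mul_index
  have h3 := card_eq_card_quotient_mul_card_subgroup Q
  have h4 : 0 < H.index := Nat.pos_of_ne_zero index_ne_zero_of_finite
  refine Nat.eq_of_mul_eq_mul_right h4 ?_
  rw [h2, h3, ← h1]; ring

theorem exists_sylow {G : Type u} [Group G] [Finite G] (H : Subgroup G) (hH : IsSupersolvable H)
    (p : ℕ) [Fact p.Prime] (hmax : ∀ q : ℕ, q.Prime → q ∣ Nat.card H → q ≤ p)
    (hi : ¬ p ∣ H.index) :
    ∃ P : Sylow p G, (P : Subgroup G) ≤ H ∧ H ≤ normalizer ((P : Subgroup G) : Set G) := by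
  obtain ⟨P⟩ : Nonempty (Sylow p H) := inferInstance
  have hn := H21.sylow_normal_of_isSupersolvable hH p hmax P
  have hp : IsPGroup p ((P : Subgroup H).map H.subtype) := P.isPGroup'.map _
  have hi2 : ¬ p ∣ ((P : Subgroup H).map H.subtype).index := by
    rw [index_map_subtype]
    intro hd
    rcases (Nat.Prime.dvd_mul Fact.out).1 hd with h | h
    · exact P.not_dvd_index h
    · exact hi h
  refine ⟨hp.toSylow hi2, map_subtype_le _, ?_⟩
  intro x hx
  refine H3.mem_normalizer_of_conj_mem ?_
  rintro _ ⟨y, hy, rfl⟩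
  exact ⟨_, hn.conj_mem y hy ⟨x, hx⟩, rfl⟩

theorem main (n : ℕ) : ∀ {G : Type u} [Group G] [Finite G] (H K : Subgroup G), Nat.card H = n →
    IsSupersolvable H → IsSupersolvable K → Nat.card H = Nat.card K →
    (Nat.card H).Coprime H.index → ∃ x : G, MulAut.conj x • H = K := by
  induction n using Nat.strong_induction_on with
  | _ n ih =>
  have aux : ∀ {G : Type u} [Group G] [Finite G] (H K Q : Subgroup G) [Q.Normal], Q ≠ ⊥ →
      Q ≤ H → Q ≤ K → Nat.card H = n →
      IsSupersolvable H → IsSupersolvable K → Nat.card H = Nat.card K →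
      (Nat.card H).Coprime H.index → ∃ x : G, MulAut.conj x • H = K := by
    intro G _ _ H K Q _ hQ hQH hQK hn hH hK hc hcop
    have h1 := card_map_mk_mul hQH
    have h2 := card_map_mk_mul hQK
    have hQ1 : 1 < Nat.card Q := (one_lt_card_iff_ne_bot Q).2 hQ
    have hpos : 0 < Nat.card (H.map (QuotientGroup.mk' Q)) := Nat.card_pos
    obtain ⟨x, hx⟩ := ih (Nat.card (H.map (QuotientGroup.mk' Q))) (by rw [← hn, ← h1]; nlinarith)
      (H.map (QuotientGroup.mk' Q)) (K.map (QuotientGroup.mk' Q)) rfl
      (H21.isSupersolvable_of_surjective hH _ ((QuotientGroup.mk' Q).subgroupMap_surjective H))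
      (H21.isSupersolvable_of_surjective hK _ ((QuotientGroup.mk' Q).subgroupMap_surjective K))
      (Nat.eq_of_mul_eq_mul_right (by omega : 0 < Nat.card Q) (by rw [h1, h2, hc]))
      (by
        rw [H21.index_map_mk' hQH]
        exact Nat.Coprime.coprime_dvd_left (Dvd.intro _ h1) hcop)
    obtain ⟨y, rfl⟩ := QuotientGroup.mk'_surjective Q x
    refine ⟨y, ?_⟩
    rw [← H3.map_conj_smul] at hx
    have hQH' : Q ≤ MulAut.conj y • H := by
      intro q hq
      rw [H3.mem_conj_smul_iff]
      refine hQH ?_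
      simpa using Normal.conj_mem inferInstance q hq y⁻¹
    have := congrArg (comap (QuotientGroup.mk' Q)) hx
    rwa [comap_map_eq_self (by rwa [QuotientGroup.ker_mk']),
      comap_map_eq_self (by rwa [QuotientGroup.ker_mk'])] at this
  intro G _ _ H K hn hH hK hc hcop
  by_cases h1 : Nat.card H = 1
  · refine ⟨1, ?_⟩
    rw [map_one, one_smul, (card_eq_one.1 h1), (card_eq_one (H := K)).1 (hc ▸ h1)]
  have hlt : 1 < Nat.card H := by
    have : 0 < Nat.card H := Nat.card_pos
    omega
  obtain ⟨p, hp, hpd, hmax⟩ := H21.exists_max_prime_dvd hlt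
  haveI := Fact.mk hp
  have hiH : ¬ p ∣ H.index := fun hd =>
    hp.one_lt.ne' (Nat.eq_one_of_dvd_coprimes hcop hpd hd)
  have hidx : K.index = H.index := by
    refine Nat.eq_of_mul_eq_mul_left (Nat.card_pos (α := H)) ?_
    rw [H.card_mul_index, hc, K.card_mul_index]
  obtain ⟨P, hPH, hHP⟩ := exists_sylow H hH p hmax hiH
  obtain ⟨Q, hQK, hKQ⟩ := exists_sylow K hK p (hc ▸ hmax) (hidx ▸ hiH)
  obtain ⟨x, hx⟩ := MulAction.exists_smul_eq G P Q
  have hx' : MulAut.conj x • (P : Subgroup G) = Q := by
    rw [← hx, Sylow.coe_subgroup_smul]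
  set H' := MulAut.conj x • H with hH'
  have hQH' : (Q : Subgroup G) ≤ H' := by
    rw [← hx', hH']
    exact pointwise_smul_le_pointwise_smul_iff.2 hPH
  set N := normalizer ((Q : Subgroup G) : Set G) with hN
  have hH'N : H' ≤ N := by
    rw [hH', H3.conj_smul_le_iff]
    intro y hy
    rw [hN, ← H3.conj_smul_eq_self_iff, ← hx', H3.conj_smul_conj_smul]
    have : x * y * x⁻¹ * x = x * y := by group
    rw [this, ← H3.conj_smul_conj_smul, H3.conj_smul_eq_self_iff.2 (hHP hy)]
  have hcH' : Nat.card H' = Nat.card H := H3.card_conj_smul x H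
  have hiH' : H'.index = H.index := by
    refine Nat.eq_of_mul_eq_mul_left (Nat.card_pos (α := H)) ?_
    rw [H.card_mul_index, ← hcH', H'.card_mul_index]
  have hQne : (Q : Subgroup G) ≠ ⊥ :=
    Q.ne_bot_of_dvd_card (hpd.trans (card_subgroup_dvd_card H))
  haveI : ((Q : Subgroup G).subgroupOf N).Normal := normal_in_normalizer
  have hsH' : IsSupersolvable H' := by
    rw [hH', H3.conj_smul_eq_map]
    exact H21.isSupersolvable_of_surjective hH _ (MonoidHom.subgroupMap_surjective _ H)
  obtain ⟨y, hy⟩ := aux (H'.subgroupOf N) (K.subgroupOf N) ((Q : Subgroup G).subgroupOf N)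
    (by
      intro h0
      rw [subgroupOf_eq_bot, disjoint_iff, inf_eq_left.2 le_normalizer] at h0
      exact hQne h0)
    (subgroupOf_mono N hQH') (subgroupOf_mono N hQK)
    (by rw [H3.card_subgroupOf_of_le hH'N, hcH', hn])
    (H21.isSupersolvable_of_mulEquiv hsH' (subgroupOfEquivOfLe hH'N).symm)
    (H21.isSupersolvable_of_mulEquiv hK (subgroupOfEquivOfLe hKQ).symm)
    (by rw [H3.card_subgroupOf_of_le hH'N, H3.card_subgroupOf_of_le hKQ, hcH', hc])
    (by
      rw [H3.card_subgroupOf_of_le hH'N, hcH']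
      refine Nat.Coprime.coprime_dvd_right ?_ hcop
      rw [← hiH']
      exact relIndex_dvd_index_of_le hH'N)
  refine ⟨y * x, ?_⟩
  have := congrArg (Subgroup.map N.subtype) hy
  rw [H3.map_conj_smul, subgroupOf_map_subtype, subgroupOf_map_subtype, inf_eq_left.2 hH'N,
    inf_eq_left.2 hKQ, hH', H3.conj_smul_conj_smul] at this
  exact this

/-- Let H and K be supersolvable subgroups of a finite group G of the same order, that order being coprime to their index. Then H and K are conjugate in G. -/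
theorem result {G : Type*} [Group G] [Finite G] (H K : Subgroup G) (hH : Cfsg.IsSupersolvable H) (hK : Cfsg.IsSupersolvable K) (hcard : Nat.card H = Nat.card K) (hHall : (Nat.card H).Coprime H.index) : ∃ x : G, MulAut.conj x • H = K := by
  exact main _ H K rfl hH hK hcard hHall

end Cfsg.Agent.S0582
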