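import Cfsg.Agent.Base
import Cfsg.Statements.S0584
import Cfsg.Agent.Lib.Core.Fitting
import Cfsg.Agent.Lib.Fact.Basic

set_option autoImplicit false
open Cfsg

namespace Cfsg.Agent.S0584

open scoped Pointwise

/-- Let B ≤ A be normal subgroups of a finite group G with B contained in the Frattini subgroup of G. If A modulo B is nilpotent then A is nilpotent. -/
theorem result {G : Type*} [Group G] [Finite G] (A B : Subgroup G) [A.Normal] [B.Normal] (hBA : B ≤ A) (hB : B ≤ frattini G) (h : Group.IsNilpotent (↥A ⧸ B.subgroupOf A)) : Group.IsNilpotent A := by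
  refine H1.isNilpotent_of_sylow_normal fun p _ P => ?_
  -- the image of `P` in `A / B` is a normal Sylow subgroup
  let f := QuotientGroup.mk' (B.subgroupOf A)
  have hf : Function.Surjective f := QuotientGroup.mk'_surjective _
  let Q : Sylow p (↥A ⧸ B.subgroupOf A) := P.mapSurjective hf
  have hQc : (Q : Subgroup (↥A ⧸ B.subgroupOf A)).Characteristic := Sylow.characteristic_of_normal Q inferInstance
  have hK : ((Q : Subgroup (↥A ⧸ B.subgroupOf A)).comap f) = (P : Subgroup A) ⊔ B.subgroupOf A := by
    rw [Sylow.coe_mapSurjective, Subgroup.comap_map_eq, QuotientGroup.ker_mk']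
  have hQn : ((P : Subgroup A) ⊔ B.subgroupOf A).Normal := hK ▸ inferInstance
  set P' : Subgroup G := (P : Subgroup A).map A.subtype with hP'
  -- every element of `G` is in `N(P') B`
  have htop : Subgroup.normalizer (P' : Set G) ⊔ frattini G = ⊤ := by
    rw [eq_top_iff]
    intro g _
    let R : Sylow p A := (MulAut.conjNormal g : MulAut A) • P
    have hPB : ∀ S : Sylow p A, (S : Subgroup A) ≤ (P : Subgroup A) ⊔ B.subgroupOf A := by
      intro S
      obtain ⟨a, rfl⟩ := MulAction.exists_smul_eq A P S
      rw [Sylow.coe_subgroup_smul]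
      refine (H22.conj_smul_mono a (le_sup_left (b := B.subgroupOf A))).trans ?_
      exact (H1.mem_normalizer_iff_conj_smul_eq.mp
        (Subgroup.le_normalizer_of_normal (Subgroup.mem_top a))).le
    let K : Subgroup A := (P : Subgroup A) ⊔ B.subgroupOf A
    obtain ⟨k, hk⟩ := MulAction.exists_smul_eq K (P.subtype (hPB P)) (R.subtype (hPB R))
    obtain ⟨x, hx, b, hb, hxb⟩ := (H22.Permutes.of_le_normalizer
      (A := (P : Subgroup A)) (B := B.subgroupOf A) Subgroup.le_normalizer_of_normal).symm k
      (by rw [sup_comm]; exact k.2)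
    have hk' : (k : A) • P = R := by
      have := congrArg (fun S : Sylow p K => ((S : Subgroup K).map K.subtype)) hk
      simp only [Sylow.coe_subtype, Sylow.coe_subgroup_smul] at this
      rw [H1.map_conj_smul, Subgroup.map_subgroupOf_eq_of_le (hPB P),
        Subgroup.map_subgroupOf_eq_of_le (hPB R)] at this
      exact Sylow.ext this
    have hx' : x • P = R := by
      rw [← hk', hxb, mul_smul, Sylow.smul_eq_iff_mem_normalizer.mpr (Subgroup.le_normalizer hb)]
    have h2 : (x : G)⁻¹ * g ∈ Subgroup.normalizer (P' : Set G) := by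
      rw [H1.mem_normalizer_iff_conj_smul_eq, ← H1.conj_smul_conj_smul]
      have h3 : MulAut.conj g • P' = (R : Subgroup A).map A.subtype := by
        ext y
        constructor
        · rintro ⟨_, ⟨z, hz, rfl⟩, rfl⟩
          exact ⟨_, ⟨z, hz, rfl⟩, rfl⟩
        · rintro ⟨_, ⟨z, hz, rfl⟩, rfl⟩
          exact ⟨_, ⟨z, hz, rfl⟩, rfl⟩
      rw [h3, ← hx', Sylow.coe_subgroup_smul, H1.map_conj_smul]
      exact H1.conj_inv_smul_conj_smul _ _
    have : g = x * ((x : G)⁻¹ * g) := by group
    rw [this]
    exact Subgroup.mul_mem _ (Subgroup.mem_sup_right (hB hx)) (Subgroup.mem_sup_left h2)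
  have h4 : P'.Normal := Subgroup.normalizer_eq_top_iff.mp (frattini_nongenerating htop)
  exact h4.of_map_subtype

end Cfsg.Agent.S0584
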