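import Cfsg.Agent.Base
import Cfsg.Statements.S0586
import Cfsg.Agent.Lib.Fact.Ito
import Cfsg.Agent.Lib.Core.Fitting
import Cfsg.Agent.Lib.PGroup.Basic
import Cfsg.Agent.S0585
import Cfsg.Agent.Lib.Core.MinNormal

set_option autoImplicit false
open Cfsg

namespace Cfsg.Agent.S0586

theorem isMulCommutative_of_nilpotent {G : Type*} [Group G] [Finite G] (hΦ : frattini G = ⊥)
    (N : Subgroup G) [N.Normal] (hN : Group.IsNilpotent N) : IsMulCommutative N := by
  have h1 : commutator N ≤ frattini N := by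
    refine le_iInf₂ fun M hM => ?_
    have := H1.normal_of_isCoatom_of_isNilpotent hM
    have : IsSimpleGroup (N ⧸ M) := H3.isSimpleGroup_quotient_of_maximal_normal M hM.1
      fun L _ hL => (hL.eq_or_lt.imp Eq.symm (hM.2 L))
    rw [← Subgroup.Normal.quotient_commutative_iff_commutator_le]
    exact ⟨⟨IsSimpleGroup.comm_iff_isSolvable.mpr inferInstance⟩⟩
  rw [← Subgroup.commutator_self_eq_bot_iff, eq_bot_iff, ← hΦ, ← Subgroup.map_subtype_commutator]
  exact (Subgroup.map_mono h1).trans (H22.map_frattini_le_of_normal N)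

/-- If the Frattini subgroup of a finite group G is trivial, then the Fitting subgroup of G equals the join of all abelian minimal normal subgroups of G. -/
theorem result {G : Type*} [Group G] [Finite G] (hΦ : frattini G = ⊥) : Cfsg.fittingSubgroup G = sSup {N : Subgroup G | N.Normal ∧ N ≠ ⊥ ∧ IsMulCommutative N ∧ ∀ K : Subgroup G, K.Normal → K ≤ N → K = ⊥ ∨ K = N} := by
  set S := sSup {N : Subgroup G | N.Normal ∧ N ≠ ⊥ ∧ IsMulCommutative N ∧
    ∀ K : Subgroup G, K.Normal → K ≤ N → K = ⊥ ∨ K = N} with hS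
  have hSF : S ≤ fittingSubgroup G := sSup_le fun N hN => by
    have := hN.1
    have := hN.2.2.1
    exact H1.le_fitting_of_isMulCommutative
  refine le_antisymm ?_ hSF
  have hF := isMulCommutative_of_nilpotent hΦ (fittingSubgroup G) inferInstance
  have hSn : S.Normal := Subgroup.sSup_normal _ fun N hN => hN.1
  have hSc := H22.isMulCommutative_of_le hF hSF
  obtain ⟨H, hH⟩ := S0585.result hΦ S
  have hn : (fittingSubgroup G ⊓ H).Normal := by
    rw [← Subgroup.normalizer_eq_top_iff, eq_top_iff, ← hH.sup_eq_top]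
    refine sup_le (fun a ha => ?_) ?_
    · refine Subgroup.centralizer_le_normalizer _ fun x hx => ?_
      exact H22.mul_comm_of_mem hF hx.1 (hSF ha)
    · exact (le_inf Subgroup.le_normalizer_of_normal Subgroup.le_normalizer).trans
        (Subgroup.inf_normalizer_le_normalizer_inf)
  have hb : fittingSubgroup G ⊓ H = ⊥ := by
    by_contra hne
    obtain ⟨M, hM1, hM2, hM3, hM4⟩ := H1.exists_minimal_normal_le _ hne
    have hMS : M ≤ S := le_sSup ⟨hM1, hM2, H22.isMulCommutative_of_le hF (hM3.trans inf_le_left), hM4⟩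
    exact hM2 (eq_bot_iff.mpr (hH.disjoint.eq_bot ▸ le_inf hMS (hM3.trans inf_le_right)))
  intro x hx
  obtain ⟨s, hs, h, hh, rfl⟩ := H22.Fz.of_normal_left hH.sup_eq_top x
  have : h ∈ fittingSubgroup G ⊓ H := ⟨(Subgroup.mul_mem_cancel_left _ (hSF hs)).mp hx, hh⟩
  rw [hb, Subgroup.mem_bot] at this
  rwa [this, mul_one]

end Cfsg.Agent.S0586
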