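import Cfsg.Agent.Base
import Cfsg.Statements.S0587
import Cfsg.Agent.Lib.Fact.Ito
import Cfsg.Agent.Lib.Core.PCore
import Cfsg.Agent.Lib.Core.MinNormal
import Cfsg.Agent.Lib.PGroup.Basic
import Cfsg.Agent.Lib.Core.CoprimeBasic

set_option autoImplicit false
open Cfsg

namespace Cfsg.Agent.S0587

open Subgroup

theorem card_modEq {G : Type*} [Group G] [Finite G] {q : ℕ} [Fact q.Prime] {Q L : Subgroup G}
    [L.Normal] (hQ : IsPGroup q Q) :
    Nat.card L ≡ Nat.card (L ⊓ centralizer (Q : Set G) : Subgroup G) [MOD q] := by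
  letI : MulAction Q L := MulAction.compHom L ((MulAut.conjNormal (H := L)).comp Q.subtype)
  have h := hQ.card_modEq_card_fixedPoints L
  have e : Nat.card (MulAction.fixedPoints Q L) =
      Nat.card (L ⊓ centralizer (Q : Set G) : Subgroup G) := by
    refine Nat.card_congr
      { toFun := fun x => ⟨x.1, x.1.2, fun y hy => ?_⟩
        invFun := fun x => ⟨⟨x.1, x.2.1⟩, fun y => Subtype.ext ?_⟩
        left_inv := fun _ => rfl
        right_inv := fun _ => rfl }
    · have : y * (x.1 : G) * y⁻¹ = x.1 := congrArg Subtype.val (x.2 ⟨y, hy⟩)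
      rw [mul_inv_eq_iff_eq_mul] at this
      exact this
    · show (y : G) * x.1 * (y : G)⁻¹ = x.1
      rw [x.2.2 y y.2, mul_inv_cancel_right]
  rwa [e] at h

theorem abelian_normal {G : Type*} [Group G] {M : Subgroup G} (hM : IsCoatom M)
    (hcore : M.normalCore = ⊥) (A : Subgroup G) [A.Normal] (hA : IsMulCommutative A)
    (hne : A ≠ ⊥) : A ⊔ M = ⊤ ∧ centralizer (A : Set G) ⊓ M = ⊥ ∧ centralizer (A : Set G) = A := by
  have h1 : A ⊔ M = ⊤ := hM.2 _ (right_lt_sup.mpr fun h => hne
    (eq_bot_iff.mpr (hcore ▸ normal_le_normalCore.mpr h)))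
  have h2 : centralizer (A : Set G) ⊓ M = ⊥ := by
    have hn : (centralizer (A : Set G) ⊓ M).Normal := by
      rw [← normalizer_eq_top_iff, eq_top_iff, ← h1]
      refine sup_le (fun a ha => ?_) ?_
      · exact centralizer_le_normalizer _ fun x hx => (hx.1 a ha).symm
      · exact (le_inf le_normalizer_of_normal le_normalizer).trans inf_normalizer_le_normalizer_inf
    exact eq_bot_iff.mpr (hcore ▸ normal_le_normalCore.mpr inf_le_right)
  refine ⟨h1, h2, le_antisymm (fun x hx => ?_) (le_centralizer A)⟩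
  obtain ⟨a, ha, m, hm, rfl⟩ := H22.Fz.of_normal_left h1 x
  have : m ∈ centralizer (A : Set G) ⊓ M :=
    ⟨(Subgroup.mul_mem_cancel_left _ (le_centralizer A ha)).mp hx, hm⟩
  rw [h2, mem_bot] at this
  rwa [this, mul_one]

/-- Let G be a finite group whose largest normal p-subgroup L is nontrivial, and M a maximal subgroup of G with trivial normal core. Then L is elementary abelian, M is a complement to L, L is a minimal normal subgroup of G, the centralizer of L is L, and for every prime q such that the largest normal q-subgroup of M is nontrivial, the order of L is congruent to 1 modulo q and q ≠ p. -/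
theorem result {G : Type*} [Group G] [Finite G] (p : ℕ) [Fact p.Prime] (hL : Cfsg.pCore p G ≠ ⊥) (M : Subgroup G) (hM : IsCoatom M) (hcore : M.normalCore = ⊥) : Cfsg.IsElementaryAbelian p (Cfsg.pCore p G) ∧ Subgroup.IsComplement' (Cfsg.pCore p G) M ∧ (∀ K : Subgroup G, K.Normal → K ≤ Cfsg.pCore p G → K = ⊥ ∨ K = Cfsg.pCore p G) ∧ Subgroup.centralizer ((Cfsg.pCore p G : Subgroup G) : Set G) = Cfsg.pCore p G ∧ ∀ (q : ℕ) [Fact q.Prime], Cfsg.pCore q ↥M ≠ ⊥ → Nat.card (Cfsg.pCore p G) % q = 1 % q ∧ q ≠ p := by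
  set L := pCore p G with hLdef
  have hLp : IsPGroup p L := H1.isPGroup_pCore
  have hZ : L ⊓ centralizer (L : Set G) ≠ ⊥ := by
    obtain ⟨z, hz, hzc, hzo⟩ := H5.exists_mem_centralizer_orderOf_eq hLp le_rfl le_normalizer hL
    intro e
    have : z = 1 := by simpa [e] using (show z ∈ L ⊓ centralizer (L : Set G) from ⟨hz, hzc⟩)
    rw [this, orderOf_one] at hzo
    exact (Fact.out : p.Prime).one_lt.ne hzo
  have hLc : IsMulCommutative L := by
    have h1 := (abelian_normal hM hcore (L ⊓ centralizer (L : Set G))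
      (H22.isMulCommutative_of_forall fun a ha b hb => hb.2 a ha.1) hZ).2.2
    refine H22.isMulCommutative_of_forall fun a ha b hb => ?_
    have : b ∈ centralizer ((L ⊓ centralizer (L : Set G) : Subgroup G) : Set G) :=
      fun x hx => (hx.2 b hb).symm
    rw [h1] at this
    exact this.2 a ha
  obtain ⟨h1, h2, h3⟩ := abelian_normal hM hcore L hLc hL
  have hmin : ∀ K : Subgroup G, K.Normal → K ≤ L → K = ⊥ ∨ K = L := by
    intro K hK hKL
    refine or_iff_not_imp_left.mpr fun hKne => le_antisymm hKL ?_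
    rw [← (abelian_normal hM hcore K (H22.isMulCommutative_of_le hLc hKL) hKne).2.2]
    exact fun x hx y hy => H22.mul_comm_of_mem hLc (hKL hy) hx
  obtain ⟨k, hk⟩ := hLp.exists_card_eq
  have hpL : p ∣ Nat.card L := by
    rw [hk]
    refine dvd_pow_self p fun h0 => hL ?_
    rwa [h0, pow_zero, card_eq_one] at hk
  refine ⟨⟨hLc, ?_⟩, (H22.Fz.of_normal_left h1).isComplement' (h3 ▸ h2), hmin, h3, fun q _ hq => ?_⟩
  · obtain ⟨r, hr, hrd, hrx⟩ := H3.IsMinNormal.exists_prime_pow_eq_one
      (⟨inferInstance, hL, hmin⟩ : H3.IsMinNormal L)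
    rw [hk] at hrd
    rwa [(Nat.prime_dvd_prime_iff_eq hr Fact.out).mp (hr.dvd_of_dvd_pow hrd)] at hrx
  · have hQ : IsPGroup q (pCoreOf q M) := H1.isPGroup_pCoreOf M
    have hn : (L ⊓ centralizer (pCoreOf q M : Set G)).Normal := by
      rw [← normalizer_eq_top_iff, eq_top_iff, ← h1]
      refine sup_le (fun a ha => ?_) ?_
      · exact centralizer_le_normalizer _ fun x hx => H22.mul_comm_of_mem hLc hx.1 ha
      · exact H2.le_normalizer_inf le_normalizer_of_normal
          (H2.le_normalizer_centralizer (H1.le_normalizer_pCoreOf M))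
    have hb : L ⊓ centralizer (pCoreOf q M : Set G) = ⊥ := by
      refine (hmin _ hn inf_le_left).resolve_right fun e => hq ?_
      have h4 : pCoreOf q M ≤ centralizer (L : Set G) ⊓ M :=
        le_inf (le_centralizer_iff.mp (e ▸ inf_le_right)) (H1.pCoreOf_le M)
      rw [h2, le_bot_iff] at h4
      exact (map_eq_bot_iff_of_injective _ M.subtype_injective).mp h4
    have h5 := card_modEq (L := L) hQ
    rw [hb, card_bot] at h5
    refine ⟨h5, ?_⟩
    rintro rfl
    have := (h5.symm.trans hpL.modEq_zero_nat)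
    exact (Fact.out : q.Prime).one_lt.ne' (Nat.dvd_one.mp (Nat.modEq_zero_iff_dvd.mp this))

end Cfsg.Agent.S0587
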