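import Cfsg.Agent.Base
import Cfsg.Statements.S0588
import Cfsg.Agent.Lib.Core.GrpBasic
import Cfsg.Agent.Lib.PGroup.Basic

set_option autoImplicit false
open Cfsg

namespace Cfsg.Agent.S0588

/-- If a subgroup H of a finite group G contains the centralizer of every non-identity element of H, then the order of H is coprime to its index. -/
theorem result {G : Type*} [Group G] [Finite G] (H : Subgroup G) (h : ∀ x ∈ H, x ≠ 1 → Subgroup.centralizer ({x} : Set G) ≤ H) : (Nat.card H).Coprime H.index := by
  refine Nat.coprime_of_dvd fun p hp h1 h2 => ?_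
  have := Fact.mk hp
  obtain ⟨P⟩ : Nonempty (Sylow p H) := inferInstance
  let P' : Subgroup G := (P : Subgroup H).map H.subtype
  have hP' : IsPGroup p P' := P.2.map _
  obtain ⟨S, hS⟩ := hP'.exists_le_sylow
  obtain ⟨x, hx, hxo⟩ := H1.exists_mem_orderOf_eq_prime (H := P') hp (by
    rw [Subgroup.card_subtype]; exact P.dvd_card_of_dvd_card h1)
  have hx1 : x ≠ 1 := by rintro rfl; simp at hxo; exact hp.one_lt.ne hxo
  have hSne : (S : Subgroup G) ≠ ⊥ := fun e => hx1 (by simpa [e] using hS hx)
  obtain ⟨z, hzS, hzc, hzo⟩ := H5.exists_mem_centralizer_orderOf_eq S.2 le_rfl Subgroup.le_normalizer hSne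
  have hz1 : z ≠ 1 := by rintro rfl; simp at hzo; exact hp.one_lt.ne hzo
  have hzH : z ∈ H := h x (Subgroup.map_subtype_le _ hx) hx1
    (Subgroup.mem_centralizer_singleton_iff.mpr (hzc x (hS hx)).symm)
  have hSH : (S : Subgroup G) ≤ H := fun s hs => h z hzH hz1
    (Subgroup.mem_centralizer_singleton_iff.mpr (hzc s hs))
  exact S.not_dvd_index (h2.trans (Subgroup.index_dvd_of_le hSH))

end Cfsg.Agent.S0588
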