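import Cfsg.Statements.S0590
import Mathlib
import Cfsg.Agent.Lib.Thompson.Replacement


set_option autoImplicit false
open Cfsg

namespace Cfsg.Agent.S0590


/-- Quadratic action on an elementary abelian p-group forces the acting group modulo the kernel of the action to be elementary abelian. -/
theorem result {G : Type*} [Group G] [Finite G] {p : ℕ} [Fact p.Prime] (V H : Subgroup G) (hV : Cfsg.IsElementaryAbelian p V) (hHV : H ≤ Subgroup.normalizer (V : Set G)) (hq : ⁅⁅V, H⁆, H⁆ = ⊥) : ⁅H, H⁆ ≤ Subgroup.centralizer (V : Set G) ∧ ∀ a ∈ H, a ^ p ∈ Subgroup.centralizer (V : Set G) := by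
  exact ⟨H24.commutator_le_centralizer_of_quadratic hq,
    fun a ha => H24.pow_mem_centralizer_of_quadratic hV.2 hHV hq ha⟩

end Cfsg.Agent.S0590
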