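import Cfsg.Statements.S0592
import Mathlib
import Cfsg.Agent.Lib.Thompson.Quadratic


set_option autoImplicit false
open Cfsg

namespace Cfsg.Agent.S0592


/-- Two quadratically acting generators of a linear group that is not a p-group, with the p'-part of the order of their product dividing q - 1, give a homomorphism onto a subgroup of SL(2, q) that is not a p-group. -/
theorem result {K : Type*} [Field K] [Fintype K] {p : ℕ} [Fact p.Prime] [CharP K p] {W : Type*} [AddCommGroup W] [Module K W] [FiniteDimensional K W] [Finite W] [Nontrivial W] (H : Subgroup (W ≃ₗ[K] W)) (a b : W ≃ₗ[K] W) (hH : H = Subgroup.closure {a, b}) (ha : ∀ w : W, a (a w - w) = a w - w) (hb : ∀ w : W, b (b w - w) = b w - w) (hnp : ¬ IsPGroup p H) (hk : ∃ e k : ℕ, orderOf (a * b) = p ^ e * k ∧ k ∣ Fintype.card K - 1) : ∃ φ : H →* Matrix.SpecialLinearGroup (Fin 2) K, ¬ IsPGroup p φ.range := by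
  classical
  obtain ⟨e, k, hek, hk⟩ := hk
  have hfin : Finite (W ≃ₗ[K] W) :=
    Finite.of_injective (fun f : W ≃ₗ[K] W => (f : W → W)) DFunLike.coe_injective
  have haH : a ∈ H := hH ▸ Subgroup.subset_closure (by simp)
  have hbH : b ∈ H := hH ▸ Subgroup.subset_closure (by simp)
  obtain ⟨g, r, hr, hrp, hg⟩ := H24.exists_prime_orderOf_ne_of_not_isPGroup p hnp
  by_contra hcon
  push Not at hcon
  let ρ : H →* Module.End K W := (LinearEquiv.automorphismGroup.toLinearMapMonoidHom).comp H.subtype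
  have hcop : ∀ m : ℕ, r.Coprime (p ^ m) := fun m =>
    ((Nat.coprime_primes hr (Fact.out)).mpr hrp).pow_right m
  have hn : p ^ e * k ≠ 0 := hek ▸ (orderOf_pos _).ne'
  have hnil := H24.isNilpotent_of_quadratic (K := K) (⟨a, haH⟩ : H) ⟨b, hbH⟩
    (H24.closure_pair_subtype_eq_top hH haH hbH) hn
    (Subtype.ext (by simpa [← hek] using pow_orderOf_eq_one (a * b)))
    (H24.splits_X_pow_sub_one_of_dvd p e k hk) g (fun c φ _ _ _ => by
      obtain ⟨m, hm⟩ := hcon φ ⟨φ g, g, rfl⟩
      refine H24.eq_one_of_pow_eq_one_of_coprime ?_ (congrArg Subtype.val hm) (hcop m)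
      rw [← map_pow, ← hg, pow_orderOf_eq_one, map_one]) ρ ha hb
  obtain ⟨m, hm⟩ := H24.exists_pow_eq_one_of_isNilpotent p (K := K) hnil
  rw [← map_pow] at hm
  have h1 : g ^ p ^ m = 1 := by
    apply Subtype.ext
    apply LinearEquiv.toLinearMap_injective
    exact hm
  have h2 : g = 1 := H24.eq_one_of_pow_eq_one_of_coprime (hg ▸ pow_orderOf_eq_one g) h1 (hcop m)
  rw [h2, orderOf_one] at hg
  exact hr.ne_one hg.symm

end Cfsg.Agent.S0592
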