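import Cfsg.Statements.S0593
import Mathlib
import Cfsg.Agent.Lib.Thompson.Stable


set_option autoImplicit false
open Cfsg

namespace Cfsg.Agent.S0593


/-- For odd p, a faithful group on an elementary abelian p-group generated by two quadratically acting elements is a p-group or has non-abelian Sylow 2-subgroups. -/
theorem result {G : Type*} [Group G] [Finite G] {p : ℕ} [Fact p.Prime] (hp : p ≠ 2) (V H : Subgroup G) (hV : Cfsg.IsElementaryAbelian p V) (hHV : H ≤ Subgroup.normalizer (V : Set G)) (hf : H ⊓ Subgroup.centralizer (V : Set G) = ⊥) (a b : G) (hab : H = Subgroup.closure {a, b}) (ha : ⁅⁅V, Subgroup.zpowers a⁆, Subgroup.zpowers a⁆ = ⊥) (hb : ⁅⁅V, Subgroup.zpowers b⁆, Subgroup.zpowers b⁆ = ⊥) (hnp : ¬ IsPGroup p H) (T : Sylow 2 H) : ¬ IsMulCommutative T := by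
  intro hT
  have haH : a ∈ H := hab ▸ Subgroup.subset_closure (by simp)
  have hbH : b ∈ H := hab ▸ Subgroup.subset_closure (by simp)
  have htop := H24.closure_pair_subtype_eq_top hab haH hbH
  obtain ⟨g, r, hr, hrp, hg⟩ := H24.exists_prime_orderOf_ne_of_not_isPGroup p hnp
  obtain ⟨K, _, _, _, hK⟩ := H24.exists_sl_two_of_quadratic_pGroup p (H24.EA.isPGroup hV) hHV
    ⟨a, haH⟩ ⟨b, hbH⟩ htop (ha.le.trans bot_le) (hb.le.trans bot_le)
  obtain ⟨c, φ, hc, hx, hy, -⟩ := hK g (by rw [hg]; exact (Nat.coprime_primes hr Fact.out).mpr hrp)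
    (fun h => by
      have : (g : G) ∈ H ⊓ Subgroup.centralizer (V : Set G) := ⟨g.2, h⟩
      rw [hf, Subgroup.mem_bot] at this
      rw [show g = 1 from Subtype.ext this, orderOf_one] at hg
      exact hr.ne_one hg.symm)
  refine H24.not_isPGroup_of_upT_loT p (M := φ.range) hc one_ne_zero ⟨_, hx⟩ ⟨_, hy⟩
    (H24.isPGroup_range_sl_two p hp φ htop ?_ T hT)
  rintro _ (rfl | rfl)
  · exact ⟨1, by rw [hx, pow_one, H24.upT_pow_char]⟩
  · exact ⟨1, by rw [hy, pow_one, H24.loT_pow_char]⟩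

end Cfsg.Agent.S0593
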