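import Cfsg.Statements.S0594
import Mathlib
import Cfsg.Agent.Lib.Thompson.Stable


set_option autoImplicit false
open Cfsg

namespace Cfsg.Agent.S0594


/-- For odd p, two quadratic generators of a faithful group that is not a p-group, one of which acts nontrivially on a normal subgroup of order prime to p, force p = 3 and a section isomorphic to SL(2,3). -/
theorem result {G : Type*} [Group G] [Finite G] {p : ℕ} [Fact p.Prime] (hp : p ≠ 2) (V H : Subgroup G) (hV : Cfsg.IsElementaryAbelian p V) (hHV : H ≤ Subgroup.normalizer (V : Set G)) (hf : H ⊓ Subgroup.centralizer (V : Set G) = ⊥) (a b : G) (hab : H = Subgroup.closure {a, b}) (ha : ⁅⁅V, Subgroup.zpowers a⁆, Subgroup.zpowers a⁆ = ⊥) (hb : ⁅⁅V, Subgroup.zpowers b⁆, Subgroup.zpowers b⁆ = ⊥) (hnp : ¬ IsPGroup p H) (Q : Subgroup G) (hQH : Q ≤ H) (hQn : H ≤ Subgroup.normalizer (Q : Set G)) (hQ : (Nat.card Q).Coprime p) (hQa : ⁅Q, Subgroup.zpowers a⁆ ≠ ⊥) : p = 3 ∧ ∃ (K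 L : Subgroup G) (hL : (L.subgroupOf K).Normal), K ≤ H ∧ Nonempty ((K ⧸ L.subgroupOf K) ≃* Matrix.SpecialLinearGroup (Fin 2) (ZMod 3)) := by
  have haH : a ∈ H := hab ▸ Subgroup.subset_closure (by simp)
  have hbH : b ∈ H := hab ▸ Subgroup.subset_closure (by simp)
  have htop := H24.closure_pair_subtype_eq_top hab haH hbH
  obtain ⟨K, _, _, _, hK⟩ := H24.exists_sl_two_of_quadratic_pGroup p (H24.EA.isPGroup hV) hHV
    ⟨a, haH⟩ ⟨b, hbH⟩ htop (ha.le.trans bot_le) (hb.le.trans bot_le)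
  obtain ⟨q, hq, hqa⟩ : ∃ q ∈ Q, q * a * q⁻¹ * a⁻¹ ≠ 1 := by
    by_contra hcon
    push Not at hcon
    apply hQa
    rw [eq_bot_iff]
    refine H24.commutator_zpowers_right_le
      (by rw [Subgroup.normalizer_eq_top]; exact Subgroup.mem_top _) fun q hq => ?_
    rw [commutatorElement_def, hcon q hq]
    exact one_mem _
  have hgQ : q * a * q⁻¹ * a⁻¹ ∈ Q := by
    have := Q.mul_mem hq (H24.conj_mem_of_mem_normalizer (hQn haH) (Q.inv_mem hq))
    simpa [mul_assoc] using this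
  obtain ⟨c, φ, hc, hx, hy, hg⟩ := hK ⟨_, hQH hgQ⟩
    (by
      rw [← Subgroup.orderOf_coe]
      exact Nat.Coprime.coprime_dvd_left (Q.orderOf_dvd_natCard hgQ) hQ)
    (fun h => by
      have : q * a * q⁻¹ * a⁻¹ ∈ H ⊓ Subgroup.centralizer (V : Set G) := ⟨hQH hgQ, h⟩
      rw [hf, Subgroup.mem_bot] at this
      exact hqa this)
  obtain ⟨h3, ψ, hψ, hle⟩ := H24.exists_sl_two_three p hp φ hc hx (R := Q.subgroupOf H)
    (by
      have : (Q.subgroupOf H).Normal := Subgroup.normal_subgroupOf_of_le_normalizer hQn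
      rw [Subgroup.normalizer_eq_top]; exact Subgroup.mem_top _)
    (by rw [H24.card_subgroupOf_of_le hQH]; exact hQ)
    (fun h => hg (by
      have h1 := Subgroup.mem_center_iff.mp (h (x := ⟨q, hQH hq⟩) hq) (φ ⟨a, haH⟩)
      have h2 : (⟨_, hQH hgQ⟩ : H) = ⟨q, hQH hq⟩ * ⟨a, haH⟩ * (⟨q, hQH hq⟩ : H)⁻¹ *
        (⟨a, haH⟩ : H)⁻¹ := rfl
      rw [h2, map_mul, map_mul, map_mul, map_inv, map_inv, ← h1]
      group))
  exact ⟨h3, H24.exists_section_of_hom H φ ψ hψ hle⟩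

end Cfsg.Agent.S0594
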