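import Cfsg.Statements.S0596
import Mathlib
import Cfsg.Agent.Lib.Thompson.Stable


set_option autoImplicit false
open Cfsg

namespace Cfsg.Agent.S0596


/-- For odd p, a p-separable group with a faithful action on an elementary abelian p-group that is not p-stable has p = 3 and involves SL(2,3). -/
theorem result {G : Type*} [Group G] [Finite G] {p : ℕ} [Fact p.Prime] (hp : p ≠ 2) (V H : Subgroup G) (hV : Cfsg.IsElementaryAbelian p V) (hHV : H ≤ Subgroup.normalizer (V : Set G)) (hf : H ⊓ Subgroup.centralizer (V : Set G) = ⊥) (hsep : Cfsg.IsPSolvable p H) (a : G) (haH : a ∈ H) (hq : ⁅⁅V, Subgroup.zpowers a⁆, Subgroup.zpowers a⁆ = ⊥) (hna : a ∉ (Cfsg.pCore p H).map H.subtype) : p = 3 ∧ ∃ (K L : Subgroup G) (hL : (L.subgroupOf K).Normal), K ≤ H ∧ Nonempty ((K ⧸ L.subgroupOf K) ≃* Matrix.SpecialLinearGroup (Fin 2) (ZMod 3)) := by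
  refine H24.sl_two_three_of_not_mem_pCore_of_isPSolvable p hp (H24.EA.isPGroup hV)
    hHV hsep (MonoidHom.id H) Function.surjective_id (fun g h => ?_) ⟨a, haH⟩
    (hq.le.trans bot_le) (fun h => hna ⟨⟨a, haH⟩, h, rfl⟩)
  have : (g : G) ∈ H ⊓ Subgroup.centralizer (V : Set G) := ⟨g.2, h⟩
  rw [hf, Subgroup.mem_bot] at this
  exact Subtype.ext this

end Cfsg.Agent.S0596
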