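import Cfsg.Statements.S0604
import Mathlib
import Cfsg.Agent.Lib.Thompson.Basic


set_option autoImplicit false
open Cfsg

namespace Cfsg.Agent.S0604


/-- The Thompson subgroup of G is the join of the Thompson subgroups of its Sylow p-subgroups. -/
theorem result {G : Type*} [Group G] [Finite G] {p : ℕ} [Fact p.Prime] : Cfsg.thompsonSubgroup p G = ⨆ S : Sylow p G, Cfsg.thompsonSubgroupOf p (S : Subgroup G) := by
  rw [← H24.thompsonSubgroupOf_top]
  apply le_antisymm
  · rw [H24.thompsonSubgroupOf_le_iff]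
    intro A hA
    obtain ⟨S, hS⟩ := (H24.EA.isPGroup hA.2.1).exists_le_sylow
    exact (H24.le_thompsonSubgroupOf (H24.mem_maxEA_of_le hA hS le_top)).trans
      (le_iSup (fun S : Sylow p G => Cfsg.thompsonSubgroupOf p (S : Subgroup G)) S)
  · refine iSup_le fun S => ?_
    obtain ⟨A, hA⟩ := H24.maxEA_nonempty p (⊤ : Subgroup G)
    obtain ⟨T, hT⟩ := (H24.EA.isPGroup hA.2.1).exists_le_sylow
    obtain ⟨g, rfl⟩ := MulAction.exists_smul_eq G T S
    have hA' : A.map (MulAut.conj g).toMonoidHom ∈ H24.maxEA p (⊤ : Subgroup G) := by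
      have := (H24.map_mem_maxEA_iff (f := (MulAut.conj g).toMonoidHom)
        (MulAut.conj g).injective).2 hA
      rwa [Subgroup.map_top_of_surjective _ (MulAut.conj g).surjective] at this
    exact H24.thompsonSubgroupOf_le_of_le hA' (Subgroup.map_mono hT) le_top

end Cfsg.Agent.S0604
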