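import Mathlib
import Cfsg.Statements.S0615
import Cfsg.Agent.Lib.FF.Transv
import Cfsg.Agent.Lib.Thompson.Factor
import Cfsg.Agent.Lib.Core.Wielandt
import Cfsg.Agent.Lib.Comp.LayerStruct
-- import your own Cfsg.Agent.* helpers here

set_option autoImplicit false
open Cfsg

namespace Cfsg.Agent.S0615

open Subgroup in
open scoped Pointwise commutatorElement in
/-- The standing hypotheses on one factor. -/
def Good {G : Type*} [Group G] (V E K : Subgroup G) : Prop :=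
  K ≤ E ∧ (K.subgroupOf E).IsSubnormal ∧
    (∀ U : Subgroup G, U ≤ ⁅V, K⁆ → K ≤ normalizer (U : Set G) → U = ⊥ ∨ U = ⁅V, K⁆) ∧ 2 < Nat.card K

section aux
open Subgroup
open scoped Pointwise commutatorElement

variable {G : Type*} [Group G] [Finite G] {p : ℕ} [Fact p.Prime] {V E : Subgroup G}

omit [Finite G] in
theorem good_conj (hEV : E ≤ normalizer (V : Set G)) {K : Subgroup G} (hK : Good V E K) {g : G}
    (hg : g ∈ E) : Good V E (MulAut.conj g • K) := by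
  have hE := H1.mem_normalizer_iff_conj_smul_eq.1 (le_normalizer hg : g ∈ normalizer (E : Set G))
  have hVg := H1.mem_normalizer_iff_conj_smul_eq.1 (hEV hg)
  refine ⟨H23.conj_smul_le_of_mem_normalizer (le_normalizer hg) hK.1, ?_, ?_, ?_⟩
  · have := H1.isSubnormal_subgroupOf_conj_smul hK.2.1 g
    rwa [hE] at this
  · intro U hU hn
    have hc : ⁅V, MulAut.conj g • K⁆ = MulAut.conj g • ⁅V, K⁆ := by rw [H23.conj_smul_commutator, hVg]
    rw [hc] at hU ⊢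
    have h1 : MulAut.conj g⁻¹ • U ≤ ⁅V, K⁆ := by
      rw [← H1.conj_inv_smul_conj_smul g ⁅V, K⁆]
      exact smul_mono_right _ hU
    have h2 : K ≤ normalizer ((MulAut.conj g⁻¹ • U : Subgroup G) : Set G) := by
      rw [H1.normalizer_conj_smul, ← H1.conj_inv_smul_conj_smul g K]
      exact smul_mono_right _ hn
    rcases hK.2.2.1 _ h1 h2 with h | h
    · left
      rw [← H1.conj_smul_conj_inv_smul g U, h, smul_bot]
    · right
      rw [← H1.conj_smul_conj_inv_smul g U, h]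
  · rw [H1.card_conj_smul]
    exact hK.2.2.2

theorem good_faithful (hV : Cfsg.IsElementaryAbelian p V) (hEV : E ≤ normalizer (V : Set G))
    (hf : E ⊓ centralizer (V : Set G) = ⊥) (hOp : Cfsg.pCore p ↥E = ⊥) {K : Subgroup G} (hK : Good V E K) :
    K ⊓ centralizer ((⁅V, K⁆ : Subgroup G) : Set G) = ⊥ := by
  set D := K ⊓ centralizer ((⁅V, K⁆ : Subgroup G) : Set G) with hD
  have hDE : D ≤ E := inf_le_left.trans hK.1
  have hq : ⁅⁅V, D⁆, D⁆ = ⊥ := by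
    rw [commutator_eq_bot_iff_le_centralizer]
    exact (commutator_mono le_rfl inf_le_left).trans (le_centralizer_iff.1 inf_le_right)
  have hDp : IsPGroup p D := by
    intro d
    refine ⟨1, Subtype.ext ?_⟩
    have h1 : (d : G) ^ p ∈ E ⊓ centralizer (V : Set G) :=
      ⟨E.pow_mem (hDE d.2) p, H24.pow_mem_centralizer_of_quadratic hV.2 (hDE.trans hEV) hq d.2⟩
    rw [hf, mem_bot] at h1
    simpa using h1
  have hn : (D.subgroupOf K).Normal := by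
    rw [normal_subgroupOf_iff_le_normalizer inf_le_left]
    exact H2.le_normalizer_inf le_normalizer
      (H2.le_normalizer_centralizer (normalizer_commutator_ge_right V K))
  have hs : (D.subgroupOf E).IsSubnormal :=
    IsSubnormal.trans (K := K.subgroupOf E) (subgroupOf_mono E inf_le_left)
      ((H1.isSubnormal_subgroupOf_subgroupOf_iff hK.1).2 hn.isSubnormal) hK.2.1
  have h2 := H1.le_pCore_of_isSubnormal hs (hDp.comap_subtype (K := E))
  rw [hOp, le_bot_iff, subgroupOf_eq_bot, disjoint_iff, inf_eq_left.2 hDE] at h2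
  exact h2

theorem good_inf_centralizer (hV : Cfsg.IsElementaryAbelian p V) (hEV : E ≤ normalizer (V : Set G))
    (hf : E ⊓ centralizer (V : Set G) = ⊥) (hOp : Cfsg.pCore p ↥E = ⊥) {K : Subgroup G} (hK : Good V E K) :
    ⁅V, K⁆ ⊓ centralizer (K : Set G) = ⊥ := by
  rcases hK.2.2.1 (⁅V, K⁆ ⊓ centralizer (K : Set G)) inf_le_left
    (H2.le_normalizer_inf (normalizer_commutator_ge_right V K) (H2.le_normalizer_centralizer le_normalizer))
    with h | h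
  · exact h
  · exfalso
    have h1 := good_faithful hV hEV hf hOp hK
    rw [inf_eq_left.2 (le_centralizer_iff.1 (h.ge.trans inf_le_right))] at h1
    have h2 := hK.2.2.2
    rw [h1, card_bot] at h2
    omega

theorem case_normalizes (hV : Cfsg.IsElementaryAbelian p V) (hEV : E ≤ normalizer (V : Set G))
    (hf : E ⊓ centralizer (V : Set G) = ⊥) (hOp : Cfsg.pCore p ↥E = ⊥) {K L : Subgroup G} (hK : Good V E K)
    (hL : Good V E L) (h21 : ¬ ⁅V, L⁆ ≤ ⁅V, K⁆) (hn : L ≤ normalizer ((⁅V, K⁆ : Subgroup G) : Set G)) :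
    ⁅⁅V, K⁆, L⁆ = ⊥ ∧ ⁅⁅V, L⁆, K⁆ = ⊥ := by
  have hKV : ⁅V, K⁆ ≤ V := H2.commutator_le_of_le_normalizer (hK.1.trans hEV)
  have hLV : ⁅V, L⁆ ≤ V := H2.commutator_le_of_le_normalizer (hL.1.trans hEV)
  have hinf : ⁅V, K⁆ ⊓ ⁅V, L⁆ = ⊥ := by
    rcases hL.2.2.1 (⁅V, K⁆ ⊓ ⁅V, L⁆) inf_le_right
      (H2.le_normalizer_inf hn (normalizer_commutator_ge_right V L)) with h | h
    · exact h
    · exact absurd (h.ge.trans inf_le_left) h21
  have h1 : ⁅⁅V, K⁆, L⁆ = ⊥ := by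
    rw [eq_bot_iff, ← hinf]
    exact le_inf (H2.commutator_le_of_le_normalizer hn) (commutator_mono hKV le_rfl)
  refine ⟨h1, ?_⟩
  have h2 := H24.commutator_le_pCore_of_subnormal hV.2 hEV hf hK.1 hL.1 hK.2.1 hL.2.1 h1
  rw [hOp, Subgroup.map_bot, le_bot_iff] at h2
  have h3 : K ≤ normalizer ((⁅V, L⁆ : Subgroup G) : Set G) :=
    H2.le_normalizer_commutator (hK.1.trans hEV) (H23.le_normalizer_of_commutator_eq_bot h2)
  rw [eq_bot_iff, ← hinf]
  exact le_inf (commutator_mono hLV le_rfl) (H2.commutator_le_of_le_normalizer h3)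

/-- conjugates by elements not normalising `[V, K]`, given the induction hypothesis -/
theorem conj_step (hEV : E ≤ normalizer (V : Set G)) {K L : Subgroup G} (hK : Good V E K)
    (hL : Good V E L)
    (ih : ∀ K' L' : Subgroup G, Nat.card (K' ⊔ L' : Subgroup G) < Nat.card (K ⊔ L : Subgroup G) →
      Good V E K' → Good V E L' → ¬ ⁅V, K'⁆ ≤ ⁅V, L'⁆ → ¬ ⁅V, L'⁆ ≤ ⁅V, K'⁆ →
      ⁅⁅V, K'⁆, L'⁆ = ⊥ ∧ ⁅⁅V, L'⁆, K'⁆ = ⊥)
    {h : G} (hh : h ∈ L) (hn : h ∉ normalizer ((⁅V, K⁆ : Subgroup G) : Set G)) :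
    MulAut.conj h • ⁅V, K⁆ ≤ centralizer (K : Set G) := by
  have hc : ⁅V, MulAut.conj h • K⁆ = MulAut.conj h • ⁅V, K⁆ := by
    rw [H23.conj_smul_commutator, H1.mem_normalizer_iff_conj_smul_eq.1 (hEV (hL.1 hh))]
  have hne : MulAut.conj h • ⁅V, K⁆ ≠ ⁅V, K⁆ := fun he => hn (H1.mem_normalizer_iff_conj_smul_eq.2 he)
  have hs : (K.subgroupOf (K ⊔ L)).IsSubnormal := H1.isSubnormal_subgroupOf_of_le hK.2.1 (sup_le hK.1 hL.1)
  rcases hs.lt_normal with h1 | ⟨N, hN, hKN, hlt⟩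
  · exfalso
    rw [subgroupOf_eq_top] at h1
    exact hn (normalizer_commutator_ge_right V K (h1 (mem_sup_right hh)))
  have hKN' : K ≤ N.map (K ⊔ L).subtype := by
    exact (map_subgroupOf_eq_of_le (le_sup_left : K ≤ K ⊔ L)).ge.trans (map_mono hKN)
  have hnN : h ∈ normalizer ((N.map (K ⊔ L).subtype : Subgroup G) : Set G) := by
    have : K ⊔ L ≤ normalizer ((N.map (K ⊔ L).subtype : Subgroup G) : Set G) := by
      rw [← normal_subgroupOf_iff_le_normalizer (map_subtype_le N), subgroupOf,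
        comap_map_eq_self_of_injective (K ⊔ L).subtype_injective]
      exact hN
    exact this (mem_sup_right hh)
  have hcard : Nat.card (K ⊔ MulAut.conj h • K : Subgroup G) < Nat.card (K ⊔ L : Subgroup G) := by
    refine lt_of_le_of_lt (card_le_of_le (sup_le hKN' (H23.conj_smul_le_of_mem_normalizer hnN hKN'))) ?_
    rw [H24.card_map_subtype]
    exact H1.card_lt_of_ne_top hlt.ne
  have := (ih K _ hcard hK (good_conj hEV hK (hL.1 hh))
    (by rw [hc]; exact fun hle => hne (eq_of_le_of_card_ge hle (by rw [H1.card_conj_smul])).symm)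
    (by rw [hc]; exact fun hle => hne (eq_of_le_of_card_ge hle (by rw [H1.card_conj_smul])))).2
  rw [hc] at this
  exact commutator_eq_bot_iff_le_centralizer.1 this

omit [Finite G] in
theorem conj_le_sup (hEV : E ≤ normalizer (V : Set G)) {K L : Subgroup G} (hK : Good V E K)
    {h : G} (hh : h ∈ L) : MulAut.conj h • ⁅V, K⁆ ≤ ⁅V, K⁆ ⊔ ⁅V, L⁆ := by
  have hKV : ⁅V, K⁆ ≤ V := H2.commutator_le_of_le_normalizer (hK.1.trans hEV)
  rintro _ ⟨v, hv, rfl⟩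
  have h1 : ⁅v⁻¹, h⁆ ∈ ⁅V, L⁆ := commutator_mem_commutator (V.inv_mem (hKV hv)) hh
  have h2 : h * v * h⁻¹ = v * ⁅v⁻¹, h⁆ := by
    rw [commutatorElement_def]; group
  change h * v * h⁻¹ ∈ _
  rw [h2]
  exact mul_mem (mem_sup_left hv) (mem_sup_right h1)

theorem card_sup_conj (hV : Cfsg.IsElementaryAbelian p V) (hEV : E ≤ normalizer (V : Set G))
    (hf : E ⊓ centralizer (V : Set G) = ⊥) (hOp : Cfsg.pCore p ↥E = ⊥) {K : Subgroup G} (hK : Good V E K)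
    {h : G} (hh : h ∈ E) (hc : MulAut.conj h • ⁅V, K⁆ ≤ centralizer (K : Set G)) :
    Nat.card (⁅V, K⁆ ⊔ MulAut.conj h • ⁅V, K⁆ : Subgroup G) =
      Nat.card (⁅V, K⁆ : Subgroup G) * Nat.card (⁅V, K⁆ : Subgroup G) := by
  have hKV : ⁅V, K⁆ ≤ V := H2.commutator_le_of_le_normalizer (hK.1.trans hEV)
  have h1 := H24.card_sup_mul_card_inf (H24.le_normalizer_of_le_of_comm hV.1 hKV
    (H23.conj_smul_le_of_mem_normalizer (hEV hh) hKV))
  have h2 : ⁅V, K⁆ ⊓ MulAut.conj h • ⁅V, K⁆ = ⊥ :=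
    eq_bot_iff.2 ((inf_le_inf_left _ hc).trans (good_inf_centralizer hV hEV hf hOp hK).le)
  rwa [h2, card_bot, mul_one, H1.card_conj_smul] at h1

theorem main (hV : Cfsg.IsElementaryAbelian p V) (hEV : E ≤ normalizer (V : Set G))
    (hf : E ⊓ centralizer (V : Set G) = ⊥) (hOp : Cfsg.pCore p ↥E = ⊥) (n : ℕ) :
    ∀ K L : Subgroup G, Nat.card (K ⊔ L : Subgroup G) = n → Good V E K → Good V E L →
      ¬ ⁅V, K⁆ ≤ ⁅V, L⁆ → ¬ ⁅V, L⁆ ≤ ⁅V, K⁆ → ⁅⁅V, K⁆, L⁆ = ⊥ ∧ ⁅⁅V, L⁆, K⁆ = ⊥ := by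
  induction n using Nat.strong_induction_on with
  | _ n ih =>
  intro K L hn hK hL h12 h21
  by_cases h1 : L ≤ normalizer ((⁅V, K⁆ : Subgroup G) : Set G)
  · exact case_normalizes hV hEV hf hOp hK hL h21 h1
  by_cases h2 : K ≤ normalizer ((⁅V, L⁆ : Subgroup G) : Set G)
  · exact (case_normalizes hV hEV hf hOp hL hK h12 h2).symm
  exfalso
  have ih1 := fun {h : G} => conj_step hEV hK hL (fun K' L' hlt => ih _ (hn ▸ hlt) K' L' rfl) (h := h)
  have ih2 := fun {h : G} => conj_step hEV hL hK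
    (fun K' L' hlt => ih _ (by rwa [sup_comm L K, hn] at hlt) K' L' rfl) (h := h)
  obtain ⟨h, hh, hhn⟩ := SetLike.not_le_iff_exists.1 h1
  obtain ⟨g, hg, hgn⟩ := SetLike.not_le_iff_exists.1 h2
  have hKV : ⁅V, K⁆ ≤ V := H2.commutator_le_of_le_normalizer (hK.1.trans hEV)
  have hLV : ⁅V, L⁆ ≤ V := H2.commutator_le_of_le_normalizer (hL.1.trans hEV)
  have c0 := H24.card_sup_mul_card_inf (H24.le_normalizer_of_le_of_comm hV.1 hKV hLV)
  have c1 : ∀ {h : G}, h ∈ L → h ∉ normalizer ((⁅V, K⁆ : Subgroup G) : Set G) →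
      Nat.card (⁅V, K⁆ ⊔ MulAut.conj h • ⁅V, K⁆ : Subgroup G) =
      Nat.card (⁅V, K⁆ : Subgroup G) * Nat.card (⁅V, K⁆ : Subgroup G) :=
    fun hh hhn => card_sup_conj hV hEV hf hOp hK (hL.1 hh) (ih1 hh hhn)
  have c2 := card_sup_conj hV hEV hf hOp hL (hK.1 hg) (ih2 hg hgn)
  have l1 : ∀ {h : G}, h ∈ L → ⁅V, K⁆ ⊔ MulAut.conj h • ⁅V, K⁆ ≤ ⁅V, K⁆ ⊔ ⁅V, L⁆ :=
    fun hh => sup_le le_sup_left (conj_le_sup hEV hK hh)
  have l2 : ⁅V, L⁆ ⊔ MulAut.conj g • ⁅V, L⁆ ≤ ⁅V, K⁆ ⊔ ⁅V, L⁆ :=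
    sup_le le_sup_right ((conj_le_sup hEV hL hg).trans (sup_comm _ _).le)
  have d1 := card_le_of_le (l1 hh)
  have d2 := card_le_of_le l2
  rw [c1 hh hhn] at d1
  rw [c2] at d2
  set a := Nat.card (⁅V, K⁆ : Subgroup G) with ha
  set b := Nat.card (⁅V, L⁆ : Subgroup G) with hb
  set s := Nat.card (⁅V, K⁆ ⊔ ⁅V, L⁆ : Subgroup G) with hs
  set t := Nat.card (⁅V, K⁆ ⊓ ⁅V, L⁆ : Subgroup G) with ht
  have hapos : 0 < a := Nat.card_pos
  have hbpos : 0 < b := Nat.card_pos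
  have htpos : 0 < t := Nat.card_pos
  have e1 : a * t ≤ b := Nat.le_of_mul_le_mul_left (by nlinarith) hapos
  have e2 : b * t ≤ a := Nat.le_of_mul_le_mul_left (by nlinarith) hbpos
  have ht1 : t = 1 := by nlinarith
  have hab : a = b := by rw [ht1] at e1 e2; omega
  have hinf : ⁅V, K⁆ ⊓ ⁅V, L⁆ = ⊥ := card_eq_one.1 ht1
  have hW : ∀ {h : G}, h ∈ L → h ∉ normalizer ((⁅V, K⁆ : Subgroup G) : Set G) →
      ⁅V, K⁆ ⊔ MulAut.conj h • ⁅V, K⁆ = ⁅V, K⁆ ⊔ ⁅V, L⁆ := by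
    intro h hh hhn
    refine eq_of_le_of_card_ge (l1 hh) ?_
    rw [c1 hh hhn, ← hs]
    rw [ht1, mul_one, ← hab] at c0
    exact c0.le
  have huniq : ∀ {h : G}, h ∈ L → h ∉ normalizer ((⁅V, K⁆ : Subgroup G) : Set G) →
      MulAut.conj h • ⁅V, K⁆ = centralizer (K : Set G) ⊓ (⁅V, K⁆ ⊔ ⁅V, L⁆) := by
    intro h hh hhn
    rw [← hW hh hhn, sup_comm, H23.inf_sup_of_le_normalizer (ih1 hh hhn)
      (H24.le_normalizer_of_le_of_comm hV.1 hKV (H23.conj_smul_le_of_mem_normalizer (hEV (hL.1 hh)) hKV)),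
      inf_comm, good_inf_centralizer hV hEV hf hOp hK, sup_bot_eq]
  have hquot : ∀ {k : G}, k ∈ L → k ∉ normalizer ((⁅V, K⁆ : Subgroup G) : Set G) →
      h⁻¹ * k ∈ normalizer ((⁅V, K⁆ : Subgroup G) : Set G) := by
    intro k hk hkn
    rw [H1.mem_normalizer_iff_conj_smul_eq, ← H1.conj_smul_conj_smul, huniq hk hkn, ← huniq hh hhn,
      H1.conj_inv_smul_conj_smul]
  have hcent : L ⊓ normalizer ((⁅V, K⁆ : Subgroup G) : Set G) ≤
      centralizer ((⁅V, K⁆ : Subgroup G) : Set G) := by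
    apply H24.le_centralizer_of_commutator_eq_bot'
    rw [eq_bot_iff, ← hinf]
    exact le_inf (H2.commutator_le_of_le_normalizer inf_le_right) (commutator_mono hKV inf_le_left)
  have hone : ∀ {k : G}, k ∈ L → k ∈ normalizer ((⁅V, K⁆ : Subgroup G) : Set G) → k = 1 := by
    intro k hk hkn
    have k1 : k ∈ centralizer ((⁅V, K⁆ : Subgroup G) : Set G) := hcent ⟨hk, hkn⟩
    have k2 : k * h ∉ normalizer ((⁅V, K⁆ : Subgroup G) : Set G) :=
      fun hm => hhn ((mul_mem_cancel_left hkn).1 hm)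
    have k3 : h⁻¹ * (k * h) ∈ centralizer ((⁅V, K⁆ : Subgroup G) : Set G) :=
      hcent ⟨L.mul_mem (L.inv_mem hh) (L.mul_mem hk hh), hquot (L.mul_mem hk hh) k2⟩
    have k4 : k ∈ centralizer ((MulAut.conj h • ⁅V, K⁆ : Subgroup G) : Set G) := by
      rw [H1.centralizer_conj_smul, H1.mem_conj_smul_iff, mul_assoc]
      exact k3
    have k5 : k ∈ centralizer ((⁅V, K⁆ ⊔ ⁅V, L⁆ : Subgroup G) : Set G) := by
      rw [← hW hh hhn, H24.centralizer_sup]
      exact ⟨k1, k4⟩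
    have k6 : k ∈ L ⊓ centralizer ((⁅V, L⁆ : Subgroup G) : Set G) := ⟨hk, H24.centralizer_anti le_sup_right k5⟩
    rwa [good_faithful hV hEV hf hOp hL, mem_bot] at k6
  have hsub : (L : Set G) ⊆ {1, h} := by
    intro k hk
    by_cases hkn : k ∈ normalizer ((⁅V, K⁆ : Subgroup G) : Set G)
    · exact Or.inl (hone hk hkn)
    · right
      have := hone (L.mul_mem (L.inv_mem hh) hk) (hquot hk hkn)
      exact (inv_mul_eq_one.1 this).symm
  have h3 : Nat.card L ≤ 2 := by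
    have := Set.ncard_le_ncard hsub (Set.toFinite _)
    exact this.trans ((Set.ncard_insert_le _ _).trans (by simp))
  exact absurd hL.2.2.2 (by omega)

end aux

/-- Two subnormal subgroups acting irreducibly on their incomparable commutator modules, in a faithful group with trivial largest normal p-subgroup, generate their direct product, and the commutator module splits accordingly. -/
theorem result {G : Type*} [Group G] [Finite G] {p : ℕ} [Fact p.Prime] (V E E₁ E₂ : Subgroup G) (hV : Cfsg.IsElementaryAbelian p V) (hEV : E ≤ Subgroup.normalizer (V : Set G)) (hf : E ⊓ Subgroup.centralizer (V : Set G) = ⊥) (hgen : E = E₁ ⊔ E₂) (hs₁ : (E₁.subgroupOf E).IsSubnormal) (hs₂ : (E₂.subgroupOf E).IsSubnormal) (hOp : Cfsg.pCore p ↥E = ⊥) (hirr₁ : (∀ U : Subgroup G, U ≤ ⁅V, E₁⁆ → E₁ ≤ Subgroup.normalizer (U : Set G) → U = ⊥ ∨ U = ⁅V, E₁⁆)) (hirr₂ : (∀ U : Subgroup G, U ≤ ⁅V, E₂⁆ → E₂ ≤ Subgroup.normalizer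 (U : Set G) → U = ⊥ ∨ U = ⁅V, E₂⁆)) (h12 : ¬ ⁅V, E₁⁆ ≤ ⁅V, E₂⁆) (h21 : ¬ ⁅V, E₂⁆ ≤ ⁅V, E₁⁆) (hc₁ : 2 < Nat.card E₁) (hc₂ : 2 < Nat.card E₂) : ⁅E₁, E₂⁆ = ⊥ ∧ E₁ ⊓ E₂ = ⊥ ∧ ⁅V, E₁⁆ ⊓ ⁅V, E₂⁆ = ⊥ ∧ ⁅V, E⁆ = ⁅V, E₁⁆ ⊔ ⁅V, E₂⁆ := by
  have h₁ : Good V E E₁ := ⟨hgen ▸ le_sup_left, hs₁, hirr₁, hc₁⟩
  have h₂ : Good V E E₂ := ⟨hgen ▸ le_sup_right, hs₂, hirr₂, hc₂⟩
  obtain ⟨k1, k2⟩ := main hV hEV hf hOp _ E₁ E₂ rfl h₁ h₂ h12 h21
  have hKV : ⁅V, E₁⁆ ≤ V := H2.commutator_le_of_le_normalizer (h₁.1.trans hEV)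
  have hLV : ⁅V, E₂⁆ ≤ V := H2.commutator_le_of_le_normalizer (h₂.1.trans hEV)
  refine ⟨?_, ?_, ?_, ?_⟩
  · have h2 := H24.commutator_le_pCore_of_subnormal hV.2 hEV hf h₁.1 h₂.1 hs₁ hs₂ k1
    rwa [hOp, Subgroup.map_bot, le_bot_iff] at h2
  · exact eq_bot_iff.2 ((inf_le_inf_left _ (H24.le_centralizer_of_commutator_eq_bot' k1)).trans
      (good_faithful hV hEV hf hOp h₁).le)
  · exact eq_bot_iff.2 ((inf_le_inf_left _ (Subgroup.commutator_eq_bot_iff_le_centralizer.1 k2)).trans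
      (good_inf_centralizer hV hEV hf hOp h₁).le)
  · refine le_antisymm ?_ (sup_le (Subgroup.commutator_mono le_rfl h₁.1) (Subgroup.commutator_mono le_rfl h₂.1))
    rw [hgen]
    exact H24.commutator_sup_right_le
      (H23.le_normalizer_of_commutator_le_of_le (sup_le hKV hLV) le_sup_left)
      (H23.le_normalizer_of_commutator_le_of_le (sup_le hKV hLV) le_sup_right) le_sup_left le_sup_right

end Cfsg.Agent.S0615
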