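import Mathlib
import Cfsg.Statements.S0616
import Cfsg.Agent.Lib.FF.Transv
-- import your own Cfsg.Agent.* helpers here

set_option autoImplicit false
open Cfsg

namespace Cfsg.Agent.S0616

/-- Each minimal nontrivially-acting best offender spans, with its commutator on the p'-core, a direct factor E of H isomorphic to SL(2, p) with a 2-dimensional commutator module complementing C_V(E). -/
theorem result {G : Type*} [Group G] [Finite G] {p : ℕ} [Fact p.Prime] (V H : Subgroup G) (hV : Cfsg.IsElementaryAbelian p V) (hHV : H ≤ Subgroup.normalizer (V : Set G)) (hf : H ⊓ Subgroup.centralizer (V : Set G) = ⊥) (hS1 : Subgroup.centralizer (Cfsg.pPrimeCore p ↥H : Set ↥H) ≤ Cfsg.pPrimeCore p ↥H) (hS3 : H = ⨆ A : {A : Subgroup G // A ≤ H ∧ Cfsg.IsBestOffenderOn p V A}, (A : Subgroup G)) (hH1 : H ≠ ⊥) (A : Subgroup G) (hAH : A ≤ H) (hA : Cfsg.IsBestOffenderOn p V A)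 (hAV : ⁅V, A⁆ ≠ ⊥) (hmin : ∀ B : Subgroup G, B ≤ A → Cfsg.IsBestOffenderOn p V B → ⁅V, B⁆ ≠ ⊥ → B = A) : (p = 2 ∨ p = 3) ∧ Nonempty (↥(⁅((Cfsg.pPrimeCore p ↥H).map H.subtype), A⁆ ⊔ A) ≃* Matrix.SpecialLinearGroup (Fin 2) (ZMod p)) ∧ Nat.card ↥(⁅V, ⁅((Cfsg.pPrimeCore p ↥H).map H.subtype), A⁆ ⊔ A⁆) = p ^ 2 ∧ ⁅V, ⁅((Cfsg.pPrimeCore p ↥H).map H.subtype), A⁆ ⊔ A⁆ ⊓ (V ⊓ Subgroup.centralizer ((⁅((Cfsg.pPrimeCore p ↥H).map H.subtype), A⁆ ⊔ A : Subgroup G) : Set G)) = ⊥ ∧ ⁅V, ⁅((Cfsg.pPrimeCore p ↥H).map H.subtype), A⁆ ⊔ A⁆ ⊔ (V ⊓ Subgroup.centralizer ((⁅((Cfsg.pPrimeCore p ↥H).map H.subtype), A⁆ ⊔ A : Subgroup G) : Set G)) = V ∧ ⁅⁅((Cfsg.pPrimeCore p ↥H).map H.subtype), A⁆ ⊔ A, H ⊓ Subgroup.centralizer ((⁅V, ⁅((Cfsg.pPrimeCore p ↥H).map H.subtype), A⁆ ⊔ A⁆ : Subgroup G) : Set G)⁆ = ⊥ ∧ (⁅((Cfsg.pPrimeCore p ↥H).map H.subtype), A⁆ ⊔ A) ⊓ (H ⊓ Subgroup.centralizer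 ((⁅V, ⁅((Cfsg.pPrimeCore p ↥H).map H.subtype), A⁆ ⊔ A⁆ : Subgroup G) : Set G)) = ⊥ ∧ (⁅((Cfsg.pPrimeCore p ↥H).map H.subtype), A⁆ ⊔ A) ⊔ (H ⊓ Subgroup.centralizer ((⁅V, ⁅((Cfsg.pPrimeCore p ↥H).map H.subtype), A⁆ ⊔ A⁆ : Subgroup G) : Set G)) = H ∧ ⁅V, H ⊓ Subgroup.centralizer ((⁅V, ⁅((Cfsg.pPrimeCore p ↥H).map H.subtype), A⁆ ⊔ A⁆ : Subgroup G) : Set G)⁆ ≤ V ⊓ Subgroup.centralizer ((⁅((Cfsg.pPrimeCore p ↥H).map H.subtype), A⁆ ⊔ A : Subgroup G) : Set G) := by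
  have h := H23.ffSetup_pPrimeCore hV hHV hf hS1
  have hT := h.isTv_of_minimal hAH hA hAV hmin
  set X := (Cfsg.pPrimeCore p ↥H).map H.subtype with hX
  have hgen : ∀ K : Subgroup G, (∀ B, H23.FFSetup.IsTv p V H B → B ≤ K) → H ≤ K := by
    intro K hK
    rw [hS3]
    exact iSup_le fun B => h.offender_le B.2.1 B.2.2 (fun C hC _ => hK C hC)
  have hHE : H ≤ Subgroup.normalizer ((⁅X, A⁆ ⊔ A : Subgroup G) : Set G) :=
    hgen _ fun B hB => h.tv_le_normalizer_E hT hB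
  have hEH := h.E_le hAH
  have hEF : ⁅⁅X, A⁆ ⊔ A, H ⊓ Subgroup.centralizer ((⁅V, ⁅X, A⁆ ⊔ A⁆ : Subgroup G) : Set G)⁆ = ⊥ := by
    rw [eq_bot_iff, ← h.E_inf_centralizer hT]
    refine le_inf (H2.commutator_le_of_le_normalizer (inf_le_left.trans hHE)) ?_
    exact H2.commutator_le_centralizer_of_normalizes (Subgroup.normalizer_commutator_ge_right _ _)
      inf_le_right
  refine ⟨h.two_or_three hT, h.E_equiv hT, h.card_comm_E hT, ?_, h.W_sup_centralizer_E hT, hEF, ?_, ?_, ?_⟩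
  · rw [eq_bot_iff, ← h.W_inf_centralizer_E hT]
    exact inf_le_inf_left _ inf_le_right
  · rw [eq_bot_iff, ← h.E_inf_centralizer hT]
    exact inf_le_inf_left _ inf_le_right
  · refine le_antisymm (sup_le hEH inf_le_left) (hgen _ fun B hB => ?_)
    rcases h.tv_le_E_or hT hB with h1 | h1
    · exact h1.trans le_sup_left
    · exact (le_inf hB.1 h1).trans le_sup_right
  · refine le_inf (h.comm_le inf_le_left) ?_
    rw [← Subgroup.commutator_eq_bot_iff_le_centralizer]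
    apply Subgroup.commutator_commutator_eq_bot_of_rotate
    · rw [Subgroup.commutator_comm _ (⁅X, A⁆ ⊔ A), hEF, Subgroup.commutator_bot_left]
    · rw [Subgroup.commutator_comm _ V, Subgroup.commutator_eq_bot_iff_le_centralizer,
        Subgroup.le_centralizer_iff]
      exact inf_le_right

end Cfsg.Agent.S0616
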