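import Mathlib
import Cfsg.Statements.S0617
import Cfsg.Agent.Lib.FF.Transv
-- import your own Cfsg.Agent.* helpers here

set_option autoImplicit false
open Cfsg

namespace Cfsg.Agent.S0617

/-- Structure Theorem for failure of factorization: a faithful group generated by best offenders, with self-centralizing p'-core, is a direct product of copies of SL(2, p) (p = 2 or 3), each acting on its own plane in V, which is the direct product of these planes and C_V(H). -/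
theorem result {G : Type*} [Group G] [Finite G] {p : ℕ} [Fact p.Prime] (V H : Subgroup G) (hV : Cfsg.IsElementaryAbelian p V) (hHV : H ≤ Subgroup.normalizer (V : Set G)) (hf : H ⊓ Subgroup.centralizer (V : Set G) = ⊥) (hS1 : Subgroup.centralizer (Cfsg.pPrimeCore p ↥H : Set ↥H) ≤ Cfsg.pPrimeCore p ↥H) (hS3 : H = ⨆ A : {A : Subgroup G // A ≤ H ∧ Cfsg.IsBestOffenderOn p V A}, (A : Subgroup G)) (hH1 : H ≠ ⊥) : (p = 2 ∨ p = 3) ∧ (∀ E : {E : Subgroup G // ∃ A : Subgroup G, A ≤ H ∧ Cfsg.IsBestOffenderOn p V A ∧ ⁅V, A⁆ ≠ ⊥ ∧ (∀ B : Subgroup G, B ≤ A → Cfsg.IsBestOffenderOn p V B → ⁅V, B⁆ ≠ ⊥ → B = A) ∧ E = ⁅((Cfsg.pPrimeCore p ↥H).map H.subtype), A⁆ ⊔ A}, H ≤ Subgroup.normalizer ((E : Subgroup G) : Set G) ∧ Nonempty (↥(E : Subgroup G) ≃* Matrix.SpecialLinearGroup (Fin 2) (ZMod p)) ∧ Nat.card ↥(⁅V, (E : Subgroup G)⁆) = p ^ 2) ∧ iSupIndep (fun E : {E : Subgroup G // ∃ A : Subgroup G, A ≤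 H ∧ Cfsg.IsBestOffenderOn p V A ∧ ⁅V, A⁆ ≠ ⊥ ∧ (∀ B : Subgroup G, B ≤ A → Cfsg.IsBestOffenderOn p V B → ⁅V, B⁆ ≠ ⊥ → B = A) ∧ E = ⁅((Cfsg.pPrimeCore p ↥H).map H.subtype), A⁆ ⊔ A} => (E : Subgroup G)) ∧ (⨆ E : {E : Subgroup G // ∃ A : Subgroup G, A ≤ H ∧ Cfsg.IsBestOffenderOn p V A ∧ ⁅V, A⁆ ≠ ⊥ ∧ (∀ B : Subgroup G, B ≤ A → Cfsg.IsBestOffenderOn p V B → ⁅V, B⁆ ≠ ⊥ → B = A) ∧ E = ⁅((Cfsg.pPrimeCore p ↥H).map H.subtype), A⁆ ⊔ A}, (E : Subgroup G)) = H ∧ iSupIndep (fun o : Option {E : Subgroup G // ∃ A : Subgroup G, A ≤ H ∧ Cfsg.IsBestOffenderOn p V A ∧ ⁅V, A⁆ ≠ ⊥ ∧ (∀ B : Subgroup G, B ≤ A → Cfsg.IsBestOffenderOn p V B → ⁅V, B⁆ ≠ ⊥ → B = A) ∧ E = ⁅((Cfsg.pPrimeCore p ↥H).map H.subtype), A⁆ ⊔ A} => o.elim (V ⊓ Subgroup.centralizer (H : Set G)) (fun E => ⁅V, (E : Subgroup G)⁆)) ∧ (V ⊓ Subgroup.centralizer (H : Set G)) ⊔ (⨆ E : {E : Subgroup G // ∃ A : Subgroup G, A ≤ H ∧ Cfsg.IsBestOffenderOn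 p V A ∧ ⁅V, A⁆ ≠ ⊥ ∧ (∀ B : Subgroup G, B ≤ A → Cfsg.IsBestOffenderOn p V B → ⁅V, B⁆ ≠ ⊥ → B = A) ∧ E = ⁅((Cfsg.pPrimeCore p ↥H).map H.subtype), A⁆ ⊔ A}, ⁅V, (E : Subgroup G)⁆) = V := by
  have h := H23.ffSetup_pPrimeCore hV hHV hf hS1
  set X := (Cfsg.pPrimeCore p ↥H).map H.subtype with hX
  have hgen : ∀ K : Subgroup G, (∀ B, H23.FFSetup.IsTv p V H B → Cfsg.IsBestOffenderOn p V B → B ≤ K) →
      H ≤ K := by
    intro K hK
    rw [hS3]
    exact iSup_le fun B => h.offender_le B.2.1 B.2.2 hK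
  set ι := {E : Subgroup G // ∃ A : Subgroup G, A ≤ H ∧ Cfsg.IsBestOffenderOn p V A ∧ ⁅V, A⁆ ≠ ⊥ ∧ (∀ B : Subgroup G, B ≤ A → Cfsg.IsBestOffenderOn p V B → ⁅V, B⁆ ≠ ⊥ → B = A) ∧ E = ⁅X, A⁆ ⊔ A} with hι
  have hT : ∀ E : ι, ∃ A, H23.FFSetup.IsTv p V H A ∧ (E : Subgroup G) = ⁅X, A⁆ ⊔ A := by
    rintro ⟨E, A, hAH, hA, hAV, hmin, hE⟩
    exact ⟨A, h.isTv_of_minimal hAH hA hAV hmin, hE⟩
  have hmk : ∀ B, H23.FFSetup.IsTv p V H B → Cfsg.IsBestOffenderOn p V B →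
      ∃ E : ι, (E : Subgroup G) = ⁅X, B⁆ ⊔ B := fun B hB hB' =>
    ⟨⟨_, B, hB.1, hB', (h.minimal_of_card hB.1 hB.2.1).1, (h.minimal_of_card hB.1 hB.2.1).2, rfl⟩, rfl⟩
  have hEH : ∀ E : ι, (E : Subgroup G) ≤ H := by
    intro E
    obtain ⟨A, hA, hE⟩ := hT E
    rw [hE]
    exact h.E_le hA.1
  have hWc : ∀ E F : ι, F ≠ E → ⁅V, (F : Subgroup G)⁆ ≤ Subgroup.centralizer ((E : Subgroup G) : Set G) := by
    intro E F hne
    obtain ⟨A, hA, hE⟩ := hT E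
    obtain ⟨B, hB, hF⟩ := hT F
    have hne' : (F : Subgroup G) ≠ E := fun he => hne (Subtype.ext he)
    rw [hE, hF] at hne' ⊢
    exact h.W_le_centralizer_of_ne hB hA hne'
  have hsup : (⨆ E : ι, (E : Subgroup G)) = H := by
    refine le_antisymm (iSup_le hEH) (hgen _ fun B hB hB' => ?_)
    obtain ⟨E, hE⟩ := hmk B hB hB'
    exact (le_sup_right.trans hE.ge).trans (le_iSup (fun E : ι => (E : Subgroup G)) E)
  refine ⟨?_, fun E => ?_, ?_, hsup, ?_, ?_⟩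
  · by_contra hne
    apply hH1
    rw [eq_bot_iff]
    exact hgen _ fun B hB _ => absurd (h.two_or_three hB) hne
  · obtain ⟨A, hA, hE⟩ := hT E
    rw [hE]
    exact ⟨hgen _ fun B hB _ => h.tv_le_normalizer_E hA hB, h.E_equiv hA, h.card_comm_E hA⟩
  · intro E
    rw [disjoint_iff, eq_bot_iff]
    obtain ⟨A, hA, hE⟩ := hT E
    have h1 := h.E_inf_centralizer hA
    rw [← hE] at h1
    refine le_trans ?_ h1.le
    exact inf_le_inf_left _ (iSup₂_le fun F hF => Subgroup.le_centralizer_iff.1 (hWc F E hF.symm))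
  · rintro (_ | E)
    · rw [disjoint_iff, eq_bot_iff, inf_comm]
      refine le_trans ?_ (h.comm_Q_inf le_rfl).le
      refine inf_le_inf (iSup₂_le ?_) (inf_le_right.trans (H24.centralizer_anti h.le))
      rintro (_ | F) hF
      · exact absurd rfl hF
      · obtain ⟨B, hB, hF⟩ := hT F
        change ⁅V, (F : Subgroup G)⁆ ≤ _
        rw [hF, ← h.comm_Q_eq hB]
        exact Subgroup.commutator_mono le_rfl (h.comm_X_le hB.1)
    · rw [disjoint_iff, eq_bot_iff]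
      obtain ⟨A, hA, hE⟩ := hT E
      have h1 := h.W_inf_centralizer_E hA
      rw [← hE] at h1
      refine le_trans ?_ h1.le
      refine inf_le_inf_left _ (iSup₂_le ?_)
      rintro (_ | F) hF
      · exact inf_le_right.trans (H24.centralizer_anti (hEH E))
      · exact hWc E F (fun he => hF (congrArg some he))
  · have hWV : (⨆ E : ι, ⁅V, (E : Subgroup G)⁆) ≤ V := iSup_le fun E => h.comm_le (hEH E)
    refine le_antisymm (sup_le inf_le_left hWV) ?_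
    have h1 := H2.commutator_sup_centralizer (h.le.trans h.norm) (h.coprime_V le_rfl)
      (Or.inr (H2.isSolvable_of_isMulCommutative h.ea.1))
    refine h1.ge.trans (sup_le (le_trans ?_ le_sup_right) (le_trans (le_inf inf_le_left ?_) le_sup_left))
    · refine (Subgroup.commutator_mono le_rfl (h.le.trans hsup.ge)).trans ?_
      exact H24.commutator_iSup_right_le (fun E => H23.le_normalizer_of_commutator_le_of_le hWV
        (le_iSup (fun E : ι => ⁅V, (E : Subgroup G)⁆) E)) (fun E => le_iSup (fun E : ι => ⁅V, (E : Subgroup G)⁆) E)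
    · rw [Subgroup.le_centralizer_iff]
      refine hgen _ fun B hB _ => ?_
      rw [Subgroup.le_centralizer_iff]
      exact ((inf_le_inf_left _ (H24.centralizer_anti (h.comm_X_le hB.1))).trans
        (h.inf_centralizer_Q_le hB)).trans (H24.centralizer_anti le_sup_right)

end Cfsg.Agent.S0617
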