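import Mathlib
import Cfsg.Agent.Base
import Cfsg.Agent.Lib.FF.Faithful
import Cfsg.Statements.S0619

set_option autoImplicit false
open Cfsg

namespace Cfsg.Agent.S0619

open Subgroup H23
open scoped commutatorElement

/-- For a p-separable group and a normal elementary abelian p-subgroup V with no nontrivial normal p-subgroup modulo its centralizer C, the Thompson subgroup J(G) moves Ω₁(Z(J(C))) only inside V. -/
theorem result {G : Type*} [Group G] [Finite G] {p : ℕ} [Fact p.Prime] (hsep : Cfsg.IsPSolvable p G) (V : Subgroup G) [V.Normal] (hV : Cfsg.IsElementaryAbelian p V) (hO : Cfsg.pCore p (G ⧸ Subgroup.centralizer (V : Set G)) = ⊥) : ⁅Cfsg.omegaOne p (Cfsg.centerThompsonOf p (Subgroup.centralizer (V : Set G))), Cfsg.thompsonSubgroup p G⁆ ≤ V := by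
  obtain ⟨Γ, _, _, g, i, hi, hk, hn, hf, hc⟩ := exists_faithful_model V
  have hO' : pCore p g.range = ⊥ := by
    let e : G ⧸ centralizer (V : Set G) ≃* g.range :=
      (QuotientGroup.quotientMulEquivOfEq hk.symm).trans (QuotientGroup.quotientKerEquivRange g)
    rw [← H1.map_pCore_equiv e, hO, Subgroup.map_bot]
  have hV' : IsElementaryAbelian p i.range := by
    rw [MonoidHom.range_eq_map]
    exact H24.EA.map (H24.EA.top_iff.2 hV) i
  have h := ffSetup_pPrimeCore hV' (le_normalizer_of_normal (H := i.range) (K := g.range)) hf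
    (centralizer_pPrimeCore_le_of_isPSolvable hsep g.rangeRestrict_surjective hO')
  rw [← H24.thompsonSubgroupOf_top, H24.thompsonSubgroupOf_eq_sSup]
  refine H24.commutator_sSup_right_le (fun _ _ => le_normalizer_of_normal) fun A hA => ?_
  have hoff := H24.isBestOffenderOn_of_mem_maxEA hA le_top hV
  have h1 := h.card_offender (map_le_range g A) (model_offender hi hk hc hoff)
  rw [model_card_inf_centralizer hi hc, H24.inf_centralizer_eq_inf_of_mem_maxEA hA le_top hV,
    ← Nat.card_congr (MonoidHom.ofInjective hi).toEquiv] at h1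
  have h2 := H1.card_map_mul_card_inf_ker g A
  rw [hk] at h2
  have hAe : IsElementaryAbelian p A := (H24.mem_maxEA.1 hA).2.1
  have h3 := H24.card_sup_mul_card_inf (A := centralizer (V : Set G) ⊓ A) (B := V) le_normalizer_of_normal
  have e : centralizer (V : Set G) ⊓ A ⊓ V = V ⊓ A := by
    refine le_antisymm (le_inf inf_le_right (inf_le_left.trans inf_le_right)) ?_
    exact le_inf (le_inf (inf_le_left.trans (H24.EA.le_centralizer hV)) inf_le_right) inf_le_left
  rw [e, ← h1] at h3
  have h4 : Nat.card (centralizer (V : Set G) ⊓ A ⊔ V : Subgroup G) = Nat.card A := by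
    refine Nat.eq_of_mul_eq_mul_right (Nat.card_pos (α := (V ⊓ A : Subgroup G))) ?_
    rw [h3, ← h2]; ring
  have h5 : centralizer (V : Set G) ⊓ A ⊔ V ∈ H24.maxEA p (centralizer (V : Set G)) :=
    H24.mem_maxEA_of_le (H24.mem_maxEA_of_card_le hA le_top
      (H24.EA.sup (H24.EA.mono hAe inf_le_right) hV inf_le_left) h4.ge)
      (sup_le inf_le_left (H24.EA.le_centralizer hV)) le_top
  refine (commutator_mono (H24.omegaOne_centerThompsonOf_le h5) le_rfl).trans ?_
  refine H24.commutator_sup_left_le le_normalizer_of_normal le_normalizer_of_normal ?_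
    (commutator_le_left V A)
  rw [commutator_eq_bot_iff_le_centralizer.2 (inf_le_right.trans (H24.EA.le_centralizer hAe))]
  exact bot_le

end Cfsg.Agent.S0619
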