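import Mathlib
import Cfsg.Agent.Base
import Cfsg.Agent.Lib.FFOp.Model
import Cfsg.Statements.S0620

set_option autoImplicit false
open Cfsg

namespace Cfsg.Agent.S0620

open Subgroup H23 H79.FFO
open scoped commutatorElement

/-- Under coprime action of an elementary abelian q-group X on a p-separable group K with trivial p'-core, K is generated by the normalizer of J(S), the centralizer of Ω₁(Z(S)) and the fixed points of X. -/
theorem result {G : Type*} [Group G] [Finite G] {p : ℕ} [Fact p.Prime] {q : ℕ} [Fact q.Prime] (K X : Subgroup G) (hXK : X ≤ Subgroup.normalizer (K : Set G)) (hX : Cfsg.IsElementaryAbelian q X) (hq : ¬ q ∣ Nat.card K) (hsep : Cfsg.IsPSolvable p ↥K) (hO : Cfsg.pPrimeCore p ↥K = ⊥) (S : Sylow p ↥K) : (Subgroup.normalizer (Cfsg.thompsonSubgroupOf p (S : Subgroup ↥K) : Set ↥K) ⊔ Subgroup.centralizer (Cfsg.omegaOne p ((S : Subgroup ↥K) ⊓ Subgroup.centralizer ((S : Subgroup ↥K) : Set ↥K)) : Set ↥K) ⊔ (Subgroup.centralizer (X : Set G)).subgroupOf K) = ⊤ := by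
  haveI := omegaZClosure_characteristic (G := K) (p := p)
  set V := H24.omegaZClosure K p with hVd
  have hV := H24.omegaZClosure_isElementaryAbelian (H23.centralizer_pCore_le_of_isPSolvable hsep hO)
  obtain ⟨Γ, _, _, g, i, X', m⟩ := exists_model hXK hX hq hsep V hV
    H24.pCore_quotient_centralizer_omegaZClosure
  set L := (Subgroup.normalizer (Cfsg.thompsonSubgroupOf p (S : Subgroup ↥K) : Set ↥K) ⊔ Subgroup.centralizer (Cfsg.omegaOne p ((S : Subgroup ↥K) ⊓ Subgroup.centralizer ((S : Subgroup ↥K) : Set ↥K)) : Set ↥K) ⊔ (Subgroup.centralizer (X : Set G)).subgroupOf K) with hL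
  have hCL : centralizer (V : Set K) ≤ L :=
    (H24.centralizer_anti (H24.le_omegaZClosure S)).trans (le_sup_right.trans le_sup_left)
  have hSL : (S : Subgroup K) ≤ L :=
    (le_normalizer.trans (H24.normalizer_le_normalizer_thompsonSubgroupOf _)).trans
      (le_sup_left.trans le_sup_left)
  have hS : H69.IsSylowIn p ((S : Subgroup K).map g) g.range := by
    rw [MonoidHom.range_eq_map]
    exact (H69.isSylowIn_top S).map g
  have hJ : thompsonSubgroup p K ≤ L := by
    rw [← H24.thompsonSubgroupOf_top, H24.thompsonSubgroupOf_le_iff]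
    intro A hA
    have h1 : A.map g ≤ L.map g := m.ff.offender_le (map_le_range g A)
      (model_offender m.inj m.ker m.conj (H24.isBestOffenderOn_of_mem_maxEA hA le_top hV))
      fun B hB _ => tv_le m.ff Fact.out (Model.not_dvd g hq) m.pow m.normV m.normH m.normY hS
        (map_mono hSL) (m.liftH.trans (map_mono le_sup_right)) hB
    rw [Subgroup.map_le_map_iff, m.ker] at h1
    exact h1.trans (sup_le le_rfl hCL)
  haveI := H24.thompsonSubgroup_characteristic (p := p) (G := K)
  rw [eq_top_iff, ← H24.normalizer_thompson_sup_eq_top S (thompsonSubgroup p K)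
    (H24.thompsonSubgroupOf_sylow_le S)]
  exact sup_le (le_sup_left.trans le_sup_left) hJ

end Cfsg.Agent.S0620
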