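import Cfsg.Statements.S0623
import Mathlib
import Cfsg.Agent.Lib.Thompson.StableClosure


set_option autoImplicit false
open Cfsg

namespace Cfsg.Agent.S0623


/-- No element of a finite p-group acts quadratically and nontrivially on the stable normal closure W(S). -/
theorem result {S : Type*} [Group S] [Finite S] {p : ℕ} [Fact p.Prime] (hS : IsPGroup p S) (x : S) (hq : ⁅⁅Cfsg.stableNormalClosure p S, Subgroup.zpowers x⁆, Subgroup.zpowers x⁆ = ⊥) : ⁅Cfsg.stableNormalClosure p S, Subgroup.zpowers x⁆ = ⊥ := by
  exact H24.commutator_eq_bot_of_le_centralizer'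
    (Subgroup.zpowers_le_of_mem (H24.mem_centralizer_stableNormalClosure hq))

end Cfsg.Agent.S0623
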