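import Cfsg.Statements.S0632
import Mathlib
import Cfsg.Agent.Base
import Cfsg.Agent.Lib.ZJ.Constrained
import Cfsg.Agent.Lib.Thompson.Factor

set_option autoImplicit false
open Cfsg

namespace Cfsg.Agent.S0632

open Subgroup

theorem mem_pCore_of_ker {M X Y : Type*} [Group M] [Group X] [Group Y] {p : ℕ} {φ : M →* X} {ψ : M →* Y}
    (hφ : Function.Surjective φ) (hψ : Function.Surjective ψ) (h : φ.ker ≤ ψ.ker) {a : M}
    (ha : φ a ∈ pCore p X) : ψ a ∈ pCore p Y := by
  have e : ∀ x, φ.liftOfSurjective hφ ⟨ψ, h⟩ (φ x) = ψ x := fun x => φ.liftOfRightInverse_comp_apply _ _ _ x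
  exact H1.map_pCore_le_of_surjective (f := φ.liftOfSurjective hφ ⟨ψ, h⟩)
    (fun y => by obtain ⟨x, rfl⟩ := hψ y; exact ⟨_, e x⟩) ⟨_, ha, e a⟩

theorem transfer {G : Type*} [Group G] [Finite G] {p : ℕ} [Fact p.Prime] {N P A : Subgroup G} [N.Normal]
    (hN : (Nat.card N).Coprime p) (hP : IsPGroup p P) (hA : A ≤ normalizer (P : Set G)) :
    (A.subgroupOf (normalizer (P : Set G))).map
      (QuotientGroup.mk' ((centralizer (P : Set G)).subgroupOf (normalizer (P : Set G)))) ≤ pCore p _ ↔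
    ((A.map (QuotientGroup.mk' N)).subgroupOf (normalizer (P.map (QuotientGroup.mk' N) : Set (G ⧸ N)))).map
      (QuotientGroup.mk' ((centralizer (P.map (QuotientGroup.mk' N) : Set (G ⧸ N))).subgroupOf
        (normalizer (P.map (QuotientGroup.mk' N) : Set (G ⧸ N))))) ≤ pCore p _ := by
  have h1 := H24.map_mk'_normalizer_of_isPGroup hN hP
  let θ : normalizer (P : Set G) →* normalizer (P.map (QuotientGroup.mk' N) : Set (G ⧸ N)) :=
    ((QuotientGroup.mk' N).comp (Subgroup.subtype _)).codRestrict _ fun x => h1 ▸ mem_map_of_mem _ x.2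
  have hθ : Function.Surjective θ := fun y => by
    obtain ⟨x, hx, e⟩ := h1.ge y.2
    exact ⟨⟨x, hx⟩, Subtype.ext e⟩
  have hs := (QuotientGroup.mk'_surjective ((centralizer (P.map (QuotientGroup.mk' N) : Set (G ⧸ N))).subgroupOf
    (normalizer (P.map (QuotientGroup.mk' N) : Set (G ⧸ N))))).comp hθ
  rw [← MonoidHom.coe_comp] at hs
  have hk : (QuotientGroup.mk' ((centralizer (P : Set G)).subgroupOf (normalizer (P : Set G)))).ker =
      ((QuotientGroup.mk' ((centralizer (P.map (QuotientGroup.mk' N) : Set (G ⧸ N))).subgroupOf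
        (normalizer (P.map (QuotientGroup.mk' N) : Set (G ⧸ N))))).comp θ).ker := by
    ext x
    rw [QuotientGroup.ker_mk', ← MonoidHom.comap_ker, QuotientGroup.ker_mk', mem_comap, mem_subgroupOf,
      mem_subgroupOf]
    refine ⟨fun h => ?_, fun h y hy => ?_⟩
    · rintro _ ⟨y, hy, rfl⟩
      exact (map_mul _ y x).symm.trans ((congrArg _ (h y hy)).trans (map_mul _ _ _))
    · have h2 : y⁻¹ * (x * y * (x : G)⁻¹) ∈ P ⊓ N := ⟨P.mul_mem (P.inv_mem hy) ((x.2 y).1 hy), by
        have h3 : QuotientGroup.mk' N y * QuotientGroup.mk' N x = QuotientGroup.mk' N x * QuotientGroup.mk' N y :=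
          h _ (mem_map_of_mem _ hy)
        refine (QuotientGroup.eq_one_iff _).1 ?_
        change QuotientGroup.mk' N _ = 1
        rw [map_mul, map_mul, map_mul, ← h3, map_inv, map_inv]; group⟩
      rw [H25.ZJ.inf_eq_bot_of_coprime hN hP, mem_bot, inv_mul_eq_one, eq_mul_inv_iff_mul_eq] at h2
      exact h2
  constructor
  · rintro h _ ⟨⟨_, hy⟩, ⟨a, ha, rfl⟩, rfl⟩
    exact mem_pCore_of_ker (QuotientGroup.mk'_surjective _) hs hk.le (a := ⟨a, hA ha⟩) (h ⟨_, ha, rfl⟩)
  · rintro h _ ⟨a, ha, rfl⟩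
    exact mem_pCore_of_ker hs (QuotientGroup.mk'_surjective _) hk.ge (h ⟨θ a, ⟨a, ha, rfl⟩, rfl⟩)

theorem le_norm {G : Type*} [Group G] [Finite G] {A P : Subgroup G} (h : ∀ a ∈ A, ∀ x ∈ P, a * x * a⁻¹ ∈ P) :
    A ≤ normalizer (P : Set G) := fun a ha => mem_normalizer_fintype (h a ha)

/-- For a group with a nontrivial normal p-subgroup, p-stability passes to and from the quotient by the largest normal subgroup of order prime to p. -/
theorem result {G : Type*} [Group G] [Finite G] {p : ℕ} [Fact p.Prime] (hO : Cfsg.pCore p G ≠ ⊥) : Cfsg.IsPStable p G ↔ Cfsg.IsPStable p (G ⧸ Cfsg.pPrimeCore p G) := by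
  have hN := H1.coprime_card_pPrimeCore (p := p) (G := G)
  have hs := QuotientGroup.mk'_surjective (pPrimeCore p G)
  have hO' := H1.pPrimeCore_quotient_pPrimeCore (p := p) (G := G)
  have hle : pCore p (G ⧸ pPrimeCore p G) ≤ pPrimePCore p (G ⧸ pPrimeCore p G) :=
    map_le_iff_le_comap.1 (H1.map_pCore_le_of_surjective (QuotientGroup.mk'_surjective _))
  refine ⟨fun h => ⟨h.1, fun e => hO ?_, fun A P hA hP hn _ hPn hq => ?_⟩,
    fun h => ⟨h.1, hO, fun A P hA hP hn hPO hPn hq => ?_⟩⟩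
  · have := H1.map_pCore_le_of_surjective (p := p) hs
    rw [e, le_bot_iff, Subgroup.map_eq_bot_iff, QuotientGroup.ker_mk'] at this
    rw [← inf_eq_left.2 this, H1.pCore_inf_pPrimeCore]
  · rw [hO', bot_sup_eq] at hPn
    obtain ⟨T, hT⟩ := (hA.to_sup_of_normal_right hP).exists_le_sylow
    obtain ⟨S, rfl⟩ := Sylow.mapSurjective_surjective hs p T
    have hAS := le_sup_left.trans hT
    have hPS := le_sup_right.trans hT
    have h1 : ∀ a ∈ (S : Subgroup G) ⊓ A.comap (QuotientGroup.mk' _),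
        ∀ x ∈ (S : Subgroup G) ⊓ P.comap (QuotientGroup.mk' _),
          a * x * a⁻¹ ∈ (S : Subgroup G) ⊓ P.comap (QuotientGroup.mk' _) := fun a ha x hx =>
      ⟨(S : Subgroup G).mul_mem ((S : Subgroup G).mul_mem ha.1 hx.1) ((S : Subgroup G).inv_mem ha.1),
        hn _ ha.2 _ hx.2⟩
    have h2 := (transfer hN S.isPGroup'.to_inf_left (le_norm h1)).1 (h.2.2 _ _ S.isPGroup'.to_inf_left
      S.isPGroup'.to_inf_left h1 (inf_le_right.trans (comap_mono (H1.le_pCore hP)))
      (by rw [H25.ZJ.sup_sylow_inf_comap S hPS]; infer_instance) (by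
        rw [eq_bot_iff, ← H25.ZJ.inf_eq_bot_of_coprime hN S.isPGroup']
        refine le_inf (H69.commutator_le_of_le (H69.commutator_le_of_le inf_le_left inf_le_left) inf_le_left) ?_
        conv_rhs => rw [← QuotientGroup.ker_mk' (pPrimeCore p G)]
        rw [← Subgroup.map_eq_bot_iff, map_commutator, map_commutator, H25.ZJ.map_sylow_inf_comap S hAS,
          H25.ZJ.map_sylow_inf_comap S hPS, hq]))
    rwa [H25.ZJ.map_sylow_inf_comap S hAS, H25.ZJ.map_sylow_inf_comap S hPS] at h2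
  · refine (transfer hN hP (le_norm hn)).2 (h.2.2 _ _ (hA.map _) (hP.map _) ?_
      ((map_le_iff_le_comap.2 hPO).trans hle) ?_ ?_)
    · rintro _ ⟨a, ha, rfl⟩ _ ⟨x, hx, rfl⟩
      exact ⟨_, hn a ha x hx, by simp⟩
    · have := hPn.map _ hs
      rwa [Subgroup.map_sup, QuotientGroup.map_mk'_self, ← hO'] at this
    · rw [← map_commutator, ← map_commutator, hq, Subgroup.map_bot]

end Cfsg.Agent.S0632
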