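import Mathlib
import Cfsg.Statements.S0633
import Cfsg.Agent.Lib.FGS.HallHigman
-- import your own Cfsg.Agent.* helpers here

set_option autoImplicit false
open Cfsg

namespace Cfsg.Agent.S0633

open Polynomial

/-- Theorem B of Hall and Higman on the minimal polynomial of a p-element of order p^n in a p-solvable linear group on a nonzero vector space in characteristic p with no nontrivial normal p-subgroup: its degree is p^n, except when some p^n₀ - 1 (n₀ ≤ n) is a power of a prime q for which the Sylow q-subgroups are non-abelian, in which case the degree is at least p^(n-n₀)(p^n₀ - 1). -/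
theorem result {F : Type*} [Field F] {p : ℕ} [Fact p.Prime] [CharP F p] {V : Type*} [AddCommGroup V] [Module F V] [FiniteDimensional F V] [Nontrivial V] (H : Subgroup (V ≃ₗ[F] V)) [Finite H] (hsol : Cfsg.IsPSolvable p H) (hOp : Cfsg.pCore p H = ⊥) (x : V ≃ₗ[F] V) (hx : x ∈ H) (n : ℕ) (hn : orderOf x = p ^ n) (r : ℕ) (hr : minpoly F (x : Module.End F V) = (Polynomial.X - 1) ^ r) : r = p ^ n ∨ ∃ n₀ q m : ℕ, 1 ≤ n₀ ∧ n₀ ≤ n ∧ q.Prime ∧ 1 ≤ m ∧ p ^ n₀ - 1 = q ^ m ∧ (∀ Q : Sylow q H, ¬ IsMulCommutative Q) ∧ p ^ (n - n₀) * (p ^ n₀ - 1) ≤ r := by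
  have hp : p.Prime := Fact.out
  let ρ : H →* Module.End F V :=
    { toFun := fun h => ((h : V ≃ₗ[F] V) : V →ₗ[F] V)
      map_one' := rfl
      map_mul' := fun _ _ => rfl }
  have hρ : Function.Injective ρ := fun a b h => Subtype.ext (LinearEquiv.toLinearMap_injective h)
  have hint : IsIntegral F (x : Module.End F V) := Algebra.IsIntegral.isIntegral _
  have h0 : ((x : Module.End F V) - 1) ^ r = 0 := by
    have := minpoly.aeval F (x : Module.End F V)
    rw [hr] at this
    simpa using this
  have hdeg : ∀ r, ((X - 1 : F[X]) ^ r).natDegree = r := by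
    intro r
    rw [← C_1, natDegree_pow, natDegree_X_sub_C, mul_one]
  have hle : r ≤ p ^ n := by
    have h1 : minpoly F (x : Module.End F V) ∣ (X - 1) ^ p ^ n := by
      apply minpoly.dvd
      rw [sub_pow_char_pow, one_pow, map_sub, map_pow, aeval_X, map_one, sub_eq_zero]
      have : ρ ⟨x, hx⟩ ^ p ^ n = 1 := by
        rw [← map_pow, ← map_one ρ]
        congr 1
        apply Subtype.ext
        rw [SubmonoidClass.coe_pow, ← hn]
        exact pow_orderOf_eq_one x
      exact this
    have := natDegree_le_of_dvd h1 (by rw [← C_1]; exact pow_ne_zero _ (X_sub_C_ne_zero 1))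
    rwa [hr, hdeg, hdeg] at this
  rcases n with _ | n
  · left
    have := minpoly.natDegree_pos hint
    rw [hr, hdeg] at this
    simp only [pow_zero] at hle ⊢
    omega
  rcases H76.hall_higman_pSolvable hsol hOp ρ hρ (x := ⟨x, hx⟩) (n := n)
    (by rw [← hn]; exact (Subgroup.orderOf_coe (⟨x, hx⟩ : H)).symm) h0 with
    h | ⟨n₀, q, m, h1, h2, h3, h4, h5, h6, Q, -, hQ, -, -, a, ha, b, hb, hab⟩
  · exact Or.inl (le_antisymm hle h)
  · have : Fact q.Prime := ⟨h3⟩
    exact Or.inr ⟨n₀, q, m, h1, h2, h3, h4, h5,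
      fun S => H76.not_isMulCommutative_sylow hQ ha hb hab S, h6⟩

end Cfsg.Agent.S0633
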