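import Mathlib
import Cfsg.Statements.S0635
import Cfsg.Agent.Lib.FGS.PLength
-- import your own Cfsg.Agent.* helpers here

set_option autoImplicit false
open Cfsg

namespace Cfsg.Agent.S0635

universe u

theorem aux {p : ℕ} [hp : Fact p.Prime] (c : ℕ) : ∀ (G : Type u) [Group G] [Finite G],
    IsPSolvable p G → ∀ S : Sylow p G, (S : Subgroup G).lowerCentralSeries c = ⊥ →
      PLengthLE p c G := by
  induction c with
  | zero =>
    intro G _ _ _ S hS
    rw [Subgroup.lowerCentralSeries_zero] at hS
    rw [H76.pLengthLE_zero_iff, Nat.coprime_comm, hp.out.coprime_iff_not_dvd]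
    have := S.not_dvd_index
    rwa [hS, Subgroup.index_bot] at this
  | succ c ih =>
    intro G _ _ h S hS
    rw [H76.pLengthLE_succ_iff]
    refine ih _ (H76.isPSolvable_quotient h _)
      (S.mapSurjective (QuotientGroup.mk'_surjective _)) ?_
    rw [Sylow.coe_mapSurjective, ← Subgroup.map_lowerCentralSeries, Subgroup.map_eq_bot_iff,
      QuotientGroup.ker_mk']
    rw [Subgroup.lowerCentralSeries_succ, Subgroup.commutator_eq_bot_iff_le_centralizer] at hS
    exact hS.trans (H76.inf_centralizer_sylow_le h S)


/-- The p-length of a p-soluble group is at most the nilpotency class of its Sylow p-subgroups. -/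
theorem result {G : Type*} [Group G] [Finite G] {p : ℕ} [Fact p.Prime] (hsol : Cfsg.IsPSolvable p G) (S : Sylow p G) : Cfsg.PLengthLE p (Group.nilpotencyClass ↥(S : Subgroup G)) G := by
  have : Group.IsNilpotent S := S.isPGroup'.isNilpotent
  apply aux _ G hsol S
  rw [← Subgroup.top_subtype_lowerCentralSeries, Subgroup.lowerCentralSeries_nilpotencyClass,
    Subgroup.map_bot]

end Cfsg.Agent.S0635
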