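import Cfsg.Statements.S0641
import Mathlib


set_option autoImplicit false
open Cfsg

namespace Cfsg.Agent.S0641


/-- Regularity of a p-group passes to quotient groups. -/
theorem result {G : Type*} [Group G] {p : ℕ} [Fact p.Prime] (hG : Cfsg.IsRegularPGroup p G) (N : Subgroup G) [N.Normal] : Cfsg.IsRegularPGroup p (G ⧸ N) := by
  refine ⟨hG.1.to_quotient N, fun a b n => ?_⟩
  obtain ⟨a, rfl⟩ := QuotientGroup.mk'_surjective N a
  obtain ⟨b, rfl⟩ := QuotientGroup.mk'_surjective N b
  obtain ⟨c, hc, e⟩ := hG.2 a b n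
  refine ⟨QuotientGroup.mk' N c, ?_, by rw [← map_mul, ← map_pow, e]; simp⟩
  have h : Cfsg.powerClosure p n ⁅Subgroup.closure ({a, b} : Set G), Subgroup.closure ({a, b} : Set G)⁆ ≤
      (Cfsg.powerClosure p n ⁅Subgroup.closure ({QuotientGroup.mk' N a, QuotientGroup.mk' N b} : Set (G ⧸ N)),
        Subgroup.closure ({QuotientGroup.mk' N a, QuotientGroup.mk' N b} : Set (G ⧸ N))⁆).comap
        (QuotientGroup.mk' N) := by
    refine (Subgroup.closure_le _).mpr ?_
    rintro _ ⟨x, hx, rfl⟩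
    refine Subgroup.subset_closure ⟨QuotientGroup.mk' N x, ?_, map_pow _ _ _⟩
    rw [← Set.image_pair, ← MonoidHom.map_closure, ← Subgroup.map_commutator]
    exact Subgroup.mem_map_of_mem _ hx
  exact h hc

end Cfsg.Agent.S0641
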