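import Cfsg.Statements.S0642
import Mathlib
import Cfsg.Agent.Base
import Cfsg.Agent.Lib.H81.Regular

set_option autoImplicit false
open Cfsg

namespace Cfsg.Agent.S0642

open scoped commutatorElement
/-- Among finite 2-groups the regular ones are exactly the abelian ones. -/
theorem result {G : Type*} [Group G] [Finite G] (hG : IsPGroup 2 G) : Cfsg.IsRegularPGroup 2 G ↔ ∀ a b : G, a * b = b * a := by
  constructor
  · intro h a b
    obtain ⟨c, hc, e⟩ := H81.reg1_of_regular h a b
    set H := Subgroup.closure ({a, b} : Set G) with hH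
    have hn : ∀ g ∈ H, g ∈ Subgroup.normalizer (powerClosure 2 1 ⁅H, H⁆ : Set G) := by
      intro g hg
      have : g ∈ Subgroup.normalizer ((⁅H, H⁆ : Subgroup G) : Set G) :=
        Subgroup.normalizer_commutator_ge_right H H hg
      rw [H1.mem_normalizer_iff_conj_smul_eq, H1.conj_smul_eq_map] at this ⊢
      rw [H81.map_powerClosure, this]
    have ha := H81.left_mem_pair a b
    have hb := H81.right_mem_pair a b
    have h1 : ⁅a, b⁆ = (a * b * b) * c⁻¹ * (a * b * b)⁻¹ := by
      have : c = (a ^ 2 * b ^ 2)⁻¹ * (a * b) ^ 2 := by rw [e, inv_mul_cancel_left]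
      rw [this, commutatorElement_def, sq, sq, sq]
      group
    have h2 : ⁅H, H⁆ ≤ powerClosure 2 1 ⁅H, H⁆ := by
      refine H81.commutator_pair_le (hn a ha) (hn b hb) ?_
      rw [h1]
      exact (Subgroup.mem_normalizer_iff.1 (hn _ (H.mul_mem (H.mul_mem ha hb) hb)) _).1
        (Subgroup.inv_mem _ hc)
    have h3 : (⊥ : Subgroup G) = ⁅H, H⁆ := by
      refine H2.eq_of_sup_frattini bot_le (h2.trans ?_)
      rw [sup_bot_eq, H5.map_frattini_eq_sup (hG.to_subgroup _)]
      exact le_sup_right
    have h4 : ⁅a, b⁆ ∈ ⁅H, H⁆ := Subgroup.commutator_mem_commutator ha hb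
    rw [← h3, Subgroup.mem_bot] at h4
    exact commutatorElement_eq_one_iff_mul_comm.1 h4
  · intro h
    have : H81.Reg1 2 G := fun a b => ⟨1, Subgroup.one_mem _, by
      rw [mul_one]; exact (Commute.mul_pow (h a b) 2)⟩
    exact this.regular hG

end Cfsg.Agent.S0642
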