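import Cfsg.Statements.S0643
import Mathlib
import Cfsg.Agent.Base
import Cfsg.Agent.Lib.H81.Regular

set_option autoImplicit false
open Cfsg

namespace Cfsg.Agent.S0643


/-- Kemhadze's criterion: a finite p-group is regular exactly when (ab)^p = a^p b^p c^p always holds for some c in the derived subgroup of the subgroup generated by a and b. -/
theorem result {G : Type*} [Group G] [Finite G] {p : ℕ} [Fact p.Prime] (hG : IsPGroup p G) : Cfsg.IsRegularPGroup p G ↔ ∀ a b : G, ∃ c ∈ ⁅Subgroup.closure ({a, b} : Set G), Subgroup.closure ({a, b} : Set G)⁆, (a * b) ^ p = a ^ p * b ^ p * c ^ p := by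
  constructor
  · intro h a b
    obtain ⟨c, hc, e⟩ := H81.reg1_of_regular h a b
    obtain ⟨d, hd, rfl⟩ := ((H81.reg1_of_regular h).mem_powerClosure_iff hG 1 _ _).1 hc
    exact ⟨d, hd, by simpa using e⟩
  · intro h
    have : H81.Reg1 p G := fun a b => by
      obtain ⟨c, hc, e⟩ := h a b
      exact ⟨c ^ p, by simpa using H81.pow_mem_powerClosure (p := p) (n := 1) hc, e⟩
    exact this.regular hG

end Cfsg.Agent.S0643
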