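import Mathlib
import Cfsg.Statements.S0645
import Cfsg.Agent.Lib.PGroup.TwoCyclic

set_option autoImplicit false
open Cfsg
open scoped commutatorElement

namespace Cfsg.Agent.S0645

/-- Classification of p-groups with a cyclic maximal subgroup, odd p: a non-abelian one of order p^n has generators a of order p^(n-1) and b of order p, b outside the cyclic subgroup generated by a, with b a b⁻¹ = a^(1 + p^(n-2)). -/
theorem result {G : Type*} [Group G] [Finite G] {p : ℕ} [Fact p.Prime] (hp : p ≠ 2) (n : ℕ) (hn : 3 ≤ n) (hG : Nat.card G = p ^ n) (C : Subgroup G) (hC : IsCyclic C) (hCi : C.index = p) (hna : ∃ x y : G, x * y ≠ y * x) : ∃ a b : G, orderOf a = p ^ (n - 1) ∧ orderOf b = p ∧ b ∉ Subgroup.zpowers a ∧ b * a * b⁻¹ = a ^ (1 + p ^ (n - 2)) := by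
  have hpp : p.Prime := Fact.out
  have hP : IsPGroup p G := IsPGroup.of_card hG
  have hnc : ¬ IsCyclic G := fun h => by
    obtain ⟨x, y, hxy⟩ := hna
    exact hxy (h.isMulCommutative.is_comm.comm x y)
  obtain ⟨hE, hcard⟩ := H5.omega_of_cyclic_index_p hp hP hnc hC hCi
  obtain ⟨a, rfl⟩ := H5.exists_zpowers_eq hC
  obtain ⟨m, rfl⟩ : ∃ m, n = m + 2 := ⟨n - 2, by omega⟩
  have ha : orderOf a = p ^ (m + 1) := by
    have := (Subgroup.zpowers a).card_mul_index
    rw [hCi, hG, Nat.card_zpowers, pow_succ] at this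
    exact Nat.eq_of_mul_eq_mul_right hpp.pos this
  have hle : ¬ Subgroup.closure {x : G | x ^ p = 1} ≤ Subgroup.zpowers a := fun h => by
    have h1 : IsCyclic (Subgroup.closure {x : G | x ^ p = 1}) := Subgroup.isCyclic_of_le h
    have h2 : Nat.card (Subgroup.closure {x : G | x ^ p = 1}) ∣ p := by
      rw [← h1.exponent_eq_card]
      exact Monoid.exponent_dvd_of_forall_pow_eq_one fun g => Subtype.ext (hE.2 g g.2)
    rw [hcard] at h2
    have := Nat.le_of_dvd hpp.pos h2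
    have := hpp.two_le
    nlinarith
  obtain ⟨c, hc, hca⟩ := SetLike.not_le_iff_exists.1 hle
  have hcp : c ^ p = 1 := hE.2 c hc
  obtain ⟨h1, h2, h3⟩ := H5.commutator_of_cyclic_index_p hp hP hC hCi c a
  have hN := H5.normal_of_index_eq hP hCi
  have htop := H5.sup_zpowers_eq_top_of_isCoatom (H5.isCoatom_of_index_prime (hCi ▸ hpp)) hca
  have h4 : ⁅c, a⁆ ≠ 1 := fun h => by
    obtain ⟨x, y, hxy⟩ := hna
    have hcom := H5.isMulCommutative_sup_zpowers (A := Subgroup.zpowers a) inferInstance (x := c)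
      (by
        rw [Subgroup.mem_centralizer_iff]
        rintro _ ⟨i, rfl⟩
        exact ((commutatorElement_eq_one_iff_commute.1 h).symm.zpow_left i).eq)
    rw [htop] at hcom
    exact hxy (congrArg Subtype.val (hcom.is_comm.comm (⟨x, trivial⟩ : (⊤ : Subgroup G))
      ⟨y, trivial⟩))
  have hz : orderOf (a ^ p ^ m) = p := by
    rw [orderOf_pow' _ (pow_pos hpp.pos m).ne', ha,
      Nat.gcd_eq_right (pow_dvd_pow p (Nat.le_succ m)), pow_succ,
      Nat.mul_div_cancel_left _ (pow_pos hpp.pos m)]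
  have h5 : ⁅c, a⁆ ∈ Subgroup.zpowers (a ^ p ^ m) := by
    obtain ⟨i, hi⟩ := h3
    simp only at hi
    rw [← hi, ← zpow_natCast, ← zpow_mul, ← orderOf_dvd_iff_zpow_eq_one, ha] at h2
    push_cast at h2
    rw [pow_succ] at h2
    obtain ⟨t, rfl⟩ := Int.dvd_of_mul_dvd_mul_right (by exact_mod_cast hpp.ne_zero) h2
    exact ⟨t, by simp only; rw [← hi, zpow_mul, ← zpow_natCast]; push_cast; rfl⟩
  have h6 : Subgroup.zpowers ⁅c, a⁆ = Subgroup.zpowers (a ^ p ^ m) :=
    Subgroup.eq_of_le_of_card_ge (Subgroup.zpowers_le.2 h5) (by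
      rw [Nat.card_zpowers, Nat.card_zpowers, hz, orderOf_eq_prime h2 h4])
  obtain ⟨s, hs⟩ : a ^ p ^ m ∈ Subgroup.zpowers ⁅c, a⁆ := h6 ▸ Subgroup.mem_zpowers _
  simp only at hs
  have h7 : ⁅c ^ s, a⁆ = a ^ p ^ m := by
    rw [H5.commutator_zpow_left (Subgroup.mem_center_iff.1 h1 c), hs]
  have h8 : c ^ s ≠ 1 := fun h => by
    rw [h, commutatorElement_one_left] at h7
    rw [← h7, orderOf_one] at hz
    exact hpp.one_lt.ne hz
  have h9 : (c ^ s) ^ p = 1 := by
    rw [← zpow_natCast, ← zpow_mul, mul_comm, zpow_mul, zpow_natCast, hcp, one_zpow]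
  refine ⟨a, c ^ s, ha, orderOf_eq_prime h9 h8, fun h => ?_, ?_⟩
  · obtain ⟨t, rfl⟩ := H5.dvd_of_zpow_mem hpp hca (hcp ▸ one_mem _) h
    exact h8 (by rw [zpow_mul, zpow_natCast, hcp, one_zpow])
  · rw [H5.conj_eq_commutator_mul, h7, add_comm 1, pow_succ]; rfl

end Cfsg.Agent.S0645
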