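import Cfsg.Statements.S0662
import Mathlib
import Cfsg.Agent.Base
import Cfsg.Agent.Lib.MaxCl.Three
import Cfsg.Agent.Lib.FGS.Count

set_option autoImplicit false
open Cfsg

namespace Cfsg.Agent.S0662

/-- In a p-group of maximal class of order at least p³ the normal subgroups of index at least p² are exactly the terms of the lower central series, and there are exactly p + 1 normal subgroups of index p. -/
theorem result {G : Type*} [Group G] [Finite G] {p : ℕ} [Fact p.Prime] (n : ℕ) (hG : Nat.card G = p ^ n) (hcl : Group.nilpotencyClass G = n - 1) (hn : 3 ≤ n) : (∀ (N : Subgroup G) [N.Normal] (r : ℕ), 2 ≤ r → N.index = p ^ r → N = (⊤ : Subgroup G).lowerCentralSeries (r - 1)) ∧ Nat.card {N : Subgroup G // N.Normal ∧ N.index = p} = p + 1 := by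
  have hp : p.Prime := Fact.out
  have h := H93.mc_of_class hG hn hcl
  refine ⟨fun N _ r hr hN => ?_, ?_⟩
  · have h1 := N.card_mul_index
    have h2 : r ≤ n := (Nat.pow_dvd_pow_iff_le_right hp.one_lt).1 (hN ▸ hG ▸ N.index_dvd_card)
    obtain ⟨r, rfl⟩ := Nat.exists_eq_add_of_le' hr
    refine h.eq_lc (j := n - (r + 2)) (by omega) (Nat.eq_of_mul_eq_mul_right (pow_pos hp.pos (r + 2)) ?_)
    rw [← pow_add, Nat.sub_add_cancel h2, ← hN, h1, hG]
  obtain ⟨n, rfl⟩ := Nat.exists_eq_add_of_le' hn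
  have h1 := h.card_lc (i := 0) (j := n + 1) (by omega)
  have h2 : ∀ g ∉ H83.Krek.lc G 1, Nat.card (H83.Krek.lc G 1 ⊔ Subgroup.zpowers g : Subgroup G) =
      p ^ (n + 2) := fun g hg => by
    rw [H5.card_sup_zpowers hp (Subgroup.le_normalizer_of_normal (Subgroup.mem_top g)) hg
      (h.pow_mem_lc_one g), h1, pow_succ p (n + 1)]
  have h3 := H80.ncard_eq_mul_of_fiber (H83.Krek.lc G 1 : Set G)ᶜ {N | N.Normal ∧ N.index = p}
    (fun g => H83.Krek.lc G 1 ⊔ Subgroup.zpowers g) (fun g hg =>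
      have := (h.index_eq (i := 1) (by omega) (h2 g hg)).trans (pow_one p)
      ⟨H5.normal_of_index_eq h.isPGroup this, this⟩) (p ^ (n + 1) * (p - 1)) fun N hN => by
    have h3 : Nat.card N = p ^ (n + 1) * p := Nat.eq_of_mul_eq_mul_right hp.pos (by
      rw [← hN.2, N.card_mul_index, hN.2, hG]; ring)
    have h4 := h.lc_one_le hN.2
    rw [Nat.mul_sub_one, ← h3, ← h1, ← H80.ncard_coe_subgroup, ← H80.ncard_coe_subgroup,
      ← Set.ncard_sdiff h4]
    exact congrArg _ (Set.ext fun g => ⟨fun hg => ⟨hg.2 ▸ Subgroup.mem_sup_right (Subgroup.mem_zpowers g),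
      hg.1⟩, fun hg => ⟨hg.2, H5.eq_sup_zpowers_of_card hp h4 (h1 ▸ h3) hg.1 hg.2⟩⟩)
  have h4 := Set.ncard_add_ncard_compl (H83.Krek.lc G 1 : Set G)
  rw [h3, H80.ncard_coe_subgroup, h1, hG] at h4
  obtain ⟨q, rfl⟩ := Nat.exists_eq_add_of_le' hp.two_le
  refine Nat.eq_of_mul_eq_mul_left (Nat.mul_pos (pow_pos hp.pos (n + 1)) q.succ_pos)
    (Nat.add_left_cancel (h4.trans ?_))
  simp only [Nat.succ_eq_add_one]
  ring

end Cfsg.Agent.S0662
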