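import Cfsg.Statements.S0666
import Cfsg.Agent.Base
import Cfsg.Agent.Lib.Core.CoprimeNorm
import Cfsg.Agent.Lib.Char.FrobeniusKernel

set_option autoImplicit false
open Cfsg

namespace Cfsg.Agent.S0666

open scoped IsMulCommutative in
/-- A Frobenius group acting on a nontrivial abelian group of order prime to that of its kernel, with the kernel acting without nontrivial fixed points, has a complement with a nontrivial fixed point. -/
theorem result {G : Type*} [Group G] [Finite G] (V F : Subgroup G) (hVab : IsMulCommutative V) (hV1 : V ≠ ⊥) (hFV : F ≤ Subgroup.normalizer (V : Set G)) (H : Subgroup ↥F) (hH : Cfsg.IsFrobeniusComplement H) (hcop : (Nat.card V).Coprime (Nat.card (Cfsg.frobeniusKernel H))) (hCK : V ⊓ Subgroup.centralizer (Subtype.val '' Cfsg.frobeniusKernel H : Set G) = ⊥) : V ⊓ Subgroup.centralizer ((H.map F.subtype : Subgroup G) : Set G) ≠ ⊥ := by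
  intro hC
  have hTI := H8.ti_of_isFrobeniusComplement hH
  obtain ⟨N, hNn, hN, hNH⟩ := H8.exists_frobenius_kernel hTI
  have hNK : (N : Set F) = Cfsg.frobeniusKernel H :=
    Set.ext fun x => (hN x).trans H8.mem_frobeniusKernel.symm
  rw [← hNK] at hcop hCK
  let B : Option N → Subgroup F := fun i =>
    match i with
    | none => N
    | some n => H.comap (MulAut.conj ((n : F)⁻¹)).toMonoidHom
  have hB : ∀ (n : N) (a : F), a ∈ B (some n) ↔ (n : F)⁻¹ * a * n ∈ H := by
    intro n a
    simp [B]
  have key := H2.pow_card_sub_one_eq_one_of_partition (H2.conjAut hFV) B (by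
    intro a ha
    by_cases haN : a ∈ N
    · refine ⟨none, haN, ?_⟩
      rintro (_ | n) hn
      · rfl
      · exact absurd ((hB n a).mp hn) (((hN a).mp haN).resolve_left ha n)
    · have h1 : ∃ g : F, g⁻¹ * a * g ∈ H := by
        by_contra hc
        push Not at hc
        exact haN ((hN a).mpr (Or.inr hc))
      obtain ⟨g, hg⟩ := h1
      obtain ⟨⟨n, h⟩, hnh, -⟩ := hNH.existsUnique g
      have hn : (n : F)⁻¹ * a * n ∈ H := by
        have := H.mul_mem (H.mul_mem h.2 hg) (H.inv_mem h.2)
        rw [← hnh] at this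
        simpa [mul_assoc] using this
      refine ⟨some n, (hB n a).mpr hn, ?_⟩
      rintro (_ | n') hn'
      · exact absurd hn' haN
      · rw [hB] at hn'
        have h2 : (n' : F)⁻¹ * n ∈ H := by
          by_contra hc
          have := hTI _ hc _ hn (by simpa [mul_assoc] using hn')
          apply ha
          calc a = n * ((n : F)⁻¹ * a * n) * (n : F)⁻¹ := by group
            _ = 1 := by rw [this]; group
        have h3 : (n' : F)⁻¹ * n ∈ N ⊓ H := ⟨N.mul_mem (N.inv_mem n'.2) n.2, h2⟩
        rw [hNH.disjoint.eq_bot, Subgroup.mem_bot, inv_mul_eq_one] at h3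
        rw [Subtype.ext h3]) (by
    rintro (_ | n) v hv
    · have : (v : G) ∈ V ⊓ Subgroup.centralizer (Subtype.val '' (N : Set F) : Set G) := by
        refine ⟨v.2, ?_⟩
        rintro _ ⟨k, hk, rfl⟩
        have := congrArg Subtype.val (hv k hk)
        rw [H2.coe_conjAut_apply] at this
        exact mul_inv_eq_iff_eq_mul.mp this
      rw [hCK, Subgroup.mem_bot] at this
      exact Subtype.ext this
    · have : ((n : F) : G)⁻¹ * v * (n : F) ∈
          V ⊓ Subgroup.centralizer ((H.map F.subtype : Subgroup G) : Set G) := by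
        refine ⟨(Subgroup.mem_normalizer_iff''.mp (hFV (n : F).2) _).mp v.2, ?_⟩
        rintro _ ⟨h, hh, rfl⟩
        have := congrArg Subtype.val (hv (n * h * (n : F)⁻¹) ((hB n _).mpr (by
          simpa [mul_assoc] using hh)))
        rw [H2.coe_conjAut_apply] at this
        simp only [Subgroup.coe_mul, Subgroup.coe_inv, Subgroup.coe_subtype] at this ⊢
        conv_rhs => rw [← this]
        group
      rw [hC, Subgroup.mem_bot] at this
      apply Subtype.ext
      calc (v : G) = (n : F) * (((n : F) : G)⁻¹ * v * (n : F)) * ((n : F) : G)⁻¹ := by group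
        _ = 1 := by rw [this]; group)
  apply hV1
  rw [eq_bot_iff]
  intro v hv
  have h1 := key ⟨v, hv⟩
  rw [Finite.card_option, Nat.add_sub_cancel] at h1
  have h2 : orderOf (⟨v, hv⟩ : V) = 1 :=
    Nat.eq_one_of_dvd_coprimes hcop (orderOf_dvd_natCard _) (orderOf_dvd_of_pow_eq_one h1)
  exact congrArg Subtype.val (orderOf_eq_one_iff.mp h2)

end Cfsg.Agent.S0666
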