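import Mathlib
import Cfsg.Statements.S0668
import Cfsg.Agent.Lib.Perm.PermModule

set_option autoImplicit false
open Cfsg

namespace Cfsg.Agent.S0668

open MulAction H26

/-- The equivariant linear maps between the permutation modules of two finite `G`-sets form a space whose dimension is the number of `G`-orbits on the product of the two sets. -/
theorem result {G : Type*} [Group G] {K : Type*} [Field K] {Ω₁ Ω₂ : Type*} [Fintype Ω₁] [Fintype Ω₂] [MulAction G Ω₁] [MulAction G Ω₂] : Module.finrank K ((Cfsg.permRep K G Ω₁).linHom (Cfsg.permRep K G Ω₂)).invariants = Nat.card (MulAction.orbitRel.Quotient G (Ω₁ × Ω₂)) := by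
  classical
  have := Fintype.ofFinite (orbitRel.Quotient G (Ω₁ × Ω₂))
  let Φ : (orbitRel.Quotient G (Ω₁ × Ω₂) → K) →ₗ[K] ((Ω₁ → K) →ₗ[K] (Ω₂ → K)) :=
    (Matrix.toLin' : Matrix Ω₂ Ω₁ K ≃ₗ[K] _).toLinearMap ∘ₗ
      { toFun := fun F => Matrix.of fun y x => F (Quotient.mk _ (x, y))
        map_add' := fun _ _ => rfl
        map_smul' := fun _ _ => rfl }
  have hΦ : ∀ F x y, Φ F (Pi.single x 1) y = F (Quotient.mk _ (x, y)) := by
    intro F x y
    simp [Φ]
    rfl
  have hinj : Function.Injective Φ := by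
    intro F F' h
    ext q
    induction q using Quotient.inductionOn with | _ q => ?_
    exact (hΦ F q.1 q.2).symm.trans (by rw [h]; exact hΦ F' q.1 q.2)
  have hext : ∀ S T : (Ω₁ → K) →ₗ[K] (Ω₂ → K),
      (∀ x y, S (Pi.single x 1) y = T (Pi.single x 1) y) → S = T := by
    intro S T h
    apply (Pi.basisFun K Ω₁).ext
    intro x
    ext y
    simpa using h x y
  have hlin : ∀ (S : (Ω₁ → K) →ₗ[K] (Ω₂ → K)) (g : G) (x : Ω₁) (y : Ω₂),
      (Cfsg.permRep K G Ω₁).linHom (Cfsg.permRep K G Ω₂) g S (Pi.single x 1) y =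
        S (Pi.single (g⁻¹ • x) 1) (g⁻¹ • y) := by
    intro S g x y
    rw [Representation.linHom_apply, LinearMap.comp_apply, LinearMap.comp_apply, permRep_single,
      permRep_apply]
  have hrange : LinearMap.range Φ =
      ((Cfsg.permRep K G Ω₁).linHom (Cfsg.permRep K G Ω₂)).invariants := by
    ext S
    rw [Representation.mem_invariants]
    constructor
    · rintro ⟨F, rfl⟩ g
      apply hext
      intro x y
      rw [hlin, hΦ, hΦ]
      congr 1
      exact Quotient.sound ⟨g⁻¹, rfl⟩
    · intro hS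
      refine ⟨Quotient.lift (fun q : Ω₁ × Ω₂ => S (Pi.single q.1 1) q.2) ?_, hext _ _ ?_⟩
      · rintro q r ⟨g, rfl⟩
        have := hlin S g⁻¹ r.1 r.2
        rw [hS, inv_inv] at this
        exact this.symm
      · intro x y
        rw [hΦ]
        rfl
  rw [← hrange, LinearMap.finrank_range_of_inj hinj, Module.finrank_pi, Nat.card_eq_fintype_card]

end Cfsg.Agent.S0668
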