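import Mathlib
import Cfsg.Statements.S0670
import Cfsg.Agent.Lib.Perm.PermModule

set_option autoImplicit false
open Cfsg

namespace Cfsg.Agent.S0670

/-- In characteristic `p`, the permutation module of a transitive action of degree `p ^ f` has the line of constant functions as its only irreducible submodule: every non-zero subrepresentation contains it. -/
theorem result {G : Type*} [Group G] [Finite G] {K : Type*} [Field K] {p f : ℕ} [Fact p.Prime] [CharP K p] {Ω : Type*} [Fintype Ω] [MulAction G Ω] [MulAction.IsPretransitive G Ω] (hf : 1 ≤ f) (hcard : Fintype.card Ω = p ^ f) (W : Subrepresentation (Cfsg.permRep K G Ω)) (hW : W.toSubmodule ≠ ⊥) : (Cfsg.permConstants K G Ω).toSubmodule ≤ W.toSubmodule :=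
  H26.permConstants_le (p := p) (f := f) (by rw [Nat.card_eq_fintype_card, hcard]) _
    (fun g _ hv => W.apply_mem_toSubmodule g hv) hW

end Cfsg.Agent.S0670
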