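import Mathlib
import Cfsg.Statements.S0677
import Cfsg.Agent.Lib.Perm.PrimeDegree3

set_option autoImplicit false
open Cfsg

namespace Cfsg.Agent.S0677

open H26 MulAction

theorem key2 : ∀ x y : ZMod 2, x ≠ y → x = 1 + y := by decide

theorem key2' : ∀ j : ZMod 2, j = 0 ∨ j = 1 := by decide

variable {p : ℕ} [hp : Fact p.Prime] {G : Type*} [Group G] {α : Type*} [MulAction G α]
  [FaithfulSMul G α]

theorem fix_of_affine {c : G} {e : ZMod p ≃ α} (hc : ∀ j, c • e j = e (j + 1))
    (haff : ∀ g : G, ∃ m b : ZMod p, ∀ j, g • e j = e (m * j + b)) (H : Subgroup G)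
    (hH : ∀ h ∈ H, h ∈ Subgroup.zpowers c → h = 1) : ∃ a : α, ∀ h ∈ H, h • a = a := by
  by_cases hb : ∀ h ∈ H, h = 1
  · exact ⟨e 0, fun h hh => by rw [hb h hh, one_smul]⟩
  simp only [not_forall] at hb
  obtain ⟨h, hh, hh1⟩ := hb
  obtain ⟨m, b, hmb⟩ := haff h
  have hm : 1 - m ≠ 0 := by
    intro h0
    have : m = 1 := by linear_combination -h0
    exact hh1 (hH h hh ((frame_mem_zpowers hc).mpr ⟨b, fun j => by rw [hmb, this, one_mul]⟩))
  refine ⟨e (b / (1 - m)), fun k hk => ?_⟩
  obtain ⟨m', b', hmb'⟩ := haff k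
  have hcomm : h * k * (k * h)⁻¹ = 1 := by
    apply hH _ (H.mul_mem (H.mul_mem hh hk) (H.inv_mem (H.mul_mem hk hh)))
    refine (frame_mem_zpowers hc).mpr ⟨m * b' + b - m' * b - b', fun j => ?_⟩
    obtain ⟨i, hi⟩ := e.surjective ((k * h)⁻¹ • e j)
    have h2 : j = m' * (m * i + b) + b' :=
      e.injective (by rw [← hmb', ← hmb, ← mul_smul, hi, smul_inv_smul])
    rw [mul_smul, ← hi, mul_smul, hmb', hmb, h2]
    congr 1
    ring
  rw [mul_inv_eq_one] at hcomm
  have h3 : (h * k) • e 0 = (k * h) • e 0 := by rw [hcomm]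
  simp only [mul_smul, hmb, hmb', EmbeddingLike.apply_eq_iff_eq] at h3
  rw [hmb']
  congr 1
  field_simp
  linear_combination -h3

theorem fix_of_two_trans {c : G} {e : ZMod p ≃ α} (hc : ∀ j, c • e j = e (j + 1)) (hp2 : p ≠ 2)
    (h2 : IsMultiplyPretransitive G α 2) (H : Subgroup G)
    (hH : ∀ h ∈ H, h ∈ Subgroup.zpowers c → h = 1)
    (hPH : ∀ g : G, ∃ i : ZMod p, (c ^ i.val)⁻¹ * g ∈ H)
    (hnt : ¬ IsPretransitive H α) {t : G} (htH : t ∈ H) {b : ZMod p}
    (ht : ∀ j, t • e j = e (b - j)) : ∃ a : α, ∀ h ∈ H, h • a = a := by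
  classical
  have h2K : (2 : ZMod p) ≠ 0 := by
    intro h
    have := (ZMod.natCast_eq_zero_iff 2 p).mp (by exact_mod_cast h)
    exact hp2 ((Nat.prime_dvd_prime_iff_eq hp.out Nat.prime_two).mp this)
  let χ : ZMod p → Prop := fun j => e j ∈ orbit H (e 0)
  have hχ : ∀ h ∈ H, ∀ i j, h • e i = e j → (χ i ↔ χ j) := by
    intro h hh i j hij
    show e i ∈ orbit H (e 0) ↔ e j ∈ orbit H (e 0)
    rw [← hij]
    exact ⟨fun h1 => mem_orbit_of_mem_orbit (⟨h, hh⟩ : H) h1, fun h1 => by
      simpa using mem_orbit_of_mem_orbit (⟨h⁻¹, H.inv_mem hh⟩ : H) h1⟩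
  have hinv : ∀ n j : ZMod p, (c ^ n.val)⁻¹ • e j = e (j - n) := fun n j => by
    rw [inv_smul_eq_iff, frame_pow_val hc, sub_add_cancel]
  let Λ : ZMod p → ZMod p → ZMod 2 := fun u v => ∑ i, if χ (u - i) ∧ χ (v - i) then 1 else 0
  have hΛ1 : ∀ u v u' v', u ≠ v → u' ≠ v' → Λ u v = Λ u' v' := by
    intro u v u' v' huv huv'
    obtain ⟨g, hg1, hg2⟩ := trans2 h2 (e.injective.ne huv) (e.injective.ne huv')
    choose σ hσ using fun i : ZMod p => hPH (g * c ^ i.val)
    have hσinj : Function.Injective σ := by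
      intro i j hij
      have h1 := H.mul_mem (H.inv_mem (hσ i)) (hσ j)
      rw [hij] at h1
      have h3 : ((c ^ (σ j).val)⁻¹ * (g * c ^ i.val))⁻¹ * ((c ^ (σ j).val)⁻¹ * (g * c ^ j.val))
          = (c ^ i.val)⁻¹ * c ^ j.val := by group
      rw [h3] at h1
      have h4 := hH _ h1 (Subgroup.mul_mem _ (Subgroup.inv_mem _ (Subgroup.npow_mem_zpowers c _))
        (Subgroup.npow_mem_zpowers c _))
      rw [inv_mul_eq_one] at h4
      have h5 : c ^ i.val • e 0 = c ^ j.val • e 0 := by rw [h4]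
      simpa [frame_pow_val hc] using h5
    apply Fintype.sum_bijective σ (Finite.injective_iff_bijective.mp hσinj)
    intro i
    rw [hχ _ (hσ i) (u - i) (u' - σ i), hχ _ (hσ i) (v - i) (v' - σ i)]
    · rw [mul_smul, mul_smul, frame_pow_val hc, sub_add_cancel, hg2, hinv]
    · rw [mul_smul, mul_smul, frame_pow_val hc, sub_add_cancel, hg1, hinv]
  have hχt : ∀ j, χ (b - j) ↔ χ j := fun j => (hχ t htH j (b - j) (ht j)).symm
  have hΛ2 : ∀ x, Λ (2 * x - b) 0 = if χ x then 1 else 0 := by
    intro x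
    show ∑ i, (if χ (2 * x - b - i) ∧ χ (0 - i) then (1 : ZMod 2) else 0) = _
    rw [← Finset.add_sum_erase _ _ (Finset.mem_univ (x - b)),
      Finset.sum_involution (fun i _ => 2 * x - 2 * b - i), add_zero]
    · rw [show 2 * x - b - (x - b) = x by ring, show 0 - (x - b) = b - x by ring, hχt]
      simp only [and_self]
    · intro i _
      rw [show 2 * x - b - (2 * x - 2 * b - i) = b - (0 - i) by ring,
        show 0 - (2 * x - 2 * b - i) = b - (2 * x - b - i) by ring, hχt, hχt]
      simp only [and_comm (a := χ (0 - i))]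
      exact CharTwo.add_self_eq_zero _
    · intro i hi _ h
      apply (Finset.mem_erase.mp hi).1
      apply mul_left_cancel₀ h2K
      linear_combination -h
    · intro i hi
      refine Finset.mem_erase.mpr ⟨fun h => ?_, Finset.mem_univ _⟩
      apply (Finset.mem_erase.mp hi).1
      linear_combination -h
    · intro i _
      ring
  have hkey : ∀ x y, x ≠ b / 2 → y ≠ b / 2 → (χ x ↔ χ y) := by
    intro x y hx hy
    have hne : ∀ z, z ≠ b / 2 → 2 * z - b ≠ 0 := fun z hz h => hz (by
      field_simp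
      linear_combination h)
    have := hΛ1 _ _ _ _ (hne x hx) (hne y hy)
    rw [hΛ2, hΛ2] at this
    by_cases h1 : χ x <;> by_cases h2 : χ y <;> simp_all
  refine ⟨e (b / 2), fun h hh => ?_⟩
  obtain ⟨j, hj⟩ := e.surjective (h • e (b / 2))
  by_contra hne
  have hj' : j ≠ b / 2 := by rintro rfl; exact hne hj.symm
  have hall : ∀ x, χ x ↔ χ j := fun x => by
    by_cases hx : x = b / 2
    · rw [hx]; exact hχ h hh _ _ hj.symm
    · exact hkey x j hx hj'
  apply hnt
  rw [isPretransitive_iff_orbit_eq_univ (e 0), Set.eq_univ_iff_forall]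
  intro x
  obtain ⟨i, rfl⟩ := e.surjective x
  exact (hall i).mpr ((hall 0).mp (mem_orbit_self _))

theorem exists_fix [Finite G] [IsPretransitive G α] (hα : Nat.card α = p) (P : Sylow p G)
    (heven : Even (Nat.card (Subgroup.normalizer ((P : Subgroup G) : Set G)))) (H : Subgroup G)
    (hH : H.index = p) : ∃ a : α, ∀ h ∈ H, h • a = a := by
  obtain ⟨c, e, hP, hc⟩ := exists_frame_sylow hα P
  have hPc : Nat.card (P : Subgroup G) = p := card_sylow_prime_degree hα P
  have hnd : ∀ K : Subgroup G, K.index = p → ¬ p ∣ Nat.card K := by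
    intro K hK hd
    have h1 : p ^ 2 ∣ Nat.card G := by
      rw [← K.card_mul_index, hK, pow_two]
      exact Nat.mul_dvd_mul_right hd p
    have h2 := P.pow_dvd_card_of_pow_dvd_card h1
    rw [show Nat.card P = p from hPc] at h2
    exact absurd (Nat.le_of_dvd hp.out.pos h2) (by nlinarith [hp.out.one_lt])
  have hdisj : ∀ K : Subgroup G, K.index = p → ∀ h ∈ K, h ∈ Subgroup.zpowers c → h = 1 := by
    intro K hK h hh hhc
    by_contra h1
    apply hnd K hK
    rw [← hP] at hhc
    have h2 : orderOf h = p := by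
      apply orderOf_eq_prime _ h1
      have := pow_card_eq_one' (x := (⟨h, hhc⟩ : (P : Subgroup G)))
      rw [hPc] at this
      exact congrArg Subtype.val this
    rw [← h2]
    exact Subgroup.orderOf_dvd_natCard K hh
  rcases affine_or_two_trans hc with haff | h2
  · exact fix_of_affine hc haff H (hdisj H hH)
  by_cases hp2 : p = 2
  · subst hp2
    apply fix_of_affine hc _ H (hdisj H hH)
    intro g
    refine ⟨1, e.symm (g • e 0), fun j => ?_⟩
    have key := key2
    rcases key2' j with rfl | rfl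
    · simp
    · rw [one_mul, ← key (e.symm (g • e 1)) (e.symm (g • e 0)) (by simp), e.apply_symm_apply]
  obtain ⟨t, htN, ht⟩ := exists_involution_of_even_card heven
  obtain ⟨b, hb⟩ := reflection_of_conj hc hp2 ht (by
    rw [← hP]
    exact (Subgroup.mem_normalizer_iff.mp htN c).mp (hP ▸ Subgroup.mem_zpowers c))
  have := Fact.mk Nat.prime_two
  have hz : IsPGroup 2 (Subgroup.zpowers t) :=
    IsPGroup.of_card (n := 1) (by rw [Nat.card_zpowers, ht, pow_one])
  obtain ⟨q, hq⟩ := hz.nonempty_fixed_point_of_prime_not_dvd_card (G ⧸ H) (by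
    rw [← Subgroup.index_eq_card, hH]
    intro h
    exact hp2 ((Nat.prime_dvd_prime_iff_eq Nat.prime_two hp.out).mp h).symm)
  have hidx : (stabilizer G q).index = p := by
    rw [index_stabilizer_of_transitive, ← Subgroup.index_eq_card, hH]
  have hPt := sylow_isPretransitive (α := G ⧸ H) (f := 1)
    (by rw [← Subgroup.index_eq_card, hH, pow_one]) P
  obtain ⟨a, ha⟩ := fix_of_two_trans hc hp2 h2 (stabilizer G q) (hdisj _ hidx) (by
      intro g
      obtain ⟨x, hx⟩ := hPt.exists_smul_eq q (g • q)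
      obtain ⟨d, hd⟩ := (frame_mem_zpowers hc (g := x)).mp (by rw [← hP]; exact x.2)
      refine ⟨d, ?_⟩
      rw [mem_stabilizer_iff, mul_smul, inv_smul_eq_iff, ← hx,
        frame_ext e (g := c ^ d.val) (k := x) fun j => by rw [hd, frame_pow_val hc]]
      rfl)
    (by
      intro ht'
      apply hnd _ hidx
      rw [← hα, ← index_stabilizer_of_transitive (stabilizer G q) (e 0)]
      exact Subgroup.index_dvd_card _)
    (hq ⟨t, Subgroup.mem_zpowers t⟩) hb
  obtain ⟨g, rfl⟩ := QuotientGroup.mk_surjective q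
  refine ⟨g⁻¹ • a, fun h hh => ?_⟩
  rw [← mul_smul, eq_inv_smul_iff, ← mul_smul]
  apply ha
  rw [mem_stabilizer_iff, Quotient.smul_coe, QuotientGroup.eq]
  simpa [mul_assoc] using hh

/-- In a transitive permutation group of prime degree `p` whose Sylow `p`-normaliser has even order, the point stabilisers are the only subgroups of index `p`. -/
theorem result {α : Type*} [Fintype α] [DecidableEq α] {p : ℕ} [Fact p.Prime] (hα : Fintype.card α = p) (G : Subgroup (Equiv.Perm α)) [MulAction.IsPretransitive G α] (P : Sylow p G) (heven : Even (Nat.card (Subgroup.normalizer ((P : Subgroup G) : Set G)))) (H : Subgroup G) (hH : H.index = p) : ∃ a : α, H = MulAction.stabilizer G a := by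
  have hα' : Nat.card α = p := by rw [Nat.card_eq_fintype_card, hα]
  obtain ⟨a, ha⟩ := exists_fix hα' P heven H hH
  refine ⟨a, Subgroup.eq_of_le_of_card_ge ha ?_⟩
  have h1 := H.card_mul_index
  rw [← (stabilizer G a).card_mul_index, index_stabilizer_of_transitive, hα', hH] at h1
  exact (Nat.eq_of_mul_eq_mul_right (Fact.out : p.Prime).pos h1).ge

end Cfsg.Agent.S0677
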