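import Mathlib
import Cfsg.Statements.S0681
import Cfsg.Agent.Lib.Perm.Basic
import Cfsg.Agent.Lib.Perm.NearField

set_option autoImplicit false
open Cfsg

namespace Cfsg.Agent.S0681

/-- The affine maps `x ↦ x * a + b`, `a ≠ 0`, of a near-field form a sharply doubly transitive permutation group. -/
theorem result {F : Type*} [Cfsg.NearField F] : ∃ H : Subgroup (Equiv.Perm F), (∀ σ : Equiv.Perm F, σ ∈ H ↔ ∃ a b : F, a ≠ 0 ∧ ∀ x : F, σ x = x * a + b) ∧ MulAction.IsMultiplyPretransitive H F 2 ∧ ∀ x : Fin 2 ↪ F, MulAction.stabilizer H x = ⊥ :=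
  ⟨H26.NF.affGroup F, fun _ => Iff.rfl, H26.NF.affGroup_two_trans,
    H26.sharp2_iff.mpr H26.NF.affGroup_sharp⟩

end Cfsg.Agent.S0681
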