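import Mathlib
import Cfsg.Statements.S0682
import Cfsg.Agent.Lib.Perm.Sharp2
import Cfsg.Agent.Lib.Perm.NearField

set_option autoImplicit false
open Cfsg

namespace Cfsg.Agent.S0682

open H26 H26.NF

/-- A finite near-field has prime-power order; its additive group is commutative of prime exponent. -/
theorem result {F : Type*} [Cfsg.NearField F] [Finite F] : ∃ p j : ℕ, p.Prime ∧ 1 ≤ j ∧ Nat.card F = p ^ j ∧ (∀ x y : F, x + y = y + x) ∧ ∀ x : F, p • x = 0 := by
  have : Nontrivial F := ⟨0, 1, Cfsg.NearField.zero_ne_one⟩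
  obtain ⟨K, hn, hc, ht, hst, hK, p, j, hp, hj, hcard, hexp⟩ :=
    sharp2_exists_kernel (affGroup_two_trans (F := F)) affGroup_sharp
  have hex : ∀ b : F, ∃ σ ∈ K, ∀ x : F, σ • x = x + b := by
    intro b
    obtain ⟨σ, hσ⟩ := exists_aff (one_ne_zero' (F := F)) b
    simp only [mul_one] at hσ
    refine ⟨σ, (hK σ).mpr ?_, hσ⟩
    by_cases hb : b = 0
    · left
      ext x
      exact (hσ x).trans (by simp [hb])
    · right
      intro x
      rw [hσ]
      simpa using hb
  refine ⟨p, j, hp, hj, hcard, fun x y => ?_, fun x => ?_⟩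
  · obtain ⟨σ, hσ, h1⟩ := hex x
    obtain ⟨τ, hτ, h2⟩ := hex y
    have h : σ * τ = τ * σ := congrArg Subtype.val (hc.is_comm.comm (⟨σ, hσ⟩ : K) ⟨τ, hτ⟩)
    have h' : (σ * τ) • (0 : F) = (τ * σ) • (0 : F) := by rw [h]
    simp only [mul_smul, h1, h2, zero_add] at h'
    exact h'.symm
  · obtain ⟨σ, hσ, h1⟩ := hex x
    have hpow : ∀ n : ℕ, σ ^ n • (0 : F) = n • x := by
      intro n
      induction n with
      | zero => simp
      | succ n ih => rw [pow_succ', mul_smul, ih, h1, succ_nsmul]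
    rw [← hpow, hexp σ hσ, one_smul]

end Cfsg.Agent.S0682
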