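import Mathlib
import Cfsg.Statements.S0683
import Cfsg.Agent.Lib.Perm.Sharp2

set_option autoImplicit false
open Cfsg

namespace Cfsg.Agent.S0683

open MulAction

/-- A finite sharply doubly transitive permutation group is the affine group of a near-field: the permuted set carries a near-field structure for which the group consists exactly of the maps `x ↦ x * a + b` with `a ≠ 0`. -/
theorem result {α : Type*} [Fintype α] [DecidableEq α] (H : Subgroup (Equiv.Perm α)) [MulAction.IsMultiplyPretransitive H α 2] (hsharp : ∀ x : Fin 2 ↪ α, MulAction.stabilizer H x = ⊥) (h2 : 2 ≤ Fintype.card α) : ∃ _ : Cfsg.NearField α, ∀ σ : Equiv.Perm α, σ ∈ H ↔ ∃ a b : α, a ≠ 0 ∧ ∀ x : α, σ x = x * a + b := by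
  have : Nontrivial α := Fintype.one_lt_card_iff_nontrivial.mp h2
  have hs := H26.sharp2_iff.mp hsharp
  obtain ⟨K, hn, hc, ht, hst, hK, -⟩ :=
    H26.sharp2_exists_kernel (G := H) (α := α) inferInstance hs
  obtain ⟨z, o, hzo⟩ := exists_pair_ne α
  have huniq : ∀ (g k : H), g • z = k • z → g • o = k • o → g = k := by
    intro g k h1 h2
    have := hs (k⁻¹ * g) z o hzo (by rw [mul_smul, h1, inv_smul_smul])
      (by rw [mul_smul, h2, inv_smul_smul])
    rw [inv_mul_eq_one] at this
    exact this.symm
  have hKu : ∀ k ∈ K, ∀ l ∈ K, k • z = l • z → k = l := by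
    intro k hk l hl h
    have : (⟨l⁻¹ * k, K.mul_mem (K.inv_mem hl) hk⟩ : K) ∈ stabilizer K z := by
      show (l⁻¹ * k) • z = z
      rw [mul_smul, h, inv_smul_smul]
    rw [hst, Subgroup.mem_bot, Subtype.ext_iff] at this
    exact (inv_mul_eq_one.mp this).symm
  have hext : ∀ y : α, ∃ k ∈ K, k • z = y := fun y => by
    obtain ⟨k, hk⟩ := exists_smul_eq K z y
    exact ⟨k, k.2, hk⟩
  choose t htK htz using hext
  have hexh : ∀ a : α, ∃ h : H, h • z = z ∧ (a ≠ z → h • o = a) := fun a => by
    by_cases ha : a = z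
    · exact ⟨1, one_smul _ _, fun h => absurd ha h⟩
    · obtain ⟨g, hg1, hg2⟩ := H26.trans2 (G := H) inferInstance hzo (Ne.symm ha)
      exact ⟨g, hg1, fun _ => hg2⟩
  choose h hhz hho using hexh
  have htt : ∀ b c : α, t (t c • b) = t c * t b := fun b c =>
    hKu _ (htK _) _ (K.mul_mem (htK _) (htK _)) (by rw [htz, mul_smul, htz])
  have htz1 : t z = 1 := hKu _ (htK _) _ K.one_mem (by rw [htz, one_smul])
  have hne : ∀ a b : α, a ≠ z → h b • a ≠ z := fun a b ha hh =>
    ha (MulAction.injective (h b) (hh.trans (hhz b).symm))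
  have hhh : ∀ a b : α, a ≠ z → b ≠ z → h (h b • a) = h b * h a := fun a b ha hb =>
    huniq _ _ (by rw [hhz, mul_smul, hhz, hhz]) (by rw [hho _ (hne a b ha), mul_smul, hho a ha])
  have hho1 : h o = 1 := huniq _ _ (by rw [hhz, one_smul]) (by rw [hho _ hzo.symm, one_smul])
  have hconj : ∀ (g : H) (b : α), g • z = z → t (g • b) = g * t b * g⁻¹ := fun g b hg =>
    hKu _ (htK _) _ (hn.conj_mem _ (htK _) g)
      (by rw [htz, mul_smul, mul_smul, inv_smul_eq_iff.mpr hg.symm, htz])
  letI : Add α := ⟨fun x y => t y • x⟩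
  letI : Zero α := ⟨z⟩
  letI : Neg α := ⟨fun x => (t x)⁻¹ • z⟩
  letI AG : AddGroup α := AddGroup.ofLeftAxioms
    (fun a b c => show t c • t b • a = t (t c • b) • a by rw [htt, mul_smul])
    (fun a => htz a) (fun a => show t a • (t a)⁻¹ • z = z from smul_inv_smul _ _)
  letI M : Monoid α :=
    { mul := fun x a => if a = z then z else h a • x
      one := o
      mul_assoc := fun x a b => by
        show (if b = z then z else h b • (if a = z then z else h a • x)) =
          if (if b = z then z else h b • a) = z then z else h (if b = z then z else h b • a) • x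
        by_cases hb : b = z
        · simp [hb]
        by_cases ha : a = z
        · simp [hb, ha, hhz]
        simp [ha, hb, hne a b ha, hhh a b ha hb, mul_smul]
      one_mul := fun a => by
        show (if a = z then z else h a • o) = a
        by_cases ha : a = z
        · simp [ha]
        · simp [ha, hho a ha]
      mul_one := fun a => by
        show (if o = z then z else h o • a) = a
        simp [hzo.symm, hho1] }
  have mul_def : ∀ x a : α, x * a = if a = z then z else h a • x := fun _ _ => rfl
  have add_def : ∀ x y : α, x + y = t y • x := fun _ _ => rfl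
  refine ⟨{ AG, M with
    right_distrib := fun a b c => ?_
    mul_zero := fun a => ?_
    zero_ne_one := hzo
    exists_inv := fun a ha => ?_ }, fun σ => ⟨fun hσ => ?_, ?_⟩⟩
  · simp only [mul_def, add_def]
    by_cases hc : c = z
    · simp [hc, htz1]
    · simp [hc, hconj _ b (hhz c), mul_smul]
  · exact (mul_def a z).trans (if_pos rfl)
  · have ha' : a ≠ z := ha
    have hb : (h a)⁻¹ • o ≠ z := by
      rw [Ne, inv_smul_eq_iff, hhz]
      exact hzo.symm
    have hinv : h ((h a)⁻¹ • o) = (h a)⁻¹ :=
      huniq _ _ (by rw [hhz, eq_inv_smul_iff, hhz]) (hho _ hb)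
    refine ⟨(h a)⁻¹ • o, ?_, ?_⟩
    · rw [mul_def, if_neg hb, hinv, inv_smul_eq_iff]
      exact (hho a ha').symm
    · rw [mul_def, if_neg ha', smul_inv_smul]; rfl
  · set g : H := ⟨σ, hσ⟩ with hg
    have h1 : ((t (g • z))⁻¹ * g) • z = z := by rw [mul_smul, inv_smul_eq_iff, htz]
    have h2 : ((t (g • z))⁻¹ * g) • o ≠ z := fun hh =>
      hzo (MulAction.injective _ (h1.trans hh.symm))
    refine ⟨((t (g • z))⁻¹ * g) • o, g • z, h2, fun x => ?_⟩
    have h3 : h (((t (g • z))⁻¹ * g) • o) = (t (g • z))⁻¹ * g :=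
      huniq _ _ (by rw [hhz, h1]) (hho _ h2)
    show g • x = _
    rw [add_def, mul_def, if_neg h2, h3, mul_smul, smul_inv_smul]
  · rintro ⟨a, b, ha, hσ⟩
    have ha' : a ≠ z := ha
    have : σ = (t b * h a : H) := by
      ext x
      rw [hσ, add_def, mul_def, if_neg ha', ← mul_smul]
      rfl
    rw [this]
    exact SetLike.coe_mem _

end Cfsg.Agent.S0683
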