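import Cfsg.Statements.S0689
import Cfsg.Agent.Lib.FrobC.Square

set_option autoImplicit false
open Cfsg

namespace Cfsg.Agent.S0689

theorem arith {Q m e : ℕ} (he : e = 1 ∨ e = 2) (h1 : Q * Q = 120 * m * e + 1) (h2 : 2 * m ∣ Q - 1)
    (hm : m.Coprime 30) : (Q = 11 ∧ m = 1 ∧ e = 1) ∨ (Q = 29 ∧ m = 7 ∧ e = 1) ∨
      (Q = 59 ∧ m = 29 ∧ e = 1) ∨ Q = 119 := by
  obtain ⟨t, ht⟩ := h2
  have hm0 : 0 < m := Nat.pos_of_ne_zero (by rintro rfl; simp at hm)
  obtain ⟨R, rfl⟩ : ∃ R, Q = R + 1 := ⟨Q - 1, by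
    rcases Q with _ | Q
    · simp at h1
    · simp⟩
  rw [Nat.add_sub_cancel] at ht
  have h3 : t * (R + 2) = 60 * e := by
    apply Nat.eq_of_mul_eq_mul_left (show 0 < 2 * m by omega)
    rw [← mul_assoc, ← ht]
    nlinarith
  have h4 : R + 2 ∣ 120 := by
    rcases he with rfl | rfl
    · exact (Dvd.intro_left _ h3).trans (by norm_num)
    · exact Dvd.intro_left _ h3
  have h5 := Nat.le_of_dvd (by norm_num) h4
  have h6 : m % 2 ≠ 0 := fun h => by
    have := Nat.eq_one_of_dvd_coprimes hm (Nat.dvd_of_mod_eq_zero h) (by norm_num); omega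
  have h7 : m % 3 ≠ 0 := fun h => by
    have := Nat.eq_one_of_dvd_coprimes hm (Nat.dvd_of_mod_eq_zero h) (by norm_num); omega
  have h8 : R ≤ 118 := by omega
  clear ht h3 hm h5
  rcases he with rfl | rfl <;> interval_cases R <;> omega


/-- The insoluble sharply doubly transitive groups: a non-solvable linear group over the prime field that is regular on the non-zero vectors of `V` occurs only for `|V| = 11², 29², 59²`, and is `SL(2,5) × C_m` with `m = 1, 7, 29` respectively. -/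
theorem result {p : ℕ} [Fact p.Prime] {V : Type*} [AddCommGroup V] [Module (ZMod p) V] [Finite V] (H : Subgroup (V ≃ₗ[ZMod p] V)) (hreg : ∀ v w : V, v ≠ 0 → w ≠ 0 → ∃! h : H, (h : V ≃ₗ[ZMod p] V) v = w) (hsolv : ¬ Group.IsSolvable H) : (Nat.card V = 121 ∧ Nonempty (H ≃* Matrix.SpecialLinearGroup (Fin 2) (ZMod 5))) ∨ (Nat.card V = 841 ∧ Nonempty (H ≃* Matrix.SpecialLinearGroup (Fin 2) (ZMod 5) × Multiplicative (ZMod 7))) ∨ (Nat.card V = 3481 ∧ Nonempty (H ≃* Matrix.SpecialLinearGroup (Fin 2) (ZMod 5) × Multiplicative (ZMod 29))) := by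
  let ρ : H →* AddMonoid.End V :=
    { toFun := fun h => (h : V ≃ₗ[ZMod p] V).toLinearMap.toAddMonoidHom
      map_one' := rfl
      map_mul' := fun _ _ => rfl }
  have hf : H82.FPF (H82.autOfEnd ρ) := by
    intro a ha k hk
    by_contra h0
    exact ha ((hreg k.toAdd k.toAdd h0 h0).unique hk rfl)
  have : Finite (V ≃ₗ[ZMod p] V) := Finite.of_injective _ DFunLike.coe_injective
  obtain ⟨v, hv⟩ : ∃ v : V, v ≠ 0 := by
    by_contra h0
    push Not at h0
    have : Subsingleton H := ⟨fun a b => Subtype.ext (LinearEquiv.ext fun x => by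
      rw [h0 (a.1 x), h0 (b.1 x)])⟩
    exact hsolv inferInstance
  have : Nontrivial (Multiplicative V) := ⟨Multiplicative.ofAdd v, 1, hv⟩
  have hG := hf.intFPF
  obtain ⟨θ, f, M, h⟩ := hG.exists_nonSolv hsolv
  obtain ⟨-, Q, hQ, hC⟩ := hf.square (i := θ H82.gi) (j := θ H82.gj) (z := θ (-1))
    (by rw [orderOf_injective θ h.inj, H82.orderOf_neg_one_SL25])
    (by rw [← map_mul]; congr 1; decide) (by rw [← map_mul]; congr 1; decide)
    (by simp only [← map_mul]; congr 1; decide)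
  replace hQ : Nat.card V = Q * Q := hQ
  have h1 := hC f.ker fun c hc => ⟨(h.comm hc _).symm, (h.comm hc _).symm⟩
  rw [h.card] at h1
  have h2 : Nat.card V = Nat.card H + 1 := by
    have hc : Nat.card H = Nat.card {w : V // w ≠ 0} := by
      refine Nat.card_eq_of_bijective (fun a => ⟨a.1 v, by simpa using hv⟩) ⟨fun a b e => ?_, ?_⟩
      · exact (hreg v (b.1 v) hv (by simpa using hv)).unique (congrArg Subtype.val e) rfl
      · rintro ⟨w, hw⟩
        obtain ⟨a, ha, -⟩ := hreg v w hv hw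
        exact ⟨a, Subtype.ext ha⟩
    classical
    have := Fintype.ofFinite V
    rw [hc, Nat.card_eq_fintype_card, Nat.card_eq_fintype_card, Fintype.card_subtype_compl,
      Fintype.card_subtype_eq, Nat.sub_add_cancel Fintype.card_pos]
  rw [h.card_eq, hQ] at h2
  rcases arith h.index h2 h1 h.cop with ⟨rfl, hm, he⟩ | ⟨rfl, hm, he⟩ | ⟨rfl, hm, he⟩ | rfl
  · obtain ⟨e⟩ := h.nonempty_equiv he
    have := (Nat.card_eq_one_iff_unique.1 hm).1
    have := uniqueOfSubsingleton (1 : M)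
    exact Or.inl ⟨hQ, ⟨e.trans MulEquiv.prodUnique⟩⟩
  · obtain ⟨e⟩ := h.nonempty_equiv he
    have : Fact (Nat.Prime 7) := ⟨by norm_num⟩
    exact Or.inr (Or.inl ⟨hQ, ⟨e.trans (MulEquiv.prodCongr (MulEquiv.refl _)
      (mulEquivOfPrimeCardEq hm (by simp)))⟩⟩)
  · obtain ⟨e⟩ := h.nonempty_equiv he
    have : Fact (Nat.Prime 29) := ⟨by norm_num⟩
    exact Or.inr (Or.inr ⟨hQ, ⟨e.trans (MulEquiv.prodCongr (MulEquiv.refl _)
      (mulEquivOfPrimeCardEq hm (by simp)))⟩⟩)
  · exfalso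
    rw [Module.natCard_eq_pow_finrank (K := ZMod p), Nat.card_zmod] at hQ
    have h7 : 7 = p := (Nat.prime_dvd_prime_iff_eq (by norm_num) Fact.out).1
      ((show Nat.Prime 7 by norm_num).dvd_of_dvd_pow (by rw [hQ]; norm_num))
    have h17 : 17 = p := (Nat.prime_dvd_prime_iff_eq (by norm_num) Fact.out).1
      ((show Nat.Prime 17 by norm_num).dvd_of_dvd_pow (by rw [hQ]; norm_num))
    omega

end Cfsg.Agent.S0689
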