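import Cfsg.Statements.S0686
import Cfsg.Agent.Lib.FrobC.Regular
import Cfsg.Agent.S0689

set_option autoImplicit false
open Cfsg

namespace Cfsg.Agent.S0686

open H82 Subgroup in
theorem nonsolv {G C : Type*} [Group G] [CommGroup C] (e : G ≃* SL25 × C) (N : Subgroup G)
    (hNn : N.Normal) (hNna : ¬ IsMulCommutative N)
    (hNmin : ∀ M : Subgroup G, M.Normal → M ≤ N → ¬ IsMulCommutative M → M = N) :
    Nonempty (N ≃* SL25) := by
  let π : G →* SL25 := (MonoidHom.fst _ _).comp e.toMonoidHom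
  have hπ : Function.Surjective π := Prod.fst_surjective.comp e.surjective
  have := hNn.map π hπ
  have : Fact (Nat.Prime 5) := ⟨Nat.prime_five⟩
  have h1 : N.map π = ⊤ := by
    by_contra hne
    have h2 := H10.ker_le_center_of_perfect perfect_SL25
      (H10.isSimpleGroup_PSL_fin 2 le_rfl (by simp)) (QuotientGroup.mk' (N.map π)) (by
        obtain ⟨s, hs⟩ := (not_forall.1 (mt (eq_top_iff' _).2 hne))
        exact ⟨s, fun h => hs ((QuotientGroup.eq_one_iff s).1 h)⟩)
    rw [QuotientGroup.ker_mk'] at h2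
    exact hNna (IsMulCommutative.of_setLike_mul_comm fun a _ b hb => e.injective (by
      rw [map_mul, map_mul]
      exact Prod.ext (mem_center_iff.1 (h2 ⟨b, hb, rfl⟩) _) (mul_comm _ _)))
  have h2 : ⁅N, N⁆ = N := hNmin _ inferInstance (commutator_le_self N) fun hc => by
    have h3 : (⁅N, N⁆).map π = ⊤ := by rw [map_commutator, h1]; exact perfect_SL25
    refine not_isSolvable_SL25 (Group.isSolvable_of_comm fun a b => ?_)
    obtain ⟨a, ha, rfl⟩ := h3.ge (mem_top a)
    obtain ⟨b, hb, rfl⟩ := h3.ge (mem_top b)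
    rw [← map_mul, ← map_mul, setLike_mul_comm ha hb]
  have h3 : N ≤ ((MonoidHom.snd _ _).comp e.toMonoidHom).ker := by
    rw [← h2, commutator_le]
    intro a _ b _
    rw [MonoidHom.mem_ker, map_commutatorElement, commutatorElement_eq_one_iff_mul_comm, mul_comm]
  refine ⟨MulEquiv.ofBijective (π.comp N.subtype) ⟨(injective_iff_map_eq_one _).2 fun a ha =>
    Subtype.ext (e.injective ?_), fun s => ?_⟩⟩
  · rw [OneMemClass.coe_one, map_one]
    exact Prod.ext ha (h3 a.2)
  · obtain ⟨a, ha, rfl⟩ := h1.ge (mem_top s)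
    exact ⟨⟨a, ha⟩, rfl⟩


/-- In a linear group over the prime field that is regular on non-zero vectors and has no irreducible cyclic normal subgroup, let `A` be a maximal normal abelian subgroup and `N` a normal subgroup centralising `A` that is minimal among non-abelian normal subgroups centralising `A`. Then `N` is quaternion of order 8 or isomorphic to `SL(2,5)`. -/
theorem result {p : ℕ} [Fact p.Prime] {V : Type*} [AddCommGroup V] [Module (ZMod p) V] [Finite V] (H : Subgroup (V ≃ₗ[ZMod p] V)) (hreg : ∀ v w : V, v ≠ 0 → w ≠ 0 → ∃! h : H, (h : V ≃ₗ[ZMod p] V) v = w) (hI : ∀ A : Subgroup H, A.Normal → IsCyclic A → ∃ W : Submodule (ZMod p) V, W ≠ ⊥ ∧ W ≠ ⊤ ∧ ∀ a ∈ A, ∀ v ∈ W, ((a : H) : V ≃ₗ[ZMod p] V) v ∈ W) (A : Subgroup H) (hAn : A.Normal) (hAc : IsMulCommutative A) (hAmax : ∀ B : Subgroup H, B.Normal → IsMulCommutative B → A ≤ B → B = A) (N : Subgroup H) (hNn : N.Normal) (hNle : N ≤ Subgroup.centralizer (A : Set H)) (hNna : ¬ IsMulCommutative N) (hNmin : ∀ M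 : Subgroup H, M.Normal → M ≤ N → ¬ IsMulCommutative M → M = N) : Nonempty (N ≃* QuaternionGroup 2) ∨ Nonempty (N ≃* Matrix.SpecialLinearGroup (Fin 2) (ZMod 5)) := by
  open H82 Subgroup in
  have : Finite (V ≃ₗ[ZMod p] V) := Finite.of_injective _ DFunLike.coe_injective
  obtain ⟨W, hW, -⟩ := hI ⊥ inferInstance inferInstance
  have : Nontrivial V := (Submodule.nontrivial_iff (ZMod p)).1 ⟨W, ⊥, hW⟩
  have hΓ : ¬ Gam (subRep H) := by
    rintro ⟨A, h1, h2, h3⟩
    obtain ⟨W, w1, w2, w3⟩ := hI A h1 h2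
    exact (h3 W w3).elim w1 w2
  by_cases hs : Group.IsSolvable H
  swap
  · right
    rcases Cfsg.Agent.S0689.result H hreg hs with ⟨-, ⟨e⟩⟩ | ⟨-, ⟨e⟩⟩ | ⟨-, ⟨e⟩⟩
    exacts [nonsolv (e.trans (MulEquiv.prodUnique (N := Unit)).symm) N hNn hNna hNmin,
      nonsolv e N hNn hNna hNmin, nonsolv e N hNn hNna hNmin]
  left
  have h := regRep_subRep hreg
  have hG := h.intFPF
  obtain ⟨h1, h3⟩ := h.not_gam hΓ
  obtain ⟨h2, -, h4, -, E, hE, h5, h6⟩ := h.dim_two hΓ h1
  have := hE.normal
  obtain ⟨e⟩ := hE.equiv_q8 hG (not_le_centralizer_of_relIndex h5 h6)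
  have h8 : Nat.card E = 8 := by rw [Nat.card_congr e.toEquiv, card_quat]
  by_cases hM : IsMulCommutative (N ⊓ E : Subgroup H)
  swap
  · have h7 : N ≤ E := (hNmin _ inferInstance inf_le_left hM).ge.trans inf_le_right
    obtain ⟨k, hk, h9⟩ := (Nat.dvd_prime_pow Nat.prime_two (m := 3)).1 (h8 ▸ card_dvd_of_le h7)
    obtain rfl : N = E := by
      refine eq_of_le_of_card_ge h7 ?_
      by_contra hlt
      interval_cases k
      · exact hNna (card_eq_one.1 h9 ▸ inferInstance)
      · exact hNna (isCyclic_of_prime_card (p := 2) h9).isMulCommutative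
      · exact hNna (IsPGroup.isMulCommutative_of_card_eq_prime_sq h9)
      · omega
    exact ⟨e⟩
  exfalso
  have h7 := h2 _ inferInstance hM
  have hZ : Nat.card (center H) ∣ 330 := by
    have a1 := (center H).index_mul_card
    obtain ⟨c, hc⟩ := h5 ▸ relIndex_dvd_index_of_normal (center H) E
    rw [h.card_eq, h1, hc] at a1
    have a2 := Nat.le_of_dvd (Nat.sub_pos_of_lt (Fact.out : p.Prime).one_lt) h4
    rcases h3 with rfl | rfl | rfl | rfl
    · generalize Nat.card (center H) = m at *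
      interval_cases m <;> omega
    all_goals exact h4.trans (by norm_num)
  have h9 : Nat.card (center H ⊓ E : Subgroup H) = 2 := by
    have := H1.card_inf_mul_relIndex (center H) E
    rw [h5, h8] at this
    omega
  obtain ⟨z, z1, z2⟩ := H1.exists_mem_orderOf_eq_prime Nat.prime_two h9.symm.dvd
  have h10 : zpowers z = center H ⊓ E :=
    eq_of_le_of_card_ge (zpowers_le.2 z1) (by rw [Nat.card_zpowers, z2, h9])
  have hW : H5.WES 2 E z := ⟨z2, by rw [h10, h6, inf_comm], fun a ha b hb =>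
    h10 ▸ ⟨h6 ▸ hE.comm a ha b hb, commutator_le_self E (commutator_mem_commutator ha hb)⟩⟩
  have h11 : N ≤ center H := by
    intro g hg
    obtain ⟨w, w1, w2⟩ := hW.exists_mul_centralizer Nat.prime_two E g (fun x hx => by
      have := commutator_le_inf N E (commutator_mem_commutator hg hx)
      exact h10 ▸ ⟨h7 this, this.2⟩) (mem_center_iff.1 z1.1 g)
    rw [h6] at w2
    obtain ⟨c, rfl⟩ : ∃ c, g = w * c := ⟨w⁻¹ * g, by group⟩
    rw [inv_mul_cancel_left] at w2
    have hc : Commute w c := mem_center_iff.1 w2 w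
    have a1 : c ^ 165 ∈ E := by
      rcases hG.eq_one_or_eq z2 (y := c ^ 165) (by
        rw [← pow_add]
        exact orderOf_dvd_iff_pow_eq_one.1 ((H1.orderOf_dvd_card_of_mem w2).trans hZ)) with e | e
      · rw [e]; exact one_mem _
      · rw [e]; exact z1.2
    have a2 : (w * c) ^ 165 ∈ center H := h7 ⟨pow_mem hg _, by
      rw [hc.mul_pow]; exact mul_mem (pow_mem w1 _) a1⟩
    rw [hc.mul_pow, mul_mem_cancel_right (pow_mem w2 _), show 165 = 2 * 82 + 1 from rfl, pow_succ,
      pow_mul, mul_mem_cancel_left (pow_mem (h6 ▸ hE.pow w w1) _)] at a2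
    exact mul_mem a2 w2
  exact hNna (IsMulCommutative.of_setLike_mul_comm fun a _ b hb => mem_center_iff.1 (h11 hb) a)

end Cfsg.Agent.S0686
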