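import Cfsg.Statements.S0687
import Cfsg.Agent.Lib.FrobC.Regular
import Cfsg.Agent.S0689

set_option autoImplicit false
open Cfsg

namespace Cfsg.Agent.S0687

open H82 Module Subgroup in
theorem finrank_eq_two {p : ℕ} [Fact p.Prime] {V : Type*} [AddCommGroup V] [Module (ZMod p) V]
    [Finite V] [Nontrivial V] (H : Subgroup (V ≃ₗ[ZMod p] V))
    (hreg : ∀ v w : V, v ≠ 0 → w ≠ 0 → ∃! h : H, (h : V ≃ₗ[ZMod p] V) v = w)
    (hΓ : ¬ Gam (subRep H)) : finrank (ZMod p) V = 2 := by
  have : Finite (V ≃ₗ[ZMod p] V) := Finite.of_injective _ DFunLike.coe_injective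
  by_cases hs : Group.IsSolvable H
  · exact ((regRep_subRep hreg).not_gam hΓ).1
  have key : ∀ r : ℕ, r.Prime → Nat.card V = r ^ 2 → finrank (ZMod p) V = 2 := by
    intro r hr e
    rw [card_V (q := p)] at e
    obtain rfl := (Nat.prime_dvd_prime_iff_eq hr Fact.out).1
      (hr.dvd_of_dvd_pow (e ▸ dvd_pow_self r two_ne_zero))
    exact Nat.pow_right_injective hr.two_le e
  rcases Cfsg.Agent.S0689.result H hreg hs with ⟨h, -⟩ | ⟨h, -⟩ | ⟨h, -⟩
  exacts [key 11 (by norm_num) h, key 29 (by norm_num) h, key 59 (by norm_num) h]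


/-- In a linear group over the prime field that is regular on non-zero vectors and has no irreducible cyclic normal subgroup, a normal subgroup `N` minimal among the non-abelian normal subgroups centralising a maximal normal abelian subgroup `A` is irreducible on `V`, and its centraliser is `A`. -/
theorem result {p : ℕ} [Fact p.Prime] {V : Type*} [AddCommGroup V] [Module (ZMod p) V] [Finite V] (H : Subgroup (V ≃ₗ[ZMod p] V)) (hreg : ∀ v w : V, v ≠ 0 → w ≠ 0 → ∃! h : H, (h : V ≃ₗ[ZMod p] V) v = w) (hI : ∀ A : Subgroup H, A.Normal → IsCyclic A → ∃ W : Submodule (ZMod p) V, W ≠ ⊥ ∧ W ≠ ⊤ ∧ ∀ a ∈ A, ∀ v ∈ W, ((a : H) : V ≃ₗ[ZMod p] V) v ∈ W) (A : Subgroup H) (hAn : A.Normal) (hAc : IsMulCommutative A) (hAmax : ∀ B : Subgroup H, B.Normal → IsMulCommutative B → A ≤ B → B = A) (N : Subgroup H) (hNn : N.Normal) (hNle : N ≤ Subgroup.centralizer (A : Set H)) (hNna : ¬ IsMulCommutative N) (hNmin : ∀ M : Subgroup H, M.Normal → M ≤ N → ¬ IsMulCommutative M → M = N)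 : (∀ W : Submodule (ZMod p) V, (∀ n ∈ N, ∀ v ∈ W, ((n : H) : V ≃ₗ[ZMod p] V) v ∈ W) → W = ⊥ ∨ W = ⊤) ∧ Subgroup.centralizer (N : Set H) = A := by
  have : Finite (V ≃ₗ[ZMod p] V) := Finite.of_injective _ DFunLike.coe_injective
  obtain ⟨W, hW, -⟩ := hI ⊥ inferInstance inferInstance
  have : Nontrivial V := (Submodule.nontrivial_iff (ZMod p)).1 ⟨W, ⊥, hW⟩
  have hΓ : ¬ H82.Gam (H82.subRep H) := by
    rintro ⟨A, h1, h2, h3⟩
    obtain ⟨W, w1, w2, w3⟩ := hI A h1 h2
    exact (h3 W w3).elim w1 w2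
  have h := H82.regRep_subRep hreg
  have h2 := finrank_eq_two H hreg hΓ
  have hirr : H82.Irr (H82.subRep H) N := by
    intro W hW
    by_contra hcon
    push Not at hcon
    have h3 : Module.finrank (ZMod p) W = 1 := by
      have a1 := Submodule.finrank_lt hcon.2
      have a2 := mt Submodule.finrank_eq_zero.1 hcon.1
      omega
    obtain ⟨⟨w, hw⟩, w0, w1⟩ := finrank_eq_one_iff'.1 h3
    refine hNna (IsMulCommutative.of_setLike_mul_comm fun a ha b hb => ?_)
    obtain ⟨α, hα⟩ := w1 ⟨_, hW a ha w hw⟩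
    obtain ⟨β, hβ⟩ := w1 ⟨_, hW b hb w hw⟩
    have hα' : H82.subRep H a w = α • w := (congrArg Subtype.val hα).symm
    have hβ' : H82.subRep H b w = β • w := (congrArg Subtype.val hβ).symm
    rw [eq_comm, ← inv_mul_eq_one]
    refine h.reg w (fun e => w0 (Subtype.ext e)) _ ?_
    have : H82.subRep H (b * a) w = H82.subRep H (a * b) w := by
      simp only [map_mul, Module.End.mul_apply, hα', hβ', map_smul, smul_smul, mul_comm]
    rw [map_mul, Module.End.mul_apply, ← this, H82.rep_inv_apply]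
  refine ⟨hirr, hAmax _ inferInstance ?_ (Subgroup.le_centralizer_iff.1 hNle)⟩
  have := H82.finite_end (q := p) (V := V)
  let D := Subring.centralizer (H82.subRep H '' N)
  have : NoZeroDivisors D := ⟨fun {r s} e => by
    refine (hirr (LinearMap.ker r.1) fun a ha v hv => ?_).symm.imp
      (fun e' => Subtype.ext (LinearMap.ker_eq_top.1 e')) fun e' => Subtype.ext ?_
    · rw [LinearMap.mem_ker, ← Module.End.mul_apply, ← r.2 _ ⟨a, ha, rfl⟩, Module.End.mul_apply,
        LinearMap.mem_ker.1 hv, map_zero]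
    · ext v
      exact (Submodule.eq_bot_iff _).1 e' _ (LinearMap.congr_fun (congrArg Subtype.val e) v)⟩
  have := NoZeroDivisors.to_isDomain D
  have key : ∀ c ∈ Subgroup.centralizer (N : Set H), H82.subRep H c ∈ D := by
    rintro c hc _ ⟨a, ha, rfl⟩
    rw [← map_mul, ← map_mul, hc a ha]
  refine IsMulCommutative.of_setLike_mul_comm fun a ha b hb => h.inj ?_
  rw [map_mul, map_mul]
  exact congrArg Subtype.val ((Finite.isDomain_to_isField D).mul_comm ⟨_, key a ha⟩ ⟨_, key b hb⟩)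

end Cfsg.Agent.S0687
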