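import Mathlib
import Cfsg.Statements.S0691
import Cfsg.Agent.Lib.Perm.RegularCert

set_option autoImplicit false
open Cfsg

namespace Cfsg.Agent.S0691

instance instFactPrime : Fact (Nat.Prime 5) := ⟨by norm_num⟩
def T1 : ℕ := 0x31010800c40420031010800c40420010c2100
def T2 : ℕ := 0x20820840410410841041030c30c3040000000
def T3 : ℕ := 0x40821020430c30421040c30c30c20010820c0
def lk (T : ℕ) (x y : ZMod 5) : ℕ := (T >>> (6 * (x.val * 5 + y.val))) % 64
def L : List (ZMod 5 × ZMod 5 × ZMod 5 × ZMod 5) := [(2, 0, 0, -2), (0, -1, 1, 0), (1, 2, 1, -2)]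

attribute [local instance 100000] List.decidableBAll List.decidableBEx in
theorem chk : ∀ x y : ZMod 5, (x = 0 ∧ y = 0) ∨
      ((∀ q ∈ L, ((lk T1 (q.1 * x + q.2.1 * y) (q.2.2.1 * x + q.2.2.2 * y) : ℕ) : ZMod 5)
            = q.1 * (lk T1 x y : ℕ) + q.2.1 * (lk T2 x y : ℕ) ∧
          ((lk T2 (q.1 * x + q.2.1 * y) (q.2.2.1 * x + q.2.2.2 * y) : ℕ) : ZMod 5)
            = q.2.2.1 * (lk T1 x y : ℕ) + q.2.2.2 * (lk T2 x y : ℕ)) ∧
        ((x = 1 ∧ y = 0) ∨
          ∃ q ∈ L, lk T3 (q.1 * x + q.2.1 * y) (q.2.2.1 * x + q.2.2.2 * y) < lk T3 x y)) := by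
  decide +kernel

/-- An exceptional sharply doubly transitive group of degree 5^2: the listed matrices generate a subgroup of GL(2,5) of order 24 acting regularly on the non-zero vectors. -/
theorem result (A : Matrix.GeneralLinearGroup (Fin 2) (ZMod 5)) (B : Matrix.GeneralLinearGroup (Fin 2) (ZMod 5)) (C : Matrix.GeneralLinearGroup (Fin 2) (ZMod 5)) (hA : (A : Matrix (Fin 2) (Fin 2) (ZMod 5)) = !![2, 0; 0, -2]) (hB : (B : Matrix (Fin 2) (Fin 2) (ZMod 5)) = !![0, -1; 1, 0]) (hC : (C : Matrix (Fin 2) (Fin 2) (ZMod 5)) = !![1, 2; 1, -2]) : Nat.card (Subgroup.closure ({A, B, C} : Set (Matrix.GeneralLinearGroup (Fin 2) (ZMod 5)))) = 24 ∧ ∀ v w : Fin 2 → ZMod 5, v ≠ 0 → w ≠ 0 → ∃! h : Subgroup.closure ({A, B, C} : Set (Matrix.GeneralLinearGroup (Fin 2) (ZMod 5))), Matrix.mulVec ((h : Matrix.GeneralLinearGroup (Fin 2) (ZMod 5)) : Matrix (Fin 2) (Fin 2) (ZMod 5)) v = w := by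
  have := H26.gl2_regular_of_cert (p := 5) ({A, B, C} : Set (Matrix.GeneralLinearGroup (Fin 2) (ZMod 5))) L
    (by
      intro s hs
      simp only [Set.mem_insert_iff, Set.mem_singleton_iff] at hs
      rcases hs with rfl | rfl | rfl
      · exact ⟨(2, 0, 0, -2), by simp [L], hA⟩
      · exact ⟨(0, -1, 1, 0), by simp [L], hB⟩
      · exact ⟨(1, 2, 1, -2), by simp [L], hC⟩
      )
    (by
      intro q hq
      simp only [L, List.mem_cons, List.not_mem_nil, or_false] at hq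
      rcases hq with rfl | rfl | rfl
      · exact ⟨A, by simp, hA⟩
      · exact ⟨B, by simp, hB⟩
      · exact ⟨C, by simp, hC⟩
      )
    (fun x y => (lk T1 x y : ℕ)) (fun x y => (lk T2 x y : ℕ)) (lk T3) (by decide +kernel) chk
  exact ⟨this.1, this.2⟩
end Cfsg.Agent.S0691
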