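import Mathlib
import Cfsg.Statements.S0692
import Cfsg.Agent.Lib.Perm.RegularCert

set_option autoImplicit false
open Cfsg

namespace Cfsg.Agent.S0692

instance instFactPrime : Fact (Nat.Prime 11) := ⟨by norm_num⟩
def T1 : ℕ := 0xa0441c51880832401c920a1460020c11072482821431060010062072411020c52892851c62000c108424a2000c51060421c62091ca0840c50010051c818904308428a2090051810c21070882431461072810011840c90881c5280
def T2 : ℕ := 0x904014208010404a0c318304114208a1420840831830c31c72000c400410104420618504814224618214508918328614524728a1c70072000c310820814824724910124918a2881482062871c02491802820401012841c1287000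
def T3 : ℕ := 0x71882ca1c908510210a2c32481492c714130a18b1492c924820420c18b30310c24a1c82851873061c724828510730624814b08530920b28618a1cb24b1cc10c28328524b0c61c528808718310724828a20500120720610a2460c0
def lk (T : ℕ) (x y : ZMod 11) : ℕ := (T >>> (6 * (x.val * 11 + y.val))) % 64
def L : List (ZMod 11 × ZMod 11 × ZMod 11 × ZMod 11) := [(0, -1, 1, 0), (2, 4, 1, -3)]

attribute [local instance 100000] List.decidableBAll List.decidableBEx in
theorem chk : ∀ x y : ZMod 11, (x = 0 ∧ y = 0) ∨
      ((∀ q ∈ L, ((lk T1 (q.1 * x + q.2.1 * y) (q.2.2.1 * x + q.2.2.2 * y) : ℕ) : ZMod 11)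
            = q.1 * (lk T1 x y : ℕ) + q.2.1 * (lk T2 x y : ℕ) ∧
          ((lk T2 (q.1 * x + q.2.1 * y) (q.2.2.1 * x + q.2.2.2 * y) : ℕ) : ZMod 11)
            = q.2.2.1 * (lk T1 x y : ℕ) + q.2.2.2 * (lk T2 x y : ℕ)) ∧
        ((x = 1 ∧ y = 0) ∨
          ∃ q ∈ L, lk T3 (q.1 * x + q.2.1 * y) (q.2.2.1 * x + q.2.2.2 * y) < lk T3 x y)) := by
  decide +kernel

/-- An exceptional sharply doubly transitive group of degree 11^2: the listed matrices generate a subgroup of GL(2,11) of order 120 acting regularly on the non-zero vectors. -/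
theorem result (A : Matrix.GeneralLinearGroup (Fin 2) (ZMod 11)) (B : Matrix.GeneralLinearGroup (Fin 2) (ZMod 11)) (hA : (A : Matrix (Fin 2) (Fin 2) (ZMod 11)) = !![0, -1; 1, 0]) (hB : (B : Matrix (Fin 2) (Fin 2) (ZMod 11)) = !![2, 4; 1, -3]) : Nat.card (Subgroup.closure ({A, B} : Set (Matrix.GeneralLinearGroup (Fin 2) (ZMod 11)))) = 120 ∧ ∀ v w : Fin 2 → ZMod 11, v ≠ 0 → w ≠ 0 → ∃! h : Subgroup.closure ({A, B} : Set (Matrix.GeneralLinearGroup (Fin 2) (ZMod 11))), Matrix.mulVec ((h : Matrix.GeneralLinearGroup (Fin 2) (ZMod 11)) : Matrix (Fin 2) (Fin 2) (ZMod 11)) v = w := by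
  have := H26.gl2_regular_of_cert (p := 11) ({A, B} : Set (Matrix.GeneralLinearGroup (Fin 2) (ZMod 11))) L
    (by
      intro s hs
      simp only [Set.mem_insert_iff, Set.mem_singleton_iff] at hs
      rcases hs with rfl | rfl
      · exact ⟨(0, -1, 1, 0), by simp [L], hA⟩
      · exact ⟨(2, 4, 1, -3), by simp [L], hB⟩
      )
    (by
      intro q hq
      simp only [L, List.mem_cons, List.not_mem_nil, or_false] at hq
      rcases hq with rfl | rfl
      · exact ⟨A, by simp, hA⟩
      · exact ⟨B, by simp, hB⟩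
      )
    (fun x y => (lk T1 x y : ℕ)) (fun x y => (lk T2 x y : ℕ)) (lk T3) (by decide +kernel) chk
  exact ⟨this.1, this.2⟩
end Cfsg.Agent.S0692
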