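import Mathlib
import Cfsg.Statements.S0694


set_option autoImplicit false
open Cfsg

namespace Cfsg.Agent.S0694

/-- The geometric sum `1 + q + ⋯ + q^(i-1)` for `q = m + 1`. -/
def S (m i : ℕ) : ℕ := ∑ j ∈ Finset.range i, (m + 1) ^ j

theorem S_mul (m i : ℕ) : S m i * m + 1 = (m + 1) ^ i := geom_sum_mul_add m i

theorem S_succ (m i : ℕ) : S m (i + 1) = (m + 1) * S m i + 1 := geom_sum_succ

theorem S_add (m i j : ℕ) : S m (i + j) = S m i + (m + 1) ^ i * S m j := by
  simp [S, Finset.sum_range_add, pow_add, Finset.mul_sum]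

theorem S_pos (m : ℕ) {i : ℕ} (hi : 0 < i) : 0 < S m i := by
  obtain ⟨i, rfl⟩ : ∃ j, i = j + 1 := ⟨i - 1, by omega⟩
  rw [S_succ]; omega

theorem modEq_iff {m n i : ℕ} (hm : 0 < m) : (m + 1) ^ i ≡ 1 [MOD n * m] ↔ n ∣ S m i := by
  rw [← S_mul, Nat.ModEq.comm, Nat.modEq_iff_dvd' (by omega), Nat.add_sub_cancel,
    Nat.mul_dvd_mul_iff_right hm]

theorem dvd_S_iff {m r : ℕ} (h : r ∣ m) (i : ℕ) : r ∣ S m i ↔ r ∣ i := by
  have h0 : (m : ZMod r) = 0 := (ZMod.natCast_eq_zero_iff _ _).mpr h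
  rw [← ZMod.natCast_eq_zero_iff, ← ZMod.natCast_eq_zero_iff]
  simp [S, h0]

theorem val_S {m r i : ℕ} [hr : Fact r.Prime] (hm : 0 < m) (h : r ∣ m) (h4 : r = 2 → 4 ∣ m)
    (hi : 0 < i) : padicValNat r (S m i) = padicValNat r i := by
  have hnd : ¬ r ∣ m + 1 := fun h' =>
    hr.out.one_lt.ne' (Nat.dvd_one.mp ((Nat.dvd_add_right h).mp h'))
  have h1 : padicValNat r ((m + 1) ^ i - 1) = padicValNat r (S m i) + padicValNat r m := by
    rw [← S_mul, Nat.add_sub_cancel, padicValNat.mul (S_pos m hi).ne' hm.ne']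
  rcases hr.out.eq_two_or_odd' with rfl | hodd
  · rcases Nat.even_or_odd i with he | ho
    · have h2 := padicValNat.pow_two_sub_one (x := m + 1) (by omega) hnd hi.ne' he
      have h3 : padicValNat 2 (m + 1 + 1) = 1 := by
        obtain ⟨c, rfl⟩ := h4 rfl
        rw [show 4 * c + 1 + 1 = 2 * (2 * c + 1) by ring, padicValNat.mul (by omega) (by omega),
          padicValNat.eq_zero_of_not_dvd (n := 2 * c + 1) (by omega)]
        simp
      rw [Nat.add_sub_cancel] at h2
      omega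
    · rw [padicValNat.eq_zero_of_not_dvd ho.not_two_dvd_nat, padicValNat.eq_zero_of_not_dvd]
      rw [dvd_S_iff h]
      exact ho.not_two_dvd_nat
  · have h2 := padicValNat.pow_sub_pow hodd (x := m + 1) (y := 1) (by omega) (by simpa using h) hnd
      hi.ne'
    rw [one_pow, Nat.add_sub_cancel] at h2
    omega

/-- The Dickson pair condition: for a prime power `q` and `n > 1`, (every prime factor of `n` divides `q - 1`, and `4 ∣ n → 4 ∣ q - 1`) holds exactly when `q ^ n ≡ 1` modulo `n * (q - 1)` but `q ^ i` is not, for `0 < i < n`. -/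
theorem result (q n : ℕ) (hq : IsPrimePow q) (hn : 1 < n) : ((∀ r : ℕ, r.Prime → r ∣ n → r ∣ q - 1) ∧ (4 ∣ n → 4 ∣ q - 1)) ↔ (q ^ n ≡ 1 [MOD n * (q - 1)] ∧ ∀ i : ℕ, 0 < i → i < n → ¬ q ^ i ≡ 1 [MOD n * (q - 1)]) := by
  obtain ⟨m, rfl⟩ : ∃ m, q = m + 1 := ⟨q - 1, by have := hq.two_le; omega⟩
  have hm : 0 < m := by have := hq.two_le; omega
  simp only [Nat.add_sub_cancel, modEq_iff hm]
  constructor
  · rintro ⟨h1, h2⟩
    have key : ∀ i, 0 < i → (n ∣ S m i ↔ n ∣ i) := by
      intro i hi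
      rw [Nat.dvd_iff_prime_pow_dvd_dvd (S m i), Nat.dvd_iff_prime_pow_dvd_dvd i]
      refine forall₃_congr fun r k hr => imp_congr_right fun hrk => ?_
      rcases k with _ | _ | k
      · simp
      · rw [zero_add, pow_one] at hrk ⊢
        exact dvd_S_iff (h1 r hr hrk) i
      · have := Fact.mk hr
        have hrm := h1 r hr ((dvd_pow_self r (by omega)).trans hrk)
        rw [padicValNat_dvd_iff_le (S_pos m hi).ne', padicValNat_dvd_iff_le hi.ne', val_S hm hrm _ hi]
        rintro rfl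
        exact h2 (dvd_trans ⟨2 ^ k, by ring⟩ hrk)
    exact ⟨(key n (by omega)).mpr dvd_rfl, fun i hi hin h =>
      absurd (Nat.le_of_dvd hi ((key i hi).mp h)) (by omega)⟩
  · rintro ⟨h1, h2⟩
    have hcop : Nat.Coprime n (m + 1) := by
      have h3 := S_mul m n
      obtain ⟨c, hc⟩ := h1
      apply Nat.Coprime.coprime_dvd_right (dvd_pow_self (m + 1) (by omega : n ≠ 0))
      rw [← h3, hc, mul_assoc]
      simp
    have : NeZero n := ⟨by omega⟩
    have hinj : Function.Injective fun i : Fin n => (S m i : ZMod n) := by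
      intro i j hij
      wlog h : i ≤ j generalizing i j
      · exact (this hij.symm (le_of_not_ge h)).symm
      obtain ⟨d, hd⟩ := Nat.exists_eq_add_of_le (show (i : ℕ) ≤ j from h)
      simp only [hd, S_add, Nat.cast_add, left_eq_add, ZMod.natCast_eq_zero_iff] at hij
      have h3 := (hcop.pow_right i).dvd_of_dvd_mul_left hij
      by_contra hne
      exact h2 d (by by_contra h0; exact hne (Fin.ext (by omega))) (by omega) h3
    have hsurj : ∀ t : ℕ, ∃ i, S m i ≡ t [MOD n] := fun t => by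
      obtain ⟨i, hi⟩ := (hinj.bijective_of_nat_card_le (by simp)).2 (t : ZMod n)
      exact ⟨i, (ZMod.natCast_eq_natCast_iff _ _ _).mp hi⟩
    have hr : ∀ r : ℕ, r.Prime → r ∣ n → r ∣ m := by
      intro r hr hrn
      by_contra hrm
      have := Fact.mk hr
      have hm0 : (m : ZMod r) ≠ 0 := by rwa [Ne, ZMod.natCast_eq_zero_iff]
      obtain ⟨i, hi⟩ := hsurj (-(m : ZMod r)⁻¹).val
      have h3 := (ZMod.natCast_eq_natCast_iff _ _ _).mpr (hi.of_dvd hrn)
      have h4 : (((m + 1) ^ i : ℕ) : ZMod r) = 0 := by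
        rw [← S_mul, Nat.cast_add, Nat.cast_mul, h3, ZMod.natCast_zmod_val, neg_mul,
          inv_mul_cancel₀ hm0]
        simp
      rw [ZMod.natCast_eq_zero_iff] at h4
      exact hr.one_lt.ne' (Nat.eq_one_of_dvd_coprimes hcop hrn (hr.dvd_of_dvd_pow h4))
    refine ⟨hr, fun h4 => ?_⟩
    have h5 := hr 2 Nat.prime_two (dvd_trans (by norm_num) h4)
    by_contra h6
    obtain ⟨i, hi⟩ := hsurj 2
    have h7 : S m i % 4 = 2 := hi.of_dvd h4
    have h8 : ∀ i, S m i % 4 = 0 ∨ S m i % 4 = 1 := by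
      intro i
      induction i with
      | zero => simp [S]
      | succ i ih =>
        rw [S_succ, Nat.add_mod, Nat.mul_mod, show (m + 1) % 4 = 3 by omega]
        rcases ih with h | h <;> simp [h]
    have := h8 i
    omega

end Cfsg.Agent.S0694
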