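import Mathlib
import Cfsg.Statements.S0701
import Cfsg.Agent.Lib.Perm.Basic

set_option autoImplicit false
open Cfsg

namespace Cfsg.Agent.S0701

open MulAction

/-- The centraliser in the full symmetric group of a transitive permutation group `G` is semiregular, and it is transitive if and only if `G` is regular. -/
theorem result {α : Type*} (G : Subgroup (Equiv.Perm α)) [MulAction.IsPretransitive G α] : (∀ c ∈ Subgroup.centralizer (G : Set (Equiv.Perm α)), ∀ a : α, c a = a → c = 1) ∧ (MulAction.IsPretransitive (Subgroup.centralizer (G : Set (Equiv.Perm α))) α ↔ ∀ a : α, MulAction.stabilizer G a = ⊥) := by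
  refine ⟨fun c hc a ha => ?_, fun h a => ?_, fun h => ⟨fun a b => ?_⟩⟩
  · ext x
    exact H26.smul_eq_of_commute_of_fix G (c := c) (fun m hm => hc m hm) (a := a) ha x
  · rw [eq_bot_iff]
    intro g hg
    rw [Subgroup.mem_bot]
    ext x
    exact H26.smul_eq_of_commute_of_fix (Subgroup.centralizer (G : Set (Equiv.Perm α)))
      (c := (g : Equiv.Perm α)) (fun m hm => (hm g g.2).symm) (a := a) hg x
  · obtain ⟨c, hc, hc'⟩ := H26.exists_equivariant_perm (G := G) (a := a) (b := b) (by rw [h, h])
    refine ⟨⟨c, fun g hg => ?_⟩, hc⟩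
    ext x
    exact (hc' ⟨g, hg⟩ x).symm

end Cfsg.Agent.S0701
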