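import Mathlib
import Cfsg.Statements.S0702
import Cfsg.Agent.Lib.Perm.Basic

set_option autoImplicit false
open Cfsg

namespace Cfsg.Agent.S0702

open MulAction

/-- For a transitive permutation group `G` on a finite set, the centraliser of `G` in the symmetric group is isomorphic to `N_G(G_ω)/G_ω`, and its orbit of `ω` is the set of fixed points of `G_ω`. -/
theorem result {α : Type*} [Finite α] (G : Subgroup (Equiv.Perm α)) [MulAction.IsPretransitive G α] (a : α) : Nonempty (Subgroup.centralizer (G : Set (Equiv.Perm α)) ≃* Subgroup.normalizer ((MulAction.stabilizer G a : Subgroup G) : Set G) ⧸ (MulAction.stabilizer G a).subgroupOf (Subgroup.normalizer ((MulAction.stabilizer G a : Subgroup G) : Set G))) ∧ MulAction.orbit (Subgroup.centralizer (G : Set (Equiv.Perm α))) a = MulAction.fixedPoints (MulAction.stabilizer G a) α := by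
  have hcen : ∀ c : Subgroup.centralizer (G : Set (Equiv.Perm α)), ∀ (g : G) (x : α),
      (c : Equiv.Perm α) (g • x) = g • (c : Equiv.Perm α) x := fun c g x =>
    (DFunLike.congr_fun (c.2 g g.2) x).symm
  have hex : ∀ b : α, stabilizer G a = stabilizer G b →
      ∃ c : Subgroup.centralizer (G : Set (Equiv.Perm α)), (c : Equiv.Perm α) a = b := by
    intro b hb
    obtain ⟨c, hc, hc'⟩ := H26.exists_equivariant_perm hb
    refine ⟨⟨c, fun g hg => ?_⟩, hc⟩
    ext x
    exact (hc' ⟨g, hg⟩ x).symm
  have huniq : ∀ c d : Subgroup.centralizer (G : Set (Equiv.Perm α)),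
      (c : Equiv.Perm α) a = (d : Equiv.Perm α) a → c = d := by
    intro c d h
    ext x
    obtain ⟨g, rfl⟩ := exists_smul_eq G a x
    rw [hcen, hcen, h]
  constructor
  · set N := Subgroup.normalizer ((MulAction.stabilizer G a : Subgroup G) : Set G) with hN
    have hst : ∀ n : N, stabilizer G a = stabilizer G ((n : G)⁻¹ • a) := by
      intro n
      ext s
      have := (Subgroup.mem_normalizer_iff.mp n.2) s
      rw [this, mem_stabilizer_iff, mem_stabilizer_iff, mul_smul, mul_smul, eq_inv_smul_iff]
    choose f hf using fun n : N => hex _ (hst n)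
    let φ : N →* Subgroup.centralizer (G : Set (Equiv.Perm α)) := MonoidHom.mk' f (fun n m =>
      huniq _ _ (by
        rw [hf, Subgroup.coe_mul (Subgroup.centralizer _), Equiv.Perm.mul_apply, hf, hcen, hf,
          Subgroup.coe_mul, mul_inv_rev, mul_smul]))
    have hsurj : Function.Surjective φ := by
      intro c
      obtain ⟨g, hg⟩ := exists_smul_eq G a ((c : Equiv.Perm α) a)
      have hgN : g⁻¹ ∈ N := by
        rw [hN, Subgroup.mem_normalizer_iff]
        intro s
        rw [mem_stabilizer_iff, mem_stabilizer_iff, inv_inv, mul_smul, mul_smul, inv_smul_eq_iff, hg,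
          ← hcen]
        exact (c : Equiv.Perm α).injective.eq_iff.symm
      exact ⟨⟨g⁻¹, hgN⟩, huniq _ _ (by show (f _ : Equiv.Perm α) a = _; rw [hf, inv_inv, hg])⟩
    have hker : φ.ker = (MulAction.stabilizer G a).subgroupOf N := by
      ext n
      rw [MonoidHom.mem_ker, Subgroup.mem_subgroupOf, mem_stabilizer_iff]
      constructor
      · intro h
        have := hf n
        rw [show f n = 1 from h] at this
        exact (eq_inv_smul_iff.mp this)
      · intro h
        apply huniq
        show (f n : Equiv.Perm α) a = a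
        rw [hf, inv_smul_eq_iff, h]
    exact ⟨(QuotientGroup.quotientKerEquivOfSurjective φ hsurj).symm.trans
      (QuotientGroup.quotientMulEquivOfEq hker)⟩
  · ext b
    constructor
    · rintro ⟨c, rfl⟩ s
      show (s : G) • (c : Equiv.Perm α) a = (c : Equiv.Perm α) a
      rw [← hcen, s.2]
    · intro hb
      have hle : stabilizer G a ≤ stabilizer G b := fun s hs => hb ⟨s, hs⟩
      have hcard : Nat.card (stabilizer G b) ≤ Nat.card (stabilizer G a) := by
        obtain ⟨g, rfl⟩ := exists_smul_eq G a b
        rw [stabilizer_smul_eq_stabilizer_map_conj,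
          Subgroup.card_map_of_injective (MulAut.conj g).injective]
      obtain ⟨c, hc⟩ := hex b (Subgroup.eq_of_le_of_card_ge hle hcard)
      exact ⟨c, hc⟩

end Cfsg.Agent.S0702
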