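import Mathlib
import Cfsg.Statements.S0703
import Cfsg.Agent.Lib.Perm.MinNormal

set_option autoImplicit false
open Cfsg

namespace Cfsg.Agent.S0703

open MulAction

/-- An abelian transitive minimal normal subgroup `M` of a permutation group on a finite set is self-centralising in the symmetric group, regular, elementary abelian, and is the unique minimal normal subgroup. -/
theorem result {α : Type*} [Finite α] (G : Subgroup (Equiv.Perm α)) (M : Subgroup G) [M.Normal] (hM : M ≠ ⊥) (hmin : ∀ L : Subgroup G, L.Normal → L ≤ M → L = ⊥ ∨ L = M) (hab : IsMulCommutative M) (htrans : MulAction.IsPretransitive M α) : Subgroup.centralizer ((M.map G.subtype : Subgroup (Equiv.Perm α)) : Set (Equiv.Perm α)) = M.map G.subtype ∧ (∀ a : α, MulAction.stabilizer M a = ⊥) ∧ (∃ p : ℕ, p.Prime ∧ ∀ m ∈ M, m ^ p = 1) ∧ ∀ L : Subgroup G, L.Normal → L ≠ ⊥ → (∀ L' : Subgroup G, L'.Normal → L' ≤ L → L' = ⊥ ∨ L' = L) → L = M := by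
  have h1 := H26.centralizer_map_eq G (M := M) (N := M) (fun m hm n hn =>
    congrArg Subtype.val (hab.is_comm.comm (⟨m, hm⟩ : M) ⟨n, hn⟩))
  refine ⟨h1, H26.stabilizer_eq_bot_of_comm M hab, H26.minNormal_elementary M hM hmin hab, ?_⟩
  intro L hL hLb hLmin
  by_contra hne
  have hle : L ≤ M := by
    intro l hl
    have : (l : Equiv.Perm α) ∈ M.map G.subtype := by
      rw [← h1]
      rintro _ ⟨m, hm, rfl⟩
      exact congrArg Subtype.val (H26.minNormal_commute hmin hLmin (Ne.symm hne) hm hl)
    obtain ⟨m, hm, hml⟩ := this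
    rwa [← Subtype.ext hml]
  rcases hmin L hL hle with h | h
  · exact hLb h
  · exact hne h

end Cfsg.Agent.S0703
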