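import Mathlib
import Cfsg.Statements.S0704
import Cfsg.Agent.Lib.Perm.MinNormal

set_option autoImplicit false
open Cfsg

namespace Cfsg.Agent.S0704

open MulAction

theorem regular {α : Type*} (G : Subgroup (Equiv.Perm α)) (M N : Subgroup G)
    [MulAction.IsPretransitive N α] (hc : ∀ m ∈ M, ∀ n ∈ N, m * n = n * m) (a : α) :
    MulAction.stabilizer M a = ⊥ := by
  rw [eq_bot_iff]
  intro m hm
  rw [Subgroup.mem_bot]
  ext x
  exact H26.smul_eq_of_commute_of_fix N (c := (m : G)) (fun n hn => (hc m m.2 n hn).symm)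
    (a := a) hm x

/-- Two distinct transitive minimal normal subgroups `M`, `N` of a permutation group are regular, non-abelian, isomorphic, each other's centraliser in the symmetric group, and the only minimal normal subgroups. -/
theorem result {α : Type*} (G : Subgroup (Equiv.Perm α)) (M N : Subgroup G) [M.Normal] [N.Normal] (hM : M ≠ ⊥) (hN : N ≠ ⊥) (hMmin : ∀ L : Subgroup G, L.Normal → L ≤ M → L = ⊥ ∨ L = M) (hNmin : ∀ L : Subgroup G, L.Normal → L ≤ N → L = ⊥ ∨ L = N) (hMN : M ≠ N) (hMt : MulAction.IsPretransitive M α) (hNt : MulAction.IsPretransitive N α) : (∀ a : α, MulAction.stabilizer M a = ⊥) ∧ (∀ a : α, MulAction.stabilizer N a = ⊥) ∧ ¬ IsMulCommutative M ∧ Nonempty (M ≃* N) ∧ Subgroup.centralizer ((M.map G.subtype : Subgroup (Equiv.Perm α)) : Set (Equiv.Perm α)) = N.map G.subtype ∧ Subgroup.centralizer ((N.map G.subtype : Subgroup (Equiv.Perm α)) : Set (Equiv.Perm α)) = M.map G.subtype ∧ ∀ L : Subgroup G, L.Normal → L ≠ ⊥ → (∀ L' : Subgroup G, L'.Normal → L' ≤ L → L' = ⊥ ∨ L' = L) →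 L = M ∨ L = N := by
  have hc : ∀ m ∈ M, ∀ n ∈ N, m * n = n * m := fun m hm n hn =>
    H26.minNormal_commute hMmin hNmin hMN hm hn
  have hc' : ∀ n ∈ N, ∀ m ∈ M, n * m = m * n := fun n hn m hm => (hc m hm n hn).symm
  have hrM := regular G M N hc
  have hrN := regular G N M hc'
  have h1 := H26.centralizer_map_eq G hc
  have h2 := H26.centralizer_map_eq G hc'
  have key : ∀ L : Subgroup G, (∀ m ∈ M, ∀ l ∈ L, m * l = l * m) → L ≤ N := by
    intro L hL l hl
    have : (l : Equiv.Perm α) ∈ N.map G.subtype := by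
      rw [← h1]
      rintro _ ⟨m, hm, rfl⟩
      exact congrArg Subtype.val (hL m hm l hl)
    obtain ⟨m, hm, hml⟩ := this
    rwa [← Subtype.ext hml]
  refine ⟨hrM, hrN, fun hab => ?_, ?_, h1, h2, fun L hL hLb hLmin => ?_⟩
  · have := key M (fun m hm n hn => congrArg Subtype.val (hab.is_comm.comm (⟨m, hm⟩ : M) ⟨n, hn⟩))
    rcases hNmin M inferInstance this with h | h
    · exact hM h
    · exact hMN h
  · rcases isEmpty_or_nonempty α with h | ⟨⟨a⟩⟩
    · exact absurd (Subsingleton.elim _ _) hM
    have injN : ∀ n n' : N, n • a = n' • a → n = n' := by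
      intro n n' h
      have : n'⁻¹ * n ∈ stabilizer N a := by
        rw [mem_stabilizer_iff, mul_smul, h, inv_smul_smul]
      rw [hrN, Subgroup.mem_bot, inv_mul_eq_one] at this
      exact this.symm
    have injM : ∀ n n' : M, n • a = n' • a → n = n' := by
      intro n n' h
      have : n'⁻¹ * n ∈ stabilizer M a := by
        rw [mem_stabilizer_iff, mul_smul, h, inv_smul_smul]
      rw [hrM, Subgroup.mem_bot, inv_mul_eq_one] at this
      exact this.symm
    have comm : ∀ (m : M) (n : N) (x : α), m • n • x = n • m • x := by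
      intro m n x
      simp only [Subgroup.smul_def m, Subgroup.smul_def n, ← mul_smul, hc m m.2 n n.2]
    choose f hf using fun m : M => exists_smul_eq N a (m⁻¹ • a)
    let φ : M →* N := MonoidHom.mk' f (fun m m' => injN _ _ (by
      rw [hf, mul_smul, hf, ← comm, hf, mul_inv_rev, mul_smul]))
    refine ⟨MulEquiv.ofBijective φ ⟨fun m m' h => ?_, fun n => ?_⟩⟩
    · have h' : f m = f m' := h
      have := hf m
      rw [h', hf] at this
      exact (inv_injective (injM _ _ this)).symm
    · obtain ⟨m, hm⟩ := exists_smul_eq M a (n • a)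
      exact ⟨m⁻¹, injN _ _ (by show f m⁻¹ • a = _; rw [hf, inv_inv, hm])⟩
  · by_cases hLM : L = M
    · exact Or.inl hLM
    · right
      have := key L (fun m hm l hl => H26.minNormal_commute hMmin hLmin (Ne.symm hLM) hm hl)
      exact (hNmin L hL this).resolve_left hLb

end Cfsg.Agent.S0704
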