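import Mathlib
import Cfsg.Statements.S0707
import Cfsg.Agent.Lib.Perm.Basic

set_option autoImplicit false
open Cfsg

namespace Cfsg.Agent.S0707

open MulAction

/-- In a primitive permutation group, distinct points have distinct stabilisers unless the group is regular of prime degree. -/
theorem result {α : Type*} (G : Subgroup (Equiv.Perm α)) [MulAction.IsPreprimitive G α] (h : ¬ (Nat.card α).Prime ∨ ∃ a : α, MulAction.stabilizer G a ≠ ⊥) {a b : α} (hab : a ≠ b) : MulAction.stabilizer G a ≠ MulAction.stabilizer G b := by
  intro heq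
  haveI : Nontrivial α := ⟨a, b, hab⟩
  have hB : IsBlock G {x : α | stabilizer G x = stabilizer G a} := by
    rw [isBlock_iff_smul_eq_of_mem]
    intro g x hx hgx
    have hx' : stabilizer G x = stabilizer G a := hx
    have hgx' : stabilizer G (g • x) = stabilizer G a := hgx
    ext y
    rw [Set.mem_smul_set_iff_inv_smul_mem]
    show stabilizer G (g⁻¹ • y) = stabilizer G a ↔ stabilizer G y = stabilizer G a
    constructor
    · intro hy
      rw [← hgx', ← smul_inv_smul g y, stabilizer_smul_eq_stabilizer_map_conj, hy,
        stabilizer_smul_eq_stabilizer_map_conj, hx']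
    · intro hy
      rw [← hx', ← inv_smul_smul g x, stabilizer_smul_eq_stabilizer_map_conj, hy,
        stabilizer_smul_eq_stabilizer_map_conj, hgx']
  have huniv : {x : α | stabilizer G x = stabilizer G a} = Set.univ := by
    rcases IsPreprimitive.isTrivialBlock_of_isBlock hB with h1 | h1
    · exact absurd (h1 (x := a) rfl (y := b) heq.symm) hab
    · exact h1
  have hall : ∀ x, stabilizer G x = stabilizer G a := fun x => by
    have : x ∈ {x : α | stabilizer G x = stabilizer G a} := by rw [huniv]; trivial
    exact this
  have hbot : ∀ x : α, stabilizer G x = ⊥ := by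
    intro x
    rw [eq_bot_iff]
    intro g hg
    rw [Subgroup.mem_bot]
    ext y
    rw [hall x, ← hall y] at hg
    exact hg
  rcases h with h | ⟨x, hx⟩
  · apply h
    have hco := IsPreprimitive.isCoatom_stabilizer_of_isPreprimitive G a
    rw [hbot] at hco
    have hsub : ∀ K : Subgroup G, K = ⊥ ∨ K = ⊤ := fun K => by
      rcases eq_or_ne K ⊥ with h1 | h1
      · exact Or.inl h1
      · exact Or.inr (hco.2 K (bot_lt_iff_ne_bot.mpr h1))
    haveI : Nontrivial G := by
      rw [← Subgroup.nontrivial_iff]
      exact ⟨⊥, ⊤, hco.1⟩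
    haveI : IsCyclic G := by
      obtain ⟨g, hg⟩ := exists_ne (1 : G)
      refine ⟨g, fun x => ?_⟩
      rcases hsub (Subgroup.zpowers g) with h1 | h1
      · exact absurd (Subgroup.zpowers_eq_bot.mp h1) hg
      · have : x ∈ Subgroup.zpowers g := by rw [h1]; trivial
        exact this
    haveI : IsSimpleGroup G := ⟨fun K _ => hsub K⟩
    rw [← H26.card_eq_of_regular (hbot a)]
    exact Group.is_simple_iff_prime_card.mp inferInstance
  · exact hx (hbot x)

end Cfsg.Agent.S0707
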