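import Mathlib
import Cfsg.Statements.S0708
import Cfsg.Agent.Lib.Perm.Basic

set_option autoImplicit false
open Cfsg

namespace Cfsg.Agent.S0708

open MulAction

section
variable {G : Type*} [Group G] {Ω : Type*} [MulAction G Ω]

theorem fix_cover (un : ∀ (g : G) (a b c d : Ω), a ≠ b → a ≠ c → a ≠ d → b ≠ c → b ≠ d → c ≠ d →
      g • a = a → g • b = b → g • c = c → g • d = d → g = 1) (g : G) (hg : g ≠ 1) :
    ∃ C : Finset Ω, C.card ≤ 3 ∧ ∀ x, g • x = x → x ∈ C := by
  classical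
  by_contra hcon
  push Not at hcon
  obtain ⟨a, ha, -⟩ := hcon ∅ (by simp)
  obtain ⟨b, hb, hb'⟩ := hcon {a} (by simp)
  obtain ⟨c, hc, hc'⟩ := hcon {a, b} (Finset.card_le_two.trans (by norm_num))
  obtain ⟨d, hd, hd'⟩ := hcon {a, b, c} Finset.card_le_three
  simp only [Finset.mem_insert, Finset.mem_singleton, not_or] at hb' hc' hd'
  exact hg (un g a b c d (Ne.symm hb') (Ne.symm hc'.1) (Ne.symm hd'.1) (Ne.symm hc'.2)
    (Ne.symm hd'.2.1) (Ne.symm hd'.2.2) ha hb hc hd)

theorem eq_of_four (un : ∀ (g : G) (a b c d : Ω), a ≠ b → a ≠ c → a ≠ d → b ≠ c → b ≠ d → c ≠ d →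
      g • a = a → g • b = b → g • c = c → g • d = d → g = 1) {a b c d : Ω} (hab : a ≠ b)
    (hac : a ≠ c) (had : a ≠ d) (hbc : b ≠ c) (hbd : b ≠ d) (hcd : c ≠ d) {g k : G}
    (h1 : g • a = k • a) (h2 : g • b = k • b) (h3 : g • c = k • c) (h4 : g • d = k • d) :
    g = k := by
  have := un (k⁻¹ * g) a b c d hab hac had hbc hbd hcd (by rw [mul_smul, h1, inv_smul_smul])
    (by rw [mul_smul, h2, inv_smul_smul]) (by rw [mul_smul, h3, inv_smul_smul])
    (by rw [mul_smul, h4, inv_smul_smul])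
  rw [inv_mul_eq_one] at this
  exact this.symm

/-- A fixed point of `a` other than `p`, `q` is fixed by everything commuting with `a` and
preserving `{p, q}`. -/
theorem third_fixed (un : ∀ (g : G) (a b c d : Ω), a ≠ b → a ≠ c → a ≠ d → b ≠ c → b ≠ d → c ≠ d →
      g • a = a → g • b = b → g • c = c → g • d = d → g = 1) {a b : G} (ha : a ≠ 1)
    (hab : a * b = b * a) {p q x : Ω} (hpq : p ≠ q) (hp : a • p = p) (hq : a • q = q)
    (hbp : b • p = q) (hbq : b • q = p) (hx : a • x = x) (hxp : x ≠ p) (hxq : x ≠ q) :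
    b • x = x := by
  by_contra h
  refine ha (un a p q x (b • x) hpq hxp.symm ?_ hxq.symm ?_ (Ne.symm h) hp hq hx ?_)
  · rw [← hbq]
    exact fun h' => hxq (smul_left_cancel b h').symm
  · rw [← hbp]
    exact fun h' => hxp (smul_left_cancel b h').symm
  · rw [← mul_smul, hab, mul_smul, hx]

theorem exists_transp (h4 : IsMultiplyPretransitive G Ω 4)
    (un : ∀ (g : G) (a b c d : Ω), a ≠ b → a ≠ c → a ≠ d → b ≠ c → b ≠ d → c ≠ d →
      g • a = a → g • b = b → g • c = c → g • d = d → g = 1) {a b : G} (ha : a * a = 1)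
    (hb : b * b = 1) (hab : a * b = b * a) {x : Ω} (hxa : a • x ≠ x) (hxb : b • x ≠ x)
    (hxc : a • b • x ≠ x) : ∃ t : G, t ≠ 1 ∧ t * t = 1 ∧ t * a = a * t ∧ t * b = a * b * t ∧
      t • x = x ∧ t • a • x = a • x ∧ t • b • x = a • b • x ∧ t • a • b • x = b • x := by
  have haa : ∀ y : Ω, a • a • y = y := fun y => by rw [← mul_smul, ha, one_smul]
  have hbb : ∀ y : Ω, b • b • y = y := fun y => by rw [← mul_smul, hb, one_smul]
  have hba : ∀ y : Ω, b • a • y = a • b • y := fun y => by rw [← mul_smul, ← hab, mul_smul]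
  have h12 : x ≠ a • x := hxa.symm
  have h13 : x ≠ b • x := hxb.symm
  have h14 : x ≠ a • b • x := hxc.symm
  have h23 : a • x ≠ b • x := fun h => hxc (by rw [← h, haa])
  have h24 : a • x ≠ a • b • x := fun h => h13 (smul_left_cancel a h)
  have h34 : b • x ≠ a • b • x := fun h => h12 (smul_left_cancel b (by rw [hba]; exact h))
  obtain ⟨t, t1, t2, t3, t4⟩ := H26.trans4 h4 h12 h13 h14 h23 h24 h34 h12 h14 h13 h24 h23 h34.symm
  refine ⟨t, fun h => h34 (by rw [← t3, h, one_smul]), ?_, ?_, ?_, t1, t2, t3, t4⟩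
  · apply eq_of_four un h12 h13 h14 h23 h24 h34 <;> simp only [mul_smul, one_smul, t1, t2, t3, t4]
  · apply eq_of_four un h12 h13 h14 h23 h24 h34 <;>
      simp only [mul_smul, t1, t2, t3, t4, haa]
  · apply eq_of_four un h12 h13 h14 h23 h24 h34 <;>
      simp only [mul_smul, t1, t2, t3, t4, haa, hbb, hba]

theorem exists_cover (h4 : IsMultiplyPretransitive G Ω 4)
    (un : ∀ (g : G) (a b c d : Ω), a ≠ b → a ≠ c → a ≠ d → b ≠ c → b ≠ d → c ≠ d →
      g • a = a → g • b = b → g • c = c → g • d = d → g = 1) {p q r s : Ω} (hpq : p ≠ q)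
    (hpr : p ≠ r) (hps : p ≠ s) (hqr : q ≠ r) (hqs : q ≠ s) (hrs : r ≠ s) :
    ∃ S : Finset Ω, S.card ≤ 11 ∧ ∀ x, x ∈ S := by
  classical
  by_contra hcon
  push Not at hcon
  obtain ⟨a, a1, a2, a3, a4⟩ := H26.trans4 h4 hpq hpr hps hqr hqs hrs hpq hps hpr hqs hqr hrs.symm
  obtain ⟨b, b1, b2, b3, b4⟩ :=
    H26.trans4 h4 hpq hpr hps hqr hqs hrs hpq.symm hqr hqs hpr hps hrs
  have e4 := fun {g k : G} => eq_of_four un (g := g) (k := k) hpq hpr hps hqr hqs hrs
  have ha : a * a = 1 := by apply e4 <;> simp only [mul_smul, one_smul, a1, a2, a3, a4]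
  have hb : b * b = 1 := by apply e4 <;> simp only [mul_smul, one_smul, b1, b2, b3, b4]
  have hab : a * b = b * a := by
    apply e4 <;> simp only [mul_smul, a1, a2, a3, a4, b1, b2, b3, b4]
  have ha1 : a ≠ 1 := fun h => hrs (by rw [← a3, h, one_smul])
  have hb1 : b ≠ 1 := fun h => hpq (by rw [← b1, h, one_smul])
  have hc1 : a * b ≠ 1 := fun h => hpq (by rw [← a2, ← b1, ← mul_smul, h, one_smul])
  have haa : ∀ y : Ω, a • a • y = y := fun y => by rw [← mul_smul, ha, one_smul]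
  have hbb : ∀ y : Ω, b • b • y = y := fun y => by rw [← mul_smul, hb, one_smul]
  have hba : ∀ y : Ω, b • a • y = a • b • y := fun y => by rw [← mul_smul, ← hab, mul_smul]
  have hfa : ∀ x, a • x = x → x = p ∨ x = q ∨ b • x = x := fun x hx => by
    by_contra h
    push Not at h
    exact h.2.2 (third_fixed un ha1 hab hpq a1 a2 b1 b2 hx h.1 h.2.1)
  have hfb : ∀ x, b • x = x → x = r ∨ x = s ∨ a • x = x := fun x hx => by
    by_contra h
    push Not at h
    exact h.2.2 (third_fixed un hb1 hab.symm hrs b3 b4 a3 a4 hx h.1 h.2.1)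
  obtain ⟨C, hC, hCf⟩ := fix_cover un _ hc1
  have hF : ({p, q, r, s} ∪ C : Finset Ω).card ≤ 7 :=
    (Finset.card_union_le _ _).trans (by
      have : ({p, q, r, s} : Finset Ω).card ≤ 4 := Finset.card_le_four
      omega)
  have hreg : ∀ x, x ∉ ({p, q, r, s} ∪ C : Finset Ω) → a • x ≠ x ∧ b • x ≠ x ∧ a • b • x ≠ x := by
    intro x hx
    simp only [Finset.mem_union, Finset.mem_insert, Finset.mem_singleton, not_or] at hx
    refine ⟨fun h => ?_, fun h => ?_, fun h => hx.2 (hCf x (by rw [mul_smul, h]))⟩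
    · rcases hfa x h with h' | h' | h'
      exacts [hx.1.1 h', hx.1.2.1 h', hx.2 (hCf x (by rw [mul_smul, h', h]))]
    · rcases hfb x h with h' | h' | h'
      exacts [hx.1.2.2.1 h', hx.1.2.2.2 h', hx.2 (hCf x (by rw [mul_smul, h, h']))]
  obtain ⟨x, hx⟩ := hcon _ (hF.trans (by norm_num))
  obtain ⟨y, hy⟩ := hcon (({p, q, r, s} ∪ C) ∪ {x, a • x, b • x, a • b • x})
    ((Finset.card_union_le _ _).trans (by
      have : ({x, a • x, b • x, a • b • x} : Finset Ω).card ≤ 4 := Finset.card_le_four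
      omega))
  rw [Finset.mem_union, not_or] at hy
  obtain ⟨hy, hyx⟩ := hy
  simp only [Finset.mem_insert, Finset.mem_singleton, not_or] at hyx
  obtain ⟨hxa, hxb, hxc⟩ := hreg x hx
  obtain ⟨hya, hyb, hyc⟩ := hreg y hy
  obtain ⟨t, ht1, ht, hta, htb, t1, t2, -, -⟩ := exists_transp h4 un ha hb hab hxa hxb hxc
  obtain ⟨t', -, ht', hta', htb', t1', t2', t3', t4'⟩ := exists_transp h4 un ha hb hab hya hyb hyc
  have hua : (t * t') * a = a * (t * t') := by rw [mul_assoc, hta', ← mul_assoc, hta, mul_assoc]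
  have hub : (t * t') * b = b * (t * t') := by
    rw [mul_assoc, htb', ← mul_assoc, ← mul_assoc, hta, mul_assoc a, htb, ← mul_assoc,
      ← mul_assoc, ha, one_mul, mul_assoc]
  have htu : t = (t * t') * t' := by rw [mul_assoc, ht', mul_one]
  generalize t * t' = u at hua hub htu
  have hua' : ∀ z : Ω, a • u • z = u • a • z := fun z => by rw [← mul_smul, ← hua, mul_smul]
  have hub' : ∀ z : Ω, b • u • z = u • b • z := fun z => by rw [← mul_smul, ← hub, mul_smul]
  have hup : u • p = p ∨ u • p = q := by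
    rcases hfa (u • p) (by rw [hua', a1]) with h | h | h
    exacts [Or.inl h, Or.inr h, (hpq (smul_left_cancel u (by rw [← b1, ← hub', h]))).elim]
  have hur : u • r = r ∨ u • r = s := by
    rcases hfb (u • r) (by rw [hub', b3]) with h | h | h
    exacts [Or.inl h, Or.inr h, (hrs (smul_left_cancel u (by rw [← a3, ← hua', h]))).elim]
  have huq : u • q = b • u • p := by rw [hub', b1]
  have hus : u • s = a • u • r := by rw [hua', a3]
  have hbt : b * t' * (b * t') = a := by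
    rw [mul_assoc, ← mul_assoc t', htb', mul_assoc (a * b), ht', mul_one, hab, ← mul_assoc, hb,
      one_mul]
  rcases hup with hp | hp <;> rcases hur with hr | hr
  · have : u = 1 := by apply e4 <;> simp only [huq, hus, hp, hr, one_smul, b1, a3]
    rw [this, one_mul] at htu
    subst htu
    exact ht1 (un t x (a • x) y (a • y) hxa.symm (Ne.symm hyx.1)
      (fun h => hyx.2.1 (by rw [h, haa])) (Ne.symm hyx.2.1)
      (fun h => hyx.1 (smul_left_cancel a h).symm) hya.symm t1 t2 t1' t2')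
  · have : u = a := by apply e4 <;> simp only [huq, hus, hp, hr, b1, a1, a2, a3, a4]
    rw [this] at htu
    exact ht1 (un t x (a • x) (b • y) (a • b • y) hxa.symm
      (fun h => hyx.2.2.1 (by rw [h, hbb])) (fun h => hyx.2.2.2 (by rw [h, hba, haa, hbb]))
      (fun h => hyx.2.2.2 (by rw [← hba, h, hbb]))
      (fun h => hyx.2.2.1 (by rw [smul_left_cancel a h, hbb]))
      (fun h => hya (smul_left_cancel b (by rw [hba]; exact h.symm))) t1 t2
      (by rw [htu, mul_smul, t3', haa]) (by rw [htu, mul_smul, t4']))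
  · have : u = b := by apply e4 <;> simp only [huq, hus, hp, hr, b1, b2, b3, b4, a3]
    rw [this] at htu
    rw [htu, hbt] at ht
    exact ha1 ht
  · have : u = a * b := by
      apply e4 <;> simp only [huq, hus, hp, hr, mul_smul, b1, b2, b3, b4, a1, a2, a3, a4]
    rw [this] at htu
    rw [htu, mul_assoc a, mul_assoc a, ← mul_assoc (b * t'), mul_assoc b t' a, hta',
      ← mul_assoc b a, ← hab, mul_assoc a b, mul_assoc a, hbt, ← mul_assoc, ha, one_mul] at ht
    exact ha1 ht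

theorem not_prime_sub_three [Finite Ω] (h4 : IsMultiplyPretransitive G Ω 4)
    (un : ∀ (g : G) (a b c d : Ω), a ≠ b → a ≠ c → a ≠ d → b ≠ c → b ≠ d → c ≠ d →
      g • a = a → g • b = b → g • c = c → g • d = d → g = 1) {p q r s : Ω} (hpq : p ≠ q)
    (hpr : p ≠ r) (hps : p ≠ s) (hqr : q ≠ r) (hqs : q ≠ s) (hrs : r ≠ s) {l : ℕ} (hl : l.Prime)
    (hl5 : 5 ≤ l) (hcard : Nat.card Ω = l + 3) : False := by
  classical
  haveI := Fintype.ofFinite Ω
  haveI := Fact.mk hl
  let P : Subgroup G := stabilizer G p ⊓ stabilizer G q ⊓ stabilizer G r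
  have hne : ∀ g : P, (g : G) • s ∈ ({p, q, r} : Finset Ω)ᶜ := by
    rintro ⟨g, ⟨h1, h2⟩, h3⟩
    simp only [Finset.mem_compl, Finset.mem_insert, Finset.mem_singleton, not_or]
    exact ⟨fun h => hps (smul_left_cancel g (h1.trans h.symm)),
      fun h => hqs (smul_left_cancel g (h2.trans h.symm)),
      fun h => hrs (smul_left_cancel g (h3.trans h.symm))⟩
  have hinj : ∀ g k : P, (g : G) • s = (k : G) • s → g = k := fun g k h =>
    Subtype.ext (eq_of_four un hpq hpr hps hqr hqs hrs (g.2.1.1.trans k.2.1.1.symm)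
      (g.2.1.2.trans k.2.1.2.symm) (g.2.2.trans k.2.2.symm) h)
  have hP : Nat.card P = l := by
    rw [Nat.card_congr (Equiv.ofBijective (fun g : P => (⟨(g : G) • s, hne g⟩ :
      (({p, q, r} : Finset Ω)ᶜ : Finset Ω))) ⟨fun g k h => hinj g k (congrArg Subtype.val h), ?_⟩)]
    · rw [Nat.card_eq_fintype_card, Fintype.card_coe, Finset.card_compl, ← Nat.card_eq_fintype_card,
        hcard, Finset.card_eq_three.2 ⟨p, q, r, hpq, hpr, hqr, rfl⟩]
      rfl
    · rintro ⟨z, hz⟩
      simp only [Finset.mem_compl, Finset.mem_insert, Finset.mem_singleton, not_or] at hz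
      obtain ⟨g, g1, g2, g3, g4⟩ := H26.trans4 h4 hpq hpr hps hqr hqs hrs hpq hpr (Ne.symm hz.1) hqr
        (Ne.symm hz.2.1) (Ne.symm hz.2.2)
      exact ⟨⟨g, ⟨g1, g2⟩, g3⟩, Subtype.ext g4⟩
  haveI : IsCyclic P := isCyclic_of_prime_card hP
  obtain ⟨g, hg⟩ := IsCyclic.exists_generator (α := P)
  have hog : orderOf g = l := by rw [orderOf_eq_card_of_forall_mem_zpowers hg, hP]
  obtain ⟨x, x1, x2, x3, x4⟩ := H26.trans4 h4 hpq hpr hps hqr hqs hrs hpq.symm hqr hqs hpr hps hrs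
  obtain ⟨y, y1, y2, y3, y4⟩ :=
    H26.trans4 h4 hpq hpr hps hqr hqs hrs hpr hpq hps hqr.symm hrs hqs
  have g1 : (g : G) • p = p := g.2.1.1
  have g2 : (g : G) • q = q := g.2.1.2
  have g3 : (g : G) • r = r := g.2.2
  obtain ⟨i, hi⟩ := hg ⟨x⁻¹ * g * x, ⟨by
      show (x⁻¹ * g * x) • p = p
      rw [mul_smul, mul_smul, x1, g2, inv_smul_eq_iff, x1], by
      show (x⁻¹ * g * x) • q = q
      rw [mul_smul, mul_smul, x2, g1, inv_smul_eq_iff, x2]⟩, by
      show (x⁻¹ * g * x) • r = r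
      rw [mul_smul, mul_smul, x3, g3, inv_smul_eq_iff, x3]⟩
  obtain ⟨j, hj⟩ := hg ⟨y⁻¹ * g * y, ⟨by
      show (y⁻¹ * g * y) • p = p
      rw [mul_smul, mul_smul, y1, g1, inv_smul_eq_iff, y1], by
      show (y⁻¹ * g * y) • q = q
      rw [mul_smul, mul_smul, y2, g3, inv_smul_eq_iff, y2]⟩, by
      show (y⁻¹ * g * y) • r = r
      rw [mul_smul, mul_smul, y3, g2, inv_smul_eq_iff, y3]⟩
  have hi' : (g : G) ^ i = x⁻¹ * g * x := by simpa using congrArg Subtype.val hi
  have hj' : (g : G) ^ j = y⁻¹ * g * y := by simpa using congrArg Subtype.val hj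
  have hxy : (x * y)⁻¹ * g * (x * y) = (y * x)⁻¹ * g * (y * x) := by
    have e1 : (x * y)⁻¹ * g * (x * y) = (y⁻¹ * g * y⁻¹⁻¹) ^ i := by
      rw [conj_zpow, hi']
      group
    have e2 : (y * x)⁻¹ * g * (y * x) = (x⁻¹ * g * x⁻¹⁻¹) ^ j := by
      rw [conj_zpow, hj']
      group
    rw [e1, e2, inv_inv, inv_inv, ← hi', ← hj', ← zpow_mul, ← zpow_mul, mul_comm]
  have hc : Commute (x * y * (y * x)⁻¹) (g : G) := by
    show x * y * (y * x)⁻¹ * g = g * (x * y * (y * x)⁻¹)
    calc x * y * (y * x)⁻¹ * g = x * y * ((y * x)⁻¹ * g * (y * x)) * (y * x)⁻¹ := by group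
      _ = g * (x * y * (y * x)⁻¹) := by rw [← hxy]; group
  have hfix : ∀ n : ℕ, (x * y * (y * x)⁻¹) • ((g ^ n : P) : G) • s = ((g ^ n : P) : G) • s := by
    intro n
    rw [← mul_smul, Subgroup.coe_pow, (hc.pow_right n).eq, mul_smul]
    congr 1
    rw [mul_smul, smul_eq_iff_eq_inv_smul, inv_smul_eq_iff.2, inv_smul_eq_iff.2]
    · rw [mul_smul, y4, x4]
    · rw [mul_smul, x4, y4]
  have hd : ∀ m n : ℕ, m < l → n < l → m ≠ n → ((g ^ m : P) : G) • s ≠ ((g ^ n : P) : G) • s :=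
    fun m n hm hn hmn h => hmn (pow_injOn_Iio_orderOf (by simpa [hog] using hm)
      (by simpa [hog] using hn) (hinj _ _ h))
  have h1 := un _ _ _ _ _ (hd 0 1 (by omega) (by omega) (by omega))
    (hd 0 2 (by omega) (by omega) (by omega)) (hd 0 3 (by omega) (by omega) (by omega))
    (hd 1 2 (by omega) (by omega) (by omega)) (hd 1 3 (by omega) (by omega) (by omega))
    (hd 2 3 (by omega) (by omega) (by omega)) (hfix 0) (hfix 1) (hfix 2) (hfix 3)
  rw [mul_inv_eq_one] at h1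
  have h2 : (x * y) • p = (y * x) • p := by rw [h1]
  rw [mul_smul, mul_smul, y1, x1, y2] at h2
  exact hqr h2

end

/-- Tits' argument: a sharply 4-transitive group (no finiteness assumed) has finite degree at most 11, and at most 6 when the degree is even. -/
theorem result {G : Type*} [Group G] {Ω : Type*} [MulAction G Ω] (h4 : MulAction.IsMultiplyPretransitive G Ω 4) (hsharp : ∀ x : Fin 4 ↪ Ω, MulAction.stabilizer G x = ⊥) (hne : Nonempty (Fin 4 ↪ Ω)) : Finite Ω ∧ Nat.card Ω ≤ 11 ∧ (Even (Nat.card Ω) → Nat.card Ω ≤ 6) := by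
  obtain ⟨x⟩ := hne
  have un := H26.sharp4_iff.1 hsharp
  have hd : ∀ i j : Fin 4, i ≠ j → x i ≠ x j := fun i j h h' => h (x.injective h')
  obtain ⟨S, hS, hS'⟩ := exists_cover h4 un (hd 0 1 (by decide)) (hd 0 2 (by decide))
    (hd 0 3 (by decide)) (hd 1 2 (by decide)) (hd 1 3 (by decide)) (hd 2 3 (by decide))
  haveI : Fintype Ω := ⟨S, hS'⟩
  have hle : Nat.card Ω ≤ 11 := by
    rw [Nat.card_eq_fintype_card]
    exact (Finset.card_le_card (fun y _ => hS' y)).trans hS
  refine ⟨inferInstance, hle, fun he => ?_⟩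
  have key := fun l => not_prime_sub_three h4 un (hd 0 1 (by decide)) (hd 0 2 (by decide))
    (hd 0 3 (by decide)) (hd 1 2 (by decide)) (hd 1 3 (by decide)) (hd 2 3 (by decide)) (l := l)
  have h8 : Nat.card Ω ≠ 8 := key 5 (by norm_num) (by norm_num)
  have h10 : Nat.card Ω ≠ 10 := key 7 (by norm_num) (by norm_num)
  obtain ⟨k, hk⟩ := he
  omega
end Cfsg.Agent.S0708
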