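import Mathlib
import Cfsg.Statements.S0709


set_option autoImplicit false
open Cfsg

namespace Cfsg.Agent.S0709


/-- Witt's Lemma for constructing transitive extensions. Points `q 1, …, q t` (`t ≥ 2`) of a finite set are given; `G` fixes `q i` for `i ≥ 3` and is doubly transitive on the remaining points; `s 1 ∈ G` swaps `q 1, q 2`; for `2 ≤ i ≤ t-1`, `s i` swaps `q i, q (i+1)` and fixes the other `q j`; with `H` the stabiliser of `q 1, q 2` in `G`: `s i ^ 2 ∈ H`, `(s i * s (i+1)) ^ 3 ∈ H`, `(s i * s j) ^ 2 ∈ H` for `j ≥ i + 2`, and `s i` (`i ≥ 2`) normalises the stabiliser of `q 2` in `G`. Then `G` and the `s i` generate a `t`-transitive group whose pointwise stabiliser of the `q`'s is `H`. -/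
theorem result {α : Type*} [Fintype α] [DecidableEq α] (t : ℕ) (ht : 2 ≤ t) (q : ℕ → α) (hq : ∀ i j : ℕ, 1 ≤ i → i ≤ t → 1 ≤ j → j ≤ t → q i = q j → i = j) (G : Subgroup (Equiv.Perm α)) (hfix : ∀ g ∈ G, ∀ i : ℕ, 3 ≤ i → i ≤ t → g (q i) = q i) (h2 : ∀ a b c d : α, (∀ i, 3 ≤ i → i ≤ t → a ≠ q i ∧ b ≠ q i ∧ c ≠ q i ∧ d ≠ q i) → a ≠ b → c ≠ d → ∃ g ∈ G, g a = c ∧ g b = d) (s : ℕ → Equiv.Perm α) (hs1 : s 1 ∈ G) (hs1q : s 1 (q 1) = q 2 ∧ s 1 (q 2) = q 1) (hsq : ∀ i : ℕ, 2 ≤ i → i + 1 ≤ t → s i (q i) = q (i + 1) ∧ s i (q (i + 1)) = q i ∧ ∀ j : ℕ, 1 ≤ j → j ≤ t → j ≠ i → j ≠ i + 1 → s i (q j) = q j) (H : Subgroup (Equiv.Perm α)) (hH : H = G ⊓ MulAction.stabilizer (Equiv.Perm α) (q 1) ⊓ MulAction.stabilizer (Equiv.Perm α) (q 2)) (hsq2 : ∀ i : ℕ, 1 ≤ i → i + 1 ≤ t → s i ^ 2 ∈ H) (hbraid : ∀ i : ℕ, 1 ≤ i → i + 2 ≤ t → (s i * s (i + 1)) ^ 3 ∈ H) (hcomm : ∀ i j : ℕ, 1 ≤ i → i + 2 ≤ j → j + 1 ≤ t → (s i * s j) ^ 2 ∈ H ∧ (s j * s i) ^ 2 ∈ H) (hnorm :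 ∀ i : ℕ, 2 ≤ i → i + 1 ≤ t → ∀ g ∈ G ⊓ MulAction.stabilizer (Equiv.Perm α) (q 2), s i * g * (s i)⁻¹ ∈ G ⊓ MulAction.stabilizer (Equiv.Perm α) (q 2)) : MulAction.IsMultiplyPretransitive ↥(Subgroup.closure ((G : Set (Equiv.Perm α)) ∪ {x | ∃ i : ℕ, 2 ≤ i ∧ i + 1 ≤ t ∧ x = s i})) α t ∧ Subgroup.closure ((G : Set (Equiv.Perm α)) ∪ {x | ∃ i : ℕ, 2 ≤ i ∧ i + 1 ≤ t ∧ x = s i}) ⊓ fixingSubgroup (Equiv.Perm α) {x | ∃ i : ℕ, 1 ≤ i ∧ i ≤ t ∧ x = q i} = H := by
  classical
  set G1 := G ⊓ MulAction.stabilizer (Equiv.Perm α) (q 2) with hG1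
  let K : ℕ → Subgroup (Equiv.Perm α) := fun j =>
    Subgroup.closure ((G1 : Set (Equiv.Perm α)) ∪ {x | ∃ i, 1 ≤ i ∧ i < j ∧ x = s i})
  have hKG1 : ∀ j, G1 ≤ K j := fun j x hx => Subgroup.subset_closure (Or.inl hx)
  have hKs : ∀ j i, 1 ≤ i → i < j → s i ∈ K j := fun j i h1 h2 =>
    Subgroup.subset_closure (Or.inr ⟨i, h1, h2, rfl⟩)
  have hKmono : ∀ j k, j ≤ k → K j ≤ K k := fun j k hjk => Subgroup.closure_mono (by
    rintro x (hx | ⟨i, h1, h2, rfl⟩)
    · exact Or.inl hx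
    · exact Or.inr ⟨i, h1, by omega, rfl⟩)
  have hHG1 : H ≤ G1 := by
    rw [hH]
    exact fun x hx => ⟨hx.1.1, hx.2⟩
  have hHK : ∀ j, H ≤ K j := fun j => hHG1.trans (hKG1 j)
  have hK1 : K 1 = G1 := le_antisymm ((Subgroup.closure_le _).2 (by
    rintro x (hx | ⟨i, h1, h2, rfl⟩)
    · exact hx
    · omega)) (hKG1 1)
  have hsfix : ∀ i k, 1 ≤ i → i + 1 < k → k ≤ t → s i (q k) = q k := by
    intro i k h1 h2 h3
    rcases Nat.eq_or_lt_of_le h1 with rfl | h1'
    · exact hfix _ hs1 k (by omega) h3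
    · exact (hsq i h1' (by omega)).2.2 k (by omega) h3 (by omega) (by omega)
  have hsw : ∀ i, 1 ≤ i → i + 1 ≤ t → s i (q i) = q (i + 1) ∧ s i (q (i + 1)) = q i := by
    intro i h1 h2
    rcases Nat.eq_or_lt_of_le h1 with rfl | h1'
    · exact hs1q
    · exact ⟨(hsq i h1' h2).1, (hsq i h1' h2).2.1⟩
  have hKfix : ∀ j k, 1 ≤ j → j < k → k ≤ t → ∀ g ∈ K j, g (q k) = q k := by
    intro j k h1 h2 h3 g hg
    have : K j ≤ MulAction.stabilizer (Equiv.Perm α) (q k) := (Subgroup.closure_le _).2 (by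
      rintro x (hx | ⟨i, h4, h5, rfl⟩)
      · rcases Nat.eq_or_lt_of_le (show 2 ≤ k by omega) with rfl | h6
        · exact hx.2
        · exact hfix x hx.1 k h6 h3
      · exact hsfix i k h4 (by omega) h3)
    exact this hg
  -- transitivity of `K j`
  have hT : ∀ j, 1 ≤ j → j ≤ t → ∀ x, (∀ k, j < k → k ≤ t → x ≠ q k) → ∃ g ∈ K j, g x = q j := by
    intro j hj
    induction j, hj using Nat.le_induction with
    | base =>
      intro _ x hx
      obtain ⟨g, hg, h1, h2'⟩ := h2 x (q 2) (q 1) (q 2) (fun i h3 h4 =>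
        ⟨hx i (by omega) h4, fun h => by have := hq _ _ (by omega) ht (by omega) h4 h; omega,
          fun h => by have := hq _ _ (by omega) (by omega) (by omega) h4 h; omega,
          fun h => by have := hq _ _ (by omega) ht (by omega) h4 h; omega⟩)
        (hx 2 (by omega) ht) (fun h => by have := hq _ _ (by omega) (by omega) (by omega) ht h; omega)
      exact ⟨g, hKG1 1 ⟨hg, h2'⟩, h1⟩
    | succ j hj ih =>
      intro hjt x hx
      by_cases hxq : x = q (j + 1)
      · exact ⟨1, one_mem _, hxq⟩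
      · obtain ⟨g, hg, hgx⟩ := ih (by omega) x (fun k h1 h2 => by
          rcases Nat.eq_or_lt_of_le (show j + 1 ≤ k from h1) with rfl | h3
          · exact hxq
          · exact hx k h3 h2)
        exact ⟨s j * g, mul_mem (hKs _ _ hj (by omega)) (hKmono _ _ (by omega) hg), by
          rw [Equiv.Perm.mul_apply, hgx, (hsw j hj hjt).1]⟩
  have hG2 : ∀ g ∈ G, g ∈ K 1 ∨ ∃ a ∈ K 1, ∃ b ∈ K 1, g = a * s 1 * b := by
    intro g hg
    by_cases h : g (q 2) = q 2
    · exact Or.inl (hKG1 1 ⟨hg, h⟩)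
    · obtain ⟨a, ha, hax⟩ := hT 1 le_rfl (by omega) (g (q 2)) (fun k h1 h3 => by
        rcases Nat.eq_or_lt_of_le (show 2 ≤ k from h1) with rfl | h4
        · exact h
        · intro h5
          rw [← hfix g hg k h4 h3] at h5
          have := hq _ _ (by omega) ht (by omega) h3 (g.injective h5)
          omega)
      have hb : s 1 * a * g ∈ K 1 := hKG1 1 ⟨mul_mem (mul_mem hs1 (hK1 ▸ ha : a ∈ G1).1) hg, by
        show s 1 (a (g (q 2))) = q 2
        rw [hax, hs1q.1]⟩
      refine Or.inr ⟨a⁻¹ * (s 1 ^ 2)⁻¹, mul_mem (inv_mem ha) (inv_mem (hHK 1 (hsq2 1 le_rfl ht))),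
        _, hb, by group⟩
  have hnK : ∀ j, 1 ≤ j → j + 2 ≤ t → ∀ a ∈ K j, s (j + 1) * a * (s (j + 1))⁻¹ ∈ K j := by
    intro j h1 h3 a ha
    induction ha using Subgroup.closure_induction with
    | mem x hx =>
      rcases hx with hx | ⟨i, h4, h5, rfl⟩
      · exact hKG1 j (hnorm (j + 1) (by omega) (by omega) x hx)
      · have h6 := hHK j (hcomm i (j + 1) h4 (by omega) (by omega)).2
        have h7 := hHK j (hsq2 (j + 1) (by omega) (by omega))
        have h8 := mul_mem (mul_mem h6 (inv_mem (hKs j i h4 h5))) (inv_mem h7)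
        convert h8 using 1
        simp only [pow_two]
        group
    | one => simpa using one_mem _
    | mul x y _ _ hx hy =>
      convert mul_mem hx hy using 1
      group
    | inv x _ hx =>
      convert inv_mem hx using 1
      group
  have hD : ∀ j, 1 ≤ j → j + 1 ≤ t → ∀ g ∈ K (j + 1),
      g ∈ K j ∨ ∃ a ∈ K j, ∃ b ∈ K j, g = a * s j * b := by
    intro j hj
    induction j, hj using Nat.le_induction with
    | base =>
      intro _ g hg
      apply hG2
      have : K 2 ≤ G := (Subgroup.closure_le _).2 (by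
        rintro x (hx | ⟨i, h1, h2, rfl⟩)
        · exact hx.1
        · obtain rfl : i = 1 := by omega
          exact hs1)
      exact this hg
    | succ j hj ih =>
      intro hjt g hg
      have hs2 : s (j + 1) ^ 2 ∈ K j := hHK j (hsq2 (j + 1) (by omega) hjt)
      have hle : K j ≤ K (j + 1) := hKmono _ _ (by omega)
      have hl : ∀ x ∈ K (j + 1), ∀ y, (y ∈ K (j + 1) ∨ ∃ a ∈ K (j + 1), ∃ b ∈ K (j + 1),
          y = a * s (j + 1) * b) → (x * y ∈ K (j + 1) ∨ ∃ a ∈ K (j + 1), ∃ b ∈ K (j + 1),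
          x * y = a * s (j + 1) * b) := by
        rintro x hx y (hy | ⟨a, ha, b, hb, rfl⟩)
        · exact Or.inl (mul_mem hx hy)
        · exact Or.inr ⟨x * a, mul_mem hx ha, b, hb, by group⟩
      have hs : ∀ y, (y ∈ K (j + 1) ∨ ∃ a ∈ K (j + 1), ∃ b ∈ K (j + 1),
          y = a * s (j + 1) * b) → (s (j + 1) * y ∈ K (j + 1) ∨ ∃ a ∈ K (j + 1), ∃ b ∈ K (j + 1),
          s (j + 1) * y = a * s (j + 1) * b) := by
        rintro y (hy | ⟨a, ha, b, hb, rfl⟩)
        · exact Or.inr ⟨1, one_mem _, y, hy, by group⟩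
        · rcases ih (by omega) a ha with ha' | ⟨a1, ha1, a2, ha2, rfl⟩
          · left
            convert mul_mem (mul_mem (hle (hnK j hj hjt a ha')) (hle hs2)) hb using 1
            simp only [pow_two]
            group
          · right
            have hr : s j ∈ K (j + 1) := hKs _ _ hj (by omega)
            have hbr := hHK (j + 1) (hbraid j hj hjt)
            refine ⟨s (j + 1) * a1 * (s (j + 1))⁻¹ * (s j)⁻¹ * (s (j + 1) ^ 2)⁻¹,
              mul_mem (mul_mem (hle (hnK j hj hjt a1 ha1)) (inv_mem hr)) (inv_mem (hle hs2)),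
              (s j)⁻¹ * (s j * s (j + 1)) ^ 3 * ((s (j + 1) ^ 2)⁻¹ *
                (s (j + 1) * a2 * (s (j + 1))⁻¹) * s (j + 1) ^ 2) * b,
              mul_mem (mul_mem (mul_mem (inv_mem hr) hbr) (mul_mem (mul_mem (inv_mem (hle hs2))
                (hle (hnK j hj hjt a2 ha2))) (hle hs2))) hb, ?_⟩
            simp only [pow_succ, pow_zero]
            group
      have hgen : ∀ x ∈ ((G1 : Set (Equiv.Perm α)) ∪ {x | ∃ i, 1 ≤ i ∧ i < j + 1 + 1 ∧ x = s i}),
          x ∈ K (j + 1) ∨ x = s (j + 1) := by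
        rintro x (hx | ⟨i, h1, h2, rfl⟩)
        · exact Or.inl (hKG1 _ hx)
        · rcases Nat.eq_or_lt_of_le (show i ≤ j + 1 by omega) with rfl | h3
          · exact Or.inr rfl
          · exact Or.inl (hKs _ _ h1 h3)
      induction hg using Subgroup.closure_induction_left with
      | one => exact Or.inl (one_mem _)
      | mul_left x hx y _ hy =>
        rcases hgen x hx with h | rfl
        · exact hl x h y hy
        · exact hs y hy
      | inv_mul_cancel x hx y _ hy =>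
        rcases hgen x hx with h | rfl
        · exact hl _ (inv_mem h) y hy
        · convert hl _ (inv_mem (hle hs2)) _ (hs y hy) using 2 <;> simp only [pow_two] <;> group
  have hstab : ∀ j, 1 ≤ j → j ≤ t → ∀ g ∈ K j, (∀ i, 1 ≤ i → i ≤ t → g (q i) = q i) → g ∈ K 1 := by
    intro j hj
    induction j, hj using Nat.le_induction with
    | base => exact fun _ g hg _ => hg
    | succ j hj ih =>
      intro hjt g hg hgq
      rcases hD j hj hjt g hg with h | ⟨a, ha, b, hb, rfl⟩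
      · exact ih (by omega) g h hgq
      · have h1 := hgq (j + 1) (by omega) hjt
        rw [Equiv.Perm.mul_apply, Equiv.Perm.mul_apply, hKfix j (j + 1) hj (by omega) hjt b hb,
          (hsw j hj hjt).2, ← hKfix j (j + 1) hj (by omega) hjt a ha] at h1
        have := hq _ _ hj (by omega) (by omega) hjt (a.injective h1)
        omega
  have hM : ∀ j, 1 ≤ j → j ≤ t → ∀ x : ℕ → α, (∀ i k, 1 ≤ i → i ≤ j → 1 ≤ k → k ≤ j → x i = x k → i = k) →
      (∀ i k, 1 ≤ i → i ≤ j → j < k → k ≤ t → x i ≠ q k) →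
      ∃ g ∈ K j, ∀ i, 1 ≤ i → i ≤ j → g (x i) = q i := by
    intro j hj
    induction j, hj using Nat.le_induction with
    | base =>
      intro h1 x _ hx
      obtain ⟨g, hg, hgx⟩ := hT 1 le_rfl h1 (x 1) (fun k => hx 1 k le_rfl le_rfl)
      exact ⟨g, hg, fun i h2 h3 => by obtain rfl : i = 1 := (by omega); exact hgx⟩
    | succ j hj ih =>
      intro hjt x hxi hx
      obtain ⟨g, hg, hgx⟩ := hT (j + 1) (by omega) hjt (x (j + 1))
        (fun k => hx (j + 1) k (by omega) le_rfl)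
      obtain ⟨g', hg', hgx'⟩ := ih (by omega) (fun i => g (x i))
        (fun i k h1 h2 h3 h4 h5 => hxi i k h1 (by omega) h3 (by omega) (g.injective h5))
        (fun i k h1 h2 h3 h4 h5 => by
          rcases Nat.eq_or_lt_of_le (show j + 1 ≤ k from h3) with rfl | h6
          · rw [← hgx] at h5
            have := hxi _ _ h1 (by omega) (by omega) le_rfl (g.injective h5)
            omega
          · rw [← hKfix (j + 1) k (by omega) h6 h4 g hg] at h5
            exact hx i k h1 (by omega) h6 h4 (g.injective h5))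
      refine ⟨g' * g, mul_mem (hKmono _ _ (by omega) hg') hg, fun i h1 h2 => ?_⟩
      rcases Nat.eq_or_lt_of_le h2 with rfl | h3
      · rw [Equiv.Perm.mul_apply, hgx, hKfix j (j + 1) hj (by omega) hjt g' hg']
      · exact hgx' i h1 (by omega)
  have hKt : Subgroup.closure ((G : Set (Equiv.Perm α)) ∪
      {x | ∃ i : ℕ, 2 ≤ i ∧ i + 1 ≤ t ∧ x = s i}) = K t := by
    apply le_antisymm
    · refine (Subgroup.closure_le _).2 ?_
      rintro x (hx | ⟨i, h1, h2, rfl⟩)
      · have hle := hKmono 1 t (by omega)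
        rcases hG2 x hx with h | ⟨a, ha, b, hb, rfl⟩
        · exact hle h
        · exact mul_mem (mul_mem (hle ha) (hKs t 1 le_rfl (by omega))) (hle hb)
      · exact hKs t i (by omega) (by omega)
    · refine (Subgroup.closure_le _).2 ?_
      rintro x (hx | ⟨i, h1, h2, rfl⟩)
      · exact Subgroup.subset_closure (Or.inl hx.1)
      · rcases Nat.eq_or_lt_of_le h1 with rfl | h3
        · exact Subgroup.subset_closure (Or.inl hs1)
        · exact Subgroup.subset_closure (Or.inr ⟨i, h3, by omega, rfl⟩)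
  rw [hKt]
  constructor
  · have key : ∀ x : Fin t ↪ α, ∃ g ∈ K t, ∀ i : Fin t, g (x i) = q (i + 1) := by
      intro x
      obtain ⟨g, hg, h⟩ := hM t (by omega) le_rfl
        (fun i => if h : i - 1 < t then x ⟨i - 1, h⟩ else q 0)
        (fun i k h1 h2 h3 h4 h5 => by
          simp only [show i - 1 < t by omega, show k - 1 < t by omega, dite_true] at h5
          have := congrArg Fin.val (x.injective h5)
          simp only at this
          omega) (fun i k _ _ h3 h4 => by omega)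
      refine ⟨g, hg, fun i => ?_⟩
      have := h (i + 1) (by omega) (by omega)
      simpa using this
    refine ⟨fun x y => ?_⟩
    obtain ⟨a, ha, hax⟩ := key x
    obtain ⟨b, hb, hby⟩ := key y
    refine ⟨⟨b⁻¹ * a, mul_mem (inv_mem hb) ha⟩, ?_⟩
    ext i
    show (b⁻¹ * a) (x i) = y i
    rw [Equiv.Perm.mul_apply, hax, ← hby]
    simp
  · apply le_antisymm
    · rintro g ⟨hg, hgq⟩
      have hgq' : ∀ i, 1 ≤ i → i ≤ t → g (q i) = q i := fun i h1 h2 =>
        (mem_fixingSubgroup_iff _).1 hgq (q i) ⟨i, h1, h2, rfl⟩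
      have h1 : g ∈ G1 := hK1 ▸ hstab t (by omega) le_rfl g hg hgq'
      rw [hH]
      exact ⟨⟨h1.1, hgq' 1 le_rfl (by omega)⟩, h1.2⟩
    · intro g hg
      refine ⟨hHK t hg, (mem_fixingSubgroup_iff _).2 ?_⟩
      rintro _ ⟨i, h1, h3, rfl⟩
      rcases Nat.eq_or_lt_of_le h1 with rfl | h4
      · rw [hH] at hg
        exact hg.1.2
      · exact hKfix 1 i le_rfl h4 h3 g (hHK 1 hg)
end Cfsg.Agent.S0709
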