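import Cfsg.Statements.S0710
import Mathlib

set_option autoImplicit false
open Cfsg

namespace Cfsg.Agent.S0710

open MulAction Equiv Equiv.Perm

/-- No transitive permutation group on 13 points has order `13 * 12 * 11 * 10 * 9 * 8`. -/
theorem result {α : Type*} [Fintype α] [DecidableEq α] (hα : Fintype.card α = 13) (G : Subgroup (Equiv.Perm α)) [MulAction.IsPretransitive G α] : Nat.card G ≠ 13 * 12 * 11 * 10 * 9 * 8 := by
  intro hG
  have hp : Fact (Nat.Prime 13) := ⟨by norm_num⟩
  obtain ⟨P⟩ : Nonempty (Sylow 13 G) := inferInstance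
  have hP : Nat.card P = 13 := by
    rw [P.card_eq_multiplicity, hG]
    have : (13 * 12 * 11 * 10 * 9 * 8 : ℕ).factorization 13 = 1 := by
      rw [show (13 * 12 * 11 * 10 * 9 * 8 : ℕ) = 13 * 95040 by norm_num,
        Nat.factorization_mul (by norm_num) (by norm_num)]
      simp [Nat.Prime.factorization_self hp.out, Nat.factorization_eq_zero_of_not_dvd]
    rw [this]; rfl
  have hcyc : IsCyclic P := isCyclic_of_prime_card hP
  obtain ⟨g, hg⟩ : ∃ g : P, orderOf g = 13 := by
    obtain ⟨g, hg⟩ := IsCyclic.exists_generator (α := P)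
    exact ⟨g, by rw [orderOf_eq_card_of_forall_mem_zpowers hg, hP]⟩
  have hg' : orderOf ((g : G) : Perm α) = 13 := by
    rw [Subgroup.orderOf_coe, Subgroup.orderOf_coe, hg]
  have hc : ((g : G) : Perm α).IsCycle :=
    isCycle_of_prime_order'' (by rw [hα]; norm_num) (by rw [hg', hα])
  have hct : ((g : G) : Perm α).cycleType = {13} := by
    rw [hc.cycleType, ← hc.orderOf, hg']
  have hC : Nat.card (Subgroup.centralizer {((g : G) : Perm α)}) = 13 := by
    rw [nat_card_centralizer, hct, hα]
    simp
  have hC2 : Nat.card (Subgroup.centralizer ((P : Subgroup G) : Set G)) ∣ 13 := by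
    refine dvd_trans ?_ hC.dvd
    rw [← Subgroup.card_map_of_injective G.subtype_injective]
    apply Subgroup.card_dvd_of_le
    rintro _ ⟨x, hx, rfl⟩
    rw [Subgroup.mem_centralizer_iff]
    rintro _ rfl
    exact congrArg Subtype.val (hx g g.2)
  have hN : Nat.card (Subgroup.normalizer ((P : Subgroup G) : Set G)) ∣ 13 * 12 := by
    have h1 := Subgroup.card_eq_card_quotient_mul_card_subgroup
      (P : Subgroup G).normalizerMonoidHom.ker
    rw [h1, mul_comm]
    apply Nat.mul_dvd_mul
    · rw [Subgroup.normalizerMonoidHom_ker]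
      refine dvd_trans ?_ hC2
      exact Subgroup.card_comap_dvd_of_injective _ _ (Subgroup.subtype_injective _)
    · rw [Nat.card_congr (QuotientGroup.quotientKerEquivRange _).toEquiv]
      refine (Subgroup.card_subgroup_dvd_card _).trans ?_
      rw [IsCyclic.card_mulAut, hP, Nat.totient_prime hp.out]
  have h1 := card_sylow_modEq_one 13 G
  rw [P.card_eq_index_normalizer] at h1
  have h2 := (Subgroup.normalizer ((P : Subgroup G) : Set G)).index_mul_card
  rw [hG] at h2
  generalize (Subgroup.normalizer ((P : Subgroup G) : Set G)).index = i at h1 h2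
  generalize Nat.card (Subgroup.normalizer ((P : Subgroup G) : Set G)) = d at hN h2
  have h3 : d ∈ Nat.divisors 156 := Nat.mem_divisors.mpr ⟨hN, by norm_num⟩
  have h4 : Nat.divisors 156 = {1, 2, 3, 4, 6, 12, 13, 26, 39, 52, 78, 156} := by decide +kernel
  rw [h4] at h3
  unfold Nat.ModEq at h1
  simp only [Finset.mem_insert, Finset.mem_singleton] at h3
  rcases h3 with h | h | h | h | h | h | h | h | h | h | h | h <;> subst h <;> omega

end Cfsg.Agent.S0710
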