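import Cfsg.Statements.S0712
import Mathlib
import Cfsg.Agent.Lib.Perm27.Basic

set_option autoImplicit false
open Cfsg

namespace Cfsg.Agent.S0712

open MulAction

/-- Jordan: a primitive group in which the pointwise stabiliser of a set `s` is doubly transitive on the complement of `s` (which has at least 2 points) is `(|s| + 2)`-transitive. -/
theorem result {α : Type*} [Fintype α] [DecidableEq α] (G : Subgroup (Equiv.Perm α)) (hG : MulAction.IsPreprimitive G α) (s : Set α) {m : ℕ} (hsm : s.ncard = m) (hm : m + 2 ≤ Fintype.card α) (h2 : MulAction.IsMultiplyPretransitive (fixingSubgroup G s) (SubMulAction.ofFixingSubgroup G s) 2) : MulAction.IsMultiplyPretransitive G α (m + 2) := by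
  classical
  have hfin : s.Finite := s.toFinite
  have hm0 : IsMultiplyPretransitive G α m := by
    rcases m with _ | n
    · exact is_zero_pretransitive'
    · have : IsMultiplyPreprimitive G α (n + 2) :=
        hG.isMultiplyPreprimitive hsm (by rw [Nat.card_eq_fintype_card]; omega)
          (isPreprimitive_of_is_two_pretransitive h2)
      have h3 : IsMultiplyPretransitive G α (n + 2) :=
        IsMultiplyPreprimitive.isMultiplyPretransitive ..
      exact isMultiplyPretransitive_of_le (n := n + 2) (by omega)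
        (by rw [Nat.card_eq_fintype_card]; omega)
  have hT : hfin.toFinset.card = m := by rw [← hsm, Set.ncard_eq_toFinset_card s hfin]
  have key : ∀ a b c d : α, a ∉ s → b ∉ s → c ∉ s → d ∉ s → a ≠ b → c ≠ d →
      ∃ g : G, (∀ x ∈ s, g • x = x) ∧ g • a = c ∧ g • b = d := by
    intro a b c d ha hb hc hd hab hcd
    rw [is_two_pretransitive_iff] at h2
    obtain ⟨g, h1, h2⟩ := @h2 ⟨a, ha⟩ ⟨b, hb⟩ ⟨c, hc⟩ ⟨d, hd⟩
      (fun h => hab (congrArg Subtype.val h)) (fun h => hcd (congrArg Subtype.val h))
    exact ⟨g, fun x hx => g.2 ⟨x, hx⟩, congrArg Subtype.val h1, congrArg Subtype.val h2⟩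
  have hm1 : IsMultiplyPretransitive G α (m + 1) := by
    apply H27.isMultiplyPretransitive_succ_of_fix hm0 hfin.toFinset hT
    intro c d hc hd
    rw [Set.Finite.mem_toFinset] at hc hd
    by_cases hcd : c = d
    · exact ⟨1, by simp, by simp [hcd]⟩
    · obtain ⟨g, h1, h2, -⟩ := key c d d c hc hd hd hc hcd (Ne.symm hcd)
      exact ⟨g, fun a ha => h1 a (by simpa using ha), h2⟩
  obtain ⟨e, he⟩ : ∃ e, e ∉ hfin.toFinset := by
    by_contra hcon
    push Not at hcon
    have := Finset.card_le_card (show Finset.univ ⊆ hfin.toFinset from fun x _ => hcon x)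
    rw [Finset.card_univ] at this
    omega
  apply H27.isMultiplyPretransitive_succ_of_fix hm1 (insert e hfin.toFinset)
    (by rw [Finset.card_insert_of_notMem he, hT])
  intro c d hc hd
  rw [Finset.mem_insert, not_or, Set.Finite.mem_toFinset] at hc hd
  rw [Set.Finite.mem_toFinset] at he
  obtain ⟨g, h1, h2, h3⟩ := key e c e d he hc.2 he hd.2 (Ne.symm hc.1) (Ne.symm hd.1)
  refine ⟨g, fun a ha => ?_, h3⟩
  rcases Finset.mem_insert.mp ha with rfl | ha
  · exact h2
  · exact h1 a (by simpa using ha)

end Cfsg.Agent.S0712
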