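import Cfsg.Statements.S0714
import Mathlib
import Cfsg.Agent.Lib.Perm.PermModule

set_option autoImplicit false
open Cfsg

namespace Cfsg.Agent.S0714

open MulAction

theorem single_sub_mem {α : Type*} [Fintype α] [DecidableEq α] (hα : 5 ≤ Fintype.card α)
    {K : Type*} [Field K] (W : Subrepresentation (Cfsg.permRep K (alternatingGroup α) α))
    {v : α → K} (hv : v ∈ W.toSubmodule) {a b : α} (hab : v a ≠ v b) (x y : α) :
    (Pi.single x 1 - Pi.single y 1 : α → K) ∈ W.toSubmodule := by
  have hne : a ≠ b := fun e => hab (e ▸ rfl)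
  have h2 : IsMultiplyPretransitive (alternatingGroup α) α 2 :=
    have := alternatingGroup.isMultiplyPretransitive α
    isMultiplyPretransitive_of_le (n := Nat.card α - 2)
      (by rw [Nat.card_eq_fintype_card]; omega) (by omega)
  obtain ⟨c, d, e, hcd, hce, hde, hc, hd, he⟩ : ∃ c d e : α, c ≠ d ∧ c ≠ e ∧ d ≠ e ∧
      c ∉ ({a, b} : Finset α) ∧ d ∉ ({a, b} : Finset α) ∧ e ∉ ({a, b} : Finset α) := by
    obtain ⟨c, hc, d, hd, e, he, h1, h2, h3⟩ := (Finset.two_lt_card (s := ({a, b} : Finset α)ᶜ)).1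
      (by rw [Finset.card_compl, Finset.card_pair hne]; omega)
    exact ⟨c, d, e, h1, h2, h3, Finset.mem_compl.1 hc, Finset.mem_compl.1 hd, Finset.mem_compl.1 he⟩
  simp only [Finset.mem_insert, Finset.mem_singleton, not_or] at hc hd he
  have hcyc : ∀ p q r : α, p ≠ q → p ≠ r → ∀ u ∈ W.toSubmodule,
      (fun z => u (Equiv.swap p q (Equiv.swap p r z))) ∈ W.toSubmodule := by
    intro p q r h1 h2 u hu
    exact W.apply_mem_toSubmodule (⟨Equiv.swap p q * Equiv.swap p r, by
      simp [Equiv.Perm.mem_alternatingGroup, h1, h2]⟩ : alternatingGroup α)⁻¹ hu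
  obtain ⟨w, hw, hwa, hw0⟩ : ∃ w ∈ W.toSubmodule, w a ≠ 0 ∧ ∀ z, z ≠ a → z ≠ b → z ≠ c → w z = 0 := by
    refine ⟨_, W.toSubmodule.sub_mem hv (hcyc a c b (Ne.symm hc.1) hne v hv), ?_, fun z h1 h2 h3 => ?_⟩
    · simp only [Pi.sub_apply, Equiv.swap_apply_left]
      rw [Equiv.swap_apply_of_ne_of_ne hne.symm (Ne.symm hc.2)]
      exact sub_ne_zero.2 hab
    · simp only [Pi.sub_apply]
      rw [Equiv.swap_apply_of_ne_of_ne h1 h2, Equiv.swap_apply_of_ne_of_ne h1 h3, sub_self]
  have h1 : (Pi.single a 1 - Pi.single e 1 : α → K) ∈ W.toSubmodule := by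
    convert W.toSubmodule.smul_mem (w a)⁻¹
      (W.toSubmodule.sub_mem hw (hcyc a e d (Ne.symm he.1) (Ne.symm hd.1) w hw)) using 1
    ext z
    simp only [Pi.sub_apply, Pi.smul_apply, smul_eq_mul]
    by_cases h1 : z = a
    · subst h1
      rw [Equiv.swap_apply_left, Equiv.swap_apply_of_ne_of_ne hd.1 hde, hw0 d hd.1 hd.2 hcd.symm]
      simp [Ne.symm he.1, hwa]
    by_cases h2 : z = d
    · subst h2
      rw [Equiv.swap_apply_right, Equiv.swap_apply_left, hw0 z hd.1 hd.2 hcd.symm,
        hw0 e he.1 he.2 hce.symm]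
      simp [h1, hde]
    rw [Equiv.swap_apply_of_ne_of_ne h1 h2]
    by_cases h3 : z = e
    · subst h3
      rw [Equiv.swap_apply_right, hw0 z he.1 he.2 hce.symm]
      simp [h1, hwa]
    · rw [Equiv.swap_apply_of_ne_of_ne h1 h3]
      simp [h1, h3]
  by_cases hxy : x = y
  · simp [hxy]
  obtain ⟨g, e1, e2⟩ := is_two_pretransitive_iff.1 h2 (Ne.symm he.1) hxy
  have := W.apply_mem_toSubmodule g h1
  rwa [map_sub, H26.permRep_single, H26.permRep_single, e1, e2] at this

/-- Over any field, the permutation module of the alternating group of degree at least 5 has exactly four invariant subspaces: zero, the constant functions, the functions with coordinate sum zero, and everything. -/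
theorem result {α : Type*} [Fintype α] [DecidableEq α] (hα : 5 ≤ Fintype.card α) {K : Type*} [Field K] (W : Subrepresentation (Cfsg.permRep K (alternatingGroup α) α)) : W.toSubmodule = ⊥ ∨ W = Cfsg.permConstants K (alternatingGroup α) α ∨ W = Cfsg.permSumZero K (alternatingGroup α) α ∨ W.toSubmodule = ⊤ := by
  by_cases h : ∃ v ∈ W.toSubmodule, ∃ a b, v a ≠ v b
  · obtain ⟨v, hv, a, b, hab⟩ := h
    have key : ∀ u : α → K, u - Pi.single a (∑ x, u x) ∈ W.toSubmodule := fun u => by
      have : u - Pi.single a (∑ x, u x) = ∑ x, u x • (Pi.single x 1 - Pi.single a 1 : α → K) := by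
        ext z
        simp [Finset.sum_apply, mul_sub, Pi.single_apply, Finset.sum_ite_eq]
      rw [this]
      exact Submodule.sum_mem _ fun x _ => Submodule.smul_mem _ _ (single_sub_mem hα W hv hab x a)
    right; right
    by_cases h1 : ∀ w ∈ W.toSubmodule, ∑ x, w x = 0
    · left
      refine Subrepresentation.toSubmodule_injective (le_antisymm h1 fun u hu => ?_)
      simpa [H26.mem_permSumZero.1 hu] using key u
    · right
      push Not at h1
      obtain ⟨w, hw, hw0⟩ := h1
      have h2 := W.toSubmodule.sub_mem hw (key w)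
      rw [sub_sub_cancel] at h2
      rw [eq_top_iff]
      intro u _
      have h3 := W.toSubmodule.add_mem (key u)
        (W.toSubmodule.smul_mem ((∑ x, u x) * (∑ x, w x)⁻¹) h2)
      rwa [← Pi.single_smul, smul_eq_mul, inv_mul_cancel_right₀ hw0, sub_add_cancel] at h3
  · push Not at h
    by_cases h1 : W.toSubmodule = ⊥
    · exact Or.inl h1
    right; left
    obtain ⟨v, hv, hv0⟩ := (Submodule.ne_bot_iff _).1 h1
    obtain ⟨a, ha⟩ := Function.ne_iff.1 hv0
    refine Subrepresentation.toSubmodule_injective (le_antisymm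
      (fun w hw => H26.mem_permConstants.2 ⟨w a, fun x => h w hw x a⟩) fun u hu => ?_)
    obtain ⟨c, hc⟩ := H26.mem_permConstants.1 hu
    convert W.toSubmodule.smul_mem (c * (v a)⁻¹) hv using 1
    ext x
    rw [hc, Pi.smul_apply, h v hv x a, smul_eq_mul, inv_mul_cancel_right₀ ha]

end Cfsg.Agent.S0714
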