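import Mathlib
import Cfsg.Statements.S0719
import Cfsg.Agent.Lib.Perm75.PermChar

set_option autoImplicit false
open Cfsg

namespace Cfsg.Agent.S0719

open MulAction Finset H75 ComplexConjugate

theorem arith {m k s t : ℤ} (hk : 2 ≤ k) (hm : k + 1 ≤ m) (h1 : k + (m - 1) * s + m * t = 0)
    (h2 : k ^ 2 + (m - 1) * s ^ 2 + m * t ^ 2 = 2 * m * k) :
    ∃ a : ℤ, 0 < a ∧ m = 2 * a ^ 2 + 2 * a + 1 ∧ k = a * (2 * a + 1) := by
  have hs : s = k + m * (s + t) := by linarith
  have hm0 : 0 < m := by omega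
  have ht2 : 0 ≤ m * t ^ 2 := by positivity
  rcases lt_trichotomy (s + t) 0 with h | h | h
  · by_cases h3 : s + t = -1
    · have e1 : s = -(t + 1) := by linarith
      have e2 : k = m - 1 - t := by rw [h3] at hs; linarith
      have e3 : m = 2 * t ^ 2 + 2 * t + 1 := by
        apply mul_left_cancel₀ hm0.ne'
        rw [e1, e2] at h2
        linear_combination -h2
      refine ⟨t, ?_, e3, by rw [e2]; linear_combination e3⟩
      by_contra h4
      have : t = 0 := by omega
      subst this
      omega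
    · exfalso
      have h4 : m * (s + t) ≤ m * (-2) := mul_le_mul_of_nonneg_left (by omega) hm0.le
      have h5 : m + 1 ≤ -s := by linarith
      have h6 : (m + 1) ^ 2 ≤ s ^ 2 := by nlinarith
      have h7 : (m - 1) * (m + 1) ^ 2 ≤ (m - 1) * s ^ 2 := mul_le_mul_of_nonneg_left h6 (by omega)
      nlinarith
  · exfalso
    have e1 : s = k := by rw [h] at hs; linarith
    have e2 : t = -k := by linarith
    rw [e1, e2] at h2
    have : 2 * m * k * (k - 1) = 0 := by linear_combination h2
    have : 0 < 2 * m * k * (k - 1) := by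
      have : 0 < k - 1 := by omega
      positivity
    omega
  · exfalso
    have h4 : m * 1 ≤ m * (s + t) := mul_le_mul_of_nonneg_left (by omega) hm0.le
    have h5 : k + m ≤ s := by linarith
    have h6 : (k + m) ^ 2 ≤ s ^ 2 := by nlinarith
    have h7 : 1 * s ^ 2 ≤ (m - 1) * s ^ 2 := mul_le_mul_of_nonneg_right (by omega) (by positivity)
    nlinarith

theorem params {G : Type*} [Group G] [Fintype G] {Ω : Type*} [Fintype Ω] [MulAction G Ω]
    (hprim : IsPreprimitive G Ω) {m : ℕ} (hm : Fintype.card Ω = 2 * m) (a b c : Ω) (hb : b ≠ a)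
    (hc : c ≠ a) (hbc : ¬ orb G a b a c) (hall : ∀ y, y = a ∨ orb G a b a y ∨ orb G a c a y)
    (χ₁ χ₂ : G → ℂ) (h₁ : IsIrrCharacter G χ₁) (h₂ : IsIrrCharacter G χ₂)
    (hπ : (fun g : G => (Nat.card (fixedBy Ω g) : ℂ)) = fun g => 1 + χ₁ g + χ₂ g)
    (hd₁ : χ₁ 1 = (m : ℂ) - 1) (hd₂ : χ₂ 1 = m)
    (hk : Nat.card (orbit (stabilizer G a) b) + 1 ≤ m) :
    ∃ x : ℕ, 0 < x ∧ m = 2 * x ^ 2 + 2 * x + 1 ∧
      Nat.card (orbit (stabilizer G a) b) = x * (2 * x + 1) := by
  classical
  haveI : Nonempty Ω := ⟨a⟩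
  have ht := hprim.toIsPretransitive
  set ρ := permRep ℂ G Ω
  have h0 := H6.isIrrCharacter_one (G := G)
  have hin : ∀ χ, classInner ρ.character χ =
      classInner (fun _ => 1) χ + classInner χ₁ χ + classInner χ₂ χ := by
    intro χ
    rw [character_permRep, hπ, ← H6.classInner_add_left, ← H6.classInner_add_left]; rfl
  have n12 : χ₁ ≠ χ₂ := by
    intro e; rw [e, hd₂] at hd₁
    have : (1 : ℂ) = 0 := by linear_combination hd₁
    exact one_ne_zero this
  have hone := hin fun _ => 1
  rw [character_permRep, inner_perm_one_of_trans ht, H6.irr_inner_self h0, H6.irr_inner h₁ h0,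
    H6.irr_inner h₂ h0] at hone
  have n1 : χ₁ ≠ fun _ => 1 := by
    intro e
    rw [if_pos e, if_neg (e ▸ n12.symm)] at hone
    norm_num at hone
  have n2 : χ₂ ≠ fun _ => 1 := by
    intro e
    rw [if_pos e, if_neg n1] at hone
    norm_num at hone
  have hcases : ∀ χ, IsIrrCharacter G χ → classInner ρ.character χ ≠ 0 →
      classInner ρ.character χ = 1 ∧ (χ = (fun _ => 1) ∨ χ = χ₁ ∨ χ = χ₂) := by
    intro χ hχ
    rw [hin, H6.irr_inner h0 hχ, H6.irr_inner h₁ hχ, H6.irr_inner h₂ hχ]
    by_cases e0 : (fun _ => 1) = χ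
    · subst e0; simp [n1, n2]
    by_cases e1 : χ₁ = χ
    · subst e1; simp [e0, n12.symm]
    by_cases e2 : χ₂ = χ
    · subst e2; simp [e0, e1]
    · simp [e0, e1, e2]
  have hreal : ∀ χ, IsIrrCharacter G χ → classInner ρ.character χ ≠ 0 → ∀ g, conj (χ g) = χ g := by
    intro χ hχ hne
    have hne' : classInner ρ.character (fun g => conj (χ g)) ≠ 0 := by
      have e : ρ.character = fun g => conj (ρ.character g) := by
        funext g; rw [character_permRep, map_natCast]
      rw [e, H6.classInner_conj_conj, Ne, H6.classInner_eq_zero_comm]; exact hne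
    have hone' : (fun g => conj (χ g)) = (fun _ => 1) → χ = fun _ => 1 := fun e =>
      funext fun g => by rw [← Complex.conj_conj (χ g), congrFun e g, map_one]
    obtain ⟨-, e | e | e⟩ := hcases χ hχ hne
    · intro g; rw [e, map_one]
    · obtain ⟨-, e' | e' | e'⟩ := hcases _ (H6.isIrrCharacter_conj hχ) hne'
      · exact absurd (e.symm.trans (hone' e')) n1
      · exact fun g => (congrFun e' g).trans (congrFun e g).symm
      · exfalso
        have := congrFun e' 1
        simp only [e, hd₁, hd₂, map_sub, map_natCast, map_one] at this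
        have : (1 : ℂ) = 0 := by linear_combination -this
        exact one_ne_zero this
    · obtain ⟨-, e' | e' | e'⟩ := hcases _ (H6.isIrrCharacter_conj hχ) hne'
      · exact absurd (e.symm.trans (hone' e')) n2
      · exfalso
        have := congrFun e' 1
        simp only [e, hd₁, hd₂, map_natCast] at this
        have : (1 : ℂ) = 0 := by linear_combination this
        exact one_ne_zero this
      · exact fun g => (congrFun e' g).trans (congrFun e g).symm
  have hsp := selfPaired_of_multFree ht fun χ hχ hne => ⟨(hcases χ hχ hne).1, hreal χ hχ hne⟩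
  have hsymm : ∀ x y, orb G a b x y → orb G a b y x := by
    intro x y h
    obtain ⟨g, h1, h2⟩ := hsp x y
    have := orb_smul a b g x y h
    rwa [h1, h2] at this
  set k := Nat.card (orbit (stabilizer G a) b) with hkdef
  have hval : ∀ x, (univ.filter (orb G a b x)).card = k := fun x => by
    rw [card_filter_rel_eq ht _ (orb_smul a b) x a, card_filter_orb]
  have hab : orb G a b a b := ⟨1, one_smul _ _, one_smul _ _⟩
  have hk2 : 2 ≤ k := by
    by_contra hlt
    have hone : ∀ x y z, orb G a b x y → orb G a b x z → y = z := fun x y z h1 h2 =>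
      card_le_one.mp (show (univ.filter (orb G a b x)).card ≤ 1 by rw [hval]; omega) y
        (by simpa using h1) z (by simpa using h2)
    have := closed_of_isPreprimitive hprim (orb G a b) (orb_smul a b) hab hb.symm
      (fun x => x = a ∨ x = b) (by
        rintro x y (rfl | rfl) h
        · exact Or.inr (hone _ _ _ h hab)
        · exact Or.inl (hone _ _ _ h (hsymm _ _ hab))) (Or.inl rfl) c
    rcases this with rfl | rfl
    · exact hc rfl
    · exact hbc hab
  set A := adj (orb G a b) with hA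
  have hAc := adj_comm (orb_smul (G := G) a b)
  obtain ⟨co, hco⟩ := eq_sum_idem ρ (fun χ hχ => by
    by_cases h0 : classInner ρ.character χ = 0
    · exact Or.inl h0
    · exact Or.inr (hcases χ hχ h0).1) hAc
  set E0 := idem ρ fun _ => 1
  set E1 := idem ρ χ₁
  set E2 := idem ρ χ₂
  set s := co ⟨χ₁, h₁⟩
  set t := co ⟨χ₂, h₂⟩
  have hA3 : A = co ⟨_, h0⟩ • E0 + s • E1 + t • E2 := by
    rw [hA, hco, ← sum_subset (subset_univ
      ({⟨_, h0⟩, ⟨χ₁, h₁⟩, ⟨χ₂, h₂⟩} : Finset (IrrCharacter G))), sum_insert, sum_pair, add_assoc]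
    · exact fun e => n12 (congrArg Subtype.val e)
    · simp only [mem_insert, mem_singleton, Subtype.mk.injEq, not_or]
      exact ⟨n1.symm, n2.symm⟩
    · intro χ _ hχ
      rw [idem_eq_zero, smul_zero]
      · exact χ.2
      · by_contra hne
        apply hχ
        simp only [mem_insert, mem_singleton, Subtype.ext_iff]
        exact (hcases χ χ.2 hne).2
  have m00 : E0 * E0 = E0 := by rw [idem_mul_idem ρ h0 h0, if_pos rfl]
  have m11 : E1 * E1 = E1 := by rw [idem_mul_idem ρ h₁ h₁, if_pos rfl]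
  have m22 : E2 * E2 = E2 := by rw [idem_mul_idem ρ h₂ h₂, if_pos rfl]
  have m01 : E0 * E1 = 0 := by rw [idem_mul_idem ρ h0 h₁, if_neg n1.symm]
  have m02 : E0 * E2 = 0 := by rw [idem_mul_idem ρ h0 h₂, if_neg n2.symm]
  have m10 : E1 * E0 = 0 := by rw [idem_mul_idem ρ h₁ h0, if_neg n1]
  have m20 : E2 * E0 = 0 := by rw [idem_mul_idem ρ h₂ h0, if_neg n2]
  have m12 : E1 * E2 = 0 := by rw [idem_mul_idem ρ h₁ h₂, if_neg n12]
  have m21 : E2 * E1 = 0 := by rw [idem_mul_idem ρ h₂ h₁, if_neg n12.symm]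
  have t0 : LinearMap.trace ℂ _ E0 = 1 := trace_idem_one ht
  have t1 : LinearMap.trace ℂ _ E1 = m - 1 := by
    rw [trace_idem, hin, H6.irr_inner_ne h0 h₁ n1.symm, H6.irr_inner_self h₁,
      H6.irr_inner_ne h₂ h₁ n12.symm, hd₁]; ring
  have t2 : LinearMap.trace ℂ _ E2 = m := by
    rw [trace_idem, hin, H6.irr_inner_ne h0 h₂ n2.symm, H6.irr_inner_self h₂,
      H6.irr_inner_ne h₁ h₂ n12, hd₂]; ring
  have hc0 : co ⟨_, h0⟩ = k := by
    have h : A * E0 = ((univ.filter fun y => orb G a b a y).card : ℂ) • E0 :=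
      adj_mul_idem_one ht (orb_smul (G := G) a b) a
    rw [hA3, hval] at h
    have := congrArg (LinearMap.trace ℂ _) h
    simpa only [add_mul, smul_mul_assoc, m00, m10, m20, smul_zero, add_zero, map_smul, t0,
      smul_eq_mul, mul_one] using this
  rw [hc0] at hA3
  have eq1 : (k : ℂ) + (m - 1) * s + m * t = 0 := by
    have := trace_adj (orb G a b)
    rw [filter_eq_empty_iff.mpr (fun x _ => not_orb_self hb x), ← hA, hA3] at this
    simp only [map_add, map_smul, t0, t1, t2, smul_eq_mul, card_empty, Nat.cast_zero] at this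
    linear_combination this
  have hAA : A * A = (k : ℂ) ^ 2 • E0 + s ^ 2 • E1 + t ^ 2 • E2 := by
    rw [hA3]
    simp only [add_mul, mul_add, smul_mul_assoc, mul_smul_comm, m00, m01, m02, m10, m11, m12, m20,
      m21, m22, smul_zero, add_zero, zero_add, smul_smul, sq]
  have hent : ∀ x y, (A * A) (Pi.single y 1) x =
      ((univ.filter fun z => orb G a b x z ∧ orb G a b z y).card : ℂ) := by
    intro x y
    rw [mul_entry, card_filter]
    push_cast
    refine sum_congr rfl fun z _ => ?_
    rw [adj_single, adj_single]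
    by_cases h1 : orb G a b x z <;> by_cases h2 : orb G a b z y <;> simp [h1, h2]
  have hdiag : ∀ x, (A * A) (Pi.single x 1) x = k := by
    intro x
    rw [hent, ← hval x]
    congr 2
    ext z
    simp only [mem_filter, mem_univ, true_and]
    exact ⟨fun h => h.1, fun h => ⟨h, hsymm _ _ h⟩⟩
  have eq2 : (k : ℂ) ^ 2 + (m - 1) * s ^ 2 + m * t ^ 2 = 2 * m * k := by
    have := trace_fun (A * A)
    simp only [hdiag, sum_const, card_univ, hm, nsmul_eq_mul] at this
    rw [hAA] at this
    simp only [map_add, map_smul, t0, t1, t2, smul_eq_mul] at this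
    push_cast at this
    linear_combination this
  set J : Module.End ℂ (Ω → ℂ) := adj fun _ _ => True with hJ
  have hJ0 : J * E0 = J := by
    rw [idem_comm ρ _ (adj_comm fun _ _ _ h => h)]
    refine LinearMap.ext fun v => funext fun x => ?_
    rw [Module.End.mul_apply, idem_perm_apply]
    have := H6.card_ne_zero (G := G)
    simp only [adj_apply, if_true, map_one, one_mul, sum_const, card_univ,
      ← Nat.card_eq_fintype_card, nsmul_eq_mul, hJ]
    field_simp
  set la := (univ.filter fun z => orb G a b a z ∧ orb G a b z b).card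
  set mu := (univ.filter fun z => orb G a b a z ∧ orb G a b z c).card
  have hsrg : A * A = (k - mu : ℂ) • 1 + (la - mu : ℂ) • A + (mu : ℂ) • J := by
    refine ext_entry fun x y => ?_
    have hAAc : ∀ g, (A * A) * ρ g = ρ g * (A * A) := fun g => by
      rw [mul_assoc, hAc, ← mul_assoc, hAc, mul_assoc]
    simp only [LinearMap.add_apply, LinearMap.smul_apply, Pi.add_apply, Pi.smul_apply, smul_eq_mul,
      Module.End.one_apply, hJ, adj_single, if_true]
    rw [hA, adj_single, ← hA]
    obtain ⟨g, rfl⟩ := ht.exists_smul_eq a x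
    obtain ⟨y, rfl⟩ := (MulAction.surjective g) y
    rw [entry_smul hAAc]
    have e : orb G a b (g • a) (g • y) ↔ orb G a b a y :=
      ⟨fun h => by simpa using orb_smul a b g⁻¹ _ _ h, orb_smul a b g _ _⟩
    simp only [e, Pi.single_apply, smul_left_cancel_iff]
    rcases hall y with rfl | ⟨h, h1, rfl⟩ | ⟨h, h1, rfl⟩
    · rw [hdiag, if_pos rfl, if_neg (not_orb_self hb _)]; ring
    · rw [if_neg (fun e => hb (MulAction.injective h (e.symm.trans h1.symm))), if_pos ⟨h, h1, rfl⟩]
      conv_lhs => rw [← h1]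
      rw [entry_smul hAAc, hent]; ring
    · rw [if_neg (fun e => hc (MulAction.injective h (e.symm.trans h1.symm))), if_neg]
      · conv_lhs => rw [← h1]
        rw [entry_smul hAAc, hent]; ring
      · intro h2
        have := orb_smul a b h⁻¹ _ _ h2
        rw [inv_smul_smul, inv_smul_eq_iff.mpr h1.symm] at this
        exact hbc this
  have hm1 : (m : ℂ) - 1 ≠ 0 := hd₁ ▸ H6.irr_one_ne_zero h₁
  have hm0 : (m : ℂ) ≠ 0 := hd₂ ▸ H6.irr_one_ne_zero h₂
  have q1 : s ^ 2 = (k - mu) + (la - mu) * s := by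
    have := congrArg (fun T => LinearMap.trace ℂ _ (T * E1)) (hAA.symm.trans hsrg)
    rw [← hJ0, hA3] at this
    simp only [add_mul, smul_mul_assoc, m01, m11, m21, mul_assoc, smul_zero, mul_zero, one_mul,
      map_add, map_smul, t1, smul_eq_mul, zero_add, add_zero, map_zero] at this
    apply mul_right_cancel₀ hm1
    linear_combination this
  have q2 : t ^ 2 = (k - mu) + (la - mu) * t := by
    have := congrArg (fun T => LinearMap.trace ℂ _ (T * E2)) (hAA.symm.trans hsrg)
    rw [← hJ0, hA3] at this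
    simp only [add_mul, smul_mul_assoc, m02, m12, m22, mul_assoc, smul_zero, mul_zero, one_mul,
      map_add, map_smul, t2, smul_eq_mul, zero_add, add_zero, map_zero] at this
    apply mul_right_cancel₀ hm0
    linear_combination this
  have hk0 : (k : ℂ) ≠ 0 := Nat.cast_ne_zero.mpr (by omega)
  have hst : s ≠ t := by
    intro e
    rw [← e] at eq1 eq2
    have h3 : (k : ℂ) = 2 * m - 1 := by
      apply mul_left_cancel₀ hk0
      apply mul_left_cancel₀ hm0
      linear_combination (1 / 2 : ℂ) * (2 * m - 1) * eq2 - (1 / 2 : ℂ) * ((2 * m - 1) * s - k) * eq1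
    have h4 : ((k + 1 : ℕ) : ℂ) = (2 * m : ℕ) := by push_cast; linear_combination h3
    have := Nat.cast_injective h4
    omega
  have h5 : s + t = la - mu := by
    apply mul_left_cancel₀ (sub_ne_zero.mpr hst)
    linear_combination q1 - q2
  set t' : ℤ := -k - (m - 1) * (la - mu) with ht'
  set s' : ℤ := la - mu - t' with hs'
  have e1 : t = t' := by rw [ht']; push_cast; linear_combination eq1 - (m - 1) * h5
  have e2 : s = s' := by rw [hs']; push_cast; linear_combination h5 - e1
  rw [e1, e2] at eq1 eq2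
  obtain ⟨x, hx0, hx1, hx2⟩ := arith (m := m) (k := k) (s := s') (t := t') (by omega) (by omega)
    (by exact_mod_cast eq1) (by exact_mod_cast eq2)
  lift x to ℕ using hx0.le
  exact ⟨x, by exact_mod_cast hx0, by exact_mod_cast hx1, by exact_mod_cast hx2⟩


/-- Groups of Wielandt type: if a primitive group of degree `2m` has rank 3 and permutation character `1 + χ₁ + χ₂` with irreducible `χ₁, χ₂` of degrees `m - 1` and `m`, then `m = 2a² + 2a + 1` for some positive integer `a` and the two non-trivial subdegrees are `a(2a+1)` and `(a+1)(2a+1)`. -/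
theorem result {G : Type*} [Group G] [Fintype G] {Ω : Type*} [Fintype Ω] [MulAction G Ω] (hprim : MulAction.IsPreprimitive G Ω) {m : ℕ} (hm : Fintype.card Ω = 2 * m) (a₀ : Ω) (hrank : Nat.card (MulAction.orbitRel.Quotient (MulAction.stabilizer G a₀) Ω) = 3) (χ₁ χ₂ : G → ℂ) (h₁ : Cfsg.IsIrrCharacter G χ₁) (h₂ : Cfsg.IsIrrCharacter G χ₂) (hπ : (fun g : G => (Nat.card (MulAction.fixedBy Ω g) : ℂ)) = fun g => 1 + χ₁ g + χ₂ g) (hd₁ : χ₁ 1 = (m : ℂ) - 1) (hd₂ : χ₂ 1 = m) : ∃ a : ℕ, 0 < a ∧ m = 2 * a ^ 2 + 2 * a + 1 ∧ ∀ b : Ω, b ≠ a₀ → Nat.card (MulAction.orbit (MulAction.stabilizer G a₀) b) = a * (2 * a + 1) ∨ Nat.card (MulAction.orbit (MulAction.stabilizer G a₀) b) = (a + 1) * (2 * a + 1) := by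

  classical
  haveI := Fintype.ofFinite (orbitRel.Quotient (stabilizer G a₀) Ω)
  rw [Nat.card_eq_fintype_card] at hrank
  set q0 : orbitRel.Quotient (stabilizer G a₀) Ω := Quotient.mk _ a₀
  obtain ⟨qb, qc, hne, hq⟩ : ∃ qb qc, qb ≠ qc ∧ univ.erase q0 = {qb, qc} := by
    rw [← card_eq_two, card_erase_of_mem (mem_univ _), card_univ, hrank]
  induction qb using Quotient.inductionOn with | _ b =>
  induction qc using Quotient.inductionOn with | _ c =>
  have hb : b ≠ a₀ := by
    rintro rfl
    exact ne_of_mem_erase (hq ▸ mem_insert_self _ _) rfl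
  have hc : c ≠ a₀ := by
    rintro rfl
    exact ne_of_mem_erase (hq ▸ mem_insert_of_mem (mem_singleton_self _)) rfl
  have hall : ∀ y, y = a₀ ∨ orb G a₀ b a₀ y ∨ orb G a₀ c a₀ y := by
    intro y
    by_cases hy : (Quotient.mk _ y : orbitRel.Quotient (stabilizer G a₀) Ω) = q0
    · obtain ⟨g, hg⟩ := Quotient.exact hy
      exact Or.inl (hg.symm.trans g.2)
    · have := mem_erase.mpr ⟨hy, mem_univ _⟩
      rw [hq, mem_insert, mem_singleton] at this
      rcases this with h | h
      · exact Or.inr (Or.inl (orb_iff.mpr (Quotient.exact h)))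
      · exact Or.inr (Or.inr (orb_iff.mpr (Quotient.exact h)))
  have hsum := sum_card_orbits (Ω := Ω) (stabilizer G a₀)
  have hq0 : Nat.card q0.orbit = 1 := by
    rw [orbitRel.Quotient.orbit_mk, Nat.card_eq_one_iff_exists]
    refine ⟨⟨a₀, mem_orbit_self a₀⟩, ?_⟩
    rintro ⟨_, g, rfl⟩
    exact Subtype.ext g.2
  rw [← add_sum_erase _ _ (mem_univ q0), hq0, hq, sum_pair hne, orbitRel.Quotient.orbit_mk,
    orbitRel.Quotient.orbit_mk, hm] at hsum
  have fin : ∀ y, y ≠ a₀ → Nat.card (orbit (stabilizer G a₀) y) = Nat.card (orbit (stabilizer G a₀) b) ∨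
      Nat.card (orbit (stabilizer G a₀) y) = Nat.card (orbit (stabilizer G a₀) c) := by
    intro y hy
    rcases hall y with h | h | h
    · exact absurd h hy
    · left; rw [orbit_eq_iff.mpr (orb_iff.mp h)]
    · right; rw [orbit_eq_iff.mpr (orb_iff.mp h)]
  by_cases hle : Nat.card (orbit (stabilizer G a₀) b) + 1 ≤ m
  · obtain ⟨x, hx0, hx1, hx2⟩ := params hprim hm a₀ b c hb hc
      (fun h => hne (Quotient.sound (orb_iff.mp h)).symm) hall χ₁ χ₂ h₁ h₂ hπ hd₁ hd₂ hle
    refine ⟨x, hx0, hx1, fun y hy => (fin y hy).imp (fun h => h.trans hx2) fun h => h.trans ?_⟩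
    nlinarith
  · obtain ⟨x, hx0, hx1, hx2⟩ := params hprim hm a₀ c b hc hb
      (fun h => hne (Quotient.sound (orb_iff.mp h))) (fun y => (hall y).imp id Or.symm) χ₁ χ₂ h₁ h₂
      hπ hd₁ hd₂ (by omega)
    refine ⟨x, hx0, hx1, fun y hy => (fin y hy).symm.imp (fun h => h.trans hx2) fun h => h.trans ?_⟩
    nlinarith

end Cfsg.Agent.S0719
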