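import Cfsg.Statements.S0724
import Mathlib

set_option autoImplicit false
open Cfsg

namespace Cfsg.Agent.S0724

open MulAction

theorem dvd_sum_pow {G α : Type*} [Group G] [Fintype G] [Fintype α] [MulAction G α] (k : ℕ) :
    Nat.card G ∣ ∑ g : G, (Nat.card (fixedBy α g)) ^ k := by
  classical
  have h := sum_card_fixedBy_eq_card_orbits_mul_card_group G (Fin k → α)
  have h2 : ∀ g : G, Fintype.card (fixedBy (Fin k → α) g) = (Nat.card (fixedBy α g)) ^ k := by
    intro g
    have e : fixedBy (Fin k → α) g ≃ (Fin k → fixedBy α g) :=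
      (Equiv.subtypeEquivRight (fun f => by
        simp only [mem_fixedBy, funext_iff, Pi.smul_apply])).trans
        (Equiv.subtypePiEquivPi (p := fun _ x => x ∈ fixedBy α g))
    rw [Fintype.card_congr e, Fintype.card_fun, Fintype.card_fin, Nat.card_eq_fintype_card]
  simp only [h2] at h
  rw [h, Nat.card_eq_fintype_card]
  exact dvd_mul_left _ _

theorem dvd_sum_eval {G α : Type*} [Group G] [Fintype G] [Fintype α] [MulAction G α]
    (P : Polynomial ℤ) :
    (Nat.card G : ℤ) ∣ ∑ g : G, P.eval (Nat.card (fixedBy α g) : ℤ) := by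
  induction P using Polynomial.induction_on' with
  | add p q hp hq =>
    simp only [Polynomial.eval_add, Finset.sum_add_distrib]
    exact dvd_add hp hq
  | monomial n a =>
    simp only [Polynomial.eval_monomial, ← Finset.mul_sum]
    apply Dvd.dvd.mul_left
    exact_mod_cast dvd_sum_pow (G := G) (α := α) n

/-- Blichfeldt's Theorem: if a finite set `L` of natural numbers contains the number of fixed points of every non-identity element of a permutation group `G` of degree `n`, then the order of `G` divides `∏ (n - l)` over `l ∈ L`. -/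
theorem result {α : Type*} [Fintype α] [DecidableEq α] (G : Subgroup (Equiv.Perm α)) (L : Finset ℕ) (hL : ∀ g ∈ G, g ≠ 1 → Nat.card (MulAction.fixedBy α g) ∈ L) : Nat.card G ∣ ∏ l ∈ L, (Fintype.card α - l) := by
  classical
  by_cases h : ∃ l ∈ L, Fintype.card α ≤ l
  · obtain ⟨l, hl, h⟩ := h
    rw [Finset.prod_eq_zero hl (Nat.sub_eq_zero_of_le h)]
    exact dvd_zero _
  push Not at h
  have h1 := dvd_sum_eval (G := G) (α := α) (∏ l ∈ L, (Polynomial.X - Polynomial.C (l : ℤ)))
  rw [Finset.sum_eq_single (1 : G)] at h1
  · rw [← Int.natCast_dvd_natCast]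
    convert h1 using 1
    rw [Polynomial.eval_prod, Nat.cast_prod]
    apply Finset.prod_congr rfl
    intro l hl
    rw [Nat.cast_sub (h l hl).le]
    simp
  · intro g _ hg
    rw [Polynomial.eval_prod]
    apply Finset.prod_eq_zero (hL g g.2 (fun h => hg (Subtype.ext h)))
    simp only [Polynomial.eval_sub, Polynomial.eval_X, Polynomial.eval_C]
    exact sub_self _
  · simp

end Cfsg.Agent.S0724
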