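import Cfsg.Statements.S0728
import Mathlib
import Cfsg.Agent.Lib.Perm27.Tools

set_option autoImplicit false
open Cfsg

namespace Cfsg.Agent.S0728



/-- In a sharply triply transitive group of even degree at least 6 (degree `q + 1`, `q` odd), a two-point stabiliser has at most one subgroup of order 3. -/
theorem result {α : Type*} [Fintype α] [DecidableEq α] (heven : Even (Fintype.card α)) (h6 : 6 ≤ Fintype.card α) (G : Subgroup (Equiv.Perm α)) (h3 : MulAction.IsMultiplyPretransitive G α 3) (hsharp : ∀ x : Fin 3 ↪ α, MulAction.stabilizer G x = ⊥) {a b : α} (hab : a ≠ b) (A B : Subgroup G) (hA : A ≤ MulAction.stabilizer G a ⊓ MulAction.stabilizer G b) (hB : B ≤ MulAction.stabilizer G a ⊓ MulAction.stabilizer G b) (hA3 : Nat.card A = 3) (hB3 : Nat.card B = 3) : A = B := by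
  have hS := H27.Sharp3.of_perm G h3 hsharp (by rw [Nat.card_eq_fintype_card]; omega)
  have := Fact.mk Nat.prime_three
  have key : ∀ C : Subgroup G, Nat.card C = 3 →
      ∃ u : G, u ≠ 1 ∧ u ^ 3 = 1 ∧ C = Subgroup.zpowers u := by
    intro C hC
    obtain ⟨u, hu⟩ := exists_prime_orderOf_dvd_card' (G := C) 3 (by rw [hC])
    have hu' : orderOf (u : G) = 3 := by rw [Subgroup.orderOf_coe, hu]
    refine ⟨u, fun h => ?_, hu' ▸ pow_orderOf_eq_one _, ?_⟩
    · rw [h, orderOf_one] at hu'
      omega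
    · symm
      apply Subgroup.eq_of_le_of_card_ge (Subgroup.zpowers_le.2 u.2)
      rw [hC, Nat.card_zpowers, hu']
  obtain ⟨u, hu1, hu, rfl⟩ := key A hA3
  obtain ⟨v, hv1, hv, rfl⟩ := key B hB3
  have h1 := hA (Subgroup.mem_zpowers u)
  have h2 := hB (Subgroup.mem_zpowers v)
  rcases hS.order_three hab.symm hu1 hu hv1 hv h1.1 h1.2 h2.1 h2.2 with h | h
  · rw [h]
  · rw [h, Subgroup.zpowers_inv]

end Cfsg.Agent.S0728
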