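import Cfsg.Statements.S0733
import Mathlib

set_option autoImplicit false
open Cfsg

namespace Cfsg.Agent.S0733

open MulAction
open scoped Pointwise

/-- A permutation group of affine type — generated by the translations of a finite vector space `V` over `ZMod p` together with a group `G₀` of linear automorphisms — is primitive on `V` if and only if `G₀` is irreducible on `V`. -/
theorem result {p : ℕ} [Fact p.Prime] {V : Type*} [AddCommGroup V] [Module (ZMod p) V] [Finite V] [Nontrivial V] (G₀ : Subgroup (V ≃ₗ[ZMod p] V)) (G : Subgroup (Equiv.Perm V)) (hG : ∀ σ : Equiv.Perm V, σ ∈ G ↔ ∃ g ∈ G₀, ∃ b : V, ∀ x : V, σ x = (g : V ≃ₗ[ZMod p] V) x + b) : MulAction.IsPreprimitive G V ↔ ∀ W : Submodule (ZMod p) V, (∀ g ∈ G₀, ∀ v ∈ W, (g : V ≃ₗ[ZMod p] V) v ∈ W) → W = ⊥ ∨ W = ⊤ := by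
  have htr : ∀ b : V, Equiv.addRight b ∈ G := fun b => (hG _).mpr ⟨1, G₀.one_mem, b, fun x => rfl⟩
  have hlin : ∀ g ∈ G₀, (g : V ≃ₗ[ZMod p] V).toEquiv ∈ G := fun g hg =>
    (hG _).mpr ⟨g, hg, 0, fun x => by simp⟩
  constructor
  · intro hprim W hW
    have hB : IsBlock G (W : Set V) := by
      rw [isBlock_iff_smul_eq_of_mem]
      intro σ x hx hσx
      obtain ⟨g, hg, b, hb⟩ := (hG σ).mp σ.2
      have hσ : ∀ y, σ • y = g y + b := hb
      have hbW : b ∈ W := by
        rw [hσ] at hσx
        exact (W.add_mem_iff_right (hW g hg x hx)).mp hσx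
      apply Set.eq_of_subset_of_ncard_le _ (by rw [Set.ncard_smul_set])
      rintro _ ⟨y, hy, rfl⟩
      show σ • y ∈ W
      rw [hσ]
      exact W.add_mem (hW g hg y hy) hbW
    rcases hprim.isTrivialBlock_of_isBlock hB with h | h
    · left
      rw [eq_bot_iff]
      intro x hx
      exact h hx W.zero_mem
    · right
      exact SetLike.coe_injective h
  · intro h
    have : IsPretransitive G V := ⟨fun x y => ⟨⟨_, htr (y - x)⟩, by
      show x + (y - x) = y
      abel⟩⟩
    apply IsPreprimitive.of_isTrivialBlock_base (0 : V)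
    intro B h0 hB
    have hadd : ∀ b ∈ B, ∀ x, x ∈ B ↔ x + b ∈ B := by
      intro b hb x
      have h1 := hB.smul_eq_of_mem (g := (⟨_, htr b⟩ : G)) h0 (by
        show 0 + b ∈ B
        simpa using hb)
      conv_rhs => rw [← h1]
      exact (Set.smul_mem_smul_set_iff (a := (⟨_, htr b⟩ : G))).symm
    let A : AddSubgroup V :=
      { carrier := B
        zero_mem' := h0
        add_mem' := fun {x y} hx hy => (hadd y hy x).mp hx
        neg_mem' := fun {x} hx => (hadd x hx (-x)).mpr (by simpa using h0) }
    rcases h (AddSubgroup.toZModSubmodule p A) (by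
      intro g hg v hv
      have h1 := hB.smul_eq_of_mem (g := (⟨_, hlin g hg⟩ : G)) h0 (by
        show g 0 ∈ B
        simpa using h0)
      show g v ∈ B
      rw [← h1]
      exact Set.smul_mem_smul_set (a := (⟨_, hlin g hg⟩ : G)) hv) with h1 | h1
    · left
      have : ∀ x ∈ B, x = 0 := fun x hx => by
        have : x ∈ AddSubgroup.toZModSubmodule p A := hx
        rwa [h1] at this
      intro x hx y hy
      rw [this x hx, this y hy]
    · right
      rw [Set.eq_univ_iff_forall]
      intro x
      have : x ∈ AddSubgroup.toZModSubmodule p A := by rw [h1]; trivial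
      exact this

end Cfsg.Agent.S0733
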