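import Cfsg.Statements.S0734
import Mathlib

set_option autoImplicit false
open Cfsg

namespace Cfsg.Agent.S0734

open MulAction
open scoped Pointwise

/-- Higman's criterion for primitivity: a transitive action on a finite set is primitive if and only if every non-trivial orbital graph (edges = images of a fixed pair of distinct points) is connected. -/
theorem result {G : Type*} [Group G] {Ω : Type*} [Finite Ω] [MulAction G Ω] [MulAction.IsPretransitive G Ω] [Nontrivial Ω] : MulAction.IsPreprimitive G Ω ↔ ∀ a b : Ω, a ≠ b → (SimpleGraph.fromRel fun x y : Ω => ∃ g : G, g • a = x ∧ g • b = y).Connected := by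
  constructor
  · intro hG a b hab
    set Γ := SimpleGraph.fromRel fun x y : Ω => ∃ g : G, g • a = x ∧ g • b = y with hΓ
    have hadj : ∀ (g : G) (x y : Ω), Γ.Adj x y → Γ.Adj (g • x) (g • y) := by
      intro g x y h
      rw [hΓ, SimpleGraph.fromRel_adj] at h ⊢
      refine ⟨fun h' => h.1 (smul_left_cancel g h'), ?_⟩
      rcases h.2 with ⟨k, h1, h2⟩ | ⟨k, h1, h2⟩
      · exact Or.inl ⟨g * k, by rw [mul_smul, h1], by rw [mul_smul, h2]⟩
      · exact Or.inr ⟨g * k, by rw [mul_smul, h1], by rw [mul_smul, h2]⟩
    have hreach : ∀ (g : G) (x y : Ω), Γ.Reachable x y → Γ.Reachable (g • x) (g • y) :=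
      fun g x y h => h.map (⟨fun z => g • z, fun {x y} h => hadj g x y h⟩ : Γ →g Γ)
    have hB : IsBlock G {x | Γ.Reachable a x} := by
      rw [isBlock_iff_smul_eq_of_mem]
      intro g x hx hgx
      ext y
      rw [Set.mem_smul_set_iff_inv_smul_mem]
      simp only [Set.mem_setOf_eq] at hx hgx ⊢
      have h1 : Γ.Reachable a (g • a) := hgx.trans (hreach g _ _ hx).symm
      constructor
      · intro h
        have := hreach g _ _ h
        rw [smul_inv_smul] at this
        exact h1.trans this
      · intro h
        have := hreach g⁻¹ _ _ (h1.symm.trans h)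
        rwa [inv_smul_smul] at this
    have hab' : Γ.Reachable a b := by
      apply SimpleGraph.Adj.reachable
      rw [hΓ, SimpleGraph.fromRel_adj]
      exact ⟨hab, Or.inl ⟨1, by simp, by simp⟩⟩
    rcases hG.isTrivialBlock_of_isBlock hB with h | h
    · exact absurd (h (SimpleGraph.Reachable.refl a) hab') hab
    · have hall : ∀ x, Γ.Reachable a x := fun x => by
        have : x ∈ {x | Γ.Reachable a x} := by rw [h]; trivial
        exact this
      exact ⟨fun x y => (hall x).symm.trans (hall y)⟩
  · intro h
    refine ⟨fun {B} hB => ?_⟩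
    by_cases hs : B.Subsingleton
    · exact Or.inl hs
    right
    obtain ⟨a, ha, b, hb, hab⟩ := Set.not_subsingleton_iff.mp hs
    rw [Set.eq_univ_iff_forall]
    intro x
    have h1 := (h a b hab).preconnected a x
    rw [SimpleGraph.reachable_iff_reflTransGen] at h1
    induction h1 with
    | refl => exact ha
    | tail _ hadj ih =>
      rw [SimpleGraph.fromRel_adj] at hadj
      rcases hadj.2 with ⟨k, h1, h2⟩ | ⟨k, h1, h2⟩
      · rw [← h2, ← hB.smul_eq_of_mem ha (h1 ▸ ih)]
        exact Set.smul_mem_smul_set hb
      · rw [← h1, ← hB.smul_eq_of_mem hb (h2 ▸ ih)]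
        exact Set.smul_mem_smul_set ha

end Cfsg.Agent.S0734
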