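import Cfsg.Statements.S0739
import Mathlib
import Cfsg.Agent.Lib.Perm27.Elem
import Cfsg.Agent.Lib.Zass.OddTwoPoint

set_option autoImplicit false
open Cfsg

namespace Cfsg.Agent.S0739

open MulAction
open scoped commutatorElement

theorem commutator_eq_top {G Ω : Type*} [Group G] [Finite G] [MulAction G Ω] [Finite Ω]
    (hZ : Cfsg.IsZassenhausGroup G Ω) {a b : Ω} (hab : a ≠ b)
    (hodd : Odd (Nat.card ↥(stabilizer G a ⊓ stabilizer G b)))
    (hnil : ∀ q : ℕ, q.Prime → q ∣ Nat.card ↥(stabilizer G a ⊓ stabilizer G b) →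
      ¬ ∃ N : Subgroup G, N.Normal ∧ N.index = q ^ (Nat.card G).factorization q) :
    commutator G = ⊤ := by
  have hP := H13.Zass.pre_of hZ
  have hZ' := H27.ZData.of_zassenhaus hZ
  set H := stabilizer G a ⊓ stabilizer G b with hH
  by_contra hne
  have h1 : commutator G ≠ ⊥ := by
    intro h
    obtain ⟨x, y, hxy⟩ := hP.not_comm
    have : ⁅x, y⁆ ∈ commutator G := Subgroup.commutator_mem_commutator (Subgroup.mem_top _) (Subgroup.mem_top _)
    rw [h, Subgroup.mem_bot, commutatorElement_eq_one_iff_mul_comm] at this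
    exact hxy this
  have h2 : H ⊔ commutator G = ⊤ := by
    rw [eq_top_iff]
    intro g _
    obtain ⟨n, hn, hna, hnb⟩ := H13.Zass.normal_trans2 hZ inferInstance h1 hab
      (show g • a ≠ g • b from fun h => hab (smul_left_cancel g h))
    have h3 : n⁻¹ * g ∈ H := H27.mem_stab2.2 ⟨by rw [mul_smul, ← hna, inv_smul_smul],
      by rw [mul_smul, ← hnb, inv_smul_smul]⟩
    have := Subgroup.mul_mem _ (Subgroup.mem_sup_right (S := H) hn) (Subgroup.mem_sup_left h3)
    simpa using this
  have h3 : (commutator G).index ∣ Nat.card H := by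
    rw [← Subgroup.relIndex_top_right, ← h2, Subgroup.relIndex_sup_right]
    exact Subgroup.relIndex_dvd_card _ _
  obtain ⟨q, hq, hqd⟩ := Nat.exists_prime_and_dvd (fun h => hne (Subgroup.index_eq_one.1 h))
  have := Fact.mk hq
  obtain ⟨U, hU⟩ := hZ'.exists_kernel hab.symm
  have h4 := hZ'.card_eq hU hab.symm
  have h5 := hZ'.card_stab2_dvd hab.symm
  have h6 := hU.card_add_one hab.symm
  have h7 : H.index = (Nat.card U + 1) * Nat.card U := by
    rw [← H.index_mul_card] at h4
    exact Nat.eq_of_mul_eq_mul_right Nat.card_pos h4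
  have hpos := Nat.card_pos (α := U)
  have hq2 : q ≠ 2 := by
    rintro rfl
    exact (Nat.not_even_iff_odd.2 hodd) (even_iff_two_dvd.2 (hqd.trans h3))
  have h8 : ¬ q ∣ H.index := by
    have h9 : q ∣ Nat.card U - 1 := by
      have := (hqd.trans h3).trans h5
      rwa [← h6] at this
    obtain ⟨m, hm⟩ : ∃ m, Nat.card U = m + 1 := ⟨Nat.card U - 1, by omega⟩
    rw [h7, hq.dvd_mul, hm]
    rw [hm, Nat.add_sub_cancel] at h9
    rintro (h | h)
    · rw [add_assoc, Nat.dvd_add_right h9] at h
      exact hq2 ((Nat.prime_dvd_prime_iff_eq hq Nat.prime_two).1 h)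
    · rw [Nat.dvd_add_right h9] at h
      exact hq.one_lt.ne' (Nat.dvd_one.1 h)
  obtain ⟨Q⟩ := (inferInstance : Nonempty (Sylow q H))
  have hzg := H13.Zass.isZGroup_twoStab hP hab hodd
  have hQc : IsCyclic Q := hzg.isZGroup q hq Q
  have h9 : ¬ q ∣ ((Q : Subgroup H).map H.subtype).index := by
    rw [Subgroup.index_map_subtype, hq.dvd_mul]
    rintro (h | h)
    · exact Q.not_dvd_index h
    · exact h8 h
  let P : Sylow q G := (Q.2.map H.subtype).toSylow h9
  have : IsCyclic P := isCyclic_of_surjective _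
    (Subgroup.equivMapOfInjective (Q : Subgroup H) H.subtype H.subtype_injective).surjective
  rcases P.normalizer_le_centralizer_or_le_commutator with h | h
  · refine hnil q hq (hqd.trans h3) ⟨_, inferInstance,
      (MonoidHom.ker_transferSylow_isComplement' P h).symm.index_eq_card.trans ?_⟩
    exact P.card_eq_multiplicity
  · exact P.not_dvd_index (hqd.trans (Subgroup.index_dvd_of_le h))


/-- In a finite Zassenhaus group whose two-point stabiliser `H = G_{a,b}` has odd order `d`, and which has no normal `q`-complement for any prime `q ∣ d`, `H` is cyclic, `C_G(H) = H`, and every element swapping `a` and `b` inverts each element of `H`. -/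
theorem result {G Ω : Type*} [Group G] [Finite G] [MulAction G Ω] [Fintype Ω] (hZ : Cfsg.IsZassenhausGroup G Ω) {a b : Ω} (hab : a ≠ b) (hodd : Odd (Nat.card ↥(MulAction.stabilizer G a ⊓ MulAction.stabilizer G b))) (hnil : ∀ q : ℕ, q.Prime → q ∣ Nat.card ↥(MulAction.stabilizer G a ⊓ MulAction.stabilizer G b) → ¬ ∃ N : Subgroup G, N.Normal ∧ N.index = q ^ (Nat.card G).factorization q) : IsCyclic ↥(MulAction.stabilizer G a ⊓ MulAction.stabilizer G b) ∧ Subgroup.centralizer ((MulAction.stabilizer G a ⊓ MulAction.stabilizer G b : Subgroup G) : Set G) = MulAction.stabilizer G a ⊓ MulAction.stabilizer G b ∧ ∀ s : G, s • a = b → s • b = a → ∀ h ∈ MulAction.stabilizer G a ⊓ MulAction.stabilizer G b, s * h * s⁻¹ = h⁻¹ := by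
  have hP := H13.Zass.pre_of hZ
  have hc := commutator_eq_top hZ hab hodd hnil
  obtain ⟨h1, h2⟩ := H13.Zass.odd_twoStab hP hab (fun ϕ g =>
    Abelianization.commutator_subset_ker ϕ (hc ▸ Subgroup.mem_top g)) hodd
  refine ⟨h1, le_antisymm ?_ ?_, h2⟩
  · intro g hg
    obtain ⟨h, hh1, ha, hb⟩ := hP.exists_ne_one hab
    have hh : h ∈ stabilizer G a ⊓ stabilizer G b := ⟨ha, hb⟩
    have e : h * g = g * h := hg h hh
    have e1 : h • g • a = g • a := by rw [← mul_smul, e, mul_smul, ha]
    have e2 : h • g • b = g • b := by rw [← mul_smul, e, mul_smul, hb]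
    have hne : g • a ≠ g • b := fun h => hab (smul_left_cancel g h)
    rcases hP.eq_or_eq hh1 hab ha hb e1 with e3 | e3 <;>
      rcases hP.eq_or_eq hh1 hab ha hb e2 with e4 | e4
    · exact absurd (e3.trans e4.symm) hne
    · exact ⟨e3, e4⟩
    · exfalso
      have e5 := h2 g e3 e4 h hh
      rw [← e, mul_inv_cancel_right] at e5
      have e6 : orderOf h ∣ 2 := orderOf_dvd_of_pow_eq_one (by
        rw [pow_two]; nth_rewrite 1 [e5]; rw [inv_mul_cancel])
      have e7 := hodd.of_dvd_nat (Subgroup.orderOf_dvd_natCard _ hh)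
      rcases (Nat.dvd_prime Nat.prime_two).1 e6 with e8 | e8
      · exact hh1 (orderOf_eq_one_iff.1 e8)
      · rw [e8] at e7
        exact absurd e7 (by decide)
    · exact absurd (e3.trans e4.symm) hne
  · intro g hg h hh
    exact congrArg Subtype.val (h1.isMulCommutative.is_comm.comm (⟨h, hh⟩ :
      ↥(stabilizer G a ⊓ stabilizer G b)) ⟨g, hg⟩)

end Cfsg.Agent.S0739
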