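import Cfsg.Statements.S0740
import Mathlib
import Cfsg.Agent.Lib.Perm27.Zass

set_option autoImplicit false
open Cfsg

namespace Cfsg.Agent.S0740

open MulAction

/-- In a finite Zassenhaus group any two points `a ≠ b` are swapped by an involution; every such involution has exactly one fixed point when the degree is odd and 0 or 2 fixed points when the degree is even; and if the two-point stabiliser has even order, some such involution has exactly 2 fixed points. -/
theorem result {G Ω : Type*} [Group G] [Finite G] [MulAction G Ω] [Fintype Ω] (hZ : Cfsg.IsZassenhausGroup G Ω) {a b : Ω} (hab : a ≠ b) : (∃ s : G, orderOf s = 2 ∧ s • a = b ∧ s • b = a) ∧ (∀ s : G, orderOf s = 2 → s • a = b → s • b = a → (Odd (Fintype.card Ω) → Nat.card (MulAction.fixedBy Ω s) = 1) ∧ (Even (Fintype.card Ω) → Nat.card (MulAction.fixedBy Ω s) = 0 ∨ Nat.card (MulAction.fixedBy Ω s) = 2)) ∧ (Even (Fintype.card Ω) → Even (Nat.card ↥(MulAction.stabilizer G a ⊓ MulAction.stabilizer G b)) → ∃ s : G, orderOf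 s = 2 ∧ s • a = b ∧ s • b = a ∧ Nat.card (MulAction.fixedBy Ω s) = 2) := by
  have hD := H27.ZData.of_zassenhaus hZ
  have := Fact.mk Nat.prime_two
  have hord : ∀ s : G, s * s = 1 → s ≠ 1 → orderOf s = 2 := fun s h1 h2 =>
    orderOf_eq_prime (by rw [pow_two, h1]) h2
  have hpar : ∀ s : G, orderOf s = 2 →
      Fintype.card Ω % 2 = Nat.card (fixedBy Ω s) % 2 ∧ Nat.card (fixedBy Ω s) ≤ 2 := by
    intro s hs
    refine ⟨?_, hD.card_fixedBy_le (by rintro rfl; simp at hs)⟩
    rw [← Nat.card_eq_fintype_card]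
    exact H27.card_fixedBy_modEq Nat.prime_two (k := 1)
      (by rw [pow_one, ← hs, pow_orderOf_eq_one])
  refine ⟨?_, fun s hs _ _ => ?_, fun h1 h2 => ?_⟩
  · obtain ⟨s, h1, h2, h3⟩ := hD.exists_invol_swap hab.symm
    exact ⟨s, hord s h1 (by rintro rfl; exact hab (by simpa using h2)), h2, h3⟩
  · obtain ⟨h1, h2⟩ := hpar s hs
    rw [Nat.odd_iff, Nat.even_iff]
    omega
  · obtain ⟨x, hx⟩ : ∃ x : Ω, x ≠ a ∧ x ≠ b := by
      by_contra hc
      push Not at hc
      obtain ⟨z, h3, h4, h5, -⟩ := hD.exists_invol_fix hab.symm h2 hab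
      apply h5
      apply hD.faithful
      intro x
      by_cases hx : x = a
      · rw [hx, h3]
      · rw [hc x hx, h4]
    obtain ⟨t, h3, h4, h5, h6⟩ := hD.exists_invol_swap_fix hab.symm h2 hx.1.symm hx.2.symm
    have h7 := hord t h3 (by rintro rfl; exact hab (by simpa using h5))
    refine ⟨t, h7, h5, h6, ?_⟩
    obtain ⟨h8, h9⟩ := hpar t h7
    have : Nonempty (fixedBy Ω t) := ⟨⟨x, h4⟩⟩
    have := Nat.card_pos (α := fixedBy Ω t)
    rw [Nat.even_iff] at h1
    omega

end Cfsg.Agent.S0740
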