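import Cfsg.Statements.S0753
import Mathlib

set_option autoImplicit false
open Cfsg

namespace Cfsg.Agent.S0753

/-- If σ is a ring endomorphism of the field F other than the identity and B is a σ-sesquilinear conjugate-symmetric form with B v v = 0 for every v, then B = 0. -/
theorem result {F V : Type*} [Field F] [AddCommGroup V] [Module F V] (σ : F →+* F) (hσ : σ ≠ RingHom.id F) (B : V →ₛₗ[σ] V →ₗ[F] F) (hS : B.IsSymm) (h0 : ∀ v : V, B v v = 0) : B = 0 := by
  ext x y
  simp only [LinearMap.zero_apply]
  have hneg : ∀ x y, B y x = -B x y := fun x y => by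
    have := h0 (x + y)
    simp only [map_add, LinearMap.add_apply, h0] at this
    linear_combination this
  by_contra hb
  apply hσ
  ext a
  have h1 := hS.eq x y
  have h2 := hS.eq x (a • y)
  rw [hneg x y] at h1
  rw [hneg x (a • y), map_smul, smul_eq_mul, map_mul, h1] at h2
  simp only [RingHom.id_apply]
  apply mul_right_cancel₀ hb
  linear_combination -h2

end Cfsg.Agent.S0753
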