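import Cfsg.Statements.S0757
import Mathlib
import Cfsg.Agent.Lib.Forms.Classify

set_option autoImplicit false
open Cfsg

namespace Cfsg.Agent.S0757

theorem polar_wss {F : Type*} [Field F] {n : ℕ} (w : Fin n → F) (i j : Fin n) :
    QuadraticMap.polar (QuadraticMap.weightedSumSquares F w) (Pi.single i 1) (Pi.single j 1) =
      Matrix.diagonal (fun i => 2 * w i) i j := by
  simp only [QuadraticMap.polar, QuadraticMap.weightedSumSquares_apply, smul_eq_mul,
    ← Finset.sum_sub_distrib, Pi.add_apply]
  rw [Finset.sum_eq_single i]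
  · by_cases hij : i = j
    · subst hij; simp; ring
    · simp [hij]
  · intro k _ hk
    simp [hk]
  · simp

/-- The two diagonal forms Σ x_i^2 and Σ_(i<n) x_i^2 + α x_n^2 on F^(n+1), with α a non-square and 2 ≠ 0 in F, are inequivalent quadratic forms (so over a finite field of odd order there are exactly two classes of non-singular symmetric bilinear forms in each dimension). -/
theorem result {F : Type*} [Field F] (h2 : (2 : F) ≠ 0) (n : ℕ) (α : F) (hα : ¬ IsSquare α) : ¬ (QuadraticMap.weightedSumSquares F (fun _ : Fin (n + 1) => (1 : F))).Equivalent (QuadraticMap.weightedSumSquares F (fun i : Fin (n + 1) => if i = Fin.last n then α else (1 : F))) := by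
  rintro ⟨g⟩
  obtain ⟨t, ht, h⟩ := H28.det_gram_eq (QuadraticMap.polarBilin
    (QuadraticMap.weightedSumSquares F (fun i : Fin (n + 1) => if i = Fin.last n then α else (1 : F))))
    (Pi.basisFun F _) ((Pi.basisFun F _).map g.toLinearEquiv)
  have e1 : (Matrix.of fun i j => QuadraticMap.polarBilin
      (QuadraticMap.weightedSumSquares F (fun i : Fin (n + 1) => if i = Fin.last n then α else (1 : F)))
      (((Pi.basisFun F _).map g.toLinearEquiv) i) (((Pi.basisFun F _).map g.toLinearEquiv) j)) =
      Matrix.diagonal (fun _ => 2 * (1 : F)) := by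
    ext i j
    rw [← polar_wss]
    simp only [Matrix.of_apply, QuadraticMap.polarBilin_apply_apply, Module.Basis.map_apply,
      Pi.basisFun_apply, QuadraticMap.polar, ← map_add]
    erw [g.map_app, g.map_app, g.map_app]
  have e2 : (Matrix.of fun i j => QuadraticMap.polarBilin
      (QuadraticMap.weightedSumSquares F (fun i : Fin (n + 1) => if i = Fin.last n then α else (1 : F)))
      ((Pi.basisFun F _) i) ((Pi.basisFun F _) j)) =
      Matrix.diagonal (fun i => 2 * (if i = Fin.last n then α else (1 : F))) := by
    ext i j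
    rw [← polar_wss]
    simp
  rw [e1, e2, Matrix.det_diagonal, Matrix.det_diagonal, Finset.prod_mul_distrib,
    Finset.prod_mul_distrib, Finset.prod_ite_eq'] at h
  simp only [Finset.prod_const_one, Finset.mem_univ, if_true] at h
  have h2' : ∏ _i : Fin (n + 1), (2 : F) ≠ 0 := Finset.prod_ne_zero_iff.mpr fun _ _ => h2
  apply hα
  refine ⟨t⁻¹, ?_⟩
  field_simp
  apply mul_left_cancel₀ h2'
  linear_combination -h

end Cfsg.Agent.S0757
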