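import Cfsg.Statements.S0759
import Mathlib
import Cfsg.Agent.Lib.Forms.Classify

set_option autoImplicit false
open Cfsg

namespace Cfsg.Agent.S0759

open Matrix in
theorem exists_matrix {F : Type*} [Field F] [Fintype F] (h2 : (2 : F) ≠ 0) (m : ℕ)
    (h : ¬ (Fintype.card F % 4 = 3 ∧ Odd m)) : ∃ A : Matrix (Fin m) (Fin m) F, Aᵀ * A = -1 := by
  by_cases h3 : Fintype.card F % 4 = 3
  · have hm : Even m := Nat.not_odd_iff_even.mp fun ho => h ⟨h3, ho⟩
    obtain ⟨k, rfl⟩ := hm
    obtain ⟨a, b, hab⟩ := H28.exists_binary_repr h2 (one_ne_zero (α := F)) one_ne_zero (-1)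
    let A : Matrix (Fin k ⊕ Fin k) (Fin k ⊕ Fin k) F :=
      Matrix.fromBlocks (a • 1) (b • 1) (b • 1) (-a • 1)
    have hA : Aᵀ * A = -1 := by
      have hn : -a = (-1) * a := by ring
      rw [← Matrix.fromBlocks_one, Matrix.fromBlocks_neg]
      simp only [A, Matrix.fromBlocks_transpose, Matrix.fromBlocks_multiply, Matrix.transpose_smul,
        Matrix.transpose_one, Matrix.smul_mul, Matrix.mul_smul, Matrix.one_mul, smul_smul,
        ← add_smul]
      rw [show a * a + b * b = -1 by linear_combination hab,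
        show b * a + -a * b = 0 by ring, show a * b + b * -a = 0 by ring,
        show b * b + -a * -a = -1 by linear_combination hab]
      simp
    refine ⟨A.submatrix finSumFinEquiv.symm finSumFinEquiv.symm, ?_⟩
    rw [Matrix.transpose_submatrix, Matrix.submatrix_mul_equiv, hA]
    ext i j
    simp [Matrix.one_apply]
  · obtain ⟨r, hr⟩ := FiniteField.isSquare_neg_one_iff.mpr h3
    exact ⟨r • 1, by simp [smul_smul, ← hr]⟩

/-- Type of the orthonormal form: over a finite field of odd order q and for m ≥ 1, the quadratic form Σ_(i<2m) x_i² on F^(2m) admits an m-dimensional subspace on which it vanishes identically if and only if it is not the case that q ≡ 3 (mod 4) and m is odd. -/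
theorem result {F : Type*} [Field F] [Fintype F] (h2 : (2 : F) ≠ 0) (m : ℕ) (hm : 1 ≤ m) : (∃ W : Submodule F (Fin (2 * m) → F), Module.finrank F W = m ∧ ∀ w ∈ W, ∑ i, w i ^ 2 = 0) ↔ ¬ (Fintype.card F % 4 = 3 ∧ Odd m) := by
  have e : Fin m ⊕ Fin m ≃ Fin (2 * m) := finSumFinEquiv.trans (finCongr (two_mul m).symm)
  constructor
  · rintro ⟨W, hW, hW0⟩ ⟨h3, hodd⟩
    let B : LinearMap.BilinForm F (Fin (2 * m) → F) := Matrix.toBilin' 1
    have hBa : ∀ x y, B x y = ∑ i, x i * y i := fun x y => by
      simp [B, Matrix.toBilin'_apply', dotProduct]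
    have hS : ∀ x y, B x y = B y x := fun x y => by simp [hBa, mul_comm]
    have hB : B.SeparatingLeft := fun x hx => by
      ext i
      simpa [hBa, Pi.single_apply] using hx (Pi.single i 1)
    have hc : (2 : F)⁻¹ + RingHom.id F (2 : F)⁻¹ = 1 := by
      simp only [RingHom.id_apply]; field_simp; norm_num
    let P := H28.PQ.ofHerm (σ := RingHom.id F) (fun _ => rfl) _ hc B hS
    have hself : ∀ w ∈ W, B w w = 0 := fun w hw => by
      rw [hBa, ← hW0 w hw]; simp [sq]
    have hWW : ∀ x ∈ W, ∀ y ∈ W, B x y = 0 := fun x hx y hy => by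
      have := hself _ (W.add_mem hx hy)
      simp only [map_add, LinearMap.add_apply, hself x hx, hself y hy, hS y x] at this
      apply mul_left_cancel₀ h2
      linear_combination this
    let c := Module.finBasisOfFinrankEq F W hW
    obtain ⟨f, hef⟩ := P.exists_hyp_of_totSing hB (fun i => (c i : Fin (2 * m) → F))
      (c.linearIndependent.map' W.subtype (Submodule.ker_subtype W))
      (fun i j => hWW _ (c i).2 _ (c j).2) (fun i => H28.PQ.ofHerm_q_mem.mpr (hself _ (c i).2))
    have : Nonempty (Fin m ⊕ Fin m) := ⟨.inl ⟨0, hm⟩⟩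
    let b := basisOfLinearIndependentOfCardEqFinrank hef.linearIndependent (by simp [two_mul])
    obtain ⟨t, -, ht⟩ := H28.det_gram_eq B ((Pi.basisFun F _).reindex e.symm) b
    have e1 : (Matrix.of fun i j => B (b i) (b j)) = Matrix.fromBlocks 0 1 1 0 := by
      have h1 : ∀ i j, B (c i) (c j) = 0 := hef.ee
      have h2 : ∀ i j, B (f i) (f j) = 0 := hef.ff
      have h3 : ∀ i j, B (c i) (f j) = if i = j then 1 else 0 := hef.ef
      have h4 : ∀ i j, B (f i) (c j) = if i = j then 1 else 0 := hef.fe
      ext (i | i) (j | j) <;> simp [b, h1, h2, h3, h4, Matrix.one_apply]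
    have e2 : (Matrix.of fun i j => B (((Pi.basisFun F _).reindex e.symm) i)
        (((Pi.basisFun F _).reindex e.symm) j)) = 1 := by
      ext i j
      simp [hBa, Matrix.one_apply, Pi.single_apply, eq_comm]
    have e3 : (Matrix.fromBlocks 0 1 1 0 : Matrix (Fin m ⊕ Fin m) (Fin m ⊕ Fin m) F).det = -1 := by
      have : (Matrix.fromBlocks 0 1 1 0 : Matrix (Fin m ⊕ Fin m) (Fin m ⊕ Fin m) F) =
          Matrix.fromBlocks 1 1 0 1 * (Matrix.fromBlocks 1 0 (-1) 1 *
            Matrix.fromBlocks (-1) 1 0 1) := by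
        simp [Matrix.fromBlocks_multiply]
      rw [this, Matrix.det_mul, Matrix.det_mul, Matrix.det_fromBlocks_zero₂₁,
        Matrix.det_fromBlocks_zero₁₂, Matrix.det_fromBlocks_zero₂₁, Matrix.det_neg]
      simp [hodd.neg_one_pow]
    rw [e1, e2, e3, Matrix.det_one, mul_one] at ht
    exact FiniteField.isSquare_neg_one_iff.mp ⟨t, by rw [ht, sq]⟩ h3
  · intro h
    obtain ⟨A, hA⟩ := exists_matrix h2 m h
    let φ : (Fin m → F) →ₗ[F] (Fin (2 * m) → F) :=
      { toFun := fun x i => Sum.elim x (A.mulVec x) (e.symm i)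
        map_add' := fun x y => by
          ext i
          simp only [Pi.add_apply, Matrix.mulVec_add]
          rcases e.symm i with j | j <;> simp
        map_smul' := fun a x => by
          ext i
          simp only [Pi.smul_apply, Matrix.mulVec_smul]
          rcases e.symm i with j | j <;> simp }
    have hφ : Function.Injective φ := fun x y hxy => by
      ext j
      simpa [φ] using congrFun hxy (e (.inl j))
    refine ⟨LinearMap.range φ, by rw [LinearMap.finrank_range_of_inj hφ]; simp, ?_⟩
    rintro _ ⟨x, rfl⟩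
    rw [← e.sum_comp]
    have : A.mulVec x ⬝ᵥ A.mulVec x = -(x ⬝ᵥ x) := by
      rw [Matrix.dotProduct_mulVec, Matrix.vecMul_mulVec, hA, Matrix.vecMul_neg,
        Matrix.vecMul_one, neg_dotProduct]
    simp only [φ, LinearMap.coe_mk, AddHom.coe_mk, Equiv.symm_apply_apply, Fintype.sum_sum_type,
      Sum.elim_inl, Sum.elim_inr, sq]
    simp only [dotProduct] at this
    rw [this]; ring

end Cfsg.Agent.S0759
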