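import Cfsg.Statements.S0760
import Mathlib
import Cfsg.Agent.Lib.Forms.Perp

set_option autoImplicit false
open Cfsg

namespace Cfsg.Agent.S0760

/-- Witt index is well defined: if Q is a quadratic form on a finite-dimensional space V over a finite field with non-degenerate polar form, and W₁, W₂ are subspaces on which Q vanishes that are maximal with this property, then W₁ and W₂ have the same dimension, and twice this dimension is at most dim V. -/
theorem result {F V : Type*} [Field F] [Finite F] [AddCommGroup V] [Module F V] [FiniteDimensional F V] (Q : QuadraticForm F V) (hQ : (QuadraticMap.polarBilin Q).Nondegenerate) (W₁ W₂ : Submodule F V) (h₁ : ∀ w ∈ W₁, Q w = 0) (h₂ : ∀ w ∈ W₂, Q w = 0) (hmax₁ : ∀ W : Submodule F V, W₁ ≤ W → (∀ w ∈ W, Q w = 0) → W = W₁) (hmax₂ : ∀ W : Submodule F V, W₂ ≤ W → (∀ w ∈ W, Q w = 0) → W = W₂) : Module.finrank F W₁ = Module.finrank F W₂ ∧ 2 * Module.finrank F W₁ ≤ Module.finrank F V := by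
  let P := H28.PQ.ofQuad Q
  have key : ∀ W : Submodule F V, P.TotSing W ↔ ∀ w ∈ W, Q w = 0 := fun W =>
    ⟨fun h w hw => AddSubgroup.mem_bot.mp (h.1 w hw), fun h => ⟨fun w hw =>
      AddSubgroup.mem_bot.mpr (h w hw), fun x hx y hy => by
        change QuadraticMap.polar Q x y = 0
        simp [QuadraticMap.polar, h x hx, h y hy, h _ (W.add_mem hx hy)]⟩⟩
  have t1 := (key _).mpr h₁
  have t2 := (key _).mpr h₂
  exact ⟨le_antisymm
    (t2.finrank_le_of_maximal hQ.1 t1 fun U hU hU' => hmax₂ U hU ((key _).mp hU'))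
    (t1.finrank_le_of_maximal hQ.1 t2 fun U hU hU' => hmax₁ U hU ((key _).mp hU')),
    t1.two_mul_finrank_le hQ.1⟩

end Cfsg.Agent.S0760
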