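import Cfsg.Statements.S0761
import Mathlib
import Cfsg.Agent.Lib.Forms.Witt

set_option autoImplicit false
open Cfsg

namespace Cfsg.Agent.S0761

/-- Hyperbolic partners: let B be a non-degenerate bilinear form on a finite-dimensional space, either alternating, or symmetric with 2 ≠ 0. If Z is a subspace on which B vanishes, x ∉ Z is isotropic and orthogonal to Z, then there is an isotropic y with B x y = 1 which is orthogonal to Z. -/
theorem result {F V : Type*} [Field F] [AddCommGroup V] [Module F V] [FiniteDimensional F V] (B : LinearMap.BilinForm F V) (hB : B.Nondegenerate) (hform : B.IsAlt ∨ (B.IsSymm ∧ (2 : F) ≠ 0)) (x : V) (Z : Submodule F V) (hxZ : x ∉ Z) (hx : B x x = 0) (hxz : ∀ z ∈ Z, B x z = 0) (hZ : ∀ z ∈ Z, ∀ z' ∈ Z, B z z' = 0) : ∃ y : V, B y y = 0 ∧ B x y = 1 ∧ ∀ z ∈ Z, B z y = 0 := by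
  rcases hform with hA | ⟨hS, h2⟩
  · obtain ⟨w, -, hw, hwZ⟩ := (H28.PQ.ofAlt B hA).exists_partner hB.1 Z hxZ trivial hxz
    have hw : B w x = 1 := hw
    have hwZ : ∀ z ∈ Z, B w z = 0 := hwZ
    refine ⟨-w, hA _, ?_, fun z hz => ?_⟩
    · rw [map_neg, hA.neg_eq, hw]
    · rw [map_neg, hA.neg_eq, hwZ z hz]
  · have hc : (2 : F)⁻¹ + RingHom.id F (2 : F)⁻¹ = 1 := by
      simp only [RingHom.id_apply]; field_simp; norm_num
    obtain ⟨w, hq, hw, hwZ⟩ := (H28.PQ.ofHerm (σ := RingHom.id F) (fun _ => rfl) _ hc B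
      hS.eq).exists_partner hB.1 Z hxZ (H28.PQ.ofHerm_q_mem.mpr hx) hxz
    have hw : B w x = 1 := hw
    have hwZ : ∀ z ∈ Z, B w z = 0 := hwZ
    exact ⟨w, H28.PQ.ofHerm_q_mem.mp hq, by rw [hS.eq, hw], fun z hz => by rw [hS.eq, hwZ z hz]⟩

end Cfsg.Agent.S0761
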