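import Cfsg.Statements.S0763
import Mathlib
import Cfsg.Agent.Lib.Forms.Classify

set_option autoImplicit false
open Cfsg

namespace Cfsg.Agent.S0763

/-- Binary quadratic forms in characteristic two over a finite field: if Q is a quadratic form on a 2-dimensional space whose polar form is non-degenerate, then either there are vectors v, w with Q v = Q w = 0 and polar value 1 (Q is xy in these coordinates), or there are v, w and μ with Q v = 1, Q w = μ, polar value 1 and x² + x + μ without roots in F (Q is x² + xy + μy²). -/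
theorem result {F V : Type*} [Field F] [Finite F] [CharP F 2] [AddCommGroup V] [Module F V] (Q : QuadraticForm F V) (h2 : Module.finrank F V = 2) (hQ : (QuadraticMap.polarBilin Q).Nondegenerate) : (∃ v w : V, LinearIndependent F ![v, w] ∧ Q v = 0 ∧ Q w = 0 ∧ QuadraticMap.polar Q v w = 1) ∨ (∃ (v w : V) (μ : F), LinearIndependent F ![v, w] ∧ (∀ x : F, x ^ 2 + x + μ ≠ 0) ∧ Q v = 1 ∧ Q w = μ ∧ QuadraticMap.polar Q v w = 1) := by
  have : FiniteDimensional F V := Module.finite_of_finrank_eq_succ h2
  have h20 : (2 : F) = 0 := CharTwo.two_eq_zero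
  have hli : ∀ v w : V, QuadraticMap.polar Q v w = 1 → LinearIndependent F ![v, w] := by
    intro v w h
    have hv : v ≠ 0 := by
      rintro rfl
      simp at h
    rw [LinearIndependent.pair_iff' hv]
    rintro a rfl
    simp [QuadraticMap.polar_self, two_smul, ← two_mul, h20] at h
  by_cases hs : ∃ v, v ≠ 0 ∧ Q v = 0
  · obtain ⟨v, hv, hQv⟩ := hs
    obtain ⟨w, hw, hwv, -⟩ := (H28.PQ.ofQuad Q).exists_partner hQ.1 ⊥ (d := v) (by simpa using hv)
      (AddSubgroup.mem_bot.mpr hQv) (by simp)
    have hwv : QuadraticMap.polar Q w v = 1 := hwv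
    rw [QuadraticMap.polar_comm] at hwv
    exact Or.inl ⟨v, w, hli v w hwv, hQv, AddSubgroup.mem_bot.mp hw, hwv⟩
  · push Not at hs
    right
    have : Nontrivial V := Module.nontrivial_of_finrank_eq_succ h2
    obtain ⟨v0, hv0⟩ := exists_ne (0 : V)
    obtain ⟨t, ht⟩ := H28.exists_sq_eq_of_two_eq_zero h20 (Q v0)⁻¹
    have hQ1 : Q (t • v0) = 1 := by
      rw [QuadraticMap.map_smul, ← sq, ht, smul_eq_mul, inv_mul_cancel₀ (hs v0 hv0)]
    have hv : t • v0 ∉ (⊥ : Submodule F V) := by
      intro h
      rw [(Submodule.mem_bot F).mp h] at hQ1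
      simp at hQ1
    obtain ⟨w, -, hwv⟩ := H28.exists_orth_of_notMem (σ := RingHom.id F) (fun _ => rfl)
      (QuadraticMap.polarBilin Q) hQ.1 ⊥ hv
    have hwv : QuadraticMap.polar Q w (t • v0) = 1 := hwv
    rw [QuadraticMap.polar_comm] at hwv
    refine ⟨t • v0, w, Q w, hli _ _ hwv, fun x hx => ?_, hQ1, rfl, hwv⟩
    refine hs (x • t • v0 + w) (fun h0 => ?_) ?_
    · have := (LinearIndependent.pair_iff.mp (hli _ _ hwv)) x 1 (by simpa using h0)
      exact one_ne_zero this.2
    · rw [QuadraticMap.map_add Q, QuadraticMap.polar_smul_left, hwv, QuadraticMap.map_smul, hQ1]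
      simp only [smul_eq_mul]
      linear_combination hx

end Cfsg.Agent.S0763
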