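import Cfsg.Statements.S0768
import Mathlib
import Cfsg.Agent.Lib.Sp.Simple

set_option autoImplicit false
open scoped LinearAlgebra.Projectivization
open Cfsg

namespace Cfsg.Agent.S0768

/-- Primitivity: for m ≥ 1 and F finite, the symplectic group of the form sympForm (as a subgroup of the general linear group) acts primitively on the projective space of F^(2m). -/
theorem result {F : Type*} [Field F] [Finite F] (m : ℕ) (hm : 1 ≤ m) : MulAction.IsPreprimitive ↥(Cfsg.spGL m F) (ℙ F (Fin m ⊕ Fin m → F)) := by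
  let φ : H11.Sp.G m F → ↥(Cfsg.spGL m F) := fun g =>
    ⟨⟨g.1, (g⁻¹).1, congrArg Subtype.val (mul_inv_cancel g), congrArg Subtype.val (inv_mul_cancel g)⟩,
      fun u v => H11.Sp.form_apply g u v⟩
  have hφ : ∀ (g : H11.Sp.G m F) (v : Fin m ⊕ Fin m → F) (hv : v ≠ 0),
      φ g • Projectivization.mk F v hv =
        Projectivization.mk F (g.1.mulVec v) (H11.Sp.mulVec_ne_zero g hv) := fun g v hv => rfl
  have htr : MulAction.IsPretransitive ↥(Cfsg.spGL m F) (ℙ F (Fin m ⊕ Fin m → F)) := by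
    refine ⟨fun x y => ?_⟩
    induction x using Projectivization.ind with | h v hv => ?_
    induction y using Projectivization.ind with | h w hw => ?_
    obtain ⟨g, hg⟩ := H11.Sp.exists_mulVec_eq hv hw
    refine ⟨φ g, ?_⟩
    rw [hφ]
    congr 1
  refine { toIsPretransitive := htr, isTrivialBlock_of_isBlock := ?_ }
  intro B hB
  by_cases hs : B.Subsingleton
  · exact Or.inl hs
  right
  rw [Set.not_subsingleton_iff] at hs
  obtain ⟨x, hx, y, hy, hxy⟩ := hs
  induction x using Projectivization.ind with | h u hu => ?_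
  induction y using Projectivization.ind with | h v hv => ?_
  let E : (Fin m ⊕ Fin m → F) → (Fin m ⊕ Fin m → F) → Prop := fun a b =>
    ∃ (ha : a ≠ 0) (hb : b ≠ 0) (g : ↥(Cfsg.spGL m F)),
      g • Projectivization.mk F a ha ∈ B ∧ g • Projectivization.mk F b hb ∈ B
  have hblock : ∀ (g : ↥(Cfsg.spGL m F)) p, p ∈ B → g • p ∈ B → ∀ p' ∈ B, g • p' ∈ B := by
    intro g p hp hgp p' hp'
    have := hB.smul_eq_of_mem hp hgp
    rw [← this]
    exact Set.smul_mem_smul_set hp'
  have key : ∀ {a b : Fin m ⊕ Fin m → F}, a ≠ 0 → b ≠ 0 → E a b := by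
    intro a b ha hb
    refine H11.Sp.rel_of_invariant E ?_ ?_ ?_ ?_ (u := u) hv ?_ ⟨hu, hv, 1, by simpa using hx, by simpa using hy⟩ ha hb
    · rintro a b ⟨ha, hb, g, h1, h2⟩
      exact ⟨hb, ha, g, h2, h1⟩
    · rintro a b c ⟨ha, hb, g, h1, h2⟩ ⟨hb', hc, g', h1', h2'⟩
      refine ⟨ha, hc, g, h1, ?_⟩
      have := hblock (g * g'⁻¹) _ h1' (by rw [mul_smul, inv_smul_smul]; exact h2) _ h2'
      rwa [mul_smul, inv_smul_smul] at this
    · intro a c ha hc
      obtain ⟨g, hg⟩ := htr.exists_smul_eq (Projectivization.mk F a ha) (Projectivization.mk F u hu)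
      refine ⟨ha, smul_ne_zero hc ha, g, hg ▸ hx, ?_⟩
      have : Projectivization.mk F (c • a) (smul_ne_zero hc ha) = Projectivization.mk F a ha :=
        (Projectivization.mk_eq_mk_iff' F _ _ _ _).2 ⟨c, rfl⟩
      rw [this, hg]; exact hx
    · rintro g a b ⟨ha, hb, k, h1, h2⟩
      refine ⟨H11.Sp.mulVec_ne_zero g ha, H11.Sp.mulVec_ne_zero g hb, k * (φ g)⁻¹, ?_, ?_⟩
      · rw [← hφ g a ha, mul_smul, inv_smul_smul]; exact h1
      · rw [← hφ g b hb, mul_smul, inv_smul_smul]; exact h2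
    · intro c hc
      exact hxy ((Projectivization.mk_eq_mk_iff' F _ _ _ _).2 ⟨c, hc.symm⟩)
  rw [Set.eq_univ_iff_forall]
  intro z
  induction z using Projectivization.ind with | h w hw => ?_
  obtain ⟨_, _, g, h1, h2⟩ := key hu hw
  have := hblock g⁻¹ _ h1 (by rw [inv_smul_smul]; exact hx) _ h2
  rwa [inv_smul_smul] at this

end Cfsg.Agent.S0768
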