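import Cfsg.Statements.S0770
import Mathlib

set_option autoImplicit false
open Cfsg

namespace Cfsg.Agent.S0770

/-- For a field with at least 3 elements, an invertible matrix normalises the subgroup of invertible diagonal matrices of GL_n if and only if it is monomial (exactly one non-zero entry in each row). -/
theorem result {F : Type*} [Field F] (hF : ∃ a : F, a ≠ 0 ∧ a ≠ 1) (n : ℕ) (g : Matrix.GeneralLinearGroup (Fin n) F) : g ∈ Subgroup.normalizer ((Units.map (Matrix.diagonalRingHom (Fin n) F).toMonoidHom).range : Subgroup (Matrix.GeneralLinearGroup (Fin n) F)) ↔ ∀ i : Fin n, ∃! j : Fin n, (g : Matrix (Fin n) (Fin n) F) i j ≠ 0 := by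
  have hT : ∀ t : Matrix.GeneralLinearGroup (Fin n) F,
      t ∈ (Units.map (Matrix.diagonalRingHom (Fin n) F).toMonoidHom).range ↔
        ∃ d : Fin n → F, t.val = Matrix.diagonal d := by
    intro t
    constructor
    · rintro ⟨d, rfl⟩
      exact ⟨d.val, rfl⟩
    · rintro ⟨d, hd⟩
      have : IsUnit d := by
        rw [← Matrix.isUnit_diagonal, ← hd]
        exact t.isUnit
      exact ⟨this.unit, Units.ext hd.symm⟩
  have hrow : ∀ i, ∃ j, g.val i j ≠ 0 := fun i => by
    by_contra h
    push Not at h
    exact g.det_ne_zero (Matrix.det_eq_zero_of_row_eq_zero i h)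
  rw [Subgroup.mem_normalizer_iff]
  constructor
  · intro h i
    obtain ⟨j, hj⟩ := hrow i
    refine ⟨j, hj, fun k hk => ?_⟩
    by_contra hkj
    obtain ⟨a, ha0, ha1⟩ := hF
    have hd : IsUnit (Matrix.diagonal (Function.update (1 : Fin n → F) j a)) := by
      rw [Matrix.isUnit_diagonal, Pi.isUnit_iff]
      intro l
      by_cases hl : l = j <;> simp [hl, ha0]
    obtain ⟨d', hd'⟩ := (hT _).mp ((h hd.unit).mp ((hT _).mpr ⟨_, rfl⟩))
    have h1 : g.val * Matrix.diagonal (Function.update (1 : Fin n → F) j a) =
        Matrix.diagonal d' * g.val := by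
      rw [← hd']; simp
    have h2 := congrFun (congrFun h1 i) j
    have h3 := congrFun (congrFun h1 i) k
    simp only [Matrix.mul_diagonal, Matrix.diagonal_mul, Function.update_self,
      Function.update_of_ne hkj, Pi.one_apply] at h2 h3
    rw [mul_comm] at h2 h3
    exact ha1 ((mul_right_cancel₀ hj h2).trans (mul_right_cancel₀ hk h3).symm)
  · intro h
    choose σ hσ hσ' using h
    have hz : ∀ i j, j ≠ σ i → g.val i j = 0 := fun i j hj => by
      by_contra h0
      exact hj (hσ' i j h0)
    have hcomm : ∀ d : Fin n → F, g.val * Matrix.diagonal d = Matrix.diagonal (d ∘ σ) * g.val := by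
      intro d
      ext i j
      simp only [Matrix.mul_diagonal, Matrix.diagonal_mul, Function.comp]
      by_cases hj : j = σ i
      · rw [hj, mul_comm]
      · simp [hz i j hj]
    have hsurj : Function.Surjective σ := by
      intro j
      by_contra h0
      push Not at h0
      exact g.det_ne_zero (Matrix.det_eq_zero_of_column_eq_zero j fun i => hz i j (h0 i).symm)
    have hbij : Function.Bijective σ := Finite.surjective_iff_bijective.mp hsurj
    intro t
    rw [hT, hT]
    constructor
    · rintro ⟨d, hd⟩
      exact ⟨d ∘ σ, by rw [Units.val_mul, Units.val_mul, hd, hcomm]; simp⟩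
    · rintro ⟨d, hd⟩
      refine ⟨d ∘ (Equiv.ofBijective σ hbij).symm, ?_⟩
      have h1 := hcomm (d ∘ (Equiv.ofBijective σ hbij).symm)
      have h2 : (d ∘ (Equiv.ofBijective σ hbij).symm) ∘ σ = d := by
        ext i; simp
      rw [h2, ← hd] at h1
      apply (Units.mul_right_inj g).mp
      rw [h1]; simp

end Cfsg.Agent.S0770
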