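import Cfsg.Statements.S0773
import Mathlib
import Cfsg.Agent.Lib.Forms.Coord
import Cfsg.Agent.Lib.GL.Basic

set_option autoImplicit false
open Cfsg

namespace Cfsg.Agent.S0773

/-- The stabilisers in GL_n(F), F finite, of the coordinate subspaces of dimensions k and n − k are isomorphic groups, but when 2k ≠ n (and 0 < k < n) no element of GL_n conjugates one onto the other. -/
theorem result {F : Type*} [Field F] [Finite F] (n k : ℕ) (hk0 : 0 < k) (hkn : k < n) (h2 : 2 * k ≠ n) : Nonempty (↥(Cfsg.stabilizing (Cfsg.glToMat (Fin n) F) {v : Fin n → F | ∀ i : Fin n, k ≤ (i : ℕ) → v i = 0}) ≃* ↥(Cfsg.stabilizing (Cfsg.glToMat (Fin n) F) {v : Fin n → F | ∀ i : Fin n, n - k ≤ (i : ℕ) → v i = 0})) ∧ ∀ g : Matrix.GeneralLinearGroup (Fin n) F, (Cfsg.stabilizing (Cfsg.glToMat (Fin n) F) {v : Fin n → F | ∀ i : Fin n, k ≤ (i : ℕ) → v i = 0}).map (MulAut.conj g).toMonoidHom ≠ Cfsg.stabilizing (Cfsg.glToMat (Fin n) F) {v : Fin n → F | ∀ i : Fin n, n - k ≤ (i : ℕ) → v i = 0} := by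
  constructor
  · let φ := (H28.invTranspose (Fin n) F).trans (H10.glReindex F Fin.revPerm)
    refine ⟨(φ.subgroupMap _).trans (MulEquiv.subgroupCongr ?_)⟩
    ext g
    refine (Subgroup.mem_map_equiv (f := φ)).trans ?_
    obtain ⟨g, rfl⟩ := φ.surjective g
    rw [MulEquiv.symm_apply_apply, ← Subgroup.inv_mem_iff]
    refine H28.mem_stabilizing_firstCoords.trans
      (Iff.trans ?_ H28.mem_stabilizing_firstCoords.symm)
    have hφ : ∀ i j, (φ g).val i j = (g⁻¹).val j.rev i.rev := fun i j => rfl
    simp only [hφ]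
    constructor
    · intro h i j hi hj
      exact h _ _ (by rw [Fin.val_rev]; omega) (by rw [Fin.val_rev]; omega)
    · intro h i j hi hj
      simpa using h j.rev i.rev (by rw [Fin.val_rev]; omega) (by rw [Fin.val_rev]; omega)
  · intro g hg
    have h1 := H28.finrank_firstCoords (F := F) hkn.le
    have h3 := H28.finrank_firstCoords (F := F) (Nat.sub_le n k)
    have hle : H28.stabSet F (H28.firstCoords F n (n - k) : Set (Fin n → F)) ≤
        H28.stabSet F ((H28.firstCoords F n k).map (H28.glEquiv g).toLinearMap :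
          Set (Fin n → F)) := by
      intro x hx
      obtain ⟨y, rfl⟩ := H28.glEquiv.surjective x
      have hy : y ∈ Cfsg.stabilizing (Cfsg.glToMat (Fin n) F)
        {v : Fin n → F | ∀ i : Fin n, n - k ≤ (i : ℕ) → v i = 0} := hx
      rw [← hg] at hy
      obtain ⟨z, hz, rfl⟩ := hy
      have := (H28.conj_mem_stabSet_iff (S := (H28.firstCoords F n k : Set (Fin n → F)))
        (H28.glEquiv g) (H28.glEquiv z)).mpr hz
      simpa using this
    rcases H28.eq_of_stabSet_le _ _ hle with h | h | h <;>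
      have h4 := congrArg (fun U : Submodule F (Fin n → F) => Module.finrank F U) h <;>
      simp only [LinearEquiv.finrank_map_eq, finrank_bot, finrank_top,
        Module.finrank_fin_fun] at h4 <;> omega

end Cfsg.Agent.S0773
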