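import Cfsg.Statements.S0774
import Mathlib
import Cfsg.Agent.Lib.Forms.Bridge
import Cfsg.Agent.Lib.Sp.Order
import Cfsg.Agent.Lib.GL.Unitri

set_option autoImplicit false
open Cfsg

namespace Cfsg.Agent.S0774

/-- The coordinate flag. -/
def W (m : ℕ) (F : Type*) [Field F] (k : Fin m) : Submodule F (Fin m ⊕ Fin m → F) where
  carrier := {v | (∀ i : Fin m, (k : ℕ) < (i : ℕ) → v (Sum.inl i) = 0) ∧
    ∀ i : Fin m, v (Sum.inr i) = 0}
  add_mem' := fun ha hb => ⟨fun i hi => by simp [ha.1 i hi, hb.1 i hi],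
    fun i => by simp [ha.2 i, hb.2 i]⟩
  zero_mem' := ⟨fun _ _ => rfl, fun _ => rfl⟩
  smul_mem' := fun c _ ha => ⟨fun i hi => by simp [ha.1 i hi], fun i => by simp [ha.2 i]⟩

theorem card_E (m : ℕ) (F : Type*) [Field F] :
    Nat.card (H10.borelGL (Fin m) F) =
    Nat.card {v : Fin m → (Fin m ⊕ Fin m → F) | LinearIndependent F v ∧ ∀ k, v k ∈ W m F k} := by
  let ι : (Fin m → F) →ₗ[F] (Fin m ⊕ Fin m → F) :=
    { toFun := fun x => Sum.elim x 0
      map_add' := fun x y => by ext (i | i) <;> simp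
      map_smul' := fun c x => by ext (i | i) <;> simp }
  have hι : LinearMap.ker ι = ⊥ := by
    rw [LinearMap.ker_eq_bot]
    intro x y h
    ext i
    exact congrFun h (.inl i)
  refine Nat.card_congr (Equiv.ofBijective (fun g => ⟨fun k => ι (g.1.val.col k),
    (Matrix.linearIndependent_cols_iff_isUnit.mpr g.1.isUnit).map' ι hι,
    fun k => ⟨fun i hi => H10.mem_borelGL.mp g.2 i k hi, fun _ => rfl⟩⟩) ⟨?_, ?_⟩)
  · intro g h hgh
    ext i k
    exact congrFun (congrFun (congrArg Subtype.val hgh) k) (.inl i)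
  · rintro ⟨v, hv, hv'⟩
    let M : Matrix (Fin m) (Fin m) F := Matrix.of fun i k => v k (.inl i)
    have hM : ι ∘ M.col = v := by
      ext k (i | i)
      · rfl
      · exact ((hv' k).2 i).symm
    have hu : IsUnit M := Matrix.linearIndependent_cols_iff_isUnit.mp
      (LinearIndependent.of_comp ι (hM ▸ hv))
    exact ⟨⟨hu.unit, H10.mem_borelGL.mpr fun i k hi => (hv' k).1 i hi⟩, Subtype.ext hM⟩

/-- Borel subgroup of the symplectic group: the elements of Sp_2m(q) stabilising each of the totally isotropic coordinate subspaces ⟨e_0, ..., e_k⟩ (k < m) form a subgroup of order q^(m²) (q − 1)^m. -/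
theorem result {F : Type*} [Field F] [Fintype F] {q : ℕ} (hF : Fintype.card F = q) (m : ℕ) : Nat.card ↥(⨅ k : Fin m, Cfsg.stabilizing (Cfsg.spToMat m F) {v : Fin m ⊕ Fin m → F | (∀ i : Fin m, (k : ℕ) < (i : ℕ) → v (Sum.inl i) = 0) ∧ ∀ i : Fin m, v (Sum.inr i) = 0}) = q ^ (m ^ 2) * (q - 1) ^ m := by
  have hef := H28.spPQ_isHyp (m := m) (F := F)
  have hdim := (H28.spPQ m F).finrank_perp_hyp H28.spPQ_sep hef
  have hV : Module.finrank F (Fin m ⊕ Fin m → F) = 2 * m := by simp [two_mul]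
  obtain ⟨φ⟩ := H28.nonempty_isom_equiv_sp (m := 0) _ rfl
    (hef.nondeg.perp H28.spPQ_sep).separatingLeft (by omega)
  have h := H28.PQ.card_isom_mem_totSing _ H28.spPQ_sep hef
    {v : Fin m → (Fin m ⊕ Fin m → F) | LinearIndependent F v ∧ ∀ k, v k ∈ W m F k}
    (fun v hv => ⟨hv.1, fun i j => by
      rw [H28.spPQ_B, H11.Sp.form_eq_sum]; simp [(hv.2 _).2], fun _ => trivial⟩)
  rw [← card_E, H10.card_borelGL, Nat.card_congr φ.toEquiv, H11.Sp.card_G,
    H28.spPQ_Λ, AddSubgroup.card_top, Nat.card_eq_fintype_card (α := F), hF, hV] at h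
  have h2 : m * (m - 1) / 2 + m * (m - 1) / 2 + m = m ^ 2 := by
    have := Nat.two_mul_div_two_of_even (Nat.even_mul_pred_self m)
    rcases m with _ | m
    · rfl
    · simp only [Nat.add_sub_cancel] at this ⊢
      nlinarith
  refine Eq.trans ?_ (h.trans (by simp [← h2]; ring))
  refine Nat.card_congr (Equiv.subtypeEquiv H28.spEquiv.toEquiv fun g => ?_)
  rw [Subgroup.mem_iInf]
  change _ ↔ LinearIndependent F (fun i => (H28.spEquiv g).1 (Pi.single (Sum.inl i) 1)) ∧
    ∀ k, g.1.mulVec (Pi.single (Sum.inl k) 1) ∈ W m F k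
  constructor
  · intro hg
    have hli := (hef.linearIndependent.comp Sum.inl Sum.inl_injective).map'
      (H28.spEquiv g).1.toLinearMap (LinearEquiv.ker _)
    refine ⟨hli, fun k => ?_⟩
    have h0 : (Pi.single (Sum.inl k) 1 : Fin m ⊕ Fin m → F) ∈ W m F k := by
      refine ⟨fun i hi => ?_, fun i => by simp⟩
      have : i ≠ k := fun h => by rw [h] at hi; exact lt_irrefl _ hi
      simp [this]
    exact (hg k (Pi.single (Sum.inl k) 1)).mp h0
  · rintro ⟨-, hg⟩ k
    change H28.toAut (Cfsg.spToMat m F) g ∈ H28.stabSet F (W m F k : Set _)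
    rw [H28.mem_stabSet_iff_le]
    intro v hv
    have : v = ∑ i : Fin m, v (.inl i) • Pi.single (Sum.inl i) 1 := by
      ext (j | j)
      · simp [Finset.sum_apply, Pi.single_apply]
      · simp [Finset.sum_apply, hv.2 j]
    rw [this, map_sum]
    refine Submodule.sum_mem _ fun i _ => ?_
    by_cases hi : (k : ℕ) < i
    · rw [hv.1 i hi]; simp
    · rw [map_smul]
      exact Submodule.smul_mem _ _ ⟨fun j hj => (hg i).1 j (by omega), (hg i).2⟩

end Cfsg.Agent.S0774
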