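import Cfsg.Statements.S0775
import Mathlib
import Cfsg.Agent.Lib.Forms.Bridge
import Cfsg.Agent.Lib.Sp.Order

set_option autoImplicit false
open Cfsg

namespace Cfsg.Agent.S0775

/-- Maximal parabolics of the symplectic group: if W is a k-dimensional subspace of F^(2m) on which the symplectic form vanishes identically, its stabiliser in Sp_2m(q) has order q^(k(k+1)/2 + 2k(m−k)) · |Sp_(2m−2k)(q)| · |GL_k(q)|. -/
theorem result {F : Type*} [Field F] [Fintype F] {q : ℕ} (hF : Fintype.card F = q) (m k : ℕ) (hk : k ≤ m) (W : Submodule F (Fin m ⊕ Fin m → F)) (hWk : Module.finrank F W = k) (hW : ∀ u ∈ W, ∀ v ∈ W, Cfsg.sympForm m F u v = 0) : Nat.card ↥(Cfsg.stabilizing (Cfsg.spToMat m F) (W : Set (Fin m ⊕ Fin m → F))) = q ^ (k * (k + 1) / 2 + 2 * k * (m - k)) * (q ^ ((m - k) ^ 2) * ∏ i ∈ Finset.range (m - k), (q ^ (2 * (i + 1)) - 1)) * ∏ i : Fin k, (q ^ k - q ^ (i : ℕ)) := by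
  have hts : (H28.spPQ m F).TotSing W := ⟨fun _ _ => trivial, hW⟩
  obtain ⟨e, f, hef, rfl⟩ := hts.exists_hyp H28.spPQ_sep hWk
  have hdim := (H28.spPQ m F).finrank_perp_hyp H28.spPQ_sep hef
  have hV : Module.finrank F (Fin m ⊕ Fin m → F) = 2 * m := by simp [two_mul]
  obtain ⟨φ⟩ := H28.nonempty_isom_equiv_sp (m := m - k) _ rfl
    (hef.nondeg.perp H28.spPQ_sep).separatingLeft (by omega)
  rw [H28.stabilizing_eq_comap, Nat.card_congr (H28.spComapEquiv _).toEquiv,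
    H28.PQ.card_stab_totSing _ H28.spPQ_sep hef, Nat.card_congr φ.toEquiv, H11.Sp.card_G,
    H28.spPQ_Λ, AddSubgroup.card_top, Nat.card_eq_fintype_card, hF, hV, ← pow_add]
  have h1 := Nat.triangle_succ k
  have h2 : (2 * m - 2 * k) * k + k * (k - 1) / 2 + k = k * (k + 1) / 2 + 2 * k * (m - k) := by
    rw [← Nat.mul_sub, add_assoc, ← h1, Nat.add_sub_cancel, mul_comm (k + 1) k]
    ring
  rw [h2]
  ring

end Cfsg.Agent.S0775
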