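import Mathlib
import Cfsg.Statements.S0777

set_option autoImplicit false
open Cfsg

namespace Cfsg.Agent.S0777

open Matrix

variable {F : Type*} [Field F] {m : ℕ}

/-- monomial matrix -/
def mono (τ : Fin m ⊕ Fin m → Fin m ⊕ Fin m) (c : Fin m ⊕ Fin m → F) :
    Matrix (Fin m ⊕ Fin m) (Fin m ⊕ Fin m) F := of fun i j => if j = τ i then c i else 0

theorem J_swap (i : Fin m ⊕ Fin m) : J (Fin m) F i i.swap * J (Fin m) F i i.swap = 1 := by
  rcases i with i | i <;> simp [J]

theorem J_ne {i k : Fin m ⊕ Fin m} (h : k ≠ i.swap) : J (Fin m) F i k = 0 := by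
  rcases i with i | i <;> rcases k with k | k <;> simp_all [J, one_apply, eq_comm]

theorem J_neg (i : Fin m ⊕ Fin m) : J (Fin m) F i.swap i = -J (Fin m) F i i.swap := by
  rcases i with i | i <;> simp [J]

theorem mono_mem {τ : Fin m ⊕ Fin m → Fin m ⊕ Fin m} {c : Fin m ⊕ Fin m → F} :
    mono τ c ∈ symplecticGroup (Fin m) F ↔
      ∀ i k, c i * J (Fin m) F (τ i) (τ k) * c k = J (Fin m) F i k := by
  rw [SymplecticGroup.mem_iff, ← Matrix.ext_iff]
  refine forall₂_congr fun i k => ?_
  simp [mul_apply, mono]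

theorem diagonal_mem {d : Fin m ⊕ Fin m → F} (h : ∀ i, d i * d i.swap = 1) :
    diagonal d ∈ symplecticGroup (Fin m) F := by
  have : diagonal d = mono id d := by ext i j; simp [mono, diagonal_apply, eq_comm]
  rw [this, mono_mem]
  intro i k
  by_cases e : k = i.swap
  · rw [e, id, id, mul_right_comm, h, one_mul]
  · simp [J_ne e]

theorem mem_T (t : symplecticGroup (Fin m) F) : t ∈ (⨅ i : Fin m ⊕ Fin m,
    Cfsg.stabilizing (Cfsg.spToMat m F) ((Submodule.span F {(Pi.single i (1 : F) :
      Fin m ⊕ Fin m → F)} : Submodule F (Fin m ⊕ Fin m → F)) : Set (Fin m ⊕ Fin m → F)) :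
      Set (symplecticGroup (Fin m) F)) ↔ ∃ d, t.1 = diagonal d := by
  have key : ∀ (i : Fin m ⊕ Fin m) (v : Fin m ⊕ Fin m → F), v ∈ Submodule.span F
      {(Pi.single i (1 : F) : Fin m ⊕ Fin m → F)} ↔ ∀ j, j ≠ i → v j = 0 := fun i v => by
    rw [Submodule.mem_span_singleton]
    refine ⟨fun ⟨a, h⟩ j hj => by simp [← h, hj], fun h => ⟨v i, funext fun j => ?_⟩⟩
    by_cases e : j = i
    · simp [e]
    · simp [e, h j e]
  rw [Set.iInf_eq_iInter, Set.mem_iInter]
  constructor
  · intro h
    refine ⟨fun i => t.1 i i, Matrix.ext fun i j => ?_⟩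
    by_cases e : i = j
    · simp [e]
    · simpa [e] using (key _ _).1 ((h j _).1 (Submodule.mem_span_singleton_self _)) i e
  · rintro ⟨d, hd⟩ i v
    have h1 := SymplecticGroup.det_eq_one t.2
    rw [hd, det_diagonal] at h1
    have h2 := Finset.prod_ne_zero_iff.1 (h1 ▸ one_ne_zero)
    change v ∈ Submodule.span F _ ↔ t.1 *ᵥ v ∈ Submodule.span F _
    simp [key, hd, mulVec_diagonal, h2 _ (Finset.mem_univ _)]

/-- Weyl group of type C_m: for q ≥ 4 the diagonal matrices of Sp_2m(q) form a torus T ≅ (C_(q−1))^m (the elements stabilising every coordinate axis), and the normaliser of T in Sp_2m(q) has order 2^m · m! · (q − 1)^m. -/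
theorem result {F : Type*} [Field F] [Fintype F] {q : ℕ} (hF : Fintype.card F = q) (hq : 4 ≤ q) (m : ℕ) : Nat.card ↥(Subgroup.normalizer (⨅ i : Fin m ⊕ Fin m, Cfsg.stabilizing (Cfsg.spToMat m F) ((Submodule.span F {(Pi.single i (1 : F) : Fin m ⊕ Fin m → F)} : Submodule F (Fin m ⊕ Fin m → F)) : Set (Fin m ⊕ Fin m → F)) : Set (Matrix.symplecticGroup (Fin m) F))) = 2 ^ m * Nat.factorial m * (q - 1) ^ m := by
  classical
  obtain ⟨a, a0, a1, a2⟩ : ∃ a : F, a ≠ 0 ∧ a ≠ 1 ∧ a ≠ -1 := by
    by_contra h
    push Not at h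
    have : (Finset.univ : Finset F) ⊆ {0, 1, -1} := fun x _ => by
      by_cases e : x = 0
      · simp [e]
      · by_cases e' : x = 1
        · simp [e']
        · simp [h x e e']
    have := (Finset.card_le_card this).trans Finset.card_le_three
    rw [Finset.card_univ] at this
    omega
  let s : Equiv.Perm (Fin m ⊕ Fin m) := Equiv.sumComm _ _
  have hs : Nat.card (Subgroup.centralizer {s}) = 2 ^ m * m.factorial := by
    have h1 := Equiv.Perm.cycleType_of_pow_prime_eq_one (σ := s) (p := 2) (by ext i; simp [s, pow_two])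
    have h2 : s.support = Finset.univ := by ext (i | i) <;> simp [s]
    have h3 := s.sum_cycleType
    rw [h2, h1] at h3
    have h4 : s.cycleType.card = m := by simp at h3; omega
    rw [h4] at h1
    rw [Equiv.Perm.nat_card_centralizer, h1]
    rcases Nat.eq_zero_or_pos m with h | h
    · simp [h]
    · simp [Multiset.toFinset_replicate, h.ne', mul_two]
  have hτ : ∀ (τ : Subgroup.centralizer {s}) i, τ.1 i.swap = (τ.1 i).swap := fun τ i =>
    DFunLike.congr_fun (Subgroup.mem_centralizer_singleton_iff.1 τ.2) i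
  let c : Subgroup.centralizer {s} × (Fin m → Fˣ) → Fin m ⊕ Fin m → F := fun x =>
    Sum.elim (fun i => x.2 i) fun i => -(J (Fin m) F (x.1.1 (.inl i)) (x.1.1 (.inl i)).swap *
      (x.2 i : F)⁻¹)
  have hc : ∀ x, mono x.1.1 (c x) ∈ symplecticGroup (Fin m) F := fun x => by
    refine mono_mem.2 fun i k => ?_
    by_cases e : k = i.swap
    · subst e
      have key : ∀ i, c x (.inl i) * J (Fin m) F (x.1.1 (.inl i)) (x.1.1 (.inl i)).swap *
          c x (.inr i) = -1 := fun i => by
        have := J_swap (F := F) (x.1.1 (.inl i))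
        simp only [c, Sum.elim_inl, Sum.elim_inr]
        field_simp
        linear_combination -this
      rcases i with i | i
      · rw [hτ]; simpa [J] using key i
      · have := hτ x.1 (.inl i)
        simp only [Sum.swap_inl, Sum.swap_inr] at this ⊢
        rw [this, J_neg]
        have : J (Fin m) F (.inr i) (.inl i) = 1 := by simp [J]
        linear_combination -key i - this
    · rw [J_ne e, J_ne (hτ _ _ ▸ x.1.1.injective.ne e)]; simp
  have hc0 : ∀ x i, c x i ≠ 0 := fun x i h => by
    have := mono_mem.1 (hc x) i i.swap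
    have h2 := J_swap (F := F) i
    rw [← this, h] at h2
    simp at h2
  rw [← hs, show (q - 1) ^ m = Nat.card (Fin m → Fˣ) by simp [hF, Fintype.card_units],
    ← Nat.card_prod]
  refine (Nat.card_congr (Equiv.ofBijective (fun x => ⟨⟨_, hc x⟩,
    Subgroup.mem_normalizer_fintype fun t ht => ?nrm⟩) ⟨fun x y h => ?_, fun g => ?_⟩)).symm
  case nrm =>
    obtain ⟨d, hd⟩ := (mem_T t).1 ht
    refine (mem_T _).2 ⟨d ∘ x.1.1, ?_⟩
    have h1 : mono x.1.1 (c x) * t.1 = diagonal (d ∘ x.1.1) * mono x.1.1 (c x) := by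
      rw [hd]; ext i j
      by_cases e : j = x.1.1 i <;> simp [mono, e, mul_comm]
    have h2 : mono x.1.1 (c x) * ((⟨_, hc x⟩ : symplecticGroup (Fin m) F)⁻¹).1 = 1 :=
      congrArg Subtype.val (mul_inv_cancel (⟨_, hc x⟩ : symplecticGroup (Fin m) F))
    change mono x.1.1 (c x) * t.1 * _ = _
    rw [h1, mul_assoc, h2, mul_one]
  · have h1 : mono x.1.1 (c x) = mono y.1.1 (c y) := congrArg (·.1.1) h
    have h2 : ∀ i, x.1.1 i = y.1.1 i ∧ c x i = c y i := fun i => by
      have := congrFun (congrFun h1 i) (x.1.1 i)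
      by_cases e : x.1.1 i = y.1.1 i
      · exact ⟨e, by simpa [mono, e] using this⟩
      · simp [mono, e, hc0] at this
    exact Prod.ext (Subtype.ext (Equiv.ext fun i => (h2 i).1))
      (funext fun i => Units.ext (h2 (.inl i)).2)
  · obtain ⟨g, hg⟩ := g
    have hrow : ∀ i, ∃ j, g.1 i j ≠ 0 := fun i => by
      by_contra h
      push Not at h
      exact one_ne_zero ((SymplecticGroup.det_eq_one g.2).symm.trans
        (det_eq_zero_of_row_eq_zero i h))
    choose τ hτ' using hrow
    have hz : ∀ i k, k ≠ τ i → g.1 i k = 0 := fun i k hk => by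
      by_contra h0
      let d : Fin m ⊕ Fin m → F := fun l => if l = τ i then a else if l = (τ i).swap then a⁻¹ else 1
      have hd : ∀ l, d l * d l.swap = 1 := fun l => by
        rcases e : τ i with j | j <;> rcases l with l | l <;> by_cases e' : l = j <;>
          simp [d, e, e', a0]
      obtain ⟨d', hd'⟩ := (mem_T _).1 ((Subgroup.mem_set_normalizer_iff.1 hg ⟨_, diagonal_mem hd⟩).1
        ((mem_T _).2 ⟨d, rfl⟩))
      have h1 : g.1 * diagonal d = diagonal d' * g.1 := by
        rw [← hd', ← Submonoid.coe_mul, inv_mul_cancel_right]; rfl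
      have h2 := congrFun (congrFun h1 i) (τ i)
      have h3 := congrFun (congrFun h1 i) k
      simp only [mul_diagonal, diagonal_mul] at h2 h3
      rw [mul_comm] at h2 h3
      have h4 := (mul_right_cancel₀ (hτ' i) h2).trans (mul_right_cancel₀ h0 h3).symm
      simp only [d, if_true, hk, if_false] at h4
      split_ifs at h4
      · have : a * a = 1 := by nth_rewrite 2 [h4]; exact mul_inv_cancel₀ a0
        exact (mul_self_eq_one_iff.1 this).elim a1 a2
      · exact a1 h4
    have h1 : g.1 = mono τ fun i => g.1 i (τ i) := by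
      ext i j
      by_cases e : j = τ i
      · simp [mono, e]
      · simp [mono, e, hz i j e]
    have h2 := mono_mem.1 (h1 ▸ g.2)
    have h3 : ∀ i, τ i.swap = (τ i).swap := fun i => by
      by_contra e
      have h4 := J_swap (F := F) i
      rw [← h2, J_ne e] at h4
      simp at h4
    have h5 : Function.Surjective τ := fun j => by
      by_contra h0
      push Not at h0
      exact one_ne_zero ((SymplecticGroup.det_eq_one g.2).symm.trans
        (det_eq_zero_of_column_eq_zero j fun i => hz i j (h0 i).symm))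
    refine ⟨(⟨Equiv.ofBijective τ (Finite.surjective_iff_bijective.1 h5),
      Subgroup.mem_centralizer_singleton_iff.2 (Equiv.ext h3)⟩,
      fun i => Units.mk0 _ (hτ' (.inl i))), Subtype.ext (Subtype.ext (h1.trans ?_).symm)⟩
    change mono τ _ = mono τ _
    congr 1
    ext (i | i)
    · rfl
    · have h6 := h2 (.inl i) (.inr i)
      have h7 := h3 (.inl i)
      have h8 := J_swap (F := F) (τ (.inl i))
      have h9 := hτ' (.inl i)
      have : J (Fin m) F (.inl i) (.inr i) = -1 := by simp [J]
      simp only [Sum.swap_inl] at h7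
      nth_rewrite 1 [h7] at h6
      change _ = -(J (Fin m) F (τ (.inl i)) (τ (.inl i)).swap * (g.1 (.inl i) (τ (.inl i)))⁻¹)
      field_simp
      linear_combination J (Fin m) F (τ (.inl i)) (τ (.inl i)).swap * (h6.trans this) -
        g.1 (.inl i) (τ (.inl i)) * g.1 (.inr i) (τ (.inr i)) * h8

end Cfsg.Agent.S0777
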