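import Cfsg.Statements.S0778
import Mathlib
import Cfsg.Agent.Lib.Forms.Coord

set_option autoImplicit false
open Cfsg

namespace Cfsg.Agent.S0778

/-- The elements of Sp_2m(F) stabilising both W = ⟨e_1..e_m⟩ and U = ⟨f_1..f_m⟩ form a subgroup isomorphic to GL_m(F) (block-diagonal matrices diag(X, X^(−ᵀ)) up to the sign convention of J), for m ≥ 1 or m = 0 alike. -/
theorem result {F : Type*} [Field F] (m : ℕ) : Nonempty (↥(Cfsg.stabilizing (Cfsg.spToMat m F) {v : Fin m ⊕ Fin m → F | ∀ i : Fin m, v (Sum.inr i) = 0} ⊓ Cfsg.stabilizing (Cfsg.spToMat m F) {v : Fin m ⊕ Fin m → F | ∀ i : Fin m, v (Sum.inl i) = 0}) ≃* Matrix.GeneralLinearGroup (Fin m) F) := by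
  let φ : Matrix.GeneralLinearGroup (Fin m) F →* Matrix.symplecticGroup (Fin m) F :=
    { toFun := fun g => ⟨Matrix.fromBlocks g.val 0 0 (H28.invTranspose (Fin m) F g).val, by
        rw [SymplecticGroup.mem_iff, Matrix.J, H28.invTranspose_val, Matrix.fromBlocks_transpose,
          Matrix.fromBlocks_multiply, Matrix.fromBlocks_multiply]
        simp [← Matrix.transpose_mul]⟩
      map_one' := Subtype.ext (by simp)
      map_mul' := fun g h => Subtype.ext (by simp [Matrix.fromBlocks_multiply]) }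
  have hφ : Function.Injective φ := fun g h hgh => by
    ext i j
    exact congrFun (congrFun (congrArg Subtype.val hgh) (.inl i)) (.inl j)
  refine ⟨((MonoidHom.ofInjective hφ).trans (MulEquiv.subgroupCongr ?_)).symm⟩
  ext A
  constructor
  · rintro ⟨g, rfl⟩
    have h1 : ∀ (g : Matrix.GeneralLinearGroup (Fin m) F) (v : Fin m → F),
        (∀ i, v i = 0) ↔ ∀ i, g.val.mulVec v i = 0 := fun g v => by
      rw [← funext_iff, ← funext_iff]
      exact (H28.glEquiv g).map_eq_zero_iff.symm
    constructor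
    · intro v
      simpa [φ, Matrix.fromBlocks_mulVec] using h1 (H28.invTranspose (Fin m) F g) (v ∘ Sum.inr)
    · intro v
      simpa [φ, Matrix.fromBlocks_mulVec] using h1 g (v ∘ Sum.inl)
  · rintro ⟨h1, h2⟩
    obtain ⟨A, hA⟩ := A
    have h21 : A.toBlocks₂₁ = 0 := by
      ext i j
      simpa [Matrix.toBlocks₂₁] using (h1 (Pi.single (.inl j) 1)).mp (fun i => by simp) i
    have h12 : A.toBlocks₁₂ = 0 := by
      ext i j
      simpa [Matrix.toBlocks₁₂] using (h2 (Pi.single (.inr j) 1)).mp (fun i => by simp) i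
    have hA' := SymplecticGroup.mem_iff.mp hA
    rw [← Matrix.fromBlocks_toBlocks A, h21, h12, Matrix.J, Matrix.fromBlocks_transpose,
      Matrix.fromBlocks_multiply, Matrix.fromBlocks_multiply] at hA'
    simp only [Matrix.mul_zero, Matrix.zero_mul, add_zero, zero_add, Matrix.mul_neg,
      Matrix.mul_one, Matrix.transpose_zero, Matrix.neg_mul, Matrix.fromBlocks_inj,
      neg_inj] at hA'
    refine ⟨⟨A.toBlocks₁₁, A.toBlocks₂₂.transpose, hA'.2.1, mul_eq_one_comm.mp hA'.2.1⟩,
      Subtype.ext ?_⟩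
    change Matrix.fromBlocks A.toBlocks₁₁ 0 0 A.toBlocks₂₂ = A
    rw [← h21]
    conv_lhs => enter [2]; rw [h21, ← h12]
    exact Matrix.fromBlocks_toBlocks A

end Cfsg.Agent.S0778
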