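import Cfsg.Statements.S0782
import Mathlib
import Cfsg.Agent.Lib.Forms.Bridge
import Cfsg.Agent.Lib.Unitary.Order

set_option autoImplicit false
open Cfsg

namespace Cfsg.Agent.S0782

open Module in
theorem exists_det {F V : Type*} [Field F] [Finite F] [AddCommGroup V] [Module F V]
    [FiniteDimensional F V] {σ : F →+* F} (hne : σ ≠ RingHom.id F) (P : H28.PQ F V σ)
    (hε : P.ε = 1) (hΛ : P.Λ = H28.traceZero σ) (hP : P.B.SeparatingLeft) (hV : 1 ≤ finrank F V)
    {k : ℕ} {e f : Fin k → V} (h : P.IsHyp e f) {ζ : F} (hζ : σ ζ * ζ = 1) :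
    ∃ g ∈ P.Isom ⊓ H28.stabSet F (Submodule.span F (Set.range e) : Set V),
      LinearMap.det (g : V →ₗ[F] V) = ζ := by
  classical
  set R := P.perp (Submodule.span F (Set.range (Sum.elim e f))) with hR
  obtain ⟨c, hc⟩ := H28.exists_orthonormal_basis_herm hne P.σσ (P.comap R.subtype).B
    (fun x y => by rw [(P.comap R.subtype).symm x y, H28.PQ.comap_ε, hε, one_mul])
    (h.nondeg.perp hP).separatingLeft
  simp only [H28.PQ.comap_B, Submodule.subtype_apply] at hc
  obtain ⟨b, hb1, hb2⟩ := H28.exists_basis_sum _ h.linearIndependent R h.nondeg.isCompl c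
  have hRe : ∀ (r : R) i, P.B (e i) r = 0 := fun r i => P.mem_perp_span_range.mp r.2 (.inl i)
  have hRf : ∀ (r : R) i, P.B (f i) r = 0 := fun r i => P.mem_perp_span_range.mp r.2 (.inr i)
  have hRe' : ∀ (r : R) i, P.B r (e i) = 0 := fun r i => P.eq_zero_symm (hRe r i)
  have hRf' : ∀ (r : R) i, P.B r (f i) = 0 := fun r i => P.eq_zero_symm (hRf r i)
  have key : ∀ (α : Fin k → F) (β : Fin (finrank F R) → F), (∀ i, α i ≠ 0) →
      (∀ j, σ (β j) * β j = 1) →
      ∃ g ∈ P.Isom ⊓ H28.stabSet F (Submodule.span F (Set.range e) : Set V),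
        LinearMap.det (g : V →ₗ[F] V) = (∏ i, α i / σ (α i)) * ∏ j, β j := by
    intro α β hα hβ
    let d : (Fin k ⊕ Fin k) ⊕ Fin (finrank F R) → F :=
      Sum.elim (Sum.elim α fun i => (σ (α i))⁻¹) β
    have hd : ∀ i, IsUnit (d i) := by
      rintro ((i | i) | i)
      · exact (hα i).isUnit
      · simp [d, hα i]
      · exact (right_ne_zero_of_mul_eq_one (hβ i)).isUnit
    have hB : ∀ i j, P.B (b.isUnitSMul hd i) (b.isUnitSMul hd j) = P.B (b i) (b j) := by
      rintro ((i | i) | i) ((j | j) | j) <;>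
        simp [Basis.isUnitSMul_apply, hb1, hb2, d, h.ee, h.ff, h.ef, h.fe, hRe, hRf, hRe', hRf',
          hc, P.σσ]
      all_goals
        split_ifs with hij
        · subst hij
          first | (rw [mul_comm, hβ]; done) | simp [hα]
        · rfl
    obtain ⟨g, hg, h1, h2⟩ := P.exists_isometry_of_basis P rfl b (b.isUnitSMul hd) hB
      (fun i => hΛ ▸ P.sub_mem_traceZero P hε hε (hB i i))
    refine ⟨g, ⟨⟨h1, h2⟩, H28.mem_stabSet_span_iff.mpr fun i => ?_⟩, ?_⟩
    · have := hg (.inl (.inl i))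
      rw [Basis.isUnitSMul_apply, hb1] at this
      exact this ▸ Submodule.smul_mem _ _ (Submodule.subset_span ⟨i, rfl⟩)
    · have : LinearMap.toMatrix b b (g : V →ₗ[F] V) = Matrix.diagonal d := by
        ext i j
        simp [LinearMap.toMatrix_apply, hg, Basis.isUnitSMul_apply, Matrix.diagonal_apply,
          Finsupp.single_apply, eq_comm]
        split_ifs with hij
        · rw [hij]
        · rfl
      rw [← LinearMap.det_toMatrix b, this, Matrix.det_diagonal]
      simp [d, Fintype.prod_sum_type, div_eq_mul_inv, Finset.prod_mul_distrib]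
  have hdim := P.finrank_perp_hyp hP h
  by_cases hk : k = 0
  · have hj : 0 < finrank F R := by rw [hR]; omega
    obtain ⟨g, hg, hdet⟩ := key 1 (Function.update 1 ⟨0, hj⟩ ζ) (by simp) (fun j => by
      by_cases hj' : j = ⟨0, hj⟩
      · simp [hj', hζ]
      · simp [hj'])
    exact ⟨g, hg, by simpa [Finset.prod_update_of_mem] using hdet⟩
  · obtain ⟨a, ha, ha'⟩ := H28.exists_div_conj_of_norm_one hne P.σσ hζ
    have hσa : σ a ≠ 0 := by simpa using ha
    obtain ⟨g, hg, hdet⟩ := key (Function.update 1 ⟨0, Nat.pos_of_ne_zero hk⟩ a) 1 (fun j => by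
      by_cases hj' : j = ⟨0, Nat.pos_of_ne_zero hk⟩
      · simp [hj', ha]
      · simp [hj']) (by simp)
    refine ⟨g, hg, ?_⟩
    rw [hdet, Finset.prod_eq_single ⟨0, Nat.pos_of_ne_zero hk⟩]
    · simp only [Function.update_self, Pi.one_apply, Finset.prod_const_one, mul_one]
      rw [div_eq_iff hσa]; exact ha'
    · intro j _ hj
      simp [hj]
    · simp

/-- Maximal parabolics of SU_n(q): if W is a k-dimensional subspace of F^n (n ≥ 1, |F| = q²) on which the Hermitian form vanishes, then (q + 1) times the order of its stabiliser in SU_n(q) equals q^(k(2n−3k)) · |GL_k(q²)| · |GU_(n−2k)(q)|, where |GU_m(q)| = q^(m(m−1)/2) Π_(i=1..m) (q^i − (−1)^i). -/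
theorem result {F : Type*} [Field F] [Fintype F] {q : ℕ} (hF : Fintype.card F = q ^ 2) (n k : ℕ) (hn : 1 ≤ n) (hk : 2 * k ≤ n) (W : Submodule F (Fin n → F)) (hWk : Module.finrank F W = k) (hW : ∀ u ∈ W, ∀ v ∈ W, Cfsg.hermForm n F q u v = 0) : (q + 1) * Nat.card ↥((Cfsg.stabilizing (Cfsg.slToMat n F) (W : Set (Fin n → F))).subgroupOf (Cfsg.SU n F q)) = q ^ (k * (2 * n - 3 * k)) * (∏ i : Fin k, ((q ^ 2) ^ k - (q ^ 2) ^ (i : ℕ))) * (q ^ ((n - 2 * k) * ((n - 2 * k) - 1) / 2) * ∏ i ∈ Finset.range (n - 2 * k), (if Even i then q ^ (i + 1) + 1 else q ^ (i + 1) - 1)) := by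
  have : H11.U.IsSq F q := ⟨hF⟩
  obtain ⟨σ, hq, hne, hσ⟩ := H28.exists_conj hF
  have hcj : ∀ a, H11.U.cj q a = σ a := fun a => (hq a).symm
  obtain ⟨c, hc⟩ := H28.exists_trace_one hne hσ
  let P := H28.guPQ n hσ c hc
  have hP : P.B.SeparatingLeft := H28.hermB_sep
  have hts : P.TotSing W := ⟨fun x hx => H28.PQ.ofHerm_q_mem.mpr
    ((H28.hermB_eq_hermForm hq x x).trans (hW x hx x hx)),
    fun x hx y hy => (H28.hermB_eq_hermForm hq x y).trans (hW y hy x hx)⟩
  obtain ⟨e, f, hef, rfl⟩ := hts.exists_hyp hP hWk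
  have hdim := P.finrank_perp_hyp hP hef
  have hV : Module.finrank F (Fin n → F) = n := by simp
  obtain ⟨φ⟩ := H28.nonempty_isom_equiv_gu (n := n - 2 * k) hq hne _ rfl rfl
    (hef.nondeg.perp hP).separatingLeft (by omega)
  have hΛ : Nat.card P.Λ = q := by
    have := H28.card_traceZero_sq hne hσ
    rw [Nat.card_eq_fintype_card (α := F), hF] at this
    exact Nat.pow_left_injective two_ne_zero this
  have h1 := P.card_stab_totSing hP hef
  rw [← Nat.card_congr (H28.guSubgroupOfEquiv hq hσ c hc _).toEquiv, ← H28.stabilizing_eq_comap,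
    Nat.card_congr φ.toEquiv, H11.U.card_GU, hΛ, Nat.card_eq_fintype_card (α := F), hF, hV] at h1
  set S := (Cfsg.stabilizing (Cfsg.glToMat (Fin n) F)
    (Submodule.span F (Set.range e) : Set (Fin n → F))).subgroupOf (Cfsg.GU n F q) with hS
  have h2 := H11.card_eq_card_image_mul S (S ⊓ (H11.U.suToGU n F q).range) inf_le_left
    (fun g => g.1.1.det) (by
      intro a ha b hb
      rw [Subgroup.mem_inf, H11.U.mem_range_suToGU]
      have e : a.1.1.det * (a⁻¹ * b).1.1.det = b.1.1.det := by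
        rw [← Matrix.det_mul]
        exact congrArg (fun x : GU n F q => x.1.1.det) (mul_inv_cancel_left a b)
      have ha' : a.1.1.det ≠ 0 := H11.U.IsIso.det_ne_zero (q := q) a.2
      constructor
      · intro h
        rw [← h] at e
        exact ⟨S.mul_mem (S.inv_mem ha) hb, mul_left_cancel₀ ha' (e.trans (mul_one _).symm)⟩
      · intro h
        rw [← e, h.2, mul_one])
    {a : F | a * H11.U.cj q a = 1} (by
      intro a
      constructor
      · intro ha
        obtain ⟨g, ⟨hg1, hg2⟩, hg⟩ := exists_det hne P rfl rfl hP (by omega) hef (ζ := a)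
          (by rw [← hcj, mul_comm]; exact ha)
        obtain ⟨g', hg'⟩ := (H28.guEquiv hq hσ c hc).surjective ⟨g, hg1⟩
        have hg'' : H28.toAut (Cfsg.glToMat (Fin n) F) g'.1 = g := congrArg Subtype.val hg'
        refine ⟨g', ?_, ?_⟩
        · change H28.toAut (Cfsg.glToMat (Fin n) F) g'.1 ∈
            H28.stabSet F (Submodule.span F (Set.range e) : Set (Fin n → F))
          rw [hg'']; exact hg2
        · rw [← hg, ← hg'', ← LinearMap.det_toLin']
          rfl
      · rintro ⟨g, -, rfl⟩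
        exact H11.U.IsIso.det_mul_cj (q := q) g.2)
  have h3 : Nat.card {x : F // x * H11.U.cj q x = 1} = q + 1 :=
    H11.U.card_norm_eq one_ne_zero (map_one _)
  have h4 : Nat.card ↥((Cfsg.stabilizing (Cfsg.slToMat n F)
      (Submodule.span F (Set.range e) : Set (Fin n → F))).subgroupOf (Cfsg.SU n F q)) =
      Nat.card ↥(S ⊓ (H11.U.suToGU n F q).range) := by
    rw [inf_comm, ← Nat.card_congr (H28.comapEquiv _ H11.U.suToGU_injective S).toEquiv]
    rfl
  rw [h4, ← h3]
  refine h2.symm.trans (h1.trans ?_)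
  have h5 : k * (2 * n - 3 * k) = 2 * ((n - 2 * k) * k + k * (k - 1) / 2) + k := by
    have := Nat.two_mul_div_two_of_even (Nat.even_mul_pred_self k)
    obtain ⟨l, rfl⟩ := Nat.exists_eq_add_of_le hk
    rw [Nat.add_sub_cancel_left, show 2 * (2 * k + l) - 3 * k = k + 2 * l by omega,
      mul_add 2 (l * k), this]
    rcases k with _ | k
    · simp
    · simp only [Nat.add_sub_cancel]; ring
  rw [h5, ← pow_mul]
  ring

end Cfsg.Agent.S0782
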