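import Cfsg.Statements.S0783
import Mathlib
import Cfsg.Agent.Lib.Unitary.Order

set_option autoImplicit false
open Cfsg

namespace Cfsg.Agent.S0783

open H11.U Matrix

/-- PGU_n(q)/PSU_n(q) is cyclic of order (n, q+1): for n ≥ 2 and |F| = q² there is a surjective homomorphism from GU_n(q) onto the cyclic group of order gcd(n, q + 1) whose kernel is generated by the determinant-one elements together with the centre. -/
theorem result {F : Type*} [Field F] [Fintype F] {q : ℕ} (hF : Fintype.card F = q ^ 2) (n : ℕ) (hn : 2 ≤ n) : ∃ φ : ↥(Cfsg.GU n F q) →* Multiplicative (ZMod (Nat.gcd n (q + 1))), Function.Surjective φ ∧ φ.ker = (Matrix.GeneralLinearGroup.det : Matrix.GeneralLinearGroup (Fin n) F →* Fˣ).ker.subgroupOf (Cfsg.GU n F q) ⊔ Subgroup.center ↥(Cfsg.GU n F q) := by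
  have : H11.U.IsSq F q := ⟨hF⟩
  classical
  have hq := two_le_q F q
  let μ : Subgroup Fˣ := (powMonoidHom (q + 1) : Fˣ →* Fˣ).ker
  have hμ : ∀ a : Fˣ, a ∈ μ ↔ (a : F) * cj q (a : F) = 1 := by
    intro a
    rw [mul_cj, MonoidHom.mem_ker, powMonoidHom_apply, Units.ext_iff]
    simp
  have hcard : Nat.card μ = q + 1 := by
    rw [IsCyclic.card_powMonoidHom_ker, Nat.card_units, Nat.card_eq_fintype_card, hF]
    apply Nat.gcd_eq_right
    obtain ⟨r, rfl⟩ : ∃ r, q = r + 1 := ⟨q - 1, by omega⟩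
    have : (r + 1) ^ 2 = (r + 1 + 1) * r + 1 := by ring
    simp [this]
  let D : GU n F q →* μ := (Matrix.GeneralLinearGroup.det.comp (GU n F q).subtype).codRestrict μ
    (fun g => (hμ _).2 (IsIso.det_mul_cj (q := q) g.2))
  have hD : ∀ g : GU n F q, ((D g).1 : F) = g.1.1.det := fun g => rfl
  have hDs : Function.Surjective D := by
    intro a
    obtain ⟨g, hg, -⟩ := exists_gu_det_eq (F := F) (q := q) (w := Pi.single (⟨0, by omega⟩ : Fin n) 1)
      (by simp [form_single_single]) ((hμ _).1 a.2)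
    exact ⟨g, Subtype.ext (Units.ext hg)⟩
  let R : Subgroup μ := (powMonoidHom n : μ →* μ).range
  have hR : Nat.card (μ ⧸ R) = Nat.gcd n (q + 1) := by
    rw [← Subgroup.index_eq_card, IsCyclic.index_powMonoidHom_range, hcard, Nat.gcd_comm]
  have hcyc : IsCyclic (μ ⧸ R) := isCyclic_of_surjective _ (QuotientGroup.mk'_surjective R)
  let e : Multiplicative (ZMod (Nat.gcd n (q + 1))) ≃* μ ⧸ R := hR ▸ zmodCyclicMulEquiv hcyc
  refine ⟨e.symm.toMonoidHom.comp ((QuotientGroup.mk' R).comp D),
    e.symm.surjective.comp ((QuotientGroup.mk'_surjective R).comp hDs), ?_⟩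
  have hker : ∀ g : GU n F q, g ∈ (e.symm.toMonoidHom.comp ((QuotientGroup.mk' R).comp D)).ker ↔
      D g ∈ R := by
    intro g
    rw [MonoidHom.mem_ker]
    simp
  apply le_antisymm
  · intro g hg
    obtain ⟨a, ha⟩ := (hker g).1 hg
    have ha' : (a.1 : F) ^ n = g.1.1.det := by
      rw [← hD, ← ha]; simp
    let z : GU n F q := toGU ((a.1 : F) • 1) (isIso_smul_one ((hμ _).1 a.2))
    have hz : z ∈ Subgroup.center (GU n F q) := (mem_center_GU_iff hn).2 ⟨_, rfl⟩
    have hDz : D z = D g := by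
      apply Subtype.ext; apply Units.ext
      rw [hD, hD, ← ha']
      simp [z, toGU_val]
    have : g = g * z⁻¹ * z := by group
    rw [this]
    refine Subgroup.mul_mem _ (Subgroup.mem_sup_left ?_) (Subgroup.mem_sup_right hz)
    have h1 : D (g * z⁻¹) = 1 := by rw [map_mul, map_inv, hDz, mul_inv_cancel]
    exact congrArg Subtype.val h1
  · apply sup_le
    · intro g hg
      rw [hker]
      have : D g = 1 := Subtype.ext hg
      rw [this]; exact R.one_mem
    · intro g hg
      rw [hker]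
      obtain ⟨a, ha⟩ := (mem_center_GU_iff hn).1 hg
      have h2 : IsIso q g.1.1 := g.2
      rw [ha] at h2
      have h3 := (isIso_smul_one_iff (n := n) (by omega)).1 h2
      have ha0 : a ≠ 0 := by rintro rfl; simp at h3
      refine ⟨⟨Units.mk0 a ha0, (hμ _).2 h3⟩, Subtype.ext (Units.ext ?_)⟩
      rw [hD, ha]
      simp

end Cfsg.Agent.S0783
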