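import Mathlib
import Cfsg.Statements.S0786
import Cfsg.Agent.Lib.Orth12.Bridge

set_option autoImplicit false
open Cfsg

namespace Cfsg.Agent.S0786

/-- Generation by reflections: if F is finite, Q is a quadratic form on F^n with non-degenerate polar form, and (|F|, n) ≠ (2, 4), then the isometry group of Q is generated by the reflections r_v, Q(v) ≠ 0. -/
theorem result {F : Type*} [Field F] [Fintype F] {n : ℕ} (Q : QuadraticForm F (Fin n → F)) (hQ : (QuadraticMap.polarBilin Q).Nondegenerate) (h : Fintype.card F ≠ 2 ∨ n ≠ 4) : Subgroup.closure {g : ↥(Cfsg.isometryGroup F ⇑Q) | ∃ v : Fin n → F, Q v ≠ 0 ∧ ((g : Matrix.GeneralLinearGroup (Fin n) F) : Matrix (Fin n) (Fin n) F) = Cfsg.reflectionMatrix ⇑Q v} = ⊤ := by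
  have hQ' := H12.nondeg_iff.mpr hQ
  have hG : H12.Good Q := H12.good_of_card hQ' (by simpa using h)
  let e := H12.isoEquiv Q (q := ⇑Q) (fun _ => rfl)
  apply Subgroup.map_injective (f := e.toMonoidHom) e.injective
  rw [Subgroup.map_top_of_surjective _ e.surjective]
  refine H12.eq_top_of_refl hQ' hG _ fun v hv => ⟨e.symm (H12.refl Q v), ?_, by simp⟩
  refine Subgroup.subset_closure ⟨v, hv, ?_⟩
  rw [H12.isoEquiv_eq_iff Q (fun _ => rfl) _ _ (H12.reflectionMatrix_mulVec Q v)]
  exact e.apply_symm_apply _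

end Cfsg.Agent.S0786
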