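import Mathlib
import Cfsg.Statements.S0787
import Cfsg.Agent.Lib.Orth12.IndexTwo

set_option autoImplicit false
open Cfsg

namespace Cfsg.Agent.S0787

/-- Existence and uniqueness of Ω: if F is finite, n ≥ 2, Q is a quadratic form on F^n with non-degenerate polar form and (|F|, n) ≠ (2, 4), then the group of isometries of determinant one has a unique subgroup of index 2. -/
theorem result {F : Type*} [Field F] [Fintype F] {n : ℕ} (hn : 2 ≤ n) (Q : QuadraticForm F (Fin n → F)) (hQ : (QuadraticMap.polarBilin Q).Nondegenerate) (h : Fintype.card F ≠ 2 ∨ n ≠ 4) : ∃! H : Subgroup ↥(Cfsg.specialIsometryGroup F ⇑Q), H.index = 2 := by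
  classical
  have hQ' := H12.nondeg_iff.mpr hQ
  have hG : H12.Good Q := H12.good_of_card hQ' (by simpa using h)
  let e := H12.isoEquiv Q (q := ⇑Q) (fun _ => rfl)
  have hn' : 2 ≤ Module.finrank F (Fin n → F) := by simpa using hn
  have hle : commutator (Cfsg.isometryGroup F ⇑Q) ≤ Cfsg.specialIsometryGroup F ⇑Q :=
    Abelianization.commutator_subset_ker _
  refine H12.exists_unique_index_two (W := commutator _) ?_ fun T hT g hg => ?_
  · have h1 := Subgroup.relIndex_mul_index hle
    rw [H12.index_commutator_congr e] at h1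
    by_cases h2 : (2 : F) = 0
    · have : Cfsg.specialIsometryGroup F ⇑Q = ⊤ := by
        rw [eq_top_iff]
        intro g _
        rw [H12.mem_specialIsometryGroup Q (fun _ => rfl)]
        exact H12.detO_eq_one_of_two_eq_zero hQ' hG h2 _
      rw [H12.index_Om_even hQ' hG h2 (by omega)] at h1
      rw [this] at h1 ⊢
      simpa using h1
    · have : Cfsg.specialIsometryGroup F ⇑Q = (H12.dk hQ' hG).ker.comap e.toMonoidHom := by
        ext g
        rw [H12.mem_specialIsometryGroup Q (fun _ => rfl), H12.detO_eq_one_iff hQ' hG h2]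
        rfl
      have h3 : (Cfsg.specialIsometryGroup F ⇑Q).index = 2 := by
        rw [this, Subgroup.index_comap_of_surjective _ e.surjective,
          H12.index_ker_dk hQ' hG (by omega)]
      rw [H12.index_Om_odd hQ' h2 hn', h3] at h1
      omega
  · have h1 : H12.Om Q ≤ T.map e.toMonoidHom := by
      refine H12.Om_le_of_sq hQ' hG fun k hk => ?_
      obtain ⟨k, rfl⟩ := e.surjective k
      refine ⟨k * k, hT k ?_, map_mul _ _ _⟩
      rw [H12.mem_specialIsometryGroup Q (fun _ => rfl), H12.detO_eq_dk hQ' hG]
      change (((H12.dk hQ' hG (e k) : ℤˣ) : ℤ) : F) = 1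
      rw [hk]; simp
    exact (Subgroup.mem_map_iff_mem e.injective).mp (h1 ((H12.mem_commutator_congr e g).mpr hg))

end Cfsg.Agent.S0787
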