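import Mathlib
import Cfsg.Statements.S0792
import Cfsg.Agent.Lib.Orth12.IndexTwo

set_option autoImplicit false
open Cfsg

namespace Cfsg.Agent.S0792

/-- For q odd and Q with non-degenerate polar form on F^n, the determinant-one isometries form the subgroup generated by all products r_u r_v of two reflections (Q(u), Q(v) ≠ 0). -/
theorem result {F : Type*} [Field F] [Fintype F] (h2 : (2 : F) ≠ 0) {n : ℕ} (Q : QuadraticForm F (Fin n → F)) (hQ : (QuadraticMap.polarBilin Q).Nondegenerate) : Cfsg.specialIsometryGroup F ⇑Q = Subgroup.closure {g : ↥(Cfsg.isometryGroup F ⇑Q) | ∃ u v : Fin n → F, Q u ≠ 0 ∧ Q v ≠ 0 ∧ ((g : Matrix.GeneralLinearGroup (Fin n) F) : Matrix (Fin n) (Fin n) F) = Cfsg.reflectionMatrix ⇑Q u * Cfsg.reflectionMatrix ⇑Q v} := by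
  have hQ' := H12.nondeg_iff.mpr hQ
  have hG := H12.good_of_two_ne_zero hQ' h2
  let e := H12.isoEquiv Q (q := ⇑Q) (fun _ => rfl)
  have hM : ∀ u v x : Fin n → F, (Cfsg.reflectionMatrix ⇑Q u * Cfsg.reflectionMatrix ⇑Q v).mulVec x =
      (H12.refl Q u * H12.refl Q v).1 x := by
    intro u v x
    rw [← Matrix.mulVec_mulVec, H12.reflectionMatrix_mulVec, H12.reflectionMatrix_mulVec,
      H12.O.mul_apply]
  apply le_antisymm
  · intro g hg
    rw [H12.mem_specialIsometryGroup Q (fun _ => rfl), H12.detO_eq_one_iff hQ' hG h2] at hg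
    refine (Subgroup.mem_map_iff_mem (f := e.toMonoidHom) e.injective).mp
      (H12.ker_dk_le hQ' hG (fun u v hu hv => ?_) hg)
    refine ⟨e.symm (H12.refl Q u * H12.refl Q v), Subgroup.subset_closure ⟨u, v, hu, hv, ?_⟩,
      e.apply_symm_apply _⟩
    rw [H12.isoEquiv_eq_iff Q (fun _ => rfl) _ _ (hM u v)]
    exact e.apply_symm_apply _
  · rw [Subgroup.closure_le]
    rintro g ⟨u, v, hu, hv, hg⟩
    rw [H12.isoEquiv_eq_iff Q (fun _ => rfl) _ _ (hM u v)] at hg
    rw [SetLike.mem_coe, H12.mem_specialIsometryGroup Q (fun _ => rfl), hg, map_mul,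
      H12.detO_refl hu, H12.detO_refl hv]
    simp

end Cfsg.Agent.S0792
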