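import Mathlib
import Cfsg.Statements.S0794
import Cfsg.Agent.Lib.Orth12.Bridge

set_option autoImplicit false
open Cfsg

namespace Cfsg.Agent.S0794

/-- For q odd, n ≥ 5 and Q with non-degenerate polar form: an isometry whose matrix is a Siegel transformation T_(u,v)(c) (u, v singular and orthogonal) is a commutator in the isometry group, so lies in Ω. -/
theorem result {F : Type*} [Field F] [Fintype F] (h2 : (2 : F) ≠ 0) {n : ℕ} (hn : 5 ≤ n) (Q : QuadraticForm F (Fin n → F)) (hQ : (QuadraticMap.polarBilin Q).Nondegenerate) (u v : Fin n → F) (hu : Q u = 0) (hv : Q v = 0) (huv : QuadraticMap.polar ⇑Q u v = 0) (c : F) (g : ↥(Cfsg.isometryGroup F ⇑Q)) (hg : ((g : Matrix.GeneralLinearGroup (Fin n) F) : Matrix (Fin n) (Fin n) F) = Cfsg.siegelMatrix ⇑Q u v c) : g ∈ commutatorSet ↥(Cfsg.isometryGroup F ⇑Q) ∧ g ∈ Cfsg.Omega F ⇑Q := by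
  have hQ' := H12.nondeg_iff.mpr hQ
  let e := H12.isoEquiv Q (q := ⇑Q) (fun _ => rfl)
  rw [H12.isoEquiv_eq_iff Q (fun _ => rfl) _ _ (H12.siegelMatrix_mulVec Q hu hv huv c)] at hg
  obtain ⟨a, b, c', d, -, -, h⟩ := H12.siegel_eq_comm hQ' (by simp; omega) hu
    (v := (-c) • v) (by rw [H12.Q_smul, hv, mul_zero]) (by rw [H12.B_smul_right, huv, mul_zero])
  have h1 : g ∈ commutatorSet ↥(Cfsg.isometryGroup F ⇑Q) := by
    refine ⟨e.symm (H12.eich Q a b), e.symm (H12.eich Q c' d), e.injective ?_⟩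
    rw [commutatorElement_def]
    simp only [map_mul, map_inv, MulEquiv.apply_symm_apply]
    rw [← h]
    exact hg.symm
  exact ⟨h1, by rw [Cfsg.Omega, commutator_eq_closure]; exact Subgroup.subset_closure h1⟩

end Cfsg.Agent.S0794
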