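import Mathlib
import Cfsg.Statements.S0795
import Cfsg.Agent.Lib.Orth12.Bridge

set_option autoImplicit false
open Cfsg

namespace Cfsg.Agent.S0795

/-- Generation of Ω by root elements: for q odd, n ≥ 5 and Q with non-degenerate polar form on F^n, the commutator subgroup of the isometry group equals the subgroup generated by the isometries whose matrices are Siegel transformations T_(u,v)(c) with u, v singular and orthogonal. -/
theorem result {F : Type*} [Field F] [Fintype F] (h2 : (2 : F) ≠ 0) {n : ℕ} (hn : 5 ≤ n) (Q : QuadraticForm F (Fin n → F)) (hQ : (QuadraticMap.polarBilin Q).Nondegenerate) : Cfsg.Omega F ⇑Q = Subgroup.closure {g : ↥(Cfsg.isometryGroup F ⇑Q) | ∃ (u v : Fin n → F) (c : F), Q u = 0 ∧ Q v = 0 ∧ QuadraticMap.polar ⇑Q u v = 0 ∧ ((g : Matrix.GeneralLinearGroup (Fin n) F) : Matrix (Fin n) (Fin n) F) = Cfsg.siegelMatrix ⇑Q u v c} := by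
  have hQ' := H12.nondeg_iff.mpr hQ
  have hG := H12.good_of_two_ne_zero hQ' h2
  let e := H12.isoEquiv Q (q := ⇑Q) (fun _ => rfl)
  apply le_antisymm
  · intro g hg
    have h1 : H12.Om Q ≤ Subgroup.map e.toMonoidHom (Subgroup.closure {g : ↥(Cfsg.isometryGroup F ⇑Q) | ∃ (u v : Fin n → F) (c : F), Q u = 0 ∧ Q v = 0 ∧ QuadraticMap.polar ⇑Q u v = 0 ∧ ((g : Matrix.GeneralLinearGroup (Fin n) F) : Matrix (Fin n) (Fin n) F) = Cfsg.siegelMatrix ⇑Q u v c}) := by
      refine H12.Om_le_of_siegel hQ' (by simpa using hn) fun u v hu hv huv =>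
        ⟨e.symm (H12.eich Q u v), Subgroup.subset_closure ⟨u, v, -1, hu, hv, huv, ?_⟩, by simp⟩
      rw [H12.isoEquiv_eq_iff Q (fun _ => rfl) _ _ (H12.siegelMatrix_mulVec Q hu hv huv (-1)),
        neg_neg, one_smul]
      exact e.apply_symm_apply _
    exact (Subgroup.mem_map_iff_mem e.injective).mp
      (h1 ((H12.mem_commutator_congr e g).mpr hg))
  · rw [Subgroup.closure_le]
    rintro g ⟨u, v, c, hu, hv, huv, hg⟩
    rw [H12.isoEquiv_eq_iff Q (fun _ => rfl) _ _ (H12.siegelMatrix_mulVec Q hu hv huv c)] at hg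
    apply (H12.mem_commutator_congr e g).mp
    change H12.isoEquiv Q (fun _ => rfl) g ∈ _
    rw [hg]
    exact H12.eich_mem_Om hQ' hG _ _

end Cfsg.Agent.S0795
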