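import Cfsg.Statements.S0796
import Mathlib

set_option autoImplicit false
open Cfsg

namespace Cfsg.Agent.S0796

/-- If G is finite and acts faithfully and primitively on X, H is the stabiliser of a point, A is a normal subgroup of H whose normal closure in G is G, then for every non-trivial normal subgroup K of G the quotient G ⧸ K is isomorphic to A ⧸ B for some normal subgroup B of A. -/
theorem result {G X : Type*} [Group G] [Finite G] [MulAction G X] [FaithfulSMul G X] (hprim : MulAction.IsPreprimitive G X) (x : X) (A : Subgroup G) (hA : A ≤ MulAction.stabilizer G x) (hAn : (A.subgroupOf (MulAction.stabilizer G x)).Normal) (hgen : Subgroup.normalClosure (A : Set G) = ⊤) (K : Subgroup G) [K.Normal] (hK : K ≠ ⊥) : ∃ (B : Subgroup A) (_ : B.Normal), Nonempty (G ⧸ K ≃* A ⧸ B) := by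
  have htrans : MulAction.IsPretransitive K X := by
    apply MulAction.IsQuasiPreprimitive.isPretransitive_of_normal
    intro h
    apply hK
    rw [eq_bot_iff]
    intro k hk
    rw [Subgroup.mem_bot]
    apply FaithfulSMul.eq_of_smul_eq_smul (α := X)
    intro a
    have : a ∈ MulAction.fixedPoints K X := h ▸ Set.mem_univ a
    rw [one_smul]
    exact this ⟨k, hk⟩
  have hN : (K ⊔ A).Normal := by
    constructor
    intro n hn g
    obtain ⟨k, hk⟩ := MulAction.exists_smul_eq K (g • x) x
    have hkg : (k : G) * g ∈ MulAction.stabilizer G x := by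
      rw [MulAction.mem_stabilizer_iff, mul_smul]; exact hk
    obtain ⟨y, hy, z, hz, rfl⟩ := (Subgroup.mem_sup_of_normal_left).1 hn
    have h1 : ((k : G) * g) * z * ((k : G) * g)⁻¹ ∈ A :=
      hAn.conj_mem ⟨z, hA hz⟩ hz ⟨_, hkg⟩
    have h2 : g * (y * z) * g⁻¹
        = (g * y * g⁻¹) * ((k : G)⁻¹ * (((k : G) * g) * z * ((k : G) * g)⁻¹) * k) := by group
    rw [h2]
    refine mul_mem (Subgroup.mem_sup_left (‹K.Normal›.conj_mem y hy g))
      (mul_mem (mul_mem (Subgroup.mem_sup_left (inv_mem k.2)) (Subgroup.mem_sup_right h1))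
        (Subgroup.mem_sup_left k.2))
  have htop : K ⊔ A = ⊤ := by
    rw [eq_top_iff, ← hgen]
    exact Subgroup.normalClosure_le_normal (fun a ha => Subgroup.mem_sup_right ha)
  let f : A →* G ⧸ K := (QuotientGroup.mk' K).comp A.subtype
  have hf : Function.Surjective f := by
    intro q
    obtain ⟨g, rfl⟩ := QuotientGroup.mk_surjective q
    have hg : g ∈ K ⊔ A := htop ▸ Subgroup.mem_top g
    obtain ⟨y, hy, z, hz, rfl⟩ := (Subgroup.mem_sup_of_normal_left).1 hg
    refine ⟨⟨z, hz⟩, ?_⟩
    change ((z : G) : G ⧸ K) = _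
    rw [QuotientGroup.mk_mul, (QuotientGroup.eq_one_iff y).2 hy, one_mul]
  exact ⟨f.ker, inferInstance, ⟨(QuotientGroup.quotientKerEquivOfSurjective f hf).symm⟩⟩

end Cfsg.Agent.S0796
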