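import Mathlib
import Cfsg.Statements.S0798
import Cfsg.Agent.Lib.Orth12.IndexTwo

set_option autoImplicit false
open Cfsg

namespace Cfsg.Agent.S0798

/-- For q odd, n ≥ 2 even, Q with non-degenerate polar form (n, |F|) ≠ (4, 3), and a fixed c ≠ 0: the subgroup of the isometry group generated by the reflections r_v with Q(v) ∈ c·(F^×)² has index 2. -/
theorem result {F : Type*} [Field F] [Fintype F] (h2 : (2 : F) ≠ 0) {n : ℕ} (hn : 2 ≤ n) (heven : Even n) (Q : QuadraticForm F (Fin n → F)) (hQ : (QuadraticMap.polarBilin Q).Nondegenerate) (h43 : ¬ (n = 4 ∧ Fintype.card F = 3)) (c : F) (hc : c ≠ 0) : (Subgroup.closure {g : ↥(Cfsg.isometryGroup F ⇑Q) | ∃ (v : Fin n → F) (t : F), t ≠ 0 ∧ Q v = c * t ^ 2 ∧ ((g : Matrix.GeneralLinearGroup (Fin n) F) : Matrix (Fin n) (Fin n) F) = Cfsg.reflectionMatrix ⇑Q v}).index = 2 := by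
  classical
  have hQ' := H12.nondeg_iff.mpr hQ
  have hG := H12.good_of_two_ne_zero hQ' h2
  have hn' : 2 ≤ Module.finrank F (Fin n → F) := by simpa using hn
  let e := H12.isoEquiv Q (q := ⇑Q) (fun _ => rfl)
  set R := Subgroup.closure {g : ↥(Cfsg.isometryGroup F ⇑Q) | ∃ (v : Fin n → F) (t : F), t ≠ 0 ∧ Q v = c * t ^ 2 ∧ ((g : Matrix.GeneralLinearGroup (Fin n) F) : Matrix (Fin n) (Fin n) F) = Cfsg.reflectionMatrix ⇑Q v} with hR
  have hR1 : ∀ v, Q v = c → H12.refl Q v ∈ R.map e.toMonoidHom := by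
    intro v hv
    refine ⟨e.symm (H12.refl Q v), Subgroup.subset_closure ⟨v, 1, one_ne_zero, by simpa using hv, ?_⟩,
      e.apply_symm_apply _⟩
    rw [H12.isoEquiv_eq_iff Q (fun _ => rfl) _ _ (H12.reflectionMatrix_mulVec Q v)]
    exact e.apply_symm_apply _
  have hOm : H12.Om Q ≤ R.map e.toMonoidHom := by
    refine H12.Om_le_of_refl_Q_eq hQ' h2 ?_ hc hR1
    have h3 := H12.card_odd_of_two_ne_zero h2
    have h4 : 1 < Fintype.card F := Fintype.one_lt_card
    obtain ⟨k, hk⟩ := heven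
    simp only [Module.finrank_fintype_fun_eq_card, Fintype.card_fin, Nat.card_eq_fintype_card]
    omega
  obtain ⟨v, hv⟩ := hQ'.universal hn' c
  have hv0 : Q v ≠ 0 := by rwa [hv]
  obtain ⟨ψ, hψ1, hψ2, hψ3⟩ : ∃ ψ : H12.O Q →* ℤˣ,
      (∀ (w : Fin n → F) (t : F), t ≠ 0 → Q w = c * t ^ 2 → ψ (H12.refl Q w) = 1) ∧
      Function.Surjective ψ ∧
      ∀ g, ψ g = 1 → H12.dk hQ' hG g = 1 → H12.spin hQ' hG g = 1 := by
    have hs : ∀ (w : Fin n → F) (t : F), t ≠ 0 → Q w = c * t ^ 2 →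
        H12.spin hQ' hG (H12.refl Q w) = H12.spin hQ' hG (H12.refl Q v) := by
      intro w t ht hw
      apply Units.ext
      rw [H12.coe_spin_refl hQ' hG hv0, H12.coe_spin_refl hQ' hG
        (by rw [hw]; exact mul_ne_zero hc (pow_ne_zero _ ht)), hw, hv, map_mul,
        quadraticChar_sq_one' ht, mul_one]
    rcases Int.units_eq_one_or (H12.spin hQ' hG (H12.refl Q v)) with h | h
    · refine ⟨H12.spin hQ' hG, fun w t ht hw => by rw [hs w t ht hw, h], fun s => ?_,
        fun g hg _ => hg⟩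
      obtain ⟨g, hg⟩ := H12.dk_spin_surjective hQ' hG h2 hn' (1, s)
      exact ⟨g, congrArg Prod.snd hg⟩
    · refine ⟨H12.dk hQ' hG * H12.spin hQ' hG, fun w t ht hw => ?_, fun s => ?_,
        fun g hg hg' => ?_⟩
      · rw [MonoidHom.mul_apply, hs w t ht hw, h, H12.dk_refl hQ' hG
          (by rw [hw]; exact mul_ne_zero hc (pow_ne_zero _ ht))]
        simp
      · obtain ⟨g, hg⟩ := H12.dk_spin_surjective hQ' hG h2 hn' (1, s)
        refine ⟨g, ?_⟩
        rw [MonoidHom.mul_apply, show H12.dk hQ' hG g = 1 from congrArg Prod.fst hg,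
          show H12.spin hQ' hG g = s from congrArg Prod.snd hg, one_mul]
      · rwa [MonoidHom.mul_apply, hg', one_mul] at hg
  have key : R = ψ.ker.comap e.toMonoidHom := by
    apply le_antisymm
    · rw [hR, Subgroup.closure_le]
      rintro g ⟨w, t, ht, hw, hg⟩
      rw [H12.isoEquiv_eq_iff Q (fun _ => rfl) _ _ (H12.reflectionMatrix_mulVec Q w)] at hg
      change ψ (H12.isoEquiv Q (fun _ => rfl) g) = 1
      rw [hg, hψ1 w t ht hw]
    · intro g hg
      have hg' : ψ (e g) = 1 := hg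
      refine (Subgroup.mem_map_iff_mem (f := e.toMonoidHom) e.injective).mp ?_
      change e g ∈ _
      rcases Int.units_eq_one_or (H12.dk hQ' hG (e g)) with h | h
      · exact hOm ((H12.mem_Om_iff hQ' hG _).mpr ⟨h, hψ3 _ hg' h⟩)
      · have h1 : H12.dk hQ' hG (H12.refl Q v * e g) = 1 := by
          rw [map_mul, h, H12.dk_refl hQ' hG hv0]; simp
        have h3 : ψ (H12.refl Q v * e g) = 1 := by
          rw [map_mul, hg', hψ1 v 1 one_ne_zero (by simpa using hv), one_mul]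
        exact (Subgroup.mul_mem_cancel_left _ (hR1 v hv)).mp
          (hOm ((H12.mem_Om_iff hQ' hG _).mpr ⟨h1, hψ3 _ h3 h1⟩))
  rw [key, Subgroup.index_comap_of_surjective _ e.surjective, Subgroup.index_ker,
    MonoidHom.range_eq_top.mpr hψ2, Subgroup.card_top]
  simp

end Cfsg.Agent.S0798
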