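import Cfsg.Statements.S0808
import Mathlib
import Cfsg.Agent.Lib.SL2.Invol

set_option autoImplicit false
open Cfsg

namespace Cfsg.Agent.S0808

/-- Conjugacy classes of four-groups in PSL_2(q), q odd: if q ≡ 3 or 5 (mod 8) all Klein four-subgroups are conjugate; if q ≡ 1 or 7 (mod 8) there are two Klein four-subgroups which are not conjugate, and every Klein four-subgroup is conjugate to one of them. -/
theorem result {F : Type*} [Field F] [Fintype F] {q : ℕ} (hF : Fintype.card F = q) (hodd : Odd q) : ((q % 8 = 3 ∨ q % 8 = 5) → ∀ V W : Subgroup (Matrix.ProjectiveSpecialLinearGroup (Fin 2) F), IsKleinFour V → IsKleinFour W → ∃ g : Matrix.ProjectiveSpecialLinearGroup (Fin 2) F, W = V.map (MulAut.conj g).toMonoidHom) ∧ ((q % 8 = 1 ∨ q % 8 = 7) → ∃ V₁ V₂ : Subgroup (Matrix.ProjectiveSpecialLinearGroup (Fin 2) F), IsKleinFour V₁ ∧ IsKleinFour V₂ ∧ (¬ ∃ g : Matrix.ProjectiveSpecialLinearGroup (Fin 2) F, V₂ = V₁.map (MulAut.conj g).toMonoidHom) ∧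 ∀ W : Subgroup (Matrix.ProjectiveSpecialLinearGroup (Fin 2) F), IsKleinFour W → (∃ g : Matrix.ProjectiveSpecialLinearGroup (Fin 2) F, W = V₁.map (MulAut.conj g).toMonoidHom) ∨ (∃ g : Matrix.ProjectiveSpecialLinearGroup (Fin 2) F, W = V₂.map (MulAut.conj g).toMonoidHom)) := by
  have h2 : (2 : F) ≠ 0 := H29.two_ne_zero_iff_odd.2 (by rwa [Nat.card_eq_fintype_card, hF])
  refine ⟨fun h V W hV hW => (H29.dihInv_psl h2).conj_of_no_four
    (H29.psl_sq_eq_one_of_pow_four ?_) hV hW, fun h => ?_⟩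
  · rw [FiniteField.isSquare_two_iff, hF]; omega
  · obtain ⟨r, hr⟩ : IsSquare (2 : F) := by rw [FiniteField.isSquare_two_iff, hF]; omega
    exact (H29.dihInv_psl h2).two_classes
      (fun _ _ hp => H29.cj_swap h2 (r := r) (by rw [hr, pow_two]) hp) fun _ _ hp => H29.cj_rot h2 hp

end Cfsg.Agent.S0808
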