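import Cfsg.Statements.S0809
import Mathlib
import Cfsg.Agent.Lib.SL2.Invol

set_option autoImplicit false
open Cfsg

namespace Cfsg.Agent.S0809

/-- In SL_2(q), q odd: any two subgroups of order 4 are conjugate, and the normaliser of a subgroup of order 4 has order 2(q − 1) if q ≡ 1 (mod 4) and 2(q + 1) if q ≡ 3 (mod 4); consequently all involutions of PSL_2(q) are conjugate. -/
theorem result {F : Type*} [Field F] [Fintype F] {q : ℕ} (hF : Fintype.card F = q) (hodd : Odd q) (A : Subgroup (Matrix.SpecialLinearGroup (Fin 2) F)) (hA : Nat.card A = 4) : (∀ B : Subgroup (Matrix.SpecialLinearGroup (Fin 2) F), Nat.card B = 4 → ∃ g : Matrix.SpecialLinearGroup (Fin 2) F, B = A.map (MulAut.conj g).toMonoidHom) ∧ (q % 4 = 1 → Nat.card ↥(Subgroup.normalizer (A : Set (Matrix.SpecialLinearGroup (Fin 2) F))) = 2 * (q - 1)) ∧ (q % 4 = 3 → Nat.card ↥(Subgroup.normalizer (A : Set (Matrix.SpecialLinearGroup (Fin 2) F))) = 2 * (q + 1)) ∧ (∀ x y : Matrix.ProjectiveSpecialLinearGroup (Fin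 2) F, orderOf x = 2 → orderOf y = 2 → IsConj x y) := by
  have hq : Nat.card F = q := by rw [Nat.card_eq_fintype_card, hF]
  have h2 : (2 : F) ≠ 0 := H29.two_ne_zero_iff_odd.2 (by rwa [hq])
  have key : ∀ B : Subgroup (Matrix.SpecialLinearGroup (Fin 2) F), Nat.card B = 4 →
      ∃ g, B = (Subgroup.zpowers (H29.matJ F)).map (MulAut.conj g).toMonoidHom := by
    intro B hB
    obtain ⟨x, hx, h1, h3⟩ := H19.exists_mem_ne_ne (A := B) (by omega) (-1)
    have h4 : (x * x) * (x * x) = 1 := by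
      have := congrArg Subtype.val (pow_card_eq_one' (x := (⟨x, hx⟩ : B)))
      rw [hB] at this
      simpa [pow_succ, mul_assoc] using this
    have h5 := H29.trace_of_mul_self h2 ((H29.sl_eq_of_mul_self_eq_one h2 h4).resolve_left
      fun h => (H29.sl_eq_of_mul_self_eq_one h2 h).elim h1 h3)
    obtain ⟨c, hc⟩ := H29.exists_conj_matJ h2 h5
    refine ⟨c, ?_⟩
    rw [MonoidHom.map_zpowers]
    change B = Subgroup.zpowers (c * H29.matJ F * c⁻¹)
    rw [hc]
    exact (Subgroup.eq_of_le_of_card_ge ((Subgroup.zpowers_le).2 hx)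
      (by rw [Nat.card_zpowers, H29.orderOf_of_trace h2 h5, hB])).symm
  obtain ⟨g, rfl⟩ := key A hA
  have hN : Nat.card (Subgroup.normalizer (((Subgroup.zpowers (H29.matJ F)).map
      (MulAut.conj g).toMonoidHom : Subgroup _) : Set (Matrix.SpecialLinearGroup (Fin 2) F)))
      = 2 * Nat.card (H29.rotSL F) := by
    rw [← H29.card_nrmSL h2, ← Subgroup.map_equiv_normalizer_eq,
      Subgroup.card_map_of_injective (MulAut.conj g).injective]
    rfl
  refine ⟨fun B hB => ?_, fun h => ?_, fun h => ?_, fun x y hx hy => ?_⟩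
  · obtain ⟨c, rfl⟩ := key B hB
    refine ⟨c * g⁻¹, ?_⟩
    rw [Subgroup.map_map]
    congr 1
    ext x : 1
    simp [mul_assoc]
  · rw [hN, H29.card_rotSL_of_one (by rwa [hq]), hq]
  · rw [hN, H29.card_rotSL_of_three (by rwa [hq]), hq]
  · have k : ∀ z : Matrix.ProjectiveSpecialLinearGroup (Fin 2) F, orderOf z = 2 →
        IsConj (QuotientGroup.mk (H29.matJ F)) z := fun z hz =>
      isConj_iff.2 ((H29.dihInv_psl h2).conj z ((pow_two z).symm.trans (orderOf_dvd_iff_pow_eq_one.1 hz.dvd))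
        (by rintro rfl; simp at hz))
    exact (k x hx).symm.trans (k y hy)

end Cfsg.Agent.S0809
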