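import Mathlib
import Cfsg.Statements.S0818
import Cfsg.Agent.Lib.AutCl.ClOOut
-- import your own Cfsg.Agent.* helpers here

set_option autoImplicit false
set_option linter.unusedVariables false
open Cfsg

namespace Cfsg.Agent.S0818

/-- |Aut(PΩ⁻_2m(q))| for q = p^f, m ≥ 4 (form quadFormMinus (m−1) with anisotropic binary part): |PΩ⁻_2m(q)| times f, times 2 if p = 2, and times 4 or 8 if p is odd according as m(q−1)/2 is even or odd. -/
theorem result {F : Type*} [Field F] [Fintype F] (p f : ℕ) [Fact p.Prime] (hf : 1 ≤ f) (hF : Fintype.card F = p ^ f) (m : ℕ) (hm : 4 ≤ m) (a b : F) (hab : ∀ z₁ z₂ : F, z₁ ^ 2 + a * z₁ * z₂ + b * z₂ ^ 2 = 0 → z₁ = 0 ∧ z₂ = 0) : Nat.card (MulAut (Cfsg.POmega F (Cfsg.quadFormMinus (m - 1) F a b))) = (if p = 2 then 2 else (if Even (m * (p ^ f - 1) / 2) then 4 else 8)) * f * Nat.card (Cfsg.POmega F (Cfsg.quadFormMinus (m - 1) F a b)) := by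
  rw [H67.card_aut_minus hF (m := m - 1) (by omega) hab]
  congr 2
  by_cases h : p = 2
  · rw [if_pos h, if_pos h]
  rw [if_neg h, if_neg h]
  have ho := Nat.odd_iff.1 (((Fact.out : p.Prime).odd_of_ne_two h).pow (n := f))
  obtain ⟨k, hk⟩ : ∃ k, p ^ f = 2 * k + 1 := ⟨p ^ f / 2, by omega⟩
  have h1 : m * (p ^ f - 1) / 2 = m * k := by
    rw [hk, Nat.add_sub_cancel, mul_left_comm, Nat.mul_div_cancel_left _ two_pos]
  rw [h1, hk]
  simp only [Nat.even_mul]
  simp only [Nat.even_iff]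
  split_ifs <;> omega

end Cfsg.Agent.S0818
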