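import Cfsg.Statements.S0819
import Mathlib
import Cfsg.Agent.Lib.ClGeo.F4
import Cfsg.Agent.Lib.GL.Basic

set_option autoImplicit false
open Cfsg

namespace Cfsg.Agent.S0819

open Matrix H30

theorem cayley {R : Type*} [CommRing R] (A : Matrix (Fin 3) (Fin 3) R) :
    ∃ t s : R, A ^ 3 = t • A ^ 2 - s • A + A.det • (1 : Matrix (Fin 3) (Fin 3) R) := by
  refine ⟨A 0 0 + A 1 1 + A 2 2, A 0 0 * A 1 1 + A 0 0 * A 2 2 + A 1 1 * A 2 2 - A 0 1 * A 1 0
    - A 0 2 * A 2 0 - A 1 2 * A 2 1, ?_⟩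
  ext i j
  fin_cases i <;> fin_cases j <;>
    simp [pow_succ, Matrix.mul_apply, Fin.sum_univ_three, det_fin_three] <;> ring

/-- Multiplication by `x` modulo `x³ - t x² + s x - 1` on coefficient triples. -/
def step {R : Type*} [CommRing R] (t s : R) (p : R × R × R) : R × R × R :=
  (p.2.2, p.1 - p.2.2 * s, p.2.1 + p.2.2 * t)

theorem pow_eq {R : Type*} [CommRing R] (A : Matrix (Fin 3) (Fin 3) R) (t s : R)
    (h : A ^ 3 = t • A ^ 2 - s • A + (1 : Matrix (Fin 3) (Fin 3) R)) (k : ℕ) :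
    A ^ k = ((step t s)^[k] (1, 0, 0)).1 • (1 : Matrix (Fin 3) (Fin 3) R) +
      ((step t s)^[k] (1, 0, 0)).2.1 • A + ((step t s)^[k] (1, 0, 0)).2.2 • A ^ 2 := by
  induction k with
  | zero => simp
  | succ k ih =>
    rw [Function.iterate_succ_apply', pow_succ, ih]
    generalize (step t s)^[k] (1, 0, 0) = p
    simp only [step, add_mul, smul_mul_assoc, one_mul, ← pow_two, ← pow_succ, h]
    module

theorem table : ∀ t s : F4, ((step t s)^[5] (1, 0, 0)).2 = (0, 0) ∨
    ((step t s)^[7] (1, 0, 0)).2 = (0, 0) ∨ ((step t s)^[12] (1, 0, 0)).2 = (0, 0) := by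
  decide +kernel

theorem aux (g : Matrix.ProjectiveSpecialLinearGroup (Fin 3) F4) : orderOf g ≠ 15 := by
  obtain ⟨A, rfl⟩ := QuotientGroup.mk_surjective g
  obtain ⟨t, s, h⟩ := cayley (A : Matrix (Fin 3) (Fin 3) F4)
  rw [A.det_coe, one_smul] at h
  have key : ∀ k, ((step t s)^[k] (1, 0, 0)).2 = (0, 0) →
      orderOf (A : Matrix.ProjectiveSpecialLinearGroup (Fin 3) F4) ∣ k := by
    intro k hk
    have h1 := pow_eq _ t s h k
    rw [hk] at h1
    simp only [zero_smul, add_zero] at h1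
    rw [orderOf_dvd_iff_pow_eq_one, ← QuotientGroup.mk_pow, QuotientGroup.eq_one_iff,
      Subgroup.mem_center_iff]
    intro B
    apply Subtype.ext
    rw [Matrix.SpecialLinearGroup.coe_mul, Matrix.SpecialLinearGroup.coe_mul,
      Matrix.SpecialLinearGroup.coe_pow, h1]
    simp
  intro h15
  rcases table t s with h | h | h
  all_goals
    have := key _ h
    rw [h15] at this
    revert this
    decide

/-- No element of PSL_3(4) has order 15. -/
theorem result {F : Type*} [Field F] [Fintype F] (hF : Fintype.card F = 4) (g : Matrix.ProjectiveSpecialLinearGroup (Fin 3) F) : orderOf g ≠ 15 := by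
  obtain ⟨e⟩ := F4.nonempty_ringEquiv hF
  rw [← (H10.pslCongr e).orderOf_eq]
  exact aux _

end Cfsg.Agent.S0819
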