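import Cfsg.Statements.S0821
import Mathlib
import Cfsg.Agent.Lib.ClGeo.InvSp
import Cfsg.Agent.Lib.Orth12.Forms

set_option autoImplicit false
open Cfsg

namespace Cfsg.Agent.S0821

open QuadraticMap Module H12 in
theorem exists_orthonormal {F V : Type*} [Field F] [Finite F] [AddCommGroup V] [Module F V]
    [FiniteDimensional F V] {Q : QuadraticForm F V} (hQ : Nondeg Q) (h2 : (2 : F) ≠ 0) (n : ℕ)
    (hn : n < finrank F V) :
    ∃ v : ℕ → V, (∀ i < n, Q (v i) = 1) ∧ ∀ i < n, ∀ j < n, i ≠ j → polar Q (v i) (v j) = 0 := by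
  induction n with
  | zero => exact ⟨fun _ => 0, by simp, by simp⟩
  | succ n ih =>
    obtain ⟨v, hv1, hv2⟩ := ih (by omega)
    let φ : V →ₗ[F] (Fin n → F) := LinearMap.pi fun i => polarBilin Q (v i)
    have hφ : ∀ x, x ∈ LinearMap.ker φ ↔ ∀ i < n, polar Q (v i) x = 0 := by
      intro x
      rw [LinearMap.mem_ker]
      constructor
      · intro h i hi
        exact congrFun h ⟨i, hi⟩
      · intro h
        funext i
        exact h i i.2
    have hd : 2 ≤ finrank F (LinearMap.ker φ) := by
      have h1 := LinearMap.finrank_range_add_finrank_ker φ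
      have h3 : finrank F (LinearMap.range φ) ≤ n := by
        have := Submodule.finrank_le (LinearMap.range φ)
        simpa using this
      omega
    have hnd : Nondeg (Q.restrict (LinearMap.ker φ)) := by
      intro x hx
      apply Subtype.ext
      apply hQ
      intro y
      have hy : y - ∑ i ∈ Finset.range n, ((2 : F)⁻¹ * polar Q (v i) y) • v i ∈
          LinearMap.ker φ := by
        rw [hφ]
        intro j hj
        rw [polar_sub_right, B_sum_right, Finset.sum_eq_single j]
        · rw [B_smul_right, B_self, hv1 j hj]; field_simp; ring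
        · intro i hi hij
          rw [B_smul_right, hv2 j hj i (Finset.mem_range.mp hi) hij.symm, mul_zero]
        · intro h; exact absurd (Finset.mem_range.mpr hj) h
      have h1 := hx ⟨_, hy⟩
      have h3 : polar Q x.1 (y - ∑ i ∈ Finset.range n, ((2 : F)⁻¹ * polar Q (v i) y) • v i) = 0 := h1
      rw [polar_sub_right, B_sum_right, Finset.sum_eq_zero, sub_zero] at h3
      · exact h3
      · intro i hi
        rw [B_smul_right, polar_comm Q x.1, (hφ x.1).mp x.2 i (Finset.mem_range.mp hi), mul_zero]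
    obtain ⟨x, hx⟩ := hnd.universal hd 1
    have hx0 := (hφ x.1).mp x.2
    refine ⟨Function.update v n x.1, fun i hi => ?_, fun i hi j hj hij => ?_⟩
    · by_cases h : i = n
      · subst h; simpa using hx
      · rw [Function.update_of_ne h]; exact hv1 i (by omega)
    · by_cases h : i = n
      · subst h
        rw [Function.update_self, Function.update_of_ne hij.symm, polar_comm]
        exact hx0 j (by omega)
      · rw [Function.update_of_ne h]
        by_cases h' : j = n
        · subst h'
          rw [Function.update_self]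
          exact hx0 i (by omega)
        · rw [Function.update_of_ne h']
          exact hv2 i (by omega) j (by omega) hij

open QuadraticMap Module H12 in
theorem exists_inv {F V : Type*} [Field F] [AddCommGroup V] [Module F V]
    [FiniteDimensional F V] {Q : QuadraticForm F V} (hQ : Nondeg Q) {n : ℕ} {v : ℕ → V}
    (hv1 : ∀ i < n, Q (v i) = 1) (hv2 : ∀ i < n, ∀ j < n, i ≠ j → polar Q (v i) (v j) = 0)
    (k : ℕ) (hk : 2 * k ≤ n) :
    ∃ g : Om Q, ∀ x, g.1.1 x = x - ∑ i ∈ Finset.range (2 * k), polar Q x (v i) • v i := by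
  induction k with
  | zero => exact ⟨1, by simp⟩
  | succ k ih =>
    obtain ⟨g, hg⟩ := ih (by omega)
    have hm : refl Q (v (2 * k + 1)) * refl Q (v (2 * k)) ∈ Om Q :=
      refl_mul_refl_mem_Om hQ (t := 1) (by rw [hv1 _ (by omega)]; exact one_ne_zero) one_ne_zero
        (by rw [hv1 _ (by omega), hv1 _ (by omega)]; simp)
    refine ⟨⟨_, hm⟩ * g, fun x => ?_⟩
    have e : (((⟨_, hm⟩ * g : Om Q) : O Q).1 x) =
      (refl Q (v (2 * k + 1))).1 ((refl Q (v (2 * k))).1 (g.1.1 x)) := rfl
    have horth : ∀ j, 2 * k ≤ j → j < n → polar Q (g.1.1 x) (v j) = polar Q x (v j) := by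
      intro j h1 h2
      rw [hg, polar_sub_left, B_sum_left, Finset.sum_eq_zero, sub_zero]
      intro i hi
      have := Finset.mem_range.mp hi
      rw [B_smul_left, hv2 i (by omega) j h2 (by omega), mul_zero]
    rw [e, refl_apply, refl_apply, hv1 _ (by omega), hv1 _ (by omega), polar_sub_left,
      B_smul_left, hv2 (2 * k) (by omega) (2 * k + 1) (by omega) (by omega),
      horth _ le_rfl (by omega), horth _ (by omega) (by omega), hg,
      show 2 * (k + 1) = 2 * k + 1 + 1 by ring, Finset.sum_range_succ, Finset.sum_range_succ]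
    simp only [inv_one, one_mul, mul_zero, sub_zero]
    abel

open QuadraticMap Module H12 in
theorem exists_many {F V : Type*} [Field F] [Finite F] [AddCommGroup V] [Module F V]
    [FiniteDimensional F V] {Q : QuadraticForm F V} (hQ : Nondeg Q) (h2 : (2 : F) ≠ 0) (m : ℕ)
    (hm : 2 * m < finrank F V) :
    ∃ t : ℕ → Om Q, (∀ k ≤ m, t k * t k = 1) ∧
      (∀ k ≤ m, ∀ l ≤ m, IsConj (t k) (t l) → k = l) ∧ t 0 = 1 := by
  obtain ⟨v, hv1, hv2⟩ := exists_orthonormal hQ h2 _ hm
  have h := fun k : ℕ => if hk : 2 * k ≤ 2 * m then exists_inv hQ hv1 hv2 k hk |>.imp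
    (q := fun g : Om Q => 2 * k ≤ 2 * m → ∀ x, g.1.1 x =
      x - ∑ i ∈ Finset.range (2 * k), polar Q x (v i) • v i) (fun g hg _ => hg)
    else ⟨1, fun h => absurd h hk⟩
  choose t ht using h
  have hvj : ∀ k ≤ m, ∀ j < 2 * k, (t k).1.1 (v j) = -v j := by
    intro k hk j hj
    rw [ht k (by omega), Finset.sum_eq_single j]
    · rw [B_self, hv1 j (by omega), mul_one, two_smul]; abel
    · intro i hi hij
      have := Finset.mem_range.mp hi
      rw [hv2 j (by omega) i (by omega) hij.symm, zero_smul]
    · intro h; exact absurd (Finset.mem_range.mpr hj) h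
  have hrank : ∀ k ≤ m, finrank F (LinearMap.range (((t k).1.1 : V →ₗ[F] V) - 1)) = 2 * k := by
    intro k hk
    have hli : LinearIndependent F fun i : Fin (2 * k) => v i := by
      apply LinearMap.BilinForm.linearIndependent_of_iIsOrtho (B := polarBilin Q)
      · intro i j hij
        exact hv2 i (by omega) j (by omega) (fun h => hij (Fin.ext h))
      · intro i
        change ¬ polar Q (v i) (v i) = 0
        rw [B_self, hv1 i (by omega), mul_one]; exact h2
    have : LinearMap.range (((t k).1.1 : V →ₗ[F] V) - 1) =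
        Submodule.span F (Set.range fun i : Fin (2 * k) => v i) := by
      apply le_antisymm
      · rintro _ ⟨x, rfl⟩
        change (t k).1.1 x - x ∈ _
        rw [ht k (by omega), sub_sub_cancel_left]
        refine Submodule.neg_mem _ (Submodule.sum_mem _ fun i hi => Submodule.smul_mem _ _ ?_)
        exact Submodule.subset_span ⟨⟨i, Finset.mem_range.mp hi⟩, rfl⟩
      · rw [Submodule.span_le]
        rintro _ ⟨i, rfl⟩
        refine ⟨(-(2 : F)⁻¹) • v i, ?_⟩
        rw [map_smul]
        change (-(2 : F)⁻¹) • ((t k).1.1 (v i) - v i) = v i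
        rw [hvj k hk i i.2, ← neg_add', ← two_smul F, smul_neg, smul_smul, neg_mul,
          inv_mul_cancel₀ h2]
        simp
    rw [this, finrank_span_eq_card hli, Fintype.card_fin]
  refine ⟨t, fun k hk => ?_, fun k hk l hl hc => ?_, ?_⟩
  · apply Subtype.ext
    apply O.ext
    intro x
    change (t k).1.1 ((t k).1.1 x) = x
    conv_lhs => rw [ht k (by omega) x, map_sub, map_sum, ht k (by omega) x]
    rw [sub_sub, ← Finset.sum_add_distrib, Finset.sum_eq_zero, sub_zero]
    intro i hi
    rw [map_smul, hvj k hk i (Finset.mem_range.mp hi), smul_neg, add_neg_cancel]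
  · obtain ⟨c, hc⟩ := isConj_iff.mp hc
    have hs : H65.Similar (((t k).1.1 : V →ₗ[F] V)) (((t l).1.1 : V →ₗ[F] V)) := by
      refine ⟨c.1.1, fun x => ?_⟩
      rw [← hc]
      change c.1.1 ((t k).1.1 x) = c.1.1 ((t k).1.1 ((c⁻¹).1.1 (c.1.1 x)))
      rw [show (c⁻¹).1.1 (c.1.1 x) = x from O.inv_apply_apply c.1 x]
    have := hs.sub_one.finrank_range
    rw [hrank k hk, hrank l hl] at this
    omega
  · apply Subtype.ext
    apply O.ext
    intro x
    rw [ht 0 (by omega)]
    simp

/-- PSp_2m(q) ≇ PΩ_(2m+1)(q) for q odd and m ≥ 3 (they have the same order). -/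
theorem result {F : Type*} [Field F] [Fintype F] (hodd : Odd (Fintype.card F)) (m : ℕ) (hm : 3 ≤ m) : IsEmpty (Cfsg.PSp m F ≃* Cfsg.POmega F (Cfsg.quadFormOdd m F)) := by
  refine ⟨fun e => ?_⟩
  have h2 : (2 : F) ≠ 0 := H12.two_ne_zero_of_odd hodd
  have hQ := H12.nondeg_QOdd h2 m
  obtain ⟨a, b, hab⟩ := hQ.exists_hyp_of_three_le (by rw [H12.finrank_odd]; omega)
  have hc : Subgroup.center (H12.Om (H12.QOdd F m)) = ⊥ :=
    hab.card_center_Om_of_not_mem hQ (H12.good_of_two_ne_zero hQ h2)
      (by rw [H12.finrank_odd]; omega)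
      (Or.inl (H12.negO_not_mem_Om_of_odd hQ h2 (by rw [H12.finrank_odd]; exact odd_two_mul_add_one m)))
  let e' : Cfsg.PSp m F ≃* H12.Om (H12.QOdd F m) :=
    (e.trans (H12.pcommCongr (H12.isoEquiv (H12.QOdd F m) (H12.QOdd_apply m)))).trans
      ((QuotientGroup.quotientMulEquivOfEq hc).trans QuotientGroup.quotientBot)
  obtain ⟨t, ht1, ht2, ht0⟩ := exists_many hQ h2 m (by rw [H12.finrank_odd]; omega)
  obtain ⟨φ, hφ1, hφ2⟩ := H30.exists_psp_involution_invariant (F := F) (m := m) h2 (by omega)
  have hsq : ∀ k ≤ m, e'.symm (t k) * e'.symm (t k) = 1 := fun k hk => by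
    rw [← map_mul, ht1 k hk, map_one]
  have hne : ∀ k ≤ m, k ≠ 0 → e'.symm (t k) ≠ 1 := fun k hk h0 h => by
    rw [MulEquiv.map_eq_one_iff] at h
    exact h0 (ht2 k hk 0 (by omega) (by rw [h, ht0]))
  have := Finset.card_le_card_of_injOn (s := Finset.Icc 1 m) (t := Finset.range (m / 2 + 1))
    (fun k => φ (e'.symm (t k))) (fun k hk => by
      have hk' := Finset.mem_Icc.mp hk
      have := hφ1 _ (hsq k hk'.2)
      simp only [Finset.coe_range, Set.mem_Iio]
      omega) (fun k hk l hl h => by
      have hk' := Finset.mem_Icc.mp hk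
      have hl' := Finset.mem_Icc.mp hl
      have h1 := hφ2 _ _ (hsq k hk'.2) (hsq l hl'.2) (hne k hk'.2 (by omega))
        (hne l hl'.2 (by omega)) h
      have h3 := e'.toMonoidHom.map_isConj h1
      simp only [MulEquiv.toMonoidHom_eq_coe, MonoidHom.coe_coe, MulEquiv.apply_symm_apply] at h3
      exact ht2 k hk'.2 l hl'.2 h3)
  simp at this
  omega

end Cfsg.Agent.S0821
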