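import Cfsg.Statements.S0823
import Mathlib
import Cfsg.Agent.Lib.ClGeo.Heart
import Cfsg.Agent.S0286

set_option autoImplicit false
open Cfsg

namespace Cfsg.Agent.S0823

abbrev I := Unit ⊕ (Fin 1 ⊕ Fin 1)

def mA : I → Fin 4 → ZMod 3 :=
  Sum.elim (fun _ => ![0, 2, 1, 0]) (Sum.elim ![![0, 2, 2, 2]] ![![1, 1, 1, 0]])

def mB : I → Fin 4 → ZMod 3 :=
  Sum.elim (fun _ => ![0, 1, 2, 0]) (Sum.elim ![![1, 1, 1, 0]] ![![0, 2, 2, 2]])

def sg (σ : Equiv.Perm (Fin 4)) : ZMod 3 :=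
  ∏ i, ∏ j, if i < j ∧ σ j < σ i then -1 else 1

def f₀ (σ : Equiv.Perm (Fin 4)) : Matrix I I (ZMod 3) :=
  Matrix.of fun i j => sg σ * ∑ k, mA i (σ k) * mB j k

theorem h1 : f₀ 1 = 1 := by decide +kernel

theorem h2 : ∀ σ τ, f₀ (σ * τ) = f₀ σ * f₀ τ := by decide +kernel

theorem h3 : ∀ σ, f₀ σ = 1 → σ = 1 := by decide +kernel

theorem h4 : ∀ σ v, Cfsg.quadFormOdd 1 (ZMod 3) (Matrix.mulVec (f₀ σ) v) =
    Cfsg.quadFormOdd 1 (ZMod 3) v := by
  unfold Cfsg.quadFormOdd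
  decide +kernel

def eI : Fin 3 ≃ I where
  toFun := ![.inl (), .inr (.inl 0), .inr (.inr 0)]
  invFun := Sum.elim (fun _ => 0) (Sum.elim (fun _ => 1) (fun _ => 2))
  left_inv := by decide
  right_inv := by decide

theorem h5 (σ : Equiv.Perm (Fin 4)) : (f₀ σ).det = 1 := by
  rw [← Matrix.det_submatrix_equiv_self eI, Matrix.det_fin_three]
  revert σ
  decide +kernel

def f₁ : Equiv.Perm (Fin 4) →* Matrix I I (ZMod 3) := ⟨⟨f₀, h1⟩, h2⟩

theorem main : Nonempty (Cfsg.specialIsometryGroup (ZMod 3) (Cfsg.quadFormOdd 1 (ZMod 3)) ≃*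
    Equiv.Perm (Fin 4)) := by
  let f₂ : Equiv.Perm (Fin 4) →* Cfsg.isometryGroup (ZMod 3) (Cfsg.quadFormOdd 1 (ZMod 3)) :=
    f₁.toHomUnits.codRestrict _ fun σ => H12.mem_isometryGroup.mpr (h4 σ)
  let f₃ : Equiv.Perm (Fin 4) →*
      Cfsg.specialIsometryGroup (ZMod 3) (Cfsg.quadFormOdd 1 (ZMod 3)) :=
    f₂.codRestrict _ fun σ => by
      change Matrix.GeneralLinearGroup.det _ = 1
      exact Units.ext (h5 σ)
  have hf : Function.Injective f₃ := by
    rw [injective_iff_map_eq_one]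
    intro σ hσ
    exact h3 σ (congrArg (fun g => g.1.1.val) hσ)
  have hc := Cfsg.Agent.S0286.result (F := ZMod 3) (q := 3) (by simp) (by decide) 1
  have hne : Cfsg.specialIsometryGroup (ZMod 3) (Cfsg.quadFormOdd 1 (ZMod 3)) ≠ ⊤ := by
    intro h
    have hm : (-1 : GL I (ZMod 3)) ∈
        Cfsg.isometryGroup (ZMod 3) (Cfsg.quadFormOdd 1 (ZMod 3)) := by
      rw [H12.mem_isometryGroup]
      intro v
      simp [Cfsg.quadFormOdd, Matrix.neg_mulVec]
    have h1 : (⟨_, hm⟩ : Cfsg.isometryGroup (ZMod 3) (Cfsg.quadFormOdd 1 (ZMod 3))) ∈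
        Cfsg.specialIsometryGroup (ZMod 3) (Cfsg.quadFormOdd 1 (ZMod 3)) := h ▸ Subgroup.mem_top _
    have h2 : (-1 : Matrix I I (ZMod 3)).det = 1 := congrArg Units.val h1
    rw [Matrix.det_neg, Matrix.det_one] at h2
    revert h2
    decide
  have hi := Subgroup.index_mul_card
    (Cfsg.specialIsometryGroup (ZMod 3) (Cfsg.quadFormOdd 1 (ZMod 3)))
  have hi1 := Subgroup.one_lt_index_of_ne_top hne
  obtain ⟨g⟩ := H10.nonempty_mulEquiv_of_injective f₃ hf (by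
    rw [Nat.card_eq_fintype_card (α := Equiv.Perm (Fin 4)), Fintype.card_perm]
    rw [hc] at hi
    simp [Nat.factorial] at hi ⊢
    nlinarith)
  exact ⟨g.symm⟩

/-- SO_3(3) ≅ S_4: the determinant-one isometries of the form x_0² + x_1y_1 over the field with 3 elements form a group isomorphic to the symmetric group on 4 letters. -/
theorem result {F : Type*} [Field F] [Fintype F] (hF : Fintype.card F = 3) : Nonempty (↥(Cfsg.specialIsometryGroup F (Cfsg.quadFormOdd 1 F)) ≃* Equiv.Perm (Fin 4)) := by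
  obtain ⟨e⟩ := H10.nonempty_ringEquiv_zmod (F := F) 3 (by simpa using hF)
  obtain ⟨g⟩ := main
  let φ := H30.isoCongr e (H30.quadFormOdd_map e 1)
  have key : ∀ x, φ x ∈ Cfsg.specialIsometryGroup (ZMod 3) (Cfsg.quadFormOdd 1 (ZMod 3)) ↔
      x ∈ Cfsg.specialIsometryGroup F (Cfsg.quadFormOdd 1 F) := by
    intro x
    change Matrix.GeneralLinearGroup.det _ = 1 ↔ Matrix.GeneralLinearGroup.det _ = 1
    rw [Units.ext_iff, Units.ext_iff]
    change (φ x).1.val.det = 1 ↔ x.1.val.det = 1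
    rw [H30.isoCongr_val]
    have := RingHom.map_det e.toRingHom x.1.val
    rw [show x.1.val.map e = e.toRingHom.mapMatrix x.1.val from rfl, ← this]
    exact map_eq_one_iff e e.injective
  have hmap : (Cfsg.specialIsometryGroup F (Cfsg.quadFormOdd 1 F)).map φ.toMonoidHom =
      Cfsg.specialIsometryGroup (ZMod 3) (Cfsg.quadFormOdd 1 (ZMod 3)) := by
    ext y
    constructor
    · rintro ⟨x, hx, rfl⟩
      exact (key x).mpr hx
    · intro hy
      obtain ⟨x, rfl⟩ := φ.surjective y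
      exact ⟨x, (key x).mp hy, rfl⟩
  exact ⟨((φ.subgroupMap _).trans (MulEquiv.subgroupCongr hmap)).trans g⟩

end Cfsg.Agent.S0823
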