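import Cfsg.Statements.S0825
import Mathlib
import Cfsg.Agent.Lib.ClGeo.Heart
import Cfsg.Agent.S0287

set_option autoImplicit false
open Cfsg

namespace Cfsg.Agent.S0825

def mA : Matrix (Fin 3 ⊕ Fin 3) (Fin 8) (ZMod 2) := Matrix.of
  (Sum.elim ![![0, 0, 1, 0, 1, 1, 1, 0], ![0, 1, 1, 1, 0, 1, 0, 0], ![1, 1, 0, 0, 0, 1, 1, 0]]
    ![![0, 0, 0, 1, 1, 1, 1, 0], ![0, 1, 1, 1, 0, 0, 1, 0], ![1, 0, 1, 1, 1, 0, 0, 0]])

def mB : Matrix (Fin 3 ⊕ Fin 3) (Fin 8) (ZMod 2) := Matrix.of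
  (Sum.elim ![![0, 0, 0, 1, 1, 1, 1, 0], ![0, 1, 1, 1, 0, 0, 1, 0], ![1, 0, 1, 1, 1, 0, 0, 0]]
    ![![0, 0, 1, 0, 1, 1, 1, 0], ![0, 1, 1, 1, 0, 1, 0, 0], ![1, 1, 0, 0, 0, 1, 1, 0]])

theorem h1 : ∀ w : Fin 3 ⊕ Fin 3 → ZMod 2, ∑ i, Matrix.vecMul w mB i = 0 := by decide +kernel

theorem h2 : ∀ w : Fin 3 ⊕ Fin 3 → ZMod 2, Matrix.mulVec mA (Matrix.vecMul w mB) = w := by
  decide +kernel

theorem h3 : ∀ x : Fin 8 → ZMod 2, ∑ i, x i = 0 → Matrix.vecMul (Matrix.mulVec mA x) mB = x ∨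
    Matrix.vecMul (Matrix.mulVec mA x) mB = x + 1 := by decide +kernel

theorem h4 : Matrix.mulVec mA 1 = 0 := by decide +kernel

theorem h5 : ∀ x : Fin 8 → ZMod 2, ∑ i, x i = 0 →
    Cfsg.quadFormPlus 3 (ZMod 2) (Matrix.mulVec mA x) = ((∑ i, (x i).val) / 2 : ℕ) := by
  unfold Cfsg.quadFormPlus
  decide +kernel

/-- O⁺_6(2) ≅ S_8: the isometry group of the hyperbolic form x_1y_1 + x_2y_2 + x_3y_3 over the field with 2 elements is isomorphic to the symmetric group on 8 letters. -/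
theorem result {F : Type*} [Field F] [Fintype F] (hF : Fintype.card F = 2) : Nonempty (↥(Cfsg.isometryGroup F (Cfsg.quadFormPlus 3 F)) ≃* Equiv.Perm (Fin 8)) := by
  obtain ⟨e⟩ := H10.nonempty_ringEquiv_zmod (F := F) 2 (by simpa using hF)
  obtain ⟨f, hf⟩ := H30.exists_heart_hom_isometry (Ω := Fin 8) (by simp) mA.mulVecLin
    mB.vecMulLinear h1 h2 h3 h4 (Cfsg.quadFormPlus 3 (ZMod 2)) (fun k => (k / 2 : ℕ)) h5
  have hc := Cfsg.Agent.S0287.result (F := ZMod 2) (q := 2) (by simp) 3 (by norm_num)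
  obtain ⟨g⟩ := H10.nonempty_mulEquiv_of_injective f hf (by
    rw [hc, Nat.card_eq_fintype_card, Fintype.card_perm]
    simp [Finset.prod_range_succ, Nat.factorial])
  exact ⟨(H30.isoCongr e (H30.quadFormPlus_map e 3)).trans g.symm⟩

end Cfsg.Agent.S0825
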