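import Cfsg.Statements.S0828
import Mathlib
import Cfsg.Agent.Lib.ClGeo.CountTS
import Cfsg.Agent.Lib.ClGeo.MaxSing
import Cfsg.Agent.Lib.Sp.Order

set_option autoImplicit false
open Cfsg

namespace Cfsg.Agent.S0828

open Module H11.Sp

theorem card_sdiff {F V : Type*} [Field F] [Fintype F] [AddCommGroup V] [Module F V] [Finite V]
    (A B : Submodule F V) (hAB : A ≤ B) :
    Nat.card {x : V // x ∈ B ∧ x ∉ A} =
      Fintype.card F ^ finrank F B - Fintype.card F ^ finrank F A := by
  classical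
  have := Fintype.ofFinite V
  have h1 : Nat.card {x : V // x ∈ B ∧ x ∉ A} = ((B : Set V) \ (A : Set V)).ncard := rfl
  rw [h1, Set.ncard_sdiff hAB, ← Module.card_eq_pow_finrank, ← Module.card_eq_pow_finrank,
    ← Nat.card_eq_fintype_card, ← Nat.card_eq_fintype_card]
  rfl

/-- The symplectic generalised quadrangle over a field with q elements: the number of 2-dimensional subspaces of F^4 on which the symplectic form vanishes is (q + 1)(q² + 1), and every non-zero vector lies in exactly q + 1 of them. -/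
theorem result {F : Type*} [Field F] [Fintype F] {q : ℕ} (hF : Fintype.card F = q) : Nat.card {W : Submodule F (Fin 2 ⊕ Fin 2 → F) // Module.finrank F W = 2 ∧ ∀ u ∈ W, ∀ v ∈ W, Cfsg.sympForm 2 F u v = 0} = (q + 1) * (q ^ 2 + 1) ∧ ∀ v : Fin 2 ⊕ Fin 2 → F, v ≠ 0 → Nat.card {W : Submodule F (Fin 2 ⊕ Fin 2 → F) // Module.finrank F W = 2 ∧ v ∈ W ∧ ∀ u ∈ W, ∀ w ∈ W, Cfsg.sympForm 2 F u w = 0} = q + 1 := by
  have h2 : 2 ≤ q := hF ▸ Fintype.one_lt_card
  constructor
  · obtain ⟨W, hWk, hW⟩ := H30.exists_isotropic_alt (bilin 2 F) bilin_nondegenerate bilin_isAlt 2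
      (by simp)
    have hts : (H28.spPQ 2 F).TotSing W := ⟨fun _ _ => trivial, hW⟩
    have h1 := H30.card_totSing_mul _ H28.spPQ_sep hts
    obtain ⟨e, f, hef, rfl⟩ := hts.exists_hyp H28.spPQ_sep hWk
    have hdim := (H28.spPQ 2 F).finrank_perp_hyp H28.spPQ_sep hef
    have hV : Module.finrank F (Fin 2 ⊕ Fin 2 → F) = 2 * 2 := by simp
    obtain ⟨φ⟩ := H28.nonempty_isom_equiv_sp (m := 0) _ rfl
      (hef.nondeg.perp H28.spPQ_sep).separatingLeft (by omega)
    rw [H28.PQ.card_stab_totSing _ H28.spPQ_sep hef, Nat.card_congr φ.toEquiv,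
      ← Nat.card_congr H28.spEquiv.toEquiv, H11.Sp.card_G, H11.Sp.card_G,
      H28.spPQ_Λ, AddSubgroup.card_top, Nat.card_eq_fintype_card (α := F), hF, hV, hWk] at h1
    have h3 : Nat.card {W : Submodule F (Fin 2 ⊕ Fin 2 → F) // Module.finrank F W = 2 ∧
        ∀ u ∈ W, ∀ v ∈ W, Cfsg.sympForm 2 F u v = 0} =
        Nat.card {U : Submodule F (Fin 2 ⊕ Fin 2 → F) | finrank F U = 2 ∧
          (H28.spPQ 2 F).TotSing U} :=
      Nat.card_congr (Equiv.subtypeEquivRight fun U =>
        ⟨fun h => ⟨h.1, fun _ _ => trivial, h.2⟩, fun h => ⟨h.1, h.2.2⟩⟩)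
    rw [h3]
    generalize Nat.card {U : Submodule F (Fin 2 ⊕ Fin 2 → F) | finrank F U = 2 ∧
          (H28.spPQ 2 F).TotSing U} = N at h1 ⊢
    simp [Finset.prod_range_succ, Fin.prod_univ_two] at h1
    have e1 : 1 ≤ q ^ 2 := Nat.one_le_pow _ _ (by omega)
    have e2 : 1 ≤ q ^ 4 := Nat.one_le_pow _ _ (by omega)
    have e4 : q ≤ q ^ 2 := by nlinarith
    zify [e1, e2, e4] at h1 ⊢
    have h3 : (2 : ℤ) ≤ q := by exact_mod_cast h2
    have h4 : (q : ℤ) ^ 4 * ((q : ℤ) ^ 2 - 1) * ((q : ℤ) - 1) ≠ 0 := by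
      have a1 : (1 : ℤ) < (q : ℤ) ^ 2 := one_lt_pow₀ (by omega) (by norm_num)
      have a3 : (0 : ℤ) < (q : ℤ) ^ 4 := by positivity
      exact mul_ne_zero (mul_ne_zero a3.ne' (by omega)) (by omega)
    apply mul_left_cancel₀ h4
    linear_combination -h1
  · intro v hv
    set L : Submodule F (Fin 2 ⊕ Fin 2 → F) := Submodule.span F {v} with hL
    set P := (bilin 2 F).orthogonal L with hP
    have hLr : finrank F L = 1 := finrank_span_singleton hv
    have hPr : finrank F P = 3 := by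
      rw [hP, LinearMap.BilinForm.finrank_orthogonal bilin_nondegenerate, hLr]; simp
    have hmemP : ∀ x, x ∈ P ↔ sympForm 2 F v x = 0 := by
      intro x
      rw [hP, LinearMap.BilinForm.mem_orthogonal_iff]
      constructor
      · intro h
        exact h v (Submodule.mem_span_singleton_self v)
      · intro h u hu
        obtain ⟨c, rfl⟩ := Submodule.mem_span_singleton.mp hu
        change sympForm 2 F (c • v) x = 0
        rw [form_smul_left, h, mul_zero]
    have hLP : L ≤ P := (Submodule.span_singleton_le_iff_mem _ _).mpr ((hmemP v).mpr (form_self v))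
    let f : {x // x ∈ P ∧ x ∉ L} → {W : Submodule F (Fin 2 ⊕ Fin 2 → F) //
        Module.finrank F W = 2 ∧ v ∈ W ∧ ∀ u ∈ W, ∀ w ∈ W, Cfsg.sympForm 2 F u w = 0} :=
      fun x => ⟨L ⊔ Submodule.span F {x.1}, by rw [H30.finrank_sup_span_singleton L x.2.2, hLr],
        Submodule.mem_sup_left (Submodule.mem_span_singleton_self v), by
          intro a ha b hb
          have e0 : L ⊔ Submodule.span F {x.1} = Submodule.span F {v, x.1} :=
            (Submodule.span_insert _ _).symm
          rw [e0] at ha hb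
          obtain ⟨a1, a2, rfl⟩ := Submodule.mem_span_pair.mp ha
          obtain ⟨b1, b2, rfl⟩ := Submodule.mem_span_pair.mp hb
          have e1 := (hmemP x.1).mp x.2.1
          have e2 : sympForm 2 F x.1 v = 0 := by rw [form_swap, e1, neg_zero]
          simp only [form_add_left, form_add_right, form_smul_left, form_smul_right, form_self, e1,
            e2, mul_zero, add_zero]⟩
    have h1 := H30.card_eq_mul_of_fiber f (q ^ 2 - q) (by
      rintro ⟨W, hW2, hvW, hW⟩
      have hLW : L ≤ W := (Submodule.span_singleton_le_iff_mem _ _).mpr hvW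
      have := card_sdiff L W hLW
      rw [hW2, hLr, hF, pow_one] at this
      rw [← this]
      refine Nat.card_congr ⟨fun x => ⟨x.1.1, ?_, x.1.2.2⟩,
        fun x => ⟨⟨x.1, (hmemP _).mpr (hW v hvW _ x.2.1), x.2.2⟩, ?_⟩, fun x => rfl, fun x => rfl⟩
      · have h : L ⊔ Submodule.span F {x.1.1} = W := congrArg Subtype.val x.2
        exact h.le (Submodule.mem_sup_right (Submodule.mem_span_singleton_self _))
      · exact Subtype.ext (H30.eq_sup_span_of_finrank hLW (by rw [hLr, hW2]) x.2.1 x.2.2))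
    rw [card_sdiff L P hLP, hPr, hLr, hF, pow_one] at h1
    generalize Nat.card {W : Submodule F (Fin 2 ⊕ Fin 2 → F) //
        Module.finrank F W = 2 ∧ v ∈ W ∧ ∀ u ∈ W, ∀ w ∈ W, Cfsg.sympForm 2 F u w = 0} = N at h1 ⊢
    have e4 : q ≤ q ^ 2 := by nlinarith
    have e5 : q ≤ q ^ 3 := Nat.le_self_pow (by norm_num) q
    zify [e4, e5] at h1 ⊢
    have h3 : (2 : ℤ) ≤ q := by exact_mod_cast h2
    have h4 : (q : ℤ) * ((q : ℤ) - 1) ≠ 0 := mul_ne_zero (by omega) (by omega)
    apply mul_left_cancel₀ h4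
    linear_combination -h1

end Cfsg.Agent.S0828
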