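import Cfsg.Statements.S0829
import Mathlib
import Cfsg.Agent.Lib.ClGeo.CountTS

set_option autoImplicit false
open Cfsg

namespace Cfsg.Agent.S0829

/-- The unitary quadrangle of PSU_4(q): with |F| = q², the number of 2-dimensional subspaces of F^4 on which the Hermitian form Σ x_i y_i^q vanishes is (q + 1)(q³ + 1). -/
theorem result {F : Type*} [Field F] [Fintype F] {q : ℕ} (hF : Fintype.card F = q ^ 2) : Nat.card {W : Submodule F (Fin 4 → F) // Module.finrank F W = 2 ∧ ∀ u ∈ W, ∀ v ∈ W, Cfsg.hermForm 4 F q u v = 0} = (q + 1) * (q ^ 3 + 1) := by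
  have : H11.U.IsSq F q := ⟨hF⟩
  obtain ⟨a, ha⟩ := H11.U.exists_norm_eq (F := F) (q := q) (c := -1) (by simp)
  have hli : LinearIndependent F ![(![1, a, 0, 0] : Fin 4 → F), ![0, 0, 1, a]] := by
    rw [LinearIndependent.pair_iff]
    intro s t h
    exact ⟨by simpa using congrFun h 0, by simpa using congrFun h 2⟩
  have h := H30.card_isotropic_gu hF 4 2 _ (by rw [finrank_span_eq_card hli]; simp)
    (H30.isotropic_span_pair (by simp [H11.U.form_def, Fin.sum_univ_four, ha])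
      (by simp [H11.U.form_def, Fin.sum_univ_four, ha])
      (by simp [H11.U.form_def, Fin.sum_univ_four]))
  rw [H11.U.card_GU, H11.U.card_GU] at h
  generalize Nat.card {U : Submodule F (Fin 4 → F) // Module.finrank F U = 2 ∧
    ∀ u ∈ U, ∀ v ∈ U, Cfsg.hermForm 4 F q u v = 0} = N at h ⊢
  have h2 := H11.U.two_le_q F q
  simp [Finset.prod_range_succ, Fin.prod_univ_two, Nat.even_add_one] at h
  have e1 : 1 ≤ q ^ 2 := Nat.one_le_pow _ _ (by omega)
  have e2 : 1 ≤ q ^ 4 := Nat.one_le_pow _ _ (by omega)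
  have e3 : 1 ≤ (q ^ 2) ^ 2 := Nat.one_le_pow _ _ (by omega)
  have e4 : q ^ 2 ≤ (q ^ 2) ^ 2 := by nlinarith
  zify [e1, e2, e3, e4] at h ⊢
  have h3 : (2 : ℤ) ≤ q := by exact_mod_cast h2
  have h4 : (q : ℤ) ^ 6 * ((q : ℤ) ^ 2 - 1) * ((q : ℤ) ^ 4 - 1) ≠ 0 := by
    have a1 : (1 : ℤ) < (q : ℤ) ^ 2 := one_lt_pow₀ (by omega) (by norm_num)
    have a2 : (1 : ℤ) < (q : ℤ) ^ 4 := one_lt_pow₀ (by omega) (by norm_num)
    have a3 : (0 : ℤ) < (q : ℤ) ^ 6 := by positivity
    exact mul_ne_zero (mul_ne_zero a3.ne' (by omega)) (by omega)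
  apply mul_left_cancel₀ h4
  linear_combination -h

end Cfsg.Agent.S0829
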