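import Cfsg.Statements.S0831
import Mathlib
import Cfsg.Agent.Lib.ClGeo.MaxSing

set_option autoImplicit false
open Cfsg

namespace Cfsg.Agent.S0831

open H30

/-- The two families of maximal totally singular subspaces of the hyperbolic quadric: for the form Σ x_i y_i on F^(2m), m ≥ 1, and m-dimensional subspaces U, W, X on which it vanishes, the parities of m − dim(U ∩ W), m − dim(W ∩ X) and m − dim(U ∩ X) sum to an even number (so 'even codimension of the intersection' is an equivalence relation), and there exist two such subspaces meeting in codimension 1 (so there are exactly two classes). -/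
theorem result {F : Type*} [Field F] (m : ℕ) (hm : 1 ≤ m) : (∀ U W X : Submodule F (Fin m ⊕ Fin m → F), (Module.finrank F U = m ∧ ∀ w ∈ U, Cfsg.quadFormPlus m F w = 0) → (Module.finrank F W = m ∧ ∀ w ∈ W, Cfsg.quadFormPlus m F w = 0) → (Module.finrank F X = m ∧ ∀ w ∈ X, Cfsg.quadFormPlus m F w = 0) → Even ((m - Module.finrank F ↥(U ⊓ W)) + (m - Module.finrank F ↥(W ⊓ X)) + (m - Module.finrank F ↥(U ⊓ X)))) ∧ ∃ U W : Submodule F (Fin m ⊕ Fin m → F), (Module.finrank F U = m ∧ ∀ w ∈ U, Cfsg.quadFormPlus m F w = 0) ∧ (Module.finrank F W = m ∧ ∀ w ∈ W, Cfsg.quadFormPlus m F w = 0) ∧ Module.finrank F ↥(U ⊓ W) + 1 = m := by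
  have hQ := H66.qPlus_nd (F := F) m
  have hV := finrank_sum_fun m F
  simp only [← H66.qPlus_apply]
  refine ⟨fun U W X hU hW hX => ?_, ?_⟩
  · have h := IsTS.parity hQ hV (show IsTS (H66.qPlus m F) m U from hU) hW hX
    have h1 := Submodule.finrank_mono (inf_le_left : U ⊓ W ≤ U)
    have h2 := Submodule.finrank_mono (inf_le_left : W ⊓ X ≤ W)
    have h3 := Submodule.finrank_mono (inf_le_left : U ⊓ X ≤ U)
    have := hU.1
    have := hW.1
    rw [Nat.even_iff]
    omega
  · obtain ⟨E, hE⟩ := exists_isTS_qPlus m F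
    obtain ⟨Y, hYE, hY⟩ := exists_le_finrank_add_one (W := E) (by rw [hE.1]; exact hm)
    obtain ⟨W, hW, hEW⟩ := hE.exists_adj hQ hV hYE (hY.trans hE.1)
    exact ⟨E, W, hE, hW, by rw [hEW, hY, hE.1]⟩

end Cfsg.Agent.S0831
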