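import Cfsg.Statements.S0832
import Mathlib
import Cfsg.Agent.Lib.ClGeo.MaxSing

set_option autoImplicit false
open Cfsg

namespace Cfsg.Agent.S0832

open H30

/-- For the form Σ x_i y_i on F^(2m) over a finite field, m ≥ 1: an (m−1)-dimensional subspace on which the form vanishes is contained in exactly two m-dimensional subspaces on which it vanishes. -/
theorem result {F : Type*} [Field F] [Finite F] (m : ℕ) (hm : 1 ≤ m) (U : Submodule F (Fin m ⊕ Fin m → F)) (hU : Module.finrank F U + 1 = m ∧ ∀ u ∈ U, Cfsg.quadFormPlus m F u = 0) : Nat.card {W : Submodule F (Fin m ⊕ Fin m → F) // Module.finrank F W = m ∧ (∀ w ∈ W, Cfsg.quadFormPlus m F w = 0) ∧ U ≤ W} = 2 := by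
  have hQ := H66.qPlus_nd (F := F) m
  have hV := finrank_sum_fun m F
  simp only [← H66.qPlus_apply] at hU ⊢
  obtain ⟨E, hE⟩ := exists_isTS_qPlus m F
  have hW := hE.isTS_sup hQ hV hU.2
  set W := (E ⊓ qperp (H66.qPlus m F) U) ⊔ U with hWdef
  have hUW : U ≤ W := le_sup_right
  obtain ⟨W', hW', hWW⟩ := hW.exists_adj hQ hV hUW hU.1
  have hUW' : U ≤ W' := hWW ▸ inf_le_right
  rw [Nat.card_eq_two_iff]
  refine ⟨⟨W, hW.1, hW.2, hUW⟩, ⟨W', hW'.1, hW'.2, hUW'⟩, ?_, ?_⟩
  · intro h
    have h1 : W = W' := congrArg Subtype.val h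
    rw [← h1, inf_idem] at hWW
    have := hU.1
    rw [← hWW, hW.1] at this
    omega
  · rw [Set.eq_univ_iff_forall]
    rintro ⟨X, hX1, hX2, hUX⟩
    have hlt : U < X := lt_of_le_of_ne hUX (by rintro rfl; have := hU.1; omega)
    obtain ⟨x, hxX, hxU⟩ := SetLike.exists_of_lt hlt
    have hXe := eq_sup_span_of_finrank hUX (hU.1.trans hX1.symm) hxX hxU
    have hx : x ∈ qperp (H66.qPlus m F) (W ⊓ W') := by
      rw [hWW]
      exact qperp_anti hUX (le_qperp_of_sing hX2 hxX)
    simp only [Set.mem_insert_iff, Set.mem_singleton_iff, Subtype.mk.injEq]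
    rcases hW.mem_or_mem hQ hV hW' (by rw [hWW]; exact hU.1) hx (hX2 x hxX) with h | h
    · left
      rw [← hXe]
      exact eq_sup_span_of_finrank hUW (hU.1.trans hW.1.symm) h hxU
    · right
      rw [← hXe]
      exact eq_sup_span_of_finrank hUW' (hU.1.trans hW'.1.symm) h hxU

end Cfsg.Agent.S0832
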