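import Cfsg.Statements.S0835
import Mathlib
import Cfsg.Agent.Lib.ClGeo.Disc

set_option autoImplicit false
open Cfsg

namespace Cfsg.Agent.S0835

/-- Over a finite field with 2 ≠ 0: if B₁ on U (dim 2k, k ≥ 1) is non-degenerate symmetric of minus type (no totally isotropic k-subspace) and B₂ on W (dim 2l + 1) is non-degenerate symmetric, then B₁ ⊗ B₂ (dimension 2k(2l+1)) admits no totally isotropic subspace of dimension k(2l+1) (minus type). -/
theorem result {F U W : Type*} [Field F] [Fintype F] [AddCommGroup U] [Module F U] [FiniteDimensional F U] [AddCommGroup W] [Module F W] [FiniteDimensional F W] (h2 : (2 : F) ≠ 0) (B₁ : LinearMap.BilinForm F U) (B₂ : LinearMap.BilinForm F W) (h₁ : B₁.Nondegenerate) (h₂ : B₂.Nondegenerate) (hS₁ : B₁.IsSymm) (hS₂ : B₂.IsSymm) (k l : ℕ) (hk : 1 ≤ k) (hU : Module.finrank F U = 2 * k) (hW : Module.finrank F W = 2 * l + 1) (hm₁ : ¬ (∃ X : Submodule F (U), Module.finrank F X = k ∧ ∀ x ∈ X, ∀ y ∈ X, (B₁) x y = 0)) : ¬ (∃ X :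 Submodule F (TensorProduct F U W), Module.finrank F X = k * (2 * l + 1) ∧ ∀ x ∈ X, ∀ y ∈ X, (B₁.tmul B₂) x y = 0) := by
  rintro ⟨X, hX, h0⟩
  have hs : LinearMap.BilinForm.IsSymm (B₁.tmul B₂) :=
    LinearMap.BilinForm.isSymm_iff.mpr (LinearMap.IsSymm.tmul
      (LinearMap.BilinForm.isSymm_iff.mp hS₁) (LinearMap.BilinForm.isSymm_iff.mp hS₂))
  have h := H30.isSquare_disc_of_isotropic
    ((Module.finBasis F U).tensorProduct (Module.finBasis F W)) (B₁.tmul B₂) hs.eq
    (n := k * (2 * l + 1)) (by rw [Module.finrank_tensorProduct, hU, hW]; ring) X hX h0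
  apply hm₁
  refine H30.exists_isotropic_of_isSquare_disc h2 (Module.finBasis F U) B₁ h₁ hS₁ hU ?_
  rw [H30.det_toMatrix_tmul, Fintype.card_fin, Fintype.card_fin] at h
  have ha := (LinearMap.BilinForm.nondegenerate_iff_det_ne_zero (Module.finBasis F U)).mp h₁
  have hb := (LinearMap.BilinForm.nondegenerate_iff_det_ne_zero (Module.finBasis F W)).mp h₂
  generalize (LinearMap.BilinForm.toMatrix (Module.finBasis F U) B₁).det = a at h ha ⊢
  generalize (LinearMap.BilinForm.toMatrix (Module.finBasis F W) B₂).det = b at h hb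
  rw [hU, hW] at h
  obtain ⟨r, hr⟩ := h
  refine ⟨r / (a ^ l * b ^ k), ?_⟩
  have h1 : (-1 : F) ^ (k * (2 * l + 1)) = (-1) ^ k := by
    rw [mul_add, pow_add, mul_comm k, mul_assoc, pow_mul]
    simp
  rw [h1] at hr
  field_simp
  linear_combination hr

end Cfsg.Agent.S0835
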