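import Cfsg.Statements.S0836
import Mathlib


set_option autoImplicit false
open Cfsg

namespace Cfsg.Agent.S0836

open Matrix Matrix.SpecialLinearGroup
open scoped commutatorElement

/-- For i ≠ j and any scalar c, the elementary transvection 1 + c E_ij is a commutator ⁅g, h⁆ of two elements of SL_n(F) provided n ≥ 3, or n = 2 and F contains x ≠ 0 with x² ≠ 1. -/
theorem result {F : Type*} [Field F] (n : ℕ) (hn : 3 ≤ n ∨ (n = 2 ∧ ∃ x : F, x ≠ 0 ∧ x ^ 2 ≠ 1)) (i j : Fin n) (hij : i ≠ j) (c : F) (t : Matrix.SpecialLinearGroup (Fin n) F) (ht : (t : Matrix (Fin n) (Fin n) F) = Matrix.transvection i j c) : t ∈ commutatorSet (Matrix.SpecialLinearGroup (Fin n) F) := by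
  have ht' : t = Matrix.SpecialLinearGroup.transvection hij c := Subtype.ext ht
  subst ht'
  rcases hn with hn | ⟨rfl, x, hx0, hx⟩
  · obtain ⟨k, hki, hkj⟩ : ∃ k : Fin n, k ≠ i ∧ k ≠ j := by
      by_contra h
      push Not at h
      have : (Finset.univ : Finset (Fin n)) ⊆ {i, j} := by
        intro k _
        by_cases hk : k = i
        · simp [hk]
        · simp [h k hk]
      have h2 := Finset.card_le_card this
      have h3 : ({i, j} : Finset (Fin n)).card ≤ 2 := Finset.card_le_two
      simp at h2
      omega
    refine ⟨Matrix.SpecialLinearGroup.transvection hki.symm c,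
      Matrix.SpecialLinearGroup.transvection hkj 1, ?_⟩
    rw [commutatorElement_def, transvection_inv, transvection_inv]
    apply Subtype.ext
    simp only [Matrix.SpecialLinearGroup.coe_mul, transvection_coe]
    simp [mul_add, add_mul, Matrix.single_mul_single_same, Matrix.single_mul_single_of_ne, hki, hkj,
      hki.symm, hkj.symm, hij, hij.symm, mul_assoc, ← Matrix.single_neg]
    abel
  · have key : ∀ b : F, ⁅diag2n hij x hx0, Matrix.SpecialLinearGroup.transvection hij b⁆ =
        Matrix.SpecialLinearGroup.transvection hij (b * (x ^ 2 - 1)) := by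
      intro b
      have h1 : diag2n hij x hx0 * Matrix.SpecialLinearGroup.transvection hij b =
          Matrix.SpecialLinearGroup.transvection hij (b * x ^ 2) * diag2n hij x hx0 := by
        apply Subtype.ext
        simp only [Matrix.SpecialLinearGroup.coe_mul, transvection_coe, diag2n_coe]
        ext a b
        fin_cases i <;> fin_cases j <;> fin_cases a <;> fin_cases b <;>
          simp [mul_add, add_mul, Matrix.mul_apply, Matrix.single_apply] at hij ⊢ <;> field_simp
      rw [commutatorElement_def, h1, transvection_inv, mul_assoc, mul_assoc, mul_inv_cancel_left,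
        ← transvection_add]
      congr 1
      ring
    refine ⟨diag2n hij x hx0, Matrix.SpecialLinearGroup.transvection hij (c / (x ^ 2 - 1)), ?_⟩
    rw [key, div_mul_cancel₀ _ (sub_ne_zero_of_ne hx)]

end Cfsg.Agent.S0836
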