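import Cfsg.Statements.S0838
import Mathlib
import Cfsg.Agent.Lib.ClGeo.Disc

set_option autoImplicit false
open Cfsg

namespace Cfsg.Agent.S0838

/-- Over a finite field with 2 ≠ 0 and n odd: two quadratic forms Q₁, Q₂ on F^n with non-degenerate polar forms are similar — there are an invertible linear map g and a scalar c ≠ 0 with Q₂ (g v) = c · Q₁ v for all v. -/
theorem result {F : Type*} [Field F] [Fintype F] (h2 : (2 : F) ≠ 0) {n : ℕ} (hn : Odd n) (Q₁ Q₂ : QuadraticForm F (Fin n → F)) (h₁ : (QuadraticMap.polarBilin Q₁).Nondegenerate) (h₂ : (QuadraticMap.polarBilin Q₂).Nondegenerate) : ∃ (g : (Fin n → F) ≃ₗ[F] (Fin n → F)) (c : F), c ≠ 0 ∧ ∀ v, Q₂ (g v) = c * Q₁ v := by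
  have hsy : ∀ Q : QuadraticForm F (Fin n → F),
      LinearMap.BilinForm.IsSymm (QuadraticMap.polarBilin Q) := fun Q =>
    ⟨fun x y => QuadraticMap.polar_comm _ _ _⟩
  let b := Pi.basisFun F (Fin n)
  have ha := (LinearMap.BilinForm.nondegenerate_iff_det_ne_zero b).mp h₁
  have hb := (LinearMap.BilinForm.nondegenerate_iff_det_ne_zero b).mp h₂
  set d₁ := (LinearMap.BilinForm.toMatrix b (QuadraticMap.polarBilin Q₁)).det with hd₁
  set d₂ := (LinearMap.BilinForm.toMatrix b (QuadraticMap.polarBilin Q₂)).det with hd₂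
  have hc : d₁ * d₂ ≠ 0 := mul_ne_zero ha hb
  have hdet : (LinearMap.BilinForm.toMatrix b ((d₁ * d₂) • QuadraticMap.polarBilin Q₁)).det =
      (d₁ * d₂) ^ n * d₁ := by
    rw [map_smul, Matrix.det_smul, Fintype.card_fin]
  obtain ⟨g, hg⟩ := H30.exists_isometry_of_disc h2 b b ((d₁ * d₂) • QuadraticMap.polarBilin Q₁)
    (QuadraticMap.polarBilin Q₂)
    (by rw [LinearMap.BilinForm.nondegenerate_iff_det_ne_zero b, hdet]
        exact mul_ne_zero (pow_ne_zero _ hc) ha) h₂ ((hsy Q₁).smul _) (hsy Q₂) rfl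
    (by
      rw [hdet, ← hd₂]
      obtain ⟨k, rfl⟩ := hn
      exact ⟨(d₁ * d₂) ^ (k + 1), by ring⟩)
  refine ⟨g, d₁ * d₂, hc, fun v => ?_⟩
  have := hg v v
  simp only [QuadraticMap.polarBilin_apply_apply, QuadraticMap.polar_self, LinearMap.smul_apply,
    smul_eq_mul, nsmul_eq_mul, Nat.cast_ofNat] at this
  apply mul_left_cancel₀ h2
  linear_combination this

end Cfsg.Agent.S0838
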