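import Cfsg.Statements.S0839
import Mathlib
import Cfsg.Agent.Lib.ClGeo.Transv

set_option autoImplicit false
open Cfsg

namespace Cfsg.Agent.S0839

open Matrix

/-- Every transvection t ∈ SL_(n+2)(F) (rank(t − 1) = 1, (t − 1)² = 0) is conjugate in SL_(n+2)(F) to 1 + v·e_0ᵀ for some column vector v with v_0 = 0 (the group A of matrices that are the identity except in the first column below the diagonal); the dimension is written n + 2 ≥ 2. -/
theorem result {F : Type*} [Field F] (n : ℕ) (t : Matrix.SpecialLinearGroup (Fin (n + 2)) F) (ht : Cfsg.IsTransvection (t : Matrix (Fin (n + 2)) (Fin (n + 2)) F)) : ∃ (g : Matrix.SpecialLinearGroup (Fin (n + 2)) F) (v : Fin (n + 2) → F), v 0 = 0 ∧ ((g⁻¹ * t * g : Matrix.SpecialLinearGroup (Fin (n + 2)) F) : Matrix (Fin (n + 2)) (Fin (n + 2)) F) = 1 + Matrix.vecMulVec v (Pi.single 0 1) := by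
  obtain ⟨u, w, hu, hw, h, ht⟩ := H30.isTransvection_iff.mp ht
  obtain ⟨g, hg⟩ := H30.exists_SL_vecMul_eq (by simp) hw
    (show (Pi.single 0 1 : Fin (n + 2) → F) ≠ 0 by simp)
  refine ⟨g, ((g⁻¹ : Matrix.SpecialLinearGroup (Fin (n + 2)) F) : Matrix _ _ F) *ᵥ u, ?_, ?_⟩
  · have : (Pi.single 0 1 : Fin (n + 2) → F) ⬝ᵥ
        (((g⁻¹ : Matrix.SpecialLinearGroup (Fin (n + 2)) F) : Matrix _ _ F) *ᵥ u) = 0 := by
      rw [← hg, dotProduct_mulVec, vecMul_vecMul, ← Matrix.SpecialLinearGroup.coe_mul,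
        mul_inv_cancel, Matrix.SpecialLinearGroup.coe_one, vecMul_one, h]
    simpa only [single_dotProduct, one_mul] using this
  · have := H30.conj_one_add_vecMulVec g⁻¹ u w
    rw [inv_inv, hg] at this
    rw [Matrix.SpecialLinearGroup.coe_mul, Matrix.SpecialLinearGroup.coe_mul, ht, this]

end Cfsg.Agent.S0839
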