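import Mathlib
import Cfsg.Statements.S0841
-- import your own Cfsg.Agent.* helpers here

set_option autoImplicit false
open Cfsg
open scoped commutatorElement

namespace Cfsg.Agent.S0841

/-- If the commutator subgroup of G lies in the centre, then for all x, y in G and every natural number n one has (x * y) ^ n = x ^ n * y ^ n * c ^ (n * (n - 1) / 2) with c = y⁻¹ * x⁻¹ * y * x. -/
theorem result {G : Type*} [Group G] (hG : commutator G ≤ Subgroup.center G) (x y : G) (n : ℕ) : (x * y) ^ n = x ^ n * y ^ n * (y⁻¹ * x⁻¹ * y * x) ^ (n * (n - 1) / 2) := by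
  set c := y⁻¹ * x⁻¹ * y * x with hc
  have hcZ : c ∈ Subgroup.center G := by
    apply hG
    have : c = ⁅y⁻¹, x⁻¹⁆ := by simp [hc, commutatorElement_def]
    rw [this, commutator_def]
    exact Subgroup.commutator_mem_commutator (Subgroup.mem_top _) (Subgroup.mem_top _)
  have hcomm : ∀ (k : ℕ) (g : G), g * c ^ k = c ^ k * g := fun k g =>
    Subgroup.mem_center_iff.mp (Subgroup.pow_mem _ hcZ k) g
  have hyx : y * x = x * y * c := by
    have h1 := hcomm 1 (x * y)
    simp only [pow_one] at h1
    rw [hc]; group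
  have hk : ∀ k : ℕ, y ^ k * x = x * y ^ k * c ^ k := by
    intro k
    induction k with
    | zero => simp
    | succ k ih =>
      calc y ^ (k + 1) * x = y * (y ^ k * x) := by rw [pow_succ']; group
        _ = (y * x) * y ^ k * c ^ k := by rw [ih]; group
        _ = x * y * (c ^ 1 * y ^ k) * c ^ k := by rw [hyx]; group
        _ = x * y * (y ^ k * c ^ 1) * c ^ k := by rw [hcomm 1 (y ^ k)]
        _ = x * y ^ (k + 1) * c ^ (k + 1) := by rw [pow_succ' y, pow_succ' c]; group
  induction n with
  | zero => simp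
  | succ n ih =>
    have hn : (n + 1) * (n + 1 - 1) / 2 = n * (n - 1) / 2 + n := by
      rw [← Nat.choose_two_right, ← Nat.choose_two_right, Nat.choose_succ_succ' n 1]
      simp [add_comm]
    rw [pow_succ, ih, hn, pow_add c]
    calc x ^ n * y ^ n * c ^ (n * (n - 1) / 2) * (x * y)
        = x ^ n * y ^ n * (c ^ (n * (n - 1) / 2) * (x * y)) := by group
      _ = x ^ n * y ^ n * ((x * y) * c ^ (n * (n - 1) / 2)) := by rw [hcomm]
      _ = x ^ n * (y ^ n * x) * y * c ^ (n * (n - 1) / 2) := by group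
      _ = x ^ n * (x * y ^ n * c ^ n) * y * c ^ (n * (n - 1) / 2) := by rw [hk]
      _ = x ^ n * x * y ^ n * (c ^ n * y) * c ^ (n * (n - 1) / 2) := by group
      _ = x ^ n * x * y ^ n * (y * c ^ n) * c ^ (n * (n - 1) / 2) := by rw [hcomm n y]
      _ = x ^ (n + 1) * y ^ (n + 1) * (c ^ n * c ^ (n * (n - 1) / 2)) := by
        rw [pow_succ x, pow_succ y]; simp only [mul_assoc]
      _ = x ^ (n + 1) * y ^ (n + 1) * (c ^ (n * (n - 1) / 2) * c ^ n) := by
        rw [← pow_add, ← pow_add, add_comm n (n * (n - 1) / 2)]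

end Cfsg.Agent.S0841
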