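import Mathlib
import Cfsg.Statements.S0842
import Cfsg.Agent.Lib.BS.Local
-- import your own Cfsg.Agent.* helpers here

set_option autoImplicit false
open Cfsg

namespace Cfsg.Agent.S0842

/-- Suppose a Sylow 2-subgroup S of the finite group G is generalized quaternion of order at least 16, and let D be the commutator subgroup of S, C its centralizer and N its normalizer in G. Then there is a subgroup K of odd order, contained in C and normalized by N, with K ⊔ S = N and K ⊔ (S ⊓ C) = C, and C has index 2 in N. -/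
theorem result {G : Type*} [Group G] [Finite G] (S : Sylow 2 G) (n : ℕ) (e : (S : Subgroup G) ≃* QuaternionGroup (2 ^ (n + 2))) (D : Subgroup G) (hD : D = ⁅(S : Subgroup G), (S : Subgroup G)⁆) : ∃ K : Subgroup G, Odd (Nat.card K) ∧ K ≤ Subgroup.centralizer (D : Set G) ∧ Subgroup.normalizer (D : Set G) ≤ Subgroup.normalizer (K : Set G) ∧ K ⊔ (S : Subgroup G) = Subgroup.normalizer (D : Set G) ∧ K ⊔ ((S : Subgroup G) ⊓ Subgroup.centralizer (D : Set G)) = Subgroup.centralizer (D : Set G) ∧ ((Subgroup.centralizer (D : Set G)).subgroupOf (Subgroup.normalizer (D : Set G))).index = 2 := by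
  obtain ⟨a, x, h⟩ := H31.BS.exists_qdata _ n e
  rw [h.commutator_eq] at hD
  subst hD
  obtain ⟨K, hodd, hmem, hsup⟩ := h.exists_complement
  refine ⟨K, hodd, fun y hy => ((hmem y).mp hy).1, ?_, ?_, ?_, h.relIndex_centralizer⟩
  · intro g hg
    apply H31.BS.mem_normalizer_of_conj_mem
    intro y hy
    rw [hmem] at hy ⊢
    exact ⟨H31.BS.conj_mem_centralizer hg hy.1, by rw [H31.BS.orderOf_conj']; exact hy.2⟩
  · rw [← h.centralizer_sup, ← hsup, sup_assoc, sup_eq_right.mpr h.zpowers_le]
  · rw [h.inf_centralizer, hsup]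

end Cfsg.Agent.S0842
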