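import Mathlib
import Cfsg.Statements.S0844
import Cfsg.Agent.Lib.BS.Main
-- import your own Cfsg.Agent.* helpers here

set_option autoImplicit false
open Cfsg

namespace Cfsg.Agent.S0844

/-- Suppose a Sylow 2-subgroup S of the finite group G is generalized quaternion of order at least 16. Then G has two non-principal irreducible characters χ₁ and χ₂ with χ₁ 1 = χ₂ 1 + 1 such that χ₁ g - χ₂ g = 1 for every element g whose order is not divisible by 4. -/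
theorem result {G : Type*} [Group G] [Fintype G] (S : Sylow 2 G) (n : ℕ) (e : (S : Subgroup G) ≃* QuaternionGroup (2 ^ (n + 2))) : ∃ χ₁ χ₂ : G → ℂ, Cfsg.IsIrrCharacter G χ₁ ∧ Cfsg.IsIrrCharacter G χ₂ ∧ χ₁ ≠ (fun _ => 1) ∧ χ₂ ≠ (fun _ => 1) ∧ χ₁ 1 = χ₂ 1 + 1 ∧ ∀ g : G, ¬ 4 ∣ orderOf g → χ₁ g - χ₂ g = 1 := by
  obtain ⟨a, x, h⟩ := H31.BS.exists_qdata _ n e
  obtain ⟨χ₁, χ₂, h1, h2, h3, h4, h5⟩ := h.exists_pair
  have h6 : ∀ g : G, ¬ 4 ∣ orderOf g → χ₁ g - χ₂ g = 1 := fun g hg =>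
    h5 g fun h7 => hg (Dvd.dvd.trans ⟨2 ^ n, by ring⟩ h7)
  refine ⟨χ₁, χ₂, h1, h2, h3, h4, ?_, h6⟩
  rw [← h6 1 (by simp)]
  ring

end Cfsg.Agent.S0844
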