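import Mathlib
import Cfsg.Statements.S0849
import Cfsg.Agent.Lib.Char.Mackey

set_option autoImplicit false
open Cfsg

namespace Cfsg.Agent.S0849

/-- Let H be a subgroup of a finite group G and S a subset of H that is mapped to itself under conjugation by H, is disjoint from its conjugate by any element outside H, and is closed under inverses. Let φ be a class function of H vanishing on H away from S, and let u, v be involutions of G. Then the sum of the induced function of φ over all products a * b with a conjugate to u and b conjugate to v equals the index of H times the sum of φ (a * b) over such pairs with a and b in H. -/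
theorem result {G : Type*} [Group G] [Fintype G] (H : Subgroup G) (S : Set G) (hSH : S ⊆ H) (hHS : ∀ h ∈ H, ∀ s ∈ S, h * s * h⁻¹ ∈ S) (hTI : ∀ g : G, g ∉ H → ∀ s ∈ S, g * s * g⁻¹ ∉ S) (hinv : ∀ s ∈ S, s⁻¹ ∈ S) (φ : H → ℂ) (hφ : Cfsg.IsClassFunction H φ) (hφS : ∀ x : H, (x : G) ∉ S → φ x = 0) (u v : G) (hu : orderOf u = 2) (hv : orderOf v = 2) : ∑ᶠ p ∈ {p : G × G | IsConj u p.1 ∧ IsConj v p.2}, Cfsg.indFun H φ (p.1 * p.2) = (H.index : ℂ) * ∑ᶠ p ∈ {p : H × H | IsConj u (p.1 : G) ∧ IsConj v (p.2 : G)}, φ (p.1 * p.2) := by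

  classical
  have fin1 : ∀ {X : Type _} [Fintype X] (s : Set X) (f : X → ℂ),
      ∀ [DecidablePred (· ∈ s)], ∑ᶠ p ∈ s, f p = ∑ p, if p ∈ s then f p else 0 := by
    intro X _ s f _
    rw [finsum_mem_def, finsum_eq_sum_of_fintype]
    exact Finset.sum_congr rfl fun p _ => by rw [Set.indicator_apply]
  rw [fin1, fin1]
  have hc := H7.card_ne_zero' H
  apply mul_left_cancel₀ hc
  have h1 : ∀ x : G, ∑ p : G × G, (if p ∈ {p : G × G | IsConj u p.1 ∧ IsConj v p.2} then
      extendByZero H φ (x⁻¹ * (p.1 * p.2) * x) else 0) =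
      ∑ p : G × G, (if p ∈ {p : G × G | IsConj u p.1 ∧ IsConj v p.2} then
      extendByZero H φ (p.1 * p.2) else 0) := by
    intro x
    rw [← Equiv.sum_comp (Equiv.prodCongr (MulAut.conj x).toEquiv (MulAut.conj x).toEquiv)]
    refine Finset.sum_congr rfl fun p _ => ?_
    have e : ∀ w a : G, IsConj w (x * a * x⁻¹) ↔ IsConj w a := fun w a =>
      ⟨fun h => h.trans (isConj_iff.mpr ⟨x, rfl⟩).symm, fun h => h.trans (isConj_iff.mpr ⟨x, rfl⟩)⟩
    refine if_congr (and_congr (e u p.1) (e v p.2)) ?_ rfl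
    congr 1
    simp [mul_assoc]
  have h2 : ∑ p : G × G, (if p ∈ {p : G × G | IsConj u p.1 ∧ IsConj v p.2} then
      extendByZero H φ (p.1 * p.2) else 0) =
      ∑ p : H × H, if p ∈ {p : H × H | IsConj u (p.1 : G) ∧ IsConj v (p.2 : G)} then
        φ (p.1 * p.2) else 0 := by
    symm
    refine Finset.sum_of_injOn (fun p : H × H => ((p.1 : G), (p.2 : G))) ?_ (by simp) ?_ ?_
    · intro p _ q _ h
      simp only [Prod.mk.injEq] at h
      exact Prod.ext (Subtype.ext h.1) (Subtype.ext h.2)
    · intro p _ hp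
      split_ifs with h
      · rw [H7.extendByZero_eq_zero_iff]
        intro hm
        apply hφS
        intro hS
        apply hp
        have ha : p.1 * p.1 = 1 := by
          obtain ⟨c, hc⟩ := isConj_iff.mp h.1
          rw [← hc, conj_mul, ← sq, ← hu, pow_orderOf_eq_one]; simp
        have hb : p.2 * p.2 = 1 := by
          obtain ⟨c, hc⟩ := isConj_iff.mp h.2
          rw [← hc, conj_mul, ← sq, ← hv, pow_orderOf_eq_one]; simp
        have h1 : p.1 ∈ H := by
          by_contra h1
          apply hTI _ h1 _ hS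
          have := hinv _ hS
          convert this using 1
          rw [mul_inv_rev, inv_eq_of_mul_eq_one_right hb, ← mul_assoc, ha, one_mul]
        have h2 : p.2 ∈ H := by simpa using H.mul_mem (H.inv_mem h1) hm
        exact ⟨(⟨_, h1⟩, ⟨_, h2⟩), by simp, rfl⟩
      · rfl
    · intro p _
      refine if_congr Iff.rfl ?_ rfl
      exact (H7.extendByZero_coe H φ (p.1 * p.2)).symm
  rw [← h2, ← mul_assoc, mul_comm (Nat.card H : ℂ) H.index, ← H7.card_eq_index_mul, Finset.mul_sum]
  simp only [mul_ite, mul_zero, H7.card_mul_indFun]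
  have h3 : ∀ p : G × G, (if p ∈ {p : G × G | IsConj u p.1 ∧ IsConj v p.2} then
      ∑ x : G, extendByZero H φ (x⁻¹ * (p.1 * p.2) * x) else 0) = ∑ x : G,
      if p ∈ {p : G × G | IsConj u p.1 ∧ IsConj v p.2} then
      extendByZero H φ (x⁻¹ * (p.1 * p.2) * x) else 0 := by
    intro p; split_ifs <;> simp
  simp only [h3]
  rw [Finset.sum_comm]
  simp only [h1]
  rw [Finset.sum_const, Finset.card_univ, nsmul_eq_mul, Nat.card_eq_fintype_card]

end Cfsg.Agent.S0849
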