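import Mathlib
import Cfsg.Statements.S0850
import Cfsg.Agent.Lib.Char.Mackey

set_option autoImplicit false
open Cfsg

namespace Cfsg.Agent.S0850

/-- Let K be a subgroup of the finite group G that meets each conjugate by an element outside its normalizer N trivially, is properly contained in N, and contains the centralizer of each of its non-identity elements (a T.I. subgroup with Frobenius normalizer). Then no element of N outside K is conjugate in G to an element of K, and for every class function ϑ of N that vanishes on N away from K and at the identity, the function induced from ϑ to G agrees with ϑ on all of N. -/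
theorem result {G : Type*} [Group G] [Fintype G] (K : Subgroup G) (hTI : ∀ g : G, g ∉ Subgroup.normalizer (K : Set G) → ∀ k ∈ K, g * k * g⁻¹ ∈ K → k = 1) (hlt : K < Subgroup.normalizer (K : Set G)) (hC : ∀ k ∈ K, k ≠ 1 → Subgroup.centralizer ({k} : Set G) ≤ K) : (∀ x ∈ Subgroup.normalizer (K : Set G), x ∉ K → ∀ g : G, g * x * g⁻¹ ∉ K) ∧ ∀ (ϑ : Subgroup.normalizer (K : Set G) → ℂ), Cfsg.IsClassFunction (Subgroup.normalizer (K : Set G)) ϑ → (∀ x : Subgroup.normalizer (K : Set G), (x : G) ∉ K → ϑ x = 0) → ϑ 1 = 0 → ∀ x : Subgroup.normalizer (K : Set G), Cfsg.indFun (Subgroup.normalizer (K : Set G)) ϑ x = ϑ x := by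

  classical
  have key : ∀ x ∈ Subgroup.normalizer (K : Set G), x ∉ K → ∀ g : G, g * x * g⁻¹ ∉ K := by
    intro x hx hxK g hg
    have hx1 : orderOf x ≠ 1 := fun h => hxK (by rw [orderOf_eq_one_iff.mp h]; exact K.one_mem)
    obtain ⟨p, hp, hpx⟩ := Nat.exists_prime_and_dvd hx1
    haveI := Fact.mk hp
    have hy : orderOf (x ^ (orderOf x / p)) = p := orderOf_pow_orderOf_div (orderOf_pos x).ne' hpx
    have hdvd : p ∣ Nat.card K := by
      refine hpx.trans ?_
      have := K.orderOf_dvd_natCard hg
      rwa [show g * x * g⁻¹ = MulAut.conj g x from rfl, MulEquiv.orderOf_eq] at this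
    set y : Subgroup.normalizer (K : Set G) := ⟨x, hx⟩ ^ (orderOf x / p) with hyd
    have hy' : orderOf y = p := by rw [← Subgroup.orderOf_coe]; exact hy
    have hP : IsPGroup p (Subgroup.zpowers y) :=
      IsPGroup.of_card (n := 1) (by rw [Nat.card_zpowers, hy', pow_one])
    letI : MulAction (Subgroup.zpowers y) K :=
      MulAction.compHom K (K.normalizerMonoidHom.comp (Subgroup.zpowers y).subtype)
    obtain ⟨k, hk, hk1⟩ := hP.exists_fixed_point_of_prime_dvd_card_of_fixed_point K hdvd
      (a := 1) (fun g => map_one (K.normalizerMonoidHom g))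
    have h1 : (y : G) * k * (y : G)⁻¹ = k :=
      congrArg Subtype.val (hk ⟨y, Subgroup.mem_zpowers y⟩)
    have h2 : (y : G) ∈ K := hC k k.2 (fun h => hk1 (Subtype.ext h.symm)) (by
      rw [Subgroup.mem_centralizer_singleton_iff]; exact mul_inv_eq_iff_eq_mul.mp h1)
    have h3 : (y : G) ≠ 1 := by
      intro h
      rw [← Subgroup.orderOf_coe, h, orderOf_one] at hy'
      exact hp.ne_one hy'.symm
    apply hxK
    apply hC y h2 h3
    rw [Subgroup.mem_centralizer_singleton_iff]
    exact (Commute.refl x).pow_right _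
  refine ⟨key, fun ϑ hϑ h0 h1 x => ?_⟩
  rw [H7.indFun_apply_eq_of_forall_not_mem _ hϑ, H7.extendByZero_coe]
  intro g hg
  rw [H7.extendByZero_eq_zero_iff]
  intro hm
  by_cases hK : g⁻¹ * x * g ∈ K
  · have hxK : (x : G) ∈ K := by
      by_contra h
      exact key x x.2 h g⁻¹ (by simpa using hK)
    have := hTI g⁻¹ (fun h => hg (by simpa using h)) x hxK (by simpa using hK)
    rw [← h1]
    congr 1
    exact Subtype.ext (by simp [this])
  · exact h0 _ hK

end Cfsg.Agent.S0850
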