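import Cfsg.Statements.S0852
import Mathlib
import Cfsg.Agent.Lib.Perm27.TIFN

set_option autoImplicit false
open Cfsg

namespace Cfsg.Agent.S0852



/-- Let K be a subgroup of the finite group G that meets each conjugate by an element outside its normalizer N trivially, is properly contained in N, and contains the centralizer of each of its non-identity elements (a T.I. subgroup with Frobenius normalizer). Let S be the set of irreducible characters of N taking at some element of K a value different from their degree, suppose S has at least two members, and let star be a linear isometry on the integer span of S into the generalized characters of G that agrees with induction on the members vanishing at the identity (so S is coherent, with star as the extending isometry). Then an irreducible character ψ of G is of the form star χ or -star χ for some χ in S if and only if ψ is not constant on the non-identity elements of K. -/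
theorem result {G : Type*} [Group G] [Fintype G] (K : Subgroup G) (hTI : ∀ g : G, g ∉ Subgroup.normalizer (K : Set G) → ∀ k ∈ K, g * k * g⁻¹ ∈ K → k = 1) (hlt : K < Subgroup.normalizer (K : Set G)) (hC : ∀ k ∈ K, k ≠ 1 → Subgroup.centralizer ({k} : Set G) ≤ K) [Fintype ↥(Subgroup.normalizer (K : Set G))] (S : Set (↥(Subgroup.normalizer (K : Set G)) → ℂ)) (hS : S = {χ : ↥(Subgroup.normalizer (K : Set G)) → ℂ | Cfsg.IsIrrCharacter ↥(Subgroup.normalizer (K : Set G)) χ ∧ ∃ k : ↥(Subgroup.normalizer (K : Set G)), (k : G) ∈ K ∧ χ k ≠ χ 1}) (htwo : ∃ χ ∈ S, ∃ ξ ∈ S, χ ≠ ξ) (star : (↥(Subgroup.normalizer (K : Set G)) → ℂ) → (G → ℂ)) (hstar : Cfsg.IsLinearIsometryOn (Cfsg.zspan S) star) (hext : ∀ α ∈ Cfsg.zspanOn S ({1}ᶜ : Set ↥(Subgroup.normalizer (K : Set G))), star α = Cfsg.indFun (Subgroup.normalizer (K : Set G)) α) (ψ : G → ℂ) (hψ : Cfsg.IsIrrCharacter G ψ) : (∃ χ ∈ S, ψ = star χ ∨ ψ = -star χ) ↔ ∃ a ∈ K, ∃ b ∈ K, a ≠ 1 ∧ b ≠ 1 ∧ ψ a ≠ ψ b := by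
  have := Subgroup.normal_in_normalizer (H := K)
  change S = H27.Sker (K.subgroupOf (Subgroup.normalizer (K : Set G))) at hS
  subst hS
  have hf := H53.Feit.cohW_of_iso H27.Sker_irr hstar (τ := H7.indLin _)
    (fun α hα => hext α (H53.Feit.mem_zspanOn.2 hα))
  constructor
  · rintro ⟨χ, hχ, h⟩
    obtain ⟨ξ, hξ, hne⟩ : ∃ ξ ∈ H27.Sker (K.subgroupOf (Subgroup.normalizer (K : Set G))),
        χ ≠ ξ := by
      obtain ⟨a, ha, b, hb, hab⟩ := htwo
      by_cases h : χ = a
      · exact ⟨b, hb, h ▸ hab⟩
      · exact ⟨a, ha, h⟩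
    by_contra hcon
    push Not at hcon
    obtain ⟨k, hk, hk'⟩ := hχ.2
    have hk1 : (k : G) ≠ 1 := fun h => hk' (by rw [show k = 1 from Subtype.ext h])
    refine H27.not_const_of_exceptional hC hf hχ hξ hne (star χ k) fun a ha ha1 => ?_
    have := hcon a ha k hk ha1 hk1
    rcases h with rfl | rfl
    · exact this
    · exact neg_injective this
  · rintro ⟨a, ha, b, hb, ha1, hb1, hab⟩
    by_contra hcon
    push Not at hcon
    obtain ⟨χ, hχ, -⟩ := htwo
    have h1 : ∀ χ ∈ H27.Sker (K.subgroupOf (Subgroup.normalizer (K : Set G))),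
        classInner ψ (star χ) = 0 := fun χ hχ => by
      by_contra h
      rcases H53.Feit.DIrr.eq_or_neg (Or.inl hψ) (hf.dirr H27.Sker_irr hχ) h with h | h
      · exact (hcon χ hχ).1 h
      · exact (hcon χ hχ).2 h
    have h2 := fun k hk hk1 => H27.const_of_nonexceptional hf (H6.irr_isClassFunction hψ) h1 hχ
      (k := k) hk hk1
    exact hab ((h2 ⟨a, hlt.le ha⟩ ha (fun h => ha1 (congrArg Subtype.val h))).trans
      (h2 ⟨b, hlt.le hb⟩ hb (fun h => hb1 (congrArg Subtype.val h))).symm)

end Cfsg.Agent.S0852
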