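import Mathlib
import Cfsg.Statements.S0859
import Cfsg.Agent.Lib.Char.DegreeP
-- import your own Cfsg.Agent.* helpers here

set_option autoImplicit false
open Cfsg

namespace Cfsg.Agent.S0859

/-- Let G be a finite solvable group and N a normal subgroup such that for every prime p every Sylow p-subgroup of N is abelian. Suppose every irreducible character of G is induced from an irreducible character of some subgroup containing N whose restriction to N is irreducible. Then every irreducible character of G is induced from a character of degree 1 of some subgroup. -/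
theorem result {G : Type*} [Group G] [Fintype G] [Group.IsSolvable G] (N : Subgroup G) [N.Normal] (hab : ∀ (p : ℕ) [Fact p.Prime] (P : Sylow p N), ∀ a ∈ P, ∀ b ∈ P, a * b = b * a) (hrel : ∀ χ : G → ℂ, Cfsg.IsIrrCharacter G χ → ∃ (H : Subgroup G) (hNH : N ≤ H) (ψ : H → ℂ), Cfsg.IsIrrCharacter H ψ ∧ Cfsg.indFun H ψ = χ ∧ Cfsg.IsIrrCharacter N (fun n : N => ψ ⟨(n : G), hNH n.2⟩)) (χ : G → ℂ) (hχ : Cfsg.IsIrrCharacter G χ) : ∃ (U : Subgroup G) (lam : U → ℂ), Cfsg.IsCharacter U lam ∧ lam 1 = 1 ∧ Cfsg.indFun U lam = χ := by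
  classical
  obtain ⟨H, hNH, ψ, hψ, hind, hψN⟩ := hrel χ hχ
  obtain ⟨U, _, θ, hθ, hprim, hθψ⟩ := H31.exists_prim_indFun hψ
  have hψN' : IsIrrCharacter (N.subgroupOf H) (fun x => ψ x) := H7.isIrr_subgroupOf hNH hψN
  set N' := N.subgroupOf H with hN'
  have hW : N' ⊔ U = ⊤ := by
    have h1 := H7.indFun_indFun U (N' ⊔ U) le_sup_right θ
    have h2 := H7.isCharacter_indFun _ (H7.isCharacter_subgroupOf (N' ⊔ U) (H6.irr_isCharacter hθ))
    rw [hθψ] at h1
    have h3 := H7.isIrr_of_isIrr_indFun _ h2 (h1 ▸ hψ)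
    have h4 : IsIrrCharacter ↥(N' ⊔ U) (fun x => ψ x) :=
      H31.isIrr_of_comp_isIrr (Subgroup.inclusion (le_sup_left : N' ≤ N' ⊔ U))
        (H6.isCharacter_restrict _ (H6.irr_isCharacter hψ)) hψN'
    have h5 := H7.classInner_res_indFun_self (h1 ▸ hψ : IsIrrCharacter H (indFun (N' ⊔ U) _))
    rw [h1] at h5
    have h6 := congrFun (H6.irr_eq_of_inner_ne_zero h4 h3 (by rw [h5]; exact one_ne_zero)) 1
    have h7 := congrFun h1 1
    rw [H7.indFun_one, ← h6] at h7
    have h8 : ((N' ⊔ U).index : ℂ) = 1 :=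
      mul_right_cancel₀ (H6.irr_one_ne_zero hψ) (h7.trans (one_mul _).symm)
    exact Subgroup.index_eq_one.1 (by exact_mod_cast h8)
  have h1 := funext (H7.indFun_res_of_mul_eq U N' (H7.exists_mul_of_sup_eq_top_left hW)
    (H6.irr_isClassFunction hθ))
  rw [hθψ] at h1
  have h2 := H7.isIrr_of_isIrr_indFun _ (H7.isCharacter_subgroupOf N' (H6.irr_isCharacter hθ))
    (by rw [← show (fun k : N' => ψ k) = _ from h1]; exact hψN')
  have h3 : IsIrrCharacter (N'.subgroupOf U) (fun m => θ m) :=
    H31.isIrr_of_comp_isIrr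
      ((H7.subgroupOfHom U N').codRestrict (N'.subgroupOf U) (fun x => (x : N').2))
      (H6.isCharacter_restrict _ (H6.irr_isCharacter hθ)) h2
  have h4 : θ 1 = 1 := by
    refine H31.prim_linear_of_abelian_sylow (N'.subgroupOf U) (fun p _ P a ha b hb => ?_) hθ hprim h3
    let g : N'.subgroupOf U →* N := (H7.subgroupOfHom N H).comp (H7.subgroupOfHom N' U)
    obtain ⟨R, hR⟩ := (P.isPGroup'.map g).exists_le_sylow
    have := hab p R (g a) (hR ⟨a, ha, rfl⟩) (g b) (hR ⟨b, hb, rfl⟩)
    have h5 := congrArg Subtype.val this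
    exact Subtype.ext (Subtype.ext (Subtype.ext h5))
  refine ⟨U.map H.subtype,
    fun x => θ ((U.equivMapOfInjective H.subtype H.subtype_injective).symm x),
    H6.isCharacter_comp (U.equivMapOfInjective H.subtype H.subtype_injective).symm.toMonoidHom
      (H6.irr_isCharacter hθ), by simpa using h4, ?_⟩
  rw [← H7.indFun_indFun_map, hθψ, hind]

end Cfsg.Agent.S0859
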