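import Mathlib
import Cfsg.Statements.S0861
import Cfsg.Agent.Lib.Char.DegreeP
-- import your own Cfsg.Agent.* helpers here

set_option autoImplicit false
open Cfsg

namespace Cfsg.Agent.S0861

/-- Let P be a normal abelian Sylow p-subgroup of the finite group G and suppose some element g of P has centralizer exactly P. Then the number of irreducible characters of G is at most the order of P, and if equality holds then G / P is abelian (the commutator subgroup lies in P). -/
theorem result {G : Type*} [Group G] [Finite G] (p : ℕ) [Fact p.Prime] (P : Sylow p G) [(P : Subgroup G).Normal] (hab : ∀ a ∈ P, ∀ b ∈ P, a * b = b * a) (g : G) (hg : g ∈ P) (hC : Subgroup.centralizer ({g} : Set G) = P) : Nat.card (Cfsg.IrrCharacter G) ≤ Nat.card P ∧ (Nat.card (Cfsg.IrrCharacter G) = Nat.card P → commutator G ≤ P) := by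
  classical
  haveI := Fintype.ofFinite G
  have hp : p.Prime := Fact.out
  set S : Finset G := Finset.univ.filter fun x => ∃ m : ℕ, m.Coprime (Nat.card G) ∧ x = g ^ m
    with hS
  have hS1 : ∀ x ∈ S, ∀ m : ℕ, m.Coprime (Nat.card G) → x ^ m ∈ S := by
    intro x hx m hm
    obtain ⟨k, hk, rfl⟩ := (Finset.mem_filter.1 hx).2
    exact Finset.mem_filter.2 ⟨Finset.mem_univ _, k * m, Nat.Coprime.mul_left hk hm,
      (pow_mul g k m).symm⟩
  have hgS : g ∈ S := Finset.mem_filter.2 ⟨Finset.mem_univ _, 1, Nat.coprime_one_left _, by simp⟩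
  have hSP : ∀ x ∈ S, x ∈ (P : Subgroup G) := by
    intro x hx
    obtain ⟨k, -, rfl⟩ := (Finset.mem_filter.1 hx).2
    exact Subgroup.pow_mem _ hg k
  have hSC : ∀ x ∈ S, Subgroup.centralizer ({x} : Set G) = P := by
    intro x hx
    obtain ⟨k, hk, rfl⟩ := (Finset.mem_filter.1 hx).2
    rw [← hC]
    obtain ⟨m, hm⟩ := exists_pow_eq_self_of_coprime
      (hk.coprime_dvd_right (orderOf_dvd_natCard g))
    ext y
    simp only [Subgroup.mem_centralizer_singleton_iff]
    refine ⟨fun h => ?_, fun h => (Commute.pow_right h k : Commute y (g ^ k))⟩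
    rw [← hm]; exact (Commute.pow_right h m : Commute y ((g ^ k) ^ m))
  have h0 : ∀ χ : IrrCharacter G, ∀ x ∈ S, (χ : G → ℂ) x ≠ 0 := by
    intro χ x hx h
    obtain ⟨n, -, hn⟩ := H6.irr_one_pos χ.2
    obtain ⟨k, hk⟩ := P.isPGroup' ⟨x, hSP x hx⟩
    exact P.not_dvd_index ((H31.dvd_degree_of_eq_zero (H6.irr_isCharacter χ.2) hp
      (congrArg Subtype.val hk) h hn).trans (H31.degree_dvd_index_of_comm _ hab χ.2 hn))
  have h1 : ∀ χ : IrrCharacter G, (S.card : ℝ) ≤ ∑ x ∈ S, ‖(χ : G → ℂ) x‖ ^ 2 :=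
    fun χ => H8.card_le_sum_normSq (H6.irr_isGen χ.2) S hS1 (h0 χ)
  have h2 : ∑ χ : IrrCharacter G, ∑ x ∈ S, ‖(χ : G → ℂ) x‖ ^ 2 = S.card * Nat.card P := by
    rw [Finset.sum_comm, Finset.sum_congr rfl (g := fun _ => (Nat.card P : ℝ))]
    · simp
    · intro x hx
      have := H6.column_orthogonality_self x
      rw [hSC x hx] at this
      simp only [Complex.mul_conj, Complex.normSq_eq_norm_sq] at this
      exact_mod_cast this
  have h3 : (0 : ℝ) < S.card := by exact_mod_cast Finset.card_pos.2 ⟨g, hgS⟩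
  have h4 : ∑ _χ : IrrCharacter G, (S.card : ℝ) = S.card * Nat.card (IrrCharacter G) := by
    simp [mul_comm]
  refine ⟨?_, fun h => ?_⟩
  · have := Finset.sum_le_sum (s := Finset.univ) fun χ _ => h1 χ
    rw [h2, h4] at this
    exact_mod_cast le_of_mul_le_mul_left this h3
  · have h5 := (Finset.sum_eq_sum_iff_of_le (s := Finset.univ) fun χ _ => h1 χ).1
      (by rw [h2, h4, h])
    have h6 : ∀ a b : G ⧸ (P : Subgroup G), a * b = b * a := by
      refine H6.comm_iff_irr_one.2 fun ψ => ?_
      have h7 := h5 ⟨_, H6.isIrrCharacter_comp_surjective (QuotientGroup.mk' (P : Subgroup G))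
        (QuotientGroup.mk'_surjective _) ψ.2⟩ (Finset.mem_univ _)
      obtain ⟨n, -, hn⟩ := H6.irr_one_pos ψ.2
      rw [Finset.sum_congr rfl (g := fun _ => (n : ℝ) ^ 2) (fun x hx => by
        have : QuotientGroup.mk' (P : Subgroup G) x = 1 := (QuotientGroup.eq_one_iff x).2 (hSP x hx)
        simp only [this, hn, Complex.norm_natCast])] at h7
      rw [Finset.sum_const, nsmul_eq_mul] at h7
      have h8 : (n : ℝ) ^ 2 = 1 := mul_left_cancel₀ h3.ne' (h7.symm.trans (mul_one _).symm)
      have h9 : n = 1 := by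
        have : n ^ 2 = 1 := by exact_mod_cast h8
        simpa using this
      rw [hn, h9, Nat.cast_one]
    rw [commutator_def, Subgroup.commutator_le]
    intro a _ b _
    rw [← QuotientGroup.eq_one_iff]
    change QuotientGroup.mk' _ _ = 1
    rw [map_commutatorElement, commutatorElement_eq_one_iff_mul_comm]
    exact h6 _ _

end Cfsg.Agent.S0861
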