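import Mathlib
import Cfsg.Statements.S0862
import Cfsg.Agent.Lib.Char.ExtMain
-- import your own Cfsg.Agent.* helpers here

set_option autoImplicit false
open Cfsg

namespace Cfsg.Agent.S0862

/-- Let N be a normal subgroup of the finite group G and ϑ an irreducible character of N of degree d coprime to the index of N, which is the restriction of some irreducible character of G. Let μ be a character of G of degree 1 whose restriction to N is the determinantal character of ϑ. Then there is exactly one irreducible character χ of G restricting to ϑ whose determinantal character is μ. -/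
theorem result {G : Type*} [Group G] [Finite G] (N : Subgroup G) [N.Normal] (ϑ : N → ℂ) (hϑ : Cfsg.IsIrrCharacter N ϑ) (d : ℕ) (hd : ϑ 1 = d) (hcop : Nat.Coprime N.index d) (hext : ∃ η : G → ℂ, Cfsg.IsIrrCharacter G η ∧ (∀ n : N, η n = ϑ n)) (μ : G → ℂ) (hμ : Cfsg.IsCharacter G μ ∧ μ 1 = 1) (hμN : ∀ n : N, μ n = Cfsg.detChar ϑ n) : ∃! χ : G → ℂ, Cfsg.IsIrrCharacter G χ ∧ (∀ n : N, χ n = ϑ n) ∧ Cfsg.detChar χ = μ := by
  obtain ⟨η, hη, hηN⟩ := hext
  obtain ⟨B, rfl⟩ := H6.exists_hom_of_char_one_eq_one hμ.1 hμ.2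
  obtain ⟨χ, ⟨h1, h2, h3⟩, huniq⟩ := H31.existsUnique_ext_det N hϑ hd hcop hη hηN B fun n =>
    Units.ext ((hμN n).trans (H31.detChar_apply ϑ n))
  refine ⟨χ, ⟨h1, h2, by rw [H31.detChar_eq, h3]⟩, ?_⟩
  rintro χ' ⟨h4, h5, h6⟩
  refine huniq χ' ⟨h4, h5, ?_⟩
  ext g
  rw [← H31.detChar_apply, h6]

end Cfsg.Agent.S0862
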