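import Mathlib
import Cfsg.Statements.S0864
import Cfsg.Agent.Lib.Char.Basic
import Cfsg.Agent.Lib.Char.ExtLinear
-- import your own Cfsg.Agent.* helpers here

set_option autoImplicit false
open Cfsg

namespace Cfsg.Agent.S0864

/-- Let N be a normal subgroup of the finite group G and λ a character of N of degree 1 invariant under conjugation by G. Suppose that for every prime p dividing the order of λ (in the group of functions under pointwise multiplication) there is a subgroup H containing N, of index prime to p and with the index of N in H a power of p, together with a character of H of degree 1 restricting to λ. Then λ is the restriction of a character of G of degree 1. -/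
theorem result {G : Type*} [Group G] [Finite G] (N : Subgroup G) [hN : N.Normal] (lam : N → ℂ) (hlam : Cfsg.IsCharacter N lam ∧ lam 1 = 1) (hinv : ∀ (g : G) (n : N), lam ⟨g * n * g⁻¹, hN.conj_mem (n : G) n.2 g⟩ = lam n) (hsyl : ∀ p : ℕ, p.Prime → p ∣ orderOf lam → ∃ (H : Subgroup G) (hNH : N ≤ H) (ν : H → ℂ), Nat.Coprime H.index p ∧ (∃ k : ℕ, N.relIndex H = p ^ k) ∧ Cfsg.IsCharacter H ν ∧ ν 1 = 1 ∧ ∀ n : N, ν ⟨(n : G), hNH n.2⟩ = lam n) : ∃ μ : G → ℂ, Cfsg.IsCharacter G μ ∧ μ 1 = 1 ∧ ∀ n : N, μ n = lam n := by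
  obtain ⟨f, rfl⟩ := H6.exists_hom_of_char_one_eq_one hlam.1 hlam.2
  have hinv' : ∀ (g : G) (n : N), f ⟨g * n * g⁻¹, hN.conj_mem (n : G) n.2 g⟩ = f n :=
    fun g n => Units.ext (hinv g n)
  rw [H31.orderOf_coe_hom] at hsyl
  obtain ⟨F, hF⟩ := H31.ExtPow.of_forall_prime (H31.orderOf_hom_ne_zero f)
    (H31.extPow_of_pow_eq_one ((H31.orderOf_hom_dvd_iff f _).mp dvd_rfl)) (by
      intro p hp hd
      obtain ⟨H, hNH, ν, hcop, -, hν, hν1, hνN⟩ := hsyl p hp hd
      obtain ⟨φ, rfl⟩ := H6.exists_hom_of_char_one_eq_one hν hν1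
      exact ⟨H.index, (Nat.Prime.coprime_iff_not_dvd hp).mp hcop.symm,
        H31.extPow_index hNH f hinv' φ fun n => Units.ext (hνN n)⟩)
  exact ⟨fun g => F g, H6.isCharacter_hom F, by simp, fun n => by simp [hF]⟩

end Cfsg.Agent.S0864
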