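import Mathlib
import Cfsg.Statements.S0865
import Cfsg.Agent.Lib.Char.Basic
import Cfsg.Agent.Lib.Char.ExtLinear
-- import your own Cfsg.Agent.* helpers here

set_option autoImplicit false
open Cfsg

namespace Cfsg.Agent.S0865

/-- Let N be a normal subgroup of the finite group G and λ a character of N of degree 1, invariant under conjugation by G, whose order (under pointwise multiplication) is coprime to the index of N. Then there is a character μ of G of degree 1 restricting to λ with the same order as λ, and μ is the only degree-1 character of G restricting to λ whose order is coprime to the index of N. -/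
theorem result {G : Type*} [Group G] [Finite G] (N : Subgroup G) [hN : N.Normal] (lam : N → ℂ) (hlam : Cfsg.IsCharacter N lam ∧ lam 1 = 1) (hinv : ∀ (g : G) (n : N), lam ⟨g * n * g⁻¹, hN.conj_mem (n : G) n.2 g⟩ = lam n) (hcop : Nat.Coprime N.index (orderOf lam)) : ∃ μ : G → ℂ, (Cfsg.IsCharacter G μ ∧ μ 1 = 1 ∧ (∀ n : N, μ n = lam n) ∧ orderOf μ = orderOf lam) ∧ ∀ μ' : G → ℂ, Cfsg.IsCharacter G μ' ∧ μ' 1 = 1 → (∀ n : N, μ' n = lam n) → Nat.Coprime N.index (orderOf μ') → μ' = μ := by
  obtain ⟨f, rfl⟩ := H6.exists_hom_of_char_one_eq_one hlam.1 hlam.2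
  have hinv' : ∀ (g : G) (n : N), f ⟨g * n * g⁻¹, hN.conj_mem (n : G) n.2 g⟩ = f n :=
    fun g n => Units.ext (hinv g n)
  rw [H31.orderOf_coe_hom] at hcop
  obtain ⟨F, hF, hFo⟩ := H31.exists_hom_ext_of_coprime f hinv' hcop
  refine ⟨fun g => F g, ⟨H6.isCharacter_hom F, by simp, fun n => by simp [hF], ?_⟩, ?_⟩
  · rw [H31.orderOf_coe_hom, H31.orderOf_coe_hom, hFo]
  · rintro μ' ⟨h1, h2⟩ h3 h4
    obtain ⟨F', rfl⟩ := H6.exists_hom_of_char_one_eq_one h1 h2
    rw [H31.orderOf_coe_hom] at h4
    have := H31.hom_ext_unique (N := N) (F := F') (F' := F)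
      (fun n hn => Units.ext ((h3 ⟨n, hn⟩).trans (congrArg Units.val (hF ⟨n, hn⟩)).symm)) h4
      (hFo ▸ hcop)
    rw [this]

end Cfsg.Agent.S0865
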