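import Mathlib
import Cfsg.Statements.S0867
import Cfsg.Agent.Lib.Char.ExtMain
-- import your own Cfsg.Agent.* helpers here

set_option autoImplicit false
open Cfsg

namespace Cfsg.Agent.S0867

/-- Let N be a normal subgroup of the finite group G and ϑ an irreducible character of N of degree d, invariant under conjugation by G, such that the index of N is coprime to the product of d and the determinantal order of ϑ. Then there is an irreducible character χ of G restricting to ϑ whose determinantal order equals that of ϑ, and χ is the only irreducible character of G restricting to ϑ whose determinantal order is coprime to the index of N. -/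
theorem result {G : Type*} [Group G] [Finite G] (N : Subgroup G) [hN : N.Normal] (ϑ : N → ℂ) (hϑ : Cfsg.IsIrrCharacter N ϑ) (hinv : ∀ (g : G) (n : N), ϑ ⟨g * n * g⁻¹, hN.conj_mem (n : G) n.2 g⟩ = ϑ n) (d : ℕ) (hd : ϑ 1 = d) (hcop : Nat.Coprime N.index (Cfsg.detOrder ϑ * d)) : ∃ χ : G → ℂ, (Cfsg.IsIrrCharacter G χ ∧ (∀ n : N, χ n = ϑ n) ∧ Cfsg.detOrder χ = Cfsg.detOrder ϑ) ∧ ∀ χ' : G → ℂ, Cfsg.IsIrrCharacter G χ' → (∀ n : N, χ' n = ϑ n) → Nat.Coprime N.index (Cfsg.detOrder χ') → χ' = χ := by
  exact H31.exists_canonical_ext N hϑ hinv hd hcop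

end Cfsg.Agent.S0867
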