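import Mathlib
import Cfsg.Statements.S0875
import Cfsg.Agent.Lib.H85.PRegSep
import Cfsg.Agent.Lib.Perm75.ElemDec

set_option autoImplicit false
open Cfsg

namespace Cfsg.Agent.S0875
open scoped ComplexConjugate

/-- Let G be a finite group of order m * n with m and n coprime, and g an element whose order is coprime to m. Every x in G factors uniquely as x = u * v with u, v commuting, the order of u coprime to n and the order of v coprime to m; let ϑ be the function on G equal to n at those x whose factor v is conjugate to g and equal to 0 elsewhere. Then ϑ is a linear combination of the irreducible characters of G with algebraic-integer coefficients. -/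
theorem result {G : Type*} [Group G] [Fintype G] (m n : ℕ) (hmn : Nat.card G = m * n) (hcop : Nat.Coprime m n) (g : G) (hg : Nat.Coprime (orderOf g) m) (ϑ : G → ℂ) (hϑ1 : ∀ x : G, (∃ v : G, IsConj v g ∧ (∃ u : G, x = u * v ∧ Commute u v ∧ Nat.Coprime (orderOf u) n ∧ Nat.Coprime (orderOf v) m)) → ϑ x = n) (hϑ0 : ∀ x : G, (¬ ∃ v : G, IsConj v g ∧ (∃ u : G, x = u * v ∧ Commute u v ∧ Nat.Coprime (orderOf u) n ∧ Nat.Coprime (orderOf v) m)) → ϑ x = 0) : ∃ c : Cfsg.IrrCharacter G → ℂ, (∀ χ, c χ ∈ Cfsg.AlgInt) ∧ ϑ = ∑ᶠ χ : Cfsg.IrrCharacter G, c χ • (χ : G → ℂ) := by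

  classical
  obtain ⟨k, hk1, hk2⟩ := H75.exists_proj_exp hcop
  have hcl : IsClassFunction G ϑ := by
    have key : ∀ x h : G, (∃ v : G, IsConj v g ∧ (∃ u : G, x = u * v ∧ Commute u v ∧
        Nat.Coprime (orderOf u) n ∧ Nat.Coprime (orderOf v) m)) →
        (∃ v : G, IsConj v g ∧ (∃ u : G, h * x * h⁻¹ = u * v ∧ Commute u v ∧
        Nat.Coprime (orderOf u) n ∧ Nat.Coprime (orderOf v) m)) := by
      rintro x h ⟨v, hv, u, rfl, h1, h2, h3⟩
      refine ⟨h * v * h⁻¹, (isConj_iff.mpr ⟨h, rfl⟩).symm.trans hv, h * u * h⁻¹, by group,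
        h1.map (MulAut.conj h), by rwa [H35.orderOf_conj], by rwa [H35.orderOf_conj]⟩
    intro x h
    by_cases hx : ∃ v : G, IsConj v g ∧ (∃ u : G, x = u * v ∧ Commute u v ∧
        Nat.Coprime (orderOf u) n ∧ Nat.Coprime (orderOf v) m)
    · rw [hϑ1 _ hx, hϑ1 _ (key x h hx)]
    · rw [hϑ0 _ hx, hϑ0]
      intro h2
      apply hx
      simpa [mul_assoc] using key _ h⁻¹ h2
  refine ⟨fun χ => classInner ϑ χ, fun χ => ?_, ?_⟩
  · refine H8.classInner_mem_of_elementary AlgInt.toSubring.toAddSubgroup hcl ?_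
      (H6.irr_isCharacter χ.2)
    intro E _ p hp hE ψ hψ
    haveI := H8.isNilpotent_of_isElementary hp hE
    obtain ⟨U, V, hU, hV, hUV, hc⟩ := H75.exists_dec (E := E) hcop
      (hmn ▸ Subgroup.card_subgroup_dvd_card E)
    have hval : ∀ (u : U) (v : V), ϑ ((u : E) * (v : E) : E) =
        if IsConj ((v : E) : G) g then (n : ℂ) else 0 := by
      intro u v
      have ou : orderOf ((u : E) : G) ∣ m := by
        rw [Subgroup.orderOf_coe, Subgroup.orderOf_coe]; exact (orderOf_dvd_natCard u).trans hU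
      have ov : orderOf ((v : E) : G) ∣ n := by
        rw [Subgroup.orderOf_coe, Subgroup.orderOf_coe]; exact (orderOf_dvd_natCard v).trans hV
      have cc : Commute ((u : E) : G) ((v : E) : G) := (hUV u u.2 v v.2).map E.subtype
      split_ifs with h
      · exact hϑ1 _ ⟨_, h, _, rfl, cc, hcop.coprime_dvd_left ou, hcop.symm.coprime_dvd_left ov⟩
      · apply hϑ0
        rintro ⟨v', hv', u', e, h1, h2, h3⟩
        apply h
        have e1 := H75.mul_pow_proj hk1 hk2 cc ou ov
        have e2 := H75.mul_pow_proj hk1 hk2 h1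
          (h2.dvd_of_dvd_mul_right (hmn ▸ orderOf_dvd_natCard u'))
          (h3.dvd_of_dvd_mul_left (hmn ▸ orderOf_dvd_natCard v'))
        rw [← e] at e2
        rw [← e1]
        exact e2 ▸ hv'
    rw [H6.classInner_def, H75.sum_eq_of_isComplement' hc, Finset.mul_sum]
    refine AddSubgroup.sum_mem _ fun v _ => ?_
    simp only [hval]
    split_ifs with h
    · obtain ⟨j, hj⟩ := hV
      have h1 := H85.isIntegral_average_coset hψ U (x := (v : E))
        (fun u hu => (hUV u hu v v.2).symm)
      have h2 : IsIntegral ℤ (conj ((Nat.card U : ℂ)⁻¹ * ∑ u : U, ψ ((v : E) * u))) :=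
        h1.map (starRingEnd ℂ).toIntAlgHom
      have h3 : (Nat.card E : ℂ)⁻¹ * ∑ u : U, (n : ℂ) * conj (ψ ((u : E) * v)) =
          j * conj ((Nat.card U : ℂ)⁻¹ * ∑ u : U, ψ ((v : E) * u)) := by
        rw [← Finset.mul_sum, ← hc.card_mul, hj, map_mul, map_sum, map_inv₀, map_natCast]
        simp only [fun u : U => (hUV u u.2 v v.2).eq]
        have := H6.card_ne_zero (G := U)
        have := H6.card_ne_zero (G := V)
        push_cast
        field_simp
      rw [h3]
      exact (isIntegral_algebraMap (R := ℤ) (x := (j : ℤ))).mul h2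
    · simp
  · rw [H6.finsum_irr]
    exact H6.classFun_eq_sum_irr hcl

end Cfsg.Agent.S0875
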