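import Mathlib
import Cfsg.Statements.S0876
import Cfsg.Agent.Lib.H85.PRegSep

set_option autoImplicit false
open Cfsg

namespace Cfsg.Agent.S0876

/-- Let G be a finite group, p a prime and M a maximal ideal of the ring of algebraic integers containing p. Let x, y be elements with p-parts a and b (so a⁻¹ * x and b⁻¹ * y are their p-regular parts). Then a⁻¹ * x and b⁻¹ * y are conjugate in G if and only if, for every irreducible character χ, the difference χ x - χ y lies in the local ideal at M. -/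
theorem result {G : Type*} [Group G] [Finite G] (p : ℕ) (M : Ideal Cfsg.AlgInt) (hM : Cfsg.IsPModular p M) (x y a b : G) (ha : Cfsg.IsPPart p x a) (hb : Cfsg.IsPPart p y b) : IsConj (a⁻¹ * x) (b⁻¹ * y) ↔ ∀ χ : Cfsg.IrrCharacter G, Cfsg.MemLocalIdeal M ((χ : G → ℂ) x - (χ : G → ℂ) y) := by

  haveI := Fact.mk hM.1
  haveI := hM.2.1
  have hx : a⁻¹ * x = H35.pReg p x := by
    rw [inv_mul_eq_iff_eq_mul, ← H35.pPart_eq_of_isPPart ha, H35.pPart_mul_pReg]
  have hy : b⁻¹ * y = H35.pReg p y := by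
    rw [inv_mul_eq_iff_eq_mul, ← H35.pPart_eq_of_isPPart hb, H35.pPart_mul_pReg]
  have key : ∀ χ : IrrCharacter G, MemLocalIdeal M ((χ : G → ℂ) x - (χ : G → ℂ) y) ↔
      H33.red M ((χ : G → ℂ) (H35.pReg p x)) = H33.red M ((χ : G → ℂ) (H35.pReg p y)) := by
    intro χ
    have h := H6.irr_isCharacter χ.2
    rw [H33.memLocalIdeal_sub_iff (H33.mem_O_of_isIntegral M (H6.char_isIntegral h _))
      (H33.mem_O_of_isIntegral M (H6.char_isIntegral h _)), H85.red_char_pReg hM h x,
      H85.red_char_pReg hM h y]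
  rw [hx, hy]
  simp only [key]
  exact ⟨fun h χ => by rw [H6.classFun_of_isConj (H6.irr_isClassFunction χ.2) h],
    H85.isConj_of_red_eq hM (H35.not_dvd_orderOf_pReg p x) (H35.not_dvd_orderOf_pReg p y)⟩

end Cfsg.Agent.S0876
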