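import Mathlib
import Cfsg.Statements.S0879
import Cfsg.Agent.Lib.CharDeep.Zass

set_option autoImplicit false
open Cfsg

namespace Cfsg.Agent.S0879


/-- Let G be a Zassenhaus group on the finite set Ω and E the stabilizer of two distinct points a, b. Then an element outside the normalizer of E conjugates no non-identity element of E into E, and E has index 2 in its normalizer. -/
theorem result {G Ω : Type*} [Group G] [Finite G] [MulAction G Ω] [Fintype Ω] (hZ : Cfsg.IsZassenhausGroup G Ω) {a b : Ω} (hab : a ≠ b) : (∀ g : G, g ∉ Subgroup.normalizer ((MulAction.stabilizer G a ⊓ MulAction.stabilizer G b : Subgroup G) : Set G) → ∀ x ∈ (MulAction.stabilizer G a ⊓ MulAction.stabilizer G b : Subgroup G), g * x * g⁻¹ ∈ (MulAction.stabilizer G a ⊓ MulAction.stabilizer G b : Subgroup G) → x = 1) ∧ ((MulAction.stabilizer G a ⊓ MulAction.stabilizer G b : Subgroup G).subgroupOf (Subgroup.normalizer ((MulAction.stabilizer G a ⊓ MulAction.stabilizer G b : Subgroup G) : Set G))).index = 2 := by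
  classical
  have hmem : ∀ g : G, g ∈ Subgroup.normalizer ((MulAction.stabilizer G a ⊓ MulAction.stabilizer G b : Subgroup G) : Set G) ↔
      (g • a = a ∧ g • b = b) ∨ (g • a = b ∧ g • b = a) := by
    intro g
    constructor
    · intro hg
      obtain ⟨x, hx1, hxa, hxb⟩ := H32.Zass.exists_ne_one_fix hZ hab
      have h := (Subgroup.mem_normalizer_iff.1 (Subgroup.inv_mem _ hg) x).1 ⟨hxa, hxb⟩
      have h1 : x • g • a = g • a := by
        have : (g⁻¹ * x * g⁻¹⁻¹) • a = a := h.1
        rwa [inv_inv, mul_smul, mul_smul, inv_smul_eq_iff] at this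
      have h2 : x • g • b = g • b := by
        have : (g⁻¹ * x * g⁻¹⁻¹) • b = b := h.2
        rwa [inv_inv, mul_smul, mul_smul, inv_smul_eq_iff] at this
      have hne : g • a ≠ g • b := fun h => hab (smul_left_cancel g h)
      rcases H32.Zass.eq_or_eq_of_fix hZ hx1 hab hxa hxb h1 with h3 | h3 <;>
        rcases H32.Zass.eq_or_eq_of_fix hZ hx1 hab hxa hxb h2 with h4 | h4
      · exact absurd (h3.trans h4.symm) hne
      · exact Or.inl ⟨h3, h4⟩
      · exact Or.inr ⟨h3, h4⟩
      · exact absurd (h3.trans h4.symm) hne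
    · intro hg
      apply Subgroup.mem_normalizer_fintype
      intro x hx
      have hxa : x • a = a := hx.1
      have hxb : x • b = b := hx.2
      rcases hg with ⟨h1, h2⟩ | ⟨h1, h2⟩
      · constructor
        · show (g * x * g⁻¹) • a = a
          rw [mul_smul, mul_smul, inv_smul_eq_iff.2 h1.symm, hxa, h1]
        · show (g * x * g⁻¹) • b = b
          rw [mul_smul, mul_smul, inv_smul_eq_iff.2 h2.symm, hxb, h2]
      · constructor
        · show (g * x * g⁻¹) • a = a
          rw [mul_smul, mul_smul, inv_smul_eq_iff.2 h2.symm, hxb, h2]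
        · show (g * x * g⁻¹) • b = b
          rw [mul_smul, mul_smul, inv_smul_eq_iff.2 h1.symm, hxa, h1]
  constructor
  · intro g hg x hx hgx
    by_contra hx1
    apply hg
    rw [← Subgroup.inv_mem_iff, hmem]
    have hxa : x • a = a := hx.1
    have hxb : x • b = b := hx.2
    have h1 : x • g⁻¹ • a = g⁻¹ • a := by
      have : (g * x * g⁻¹) • a = a := hgx.1
      rwa [mul_smul, mul_smul, smul_eq_iff_eq_inv_smul] at this
    have h2 : x • g⁻¹ • b = g⁻¹ • b := by
      have : (g * x * g⁻¹) • b = b := hgx.2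
      rwa [mul_smul, mul_smul, smul_eq_iff_eq_inv_smul] at this
    have hne : g⁻¹ • a ≠ g⁻¹ • b := fun h => hab (smul_left_cancel g⁻¹ h)
    rcases H32.Zass.eq_or_eq_of_fix hZ hx1 hab hxa hxb h1 with h3 | h3 <;>
      rcases H32.Zass.eq_or_eq_of_fix hZ hx1 hab hxa hxb h2 with h4 | h4
    · exact absurd (h3.trans h4.symm) hne
    · exact Or.inl ⟨h3, h4⟩
    · exact Or.inr ⟨h3, h4⟩
    · exact absurd (h3.trans h4.symm) hne
  · obtain ⟨t, hta, htb⟩ := H32.Zass.trans2 hZ hab hab.symm
    rw [Subgroup.index_eq_two_iff]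
    refine ⟨⟨t, (hmem t).2 (Or.inr ⟨hta, htb⟩)⟩, fun g => ?_⟩
    simp only [Subgroup.mem_subgroupOf, Subgroup.mem_inf, MulAction.mem_stabilizer_iff,
      Subgroup.coe_mul, mul_smul, hta, htb]
    rcases (hmem g).1 g.2 with ⟨h1, h2⟩ | ⟨h1, h2⟩
    · exact Or.inr ⟨⟨h1, h2⟩, fun h => hab (h.1.symm.trans h2)⟩
    · exact Or.inl ⟨⟨h2, h1⟩, fun h => hab (h.1.symm.trans h1)⟩

end Cfsg.Agent.S0879
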