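import Mathlib
import Cfsg.Agent.Lib.AltCov.Exist
import Cfsg.Statements.S0891

set_option autoImplicit false
open Cfsg

namespace Cfsg.Agent.S0891

/-- For every n ≥ 4 there are a finite group Γ and a central element z of Γ of order 2 lying in the commutator subgroup of Γ such that the quotient of Γ by the (normal) subgroup generated by z is isomorphic to the alternating group on n letters. -/
theorem result (n : ℕ) (hn : 4 ≤ n) : ∃ (Γ : Type) (_ : Group Γ) (_ : Finite Γ) (z : Γ) (hz : z ∈ Subgroup.center Γ), orderOf z = 2 ∧ z ∈ commutator Γ ∧ ∃ _ : (Subgroup.zpowers z).Normal, Nonempty (Γ ⧸ Subgroup.zpowers z ≃* alternatingGroup (Fin n)) := by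
  obtain ⟨m, rfl⟩ : ∃ m, n = m + 2 := ⟨n - 2, by omega⟩
  haveI : Nontrivial (Fin m) := Fin.nontrivial_iff_two_le.2 (by omega)
  obtain ⟨Γ, i1, i2, z, h1, h2, h3, i3, ⟨e⟩⟩ := H72.AC.exists_cover (Fin m)
  exact ⟨Γ, i1, i2, z, h1, h2, h3, i3, ⟨e.trans (H72.AC.aaEquiv m)⟩⟩

end Cfsg.Agent.S0891
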