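import Mathlib
import Cfsg.Statements.S0893
import Cfsg.Agent.Lib.Char.InduceChar
import Cfsg.Agent.Lib.Char.More

set_option autoImplicit false
open Cfsg

namespace Cfsg.Agent.S0893

open scoped ComplexConjugate commutatorElement
open Finset

theorem vanish {P : Type*} [Group P] (hc : commutator P ≤ Subgroup.center P) {f : P → ℂ}
    (hf : IsClassFunction P f)
    (h : ∀ z ∈ Subgroup.center P, z ≠ 1 → ∃ ω : ℂ, ω ≠ 1 ∧ ∀ x, f (z * x) = ω * f x) {x : P}
    (hx : x ∉ Subgroup.center P) : f x = 0 := by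
  rw [Subgroup.mem_center_iff] at hx
  push Not at hx
  obtain ⟨g, hg⟩ := hx
  obtain ⟨ω, h1, h2⟩ := h ⁅g, x⁆ (hc (Subgroup.commutator_mem_commutator (Subgroup.mem_top g) (Subgroup.mem_top x)))
    (fun h => hg (commutatorElement_eq_one_iff_mul_comm.mp h))
  have h3 := h2 x
  rw [commutatorElement_def, inv_mul_cancel_right, hf] at h3
  have : (1 - ω) * f x = 0 := by linear_combination h3
  exact (mul_eq_zero.mp this).resolve_left (sub_ne_zero.mpr h1.symm)

theorem mem_zpowers {P : Type*} [Group P] [Finite P] {p : ℕ} [hp : Fact p.Prime]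
    (hZ : Nat.card (Subgroup.center P) = p) {z a : P} (hz : z ∈ Subgroup.center P) (h1 : z ≠ 1)
    (ha : a ∈ Subgroup.center P) : ∃ k : ℕ, z ^ k = a := by
  have := mem_powers_of_prime_card hZ (g := ⟨z, hz⟩) (g' := ⟨a, ha⟩)
    (fun h => h1 (congrArg Subtype.val h))
  obtain ⟨k, hk⟩ := this
  exact ⟨k, congrArg Subtype.val hk⟩

theorem inner_of_vanish {P : Type*} [Group P] [Fintype P] {f : P → ℂ} {d : ℂ}
    (h1 : ∀ z ∈ Subgroup.center P, f z * conj (f z) = d)
    (h0 : ∀ x, x ∉ Subgroup.center P → f x = 0) :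
    (Nat.card P : ℂ) * classInner f f = Nat.card (Subgroup.center P) * d := by
  classical
  rw [H6.card_mul_classInner, Nat.card_eq_fintype_card, Fintype.card_subtype, card_filter]
  push_cast
  rw [sum_mul]
  refine sum_congr rfl fun x _ => ?_
  split_ifs with h
  · rw [h1 x h, one_mul]
  · rw [h0 x h, zero_mul, zero_mul]

/-- Let P be an extraspecial p-group of order p ^ (2 * n + 1), A an abelian subgroup of order p ^ (n + 1), and λ a character of A of degree 1 that is not identically 1 on the elements of A lying in the centre of P. Then the function induced from λ to P is an irreducible character of P and vanishes at every element outside the centre. -/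
theorem result {P : Type*} [Group P] [Fintype P] (p n : ℕ) [Fact p.Prime] (hP : Cfsg.IsExtraspecial p P) (hcard : Nat.card P = p ^ (2 * n + 1)) (A : Subgroup P) (hab : ∀ a ∈ A, ∀ b ∈ A, a * b = b * a) (hA : Nat.card A = p ^ (n + 1)) (lam : A → ℂ) (hlam : Cfsg.IsCharacter A lam ∧ lam 1 = 1) (hZ : ∃ a : A, (a : P) ∈ Subgroup.center P ∧ lam a ≠ 1) : Cfsg.IsIrrCharacter P (Cfsg.indFun A lam) ∧ ∀ x : P, x ∉ Subgroup.center P → Cfsg.indFun A lam x = 0 := by

  obtain ⟨⟨-, -, hcomm⟩, hZc⟩ := hP
  obtain ⟨l, rfl⟩ := H6.exists_hom_of_char_one_eq_one hlam.1 hlam.2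
  obtain ⟨a, ha, hla⟩ := hZ
  have ha1 : (a : P) ≠ 1 := fun h => hla (by rw [show a = 1 from Subtype.ext h]; simp)
  have hZA : ∀ z ∈ Subgroup.center P, z ∈ A := by
    intro z hz
    obtain ⟨k, rfl⟩ := mem_zpowers hZc ha ha1 hz
    exact A.pow_mem a.2 k
  have hmul : ∀ z (hz : z ∈ Subgroup.center P) x, indFun A (fun a => (l a : ℂ)) (z * x) =
      l ⟨z, hZA z hz⟩ * indFun A (fun a => (l a : ℂ)) x := by
    intro z hz x
    rw [H7.indFun_apply, H7.indFun_apply, mul_left_comm, mul_sum _ _ (l _ : ℂ)]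
    refine congrArg (_ * ·) (sum_congr rfl fun y _ => ?_)
    rw [show y⁻¹ * (z * x) * y = z * (y⁻¹ * x * y) by
      rw [← mul_assoc, Subgroup.mem_center_iff.mp hz y⁻¹]; simp only [mul_assoc]]
    by_cases h : y⁻¹ * x * y ∈ A
    · rw [H7.extendByZero_of_mem _ _ h, H7.extendByZero_of_mem _ _ (A.mul_mem (hZA z hz) h),
        ← Units.val_mul, ← map_mul]
      rfl
    · rw [H7.extendByZero_of_not_mem _ _ h, H7.extendByZero_of_not_mem, mul_zero]
      exact fun h2 => h ((A.mul_mem_cancel_left (hZA z hz)).mp h2)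
  have hv : ∀ x : P, x ∉ Subgroup.center P → indFun A (fun a => (l a : ℂ)) x = 0 := by
    intro x hx
    refine vanish hcomm.le (H7.isClassFunction_indFun _ _) (fun z hz h1 => ⟨_, ?_, hmul z hz⟩) hx
    intro h
    obtain ⟨k, hk⟩ := mem_zpowers hZc hz h1 ha
    apply hla
    rw [show a = ⟨z, hZA z hz⟩ ^ k from Subtype.ext hk.symm]
    simp only [map_pow, Units.val_pow_eq_pow_val, h, one_pow]
  refine ⟨H6.isIrr_of_char_of_inner_self (H7.isCharacter_indFun_hom A l) ?_, hv⟩
  have hp : (p : ℂ) ≠ 0 := by exact_mod_cast (Fact.out : p.Prime).ne_zero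
  have hind : A.index = p ^ n := by
    have := A.card_mul_index
    rw [hA, hcard, show 2 * n + 1 = (n + 1) + n by ring, pow_add p (n + 1)] at this
    exact Nat.eq_of_mul_eq_mul_left (pow_pos (Fact.out : p.Prime).pos _) this
  have := inner_of_vanish (d := (p : ℂ) ^ (2 * n)) (fun z hz => by
    have h := hmul z hz 1
    rw [mul_one, H7.indFun_one, hind] at h
    rw [h, map_mul, H6.conj_hom]
    simp only [map_one, Units.val_one, mul_one, map_natCast, MonoidHom.inv_apply,
      Units.val_inv_eq_inv_val]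
    push_cast
    have : (l ⟨z, hZA z hz⟩ : ℂ) ≠ 0 := Units.ne_zero _
    field_simp
    ring) hv
  rw [hcard, hZc] at this
  push_cast at this
  apply mul_left_cancel₀ (pow_ne_zero (2 * n + 1) hp)
  rw [this]; ring

end Cfsg.Agent.S0893
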