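import Mathlib
import Cfsg.Statements.S0894
import Cfsg.Agent.S0893
import Cfsg.Agent.Lib.Deg.FS3

set_option autoImplicit false
open Cfsg

namespace Cfsg.Agent.S0894
open scoped ComplexConjugate
open Finset S0893

/-- Let P be an extraspecial p-group of order p ^ (2 * n + 1). Then every irreducible character of P has degree 1 or p ^ n, and exactly p - 1 of them have degree p ^ n. -/
theorem result {P : Type*} [Group P] [Finite P] (p n : ℕ) [Fact p.Prime] (hP : Cfsg.IsExtraspecial p P) (hcard : Nat.card P = p ^ (2 * n + 1)) : (∀ χ : Cfsg.IrrCharacter P, (χ : P → ℂ) 1 = 1 ∨ (χ : P → ℂ) 1 = (p : ℂ) ^ n) ∧ Nat.card {χ : Cfsg.IrrCharacter P // (χ : P → ℂ) 1 = (p : ℂ) ^ n} = p - 1 := by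

  classical
  haveI := Fintype.ofFinite P
  obtain ⟨⟨-, -, hcomm⟩, hZc⟩ := hP
  have hpp : p.Prime := Fact.out
  have hp : (p : ℂ) ≠ 0 := by exact_mod_cast hpp.ne_zero
  have h1 : ∀ χ : IrrCharacter P, (χ : P → ℂ) 1 = 1 ∨ (χ : P → ℂ) 1 = (p : ℂ) ^ n := by
    rintro ⟨χ, hχ⟩
    have hc := H6.irr_isCharacter hχ
    by_cases h : commutator P ≤ H6.charKer χ
    · left
      obtain ⟨ψ, hψ, e⟩ := H6.exists_irr_quotient hχ (commutator P)
        fun x hx => (H6.mem_charKer hc).mp (h hx)
      have := H6.irr_one_eq_one_of_comm (G := P ⧸ commutator P)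
        (fun a b => mul_comm (G := Abelianization P) a b) hψ
      exact (e 1).symm.trans this
    · right
      rw [hcomm] at h
      obtain ⟨a, ha, hak⟩ := SetLike.not_le_iff_exists.mp h
      have hv : ∀ x : P, x ∉ Subgroup.center P → χ x = 0 := by
        intro x hx
        refine vanish hcomm.le (H6.irr_isClassFunction hχ) (fun z hz h1 => ?_) hx
        obtain ⟨ω, hω⟩ := H87.exists_mul_of_mem_center hχ hz
        refine ⟨ω, ?_, hω⟩
        rintro rfl
        obtain ⟨k, rfl⟩ := mem_zpowers hZc hz h1 ha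
        exact hak (Subgroup.pow_mem _ ((H6.mem_charKer hc).mpr (by simpa using hω 1)) k)
      obtain ⟨d, -, hd⟩ := H6.irr_one_pos hχ
      have := inner_of_vanish (d := (d : ℂ) ^ 2) (fun z hz => by
        rw [Complex.mul_conj, Complex.normSq_eq_norm_sq, H87.norm_eq_of_mem_center hχ hz, hd]
        simp) hv
      rw [H6.irr_inner_self hχ, hcard, hZc, mul_one] at this
      have h2 : p ^ (2 * n + 1) = p * d ^ 2 := by exact_mod_cast this
      have h3 : (p ^ n) ^ 2 = d ^ 2 := by
        apply Nat.eq_of_mul_eq_mul_left hpp.pos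
        rw [← h2]; ring
      change χ 1 = _
      rw [hd, ← Nat.pow_left_injective two_ne_zero h3]
      push_cast; rfl
  refine ⟨h1, ?_⟩
  have hind : (commutator P).index = p ^ (2 * n) := by
    have := (commutator P).card_mul_index
    rw [hcomm, hZc, hcard, pow_succ'] at this
    rw [hcomm]
    exact Nat.eq_of_mul_eq_mul_left hpp.pos this
  have hn : (p : ℂ) ^ n ≠ 1 := by
    intro h
    have h2 : p ^ n = 1 := by exact_mod_cast h
    have h3 : n = 0 := (Nat.pow_eq_one.mp h2).resolve_left hpp.ne_one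
    subst h3
    have h4 : Subgroup.center P = ⊤ := Subgroup.eq_top_of_card_eq _ (by rw [hZc, hcard]; simp)
    have h5 : commutator P = ⊥ := (commutator_eq_bot_iff_center_eq_top P).mpr h4
    rw [← hcomm, h5, Subgroup.card_bot] at hZc
    exact hpp.ne_one hZc.symm
  have h2 := H6.sum_irr_one_sq (G := P)
  rw [← sum_filter_add_sum_filter_not univ fun χ : IrrCharacter P => (χ : P → ℂ) 1 = 1,
    sum_congr rfl (g := fun _ => (1 : ℂ)) fun χ hχ => by rw [(mem_filter.mp hχ).2, one_pow],
    sum_congr (s₂ := univ.filter fun χ : IrrCharacter P => (χ : P → ℂ) 1 = (p : ℂ) ^ n)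
      (g := fun _ => ((p : ℂ) ^ n) ^ 2) (filter_congr fun χ _ =>
        ⟨fun h => (h1 χ).resolve_left h, fun h e => hn (h.symm.trans e)⟩)
      fun χ hχ => by rw [(mem_filter.mp hχ).2],
    sum_const, sum_const, ← Fintype.card_subtype, ← Fintype.card_subtype,
    ← Nat.card_eq_fintype_card, ← Nat.card_eq_fintype_card, H6.card_linear_irr, hind, hcard,
    nsmul_eq_mul, nsmul_eq_mul] at h2
  generalize Nat.card {χ : IrrCharacter P // (χ : P → ℂ) 1 = (p : ℂ) ^ n} = m at h2 ⊢
  have h3 : ((m + 1 : ℕ) : ℂ) = p := by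
    apply mul_left_cancel₀ (pow_ne_zero (2 * n) hp)
    push_cast at h2 ⊢
    linear_combination h2
  have := Nat.cast_injective h3
  omega

end Cfsg.Agent.S0894
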