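import Mathlib
import Cfsg.Statements.S0896
import Cfsg.Agent.Lib.Char.Clifford
import Cfsg.Agent.Lib.Char.Brauer

set_option autoImplicit false
open scoped ComplexConjugate
open Cfsg

namespace Cfsg.Agent.S0896

open Finset

theorem dvd_sum_of_orbits {X : Type*} [Fintype X] [DecidableEq X] (orb : X → Finset X) (f : X → ℕ)
    (p : ℕ) (h1 : ∀ x, x ∈ orb x) (h2 : ∀ x y, y ∈ orb x → orb y = orb x ∧ f y = f x)
    (h3 : ∀ x, p ∣ (orb x).card * f x) : p ∣ ∑ x, f x := by
  rw [← sum_fiberwise_of_maps_to (t := univ.image orb) (g := orb)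
    fun x hx => mem_image_of_mem _ hx]
  refine dvd_sum fun S hS => ?_
  obtain ⟨x, -, rfl⟩ := mem_image.mp hS
  have : (univ.filter fun y => orb y = orb x) = orb x := by
    ext y
    simp only [mem_filter, mem_univ, true_and]
    exact ⟨fun h => h ▸ h1 y, fun h => (h2 x y h).1⟩
  rw [this, sum_congr rfl fun y hy => (h2 x y hy).2, sum_const, smul_eq_mul]
  exact h3 x

/-- core: a normal subgroup of `p`-power index and two invariant characters -/
theorem exists_invariant {E : Type*} [Group E] [Fintype E] {p k : ℕ} (hp : p.Prime)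
    (D : Subgroup E) [hD : D.Normal] [Fintype D] (hk : D.index = p ^ k) {α β : D → ℂ}
    (hα : IsCharacter D α) (hβ : IsCharacter D β) (iα : ∀ g : E, H7.conjChar g α = α)
    (iβ : ∀ g : E, H7.conjChar g β = β) {b : ℕ} (hb : classInner α β = b) (hpb : ¬ p ∣ b) :
    ∃ φ, IsIrrCharacter D φ ∧ (∀ g : E, H7.conjChar g φ = φ) ∧
      ∃ m : ℕ, ¬ p ∣ m ∧ classInner α φ = m := by
  classical
  by_contra hc
  push Not at hc
  choose a ha using fun φ : IrrCharacter D => H6.char_inner_nat hα (H6.irr_isCharacter φ.2)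
  choose c hc' using fun φ : IrrCharacter D => H6.char_inner_nat hβ (H6.irr_isCharacter φ.2)
  have e : b = ∑ φ, a φ * c φ := by
    have := H6.parseval (H6.char_isClassFunction hα) β
    simp only [ha, hc', hb, map_natCast] at this
    exact_mod_cast this
  apply hpb
  rw [e]
  refine dvd_sum_of_orbits (fun φ => univ.filter fun ψ : IrrCharacter D =>
    (ψ : D → ℂ) ∈ H7.conjOrbit (G := E) (φ : D → ℂ)) _ p (fun φ => by
      simpa using H7.self_mem_conjOrbit _) (fun φ ψ h => ?_) fun φ => ?_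
  · have h := (mem_filter.mp h).2
    refine ⟨by simp only [H7.conjOrbit_eq_of_mem h], ?_⟩
    obtain ⟨g, hg⟩ := H7.mem_conjOrbit.mp h
    have e1 : (a ψ : ℂ) = a φ := by rw [← ha, ← ha, hg, ← H7.classInner_conjChar g α φ, iα]
    have e2 : (c ψ : ℂ) = c φ := by rw [← hc', ← hc', hg, ← H7.classInner_conjChar g β φ, iβ]
    rw [Nat.cast_injective e1, Nat.cast_injective e2]
  · have hcard : (univ.filter fun ψ : IrrCharacter D =>
        (ψ : D → ℂ) ∈ H7.conjOrbit (G := E) (φ : D → ℂ)).card =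
        (H7.inertia (G := E) (φ : D → ℂ)).index := by
      rw [← H7.card_conjOrbit]
      refine card_bij (fun ψ _ => (ψ : D → ℂ)) (fun ψ h => (mem_filter.mp h).2)
        (fun _ _ _ _ h => Subtype.ext h) fun ψ h =>
          ⟨⟨ψ, H7.isIrr_of_mem_conjOrbit φ.2 h⟩, by simpa using h, rfl⟩
    rw [hcard]
    have hd := Subgroup.index_dvd_of_le (H7.le_inertia (G := E) (H6.irr_isClassFunction φ.2))
    rw [hk, Nat.dvd_prime_pow hp] at hd
    obtain ⟨j, -, hj⟩ := hd
    rcases j with _ | j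
    · rw [pow_zero, Subgroup.index_eq_one] at hj
      by_contra h
      exact hc φ φ.2 (fun g => H7.mem_inertia.mp (hj ▸ Subgroup.mem_top g)) (a φ)
        (fun h2 => h ((h2.mul_right _).mul_left _)) (ha φ)
    · exact (hj ▸ dvd_pow_self p j.succ_ne_zero).mul_right _

theorem main {G : Type*} [Group G] [Fintype G] (p : ℕ) (hp : p.Prime) (N : Subgroup G)
    [hN : N.Normal] (hind : ∃ k : ℕ, N.index = p ^ k) (ϑ : N → ℂ) (hϑ : IsIrrCharacter N ϑ)
    (hinv : ∀ (g : G) (n : N), ϑ ⟨g * n * g⁻¹, hN.conj_mem (n : G) n.2 g⟩ = ϑ n) :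
    ∃ (E : Subgroup G) (_ : Fintype E) (_ : Fintype (N.subgroupOf E)) (φ : N.subgroupOf E → ℂ),
      IsElementary p E ∧ E ⊔ N = ⊤ ∧ IsIrrCharacter _ φ ∧ (∀ g : E, H7.conjChar g φ = φ) ∧
      ∃ m : ℕ, ¬ p ∣ m ∧
        classInner (fun x : N.subgroupOf E => ϑ ⟨(x : E), Subgroup.mem_subgroupOf.mp x.2⟩) φ = m := by
  classical
  by_contra hc
  push Not at hc
  obtain ⟨k, hk⟩ := hind
  obtain ⟨m, hm, h⟩ := H8.exists_mul_classInner_mem_of_pElementary G hp
  set F : G → ℂ := extendByZero N fun n => ϑ n * conj (ϑ n) with hF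
  have hcl : IsClassFunction G F := by
    intro x g
    by_cases hx : x ∈ N
    · rw [hF, H7.extendByZero_of_mem _ _ hx, H7.extendByZero_of_mem _ _ (hN.conj_mem x hx g),
        hinv g ⟨x, hx⟩]
    · rw [hF, H7.extendByZero_of_not_mem _ _ hx, H7.extendByZero_of_not_mem]
      exact fun h => hx (by simpa [mul_assoc] using hN.conj_mem _ h g⁻¹)
  have hN0 := H6.card_ne_zero (G := N)
  have hi0 : (N.index : ℂ) ≠ 0 := by exact_mod_cast Subgroup.FiniteIndex.index_ne_zero
  have := h ((AddSubgroup.zmultiples (p : ℂ)).comap (AddMonoidHom.mulLeft (N.index : ℂ))) F hcl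
    ?_ _ H6.isCharacter_one
  · rw [AddSubgroup.mem_comap, AddMonoidHom.coe_mulLeft, H6.classInner_one_right, hF,
      H7.sum_extendByZero, ← H6.card_mul_classInner, H6.irr_inner_self hϑ,
      H7.card_eq_index_mul N] at this
    obtain ⟨z, hz⟩ := AddSubgroup.mem_zmultiples_iff.mp this
    apply hm
    refine ⟨z, ?_⟩
    have : (m : ℂ) = p * z := by
      rw [zsmul_eq_mul] at hz
      rw [mul_comm, hz]
      field_simp
    exact_mod_cast this
  · intro E _ hE ψ hψ
    set θ : N.subgroupOf E → ℂ := fun x => ϑ ⟨(x : E), Subgroup.mem_subgroupOf.mp x.2⟩ with hθ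
    have hθc : IsCharacter _ θ := H7.isCharacter_subgroupOf E (H6.irr_isCharacter hϑ)
    have hβ : IsCharacter (N.subgroupOf E) (θ * fun x : N.subgroupOf E => ψ x) :=
      H6.isCharacter_mul hθc (H6.isCharacter_restrict _ hψ)
    obtain ⟨b, hb⟩ := H6.char_inner_nat hθc hβ
    have hD0 := H6.card_ne_zero (G := N.subgroupOf E)
    have e1 : classInner (fun e : E => F e) ψ * (N.subgroupOf E).index = b := by
      have : (fun e : E => F e) = extendByZero (N.subgroupOf E) fun x => θ x * conj (θ x) := by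
        funext e
        by_cases he : (e : G) ∈ N
        · rw [hF, H7.extendByZero_of_mem _ _ he,
            H7.extendByZero_of_mem _ _ (Subgroup.mem_subgroupOf.mpr he)]
        · rw [hF, H7.extendByZero_of_not_mem _ _ he, H7.extendByZero_of_not_mem]
          exact fun h => he (Subgroup.mem_subgroupOf.mp h)
      have hj : ((N.subgroupOf E).index : ℂ) ≠ 0 := by
        exact_mod_cast Subgroup.FiniteIndex.index_ne_zero
      rw [this, ← hb, H6.classInner_def, H6.classInner_def, H7.sum_extendByZero_mul,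
        H7.card_eq_index_mul (N.subgroupOf E)]
      simp only [Pi.mul_apply, map_mul, mul_assoc]
      field_simp
    have e2 : (N.subgroupOf E).index * (E ⊔ N).index = N.index := by
      rw [← Subgroup.relIndex_mul_index (H := N) (K := E ⊔ N) le_sup_right,
        Subgroup.relIndex_sup_right]
      rfl
    rw [AddSubgroup.mem_comap, AddMonoidHom.coe_mulLeft, ← e2, Nat.cast_mul, mul_right_comm,
      mul_comm _ (classInner _ _), e1, ← Nat.cast_mul]
    suffices p ∣ b * (E ⊔ N).index by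
      obtain ⟨z, hz⟩ := this
      exact AddSubgroup.mem_zmultiples_iff.mpr ⟨z, by rw [hz, zsmul_eq_mul]; push_cast; ring⟩
    have hd : (E ⊔ N).index ∣ p ^ k := hk ▸ Dvd.intro_left _ e2
    obtain ⟨j, -, hj⟩ := (Nat.dvd_prime_pow hp).mp hd
    rcases j with _ | j
    · rw [pow_zero] at hj
      rw [hj, mul_one] at e2 ⊢
      by_contra hpb
      have iθ : ∀ g : E, H7.conjChar g θ = θ := fun g => funext fun x => hinv g ⟨_, _⟩
      obtain ⟨φ, h1, h2, m, h3, h4⟩ := exists_invariant hp (N.subgroupOf E) (e2.trans hk) hθc hβ iθ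
        (fun g => by rw [H7.conjChar_mul_fun, iθ, H7.conjChar_res g (H6.char_isClassFunction hψ)])
        hb hpb
      exact hc E inferInstance _ φ hE (Subgroup.index_eq_one.mp hj) h1 h2 m h3 h4
    · exact (hj ▸ dvd_pow_self p j.succ_ne_zero).mul_left _

/-- Let N be a normal subgroup of the finite group G with the index of N a power of the prime p, and ϑ an irreducible character of N invariant under conjugation by G. Then there are a p-elementary subgroup E of G with E ⊔ N = ⊤ and an irreducible character φ of the subgroup E ⊓ N, invariant under conjugation by E, such that the inner product of the restriction of ϑ to E ⊓ N with φ is an integer not divisible by p. -/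
theorem result {G : Type*} [Group G] [Fintype G] (p : ℕ) (hp : p.Prime) (N : Subgroup G) [hN : N.Normal] (hind : ∃ k : ℕ, N.index = p ^ k) (ϑ : N → ℂ) (hϑ : Cfsg.IsIrrCharacter N ϑ) (hinv : ∀ (g : G) (n : N), ϑ ⟨g * n * g⁻¹, hN.conj_mem (n : G) n.2 g⟩ = ϑ n) : ∃ (E : Subgroup G) (φ : ↥(E ⊓ N) → ℂ), Cfsg.IsElementary p E ∧ E ⊔ N = ⊤ ∧ Cfsg.IsIrrCharacter ↥(E ⊓ N) φ ∧ (∀ (g : G) (hg : g ∈ E) (x : ↥(E ⊓ N)), φ ⟨g * x * g⁻¹, ⟨(E.mul_mem (E.mul_mem hg x.2.1) (E.inv_mem hg)), hN.conj_mem (x : G) x.2.2 g⟩⟩ = φ x) ∧ ∃ m : ℕ, ¬ p ∣ m ∧ (Nat.card ↥(E ⊓ N) : ℂ)⁻¹ * ∑ᶠ x : ↥(E ⊓ N), ϑ ⟨(x : G), x.2.2⟩ * conj (φ x) = (m : ℂ) := by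

  classical
  obtain ⟨E, _, _, φ, h1, h2, h3, h4, m, h5, h6⟩ := main p hp N hind ϑ hϑ hinv
  let e : ↥(E ⊓ N) ≃* N.subgroupOf E :=
    { toFun := fun x => ⟨⟨x, x.2.1⟩, x.2.2⟩
      invFun := fun x => ⟨(x : E), (x : E).2, x.2⟩
      left_inv := fun _ => rfl
      right_inv := fun _ => rfl
      map_mul' := fun _ _ => rfl }
  refine ⟨E, fun x => φ (e x), h1, h2, H6.isIrrCharacter_comp_equiv e h3,
    fun g hg x => congrFun (h4 ⟨g, hg⟩) (e x), m, h5, ?_⟩
  rw [← h6, ← H6.classInner_comp_equiv e.toEquiv, finsum_eq_sum_of_fintype]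
  rfl

end Cfsg.Agent.S0896
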