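import Mathlib
import Cfsg.Statements.S0897
import Cfsg.Agent.S0896
import Cfsg.Agent.Lib.Char.ExtMain
import Cfsg.Agent.Lib.Deg.Cliff

set_option autoImplicit false
open Cfsg

namespace Cfsg.Agent.S0897
open scoped ComplexConjugate commutatorElement Pointwise
open Finset

/-- Let N be a normal subgroup of the finite group G with the index of N a power of the prime p, and P a Sylow p-subgroup of G such that P ⊓ N lies in the centre of P and every character of degree 1 of P ⊓ N is the restriction of a character of degree 1 of P. Then every irreducible character of N invariant under conjugation by G is the restriction of an irreducible character of G. -/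
theorem result {G : Type*} [Group G] [Fintype G] (p : ℕ) [Fact p.Prime] (N : Subgroup G) [hN : N.Normal] (hind : ∃ k : ℕ, N.index = p ^ k) (P : Sylow p G) (hcent : ∀ x ∈ (P : Subgroup G) ⊓ N, ∀ y ∈ (P : Subgroup G), x * y = y * x) (hlin : ∀ lam : ↥((P : Subgroup G) ⊓ N) → ℂ, Cfsg.IsCharacter ↥((P : Subgroup G) ⊓ N) lam → lam 1 = 1 → ∃ μ : ↥(P : Subgroup G) → ℂ, Cfsg.IsCharacter ↥(P : Subgroup G) μ ∧ μ 1 = 1 ∧ ∀ x : ↥((P : Subgroup G) ⊓ N), μ ⟨(x : G), x.2.1⟩ = lam x) (ϑ : N → ℂ) (hϑ : Cfsg.IsIrrCharacter N ϑ) (hinv : ∀ (g : G) (n : N), ϑ ⟨g * n * g⁻¹, hN.conj_mem (n : G) n.2 g⟩ = ϑ n) : ∃ χ : G → ℂ, Cfsg.IsIrrCharacter G χ ∧ ∀ n : N, χ n = ϑ n := by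

  classical
  have hp : p.Prime := Fact.out
  have hPN : ∀ x ∈ ⁅(P : Subgroup G), (P : Subgroup G)⁆, x ∈ N → x = 1 := by
    intro x hx hxN
    rw [← Subgroup.map_subtype_commutator] at hx
    obtain ⟨y, hy, rfl⟩ := hx
    by_contra h1
    obtain ⟨l, -, hl⟩ := H87.exists_hom_trivial_ne_one (G := ↥((P : Subgroup G) ⊓ N)) ⊥
      (by
        rw [commutator_def, Subgroup.commutator_le]
        intro a _ b _
        exact commutatorElement_eq_one_iff_mul_comm.mpr (Subtype.ext (hcent a a.2 b b.2.1)))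
      (g := ⟨y, y.2, hxN⟩) fun h => h1 (congrArg Subtype.val h)
    obtain ⟨μ, h2, h3, h4⟩ := hlin _ (H6.isCharacter_hom l) (by simp)
    have := h4 ⟨y, y.2, hxN⟩
    rw [show μ ⟨_, _⟩ = μ y from rfl, H6.char_commutator_of_one_eq_one h2 h3 hy] at this
    exact hl (Units.ext this.symm)
  obtain ⟨E, _, _, φ, ⟨z, hz, -, j, hj⟩, h2, h3, -, m, h5, h6⟩ :=
    S0896.main p hp N hind ϑ hϑ hinv
  have hEN : ∀ x ∈ commutator E, (x : G) ∈ N → x = 1 := by
    intro x hx hxN
    obtain ⟨Q⟩ := (inferInstance : Nonempty (Sylow p E))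
    have hsup : Subgroup.center E ⊔ (Q : Subgroup E) = ⊤ := by
      rw [← Subgroup.index_eq_one]
      have d1 := Subgroup.index_dvd_of_le (le_sup_left.trans' ((Subgroup.zpowers_le).mpr hz) :
        Subgroup.zpowers z ≤ Subgroup.center E ⊔ (Q : Subgroup E))
      have d2 := Subgroup.index_dvd_of_le
        (le_sup_right : (Q : Subgroup E) ≤ Subgroup.center E ⊔ (Q : Subgroup E))
      rw [hj, Nat.dvd_prime_pow hp] at d1
      obtain ⟨i, -, hi⟩ := d1
      rcases i with _ | i
      · simpa using hi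
      · exact absurd ((hi ▸ dvd_pow_self p i.succ_ne_zero).trans d2) Q.not_dvd_index
    have hdec : ∀ a : E, ∃ c ∈ Subgroup.center E, ∃ q ∈ (Q : Subgroup E), c * q = a := by
      intro a
      have : a ∈ ((Subgroup.center E ⊔ (Q : Subgroup E) : Subgroup E) : Set E) := by
        rw [hsup]; trivial
      rwa [Subgroup.normal_mul] at this
    have hle : commutator E ≤ ⁅(Q : Subgroup E), (Q : Subgroup E)⁆ := by
      rw [commutator_def, Subgroup.commutator_le]
      intro a _ b _
      obtain ⟨c, hc, q, hq, rfl⟩ := hdec a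
      obtain ⟨c', hc', q', hq', rfl⟩ := hdec b
      rw [Subgroup.mem_center_iff] at hc hc'
      have : ⁅c * q, c' * q'⁆ = ⁅q, q'⁆ := by
        rw [commutatorElement_def, commutatorElement_def, mul_inv_rev, mul_inv_rev,
          show c * q * (c' * q') * (q⁻¹ * c⁻¹) * (q'⁻¹ * c'⁻¹) =
            c * (q * (c' * q') * q⁻¹) * c⁻¹ * (q'⁻¹ * c'⁻¹) by group, ← hc, mul_inv_cancel_right,
          ← hc', show q * (q' * c') * q⁻¹ * (q'⁻¹ * c'⁻¹) =
            q * q' * (c' * (q⁻¹ * q'⁻¹)) * c'⁻¹ by group, ← hc']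
        group
      rw [this]
      exact Subgroup.commutator_mem_commutator hq hq'
    obtain ⟨R, hR⟩ := (Q.2.map E.subtype).exists_le_sylow
    obtain ⟨g, rfl⟩ := MulAction.exists_smul_eq G P R
    set f : E →* G := (MulAut.conj g⁻¹).toMonoidHom.comp E.subtype with hf
    have hQ : (Q : Subgroup E).map f ≤ P := by
      rintro _ ⟨q, hq, rfl⟩
      have := hR ⟨q, hq, rfl⟩
      rwa [Sylow.coe_subgroup_smul, Subgroup.mem_pointwise_smul_iff_inv_smul_mem, ← map_inv] at this
    have := hPN (f x) (Subgroup.commutator_mono hQ hQ (by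
      rw [← Subgroup.map_commutator]; exact ⟨x, hle hx, rfl⟩)) (hN.conj_mem _ hxN g⁻¹)
    exact Subtype.ext ((map_eq_one_iff _ (MulAut.conj g⁻¹).injective).mp this)
  obtain ⟨l, rfl⟩ := H6.irr_eq_hom_of_comm (fun a b : N.subgroupOf E => Subtype.ext
    (commutatorElement_eq_one_iff_mul_comm.mp (hEN ⁅(a : E), (b : E)⁆
      (Subgroup.commutator_mem_commutator (Subgroup.mem_top _) (Subgroup.mem_top _))
      (⁅a, b⁆ : N.subgroupOf E).2))) h3
  obtain ⟨L, hL⟩ := H31.exists_hom_ext_of_commutator _ l fun n hn => by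
    rw [show n = 1 from Subtype.ext (hEN n hn n.2), map_one]
  have e1 : classInner (fun n : N => indFun E (fun e => (L e : ℂ)) n) ϑ = m := by
    have := funext (H7.indFun_res_of_mul_eq E N
      (H7.exists_mul_of_sup_eq_top_left (by rw [sup_comm, h2])) (H7.isClassFunction_hom L))
    rw [this, H7.classInner_indFun_left _ _ (H6.irr_isClassFunction hϑ), ← H6.conj_classInner,
      ← map_natCast (starRingEnd ℂ), ← h6]
    let e : N.subgroupOf E ≃ E.subgroupOf N :=
      { toFun := fun x => ⟨⟨(x : E), x.2⟩, (x : E).2⟩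
        invFun := fun x => ⟨⟨(x : N), x.2⟩, (x : N).2⟩
        left_inv := fun _ => rfl
        right_inv := fun _ => rfl }
    rw [← H6.classInner_comp_equiv e]
    simp only [← hL]
    rfl
  obtain ⟨a, ha⟩ := H6.char_eq_sum_irr (H7.isCharacter_indFun_hom E L)
  choose c hc using fun χ : IrrCharacter G => H6.char_inner_nat
    (H6.isCharacter_restrict N (H6.irr_isCharacter χ.2)) (H6.irr_isCharacter hϑ)
  have e2 : m = ∑ χ, a χ * c χ := by
    have : (fun n : N => indFun E (fun e => (L e : ℂ)) n) =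
        ∑ χ : IrrCharacter G, (a χ : ℂ) • fun n : N => (χ : G → ℂ) n := by
      funext n; rw [ha]; simp
    rw [this, H6.classInner_sum_left] at e1
    simp only [H6.classInner_smul_left, hc] at e1
    exact_mod_cast e1.symm
  by_contra hne
  apply h5
  rw [e2]
  refine dvd_sum fun χ _ => Dvd.dvd.mul_left ?_ _
  by_cases h0 : c χ = 0
  · rw [h0]; exact dvd_zero _
  · have h7 := H7.clifford_of_invariant χ.2 hϑ (H7.inertia_eq_top_iff.mpr hinv)
      (by rw [hc]; exact_mod_cast h0)
    rw [hc] at h7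
    have h8 := H31.ramification_dvd_index N hϑ χ.2 (e := c χ) (congrFun h7)
    obtain ⟨k, hk⟩ := hind
    rw [hk, Nat.dvd_prime_pow hp] at h8
    obtain ⟨i, -, hi⟩ := h8
    rcases i with _ | i
    · exact absurd ⟨χ, χ.2, fun n => by simpa [hi] using congrFun h7 n⟩ hne
    · exact hi ▸ dvd_pow_self p i.succ_ne_zero

end Cfsg.Agent.S0897
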