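import Mathlib
import Cfsg.Statements.S0898
import Cfsg.Agent.Lib.Deg.FS3
import Cfsg.Agent.Lib.Deg.Basic
import Cfsg.Agent.Lib.Char.More

set_option autoImplicit false
open Cfsg

namespace Cfsg.Agent.S0898

open scoped ComplexConjugate
open Finset

variable {G : Type*} [Group G] [Fintype G]

theorem mem_conj_iff {H : Subgroup G} {a x : G} :
    x ∈ H.map (MulAut.conj a).toMonoidHom ↔ a⁻¹ * x * a ∈ H := by
  constructor
  · rintro ⟨y, hy, rfl⟩
    simpa [mul_assoc] using hy
  · intro h
    exact ⟨_, h, by simp [mul_assoc]⟩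

theorem sum_le_sum_of_injOn {ι κ : Type*} [DecidableEq κ] {s : Finset ι} {t : Finset κ}
    {f : ι → ℝ} {g : κ → ℝ} (e : ι → κ) (he : Set.InjOn e s) (ht : s.image e ⊆ t)
    (h : ∀ i ∈ s, f i ≤ g (e i)) (hg : ∀ a ∈ t, a ∉ s.image e → 0 ≤ g a) :
    ∑ i ∈ s, f i ≤ ∑ a ∈ t, g a :=
  (sum_le_sum h).trans ((sum_image he).symm.le.trans (sum_le_sum_of_subset_of_nonneg ht hg))

theorem part1 (H : Subgroup G) [Fintype H] (hab : ∀ a ∈ H, ∀ b ∈ H, a * b = b * a)
    (hZ : H ⊓ Subgroup.center G = ⊥)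
    (hone : ∀ g : G, g ∉ Subgroup.center G → ∀ a b : G,
      Subgroup.centralizer ({g} : Set G) ⊓ H.map (MulAut.conj a).toMonoidHom ≠ ⊥ →
      Subgroup.centralizer ({g} : Set G) ⊓ H.map (MulAut.conj b).toMonoidHom ≠ ⊥ →
      H.map (MulAut.conj a).toMonoidHom = H.map (MulAut.conj b).toMonoidHom)
    (χ : G → ℂ) (hχ : IsIrrCharacter G χ) (hker : ∃ h ∈ H, χ h ≠ χ 1) :
    (χ 1).re ^ 2 > (Nat.card H : ℝ) * (classInner (fun h : H => χ h) (fun _ => 1)).re ^ 2 := by
  classical
  have hc := H6.irr_isCharacter hχ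
  have hcl := H6.irr_isClassFunction hχ
  set N := Subgroup.normalizer (H : Set G) with hN
  set S : G → Prop := fun x => x ∉ Subgroup.center G ∧ ∃ h ∈ H, h ≠ 1 ∧ h * x = x * h with hS
  have hTI : ∀ x a : G, S x → S (a⁻¹ * x * a) → a ∈ N := by
    rintro x a ⟨h1, h, hh, h2, h3⟩ ⟨-, k, hk, k2, k3⟩
    have := hone x h1 1 a (fun e => h2 (by
        refine (Subgroup.eq_bot_iff_forall _).mp e h ⟨?_, mem_conj_iff.mpr (by simpa using hh)⟩
        exact Subgroup.mem_centralizer_singleton_iff.mpr h3))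
      (fun e => k2 (by
        have := (Subgroup.eq_bot_iff_forall _).mp e (a * k * a⁻¹)
          ⟨Subgroup.mem_centralizer_singleton_iff.mpr (by
            calc a * k * a⁻¹ * x = a * (k * (a⁻¹ * x * a)) * a⁻¹ := by group
              _ = _ := by rw [k3]; group), mem_conj_iff.mpr (by simpa [mul_assoc] using hk)⟩
        simpa using this))
    rw [hN, Subgroup.mem_normalizer_iff]
    intro y
    have e := SetLike.ext_iff.mp this (a * y * a⁻¹)
    rw [mem_conj_iff, mem_conj_iff] at e
    simpa [mul_assoc] using e.symm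
  have hSN : ∀ x, S x → x ∈ N := fun x hx => hTI x x hx (by simpa using hx)
  have hZN : ∀ z ∈ Subgroup.center G, z ∈ N := fun z hz => Subgroup.center_le_normalizer _ hz
  -- the TI estimate
  obtain ⟨d, hd0, hd⟩ := H6.irr_one_pos hχ
  have hG : ∑ g, ‖χ g‖ ^ 2 = (Nat.card G : ℝ) := by
    have := H6.classInner_self_re χ
    rw [H6.irr_inner_self hχ, Complex.one_re] at this
    have h0 : (Nat.card G : ℝ) ≠ 0 := by exact_mod_cast Nat.card_pos.ne'
    field_simp at this
    exact this.symm
  have hA : ∑ x ∈ univ.filter S, ‖χ x‖ ^ 2 < (Nat.card N : ℝ) := by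
    have h0 : (0 : ℝ) < Nat.card G := by exact_mod_cast Nat.card_pos
    have h1 : (Nat.card G : ℝ) * ∑ x ∈ univ.filter S, ‖χ x‖ ^ 2 =
        ∑ g, ((univ.filter fun a : G => S (a⁻¹ * g * a)).card : ℝ) * ‖χ g‖ ^ 2 := by
      simp only [card_filter]
      push_cast
      simp only [sum_mul]
      rw [sum_comm, Nat.card_eq_fintype_card, ← nsmul_eq_mul, ← card_univ, ← sum_const]
      refine sum_congr rfl fun a _ => ?_
      rw [sum_filter, ← Equiv.sum_comp (MulAut.conj a⁻¹).toEquiv]
      refine sum_congr rfl fun g _ => ?_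
      simp only [MulEquiv.toEquiv_eq_coe, EquivLike.coe_coe, MulAut.conj_apply, inv_inv,
        H6.classFun_conj' hcl, ite_mul, one_mul, zero_mul]
      exact if_congr Iff.rfl rfl rfl
    have h2 : ∀ g, (univ.filter fun a : G => S (a⁻¹ * g * a)).card ≤ Nat.card N := by
      intro g
      rcases (univ.filter fun a : G => S (a⁻¹ * g * a)).eq_empty_or_nonempty with h | ⟨a, ha⟩
      · rw [h]; exact Nat.zero_le _
      · rw [Nat.card_eq_fintype_card, Fintype.card_subtype]
        refine card_le_card_of_injOn (fun b => a⁻¹ * b) (fun b hb => ?_)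
          fun b _ c _ h => mul_left_cancel h
        simp only [coe_filter, mem_univ, true_and, Set.mem_setOf_eq, mem_filter] at ha hb ⊢
        exact hTI _ _ ha (by simpa [mul_assoc] using hb)
    apply lt_of_mul_lt_mul_left _ h0.le
    rw [h1, mul_comm, ← hG, mul_sum]
    refine sum_lt_sum (fun g _ => mul_le_mul_of_nonneg_right (by exact_mod_cast h2 g)
      (by positivity)) ⟨1, mem_univ _, ?_⟩
    rw [filter_eq_empty_iff.mpr fun a _ h => h.1 (by simp), hd]
    have : (0 : ℝ) < Nat.card N := by exact_mod_cast Nat.card_pos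
    simp only [card_empty, Nat.cast_zero, zero_mul, Complex.norm_natCast]
    positivity
  -- decomposition on the normaliser
  set H' := H.subgroupOf N with hH'
  haveI : H'.Normal := Subgroup.normal_in_normalizer
  obtain ⟨m, hm⟩ := H6.char_eq_sum_irr (H6.isCharacter_restrict N hc)
  set α : N → ℂ := ∑ ψ : IrrCharacter N,
    (((if H' ≤ H6.charKer (ψ : N → ℂ) then m ψ else 0 : ℕ) : ℤ) : ℂ) • (ψ : N → ℂ) with hα
  set β : N → ℂ := ∑ ψ : IrrCharacter N,
    (((if H' ≤ H6.charKer (ψ : N → ℂ) then 0 else m ψ : ℕ) : ℤ) : ℂ) • (ψ : N → ℂ) with hβ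
  have hαβ : ∀ x : N, χ x = α x + β x := by
    intro x
    rw [congrFun hm x, hα, hβ, ← Pi.add_apply, ← sum_add_distrib]
    refine congrFun (sum_congr rfl fun ψ _ => ?_) x
    split_ifs <;> simp
  have ha : ∀ (x : N) (h : H'), α (h * x) = α x := by
    intro x h
    simp only [hα, Finset.sum_apply, Pi.smul_apply, smul_eq_mul]
    refine sum_congr rfl fun ψ _ => ?_
    split_ifs with h1
    · rw [H6.char_mul_of_eq_one (H6.irr_isCharacter ψ.2)
        ((H6.mem_charKer (H6.irr_isCharacter ψ.2)).mp (h1 h.2))]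
    · simp
  have hb : ∀ x : N, ∑ h : H', β (h * x) = 0 := by
    intro x
    simp only [hβ, Finset.sum_apply, Pi.smul_apply, smul_eq_mul]
    rw [sum_comm]
    refine sum_eq_zero fun ψ _ => ?_
    split_ifs with h1
    · simp
    · rw [← mul_sum, H87.sum_normal_mul_eq_zero ψ.2 H' h1, mul_zero]
  have hcH : Nat.card H' = Nat.card H :=
    Nat.card_congr (Subgroup.subgroupOfEquivOfLe Subgroup.le_normalizer).toEquiv
  have hH0 : (Nat.card H : ℂ) ≠ 0 := H6.card_ne_zero
  have havg : ∀ x : N, (Nat.card H : ℂ) * α x = ∑ h : H', χ ((h : N) * x : N) := by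
    intro x
    simp only [hαβ, sum_add_distrib, hb, ha, add_zero, sum_const, card_univ, nsmul_eq_mul,
      ← Nat.card_eq_fintype_card, hcH]
  have hc1 : classInner (fun h : H => χ h) (fun _ => 1) = α 1 := by
    rw [H6.classInner_one_right, ← Equiv.sum_comp
      (Subgroup.subgroupOfEquivOfLe (H := H) Subgroup.le_normalizer).toEquiv,
      inv_mul_eq_iff_eq_mul₀ hH0, havg]
    simp only [mul_one]
    rfl
  have hinner : classInner α β = 0 := by
    rw [hα, hβ, H6.inner_sum_irr_int, sum_eq_zero, Int.cast_zero]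
    intro ψ _
    split_ifs <;> simp
  have hβ1 : 1 ≤ (classInner β β).re := by
    have h1 : β ≠ 0 := by
      intro h0
      obtain ⟨h, hh, hne⟩ := hker
      apply hne
      have e1 := hαβ ⟨h, Subgroup.le_normalizer hh⟩
      have e2 := hαβ 1
      have e3 := ha 1 ⟨⟨h, Subgroup.le_normalizer hh⟩, hh⟩
      rw [mul_one] at e3
      rw [h0] at e1 e2
      exact e1.trans ((congrArg (· + 0) e3).trans e2.symm)
    obtain ⟨z, hz⟩ := H6.gen_inner_int (H6.isGen_sum_irr _ : IsGeneralizedCharacter N β)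
      (H6.isGen_sum_irr _ : IsGeneralizedCharacter N β)
    have h2 := H6.classInner_self_re_nonneg β
    have h3 : z ≠ 0 := by
      rintro rfl
      exact h1 (H6.classInner_self_eq_zero.mp (hz.trans Int.cast_zero))
    rw [hz] at h2 ⊢
    simp only [Complex.intCast_re] at h2 ⊢
    have : (0 : ℤ) ≤ z := by exact_mod_cast h2
    exact_mod_cast (show 1 ≤ z by omega)
  set T : N → Prop := fun x => S x ∨ (x : G) ∈ Subgroup.center G with hT
  have hβT : ∀ x : N, ¬ T x → β x = 0 := by
    intro x hx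
    simp only [hT, hS, not_or, not_and, not_exists] at hx
    have hinj : Function.Injective fun h : H' =>
        (⟨h * x * (h : N)⁻¹ * x⁻¹, by
          rw [mul_assoc, mul_assoc, ← mul_assoc x]
          exact H'.mul_mem h.2 (Subgroup.Normal.conj_mem inferInstance _ (H'.inv_mem h.2) x)⟩ : H') := by
      intro h k e
      have e1 : (h : N) * x * (h : N)⁻¹ = k * x * (k : N)⁻¹ :=
        mul_right_cancel (congrArg Subtype.val e)
      by_contra hne
      refine hx.1 hx.2 ((k⁻¹ * h : H') : N) (k⁻¹ * h).2 (fun e2 => hne ?_) ?_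
      · exact (inv_mul_eq_one.mp (Subtype.ext (Subtype.ext e2))).symm
      · have e3 : ((k : N)⁻¹ * h) * x = x * ((k : N)⁻¹ * h) := by
          calc ((k : N)⁻¹ * h) * x = (k : N)⁻¹ * (h * x * (h : N)⁻¹) * h := by group
            _ = _ := by rw [e1]; group
        exact congrArg Subtype.val e3
    have h1 := hb x
    rw [← (Finite.injective_iff_bijective.mp hinj).sum_comp] at h1
    have hβc : IsClassFunction N β := H6.isClassFunction_sum_irr _
    simp only [inv_mul_cancel_right, hβc _ _, sum_const, card_univ, nsmul_eq_mul,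
      ← Nat.card_eq_fintype_card, hcH] at h1
    exact (mul_eq_zero.mp h1).resolve_left hH0
  have hαZ : ∀ z (hz : z ∈ Subgroup.center G), ‖α ⟨z, hZN z hz⟩‖ = ‖α 1‖ := by
    intro z hz
    obtain ⟨ω, hω⟩ := H87.exists_mul_of_mem_center hχ hz
    have h1 : ‖ω‖ = 1 := by
      have := H87.norm_eq_of_mem_center hχ hz
      have h2 := hω 1
      rw [mul_one] at h2
      rw [h2, norm_mul] at this
      exact mul_right_cancel₀ (norm_ne_zero_iff.mpr (H6.irr_one_ne_zero hχ))
        (this.trans (one_mul _).symm)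
    have h2 : α ⟨z, hZN z hz⟩ = ω * α 1 := by
      apply mul_left_cancel₀ hH0
      rw [mul_left_comm, havg, havg, mul_sum]
      refine sum_congr rfl fun h _ => ?_
      rw [← hω, mul_one]
      exact congrArg χ (Subgroup.mem_center_iff.mp hz _)
    rw [h2, norm_mul, h1, one_mul]
  have hN0 : (0 : ℝ) < Nat.card N := by exact_mod_cast Nat.card_pos
  have s1 : ∑ x ∈ univ.filter T, ‖χ x‖ ^ 2 = ∑ x ∈ univ.filter T, ‖α x‖ ^ 2 +
      Nat.card N * (classInner β β).re := by
    have e1 : ∑ x ∈ univ.filter T, ‖β x‖ ^ 2 = Nat.card N * (classInner β β).re := by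
      rw [H6.classInner_self_re, mul_inv_cancel_left₀ hN0.ne', sum_filter]
      refine sum_congr rfl fun x _ => ?_
      split_ifs with h
      · rfl
      · simp [hβT x h]
    have e2 : ∑ x ∈ univ.filter T, (α x * conj (β x)).re = 0 := by
      have := H6.card_mul_classInner α β
      rw [hinner, mul_zero] at this
      have h3 : ∑ x ∈ univ.filter T, α x * conj (β x) = 0 := by
        rw [sum_filter]
        refine Eq.trans (sum_congr rfl fun x _ => ?_) this.symm
        split_ifs with h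
        · rfl
        · simp [hβT x h]
      rw [← Complex.re_sum, h3, Complex.zero_re]
    simp only [hαβ, ← Complex.normSq_eq_norm_sq, Complex.normSq_add, sum_add_distrib, ← mul_sum,
      e2] at e1 ⊢
    rw [e1]; ring
  have s2 : (Nat.card (Subgroup.center G) : ℝ) * (Nat.card H * ‖α 1‖ ^ 2) ≤
      ∑ x ∈ univ.filter T, ‖α x‖ ^ 2 := by
    have := sum_le_sum_of_injOn (s := (univ : Finset (Subgroup.center G × H')))
      (t := univ.filter T) (f := fun _ => ‖α 1‖ ^ 2) (g := fun x => ‖α x‖ ^ 2)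
      (fun q => (q.2 : N) * ⟨q.1, hZN _ q.1.2⟩) ?_ ?_ ?_ ?_
    · simpa [← Nat.card_eq_fintype_card, hcH, mul_assoc] using this
    · rintro ⟨z, h⟩ - ⟨z', h'⟩ - e
      have e1 : ((h : N) : G) * z = ((h' : N) : G) * z' := congrArg Subtype.val e
      have e2 : ((h' : N) : G)⁻¹ * (h : N) = z' * (z : G)⁻¹ := by
        rw [inv_mul_eq_iff_eq_mul, ← mul_assoc, ← e1, mul_inv_cancel_right]
      have e3 : ((h' : N) : G)⁻¹ * (h : N) = 1 := (Subgroup.eq_bot_iff_forall _).mp hZ _
        ⟨H.mul_mem (H.inv_mem h'.2) h.2, e2 ▸ Subgroup.mul_mem _ z'.2 (Subgroup.inv_mem _ z.2)⟩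
      rw [e3] at e2
      exact Prod.ext (Subtype.ext (mul_inv_eq_one.mp e2.symm).symm)
        (Subtype.ext (Subtype.ext (inv_mul_eq_one.mp e3).symm))
    · rintro _ hq
      obtain ⟨⟨z, h⟩, -, rfl⟩ := mem_image.mp hq
      simp only [mem_filter, mem_univ, true_and, hT]
      by_cases h1 : ((h : N) : G) * z ∈ Subgroup.center G
      · exact Or.inr h1
      · refine Or.inl ⟨h1, (h : N), h.2, fun e => h1 (by rw [e, one_mul]; exact z.2), ?_⟩
        simp only [Subgroup.coe_mul]
        rw [mul_assoc, ← Subgroup.mem_center_iff.mp z.2]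
    · rintro ⟨z, h⟩ -
      rw [ha, hαZ z z.2]
    · intro x _ _
      positivity
  have s3 : ∑ x ∈ univ.filter T, ‖χ x‖ ^ 2 ≤ ∑ x ∈ univ.filter S, ‖χ x‖ ^ 2 +
      Nat.card (Subgroup.center G) * (d : ℝ) ^ 2 := by
    have e1 : (Nat.card (Subgroup.center G) : ℝ) * (d : ℝ) ^ 2 =
        ∑ x ∈ univ.filter (· ∈ Subgroup.center G), ‖χ x‖ ^ 2 := by
      rw [sum_congr rfl (g := fun _ => (d : ℝ) ^ 2) fun z hz => by
        rw [H87.norm_eq_of_mem_center hχ (mem_filter.mp hz).2, hd, Complex.norm_natCast],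
        sum_const, nsmul_eq_mul, Nat.card_eq_fintype_card, Fintype.card_subtype]
    rw [e1, ← sum_union (disjoint_filter.mpr fun x _ h => h.1), ← filter_or]
    exact sum_le_sum_of_injOn (fun x : N => (x : G)) (fun _ _ _ _ h => Subtype.ext h)
      (fun y hy => by
        obtain ⟨x, hx, rfl⟩ := mem_image.mp hy
        exact mem_filter.mpr ⟨mem_univ _, (mem_filter.mp hx).2⟩)
      (fun _ _ => le_rfl) fun _ _ _ => by positivity
  have hZ0 : (0 : ℝ) < Nat.card (Subgroup.center G) := by exact_mod_cast Nat.card_pos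
  have s4 : (Nat.card H : ℝ) * ‖α 1‖ ^ 2 < (d : ℝ) ^ 2 := by
    apply lt_of_mul_lt_mul_left _ hZ0.le
    nlinarith
  rw [hc1, hd, Complex.natCast_re]
  refine lt_of_le_of_lt (mul_le_mul_of_nonneg_left ?_ (by positivity)) s4
  exact sq_le_sq.mpr ((Complex.abs_re_le_norm _).trans (le_abs_self _))

/-- Let H be an abelian subgroup of the finite group G meeting the centre of G trivially, such that for every non-central g the centralizer of g has nontrivial intersection with at most one conjugate of H. Let χ be an irreducible character of G with χ h ≠ χ 1 for some h in H, and let c be the inner product of the restriction of χ to H with the principal character. Then χ(1)² > (order of H)·c²; and if in addition χ 1 ≠ 1 and no proper normal subgroup of G contains H, then (1 + χ 1)² > order of H (both sides read as real numbers). -/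
theorem result {G : Type*} [Group G] [Fintype G] (H : Subgroup G) [Fintype H] (hab : ∀ a ∈ H, ∀ b ∈ H, a * b = b * a) (hZ : H ⊓ Subgroup.center G = ⊥) (hone : ∀ g : G, g ∉ Subgroup.center G → ∀ a b : G, Subgroup.centralizer ({g} : Set G) ⊓ H.map (MulAut.conj a).toMonoidHom ≠ ⊥ → Subgroup.centralizer ({g} : Set G) ⊓ H.map (MulAut.conj b).toMonoidHom ≠ ⊥ → H.map (MulAut.conj a).toMonoidHom = H.map (MulAut.conj b).toMonoidHom) (χ : G → ℂ) (hχ : Cfsg.IsIrrCharacter G χ) (hker : ∃ h ∈ H, χ h ≠ χ 1) : (χ 1).re ^ 2 > (Nat.card H : ℝ) * (Cfsg.classInner (fun h : H => χ h) (fun _ => 1)).re ^ 2 ∧ (χ 1 ≠ 1 → (∀ M : Subgroup G, M.Normal → H ≤ M → M = ⊤) → (1 + (χ 1).re) ^ 2 > (Nat.card H : ℝ)) := by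

  classical
  refine ⟨part1 H hab hZ hone χ hχ hker, fun h1 hM => ?_⟩
  have hc := H6.irr_isCharacter hχ
  obtain ⟨d, hd0, hd⟩ := H6.irr_one_pos hχ
  have hd1 : 2 ≤ d := by
    by_contra h
    exact h1 (by rw [hd, show d = 1 by omega, Nat.cast_one])
  have hξ : IsCharacter G (χ * fun g => conj (χ g)) := H6.isCharacter_mul hc (H6.isCharacter_conj hc)
  obtain ⟨m, hm⟩ := H6.char_eq_sum_irr hξ
  choose c hcc using fun ψ : IrrCharacter G => H6.char_inner_nat
    (H6.isCharacter_restrict H (H6.irr_isCharacter ψ.2)) (H6.isCharacter_one (G := H))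
  choose e _ he using fun ψ : IrrCharacter G => H6.irr_one_pos ψ.2
  set o : IrrCharacter G := ⟨fun _ => 1, H6.isIrrCharacter_one⟩ with ho
  have m1 : m o = 1 := by
    have := H6.inner_sum_irr (fun ψ => (m ψ : ℂ)) o
    rw [← hm] at this
    have h2 := H6.classInner_eq_mul_conj_one χ χ
    rw [H6.irr_inner_self hχ] at h2
    exact_mod_cast this.symm.trans h2.symm
  have c1 : c o = 1 := by
    have := hcc o
    rw [show (fun x : H => (o : G → ℂ) x) = fun _ => 1 from rfl, H6.classInner_one_one] at this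
    exact_mod_cast this.symm
  have e1 : e o = 1 := by
    have := he o
    exact_mod_cast (this.symm.trans rfl : ((e o : ℕ) : ℂ) = 1)
  have hA : d * d = ∑ ψ, m ψ * e ψ := by
    have := congrFun hm 1
    simp only [Pi.mul_apply, hd, map_natCast, Finset.sum_apply, Pi.smul_apply, he,
      smul_eq_mul] at this
    exact_mod_cast this
  have hB : d ≤ ∑ ψ, m ψ * c ψ := by
    obtain ⟨a, ha⟩ := H6.char_eq_sum_irr (H6.isCharacter_restrict H hc)
    have h2 : d = ∑ φ, a φ := by
      have := congrFun ha 1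
      simp only [OneMemClass.coe_one, hd, Finset.sum_apply, Pi.smul_apply, smul_eq_mul,
        fun φ : IrrCharacter H => H6.irr_one_eq_one_of_comm
          (fun a b : H => Subtype.ext (hab a a.2 b b.2)) φ.2, mul_one] at this
      exact_mod_cast this
    have h3 : ∑ φ, a φ * a φ = ∑ ψ, m ψ * c ψ := by
      have e2 := H6.inner_sum_irr_int (fun φ => (a φ : ℤ)) (fun φ => (a φ : ℤ))
      simp only [Int.cast_natCast] at e2
      rw [← ha, H6.classInner_eq_mul_conj_one] at e2
      have e3 : (fun h : H => χ h * conj (χ h)) =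
          ∑ ψ : IrrCharacter G, (m ψ : ℂ) • fun h : H => (ψ : G → ℂ) h := by
        funext h
        have := congrFun hm h
        simpa using this
      rw [e3, H6.classInner_sum_left] at e2
      simp only [H6.classInner_smul_left, hcc] at e2
      exact_mod_cast e2.symm
    rw [← h3, h2]
    exact sum_le_sum fun φ _ => Nat.le_mul_self _
  set r := Real.sqrt (Nat.card H) with hr
  have hlt : ∀ ψ : IrrCharacter G, ψ ≠ o → r * c ψ < e ψ := by
    intro ψ hψ
    have := part1 H hab hZ hone ψ ψ.2 (by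
      by_contra h
      push Not at h
      have h2 := hM (H6.charKer (ψ : G → ℂ)) inferInstance
        fun x hx => (H6.mem_charKer (H6.irr_isCharacter ψ.2)).mpr (h x hx)
      exact hψ (Subtype.ext (H6.irr_eq_one_of_forall_eq ψ.2 fun g =>
        (H6.mem_charKer (H6.irr_isCharacter ψ.2)).mp (h2 ▸ Subgroup.mem_top g))))
    rw [he, hcc, Complex.natCast_re, Complex.natCast_re] at this
    refine lt_of_pow_lt_pow_left₀ 2 (by positivity) ?_
    rwa [mul_pow, hr, Real.sq_sqrt (by positivity)]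
  rw [← add_sum_erase _ _ (mem_univ o), m1] at hA hB
  rw [e1] at hA
  rw [c1] at hB
  obtain ⟨ψ, hψ, hψ0⟩ : ∃ ψ ∈ univ.erase o, m ψ * e ψ ≠ 0 := by
    apply exists_ne_zero_of_sum_ne_zero
    intro h
    rw [h] at hA
    nlinarith
  have hC : r * ∑ ψ ∈ univ.erase o, ((m ψ * c ψ : ℕ) : ℝ) <
      ∑ ψ ∈ univ.erase o, ((m ψ * e ψ : ℕ) : ℝ) := by
    rw [mul_sum]
    push_cast
    refine sum_lt_sum (fun φ hφ => ?_) ⟨ψ, hψ, ?_⟩
    · rw [mul_left_comm]
      exact mul_le_mul_of_nonneg_left (hlt φ (ne_of_mem_erase hφ)).le (by positivity)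
    · rw [mul_left_comm]
      exact mul_lt_mul_of_pos_left (hlt ψ (ne_of_mem_erase hψ))
        (by exact_mod_cast Nat.pos_of_ne_zero (left_ne_zero_of_mul hψ0))
  rw [← Nat.cast_sum, ← Nat.cast_sum] at hC
  generalize ∑ ψ ∈ univ.erase o, m ψ * c ψ = X at hB hC
  generalize ∑ ψ ∈ univ.erase o, m ψ * e ψ = Y at hA hC
  have hA' : (d : ℝ) * d = 1 + Y := by exact_mod_cast hA
  have hB' : (d : ℝ) ≤ 1 + X := by exact_mod_cast hB
  have hd' : (2 : ℝ) ≤ d := by exact_mod_cast hd1
  have hr0 : 0 ≤ r := Real.sqrt_nonneg _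
  have h5 : r < 1 + d := by
    by_contra h
    push Not at h
    nlinarith
  rw [hd, Complex.natCast_re, gt_iff_lt, ← Real.sq_sqrt (Nat.cast_nonneg (Nat.card H))]
  exact pow_lt_pow_left₀ h5 hr0 two_ne_zero

end Cfsg.Agent.S0898
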