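import Mathlib
import Cfsg.Statements.S0900
import Cfsg.Agent.Lib.Char.GoingDown
-- import your own Cfsg.Agent.* helpers here

set_option autoImplicit false
open Cfsg

namespace Cfsg.Agent.S0900

/-- Let N be a normal subgroup of the finite group G, χ an irreducible character of G and ϑ an irreducible character of N having nonzero inner product with the restriction of χ. Consider: (a) the restriction of χ to N is e • ϑ for a natural number e with e ^ 2 equal to the index of N; (b) χ vanishes outside N and ϑ is invariant under conjugation by G; (c) ϑ is invariant and every irreducible character of G having nonzero inner product with the function induced from ϑ equals χ. Then (a) ↔ (b) and (a) ↔ (c). -/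
theorem result {G : Type*} [Group G] [Fintype G] (N : Subgroup G) [hN : N.Normal] [Fintype N] (χ : G → ℂ) (hχ : Cfsg.IsIrrCharacter G χ) (ϑ : N → ℂ) (hϑ : Cfsg.IsIrrCharacter N ϑ) (hcon : Cfsg.classInner (fun n : N => χ n) ϑ ≠ 0) : ((∃ e : ℕ, (fun n : N => χ n) = (e : ℂ) • ϑ ∧ e ^ 2 = N.index) ↔ ((∀ g : G, g ∉ N → χ g = 0) ∧ ∀ (g : G) (n : N), ϑ ⟨g * n * g⁻¹, hN.conj_mem (n : G) n.2 g⟩ = ϑ n)) ∧ ((∃ e : ℕ, (fun n : N => χ n) = (e : ℂ) • ϑ ∧ e ^ 2 = N.index) ↔ (∀ (g : G) (n : N), ϑ ⟨g * n * g⁻¹, hN.conj_mem (n : G) n.2 g⟩ = ϑ n ∧ ∀ ψ : G → ℂ, Cfsg.IsIrrCharacter G ψ → Cfsg.classInner (Cfsg.indFun N ϑ) ψ ≠ 0 → ψ = χ)) := by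
  have hcf := H6.irr_isClassFunction hχ
  have ha : (∃ e : ℕ, (fun n : N => χ n) = (e : ℂ) • ϑ ∧ e ^ 2 = N.index) →
      ∀ (g : G) (n : N), ϑ ⟨g * n * g⁻¹, hN.conj_mem (n : G) n.2 g⟩ = ϑ n := by
    rintro ⟨e, h, he⟩ g n
    have he0 : (e : ℂ) ≠ 0 := by
      have : e ≠ 0 := by
        rintro rfl
        exact N.index_ne_zero_of_finite (by simpa using he.symm)
      exact_mod_cast this
    have h1 := congrFun h ⟨g * n * g⁻¹, hN.conj_mem (n : G) n.2 g⟩
    have h2 := congrFun h n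
    simp only [Pi.smul_apply, smul_eq_mul] at h1 h2
    rw [hcf n g, h2] at h1
    exact (mul_left_cancel₀ he0 h1).symm
  refine ⟨⟨fun h => ⟨?_, ha h⟩, ?_⟩, ⟨fun h g n => ⟨ha h g n, ?_⟩, ?_⟩⟩
  · obtain ⟨e, h, he⟩ := h
    exact fun g hg => H31.vanish_of_fullyRamified N hχ hϑ h he hg
  · rintro ⟨h1, h2⟩
    obtain ⟨e, -, -, he⟩ := H31.exists_res_eq_of_invariant N hϑ h2 hχ hcon
    have h3 : (fun n : N => χ n) = (e : ℂ) • ϑ := funext he
    refine ⟨e, h3, ?_⟩
    have h4 := H7.classInner_res_of_vanish N χ χ h1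
    rw [h3, H6.classInner_smul_left, H6.classInner_smul_right, H6.irr_inner_self hϑ,
      H6.irr_inner_self hχ] at h4
    simp only [map_natCast, mul_one] at h4
    rw [sq]; exact_mod_cast h4
  · intro ψ hψ hc
    have hinv := ha h
    obtain ⟨e, h, he⟩ := h
    have h1 : indFun N ϑ = (e : ℂ) • χ := by
      ext g
      by_cases hg : g ∈ N
      · have h2 := congrFun h ⟨g, hg⟩
        have h3 := H7.indFun_normal_apply_of_invariant N ϑ hinv ⟨g, hg⟩
        simp only [Pi.smul_apply, smul_eq_mul] at h2 h3 ⊢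
        rw [h3, h2, ← he]; push_cast; ring
      · rw [H7.indFun_eq_zero_of_not_mem_normal N N le_rfl ϑ hg, Pi.smul_apply,
          H31.vanish_of_fullyRamified N hχ hϑ h he hg, smul_zero]
    exact H31.eq_of_homog hχ h1 hψ hc
  · intro h
    have hinv := fun g n => (h g n).1
    have huniq := (h 1 1).2
    obtain ⟨e, -, he1, he⟩ := H31.exists_res_eq_of_invariant N hϑ hinv hχ hcon
    refine ⟨e, funext he, ?_⟩
    obtain ⟨φ, f, hφ, hf⟩ := H31.isHomog_of_unique
      (H7.isCharacter_indFun N (H6.irr_isCharacter hϑ))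
      (fun μ μ' hμ hμ' h1 h2 => (huniq μ hμ h1).trans (huniq μ' hμ' h2).symm)
    have h1 : χ = φ := H31.eq_of_homog hφ hf hχ
      ((H31.inner_indFun_ne_zero_iff N ϑ hcf).2 hcon)
    subst h1
    have h2 := H7.inner_indFun_eq_inner_res N (H6.irr_isGen hϑ) (H6.irr_isGen hχ)
    have h3 := H31.inner_indFun_self_of_invariant N hϑ hinv
    rw [hf, H6.classInner_smul_left, H6.irr_inner_self hχ, he1, mul_one] at h2
    rw [hf, H6.classInner_smul_left, H6.classInner_smul_right, H6.irr_inner_self hχ, h2] at h3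
    simp only [map_natCast, mul_one] at h3
    rw [sq]; exact_mod_cast h3

end Cfsg.Agent.S0900
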