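import Cfsg.Statements.S0901
import Mathlib
import Cfsg.Agent.Lib.Block.Local

set_option autoImplicit false
open Cfsg

namespace Cfsg.Agent.S0901

/-- Let M be a maximal ideal of the ring of algebraic integers containing the prime p, and let U be the set of complex roots of unity of order prime to p. Then reduction modulo M is injective on U, and every algebraic integer not in M is congruent modulo M to an element of U (so U maps bijectively onto the nonzero residues). -/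
theorem result (p : ℕ) [Fact p.Prime] (M : Ideal Cfsg.AlgInt) (hM : Cfsg.IsPModular p M) : (∀ ε₁ ε₂ : Cfsg.AlgInt, (∃ m : ℕ, ¬ p ∣ m ∧ (ε₁ : ℂ) ^ m = 1) → (∃ m : ℕ, ¬ p ∣ m ∧ (ε₂ : ℂ) ^ m = 1) → ε₁ - ε₂ ∈ M → ε₁ = ε₂) ∧ (∀ a : Cfsg.AlgInt, a ∉ M → ∃ ε : Cfsg.AlgInt, (∃ m : ℕ, ¬ p ∣ m ∧ (ε : ℂ) ^ m = 1) ∧ a - ε ∈ M) := by
  haveI := H33.isMaximal_of hM
  constructor
  · rintro ε₁ ε₂ ⟨m, hm, h1⟩ ⟨n, hn, h2⟩ h
    apply Subtype.ext
    apply H33.red_injOn_roots hM hm hn h1 h2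
    rw [H33.red_algInt, H33.red_algInt, ← sub_eq_zero, ← map_sub, H33.res0_eq_zero_iff]
    exact h
  · intro a ha
    obtain ⟨m, hm, h1⟩ := H33.exists_pow_eq_one_F hM (H33.res0_ne_zero ha)
    have hm0 : m ≠ 0 := by rintro rfl; exact hm (dvd_zero p)
    obtain ⟨ζ, hζ, h2⟩ := H33.exists_root_red_eq hm0 h1
    refine ⟨⟨ζ, H33.isIntegral_of_pow_eq_one hm0 hζ⟩, ⟨m, hm, hζ⟩, ?_⟩
    rw [← H33.res0_eq_zero_iff, map_sub, ← h2, ← H33.red_algInt, sub_self]

end Cfsg.Agent.S0901
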