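import Mathlib
import Cfsg.Statements.S0903

set_option autoImplicit false
open Cfsg

namespace Cfsg.Agent.S0903

/-- Let P be a p-subgroup of the finite group G, let c centralize P and let g, h ∈ G. The number of pairs (x, y) with x conjugate to g, y conjugate to h and x * y = c is congruent modulo p to the number of such pairs in which x and y both centralize P. (This is why the Brauer map on class sums is multiplicative.) -/
theorem result {G : Type*} [Group G] [Finite G] (p : ℕ) [Fact p.Prime] (P : Subgroup G) (hP : IsPGroup p P) (c : G) (hc : c ∈ Subgroup.centralizer (P : Set G)) (g h : G) : Nat.card {xy : G × G // IsConj g xy.1 ∧ IsConj h xy.2 ∧ xy.1 * xy.2 = c} ≡ Nat.card {xy : G × G // IsConj g xy.1 ∧ IsConj h xy.2 ∧ xy.1 * xy.2 = c ∧ xy.1 ∈ Subgroup.centralizer (P : Set G) ∧ xy.2 ∈ Subgroup.centralizer (P : Set G)} [MOD p] := by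
  let X := {xy : G × G // IsConj g xy.1 ∧ IsConj h xy.2 ∧ xy.1 * xy.2 = c}
  have hcu : ∀ u : P, (u : G) * c * (u : G)⁻¹ = c := fun u => by
    rw [Subgroup.mem_centralizer_iff.1 hc u u.2]; simp
  letI : MulAction P X :=
    { smul := fun u x => ⟨((u : G) * x.1.1 * (u : G)⁻¹, (u : G) * x.1.2 * (u : G)⁻¹),
        x.2.1.trans (isConj_iff.2 ⟨u, rfl⟩), x.2.2.1.trans (isConj_iff.2 ⟨u, rfl⟩), by
          have h1 := x.2.2.2
          calc _ = (u : G) * (x.1.1 * x.1.2) * (u : G)⁻¹ := by simp only; group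
            _ = c := by rw [h1, hcu]⟩
      one_smul := fun x => Subtype.ext (Prod.ext
        (by change ((1 : P) : G) * x.1.1 * ((1 : P) : G)⁻¹ = _; simp)
        (by change ((1 : P) : G) * x.1.2 * ((1 : P) : G)⁻¹ = _; simp))
      mul_smul := fun u w x => Subtype.ext (Prod.ext
        (by
          change ((u * w : P) : G) * x.1.1 * ((u * w : P) : G)⁻¹ =
            (u : G) * ((w : G) * x.1.1 * (w : G)⁻¹) * (u : G)⁻¹
          simp [mul_assoc])
        (by
          change ((u * w : P) : G) * x.1.2 * ((u * w : P) : G)⁻¹ =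
            (u : G) * ((w : G) * x.1.2 * (w : G)⁻¹) * (u : G)⁻¹
          simp [mul_assoc])) }
  have hsm : ∀ (u : P) (x : X), (u • x).1 =
      ((u : G) * x.1.1 * (u : G)⁻¹, (u : G) * x.1.2 * (u : G)⁻¹) := fun _ _ => rfl
  refine (hP.card_modEq_card_fixedPoints X).trans ?_
  rw [Nat.card_congr (β := {xy : G × G // IsConj g xy.1 ∧ IsConj h xy.2 ∧ xy.1 * xy.2 = c ∧ xy.1 ∈ Subgroup.centralizer (P : Set G) ∧ xy.2 ∈ Subgroup.centralizer (P : Set G)})]
  refine
    { toFun := fun x => ⟨x.1.1, x.1.2.1, x.1.2.2.1, x.1.2.2.2, ?_, ?_⟩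
      invFun := fun y => ⟨⟨y.1, y.2.1, y.2.2.1, y.2.2.2.1⟩, ?_⟩
      left_inv := fun x => rfl
      right_inv := fun y => rfl }
  · rw [Subgroup.mem_centralizer_iff]
    intro u hu
    have := congrArg (fun z : X => z.1.1) (x.2 ⟨u, hu⟩)
    simp only [hsm] at this
    exact mul_inv_eq_iff_eq_mul.1 this
  · rw [Subgroup.mem_centralizer_iff]
    intro u hu
    have := congrArg (fun z : X => z.1.2) (x.2 ⟨u, hu⟩)
    simp only [hsm] at this
    exact mul_inv_eq_iff_eq_mul.1 this
  · intro u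
    apply Subtype.ext
    rw [hsm]
    have h1 := Subgroup.mem_centralizer_iff.1 y.2.2.2.2.1 u u.2
    have h2 := Subgroup.mem_centralizer_iff.1 y.2.2.2.2.2 u u.2
    refine Prod.ext ?_ ?_
    · simp only [h1]; simp
    · simp only [h2]; simp

end Cfsg.Agent.S0903
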