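import Mathlib
import Cfsg.Statements.S0905
import Cfsg.Agent.Lib.Block.Brauer
import Cfsg.Agent.Lib.Core.PCore

set_option autoImplicit false
open Cfsg

namespace Cfsg.Agent.S0905

/-- Let F be a field of characteristic p and let g be an element of the finite group G no conjugate of which centralizes O_p(G). Then the class sum of g is a nilpotent element of the group algebra F[G]. -/
theorem result {G : Type*} [Group G] [Finite G] (p : ℕ) [Fact p.Prime] (F : Type*) [Field F] [CharP F p] (g : G) (hg : ∀ x : G, IsConj g x → x ∉ Subgroup.centralizer (Cfsg.pCore p G : Set G)) : IsNilpotent (∑ᶠ x ∈ ConjClasses.carrier (ConjClasses.mk g), MonoidAlgebra.single x (1 : F) : MonoidAlgebra F G) := by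
  classical
  have hco : ∀ y : G, (∑ᶠ x ∈ ConjClasses.carrier (ConjClasses.mk g),
      MonoidAlgebra.single x (1 : F) : MonoidAlgebra F G).coeff y =
      if IsConj g y then 1 else 0 := by
    intro y
    rw [finsum_mem_eq_finite_toFinset_sum _ (Set.toFinite _), MonoidAlgebra.coeff_sum,
      Finsupp.finsetSum_apply]
    simp only [MonoidAlgebra.coeff_single, Finsupp.single_apply, Finset.sum_ite_eq',
      Set.Finite.mem_toFinset, ConjClasses.mem_carrier_iff_mk_eq, ConjClasses.mk_eq_mk_iff_isConj]
    simp only [isConj_comm]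
  refine H34.isNilpotent_of_br_eq_zero (H1.isPGroup_pCore (p := p) (G := G)) (fun u _ y => ?_) ?_
  · rw [hco, hco]
    congr 1
    exact propext ⟨fun h => h.trans (isConj_iff.2 ⟨u, rfl⟩).symm,
      fun h => h.trans (isConj_iff.2 ⟨u, rfl⟩)⟩
  · rw [H34.br_eq_zero_iff]
    intro y hy
    rw [hco, if_neg fun h => hg y h hy]

end Cfsg.Agent.S0905
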