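import Cfsg.Statements.S0911
import Mathlib
import Cfsg.Agent.Lib.Block.Defect

set_option autoImplicit false
set_option linter.style.haveILetI false
open Cfsg

namespace Cfsg.Agent.S0911

/-- The min–max Theorem for defect classes. Let B be a block of the finite group G relative to a maximal ideal M of the algebraic integers containing the prime p, let g represent a defect class of B and let D be a Sylow p-subgroup of the centralizer of g (viewed in G). For any h: (a) if the idempotent coefficient of B at h is a local integer outside the local ideal, then some conjugate of D contains a Sylow p-subgroup of the centralizer of h; (b) if the central character of some member of B at h is outside the local ideal, then some conjugate of D is contained in a Sylow p-subgroup of the centralizer of h. -/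
theorem result {G : Type*} [Group G] [Finite G] (p : ℕ) [Fact p.Prime] (M : Ideal Cfsg.AlgInt) (hM : Cfsg.IsPModular p M) (B : Set (Cfsg.IrrCharacter G)) (hB : Cfsg.IsPBlock M B) (g : G) (hg : Cfsg.IsDefectClass M B g) (D : Sylow p (Subgroup.centralizer ({g} : Set G))) (h : G) : (Cfsg.MemLocalRing M (Cfsg.blockCoeff B h) → ¬ Cfsg.MemLocalIdeal M (Cfsg.blockCoeff B h) → ∃ (x : G) (Q : Sylow p (Subgroup.centralizer ({h} : Set G))), (Q : Subgroup (Subgroup.centralizer ({h} : Set G))).map (Subgroup.centralizer ({h} : Set G)).subtype ≤ ((D : Subgroup (Subgroup.centralizer ({g} : Set G))).map (Subgroup.centralizer ({g} : Set G)).subtype).map (MulAut.conj x).toMonoidHom) ∧ ((∃ χ ∈ B, ¬ Cfsg.MemLocalIdeal M (Cfsg.centralChar (χ : G → ℂ) h)) → ∃ (x : G) (Q : Sylow p (Subgroup.centralizer ({h} : Set G))), ((D : Subgroup (Subgroup.centralizer ({g} : Set G))).map (Subgroup.centralizer ({g} : Set G)).subtype).map (MulAut.conj x).toMonoidHom ≤ (Q : Subgroup (Subgroup.centralizer ({h} : Set G))).map (Subgroup.centralizer ({h} : Set G)).subtype) := by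
  haveI := H33.isMaximal_of hM
  have hD : Cfsg.IsDefectGroup p M B _ := ⟨g, hg, D, rfl⟩
  constructor
  · intro h1 h2
    obtain ⟨Q⟩ : Nonempty (Sylow p (Subgroup.centralizer ({h} : Set G))) := inferInstance
    obtain ⟨k, hk⟩ := H33.le_cs_defect_of_coeff hM hB hD
      (fun h0 => h2 ((H33.memLocalIdeal_iff_red h1).mpr h0)) (H86.isSyl_map Q).pgrp
      (H86.isSyl_map Q).le
    exact ⟨k, Q, hk⟩
  · rintro ⟨χ, hχ, h2⟩
    obtain ⟨k, hk⟩ := H33.exists_cs_defect_le_C1 hM hB hD hχ
      (fun h0 => h2 ((H33.memLocalIdeal_iff_red (H33.centralChar_mem_O M χ h)).mpr h0))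
    obtain ⟨E, hE, hle⟩ := H86.exists_isSyl_ge hk (H86.isPGroup_cs k (H33.defect_isPGroup hD))
    obtain ⟨Q, rfl⟩ := hE.exists_sylow
    exact ⟨k, Q, hle⟩

end Cfsg.Agent.S0911
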