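import Mathlib
import Cfsg.Statements.S0916
import Cfsg.Agent.Lib.LocEven.Basic

set_option autoImplicit false
open Cfsg

namespace Cfsg.Agent.S0916

open H68 in
theorem cj_cent {G : Type*} [Group G] (x g : G) :
    cj x (Subgroup.centralizer ({g} : Set G)) = Subgroup.centralizer ({x * g * x⁻¹} : Set G) := by
  ext y
  rw [mem_cj, Subgroup.mem_centralizer_singleton_iff, Subgroup.mem_centralizer_singleton_iff]
  constructor
  · intro h
    calc y * (x * g * x⁻¹) = x * (x⁻¹ * y * x * g) * x⁻¹ := by group
      _ = x * g * x⁻¹ * y := by rw [h]; group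
  · intro h
    calc x⁻¹ * y * x * g = x⁻¹ * (y * (x * g * x⁻¹)) * x := by group
      _ = g * (x⁻¹ * y * x) := by rw [h]; group

theorem le_cent {G : Type*} [Group G] {P : Subgroup G} {c : G}
    (hc : c ∈ Subgroup.centralizer (P : Set G)) : P ≤ Subgroup.centralizer ({c} : Set G) :=
  fun u hu => Subgroup.mem_centralizer_singleton_iff.2 (Subgroup.mem_centralizer_iff.1 hc u hu)


/-- Let P be a p-subgroup of the finite group G, C its centralizer and N its normalizer. Say that a conjugacy class (of G, or of N) has defect group P when P is a Sylow p-subgroup of the centralizer (in G, respectively in N) of some element of the class. Then: (i) if the class of g in G has defect group P, the elements of that class lying in C form a single N-class, again with defect group P; (ii) every N-class with defect group P arises this way from exactly one G-class with defect group P. -/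
theorem result {G : Type*} [Group G] [Finite G] (p : ℕ) [Fact p.Prime] (P : Subgroup G) (hP : IsPGroup p P) : (∀ g : G, (∃ S : Sylow p (Subgroup.centralizer ({g} : Set G)), (S : Subgroup (Subgroup.centralizer ({g} : Set G))).map (Subgroup.centralizer ({g} : Set G)).subtype = P) → (∃ c : G, IsConj g c ∧ c ∈ Subgroup.centralizer (P : Set G)) ∧ (∀ c₁ c₂ : G, IsConj g c₁ → IsConj g c₂ → c₁ ∈ Subgroup.centralizer (P : Set G) → c₂ ∈ Subgroup.centralizer (P : Set G) → ∃ n ∈ Subgroup.normalizer (P : Set G), n * c₁ * n⁻¹ = c₂)) ∧ (∀ c : G, c ∈ Subgroup.centralizer (P : Set G) → (∃ S : Sylow p (Subgroup.centralizer ({c} : Set G) ⊓ Subgroup.normalizer (P : Set G) : Subgroup G), (S : Subgroup ↥(Subgroup.centralizer ({c} : Set G) ⊓ Subgroup.normalizer (P : Set G))).map (Subgroup.centralizer ({c} : Set G) ⊓ Subgroup.normalizer (P : Set G)).subtype = P) → ∃ S : Sylow p (Subgroup.centralizer ({c} : Set G)), (S : Subgroup (Subgroup.centralizer ({c} : Set G))).map (Subgroup.centralizer ({c} : Set G)).subtype = P) := by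
  refine ⟨?_, ?_⟩
  · rintro g ⟨S, hS⟩
    have h1 : H68.SylowIn p P (Subgroup.centralizer ({g} : Set G)) := hS ▸ H68.sylowIn_map S
    refine ⟨⟨g, IsConj.refl g, ?_⟩, ?_⟩
    · rw [Subgroup.mem_centralizer_iff]
      intro u hu
      exact Subgroup.mem_centralizer_singleton_iff.1 (h1.le hu)
    · have key : ∀ c : G, IsConj g c → c ∈ Subgroup.centralizer (P : Set G) →
          H68.SylowIn p P (Subgroup.centralizer ({c} : Set G)) := by
        intro c hgc hc
        obtain ⟨x, rfl⟩ := isConj_iff.1 hgc
        have h2 := h1.cj x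
        rw [cj_cent] at h2
        exact h2.of_card_le hP (le_cent hc) (H68.card_cj x P).le
      intro c₁ c₂ h₁ h₂ hc₁ hc₂
      obtain ⟨x, rfl⟩ := isConj_iff.1 (h₁.symm.trans h₂)
      have h2 := (key c₁ h₁ hc₁).cj x
      rw [cj_cent] at h2
      obtain ⟨y, hy, hyx⟩ := h2.exists_cj_eq (key _ h₂ hc₂)
      refine ⟨y * x, H68.mem_normalizer_iff_cj.2 (by rw [H68.cj_mul, hyx]), ?_⟩
      have := Subgroup.mem_centralizer_singleton_iff.1 hy
      calc y * x * c₁ * (y * x)⁻¹ = y * (x * c₁ * x⁻¹) * y⁻¹ := by group
        _ = x * c₁ * x⁻¹ := by rw [this]; group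
  · rintro c - ⟨S, hS⟩
    have h1 : H68.SylowIn p P (Subgroup.centralizer ({c} : Set G) ⊓
      Subgroup.normalizer (P : Set G)) := by
      have := H68.sylowIn_map S
      rwa [hS] at this
    have h2 := H68.sylowIn_of_sylowIn_normalizer h1
    exact ⟨h2.toSylow, h2.map_toSylow⟩

end Cfsg.Agent.S0916
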