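import Mathlib
import Cfsg.Statements.S0926
import Cfsg.Agent.Lib.Block.DefVan

set_option autoImplicit false
open Cfsg

namespace Cfsg.Agent.S0926

/-- Let B be a block of the finite group G with defect group D (relative to a maximal ideal M of the algebraic integers containing p), let χ ∈ B have height zero, and let x be a p-element. Then some conjugate of x lies in D if and only if χ does not vanish on the whole p-section of x (the elements whose p-part is conjugate to x). -/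
theorem result {G : Type*} [Group G] [Finite G] (p : ℕ) [Fact p.Prime] (M : Ideal Cfsg.AlgInt) (hM : Cfsg.IsPModular p M) (B : Set (Cfsg.IrrCharacter G)) (hB : Cfsg.IsPBlock M B) (D : Subgroup G) (hD : Cfsg.IsDefectGroup p M B D) (χ : Cfsg.IrrCharacter G) (hχ : χ ∈ B) (h0 : Cfsg.blockHeight p B (χ : G → ℂ) = 0) (x : G) (hx : ∃ k : ℕ, orderOf x = p ^ k) : (∃ g : G, g * x * g⁻¹ ∈ D) ↔ ∃ u : G, (∃ z : G, Cfsg.IsPPart p u z ∧ IsConj x z) ∧ (χ : G → ℂ) u ≠ 0 := by
  haveI := H33.isMaximal_of hM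
  constructor
  · rintro ⟨g, hg⟩
    obtain ⟨y, hy, hS⟩ := H33.isDefectGroup_iff.1 hD
    have hxe : H35.IsPElt p (g * x * g⁻¹) := H35.IsPElt.conj hx g
    have hc : Commute (g * x * g⁻¹) y := H33.mem_C1.1 (hS.1 hg)
    refine ⟨g * x * g⁻¹ * y, ⟨_, H35.isPPart_mul hxe (H33.defectClass_not_dvd hM hB hy) hc,
      isConj_iff.2 ⟨g, rfl⟩⟩, fun h => ?_⟩
    have := H34.red_irr_mul_ne_zero hM hB hy hxe hc hχ h0
    rw [h, H33.red_zero] at this
    exact this rfl
  · rintro ⟨u, ⟨z, hz, hxz⟩, hu⟩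
    obtain ⟨k, hk⟩ := H34.exists_conj_mem_defect_of_ne_zero hM hB hD hχ hu
    obtain ⟨a, rfl⟩ := isConj_iff.1 hxz
    rw [H35.pPart_eq_of_isPPart hz] at hk
    exact ⟨k * a, by simpa only [mul_assoc, mul_inv_rev] using hk⟩

end Cfsg.Agent.S0926
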