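import Mathlib
import Cfsg.Statements.S0928
import Cfsg.Agent.Lib.Block.DefVan

set_option autoImplicit false
open Cfsg

namespace Cfsg.Agent.S0928

open H33 in
theorem sq_eq_zero {G : Type*} [Group G] [Finite G] {p : ℕ} [Fact p.Prime] {R : Type*} [CommRing R]
    [CharP R p] {x : G} (hx : orderOf x = p) (σ : MonoidAlgebra R G)
    (hs : ∀ g, σ.coeff g ≠ 0 → Commute x g)
    (hi : ∀ u ∈ Subgroup.zpowers x, ∀ g, σ.coeff (u * g) = σ.coeff g) : σ * σ = 0 := by
  classical
  letI := Fintype.ofFinite G
  have hp : p.Prime := Fact.out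
  have hP : IsPGroup p (Subgroup.zpowers x) := H35.isPElt_iff_zpowers.1 ⟨1, by simp [hx]⟩
  refine alg_ext fun g => ?_
  rw [H34.coeff_mul_sum, coeff_zero_apply]
  refine H34.sum_nonfixed_eq_zero (P := Subgroup.zpowers x) hP
    (fun h => σ.coeff h * σ.coeff (h⁻¹ * g)) ?_ _ fun h => ?_
  · rintro ⟨u, hu⟩ h
    change σ.coeff (u * h) * σ.coeff ((u * h)⁻¹ * g) = _
    rw [hi u hu]
    by_cases h0 : σ.coeff h = 0
    · rw [h0, zero_mul, zero_mul]
    · have hc : Commute u h := by
        obtain ⟨n, rfl⟩ := hu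
        exact (hs h h0).zpow_left n
      rw [hc.eq, mul_inv_rev, mul_assoc, hi _ (inv_mem hu)]
  · simp only [Finset.mem_univ, true_iff]
    intro hf
    have := hf ⟨x, Subgroup.mem_zpowers x⟩
    change x * h = h at this
    rw [mul_eq_right] at this
    rw [this, orderOf_one] at hx
    exact hp.one_lt.ne hx


/-- Let χ be an irreducible character of the finite group G and p a prime. If χ g = 0 for every element g of order p, then the exponent of p in the degree χ(1) equals the exponent of p in the order of G (χ has p-defect zero). -/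
theorem result {G : Type*} [Group G] [Finite G] (p : ℕ) [Fact p.Prime] (χ : Cfsg.IrrCharacter G) (hvan : ∀ g : G, orderOf g = p → (χ : G → ℂ) g = 0) : (Cfsg.charDegree (χ : G → ℂ)).factorization p = (Nat.card G).factorization p := by
  classical
  have hp : p.Prime := Fact.out
  obtain ⟨M, hM⟩ := H85.exists_isPModular hp
  haveI := H33.isMaximal_of hM
  haveI := H33.charP hM
  letI := Fintype.ofFinite G
  have hB : IsPBlock M (blockOf M (χ : G → ℂ)) := H33.isPBlock_blockOf χ
  have hχ := H33.mem_blockOf_self (M := M) χ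
  rw [← H33.blockDefect_eq_zero_iff hM hB hχ]
  obtain ⟨D, hD⟩ := H33.exists_defectGroup p hB
  rw [H33.blockDefect_eq_zero_iff_bot hM hB hD]
  by_contra hne
  have hDp := H33.defect_isPGroup hD
  haveI : Nontrivial D := (Subgroup.nontrivial_iff_ne_bot D).2 hne
  obtain ⟨n, hn0, hn⟩ := hDp.nontrivial_iff_card.1 inferInstance
  obtain ⟨x, hx⟩ := exists_prime_orderOf_dvd_card' (G := D) p (hn ▸ dvd_pow_self p hn0.ne')
  rw [← Subgroup.orderOf_coe] at hx
  have hP : IsPGroup p (Subgroup.zpowers (x : G)) := H35.isPElt_iff_zpowers.1 ⟨1, by simp [hx]⟩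
  have hbr := H33.br_ne_zero_of_le (Subgroup.zpowers_le.2 x.2) (H33.defect_br_ne_zero hD)
  let X : MonoidAlgebra ℂ G := H33.mk fun g => if g ^ p = 1 then 1 else 0
  have hXc : H33.IsCent X := H33.isCent_mk fun g h => by
    simp only [conj_pow, mul_inv_eq_one, mul_eq_left]
  have hXO : X ∈ H33.OG M G := H33.mk_mem_OG fun g => by
    split_ifs
    exacts [one_mem _, zero_mem _]
  have hω : H33.omega (χ : G → ℂ) X = 1 := by
    rw [H33.omega_eq_sum, Finset.sum_eq_single 1]
    · simp [X, H33.irr_one_ne_zero]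
    · intro g _ hg
      by_cases h : g ^ p = 1
      · rw [hvan g (orderOf_eq_prime h hg), mul_zero, zero_div]
      · simp [X, h]
    · simp
  have hl : H33.lam M (χ : G → ℂ) (H33.redA M X) ≠ 0 := by
    rw [← H33.red_omega χ hXc hXO, hω, H33.red_one]
    exact one_ne_zero
  obtain ⟨w, hw, hXw⟩ := H33.exists_mul_eq_eB hB hχ (hXc.redA M) hl
  have hcoef : ∀ g, (H33.redA M X).coeff g = if g ^ p = 1 then 1 else 0 := fun g => by
    rw [H33.coeff_redA, H33.coeff_mk]
    split_ifs
    exacts [H33.red_one M, H33.red_zero M]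
  have hsq : H34.br (Subgroup.zpowers (x : G)) (H33.redA M X) *
      H34.br (Subgroup.zpowers (x : G)) (H33.redA M X) = 0 := by
    refine sq_eq_zero hx _ (fun g hg => ?_) fun u hu g => ?_
    · by_contra hc
      exact hg (H34.coeff_br_of_not_mem _ fun h => hc (H34.mem_centralizer_zpowers_iff.1 h))
    · have hu' : Commute (x : G) u := by
        obtain ⟨n, rfl⟩ := hu
        exact (Commute.refl _).zpow_right n
      by_cases hc : Commute (x : G) g
      · have hug : Commute u g := by
          obtain ⟨n, rfl⟩ := hu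
          exact hc.zpow_left n
        have hup : u ^ p = 1 := by
          rw [← hx]
          exact orderOf_dvd_iff_pow_eq_one.1 (orderOf_dvd_of_mem_zpowers hu)
        rw [H34.coeff_br_of_mem _ (H34.mem_centralizer_zpowers_iff.2 hc),
          H34.coeff_br_of_mem _ (H34.mem_centralizer_zpowers_iff.2 (hu'.mul_right hc)),
          hcoef, hcoef, hug.mul_pow, hup, one_mul]
      · rw [H34.coeff_br_of_not_mem _ fun h => hc (H34.mem_centralizer_zpowers_iff.1 h),
          H34.coeff_br_of_not_mem _ fun h => hc ?_]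
        have := hu'.inv_right.mul_right (H34.mem_centralizer_zpowers_iff.1 h)
        rwa [inv_mul_cancel_left] at this
  apply hbr
  have hX2 := (hXc.redA M).mul (hXc.redA M)
  rw [← H33.eB_idem hB, ← hXw, mul_assoc, ← mul_assoc w, (hXc.redA M).comm w, mul_assoc,
    ← mul_assoc, H34.br_mul hP (fun u _ g => hX2 g u) (fun u _ g => (hw.mul hw) g u),
    H34.br_mul hP (fun u _ g => (hXc.redA M) g u) (fun u _ g => (hXc.redA M) g u), hsq, zero_mul]

end Cfsg.Agent.S0928
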