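import Mathlib
import Cfsg.Statements.S0931
import Cfsg.Agent.Lib.Block.DefVan

set_option autoImplicit false
open Cfsg

namespace Cfsg.Agent.S0931

/-- Let H be a subgroup of the finite group G and fix a maximal ideal M of the algebraic integers containing the prime p. If the block b of H induces the block B of G, then b has defect 0 if and only if B has defect 0. -/
theorem result {G : Type*} [Group G] [Finite G] (p : ℕ) [Fact p.Prime] (M : Ideal Cfsg.AlgInt) (hM : Cfsg.IsPModular p M) (H : Subgroup G) (b : Set (Cfsg.IrrCharacter H)) (B : Set (Cfsg.IrrCharacter G)) (hind : Cfsg.IsInducedBlock M H b B) : Cfsg.blockDefect p b = 0 ↔ Cfsg.blockDefect p B = 0 := by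
  haveI := H33.isMaximal_of hM
  obtain ⟨D, hD⟩ := H33.exists_defectGroup p hind.1
  obtain ⟨P, hP, hle⟩ := H34.exists_defect_ge_of_induced hM hind hD
  rw [H33.blockDefect_eq_zero_iff_bot hM hind.1 hD, H33.blockDefect_eq_zero_iff_bot hM hind.2.1 hP]
  constructor
  · rintro rfl
    by_contra hne
    haveI : Nontrivial P := (Subgroup.nontrivial_iff_ne_bot P).2 hne
    haveI := (H33.defect_isPGroup hP).center_nontrivial
    obtain ⟨x, hx1⟩ := exists_ne (1 : Subgroup.center P)
    obtain ⟨g, h1, -⟩ := H34.exists_conj_center_of_induced hM hind hD hP (x : P).2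
      (H86.mem_Cen.2 fun w hw => congrArg Subtype.val (Subgroup.mem_center_iff.1 x.2 ⟨w, hw⟩))
    rw [Subgroup.map_bot, Subgroup.mem_bot, mul_inv_eq_one, mul_eq_left] at h1
    exact hx1 (Subtype.ext (Subtype.ext h1))
  · rintro rfl
    rwa [le_bot_iff, Subgroup.map_eq_bot_iff_of_injective _ H.subtype_injective] at hle

end Cfsg.Agent.S0931
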