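import Mathlib
import Cfsg.Statements.S0932
import Cfsg.Agent.Lib.Char.Induce

set_option autoImplicit false
open Cfsg

namespace Cfsg.Agent.S0932

/-- Let H be a subgroup of the finite group G and ξ a character of H. For every g ∈ G, the sum of ξ h / ξ 1 over the elements h ∈ H that are conjugate in G to g equals the central character at g of the character of G induced from ξ (class size times value divided by degree). -/
theorem result {G : Type*} [Group G] [Fintype G] (H : Subgroup G) (ξ : H → ℂ) (hξ : Cfsg.IsCharacter H ξ) (g : G) : Cfsg.inducedCentralChar H ξ g = Cfsg.centralChar (Cfsg.indFun H ξ) g := by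
  classical
  letI := Fintype.ofFinite H
  rw [Cfsg.inducedCentralChar, Cfsg.centralChar, H7.indFun_one, H7.indFun_eq_sum_isConj,
    finsum_mem_eq_finite_toFinset_sum _ (Set.toFinite _), ← Finset.sum_div]
  have h1 : (Set.toFinite {h : H | IsConj g (h : G)}).toFinset =
      Finset.univ.filter (fun h : H => IsConj g (h : G)) := by ext; simp
  rw [h1]
  have h2 := H7.card_eq_index_mul H
  have h3 := H7.card_eq_index_mul (Subgroup.centralizer ({g} : Set G))
  have h4 := H7.card_ne_zero' H
  have h5 := H7.index_ne_zero' H
  by_cases h0 : ξ 1 = 0
  · simp [h0]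
  · rw [h2] at h3
    field_simp
    linear_combination (∑ h ∈ Finset.univ.filter (fun h : H => IsConj g (h : G)), ξ h) * h3

end Cfsg.Agent.S0932
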