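import Mathlib
import Cfsg.Statements.S0933
import Cfsg.Agent.Lib.Block.Vanish
import Cfsg.Agent.Lib.Block.Reg

set_option autoImplicit false
open Cfsg

namespace Cfsg.Agent.S0933

/-- Let H be a subgroup of the finite group G and ξ an irreducible character of H such that the induced function ξ^G is an irreducible character of G. Then, relative to any maximal ideal M of the algebraic integers containing the prime p, the block of ξ induces the block of ξ^G. -/
theorem result {G : Type*} [Group G] [Fintype G] (p : ℕ) [Fact p.Prime] (M : Ideal Cfsg.AlgInt) (hM : Cfsg.IsPModular p M) (H : Subgroup G) (ξ : Cfsg.IrrCharacter H) (hind : Cfsg.IsIrrCharacter G (Cfsg.indFun H (ξ : H → ℂ))) : Cfsg.IsInducedBlock M H (Cfsg.blockOf M (ξ : H → ℂ)) (Cfsg.blockOf M (Cfsg.indFun H (ξ : H → ℂ))) := by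
  haveI := H33.isMaximal_of hM
  let χ : Cfsg.IrrCharacter G := ⟨_, hind⟩
  refine ⟨H33.isPBlock_blockOf ξ, H33.isPBlock_blockOf χ, fun ξ' hξ' χ' hχ' g => ?_⟩
  rw [H33.memLocalIdeal_sub_iff (H34.inducedCentralChar_mem_O H ξ' g) (H33.centralChar_mem_O M χ' g),
    H34.red_inducedCentralChar, ← H33.lam_eq_of_sameBlock hξ', ← H34.red_inducedCentralChar,
    H84.inducedCentralChar_eq]
  exact (H33.sameBlock_iff χ χ').1 hχ' g

end Cfsg.Agent.S0933
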