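import Mathlib
import Cfsg.Statements.S0934
import Cfsg.Agent.Lib.Block.Vanish
import Cfsg.Agent.Lib.Block.Reg

set_option autoImplicit false
open Cfsg

namespace Cfsg.Agent.S0934

/-- Let H be a subgroup of the finite group G and fix a maximal ideal M of the algebraic integers containing the prime p. If the block b of H induces the block B of G and ξ ∈ b, then there is χ ∈ B whose restriction to H has nonzero inner product with ξ. -/
theorem result {G : Type*} [Group G] [Fintype G] (p : ℕ) [Fact p.Prime] (M : Ideal Cfsg.AlgInt) (hM : Cfsg.IsPModular p M) (H : Subgroup G) [Fintype H] (b : Set (Cfsg.IrrCharacter H)) (B : Set (Cfsg.IrrCharacter G)) (hind : Cfsg.IsInducedBlock M H b B) (ξ : Cfsg.IrrCharacter H) (hξ : ξ ∈ b) : ∃ χ ∈ B, Cfsg.classInner (fun h : H => (χ : G → ℂ) h) (ξ : H → ℂ) ≠ 0 := by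
  classical
  haveI := H33.isMaximal_of hM
  obtain ⟨χ₀, hχ₀⟩ := H33.block_nonempty hind.2.1
  have h1 := H84.om_induced hind hξ hχ₀ (H34.isClassFunction_blockCoeff B)
    (H33.blockCoeff_mem_O hind.2.1)
  rw [H84.om_blockCoeff_of_mem hχ₀, H33.red_one, ← H84.om_indFun H (H34.isClassFunction_blockCoeff B),
    H84.om_blockCoeff, H34.blockPart_eq] at h1
  by_contra hne
  push Not at hne
  rw [Finset.sum_eq_zero, zero_div, H33.red_zero] at h1
  · exact zero_ne_one h1
  · intro χ _
    split_ifs with hχ
    · rw [H7.classInner_indFun_left H _ (H33.irr_isClassFunction χ),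
        H6.classInner_eq_zero_comm.1 (hne χ hχ), zero_mul]
    · rfl

end Cfsg.Agent.S0934
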