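import Mathlib
import Cfsg.Statements.S0940
import Cfsg.Agent.Lib.Block.DefVan
import Cfsg.Agent.Lib.H85.Prin

set_option autoImplicit false
open Cfsg

namespace Cfsg.Agent.S0940

open H33

attribute [local irreducible] H33.instFieldF

open Classical in
noncomputable def ind (p : ℕ) (G : Type*) [Group G] : G → ℂ :=
  fun x => if H35.IsPElt p x then 1 else 0

theorem ind_mem_O {p : ℕ} {G : Type*} [Group G] (M : Ideal AlgInt) [M.IsMaximal] (x : G) :
    ind p G x ∈ O M := by
  unfold ind
  split_ifs
  exacts [one_mem _, zero_mem _]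

theorem ind_class {p : ℕ} {G : Type*} [Group G] : IsClassFunction G (ind p G) := by
  intro g h
  have : H35.IsPElt p (h * g * h⁻¹) ↔ H35.IsPElt p g := by
    simp only [H35.IsPElt, H35.orderOf_conj]
  unfold ind
  rw [propext this]

theorem key {G : Type*} [Group G] [Finite G] {p : ℕ} [Fact p.Prime] {M : Ideal AlgInt} [M.IsMaximal]
    (hM : IsPModular p M) {J : MonoidAlgebra ℂ G} (hJ : IsCent J) (hO : J ∈ OG M G)
    (h0 : ∀ χ : IrrCharacter G, red M (omega (χ : G → ℂ) J) = 0) (h : G) :
    red M (chiL (ind p G) (J * MonoidAlgebra.single h 1)) = 0 := by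
  classical
  letI := Fintype.ofFinite G
  obtain ⟨a, m, ha, hm, h1, h2⟩ := H85.exists_integral_comb (G := G) p (x := 1)
    H35.not_dvd_orderOf_one
  have haO : ∀ χ, a χ ∈ O M := fun χ => mem_O_of_isIntegral M (ha χ)
  set θ : G → ℂ := ∑ χ : IrrCharacter G, a χ • (χ : G → ℂ) with hθ
  have hθa : ∀ y, θ y = ∑ χ : IrrCharacter G, a χ * (χ : G → ℂ) y := fun y => by
    simp [hθ, Finset.sum_apply]
  have hθO : ∀ y, θ y ∈ O M := fun y => by
    rw [hθa]
    exact sum_mem fun χ _ => mul_mem (haO χ) (irr_mem_O M χ y)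
  have hX : J * MonoidAlgebra.single h 1 ∈ OG M G := mul_mem hO (single_one_mem_OG h)
  have hred : (fun y => red M (θ y)) = (m : F M) • fun y => red M (ind p G y) := by
    funext y
    by_cases hy : H35.IsPElt p y
    · have : red M (θ y) = red M (θ 1) := by
        rw [hθa, hθa, H35.red_sum_mul _ _ _ haO (fun χ => irr_mem_O M χ y),
          H35.red_sum_mul _ _ _ haO (fun χ => irr_mem_O M χ 1)]
        refine Finset.sum_congr rfl fun χ _ => ?_
        rw [H85.red_char_pReg hM (H84.irr_char χ) y, H35.pReg_eq_one hy]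
      rw [this, hθa, h1, red_natCast]
      simp [ind, hy]
    · rw [hθa, h2 y fun hc => hy ((H35.pReg_eq_one_iff p).1 (isConj_one_right.1 hc))]
      simp [ind, hy]
  have h3 : red M (chiL θ (J * MonoidAlgebra.single h 1)) = 0 := by
    rw [hθ, chiL_sum_fun]
    simp only [chiL_smul_fun, chiL_cent_mul _ hJ, chiL_single, one_mul]
    rw [H35.red_sum_mul _ _ _ haO fun χ => mul_mem (omega_mem_O χ hJ hO) (irr_mem_O M χ h)]
    refine Finset.sum_eq_zero fun χ _ => ?_
    rw [red_mul (omega_mem_O χ hJ hO) (irr_mem_O M χ h), h0, zero_mul, mul_zero]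
  rw [red_chiL hθO hX, hred, chiL_smul_fun, ← red_chiL (ind_mem_O M) hX, mul_eq_zero] at h3
  refine h3.resolve_left fun h => hm ?_
  rwa [← red_natCast, red_natCast_eq_zero_iff hM] at h

theorem chiL_ind_fB {G : Type*} [Group G] [Finite G] {p : ℕ} [Fact p.Prime] {M : Ideal AlgInt}
    [M.IsMaximal] (hM : IsPModular p M) {B : Set (IrrCharacter G)} (hB : IsPBlock M B) {g : G}
    (hg : ¬ p ∣ orderOf g) :
    chiL (ind p G) (fB B * MonoidAlgebra.single g⁻¹ 1) = blockCoeff B g := by
  classical
  letI := Fintype.ofFinite G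
  rw [H34.chiL_fB_mul_single B ind_class, H34.blockPart_congr_section hM B
    (fun g => blockCoeff_mem_O hB g) _ (H6.classInd 1) _ ?_,
    ← H34.chiL_fB_mul_single B (H6.isClassFunction_classInd 1), chiL_mul_single,
    Finset.sum_eq_single g]
  · rw [mul_inv_cancel, H6.classInd_of_isConj (IsConj.refl _), mul_one, coeff_fB]
  · intro h _ hh
    rw [H6.classInd_of_not_isConj, mul_zero]
    rw [isConj_one_right, mul_inv_eq_one]
    exact hh
  · simp
  · intro h hh
    rw [H35.pPart_eq_one (by rwa [orderOf_inv]), isConj_one_right, H35.pPart_eq_one_iff] at hh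
    by_cases h1 : h = 1
    · subst h1
      rw [H6.classInd_of_isConj (IsConj.refl _), ind, if_pos H35.isPElt_one]
    · rw [H6.classInd_of_not_isConj (by rwa [isConj_one_right]), ind,
        if_neg fun hp => h1 (hp.eq_one_of_not_dvd hh)]


/-- Let G be a finite group and M a maximal ideal of the algebraic integers containing the prime p. For every p-regular g, the idempotent coefficient of the principal block at g (the inverse of the group order times the sum over χ in the principal block of χ 1 * conj (χ g)) is congruent modulo the local ideal at M to N / R, where N is the number of pairs (x, y) with x of p-power order, y of order prime to p and x * y = g, and R is the number of elements of G of order prime to p. -/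
theorem result {G : Type*} [Group G] [Finite G] (p : ℕ) [Fact p.Prime] (M : Ideal Cfsg.AlgInt) (hM : Cfsg.IsPModular p M) (g : G) (hg : ¬ p ∣ orderOf g) : Cfsg.MemLocalIdeal M (Cfsg.blockCoeff (Cfsg.principalBlock M G) g - (Nat.card {xy : G × G // (∃ k : ℕ, orderOf xy.1 = p ^ k) ∧ ¬ p ∣ orderOf xy.2 ∧ xy.1 * xy.2 = g} : ℂ) / (Nat.card {y : G // ¬ p ∣ orderOf y} : ℂ)) := by
  classical
  haveI := isMaximal_of hM
  letI := Fintype.ofFinite G
  set n : ℕ := Nat.card {y : G // ¬ p ∣ orderOf y} with hn
  set k : ℕ := Nat.card {xy : G × G // (∃ k : ℕ, orderOf xy.1 = p ^ k) ∧ ¬ p ∣ orderOf xy.2 ∧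
    xy.1 * xy.2 = g} with hk
  have hn0 : red M (n : ℂ) ≠ 0 := H34.red_card_regular_ne_zero hM
  have hB := isPBlock_principalBlock (M := M) (G := G)
  let R : MonoidAlgebra ℂ G := mk fun y => if p ∣ orderOf y then 0 else 1
  have hRc : IsCent R := isCent_mk fun g h => by simp only [H35.orderOf_conj]
  have hRO : R ∈ OG M G := mk_mem_OG fun g => by
    split_ifs
    exacts [zero_mem _, one_mem _]
  have hnO : (n : ℂ) ∈ O M := natCast_mem _ _
  have hωR : ∀ χ : G → ℂ, omega χ R = (∑ y, pRegularPart p χ y) / χ 1 := fun χ => by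
    rw [omega_apply, chiL_apply]
    congr 1
    refine Finset.sum_congr rfl fun y _ => ?_
    rw [H84.reg_apply, coeff_mk]
    split_ifs <;> simp
  have hω1 : omega (oneIrr G : G → ℂ) R = n := by
    rw [hωR, H85.sum_reg_eq, hn, Nat.card_eq_fintype_card, Fintype.card_subtype]
    simp
  have hfO := smul_mem_OG hnO (fB_mem_OG hB)
  have hkey := key hM (J := R - (n : ℂ) • fB (principalBlock M G))
    (hRc.sub ((isCent_fB _).smul _)) (sub_mem hRO hfO) (fun χ => ?_) g⁻¹
  · rw [sub_mul, map_sub, smul_mul_assoc, map_smul, chiL_ind_fB hM hB hg, smul_eq_mul] at hkey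
    have hc : chiL (ind p G) (R * MonoidAlgebra.single g⁻¹ 1) = k := by
      let e : {xy : G × G // (∃ k : ℕ, orderOf xy.1 = p ^ k) ∧ ¬ p ∣ orderOf xy.2 ∧
          xy.1 * xy.2 = g} ≃ {y : G // ¬ p ∣ orderOf y ∧ H35.IsPElt p (y * g⁻¹)} :=
        { toFun := fun x => ⟨x.1.2, x.2.2.1, by
            have := H35.IsPElt.inv x.2.1
            have h3 : x.1.2 * g⁻¹ = x.1.1⁻¹ := by
              rw [mul_inv_eq_iff_eq_mul, eq_inv_mul_iff_mul_eq]
              exact x.2.2.2
            rwa [h3]⟩
          invFun := fun y => ⟨(g * y.1⁻¹, y.1), by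
            have := H35.IsPElt.inv y.2.2
            rwa [mul_inv_rev, inv_inv] at this, y.2.1, by simp⟩
          left_inv := by
            rintro ⟨⟨x, y⟩, h1, h2, h3⟩
            ext
            · simp only at h3 ⊢
              rw [← h3, mul_inv_cancel_right]
            · rfl
          right_inv := fun _ => rfl }
      rw [chiL_mul_single, hk, Nat.card_congr e, Nat.card_eq_fintype_card, Fintype.card_subtype,
        Finset.card_filter]
      push_cast
      refine Finset.sum_congr rfl fun y _ => ?_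
      rw [coeff_mk, ind]
      by_cases h1 : p ∣ orderOf y <;> by_cases h2 : H35.IsPElt p (y * g⁻¹) <;> simp [h1, h2]
    have hkO : (k : ℂ) ∈ O M := natCast_mem _ _
    have hbO := blockCoeff_mem_O hB g
    rw [hc, red_sub hkO (mul_mem hnO hbO), red_mul hnO hbO, sub_eq_zero] at hkey
    rw [memLocalIdeal_sub_iff hbO (div_mem_O hkO hn0), red_div hkO hn0, hkey,
      mul_div_cancel_left₀ _ hn0]
  · rw [map_sub, map_smul, smul_eq_mul]
    by_cases hχ : χ ∈ principalBlock M G
    · rw [omega_fB_of_mem hχ, mul_one, red_sub (omega_mem_O χ hRc hRO) hnO,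
        red_omega χ hRc hRO, lam_eq_of_mem hB hχ oneIrr_mem_principalBlock,
        ← red_omega _ hRc hRO, hω1, sub_self]
    · rw [omega_fB_of_not_mem hχ, mul_zero, sub_zero, hωR,
        not_not.1 fun h => hχ ((H85.mem_prin_iff hM χ).2 h), zero_div, red_zero]

end Cfsg.Agent.S0940
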