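import Cfsg.Statements.S0951
import Cfsg.Agent.Lib.ZStar.BS

set_option autoImplicit false
open Cfsg

namespace Cfsg.Agent.S0951

open scoped ComplexConjugate


/-- Let S be a Sylow 2-subgroup of the finite group G isomorphic to the quaternion group of order 8. Suppose G has no nontrivial normal subgroup of odd order and G ≠ S. Then, relative to any maximal ideal M of the algebraic integers containing 2, the principal block of G consists of exactly 7 irreducible characters. -/
theorem result {G : Type*} [Group G] [Finite G] (M : Ideal Cfsg.AlgInt) (hM : Cfsg.IsPModular 2 M) (S : Sylow 2 G) (e : (S : Subgroup G) ≃* QuaternionGroup 2) (hO : ∀ N : Subgroup G, N.Normal → Odd (Nat.card N) → N = ⊥) (hG : (S : Subgroup G) ≠ ⊤) : Nat.card (Cfsg.principalBlock M G) = 7 := by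
  haveI := H33.isMaximal_of hM
  letI := Fintype.ofFinite G
  obtain ⟨a, b, hq⟩ := H41.exists_q8 e
  have hR := H41.rankOne_of_sylow S fun u hu v hv h1 h2 _ => by
    have key : ∀ w ∈ (S : Subgroup G), orderOf w = 2 → w = a * a := fun w hw h => by
      rcases hq.sq_cases hw with (h3 | h3) | h3
      · exact absurd h3 (H41.ne_one_of_orderOf_two h)
      · exact h3
      · exact absurd (h3.symm.trans (H41.mul_self_of_orderOf_two h)) hq.aa_ne
    exact (key u hu h1).trans (key v hv h2).symm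
  obtain ⟨z, t, h⟩ := H41.exists_q8Hyp hR S e fun N hN hc => by
    rw [hO N hN (by
      rw [← hc.index_eq_card, ← Nat.not_even_iff_odd, even_iff_two_dvd]
      exact S.not_dvd_index), Subgroup.isComplement'_bot_left] at hc
    exact hG hc
  have hc := hR.mem_center (H41.core_eq_bot_of_odd_normal hO) h.orderOf_z
  obtain ⟨Φ1, Φ2, Φ3, d1, d2, d3, φ2, φ3, ho2, ho3, hd1, hd2, hd3, h11, h22, h33, h12, h13, h23,
    hvv, -, hplus⟩ := h.central_data hc hM (H84.bset (principalBlock M G))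
      (fun χ => (χ : G → ℂ)) H84.irr_gen (fun _ _ _ _ => rfl)
  choose T hT using fun χ : IrrCharacter G => h.exists_int (H84.irr_gen χ)
  have hTT : ∑ ξ ∈ H84.bset (principalBlock M G), T ξ ^ 2 = 4 := by
    have := h.sum_t hM
    simp only [hT, map_intCast] at this
    exact_mod_cast (show ((∑ ξ ∈ H84.bset (principalBlock M G), T ξ ^ 2 : ℤ) : ℂ) = 4 by
      rw [← this]; push_cast; exact Finset.sum_congr rfl fun _ _ => sq _)
  have horth : ∀ (d : IrrCharacter G → ℤ) (Φ : G → ℂ),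
      (∀ χ : IrrCharacter G, (d χ : ℂ) = 2 * classInner (pRegularPart 2 (χ : G → ℂ)) Φ) →
      ∀ g : G, 2 ∣ orderOf g →
        ∑ χ ∈ H84.bset (principalBlock M G), (d χ : ℂ) * (χ : G → ℂ) g = 0 := by
    intro d Φ hd g hg
    have h1 : ∑ χ ∈ H84.bset (principalBlock M G), (d χ : ℂ) * conj ((χ : G → ℂ) g) = 0 := by
      simp only [hd, classInner, Finset.mul_sum, Finset.sum_mul]
      rw [Finset.sum_comm]
      refine Finset.sum_eq_zero fun c _ => ?_
      by_cases hc2 : 2 ∣ orderOf c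
      · simp [H84.reg_of_sing _ hc2]
      simp only [H84.reg_of_reg _ hc2]
      have h2 := H41.sum_prin_orth hM (g := c) (h := g) (by
        rw [H35.pPart_eq_one hc2, isConj_one_right]
        exact (H35.pPart_ne_one_iff 2).2 hg)
      rw [← mul_zero (2 * (Nat.card G : ℂ)⁻¹ * conj (Φ c)), ← h2, Finset.mul_sum]
      exact Finset.sum_congr rfl fun χ _ => by ring
    simpa using congrArg conj h1
  have eT : ∀ (d : IrrCharacter G → ℤ) (Φ : G → ℂ),
      (∀ χ : IrrCharacter G, (d χ : ℂ) = 2 * classInner (pRegularPart 2 (χ : G → ℂ)) Φ) →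
      ∑ χ ∈ H84.bset (principalBlock M G), T χ * d χ = 0 := by
    intro d Φ hd
    have h1 := horth d Φ hd t (by rw [h.ht]; norm_num)
    simp only [hT, mul_comm (d _ : ℂ)] at h1
    exact_mod_cast h1
  choose v hv using fun χ : IrrCharacter G => H41.exists_int_of_invol (H84.irr_gen χ) h.orderOf_z
  have hv0 : ∀ χ ∈ H84.bset (principalBlock M G), v χ ≠ 0 := by
    intro χ _ h0
    have h1 := hv χ
    rw [h0, Int.cast_zero] at h1
    rcases H41.irr_central_invol hc h.orderOf_z χ with h2 | h2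
    · exact H84.irr_one_ne_zero χ (by simpa [h1] using (h2 1).symm)
    · exact H84.irr_one_ne_zero χ (by simpa [h1] using (h2 1).symm)
  have eV : ∀ (d : IrrCharacter G → ℤ) (Φ : G → ℂ),
      (∀ χ : IrrCharacter G, (d χ : ℂ) = 2 * classInner (pRegularPart 2 (χ : G → ℂ)) Φ) →
      ∑ χ ∈ H84.bset (principalBlock M G), d χ * v χ = 0 := by
    intro d Φ hd
    have h1 := horth d Φ hd z (by rw [h.orderOf_z])
    simp only [hv] at h1
    exact_mod_cast h1
  have v1 := eV _ _ hd1
  have v2 := eV _ _ hd2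
  have v3 := eV _ _ hd3
  have bd : ∀ d d' : IrrCharacter G → ℤ, ∑ k ∈ H84.bset (principalBlock M G), d k ^ 2 = 4 →
      ∑ k ∈ H84.bset (principalBlock M G), d' k ^ 2 = 4 →
      ∑ k ∈ H84.bset (principalBlock M G), d k * d' k = 2 →
      ∑ k ∈ H84.bset (principalBlock M G), d k * v k = 0 →
      ∑ k ∈ H84.bset (principalBlock M G), d' k * v k = 0 →
      ∀ i ∈ H84.bset (principalBlock M G), -1 ≤ d i - d' i ∧ d i - d' i ≤ 1 := by
    intro d d' e1 e2 e3 e4 e5 i hi
    refine H41.abs_le_one_of_norm_four (d := fun k => d k - d' k) hv0 ?_ ?_ hi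
    · have : ∑ k ∈ H84.bset (principalBlock M G), (d k - d' k) ^ 2 =
          ∑ k ∈ H84.bset (principalBlock M G), d k ^ 2 +
            ∑ k ∈ H84.bset (principalBlock M G), d' k ^ 2 -
            2 * ∑ k ∈ H84.bset (principalBlock M G), d k * d' k := by
        rw [Finset.mul_sum, ← Finset.sum_add_distrib, ← Finset.sum_sub_distrib]
        exact Finset.sum_congr rfl fun k _ => by ring
      rw [this, e1, e2, e3]; norm_num
    · simp only [sub_mul, Finset.sum_sub_distrib, e4, e5, sub_zero]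
  have key : ∀ χ ∈ H84.bset (principalBlock M G), (T χ + d1 χ + d2 χ + d3 χ) ^ 2 = 4 := by
    intro χ hχ
    by_cases hp : χ ∈ H41.plusSet M z
    · have := hplus χ χ hp rfl
      rw [hT] at this
      exact_mod_cast this
    · rw [h.mem_plusSet_iff hc hM (H84.mem_bset.1 hχ), not_not, hT, Int.cast_eq_zero] at hp
      have b1 := H41.abs_le_one_of_norm_four hv0 h11 v1 hχ
      have b2 := H41.abs_le_one_of_norm_four hv0 h22 v2 hχ
      have b3 := H41.abs_le_one_of_norm_four hv0 h33 v3 hχ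
      have b12 := bd _ _ h11 h22 h12 v1 v2 χ hχ
      have b13 := bd _ _ h11 h33 h13 v1 v3 χ hχ
      have b23 := bd _ _ h22 h33 h23 v2 v3 χ hχ
      have p1 := H41.dvd_sub_deg hM (H84.irr_char χ) h.pElt_t (hT χ)
      have p2 : (charDegree (χ : G → ℂ) : ℤ) = d1 χ + φ2 * d2 χ + φ3 * d3 χ := by
        have := hvv χ hχ
        rw [← H84.cast_deg] at this
        exact_mod_cast this
      have p3 : (charDegree (χ : G → ℂ) : ℤ) ≠ 0 := by exact_mod_cast H84.deg_ne_zero χ
      obtain ⟨a2, rfl⟩ := ho2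
      obtain ⟨a3, rfl⟩ := ho3
      have p4 : (charDegree (χ : G → ℂ) : ℤ) = d1 χ + d2 χ + d3 χ + 2 * (a2 * d2 χ + a3 * d3 χ) := by
        rw [p2]; ring
      have p5 : ¬ (d1 χ = 0 ∧ d2 χ = 0 ∧ d3 χ = 0) := fun ⟨e1, e2, e3⟩ =>
        p3 (by rw [p2, e1, e2, e3]; ring)
      have p6 : d1 χ + d2 χ + d3 χ = 2 ∨ d1 χ + d2 χ + d3 χ = -2 := by omega
      rw [hp, zero_add]
      rcases p6 with p6 | p6 <;> rw [p6] <;> norm_num
  have h28 : ∑ χ ∈ H84.bset (principalBlock M G), (T χ + d1 χ + d2 χ + d3 χ) ^ 2 = 28 := by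
    have : ∀ χ, (T χ + d1 χ + d2 χ + d3 χ) ^ 2 = T χ ^ 2 + d1 χ ^ 2 + d2 χ ^ 2 + d3 χ ^ 2 +
        2 * (T χ * d1 χ + T χ * d2 χ + T χ * d3 χ + d1 χ * d2 χ + d1 χ * d3 χ + d2 χ * d3 χ) :=
      fun χ => by ring
    simp only [this, Finset.sum_add_distrib, ← Finset.mul_sum, hTT, h11, h22, h33, h12, h13, h23,
      eT _ _ hd1, eT _ _ hd2, eT _ _ hd3]
    norm_num
  rw [Finset.sum_congr rfl key, Finset.sum_const, H84.card_bset, nsmul_eq_mul] at h28
  omega

end Cfsg.Agent.S0951
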