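import Mathlib
import Cfsg.Statements.S0952
import Cfsg.Agent.Lib.Block.Strong
import Cfsg.Agent.S0913

set_option autoImplicit false
open scoped ComplexConjugate
open Cfsg

namespace Cfsg.Agent.S0952

/-- Let χ and ψ be irreducible characters of the finite group G lying in different blocks relative to a maximal ideal M of the algebraic integers containing the prime p. Then the sum of χ x * conj (ψ x) over the elements x of order prime to p is zero. -/
theorem result {G : Type*} [Group G] [Finite G] (p : ℕ) [Fact p.Prime] (M : Ideal Cfsg.AlgInt) (hM : Cfsg.IsPModular p M) (χ ψ : Cfsg.IrrCharacter G) (h : ¬ Cfsg.SameBlock M (χ : G → ℂ) (ψ : G → ℂ)) : ∑ᶠ x ∈ {x : G | ¬ p ∣ orderOf x}, (χ : G → ℂ) x * conj ((ψ : G → ℂ) x) = 0 := by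
  classical
  haveI := H33.isMaximal_of hM
  letI := Fintype.ofFinite G
  have hB : Cfsg.IsPBlock M (Cfsg.blockOf M (χ : G → ℂ)) := ⟨χ, rfl⟩
  have := H34.sum_section_eq_zero hM _ (Cfsg.Agent.S0913.result p M hM _ hB)
    {x : G | ¬ p ∣ orderOf x} (fun g h hc hg => by
      rw [Set.mem_setOf_eq, ← H35.pPart_eq_one_iff] at hg ⊢
      rwa [hg, isConj_one_right] at hc) (χ := χ) (ψ := ψ)
    (fun g => by rw [sub_self]; exact H33.memLocalIdeal_zero) h
  rw [finsum_mem_def, finsum_eq_sum_of_fintype]
  refine Eq.trans (Finset.sum_congr rfl fun x _ => ?_) this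
  rw [Set.indicator_apply]
  congr

end Cfsg.Agent.S0952
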