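import Cfsg.Statements.S0955
import Mathlib
import Cfsg.Agent.Lib.Block.Bridge
import Cfsg.Agent.Lib.Core.PCore

set_option autoImplicit false
set_option linter.style.haveILetI false
open Cfsg

namespace Cfsg.Agent.S0955

/-- Let D be a defect group of a block of the finite group G relative to a maximal ideal M of the algebraic integers containing the prime p. Then D is the largest normal p-subgroup of its own normalizer: O_p(N_G(D)) = D. -/
theorem result {G : Type*} [Group G] [Finite G] (p : ℕ) [Fact p.Prime] (M : Ideal Cfsg.AlgInt) (hM : Cfsg.IsPModular p M) (B : Set (Cfsg.IrrCharacter G)) (hB : Cfsg.IsPBlock M B) (D : Subgroup G) (hD : Cfsg.IsDefectGroup p M B D) : (Cfsg.pCore p (Subgroup.normalizer (D : Set G))).map (Subgroup.normalizer (D : Set G)).subtype = D := by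
  haveI := H33.isMaximal_of hM
  apply le_antisymm
  · refine H33.le_defect_of_Nor_le hM hB hD (H1.isPGroup_pCore.map _)
      (Subgroup.map_subtype_le _) ?_
    have h := (H86.map_le_Nor_map (H86.Nor D).subtype_injective (Q := Cfsg.pCore p (H86.Nor D))
      (P := ⊤)).mpr (Subgroup.normalizer_eq_top _).ge
    rwa [H86.top_map_subtype] at h
  · haveI : (D.subgroupOf (H86.Nor D)).Normal := Subgroup.normal_in_normalizer
    have h : D.subgroupOf (H86.Nor D) ≤ Cfsg.pCore p (H86.Nor D) :=
      H1.le_pCore (H33.defect_isPGroup hD).comap_subtype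
    have := Subgroup.map_mono (f := (H86.Nor D).subtype) h
    rwa [Subgroup.map_subgroupOf_eq_of_le Subgroup.le_normalizer] at this

end Cfsg.Agent.S0955
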