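import Mathlib
import Cfsg.Statements.S0957
-- import your own Cfsg.Agent.* helpers here

set_option autoImplicit false
open Cfsg

namespace Cfsg.Agent.S0957

theorem dvd_card_of_orbits {P X : Type*} [Group P] [MulAction P X] [Finite X] (d : ℕ)
    (h : ∀ x : X, d ∣ (MulAction.stabilizer P x).index) : d ∣ Nat.card X := by
  classical
  have : Fintype (MulAction.orbitRel.Quotient P X) := Fintype.ofFinite _
  rw [Nat.card_congr (MulAction.selfEquivSigmaOrbits' P X), Nat.card_sigma]
  refine Finset.dvd_sum fun q _ => ?_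
  induction q using Quotient.inductionOn with
  | _ x =>
    have := h x
    rw [MulAction.index_stabilizer] at this
    simpa [MulAction.orbitRel.Quotient.orbit_mk] using this

/-- Let P be a Sylow p-subgroup of the finite group G, let g, h ∈ G and let p ^ d be the order of a Sylow p-subgroup of the centralizer of g. Then the number of pairs (y, z) with y conjugate to g, z conjugate to h and z * y⁻¹ ∈ P is divisible by the order of P divided by p ^ d. -/
theorem result {G : Type*} [Group G] [Finite G] (p : ℕ) [Fact p.Prime] (P : Sylow p G) (g h : G) (S : Sylow p (Subgroup.centralizer ({g} : Set G))) : Nat.card P / Nat.card S ∣ Nat.card {yz : G × G // IsConj g yz.1 ∧ IsConj h yz.2 ∧ yz.2 * yz.1⁻¹ ∈ (P : Subgroup G)} := by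
  classical
  let X := {yz : G × G // IsConj g yz.1 ∧ IsConj h yz.2 ∧ yz.2 * yz.1⁻¹ ∈ (P : Subgroup G)}
  let act : MulAction (P : Subgroup G) X :=
    { smul := fun u x => ⟨((u : G) * x.1.1 * (u : G)⁻¹, (u : G) * x.1.2 * (u : G)⁻¹),
        x.2.1.trans (isConj_iff.2 ⟨u, rfl⟩), x.2.2.1.trans (isConj_iff.2 ⟨u, rfl⟩), by
          have : (u : G) * x.1.2 * (u : G)⁻¹ * ((u : G) * x.1.1 * (u : G)⁻¹)⁻¹ =
            u * (x.1.2 * x.1.1⁻¹) * (u : G)⁻¹ := by group
          simp only [this]
          exact mul_mem (mul_mem u.2 x.2.2.2) (inv_mem u.2)⟩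
      one_smul := fun x => Subtype.ext (Prod.ext (by
        change ((1 : (P : Subgroup G)) : G) * x.1.1 * ((1 : (P : Subgroup G)) : G)⁻¹ = _; simp) (by
        change ((1 : (P : Subgroup G)) : G) * x.1.2 * ((1 : (P : Subgroup G)) : G)⁻¹ = _; simp))
      mul_smul := fun u v x => Subtype.ext (Prod.ext (by
        change ((u * v : (P : Subgroup G)) : G) * x.1.1 * ((u * v : (P : Subgroup G)) : G)⁻¹ =
          (u : G) * ((v : G) * x.1.1 * (v : G)⁻¹) * (u : G)⁻¹
        simp [mul_assoc]) (by
        change ((u * v : (P : Subgroup G)) : G) * x.1.2 * ((u * v : (P : Subgroup G)) : G)⁻¹ =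
          (u : G) * ((v : G) * x.1.2 * (v : G)⁻¹) * (u : G)⁻¹
        simp [mul_assoc])) }
  refine dvd_card_of_orbits (P := (P : Subgroup G)) (X := X) _ fun x => ?_
  obtain ⟨a, ha⟩ := isConj_iff.1 x.2.1
  -- the stabilizer embeds into the centralizer of `g`
  set T := MulAction.stabilizer (P : Subgroup G) x with hT
  let f : T →* Subgroup.centralizer ({g} : Set G) :=
    { toFun := fun t => ⟨a⁻¹ * ((t : (P : Subgroup G)) : G) * a, by
        have h1 : ((t : (P : Subgroup G)) : G) * x.1.1 * ((t : (P : Subgroup G)) : G)⁻¹ = x.1.1 :=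
          congrArg (fun z : X => z.1.1) t.2
        rw [Subgroup.mem_centralizer_singleton_iff]
        rw [← ha] at h1
        calc a⁻¹ * ((t : (P : Subgroup G)) : G) * a * g
            = a⁻¹ * (((t : (P : Subgroup G)) : G) * (a * g * a⁻¹) * ((t : (P : Subgroup G)) : G)⁻¹) *
              ((t : (P : Subgroup G)) : G) * a := by group
          _ = g * (a⁻¹ * ((t : (P : Subgroup G)) : G) * a) := by rw [h1]; group⟩
      map_one' := by ext; simp
      map_mul' := fun s t => by ext; simp [mul_assoc] }
  have hf : Function.Injective f := by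
    intro s t hst
    have := congrArg Subtype.val hst
    simp only [f, MonoidHom.coe_mk, OneHom.coe_mk, mul_left_inj, mul_right_inj] at this
    exact Subtype.ext (Subtype.ext this)
  have hTp : IsPGroup p T := P.2.to_subgroup T
  have hdvd : Nat.card T ∣ Nat.card S := by
    obtain ⟨k, hk⟩ := IsPGroup.iff_card.1 hTp
    have := Subgroup.card_dvd_of_injective f hf
    rw [S.card_eq_multiplicity, hk]
    rw [hk] at this
    exact pow_dvd_pow p (((Fact.out : p.Prime).pow_dvd_iff_le_factorization Nat.card_pos.ne').1 this)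
  have hS : Nat.card S ∣ Nat.card P := by
    rw [S.card_eq_multiplicity, P.card_eq_multiplicity]
    refine pow_dvd_pow p ?_
    exact (Nat.factorization_le_iff_dvd Nat.card_pos.ne' Nat.card_pos.ne').2
      (Subgroup.card_subgroup_dvd_card _) p
  obtain ⟨c, hc⟩ := hdvd
  obtain ⟨d, hd⟩ := hS
  have h1 := T.index_mul_card
  have hpos : 0 < Nat.card S := Nat.card_pos
  have hposT : 0 < Nat.card T := Nat.card_pos
  rw [hd, Nat.mul_div_cancel_left _ hpos]
  refine ⟨c, ?_⟩
  have : T.index * Nat.card T = (d * c) * Nat.card T := by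
    rw [h1]; change Nat.card P = _; rw [hd, hc]; ring
  exact Nat.eq_of_mul_eq_mul_right hposT this

end Cfsg.Agent.S0957
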