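import Cfsg.Statements.S0959
import Mathlib
import Cfsg.Agent.Lib.Block.Defect

set_option autoImplicit false
set_option linter.style.haveILetI false
open Cfsg

namespace Cfsg.Agent.S0959

/-- Let B be a block of the finite group G with defect group D (relative to a maximal ideal M of the algebraic integers containing the prime p), and let P be a p-subgroup. Then there is an element g whose idempotent coefficient for B is a local integer outside the local ideal at M and which has a conjugate centralizing P, if and only if some conjugate of P is contained in D. -/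
theorem result {G : Type*} [Group G] [Finite G] (p : ℕ) [Fact p.Prime] (M : Ideal Cfsg.AlgInt) (hM : Cfsg.IsPModular p M) (B : Set (Cfsg.IrrCharacter G)) (hB : Cfsg.IsPBlock M B) (D : Subgroup G) (hD : Cfsg.IsDefectGroup p M B D) (P : Subgroup G) (hP : IsPGroup p P) : (∃ g : G, Cfsg.MemLocalRing M (Cfsg.blockCoeff B g) ∧ ¬ Cfsg.MemLocalIdeal M (Cfsg.blockCoeff B g) ∧ ∃ c : G, IsConj g c ∧ c ∈ Subgroup.centralizer (P : Set G)) ↔ ∃ x : G, P.map (MulAut.conj x).toMonoidHom ≤ D := by
  haveI := H33.isMaximal_of hM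
  have key := H33.br_eB_ne_zero_iff_le_cs hM hB hD hP
  constructor
  · rintro ⟨g, h1, h2, c, hc, hcP⟩
    obtain ⟨k, hk⟩ := key.mp (H33.br_eB_ne_zero_iff.mpr ⟨c, hcP, fun h0 => h2 (by
      rw [H33.blockCoeff_congr B hc]
      exact (H33.memLocalIdeal_iff_red (H33.blockCoeff_mem_O hB c)).mpr h0)⟩)
    refine ⟨k⁻¹, ?_⟩
    have := H86.cs_mono k⁻¹ hk
    rwa [H86.cs_inv_cs] at this
  · rintro ⟨x, hx⟩
    obtain ⟨g, hg, h0⟩ := H33.br_eB_ne_zero_iff.mp (key.mpr ⟨x⁻¹, by
      have := H86.cs_mono x⁻¹ hx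
      rwa [← H86.cs_def, H86.cs_inv_cs] at this⟩)
    exact ⟨g, H33.blockCoeff_mem_O hB g, fun h => h0 (H33.red_eq_zero_of_memLocalIdeal h), g,
      IsConj.refl g, hg⟩

end Cfsg.Agent.S0959
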