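import Cfsg.Statements.S0967
import Mathlib
import Cfsg.Agent.Base
import Cfsg.Agent.Lib.Block.Cover2

set_option autoImplicit false
open Cfsg

namespace Cfsg.Agent.S0967

/-- Let N be a normal subgroup of the finite group G of order prime to p and fix a maximal ideal M of the algebraic integers containing p. If χ is an irreducible character of G ⧸ N and ψ lies in the block of its inflation χ ∘ (quotient map), then ψ is itself inflated from an irreducible character ψ' of G ⧸ N lying in the block of χ. (Over a normal p'-subgroup, blocks of the quotient are whole blocks of G.) -/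
theorem result {G : Type*} [Group G] [Finite G] (p : ℕ) [Fact p.Prime] (M : Ideal Cfsg.AlgInt) (hM : Cfsg.IsPModular p M) (N : Subgroup G) [N.Normal] (hN : ¬ p ∣ Nat.card N) (χ : Cfsg.IrrCharacter (G ⧸ N)) (ψ : Cfsg.IrrCharacter G) (hψ : ψ ∈ Cfsg.blockOf M ((χ : G ⧸ N → ℂ) ∘ QuotientGroup.mk)) : ∃ ψ' : Cfsg.IrrCharacter (G ⧸ N), (ψ : G → ℂ) = (ψ' : G ⧸ N → ℂ) ∘ QuotientGroup.mk ∧ Cfsg.SameBlock M (χ : G ⧸ N → ℂ) (ψ' : G ⧸ N → ℂ) := by
  haveI := H33.isMaximal_of hM
  haveI := Fintype.ofFinite N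
  have h : SameBlock M (H35.infl N χ : G → ℂ) ψ := hψ
  have ho : H35.Over (H35.infl N χ : G → ℂ) (H84.irrOne N : N → ℂ) :=
    (H35.over_one_iff _).mpr fun n hn => H35.infl_of_mem χ hn
  obtain ⟨θ', hθ', ho'⟩ := H35.mem_upSet_of_sameBlock (H84.isPBlock_blockOf (H84.irrOne N))
    ⟨_, H84.mem_blockOf_self _, ho⟩ h
  obtain rfl := H35.eq_of_sameBlock_of_not_dvd hM hN hθ'
  obtain ⟨ψ', rfl⟩ := H35.exists_infl ((H35.over_one_iff ψ).mp ho')
  exact ⟨ψ', rfl, H35.sameBlock_of_infl hM hN h⟩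

end Cfsg.Agent.S0967
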