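import Cfsg.Statements.S0969
import Mathlib
import Cfsg.Agent.Base
import Cfsg.Agent.Lib.Block.Canon

set_option autoImplicit false
open Cfsg

namespace Cfsg.Agent.S0969

/-- Let D be a central p-subgroup of the finite group G and χ an irreducible character with the exponent of p in χ(1) equal to the exponent of p in the index of D; fix a maximal ideal M of the algebraic integers containing p. Then D is a defect group of the block of χ, and χ g = 0 whenever the p-part of g does not lie in D. -/
theorem result {G : Type*} [Group G] [Finite G] (p : ℕ) [Fact p.Prime] (M : Ideal Cfsg.AlgInt) (hM : Cfsg.IsPModular p M) (D : Subgroup G) (hD : IsPGroup p D) (hDZ : D ≤ Subgroup.center G) (χ : Cfsg.IrrCharacter G) (hdeg : (Cfsg.charDegree (χ : G → ℂ)).factorization p = D.index.factorization p) : Cfsg.IsDefectGroup p M (Cfsg.blockOf M (χ : G → ℂ)) D ∧ ∀ g x : G, Cfsg.IsPPart p g x → x ∉ D → (χ : G → ℂ) g = 0 := by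
  haveI := H33.isMaximal_of hM
  haveI := Fintype.ofFinite G
  haveI := Fintype.ofFinite D
  have hG := H35.sup_Cen_of_le_center hDZ
  haveI := H35.normal_of_sup_Cen hG
  obtain ⟨ξ, ho⟩ := H35.exists_under D χ
  have h1 : (ξ : D → ℂ) 1 = 1 := H6.irr_one_eq_one_of_comm
    (fun a b => Subtype.ext (Subgroup.mem_center_iff.mp (hDZ b.2) a)) ξ.2
  obtain ⟨h2, h3⟩ := H35.eq_canon_of_linear hM hD hG hdeg ho h1
  refine ⟨h3.isDefectGroup hM hD, fun g x hx hxD => ?_⟩
  rw [h2]
  exact H35.canon_of_not_mem _ _ (by rwa [H35.pPart_eq_of_isPPart hx])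

end Cfsg.Agent.S0969
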