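import Cfsg.Statements.S0995
import Mathlib
import Cfsg.Agent.Base
import Cfsg.Agent.Lib.Block.SelfCen

set_option autoImplicit false
open Cfsg

namespace Cfsg.Agent.S0995

/-- Let G be a finite perfect group containing an element z of prime order p whose centralizer is the cyclic group it generates. Let t be the number of conjugacy classes of elements of order p. Then t divides p - 1, the number of Sylow p-subgroups has the form 1 + n * p, and |G| * t = (p - 1) * p * (1 + n * p). -/
theorem result {G : Type*} [Group G] [Finite G] (hperf : commutator G = ⊤) (p : ℕ) [Fact p.Prime] (z : G) (hz : orderOf z = p) (hC : Subgroup.centralizer ({z} : Set G) = Subgroup.zpowers z) : ∃ n t : ℕ, t = Nat.card {c : ConjClasses G // ∃ g : G, ConjClasses.mk g = c ∧ orderOf g = p} ∧ t ∣ p - 1 ∧ Nat.card (Sylow p G) = 1 + n * p ∧ Nat.card G * t = (p - 1) * p * (1 + n * p) := by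
  have h : H84.SC p z := ⟨hz, hC⟩
  have e : Nat.card {c : ConjClasses G // ∃ g : G, ConjClasses.mk g = c ∧ orderOf g = p} =
      Nat.card {C : ConjClasses G // ∃ g ∈ C.carrier, orderOf g = p} := by
    simp only [ConjClasses.mem_carrier_iff_mk_eq]
  have h1 := h.card_classes
  obtain ⟨S, hS⟩ := H84.exists_sylow_eq h.card h.ind
  have h2 : Nat.card (Sylow p G) = (H86.Nor (Subgroup.zpowers z)).index :=
    hS ▸ S.card_eq_index_normalizer
  have h3 : Nat.card (Sylow p G) = 1 + Nat.card (Sylow p G) / p * p := by
    have := card_sylow_modEq_one p G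
    rw [Nat.ModEq, Nat.mod_eq_of_lt (Fact.out : p.Prime).one_lt] at this
    rw [← this, Nat.mod_add_div']
  refine ⟨_, _, rfl, e ▸ ⟨_, h1.symm⟩, h3, ?_⟩
  rw [← h3, h2, e, ← h1, h.card_eq]
  ring

end Cfsg.Agent.S0995
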