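import Cfsg.Statements.S1018
import Mathlib
import Cfsg.Agent.Lib.Block.PPart

set_option autoImplicit false
open Cfsg

namespace Cfsg.Agent.S1018

/-- Let P be a Sylow p-subgroup of order p of a finite group G, and consider the action of G on the left cosets of the normalizer N of P. Then every element of order p fixes exactly one coset, and an element of N that does not centralize P fixes at most as many cosets as there are orbits of P. -/
theorem result {G : Type*} [Group G] [Finite G] (p : ℕ) [Fact p.Prime] (P : Sylow p G) (hP : Nat.card ↥(P : Subgroup G) = p) : (∀ y : G, orderOf y = p → Nat.card (MulAction.fixedBy (G ⧸ Subgroup.normalizer ((P : Subgroup G) : Set G)) y) = 1) ∧ ∀ x : G, x ∈ Subgroup.normalizer ((P : Subgroup G) : Set G) → x ∉ Subgroup.centralizer ((P : Subgroup G) : Set G) → Nat.card (MulAction.fixedBy (G ⧸ Subgroup.normalizer ((P : Subgroup G) : Set G)) x) ≤ Nat.card (MulAction.orbitRel.Quotient ↥(P : Subgroup G) (G ⧸ Subgroup.normalizer ((P : Subgroup G) : Set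 G))) := by
  have hp : p.Prime := Fact.out
  set N := Subgroup.normalizer ((P : Subgroup G) : Set G) with hN
  have hz : ∀ u ∈ (P : Subgroup G), u ≠ 1 → Subgroup.zpowers u = P := fun u hu h1 => by
    refine Subgroup.eq_of_le_of_card_ge (Subgroup.zpowers_le.2 hu) ?_
    rw [hP, Nat.card_zpowers]
    rcases (Nat.dvd_prime hp).1 (hP ▸ Subgroup.orderOf_dvd_natCard _ hu) with h | h
    · exact absurd (orderOf_eq_one_iff.1 h) h1
    · exact h.ge
  refine ⟨fun y hy => ?_, fun x hx hx' => ?_⟩
  · have hy' : H35.IsPElt p y := ⟨1, by rw [hy, pow_one]⟩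
    have hy1 : y ≠ 1 := fun e => hp.one_lt.ne (by rw [← hy, e, orderOf_one])
    have key : ∀ g : G, (g : G ⧸ N) ∈ MulAction.fixedBy (G ⧸ N) y ↔ g⁻¹ * y * g ∈ (P : Subgroup G) := by
      intro g
      rw [MulAction.mem_fixedBy, MulAction.Quotient.smul_mk, eq_comm, QuotientGroup.eq, smul_eq_mul,
        ← mul_assoc]
      refine ⟨fun h => ?_, fun h => Subgroup.le_normalizer h⟩
      have h1 : IsPGroup p (Subgroup.zpowers (g⁻¹ * y * g)) :=
        H35.isPElt_iff_zpowers.1 (by simpa using hy'.conj g⁻¹)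
      have h2 := h1.inf_normalizer_sylow P
      exact (h2.le ⟨Subgroup.mem_zpowers _, h⟩).2
    obtain ⟨a, ha⟩ := hy'.exists_conj_mem P
    rw [Nat.card_eq_one_iff_exists]
    refine ⟨⟨(a⁻¹ : G), (key _).2 (by simpa using ha)⟩, fun ⟨w, hw⟩ => Subtype.ext ?_⟩
    induction w using QuotientGroup.induction_on with | H g =>
    rw [key] at hw
    refine QuotientGroup.eq.2 (Subgroup.mem_normalizer_fintype ?_)
    intro n hn
    obtain ⟨i, rfl⟩ : n ∈ Subgroup.zpowers (a * y * a⁻¹) := hz _ ha (by simpa using hy1) ▸ hn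
    have := (P : Subgroup G).zpow_mem hw i
    rw [show g⁻¹ * y * g = g⁻¹ * y * g⁻¹⁻¹ by simp, conj_zpow] at this
    simp only [conj_zpow, SetLike.mem_coe]
    convert this using 1
    group
  · refine Nat.card_le_card_of_injective (fun w => Quotient.mk'' w.1) fun ⟨w, hw⟩ ⟨w', hw'⟩ e => ?_
    obtain ⟨u, rfl⟩ : w ∈ MulAction.orbit (P : Subgroup G) w' := Quotient.exact' e
    refine Subtype.ext ?_
    change (u : G) • w' = w'
    change x • (u : G) • w' = (u : G) • w' at hw
    change x • w' = w' at hw'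
    by_cases hu : (u : G) = 1
    · rw [hu, one_smul]
    have h1 : (u : G)⁻¹ * (x * u * x⁻¹) ∈ (P : Subgroup G) :=
      mul_mem (inv_mem u.2) ((Subgroup.mem_normalizer_iff.1 hx _).1 u.2)
    have h2 : (u : G)⁻¹ * (x * u * x⁻¹) ≠ 1 := fun e => hx' fun n hn => by
      obtain ⟨i, rfl⟩ : n ∈ Subgroup.zpowers (u : G) := (hz _ u.2 hu).ge hn
      rw [inv_mul_eq_one, eq_mul_inv_iff_mul_eq] at e
      exact (Commute.zpow_left e i).eq
    have h3 : (u : G)⁻¹ * (x * u * x⁻¹) ∈ MulAction.stabilizer G w' := by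
      rw [MulAction.mem_stabilizer_iff, mul_smul, mul_smul, mul_smul, inv_smul_eq_iff.2 hw'.symm, hw,
        inv_smul_smul]
    exact Subgroup.zpowers_le.2 h3 ((hz _ h1 h2).ge u.2)

end Cfsg.Agent.S1018
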