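import Cfsg.Statements.S1019
import Mathlib
import Cfsg.Agent.Lib.Invol.Count

set_option autoImplicit false
open Cfsg

namespace Cfsg.Agent.S1019

/-- Let H be a subgroup of a finite group G and x an element of H. In the action of G on the left cosets of H, the number of cosets fixed by x, multiplied by the size of the conjugacy class of x, equals the index of H multiplied by the number of conjugates of x that lie in H. -/
theorem result {G : Type*} [Group G] [Finite G] (H : Subgroup G) (x : G) (hx : x ∈ H) : Nat.card (MulAction.fixedBy (G ⧸ H) x) * Nat.card {g : G // IsConj x g} = H.index * Nat.card {g : G // IsConj x g ∧ g ∈ H} := by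
  classical
  have key : Nat.card {g : G // g⁻¹ * x * g ∈ H} =
      Nat.card (MulAction.fixedBy (G ⧸ H) x) * Nat.card H := by
    rw [← Nat.card_prod]
    refine Nat.card_congr ((Subgroup.groupEquivQuotientProdSubgroup (s := H)).subtypeEquiv
      (q := fun a => a.1 ∈ MulAction.fixedBy (G ⧸ H) x) (fun g => ?_) |>.trans
      (Equiv.prodSubtypeFstEquivSubtypeProd (p := fun a => a ∈ MulAction.fixedBy (G ⧸ H) x)))
    change _ ↔ x • (g : G ⧸ H) = (g : G ⧸ H)
    rw [MulAction.Quotient.smul_mk, eq_comm, QuotientGroup.eq, smul_eq_mul, mul_assoc]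
  have key2 : Nat.card {g : G // g⁻¹ * x * g ∈ H} =
      Nat.card {g : G // IsConj x g ∧ g ∈ H} * Nat.card (Subgroup.centralizer ({x} : Set G)) := by
    letI := Fintype.ofFinite {g : G // IsConj x g ∧ g ∈ H}
    rw [H9.natCard_eq_sum_fiber (β := {g : G // IsConj x g ∧ g ∈ H})
      (fun g => ⟨g.1⁻¹ * x * g.1, isConj_iff.2 ⟨g.1⁻¹, by simp⟩, g.2⟩),
      Finset.sum_congr rfl (g := fun _ => Nat.card (Subgroup.centralizer ({x} : Set G))),
      Finset.sum_const, Finset.card_univ, smul_eq_mul, ← Nat.card_eq_fintype_card]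
    rintro ⟨y, hy, hyH⟩ -
    obtain ⟨c, rfl⟩ := isConj_iff.1 hy
    refine Nat.card_congr ⟨fun a => ⟨a.1.1 * c, ?_⟩, fun z => ⟨⟨z.1 * c⁻¹, ?_⟩, ?_⟩,
      fun a => by ext; simp, fun z => by ext; simp⟩
    · have := congrArg Subtype.val a.2
      simp only at this
      rw [Subgroup.mem_centralizer_singleton_iff]
      calc a.1.1 * c * x = a.1.1 * (c * x * c⁻¹) * c := by group
        _ = a.1.1 * (a.1.1⁻¹ * x * a.1.1) * c := congrArg (fun w => a.1.1 * w * c) this.symm
        _ = x * (a.1.1 * c) := by group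
    · have := Subgroup.mem_centralizer_singleton_iff.1 z.2
      convert hyH using 1
      calc (z.1 * c⁻¹)⁻¹ * x * (z.1 * c⁻¹) = c * z.1⁻¹ * (x * z.1) * c⁻¹ := by group
        _ = c * x * c⁻¹ := by rw [← this]; group
    · have := Subgroup.mem_centralizer_singleton_iff.1 z.2
      ext
      calc (z.1 * c⁻¹)⁻¹ * x * (z.1 * c⁻¹) = c * z.1⁻¹ * (x * z.1) * c⁻¹ := by group
        _ = c * x * c⁻¹ := by rw [← this]; group
  have h1 := H9.card_isConj_mul_card_centralizer x
  have h2 := H.index_mul_card
  have h3 : 0 < Nat.card H * Nat.card (Subgroup.centralizer ({x} : Set G)) :=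
    Nat.mul_pos Nat.card_pos Nat.card_pos
  apply Nat.eq_of_mul_eq_mul_right h3
  calc _ = (Nat.card (MulAction.fixedBy (G ⧸ H) x) * Nat.card H) * (Nat.card {g : G // IsConj x g} *
        Nat.card (Subgroup.centralizer ({x} : Set G))) := by ring
    _ = _ := by rw [h1, ← key, key2, ← h2]; ring

end Cfsg.Agent.S1019
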