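import Cfsg.Statements.S1022
import Mathlib
import Cfsg.Agent.Base
import Cfsg.Agent.Lib.Block.PBX

set_option autoImplicit false
open Cfsg

namespace Cfsg.Agent.S1022

open H17.Ord H84

theorem dvd_cases {d : ℕ} (h : d ∣ 24192) :
    ∃ a ≤ 7, ∃ b ≤ 3, ∃ c ≤ 1, d = 2 ^ a * 3 ^ b * 7 ^ c := by
  rw [show 24192 = 2 ^ 7 * 3 ^ 3 * 7 ^ 1 by norm_num] at h
  obtain ⟨u, v, hu, hv, rfl⟩ := Nat.dvd_mul.1 h |>.imp fun _ h => h.imp fun _ h =>
    (⟨h.1, h.2.1, h.2.2.symm⟩ : _ ∧ _ ∧ d = _)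
  obtain ⟨x, y, hx, hy, rfl⟩ := Nat.dvd_mul.1 hu
  obtain ⟨a, ha, rfl⟩ := (Nat.dvd_prime_pow Nat.prime_two).1 hx
  obtain ⟨b, hb, rfl⟩ := (Nat.dvd_prime_pow Nat.prime_three).1 hy
  obtain ⟨c, hc, rfl⟩ := (Nat.dvd_prime_pow Nat.prime_seven).1 hv
  exact ⟨a, ha, b, hb, c, hc, rfl⟩

theorem n_cases {n : ℕ} (h : n ∣ 24192) (h1 : n % 19 = 1) (h2 : 133 < n ∨ (1 < n ∧ 7 ∣ n)) :
    n = 1008 := by
  obtain ⟨a, ha, b, hb, c, hc, rfl⟩ := dvd_cases h
  interval_cases a <;> interval_cases b <;> interval_cases c <;> omega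

theorem x_cases {d : ℕ} (h : d ∣ 24192) (h1 : d % 19 = 1 ∨ d % 19 = 18) (h2 : d ^ 2 ≤ 459648) :
    d = 1 ∨ d = 18 ∨ d = 56 ∨ d = 96 ∨ d = 189 := by
  obtain ⟨a, ha, b, hb, c, hc, rfl⟩ := dvd_cases h
  interval_cases a <;> interval_cases b <;> interval_cases c <;> omega

theorem y_cases {d : ℕ} (h : d ∣ 24192) {a c f e : ℕ} {δ : ℤ} (hδ : δ = 1 ∨ δ = -1)
    (he : e = 2 ∨ e = 3 ∨ e = 6) (h1 : e = 1 + (a + (c + f)))
    (h2 : δ * d = 1 + (a * 96 + (c * (-56) + f * (-189)))) : a = 2 ∧ d = 108 ∧ δ = -1 := by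
  have key : ∀ a < 6, ∀ c < 6, ∀ f < 6, (a + c + f = 1 ∨ a + c + f = 2 ∨ a + c + f = 5) →
      (1 + ((a : ℕ) * 96 + ((c : ℕ) * (-56) + (f : ℕ) * (-189))) : ℤ) ∣ 24192 →
      a = 2 ∧ c = 2 ∧ f = 1 := by
    intro a ha c hc f hf
    interval_cases a <;> interval_cases c <;> interval_cases f <;> decide
  have h3 : δ * d ∣ 24192 := by
    have : (d : ℤ) ∣ 24192 := by exact_mod_cast h
    rcases hδ with rfl | rfl <;> simpa using this
  obtain ⟨rfl, rfl, rfl⟩ := key a (by omega) c (by omega) f (by omega) (by omega) (h2 ▸ h3)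
  rcases hδ with rfl | rfl <;> omega

/-- No finite simple group has order 459648 = 2^7 * 3^3 * 7 * 19. -/
theorem result {G : Type*} [Group G] [Finite G] [IsSimpleGroup G] : Nat.card G ≠ 459648 := by
  classical
  intro hG
  haveI : Fact (Nat.Prime 19) := ⟨by norm_num⟩
  haveI : Fact (Nat.Prime 7) := ⟨by norm_num⟩
  have hna := noncomm_of_not_prime (G := G) (by rw [hG]; norm_num)
  obtain ⟨P, hP⟩ := exists_subgroup_prime (G := G) 19 (by rw [hG]; norm_num)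
  obtain ⟨e, k, n, hC, hN, hn, hnk, hn1, hn2, he1, he2, ⟨B⟩⟩ :=
    setup hna 19 (m := 24192) (by rw [hG]) (by norm_num) P hP
  have he : e = 2 ∨ e = 3 ∨ e = 6 ∨ e = 9 ∨ e = 18 := by
    have := Nat.le_of_dvd (by norm_num) he2
    interval_cases e <;> omega
  obtain rfl : n = 1008 := by
    refine n_cases (Dvd.intro _ hnk) hn1 ?_
    by_cases h7 : 7 ∣ n
    · exact Or.inr ⟨hn2, h7⟩
    refine Or.inl (hn ▸ mul_lt_index_normalizer (q := 7) hP B.ind ?_ (by norm_num) (by norm_num) ?_)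
    · intro h; rw [h, Subgroup.index_top] at hn; omega
    · have h1 : 7 ∣ n * (k * e) := by rw [hnk]; norm_num
      have h2 := ((Nat.Prime.dvd_mul Nat.prime_seven).1 h1).resolve_left h7
      have h3 := ((Nat.Prime.dvd_mul Nat.prime_seven).1 h2).resolve_right (by omega)
      rw [hC]; exact h3.mul_left _
  have hke : k * e = 24 := by omega
  have he' : (e = 2 ∧ k = 12) ∨ (e = 3 ∧ k = 8) ∨ (e = 6 ∧ k = 4) := by
    rcases he with rfl | rfl | rfl | rfl | rfl <;> omega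
  have hno : ∀ g : G, orderOf g ≠ 19 * 7 := no_elt_of_not_dvd hP B.ind (by rw [hC]; omega)
  have h1X := B.triv_mem_X (by omega) hna
  have hdvd : ∀ χ : IrrCharacter G, ¬ 19 ∣ dg χ → dg χ ∣ 24192 := fun χ h =>
    ((Nat.Prime.coprime_iff_not_dvd (by norm_num)).2 h).symm.dvd_of_dvd_mul_left
      (by have := dg_dvd χ; rwa [hG] at this)
  have hX : ∀ χ ∈ B.X.erase (triv G), B.ε χ * (dg χ : ℤ) ∈ ({96, -56, -189} : Finset ℤ) := by
    intro χ hχ
    obtain ⟨h1, h2⟩ := Finset.mem_erase.1 hχ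
    have h3 := B.degX χ h2
    have h4 : dg χ ^ 2 ≤ 459648 := by simpa [hG] using sum_dg_sq_le {χ}
    have h5 : dg χ ≠ 1 := fun h => h1 (eq_triv_of_dg hna h)
    have h6 : dg χ ≠ 18 := fun h => by
      have := B.selfcent_of_deg h2 (by omega) h1
      rw [this, hP] at hC; omega
    have h7 := x_cases (hdvd χ (B.not_dvd_X h2)) (by
      rcases B.sgn χ h2 with h | h <;> rw [h, Int.ModEq] at h3 <;> omega) h4
    simp only [Finset.mem_insert, Finset.mem_singleton]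
    rcases B.sgn χ h2 with h | h <;> rw [h, Int.ModEq] at h3 <;> rw [h] <;> omega
  obtain ⟨θ, hθ⟩ := B.Y_nonempty
  have hdeg := B.deg_eq hθ
  obtain ⟨h1, h2⟩ := sum_eq_sum_card_fiber _ _ _ hX
  rw [Finset.sum_insert (by decide), Finset.sum_insert (by decide), Finset.sum_singleton] at h1 h2
  rw [← Finset.add_sum_erase _ _ h1X, B.ε_triv h1X, dg_triv, h1, Nat.cast_one, mul_one] at hdeg
  have h3 := Finset.card_erase_add_one h1X
  rw [B.cardX, h2, add_comm] at h3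
  obtain ⟨ha, hd, hδ⟩ := y_cases (hdvd θ (B.not_dvd_Y hθ)) B.dsgn (by omega) h3.symm hdeg
  obtain ⟨M, hM⟩ := H33.exists_isPModular 7
  haveI := hM.2.1
  have hbt := PB_brauerTuan B (by norm_num) hno hM h1X hθ
  obtain ⟨Q, hQ⟩ := exists_subgroup_prime (G := G) 7 (by rw [hG]; norm_num)
  obtain ⟨e', -, -, -, -, -, -, -, -, -, -, ⟨B'⟩⟩ :=
    setup hna 7 (m := 65664) (by rw [hG]) (by norm_num) Q hQ
  have hf : (Nat.card G).factorization 7 = 1 := by
    rw [hG, show 459648 = 7 ^ 1 * 65664 by norm_num, Nat.factorization_mul (by norm_num)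
      (by norm_num), Nat.prime_seven.factorization_pow]
    simp [Nat.factorization_eq_zero_of_not_dvd (show ¬ 7 ∣ 65664 by norm_num)]
  have h7 : ∀ χ ∈ principalBlock M G, ¬ 7 ∣ dg χ := fun χ hχ =>
    ((PB_mem_iff B' hM χ).1 hχ).elim B'.not_dvd_X B'.not_dvd_Y
  have hsub : ∀ χ ∈ (B.X.filter (· ∈ principalBlock M G)).erase (triv G),
      χ ∈ (B.X.erase (triv G)).filter fun χ => B.ε χ * (dg χ : ℤ) = 96 := by
    intro χ hχ
    obtain ⟨h4, h5⟩ := Finset.mem_erase.1 hχ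
    obtain ⟨h5, h6⟩ := Finset.mem_filter.1 h5
    have h8 := Finset.mem_erase.2 ⟨h4, h5⟩
    refine Finset.mem_filter.2 ⟨h8, ?_⟩
    have h9 := hX χ h8
    have h10 := h7 χ h6
    simp only [Finset.mem_insert, Finset.mem_singleton] at h9
    rcases B.sgn χ h5 with h | h <;> rw [h] at h9 ⊢ <;> omega
  have hle := ha ▸ Finset.card_le_card hsub
  rw [hf, ← Finset.add_sum_erase _ _ (Finset.mem_filter.2 ⟨h1X, irrOne_mem_principal⟩),
    B.ε_triv h1X, dg_triv, Finset.sum_congr rfl fun χ hχ => (Finset.mem_filter.1 (hsub χ hχ)).2,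
    Finset.sum_const, nsmul_eq_mul, hδ, hd] at hbt
  split_ifs at hbt with h
  · have h4 : 0 < ((B.X.filter (· ∈ principalBlock M G)).erase (triv G)).card := by omega
    obtain ⟨χ, hχ⟩ := Finset.card_pos.1 h4
    have h5 := (Finset.mem_filter.1 (hsub χ hχ)).2
    obtain ⟨h6, h8⟩ := Finset.mem_filter.1 (Finset.mem_of_mem_erase hχ)
    have h9 := PB_deg B' hM h8
    have h10 := PB_deg B' hM h
    have h11 : dg χ = 96 := by rcases B.sgn χ h6 with h | h <;> rw [h] at h5 <;> omega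
    rw [h11] at h9
    rw [hd] at h10
    simp only [Int.ModEq] at h9 h10
    omega
  · omega

end Cfsg.Agent.S1022
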