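import Cfsg.Statements.S1026
import Cfsg.Agent.Lib.Chev.Main

set_option autoImplicit false
open Cfsg

namespace Cfsg.Agent.S1026

/-- Every element of `U` has a unique expression `∏_{r ∈ Φ⁺} x_r(t_r)`, the product over the positive roots in increasing index order (the coefficient family `t`, supported on the positive roots, exists and is unique); and conversely every such ordered product is the matrix of an element of `U`. -/
theorem result {F : Type*} [Field F] (D : Cfsg.Lie.ChevalleyDatum) (hD : D ∈ [Cfsg.Lie.chevG2, Cfsg.Lie.chevB2, Cfsg.Lie.chevD4, Cfsg.Lie.chevF4, Cfsg.Lie.chevE6, Cfsg.Lie.chevE7, Cfsg.Lie.chevE8]) :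
    (∀ g : GL D.Idx F, g ∈ D.posUnipotent F →
      ∃! t : ℕ → F, (∀ r, ¬ D.IsPosRoot r → t r = 0) ∧
        (g : Matrix D.Idx D.Idx F) = D.wordMat F (D.posRoots.map fun r => (r, t r))) ∧
    (∀ t : ℕ → F, ∃ g : GL D.Idx F, g ∈ D.posUnipotent F ∧
      (g : Matrix D.Idx D.Idx F) = D.wordMat F (D.posRoots.map fun r => (r, t r))) := by
  obtain ⟨R, E, hE⟩ := H38.exists_isMat hD F
  have key : ∀ t : ℕ → F, ((((H38.RootSys.posList D).map fun r => E.x r (t r)).prod : GL D.Idx F) :
      Matrix D.Idx D.Idx F) = D.wordMat F (D.posRoots.map fun r => (r, t r)) := fun t => by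
    rw [hE.coe_x.coe_prod, H38.RootSys.posList_map]
  rw [hE.U_eq]
  refine ⟨fun g hg => ?_, fun t => ⟨_, Subgroup.list_prod_mem _ fun g hg => ?_, key t⟩⟩
  · obtain ⟨t, h1, h2⟩ := E.exists_prod R.closed_pos (w := 1) R.W.one_mem (fun _ h => h)
      H38.RootSys.nodup_posList (fun _ h => R.mem_posList.mpr h) hg
    refine ⟨fun r => if h : r < D.nroots then t ⟨r, h⟩ else 0, ⟨fun r hr => ?_, ?_⟩, ?_⟩
    · beta_reduce
      split_ifs with h
      · exact h1 _ fun e => hr ((R.isPosRoot_iff ⟨r, h⟩).mpr e)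
      · rfl
    · rw [← key, h2]; simp
    · rintro t' ⟨h3, h4⟩
      rw [← key, h2] at h4
      have h5 := hE.faith.prod_inj (w := 1) R.W.one_mem H38.RootSys.nodup_posList
        (fun _ h => R.mem_posList.mp h) (Units.ext h4)
      funext r
      by_cases hr : D.IsPosRoot r
      · rw [dif_pos hr.1, h5 ⟨r, hr.1⟩ (R.mem_posList.mpr ((R.isPosRoot_iff ⟨r, hr.1⟩).mp hr))]
      · rw [h3 r hr]
        split_ifs with h
        · exact (h1 _ fun e => hr ((R.isPosRoot_iff ⟨r, h⟩).mpr e)).symm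
        · rfl
  · obtain ⟨r, hr, rfl⟩ := List.mem_map.mp hg
    exact E.x_mem_U (R.mem_posList.mp hr) _

end Cfsg.Agent.S1026
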