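import Cfsg.Statements.S1034
import Cfsg.Agent.Lib.Chev.Main

set_option autoImplicit false
open Cfsg

namespace Cfsg.Agent.S1034

/-- Every element of `H` is a product `h_{p_1}(c_1) ⋯ h_{p_l}(c_l)` over the fundamental roots, with non-zero `c_i`. -/
theorem result {F : Type*} [Field F] (D : Cfsg.Lie.ChevalleyDatum) (hD : D ∈ [Cfsg.Lie.chevG2, Cfsg.Lie.chevB2, Cfsg.Lie.chevD4, Cfsg.Lie.chevF4, Cfsg.Lie.chevE6, Cfsg.Lie.chevE7, Cfsg.Lie.chevE8]) (g : GL D.Idx F) (hg : g ∈ D.diagonalSubgroup F) :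
    ∃ c : ℕ → F, (∀ i < D.rank, c i ≠ 0) ∧
      (g : Matrix D.Idx D.Idx F) = D.wordMat F ((List.range D.rank).flatMap fun i => D.hWord (D.simple i) (c i)) := by
  obtain ⟨R, E, hE⟩ := H38.exists_isMat hD F
  rw [hE.H_eq, ← H38.Elts.tor_range hE.R3] at hg
  obtain ⟨c, rfl⟩ := hg
  refine ⟨fun i => if h : i < D.rank then c ⟨i, h⟩ else 1, fun i hi => by simp [hi], ?_⟩
  rw [H38.Elts.tor_eq_list hE.R3 (List.nodup_finRange _) (List.mem_finRange), ← Units.coeHom_apply,
    map_list_prod, Lie.ChevalleyDatum.wordMat, ← List.map_coe_finRange_eq_range, List.map_flatMap,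
    List.flatMap_map, List.flatMap_def, List.prod_flatten, List.map_map, List.map_map]
  congr 1
  refine List.map_congr_left fun i _ => ?_
  simp only [Function.comp_apply, Units.coeHom_apply, hE.coe_x.coe_h_sim, i.2, dif_pos]
  rfl

end Cfsg.Agent.S1034
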