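import Cfsg.Statements.S1039
import Cfsg.Agent.Lib.Chev.Main
import Cfsg.Agent.Lib.Weyl.Bridge

set_option autoImplicit false
open Cfsg

namespace Cfsg.Agent.S1039

theorem aux {F : Type*} [Field F] {D : Cfsg.Lie.ChevalleyDatum}
    (hD : D ∈ [Cfsg.Lie.chevG2, Cfsg.Lie.chevB2, Cfsg.Lie.chevD4, Cfsg.Lie.chevF4, Cfsg.Lie.chevE6,
      Cfsg.Lie.chevE7, Cfsg.Lie.chevE8]) (M : CoxeterMatrix (Fin D.rank))
    (h : ∀ R : H38.RootSys D, H39.CartanFor M R.A) :
    ∃ φ : ↥(D.monomialSubgroup F) →* M.Group, Function.Surjective φ ∧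
      φ.ker = (D.diagonalSubgroup F).subgroupOf (D.monomialSubgroup F) ∧
      ∀ (i : Fin D.rank) (g : ↥(D.monomialSubgroup F)),
        ((g : GL D.Idx F) : Matrix D.Idx D.Idx F) = D.nMat F (D.simple i) 1 → φ g = M.simple i := by
  obtain ⟨R, E, hE⟩ := H38.exists_isMat hD F
  rw [hE.N_eq, hE.H_eq]
  refine ⟨(H39.weylCS R.toRS (h R)).mulEquiv.toMonoidHom.comp hE.faith.toW,
    (H39.weylCS R.toRS (h R)).mulEquiv.surjective.comp hE.faith.toW_surjective, ?_, fun i g hg => ?_⟩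
  · rw [← hE.faith.toW_ker]
    ext g
    simp [MonoidHom.mem_ker]
  · have e : (g : GL D.Idx F) = E.n (R.sim i) 1 := Units.ext (hg.trans (hE.coe_x.coe_n_sim i 1).symm)
    have : hE.faith.toW g = H39.sW R.toRS i :=
      Subtype.ext (hE.faith.toW_eq (e ▸ E.rep_n_sim i one_ne_zero))
    rw [MonoidHom.comp_apply, this]
    exact H39.weylCS_mulEquiv_sW _ _ i

/-- `N/H ≅ W`: there is a surjective homomorphism from `N` onto the Coxeter group of the type (Mathlib's Coxeter matrix G₂, B₂, F₄, E₆, E₇, E₈, nodes numbered as the fundamental roots) with kernel `H`, mapping each `n_{p_i}` to the `i`-th simple reflection. -/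
theorem result {F : Type*} [Field F]
    (p : Cfsg.Lie.ChevalleyDatum × (Σ n : ℕ, CoxeterMatrix (Fin n)))
    (hp : p ∈ [(Cfsg.Lie.chevG2, ⟨2, CoxeterMatrix.G₂⟩), (Cfsg.Lie.chevB2, ⟨2, CoxeterMatrix.B 2⟩), (Cfsg.Lie.chevD4, ⟨4, Cfsg.Lie.coxeterD4⟩), (Cfsg.Lie.chevF4, ⟨4, CoxeterMatrix.F₄⟩),
      (Cfsg.Lie.chevE6, ⟨6, CoxeterMatrix.E₆⟩), (Cfsg.Lie.chevE7, ⟨7, CoxeterMatrix.E₇⟩), (Cfsg.Lie.chevE8, ⟨8, CoxeterMatrix.E₈⟩)]) :
    ∃ φ : ↥(p.1.monomialSubgroup F) →* p.2.2.Group, Function.Surjective φ ∧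
      φ.ker = (p.1.diagonalSubgroup F).subgroupOf (p.1.monomialSubgroup F) ∧
      ∀ (i : Fin p.2.1) (g : ↥(p.1.monomialSubgroup F)),
        ((g : GL p.1.Idx F) : Matrix p.1.Idx p.1.Idx F) = p.1.nMat F (p.1.simple i) 1 → φ g = p.2.2.simple i := by
  simp only [List.mem_cons, List.not_mem_nil, or_false] at hp
  rcases hp with rfl | rfl | rfl | rfl | rfl | rfl | rfl
  · exact aux (D := Lie.chevG2) (by simp) _ H39.cartanForG2
  · exact aux (D := Lie.chevB2) (by simp) _ H39.cartanForB2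
  · exact aux (D := Lie.chevD4) (by simp) _ H39.cartanForD4
  · exact aux (D := Lie.chevF4) (by simp) _ H39.cartanForF4
  · exact aux (D := Lie.chevE6) (by simp) _ H39.cartanForE6
  · exact aux (D := Lie.chevE7) (by simp) _ H39.cartanForE7
  · exact aux (D := Lie.chevE8) (by simp) _ H39.cartanForE8

end Cfsg.Agent.S1039
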