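import Cfsg.Statements.S1044
import Cfsg.Agent.Lib.Chev.Main

set_option autoImplicit false
open Cfsg

namespace Cfsg.Agent.S1044

/-- For a fundamental root `p` the set `B ∪ B n_p B` is (the carrier of) a subgroup of the general linear group. -/
theorem result {F : Type*} [Field F] (D : Cfsg.Lie.ChevalleyDatum) (hD : D ∈ [Cfsg.Lie.chevG2, Cfsg.Lie.chevB2, Cfsg.Lie.chevD4, Cfsg.Lie.chevF4, Cfsg.Lie.chevE6, Cfsg.Lie.chevE7, Cfsg.Lie.chevE8]) (i : ℕ) (hi : i < D.rank) (n : GL D.Idx F)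
    (hn : (n : Matrix D.Idx D.Idx F) = D.nMat F (D.simple i) 1) :
    ∃ P : Subgroup (GL D.Idx F), (P : Set (GL D.Idx F)) =
      (D.borelSubgroup F : Set (GL D.Idx F)) ∪ DoubleCoset.doubleCoset n (D.borelSubgroup F : Set (GL D.Idx F)) (D.borelSubgroup F) := by
  obtain ⟨R, E, hE⟩ := H38.exists_isMat hD F
  obtain rfl : n = E.n (R.sim ⟨i, hi⟩) 1 := Units.ext (hn.trans (hE.coe_x.coe_n_sim ⟨i, hi⟩ 1).symm)
  refine ⟨E.P {⟨i, hi⟩}, ?_⟩
  rw [hE.B_eq]
  have hr := E.rep_n_sim ⟨i, hi⟩ (c := 1) one_ne_zero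
  ext g
  constructor
  · intro hg
    obtain ⟨b, hb, n, w, h1, h2, u, hu, rfl⟩ := E.bruhat_P hg
    have huB : u ∈ E.B := E.U_le_B (E.XS_mono (fun _ hr => hr.1) hu)
    have : w = 1 ∨ w = R.s ⟨i, hi⟩ := by
      obtain ⟨L, hL, rfl⟩ := R.exists_list_of_mem_WJ h2
      clear h1 h2 hu
      induction L with
      | nil => exact Or.inl rfl
      | cons a L ih =>
        obtain rfl : a = ⟨i, hi⟩ := hL a (by simp)
        rcases ih (fun j hj => hL j (by simp [hj])) with h | h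
        · right; rw [List.map_cons, List.prod_cons, h, mul_one]
        · left; rw [List.map_cons, List.prod_cons, h, R.s_mul_self]
    rcases this with rfl | rfl
    · exact Or.inl (E.B.mul_mem (E.B.mul_mem hb (E.H_le_B h1.mem_H)) huB)
    · refine Or.inr (DoubleCoset.mem_doubleCoset.mpr ⟨b, hb, _,
        E.B.mul_mem (E.H_le_B (hr.inv_mul_mem_H E h1)) huB, by group⟩)
  · rintro (hg | hg)
    · exact E.B_le_P _ hg
    · obtain ⟨b, hb, b', hb', rfl⟩ := DoubleCoset.mem_doubleCoset.mp hg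
      exact Subgroup.mul_mem _ (Subgroup.mul_mem _ (E.B_le_P _ hb)
        (Subgroup.mem_sup_right (Subgroup.subset_closure ⟨_, rfl, rfl⟩))) (E.B_le_P _ hb')

end Cfsg.Agent.S1044
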