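import Cfsg.Statements.S1045
import Cfsg.Agent.Lib.Chev.Main

set_option autoImplicit false
open Cfsg

namespace Cfsg.Agent.S1045

/-- For a fundamental root `p`, the subgroup `U_p` generated by the `X_s`, `s` positive and `s ≠ p`, is normalised by `X_p` and `X_{-p}`, and `U = U_p ⊔ X_p`. -/
theorem result {F : Type*} [Field F] (D : Cfsg.Lie.ChevalleyDatum) (hD : D ∈ [Cfsg.Lie.chevG2, Cfsg.Lie.chevB2, Cfsg.Lie.chevD4, Cfsg.Lie.chevF4, Cfsg.Lie.chevE6, Cfsg.Lie.chevE7, Cfsg.Lie.chevE8]) (i : ℕ) (hi : i < D.rank) :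
    D.rootSubgroup F (D.simple i) ⊔ D.rootSubgroup F (D.neg (D.simple i)) ≤
        Subgroup.normalizer (Subgroup.closure {g : GL D.Idx F | ∃ (s : ℕ) (t : F), D.IsPosRoot s ∧ s ≠ D.simple i ∧
          (g : Matrix D.Idx D.Idx F) = D.x F s t} : Set (GL D.Idx F)) ∧
      Subgroup.closure {g : GL D.Idx F | ∃ (s : ℕ) (t : F), D.IsPosRoot s ∧ s ≠ D.simple i ∧
          (g : Matrix D.Idx D.Idx F) = D.x F s t} ⊔ D.rootSubgroup F (D.simple i) = D.posUnipotent F := by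
  obtain ⟨R, E, hE⟩ := H38.exists_isMat hD F
  have e : Subgroup.closure {g : GL D.Idx F | ∃ (s : ℕ) (t : F), D.IsPosRoot s ∧ s ≠ D.simple i ∧
      (g : Matrix D.Idx D.Idx F) = D.x F s t} = E.UJ {⟨i, hi⟩} := by
    rw [E.UJ_singleton]
    simp only [← and_assoc]
    refine hE.coe_x.closure_eq (P := fun s => D.IsPosRoot s ∧ s ≠ D.simple i) (fun _ h => h.1.1)
      fun r => ?_
    rw [R.isPosRoot_iff, ← R.sim_eq ⟨i, hi⟩, Ne, Fin.val_inj]; rfl
  rw [e, ← R.sim_eq ⟨i, hi⟩, ← R.neg_eq, hE.X_eq, hE.X_eq, hE.U_eq]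
  constructor
  · refine le_trans ?_ (E.P_le_normalizer_UJ _)
    rw [E.P_eq, ← E.XS_singleton, ← E.XS_singleton, ← E.XS_union]
    refine le_trans (E.XS_mono ?_) le_sup_left
    rintro r (rfl | rfl)
    · exact Or.inl (R.pos_sim _)
    · exact Or.inr (R.inSub_singleton.mpr (Or.inr rfl))
  · rw [E.UJ_singleton, ← E.XS_singleton, ← E.XS_union, H38.PreElts.U]
    congr 1
    ext r
    constructor
    · rintro (h | rfl)
      · exact h.1
      · exact R.pos_sim _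
    · intro h
      by_cases e : r = R.sim ⟨i, hi⟩
      · exact Or.inr e
      · exact Or.inl ⟨h, e⟩

end Cfsg.Agent.S1045
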