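import Cfsg.Statements.S1061
import Cfsg.Agent.Lib.Chev.Main
import Cfsg.Agent.Lib.Chev.Center
import Cfsg.Agent.Lib.Weyl.PoinW

set_option autoImplicit false
open Cfsg

namespace Cfsg.Agent.S1061

/-- `gcd(2, q-1)² · |D₄(q)| = q¹² (q² - 1)(q⁴ - 1)(q⁴ - 1)(q⁶ - 1)`. -/
theorem result {F : Type*} [Field F] [Fintype F] {q : ℕ} (hq : Fintype.card F = q) : Nat.gcd 2 (q - 1) ^ 2 * Nat.card ↥(Cfsg.Lie.chevD4.group F) = q ^ 12 * (q ^ 2 - 1) * (q ^ 4 - 1) * (q ^ 4 - 1) * (q ^ 6 - 1) := by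
  obtain ⟨R, E, hE⟩ := H38.exists_isMat (D := Lie.chevD4) (by simp) F
  rw [← Nat.card_eq_fintype_card] at hq
  have h0 : 1 ≤ q := hq ▸ Nat.card_pos
  have h := hE.card_group H38.smithD4 hq (H39.poinWD4 R (q : ℤ))
  have e : Lie.chevD4.nroots / 2 = 12 := by decide +kernel
  rw [e] at h
  have h1 : ∀ k, ((q ^ k - 1 : ℕ) : ℤ) = (q : ℤ) ^ k - 1 := fun k => by
    rw [Nat.cast_sub (Nat.one_le_pow _ _ h0)]; simp
  apply Nat.cast_injective (R := ℤ)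
  rw [h]
  simp only [Nat.cast_mul, h1, Nat.cast_pow, mul_assoc]

end Cfsg.Agent.S1061
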