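import Cfsg.Statements.S1084
import Mathlib
import Cfsg.Agent.Lib.E6Cub.Frame
import Cfsg.Agent.S1077
import Cfsg.Agent.S1054

set_option autoImplicit false
open Cfsg

namespace Cfsg.Agent.S1084

theorem quot_equiv {S U C : Type*} [Group S] [Group U] [Group C] [IsSimpleGroup C]
    (hC : ¬ IsMulCommutative C) (hU : ¬ IsMulCommutative U) (ψ : S →* U) (hψ : Function.Surjective ψ)
    (θ : S →* C) (hθ : Function.Surjective θ) (hk : θ.ker = Subgroup.center S) :
    Nonempty ((U ⧸ Subgroup.center U) ≃* C) := by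
  have hz : ∀ z ∈ Subgroup.center S, ψ z ∈ Subgroup.center U := fun z hz =>
    Subgroup.mem_center_iff.2 fun u => by
      obtain ⟨s, rfl⟩ := hψ u
      rw [← map_mul, ← map_mul, Subgroup.mem_center_iff.1 hz s]
  have h1 : ψ.ker ≤ θ.ker := by
    rcases (Subgroup.Normal.map ψ.normal_ker θ hθ).eq_bot_or_eq_top with h | h
    · exact (Subgroup.map_eq_bot_iff _).1 h
    · refine absurd ⟨⟨fun a b => ?_⟩⟩ hU
      obtain ⟨s, rfl⟩ := hψ a
      obtain ⟨k, hk', e⟩ : θ s ∈ ψ.ker.map θ := h ▸ Subgroup.mem_top _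
      have h2 : k⁻¹ * s ∈ θ.ker := by rw [MonoidHom.mem_ker, map_mul, map_inv, e, inv_mul_cancel]
      have h3 := hz _ (hk ▸ h2)
      rw [map_mul, map_inv, MonoidHom.mem_ker.1 hk', inv_one, one_mul] at h3
      exact (Subgroup.mem_center_iff.1 h3 b).symm
  let χ : U →* C := ψ.liftOfSurjective hψ ⟨θ, h1⟩
  have hχ : ∀ s, χ (ψ s) = θ s := fun s => ψ.liftOfRightInverse_comp_apply _ _ ⟨θ, h1⟩ s
  have hs : Function.Surjective χ := fun c => by
    obtain ⟨s, rfl⟩ := hθ c
    exact ⟨ψ s, hχ s⟩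
  have hc : Subgroup.center C = ⊥ :=
    (Subgroup.normal_of_characteristic _).eq_bot_or_eq_top.resolve_right fun h =>
      hC ⟨⟨fun a b => (Subgroup.mem_center_iff.1 (h ▸ Subgroup.mem_top b) a)⟩⟩
  have he : Subgroup.center U = χ.ker := by
    ext u
    constructor
    · intro hu
      have : χ u ∈ Subgroup.center C := Subgroup.mem_center_iff.2 fun c => by
        obtain ⟨v, rfl⟩ := hs c
        rw [← map_mul, ← map_mul, Subgroup.mem_center_iff.1 hu v]
      rwa [hc] at this
    · intro hu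
      obtain ⟨s, rfl⟩ := hψ u
      exact hz s (hk ▸ (MonoidHom.mem_ker.2 ((hχ s).symm.trans hu)))
  exact ⟨(QuotientGroup.quotientMulEquivOfEq he).trans
    (QuotientGroup.quotientKerEquivOfSurjective χ hs)⟩

open H30.E6 Cfsg.Lie in
theorem not_comm {F : Type*} [Field F] : ¬ IsMulCommutative (E6univ F) := fun h => by
  have h1 : xu F 56 1 * xu F 42 1 = xu F 42 1 * xu F 56 1 := congrArg Subtype.val
    (h.1.1 (⟨xu F 56 1, xu_mem 56 1⟩ : E6univ F) ⟨xu F 42 1, xu_mem 42 1⟩)
  have h2 := congrArg (fun g => im g 2 0) h1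
  have a1 : sg 56 0 = 1 := by decide +kernel
  have a2 : sr 56 0 = 1 := by decide +kernel
  have a3 : sg 42 0 = 0 := by decide +kernel
  have a4 : sg 42 1 = 1 := by decide +kernel
  have a5 : sr 42 1 = 2 := by decide +kernel
  simp only [im, Units.val_mul, ← Matrix.mulVec_mulVec] at h2
  rw [co_xu (by norm_num) _ _ (by norm_num), co_xu (r := 42) (n := 0) (by norm_num) _ _ (by norm_num),
    co_xu (r := 42) (n := 0) (by norm_num) _ _ (by norm_num), a1, a2, a3,
    co_xu (r := 42) (n := 1) (by norm_num) _ _ (by norm_num),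
    co_xu (r := 56) (n := 0) (by norm_num) _ _ (by norm_num), a1, a2, a4, a5,
    co_eb (n := 2) (by norm_num) (by norm_num)] at h2
  simp at h2

/-- E₆ via the 27-dimensional cubic form: for a finite field with at least three elements, (isometries of the cubic form) / centre ≅ the Chevalley group E₆(F). -/
theorem result {F : Type*} [Field F] [Fintype F] (hF : 3 ≤ Fintype.card F) : Nonempty (Cfsg.Lie.E6 F ≃* ↥(Cfsg.Lie.chevE6.group F)) := by
  have hF' : ∃ a : F, a ≠ 0 ∧ a ≠ 1 := by
    classical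
    by_contra h
    push Not at h
    have : (Finset.univ : Finset F) ⊆ {0, 1} := fun a _ => by
      by_cases e : a = 0
      · simp [e]
      · simp [h a e]
    have h1 := (Finset.card_le_card this).trans Finset.card_le_two
    rw [Finset.card_univ] at h1
    omega
  obtain ⟨R, E, hE⟩ := H38.exists_isMat (D := Lie.chevE6) (by simp) F
  obtain ⟨θ, h1, h2, -⟩ := S1077.result (K := F) Lie.chevE6 (by simp)
  obtain ⟨h3, h4⟩ := S1054.result (F := F) Lie.chevE6 (by simp)
  let φ := (H30.E6.stRel F).lift R (H30.E6.stRel_R3 R)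
  have hφ : ∀ r < 72, ∀ t, φ (Lie.chevE6.stGen F r t) = H30.E6.xu F r t :=
    fun r hr t => (H30.E6.stRel F).lift_stGen R _ hr t
  have hr : φ.range = Lie.E6univ F := by
    refine le_antisymm ?_ ?_
    · rw [MonoidHom.range_eq_map, ← H38.stSt_top R, Subgroup.map_le_iff_le_comap]
      refine (H38.PreElts.XS_le _).2 fun r _ t => ?_
      rw [Subgroup.mem_comap, H38.StRel.toPre_x, H38.stSt_x, hφ r r.2]
      exact H30.E6.xu_mem r t
    · rw [← H30.E6.G0_eq hF']
      refine (Subgroup.closure_le _).2 ?_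
      rintro _ ⟨r, t, hr, rfl⟩
      exact ⟨_, hφ r hr t⟩
  exact quot_equiv h4 not_comm ((MulEquiv.subgroupCongr hr).toMonoidHom.comp φ.rangeRestrict)
    ((MulEquiv.subgroupCongr hr).surjective.comp φ.rangeRestrict_surjective) θ h1 h2

end Cfsg.Agent.S1084
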