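import Cfsg.Statements.S1091
import Mathlib
import Cfsg.Agent.Lib.Ree.Basic

set_option autoImplicit false
open Cfsg

namespace Cfsg.Agent.S1091

theorem exists_bn {G K : Type*} [Group G] [Field K] [CharP K 3] (S : H40.Ree.Model G K) (N : Subgroup G)
    (hN : ∀ g, g ∈ N ↔ g ∈ S.H ∨ ∃ k, g = S.h k * S.w) : ∃ P : Cfsg.BNPair G, P.B = S.B ∧ P.N = N := by
  have hw : S.w ∈ N := (hN _).2 (Or.inr ⟨1, by simp⟩)
  have hH : ∀ g ∈ S.B ⊓ N, g ∈ S.H := by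
    rintro g ⟨h1, h2⟩
    rcases (hN g).1 h2 with h | ⟨k, rfl⟩
    · exact h
    · exact absurd ((S.B.mul_mem_cancel_left (S.h_mem_B k)).1 h1) S.w_not_mem_B
  have cell : ∀ g, g ∉ S.B → ∀ n, n ∉ S.B → g ∈ DoubleCoset.doubleCoset n (S.B : Set G) S.B := by
    intro g hg n hn
    obtain ⟨x, y, z, a, b, c, k, rfl⟩ := S.bruhat hg
    obtain ⟨x', y', z', a', b', c', k', rfl⟩ := S.bruhat hn
    exact DoubleCoset.mem_doubleCoset.2 ⟨S.u x y z * (S.u x' y' z')⁻¹,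
      S.B.mul_mem (S.u_mem_B _ _ _) (S.B.inv_mem (S.u_mem_B _ _ _)),
      (S.u a' b' c' * S.h k')⁻¹ * (S.u a b c * S.h k),
      S.B.mul_mem (S.B.inv_mem (S.B.mul_mem (S.u_mem_B _ _ _) (S.h_mem_B _)))
        (S.B.mul_mem (S.u_mem_B _ _ _) (S.h_mem_B _)), by group⟩
  have cell1 : ∀ g ∈ S.B, ∀ n ∈ S.B, g ∈ DoubleCoset.doubleCoset n (S.B : Set G) S.B := fun g hg n hn =>
    DoubleCoset.mem_doubleCoset.2 ⟨g * n⁻¹, S.B.mul_mem hg (S.B.inv_mem hn), 1, S.B.one_mem, by group⟩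
  refine ⟨⟨S.B, N, {S.w}, S.eq_top_of_B_le le_sup_left (Subgroup.mem_sup_right hw) S.w_not_mem_B, ?_,
    by simpa using hw, ?_, ?_, ?_, ?_, ?_⟩, rfl, rfl⟩
  · intro n hn t ht
    obtain ⟨l, rfl⟩ := hH t ht
    rcases (hN n).1 hn with h | ⟨k, rfl⟩
    · exact S.B.mul_mem (S.B.mul_mem (S.H_le_B h) ht.1) (S.B.inv_mem (S.H_le_B h))
    · rw [S.h_w_conj_h]; exact S.B.inv_mem ht.1
  · rintro _ rfl; rw [S.w_mul_w]; exact S.B.one_mem
  · rintro _ rfl _ rfl _; rfl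
  · refine le_antisymm (sup_le (by simpa using hw) inf_le_right) fun n hn => ?_
    rcases (hN n).1 hn with h | ⟨k, rfl⟩
    · exact Subgroup.mem_sup_right ⟨S.H_le_B h, hn⟩
    · exact Subgroup.mul_mem _ (Subgroup.mem_sup_right ⟨S.h_mem_B k, (hN _).2 (Or.inl (S.h_mem_H k))⟩)
        (Subgroup.mem_sup_left (Subgroup.subset_closure rfl))
  · rintro _ rfl n hn b hb
    by_cases h : n ∈ S.B
    · left
      refine cell _ (fun e => S.w_not_mem_B ?_) _ (fun e => S.w_not_mem_B ?_)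
      · exact (S.B.mul_mem_cancel_right hb).1 ((S.B.mul_mem_cancel_right h).1 e)
      · exact (S.B.mul_mem_cancel_right h).1 e
    · by_cases h' : S.w * b * n ∈ S.B
      · left
        refine cell1 _ h' _ ?_
        rcases (hN n).1 hn with h1 | ⟨k, rfl⟩
        · exact absurd (S.H_le_B h1) h
        · rw [← mul_assoc, ← S.w_inv, S.w_inv, ← congrArg (S.w * S.h k * ·) S.w_inv, S.w_conj_h]
          exact S.B.inv_mem (S.h_mem_B k)
      · exact Or.inr (cell _ h' _ h)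
  · rintro _ rfl h
    have : S.w * S.u 1 0 0 * S.w ∈ (S.B : Set G) := h ▸ ⟨_, S.u_mem_B 1 0 0, rfl⟩
    refine S.w_not_mem_B (S.mem_B_of_conj_mem_B (S.u_mem_U 1 0 0)
      (fun e => one_ne_zero (S.u_eq_one.1 e).1) ?_)
    rwa [S.w_inv]

/-- ²G₂(3^(2m+1)) has a (B,N)-pair: B¹ = G¹ ∩ B and N¹ = G¹ ∩ N, intersections with the ambient Chevalley group's B = UH and N. -/
theorem result {K : Type*} [Field K] [Fintype K] {m : ℕ} (hK : Fintype.card K = 3 ^ (2 * m + 1)) :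
    ∃ P : Cfsg.BNPair ↥(Cfsg.Lie.twistedG2 K (3 ^ m)),
      P.B = (Cfsg.Lie.chevG2.borelSubgroup K ⊓ Cfsg.Lie.twistedG2 K (3 ^ m)).subgroupOf (Cfsg.Lie.twistedG2 K (3 ^ m)) ∧
      P.N = (Cfsg.Lie.chevG2.monomialSubgroup K ⊓ Cfsg.Lie.twistedG2 K (3 ^ m)).subgroupOf (Cfsg.Lie.twistedG2 K (3 ^ m)) := by
  have := H40.Ree.charP_three hK
  rw [H40.Ree.lie_B_eq hK]
  exact exists_bn (H40.Ree.lieModel hK) _ fun g => by
    rw [Subgroup.mem_subgroupOf, Subgroup.mem_inf, and_iff_left g.2, H40.Ree.lie_mem_N hK]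

end Cfsg.Agent.S1091
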