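import Cfsg.Statements.S1096
import Mathlib
import Cfsg.Agent.Base
import Cfsg.Agent.Lib.ChevMat.Main

set_option autoImplicit false
open Cfsg

namespace Cfsg.Agent.S1096


/-- `n_p h_{p_j}(t) n_p⁻¹ = h_{w_p(p_j)}(t)` for fundamental `p`, `p_j` and `t ≠ 0`, stated as `n_p h_{p_j}(t) = h_{w_p(p_j)}(t) n_p`. -/
theorem result {F : Type*} [Field F] (D : Cfsg.Lie.ChevalleyDatum) (hD : D ∈ [Cfsg.Lie.chevG2, Cfsg.Lie.chevB2, Cfsg.Lie.chevD4, Cfsg.Lie.chevF4, Cfsg.Lie.chevE6, Cfsg.Lie.chevE7, Cfsg.Lie.chevE8]) (i j : ℕ) (hi : i < D.rank) (hj : j < D.rank) (t : F) (ht : t ≠ 0) :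
    D.nMat F (D.simple i) 1 * D.hMat F (D.simple j) t = D.hMat F (D.reflectRoot i (D.simple j)) t * D.nMat F (D.simple i) 1 := by
  have T := H37.tab hD
  have J := H37.jac hD
  have hp := T.simple_lt i hi
  have hq := T.simple_lt j hj
  rw [← H37.rf_simple hD hi hq, T.hMat_eq_dgp J F hq ht, T.hMat_eq_dgp J F (T.rf_lt J hp hq) ht,
    T.nMat_one F hp, H37.dgp_eq F (H37.rf D _ _),
    T.diag_mul_nZ J (fun v => t ^ ((fun k : Fin D.rank => H37.cor D (H37.rf D (D.simple i) (D.simple j)) k) ⬝ᵥ v)) hp,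
    H37.dgp]
  congr 2
  funext a
  rcases a with k | s
  · simp [H37.wrefl]
  · rw [H37.wtI_inr, H37.wrefl_wt, ← T.wt_rf J hp s.2, ← H37.pairing_eq_dot, T.pairing_rf_rf J hp hq s.2]
    rfl

end Cfsg.Agent.S1096
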