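import Cfsg.Statements.S1100
import Cfsg.Agent.Lib.Chev.Main

set_option autoImplicit false
open Cfsg

namespace Cfsg.Agent.S1100

/-- Canonical form `g = b n_w u` (`b ∈ B`, `u ∈ U_w⁻ = ⟨X_r : r > 0, n_w X_r n_w⁻¹ ≤ V⟩`): such a decomposition exists for every element of the group; the coset `n_w H` is determined by `g`; and for a fixed representative `n_w` the factors `b`, `u` are unique. -/
theorem result {F : Type*} [Field F] (D : Cfsg.Lie.ChevalleyDatum) (hD : D ∈ [Cfsg.Lie.chevG2, Cfsg.Lie.chevB2, Cfsg.Lie.chevD4, Cfsg.Lie.chevF4, Cfsg.Lie.chevE6, Cfsg.Lie.chevE7, Cfsg.Lie.chevE8]) :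
    (∀ g ∈ D.group F, ∃ b ∈ D.borelSubgroup F, ∃ n ∈ D.monomialSubgroup F,
      ∃ u ∈ Subgroup.closure {x : GL D.Idx F | ∃ (r : ℕ) (t : F), D.IsPosRoot r ∧
            (D.rootSubgroup F r).map (MulAut.conj n).toMonoidHom ≤ D.negUnipotent F ∧ (x : Matrix D.Idx D.Idx F) = D.x F r t},
        g = b * n * u) ∧
    (∀ (b b' n n' u u' : GL D.Idx F), b ∈ D.borelSubgroup F → b' ∈ D.borelSubgroup F →
      n ∈ D.monomialSubgroup F → n' ∈ D.monomialSubgroup F →
      u ∈ Subgroup.closure {x : GL D.Idx F | ∃ (r : ℕ) (t : F), D.IsPosRoot r ∧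
            (D.rootSubgroup F r).map (MulAut.conj n).toMonoidHom ≤ D.negUnipotent F ∧ (x : Matrix D.Idx D.Idx F) = D.x F r t} →
      u' ∈ Subgroup.closure {x : GL D.Idx F | ∃ (r : ℕ) (t : F), D.IsPosRoot r ∧
            (D.rootSubgroup F r).map (MulAut.conj n').toMonoidHom ≤ D.negUnipotent F ∧ (x : Matrix D.Idx D.Idx F) = D.x F r t} →
      b * n * u = b' * n' * u' → n⁻¹ * n' ∈ D.diagonalSubgroup F ∧ (n = n' → b = b' ∧ u = u')) := by
  obtain ⟨R, E, hE⟩ := H38.exists_isMat hD F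
  have hF := hE.faith
  have key : ∀ {n w}, E.Rep n w → Subgroup.closure {x : GL D.Idx F | ∃ (r : ℕ) (t : F), D.IsPosRoot r ∧
      (D.rootSubgroup F r).map (MulAut.conj n).toMonoidHom ≤ D.negUnipotent F ∧
      (x : Matrix D.Idx D.Idx F) = D.x F r t} = E.XS (R.Inv w) := by
    intro n w hn
    simp only [← and_assoc]
    refine hE.coe_x.closure_eq (P := fun r => D.IsPosRoot r ∧
      (D.rootSubgroup F r).map (MulAut.conj n).toMonoidHom ≤ D.negUnipotent F) (fun _ h => h.1.1)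
      fun r => ?_
    rw [R.isPosRoot_iff, hE.X_eq, hE.V_eq, ← E.XS_singleton, hn.map_conj_XS, Set.image_singleton,
      E.XS_singleton]
    refine and_congr_right fun _ => ⟨fun h hp => ?_, fun h => ?_⟩
    · exact hF.x_one_ne _ (hF.B_inf_V _ (E.U_le_B (E.x_mem_U hp 1)) (h (E.x_mem_X _ 1)))
    · rintro _ ⟨t, rfl⟩; exact E.x_mem_V h t
  rw [hE.B_eq, hE.N_eq, hE.Gp_eq, hE.H_eq]
  constructor
  · intro g hg
    obtain ⟨b, hb, n, w, hn, u, hu, e⟩ := E.bruhat hg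
    exact ⟨b, hb, n, hn.mem_N, u, key hn ▸ hu, e⟩
  · intro b b' n n' u u' hb hb' hn hn' hu hu' e
    obtain ⟨w, hw⟩ := E.exists_rep_of_mem_N hn
    obtain ⟨w', hw'⟩ := E.exists_rep_of_mem_N hn'
    rw [key hw] at hu
    rw [key hw'] at hu'
    obtain rfl : w = w' := hF.bruhat_unique_w' hw hw' hb (E.U_le_B (E.XS_mono (fun _ h => h.1) hu)) hb'
      (E.U_le_B (E.XS_mono (fun _ h => h.1) hu')) e
    refine ⟨hw.inv_mul_mem_H E hw', ?_⟩
    rintro rfl
    exact hF.bruhat_unique_bu hw hb hb' hu hu' e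

end Cfsg.Agent.S1100
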