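import Cfsg.Statements.S1101
import Mathlib
import Cfsg.Agent.Lib.Ree.LieModel

set_option autoImplicit false
open Cfsg

namespace Cfsg.Agent.S1101

/-- For ²G₂ over `K` with `|K| = 3^(2m+1)`, `θ = 3^m`: `U¹ = G¹ ∩ U` consists exactly of the elements `x_a(t^θ) x_b(t) x_{a+b}(t^{θ+1}+u^θ) x_{2a+b}(t^{2θ+1}+v^θ) x_{3a+b}(u) x_{3a+2b}(v)`, `t, u, v ∈ K`, and it has `|K|³` elements. -/
theorem result {K : Type*} [Field K] [Fintype K] {m : ℕ} (hK : Fintype.card K = 3 ^ (2 * m + 1)) :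
    (∀ g : GL Cfsg.Lie.chevG2.Idx K, g ∈ Cfsg.Lie.chevG2.posUnipotent K ⊓ Cfsg.Lie.twistedG2 K (3 ^ m) ↔
      ∃ t u v : K, (g : Matrix Cfsg.Lie.chevG2.Idx Cfsg.Lie.chevG2.Idx K) = Cfsg.Lie.chevG2.wordMat K (Cfsg.Lie.reeWordU (3 ^ m) t u v)) ∧
    Nat.card ↥(Cfsg.Lie.chevG2.posUnipotent K ⊓ Cfsg.Lie.twistedG2 K (3 ^ m)) = (3 ^ (2 * m + 1)) ^ 3 := by
  have := H40.Ree.charP_three hK
  refine ⟨fun g => ⟨fun hg => ?_, ?_⟩, ?_⟩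
  · obtain ⟨a, b, c, h⟩ := (H40.Ree.lie_mem_U hK (g := ⟨g, hg.2⟩)).1 hg.1
    exact ⟨_, _, _, by rw [← H40.Ree.uWord_eq hK a b c, ← H40.Ree.coe_u hK, ← h]⟩
  · rintro ⟨t, u, v, h⟩
    have hg : g ∈ Cfsg.Lie.twistedG2 K (3 ^ m) := Subgroup.subset_closure ⟨_, ⟨t, u, v, Or.inl rfl⟩, h⟩
    refine ⟨?_, hg⟩
    rw [H40.Ree.reeWordU_eq hK, ← H40.Ree.coe_u hK] at h
    rw [Units.ext h]
    exact (H40.Ree.lie_mem_U hK).2 ((H40.Ree.lieModel hK).u_mem_U _ _ _)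
  · rw [← Nat.card_congr (H40.Ree.lieUEquiv hK).toEquiv, (H40.Ree.lieModel hK).card_U, H40.Ree.natCard_eq hK]

end Cfsg.Agent.S1101
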