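import Cfsg.Statements.S1102
import Mathlib
import Cfsg.Agent.Lib.Twist.E6Mat

set_option autoImplicit false
open Cfsg

namespace Cfsg.Agent.S1102

/-- `|H¹| = |G¹ ∩ H|`: `Nat.gcd 3 (q + 1) * |H¹| = (q - 1) ^ 4 * (q + 1) ^ 2` for ²E₆(q). -/
theorem result {K : Type*} [Field K] [Fintype K] {q : ℕ} (hq : IsPrimePow q) (hK : Fintype.card K = q ^ 2) :
    Nat.gcd 3 (q + 1) * Nat.card ↥(Cfsg.Lie.chevE6.diagonalSubgroup K ⊓ Cfsg.Lie.twistedE6 K q) = (q - 1) ^ 4 * (q + 1) ^ 2 := by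
  obtain ⟨R, E, hE, T, h, hA⟩ := H39.exists_E6 hq hK
  rw [H39.card_H_tw hA]
  refine h.card_H.trans ?_
  obtain ⟨n, rfl⟩ : ∃ n, q = n + 1 := ⟨q - 1, by have := h.two_le; omega⟩
  rw [show (n + 1) ^ 2 - 1 = n * (n + 2) from Nat.sub_eq_of_eq_add (by ring), Nat.add_sub_cancel]
  ring

end Cfsg.Agent.S1102
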