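import Cfsg.Statements.S1112
import Mathlib
import Cfsg.Agent.Lib.Twist.F4Mat

set_option autoImplicit false
open Cfsg

namespace Cfsg.Agent.S1112

/-- ²F₄(2^(2m+1)) (m ≥ 1) equals its derived subgroup. -/
theorem result {K : Type*} [Field K] [Fintype K] {m : ℕ} (hK : Fintype.card K = 2 ^ (2 * m + 1)) (hm : 1 ≤ m) : commutator ↥(Cfsg.Lie.twistedF4 K (2 ^ m)) = ⊤ := by
  obtain ⟨R, E, hE, T, h, hA⟩ := H39.exists_F4 hK
  have h2 : 2 < Fintype.card K := by
    rw [hK]; exact (Nat.pow_lt_pow_right (by norm_num) (by omega) : 2 ^ 1 < 2 ^ (2 * m + 1))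
  exact H39.perfect_tw hA (h.perfect h2)

end Cfsg.Agent.S1112
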