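import Cfsg.Statements.S1115
import Mathlib
import Cfsg.Agent.Lib.Ree.Basic

set_option autoImplicit false
open Cfsg

namespace Cfsg.Agent.S1115

/-- `N¹/H¹ ≅ W¹`: a surjective homomorphism from `N¹ = G¹ ∩ N` onto the group of order 2 with kernel `H¹`. -/
theorem result {K : Type*} [Field K] [Fintype K] {m : ℕ} (hK : Fintype.card K = 3 ^ (2 * m + 1)) :
    ∃ φ : ↥(Cfsg.Lie.chevG2.monomialSubgroup K ⊓ Cfsg.Lie.twistedG2 K (3 ^ m)) →* Multiplicative (ZMod 2), Function.Surjective φ ∧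
      φ.ker = (Cfsg.Lie.chevG2.diagonalSubgroup K ⊓ Cfsg.Lie.twistedG2 K (3 ^ m)).subgroupOf (Cfsg.Lie.chevG2.monomialSubgroup K ⊓ Cfsg.Lie.twistedG2 K (3 ^ m)) := by
  classical
  have := H40.Ree.charP_three hK
  set S := H40.Ree.lieModel hK
  let ι : ↥(Cfsg.Lie.chevG2.monomialSubgroup K ⊓ Cfsg.Lie.twistedG2 K (3 ^ m)) →*
    ↥(Cfsg.Lie.twistedG2 K (3 ^ m)) := Subgroup.inclusion inf_le_right
  have hN : ∀ g, ι g ∈ S.H ∨ ∃ k, ι g = S.h k * S.w := fun g => (H40.Ree.lie_mem_N hK).1 g.2.1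
  have hw : ∀ k, S.h k * S.w ∉ S.H := fun k h =>
    S.w_not_mem_B ((S.B.mul_mem_cancel_left (S.h_mem_B k)).1 (S.H_le_B h))
  refine ⟨MonoidHom.mk' (fun g => if ι g ∈ S.H then 1 else Multiplicative.ofAdd 1) ?_, ?_, ?_⟩
  · intro g g'
    rw [map_mul]
    rcases hN g with h | ⟨k, h⟩ <;> rcases hN g' with h' | ⟨k', h'⟩
    · simp [h, h', S.H.mul_mem]
    · simp [h, h', S.H.mul_mem_cancel_left, hw]
    · rw [if_neg (by rw [S.H.mul_mem_cancel_right h', h]; exact hw k), if_neg (h ▸ hw k), if_pos h', mul_one]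
    · rw [if_pos, if_neg (h ▸ hw k), if_neg (h' ▸ hw k')]
      · decide
      · rw [h, h', mul_assoc, ← mul_assoc S.w, S.w_mul_h, mul_assoc, S.w_mul_w, mul_one]
        exact S.H.mul_mem (S.h_mem_H k) (S.H.inv_mem (S.h_mem_H k'))
  · intro z
    have hz : z = 1 ∨ z = Multiplicative.ofAdd 1 := by revert z; decide
    rcases hz with rfl | rfl
    · exact ⟨1, map_one _⟩
    · refine ⟨⟨S.w, (H40.Ree.lie_mem_N hK).2 (Or.inr ⟨1, by rw [map_one, one_mul]⟩), S.w.2⟩, if_neg ?_⟩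
      exact fun h => S.w_not_mem_B (S.H_le_B h)
  · ext g
    rw [MonoidHom.mem_ker, Subgroup.mem_subgroupOf, Subgroup.mem_inf]
    refine Iff.trans ?_ ((H40.Ree.lie_mem_H hK (g := ι g)).symm.trans (and_iff_left g.2.2).symm)
    change (if ι g ∈ S.H then (1 : Multiplicative (ZMod 2)) else Multiplicative.ofAdd 1) = 1 ↔ ι g ∈ S.H
    by_cases h : ι g ∈ S.H
    · simp [h]
    · simp only [h, if_false, iff_false]; decide

end Cfsg.Agent.S1115
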