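import Cfsg.Statements.S1118
import Mathlib
import Cfsg.Agent.Lib.RankOne.Fixed

set_option autoImplicit false
open Cfsg

namespace Cfsg.Agent.S1118

/-- In the rank-one set-up (`G` finite and doubly transitive on `Ω`, `t` an involution moving `a`, `Q` normal in `G_a` with `G_a = Q D`, `Q ⊓ D = 1` for the two-point stabiliser `D = G_a ⊓ G_{t • a}`, `|Q|` even, `|D|` odd), the normaliser of a subset of `Q` containing a non-identity element lies in `G_a`; consequently `N_G(Q) = N_G(G_a) = G_a`. -/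
theorem result {G Ω : Type*} [Group G] [Finite G] [MulAction G Ω] {a : Ω} {t : G} {Q : Subgroup G}
    (hS : Cfsg.IsRankOneSetup G Ω a t Q) :
    (∀ X : Set G, X ⊆ (Q : Set G) → (∃ x ∈ X, x ≠ 1) → Subgroup.normalizer X ≤ MulAction.stabilizer G a) ∧
      Subgroup.normalizer (Q : Set G) = MulAction.stabilizer G a ∧
      Subgroup.normalizer (MulAction.stabilizer G a : Set G) = MulAction.stabilizer G a := by
  have h1 : ∀ X : Set G, X ⊆ (Q : Set G) → (∃ x ∈ X, x ≠ 1) →
      Subgroup.normalizer X ≤ MulAction.stabilizer G a := by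
    rintro X hX ⟨x, hx, hx1⟩ g hg
    have h2 : g * x * g⁻¹ ∈ X := (Subgroup.mem_set_normalizer_iff.1 hg x).1 hx
    refine H40.RankOne.eq_of_Q_fix hS (hX h2) (H40.RankOne.conj_ne_one hx1) ?_
    rw [mul_smul, mul_smul, inv_smul_smul, H40.RankOne.Q_smul hS (hX hx)]
  obtain ⟨s, hs, hs1, hs2⟩ := H40.RankOne.exists_inv_mem_Q hS
  refine ⟨h1, le_antisymm (h1 _ subset_rfl ⟨s, hs, hs1⟩) ?_, le_antisymm ?_ Subgroup.le_normalizer⟩
  · intro g hg
    refine Subgroup.mem_set_normalizer_iff.2 fun x => ⟨fun hx => H40.RankOne.conjQ hS hg hx, fun hx => ?_⟩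
    have := H40.RankOne.conjQ' hS hg hx
    simpa [mul_assoc] using this
  · intro g hg
    have h2 : g * s * g⁻¹ ∈ (MulAction.stabilizer G a : Set G) :=
      (Subgroup.mem_set_normalizer_iff.1 hg s).1 (hS.le hs)
    refine H40.RankOne.fixed_unique hS (H40.RankOne.conj_ne_one (g := g) hs1) (H40.RankOne.conj_sq hs2) ?_ h2
    rw [mul_smul, mul_smul, inv_smul_smul, H40.RankOne.Q_smul hS hs]

end Cfsg.Agent.S1118
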