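import Cfsg.Statements.S1148
import Cfsg.Agent.Lib.ONan.Main
import Cfsg.Agent.Lib.BN.Basic

set_option autoImplicit false
open Cfsg

namespace Cfsg.Agent.S1148

/-- Let `G` be finite simple with a (B,N)-pair of rank 1, `B = U H` with `U` nilpotent normal in `B`, `H = B ⊓ N`, `U ⊓ H = 1`, where `[G : B] = p^(3n) + 1` for an odd prime `p`, `|U| = p^(3n)` and `H` is cyclic of order `(p^(2n) - 1)/gcd(3, p^n + 1)`. Then `G ≅ PSU₃(p^n)`. -/
theorem result {G : Type*} [Group G] [Finite G] [IsSimpleGroup G]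
    (P : Cfsg.BNPair G) (h1 : P.rank = 1) {p n : ℕ} (hp : p.Prime) (hp2 : p ≠ 2) (hn : 1 ≤ n)
    (U : Subgroup G) (hUB : U ≤ P.B) (hUn : ∀ b ∈ P.B, ∀ u ∈ U, b * u * b⁻¹ ∈ U)
    (hUnil : Group.IsNilpotent U) (hsplit : U ⊔ (P.B ⊓ P.N) = P.B) (hdisj : U ⊓ (P.B ⊓ P.N) = ⊥)
    (hind : P.B.index = p ^ (3 * n) + 1) (hU : Nat.card U = p ^ (3 * n))
    (hHc : IsCyclic ↥(P.B ⊓ P.N))
    (hH : Nat.gcd 3 (p ^ n + 1) * Nat.card ↥(P.B ⊓ P.N) = p ^ (2 * n) - 1) :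
    ∃ (F : Type) (_ : Field F) (_ : Fintype F), Fintype.card F = (p ^ n) ^ 2 ∧
      Nonempty (G ≃* Cfsg.PSU 3 F (p ^ n)) := by
  obtain ⟨s, hs⟩ := Nat.card_eq_one_iff_exists.1 h1
  have hW : ∀ w : H13.BN.Weyl P, w = 1 ∨ w = H13.BN.gen P s := by
    intro w
    obtain ⟨l, rfl⟩ := (H13.BN.invGen P).wp_surjective w
    induction l with
    | nil => exact Or.inl rfl
    | cons a l ih =>
      rw [H13.wp_cons, hs a]
      rcases ih with ih | ih
      · right; rw [ih, mul_one]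
      · left; rw [ih, (H13.BN.invGen P).sq]
  have := Fact.mk hp
  let _ : Fintype (GaloisField p (2 * n)) := Fintype.ofFinite _
  have hE : Fintype.card (GaloisField p (2 * n)) = (p ^ n) ^ 2 := by
    rw [← Nat.card_eq_fintype_card, GaloisField.card p _ (by omega), mul_comm, pow_mul]
  refine ⟨GaloisField p (2 * n), inferInstance, inferInstance, hE,
    H52.ON.psu_of_cosets (B := P.B) (H := P.B ⊓ P.N) (s := s) (d := Nat.gcd 3 (p ^ n + 1)) hp hp2 hn hUB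
      hUn inf_le_left (H13.BN.gen_not_mem s) (P.sq_mem s s.2) (fun h hh => ?_) (fun x hx => ?_)
      (fun g hg => ?_) hind hU hHc (Odd.of_dvd_nat (by decide) (Nat.gcd_dvd_left 3 _)) ?_ _ hE⟩
  · simpa using P.conj_mem _ (P.N.inv_mem (P.subset s.2)) h hh
  · have h2 : (P.B ⊓ P.N) ≤ Subgroup.normalizer (U : Set G) := fun b hb =>
      Subgroup.mem_normalizer_iff.2 fun u => ⟨hUn b hb.1 u, fun h => by
        simpa [mul_assoc] using hUn _ (P.B.inv_mem hb.1) _ h⟩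
    rw [← hsplit, ← SetLike.mem_coe, Subgroup.coe_mul_of_right_le_normalizer_left _ _ h2] at hx
    obtain ⟨u, hu, h, hh, rfl⟩ := hx
    exact ⟨u, hu, h, hh, rfl⟩
  · obtain ⟨w, hw⟩ := H13.BN.exists_mem_cell (P := P) g
    rcases hW w with rfl | rfl
    · exact absurd ((H13.BN.mem_cell_one P).1 hw) hg
    · exact (H13.BN.mem_cell_mk P (n := H13.BN.genN P s)).1 hw
  · rw [hH, Nat.sub_add_cancel (Nat.one_le_pow _ _ hp.pos)]

end Cfsg.Agent.S1148
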