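import Cfsg.Statements.S1151
import Mathlib
import Cfsg.Agent.Lib.Ree.Basic

set_option autoImplicit false
open Cfsg

namespace Cfsg.Agent.S1151

theorem card_odd_units {K : Type*} [Field K] [CharP K 3] [Finite K] {s : K →+* K}
    (hs : ∀ x, s (s x) = x ^ 3) : 2 * Nat.card {k : Kˣ // Odd (orderOf k)} = Nat.card K - 1 := by
  have hn : ∀ k : Kˣ, Odd (orderOf k) → ¬ Odd (orderOf (-k)) := by
    intro k h1 h2
    have e1 : k ^ (orderOf k * orderOf (-k)) = 1 := by rw [pow_mul, pow_orderOf_eq_one, one_pow]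
    have e2 : (-k) ^ (orderOf k * orderOf (-k)) = 1 := by
      rw [mul_comm, pow_mul, pow_orderOf_eq_one, one_pow]
    rw [(h1.mul h2).neg_pow, e1] at e2
    exact H40.Ree.neg_one_ne_one_units e2
  have hsq : ∀ y : Kˣ, Odd (orderOf (y * y)) := by
    intro y
    by_contra h
    rw [Nat.not_odd_iff_even] at h
    obtain ⟨n, hn⟩ := h
    have e1 : (y * y) ^ n * (y * y) ^ n = 1 := by rw [← pow_add, ← hn, pow_orderOf_eq_one]
    have hpos := orderOf_pos (y * y)
    rcases H40.Ree.units_sq_eq_one e1 with e | e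
    · have := Nat.le_of_dvd (by omega) (orderOf_dvd_of_pow_eq_one e)
      omega
    · refine H40.Ree.not_isSquare_neg_one hs ⟨(y ^ n : Kˣ), ?_⟩
      rw [← Units.val_mul, ← mul_pow, e]; simp
  have hb : Function.Bijective (fun p : {k : Kˣ // Odd (orderOf k)} ⊕ {k : Kˣ // Odd (orderOf k)} =>
      (p.elim (fun k => k.1) (fun k => -k.1) : Kˣ)) := by
    constructor
    · rintro (k | k) (l | l) h <;> simp only [Sum.elim_inl, Sum.elim_inr, neg_inj] at h
      · rw [Subtype.ext h]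
      · exact absurd (h ▸ k.2) (hn _ l.2)
      · exact absurd (h ▸ l.2) (hn _ k.2)
      · rw [Subtype.ext h]
    · intro k
      obtain ⟨y, rfl | rfl⟩ := H40.Ree.sq_or_neg_sq hs k
      · exact ⟨.inl ⟨_, hsq y⟩, rfl⟩
      · exact ⟨.inr ⟨_, hsq y⟩, rfl⟩
  rw [← Nat.card_units, ← Nat.card_eq_of_bijective _ hb, Nat.card_sum, two_mul]

/-- In the small Ree group ²G₂(q), q = 3^(2m+1), realised as G¹ inside the Chevalley group G₂ over the field with q elements (θ the 3^m-th power map), with H¹ = G¹ ∩ H and U¹ = G¹ ∩ U the intersections with the ambient diagonal and positive unipotent subgroups: `H¹` has exactly `(q - 1)/2` elements of odd order, and each non-identity one centralises no non-identity element of `U¹`. -/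
theorem result {K : Type*} [Field K] [Fintype K] {m : ℕ} (hK : Fintype.card K = 3 ^ (2 * m + 1)) :
    2 * Nat.card {h : ↥(Cfsg.Lie.chevG2.diagonalSubgroup K ⊓ Cfsg.Lie.twistedG2 K (3 ^ m)) // Odd (orderOf h)} = 3 ^ (2 * m + 1) - 1 ∧
      ∀ h ∈ (Cfsg.Lie.chevG2.diagonalSubgroup K ⊓ Cfsg.Lie.twistedG2 K (3 ^ m)), h ≠ 1 → Odd (orderOf h) →
        (Cfsg.Lie.chevG2.posUnipotent K ⊓ Cfsg.Lie.twistedG2 K (3 ^ m)) ⊓ Subgroup.centralizer {h} = ⊥ := by
  have := H40.Ree.charP_three hK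
  set S := H40.Ree.lieModel hK
  constructor
  · rw [← H40.Ree.natCard_eq hK, ← card_odd_units S.hs]
    congr 1
    exact (Nat.card_congr ((S.hEquiv.trans (H40.Ree.lieHEquiv hK)).toEquiv.subtypeEquiv fun x => by
      rw [← (S.hEquiv.trans (H40.Ree.lieHEquiv hK)).orderOf_eq x]; rfl)).symm
  · intro h hh h1 hodd
    obtain ⟨k, hk⟩ := S.mem_H.1 ((H40.Ree.lie_mem_H hK (g := ⟨h, hh.2⟩)).1 hh.1)
    have hk' : h = (S.h k : GL _ K) := congrArg Subtype.val hk
    subst hk'
    rw [eq_bot_iff]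
    rintro x ⟨⟨hx, hx'⟩, hc⟩
    have hc' := Subgroup.mem_centralizer_singleton_iff.1 hc
    have := S.u_eq_one_of_commute_h (k := k) (x := ⟨x, hx'⟩) (by rintro rfl; simp at h1) (by
      rintro rfl
      rw [Subgroup.orderOf_coe] at hodd
      exact absurd (S.orderOf_a0 ▸ hodd) (by decide)) ((H40.Ree.lie_mem_U hK).1 hx) (Subtype.ext hc'.symm)
    exact Subgroup.mem_bot.2 (congrArg Subtype.val this)

end Cfsg.Agent.S1151
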