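import Cfsg.Statements.S1152
import Mathlib
import Cfsg.Agent.Lib.Ree.Sylow2

set_option autoImplicit false
open Cfsg

namespace Cfsg.Agent.S1152

/-- In the small Ree group ²G₂(q), q = 3^(2m+1), realised as G¹ inside the Chevalley group G₂ over the field with q elements (θ the 3^m-th power map), with H¹ = G¹ ∩ H and U¹ = G¹ ∩ U the intersections with the ambient diagonal and positive unipotent subgroups: for an involution `a ∈ H¹`, the centraliser of `a` in `G¹` is isomorphic to `Z₂ × PSL₂(q)`; and the Sylow 2-subgroups of `G¹` are elementary abelian of order 8. -/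
theorem result {K : Type*} [Field K] [Fintype K] {m : ℕ} (hK : Fintype.card K = 3 ^ (2 * m + 1))
    (a : ↥(Cfsg.Lie.twistedG2 K (3 ^ m))) (haH : (a : GL Cfsg.Lie.chevG2.Idx K) ∈ Cfsg.Lie.chevG2.diagonalSubgroup K) (ha1 : a ≠ 1) (ha2 : a * a = 1) :
    Nonempty (↥(Subgroup.centralizer {a}) ≃* Multiplicative (ZMod 2) × Matrix.ProjectiveSpecialLinearGroup (Fin 2) K) ∧
      ∀ S : Sylow 2 ↥(Cfsg.Lie.twistedG2 K (3 ^ m)), Nat.card S = 8 ∧ ∀ x ∈ S, x * x = 1 := by
  have := H40.Ree.charP_three hK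
  set S := H40.Ree.lieModel hK
  obtain rfl := S.eq_a0_of_mem_H ((H40.Ree.lie_mem_H hK).1 haH) ha1 ha2
  refine ⟨⟨S.centEquiv⟩, fun P => ?_⟩
  obtain ⟨g, hg⟩ := S.exists_conj_E_eq P
  refine ⟨?_, fun x hx => (S.conj g).sq_of_mem_E (hg ▸ hx)⟩
  rw [← (S.conj g).card_E, hg]

end Cfsg.Agent.S1152
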