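import Cfsg.Statements.S1177
import Mathlib

set_option autoImplicit false
open Cfsg

namespace Cfsg.Agent.S1177

/-- Let A be a nontrivial elementary abelian 2-subgroup of a finite group G which is a T.I. set (each conjugate of A meets A trivially or equals A) and which does not commute elementwise with any conjugate of A other than A itself. Then for every a ∈ A, a ≠ 1, every conjugate of A contained in C_G(a) is equal to A (A is weakly closed in C_G(a)). -/
theorem result {G : Type*} [Group G] [Finite G] (A : Subgroup G) (hA : Cfsg.IsElementaryAbelian 2 A) (hA1 : A ≠ ⊥) (hTI : ∀ g : G, A.map (MulAut.conj g).toMonoidHom ⊓ A = ⊥ ∨ A.map (MulAut.conj g).toMonoidHom = A) (hb : ∀ g : G, (∀ a ∈ A, ∀ b ∈ A.map (MulAut.conj g).toMonoidHom, a * b = b * a) → A.map (MulAut.conj g).toMonoidHom = A) (a : G) (ha : a ∈ A) (ha1 : a ≠ 1) (g : G) (hg : A.map (MulAut.conj g).toMonoidHom ≤ Subgroup.centralizer ({a} : Set G)) : A.map (MulAut.conj g).toMonoidHom = A := by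
  have hconj : ∀ (B : Subgroup G) (u x : G), x ∈ B.map (MulAut.conj u).toMonoidHom ↔
      u⁻¹ * x * u ∈ B := by
    intro B u x
    constructor
    · rintro ⟨y, hy, rfl⟩
      simpa [mul_assoc] using hy
    · intro h
      exact ⟨_, h, by simp [mul_assoc]⟩
  -- an element centralizing a nontrivial element of `A` normalizes `A`
  have hN : ∀ u : G, ∀ x ∈ A, x ≠ 1 → u * x = x * u → ∀ y ∈ A, u * y * u⁻¹ ∈ A := by
    intro u x hx hx1 hux y hy
    rcases hTI u with h | h
    · exfalso
      apply hx1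
      rw [← Subgroup.mem_bot, ← h]
      refine ⟨(hconj _ _ _).2 ?_, hx⟩
      rwa [mul_assoc, ← hux, inv_mul_cancel_left]
    · rw [← h]
      exact (hconj _ _ _).2 (by simpa [mul_assoc] using hy)
  by_contra hne
  have hAB : A.map (MulAut.conj g).toMonoidHom ⊓ A = ⊥ := (hTI g).resolve_right hne
  set B := A.map (MulAut.conj g).toMonoidHom with hB
  have hBA : ∀ b ∈ B, ∀ y ∈ A, b * y * b⁻¹ ∈ A := fun b hb =>
    hN b a ha ha1 (Subgroup.mem_centralizer_singleton_iff.1 (hg hb))
  have hNB : ∀ u : G, ∀ x ∈ B, x ≠ 1 → u * x = x * u → ∀ y ∈ B, u * y * u⁻¹ ∈ B := by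
    intro u x hx hx1 hux y hy
    rw [hB, hconj] at hx hy ⊢
    have := hN (g⁻¹ * u * g) _ hx (fun h => hx1 (by
      calc x = g * (g⁻¹ * x * g) * g⁻¹ := by group
        _ = 1 := by rw [h]; group)) (by
      calc g⁻¹ * u * g * (g⁻¹ * x * g) = g⁻¹ * (u * x) * g := by group
        _ = _ := by rw [hux]; group) _ hy
    convert this using 1
    group
  have hC : ∀ x ∈ A, ∀ b ∈ B, b ≠ 1 → x * b = b * x → ∀ c ∈ B, x * c = c * x := by
    intro x hx b hb hb1 hxb c hc
    have h1 : x * c * x⁻¹ * c⁻¹ ∈ B := B.mul_mem (hNB x b hb hb1 hxb c hc) (B.inv_mem hc)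
    have h2 : x * c * x⁻¹ * c⁻¹ ∈ A := by
      have := A.mul_mem hx (hBA c hc _ (A.inv_mem hx))
      simpa only [mul_assoc] using this
    have h3 : x * c * x⁻¹ * c⁻¹ = 1 := by
      rw [← Subgroup.mem_bot, ← hAB]; exact ⟨h1, h2⟩
    calc x * c = (x * c * x⁻¹ * c⁻¹) * (c * x) := by group
      _ = c * x := by rw [h3, one_mul]
  apply hne
  apply hb g
  intro x hx
  by_contra hxc
  have hxc' : ∀ b ∈ B, x * b = b * x → b = 1 := by
    intro b hb h
    by_contra hb1
    exact hxc (hC x hx b hb hb1 h)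
  let f : B → A := fun b => ⟨x * (b * x * (b : G)⁻¹), A.mul_mem hx (hBA b b.2 x hx)⟩
  have hf : Function.Injective f := by
    intro b c hbc
    have h1 : (b : G) * x * (b : G)⁻¹ = c * x * (c : G)⁻¹ :=
      mul_left_cancel (congrArg Subtype.val hbc)
    have h2 := hxc' ((c : G)⁻¹ * b) (B.mul_mem (B.inv_mem c.2) b.2) (by
      calc x * ((c : G)⁻¹ * b) = (c : G)⁻¹ * (c * x * (c : G)⁻¹) * b := by group
        _ = _ := by rw [← h1]; group)
    exact Subtype.ext (inv_mul_eq_one.1 h2).symm
  have hcard : Nat.card B = Nat.card A :=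
    Subgroup.card_map_of_injective (MulAut.conj g).injective
  have hsurj : Function.Surjective f :=
    ((Nat.bijective_iff_injective_and_card f).2 ⟨hf, hcard⟩).2
  obtain ⟨b, hb⟩ := hsurj ⟨x, hx⟩
  have h1 : x * ((b : G) * x * (b : G)⁻¹) = x := congrArg Subtype.val hb
  have h2 : x = 1 := by simpa using h1
  apply hxc
  intro c _
  rw [h2, one_mul, mul_one]

end Cfsg.Agent.S1177
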