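import Cfsg.Statements.S1178
import Mathlib

set_option autoImplicit false
open Cfsg

namespace Cfsg.Agent.S1178

/-- Let A be a subgroup of a Sylow 2-subgroup S of the finite group G which is weakly closed in S. If a conjugate g A g⁻¹ commutes elementwise with A, then g A g⁻¹ = A. -/
theorem result {G : Type*} [Group G] [Finite G] (S : Sylow 2 G) (A : Subgroup G) (hW : Cfsg.IsWeaklyClosed A (S : Subgroup G)) (g : G) (hc : ∀ a ∈ A, ∀ b ∈ A.map (MulAut.conj g).toMonoidHom, a * b = b * a) : A.map (MulAut.conj g).toMonoidHom = A := by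
  have hA : IsPGroup 2 A := S.2.to_le hW.1
  have hB : IsPGroup 2 (A.map (MulAut.conj g).toMonoidHom) := hA.map _
  have hn : A.map (MulAut.conj g).toMonoidHom ≤ Subgroup.normalizer (A : Set G) := by
    refine le_trans ?_ (Subgroup.centralizer_le_normalizer (A : Set G))
    intro b hb
    rw [Subgroup.mem_centralizer_iff]
    exact fun a ha => hc a ha b hb
  obtain ⟨T, hT⟩ := (IsPGroup.to_sup_of_normal_left' hA hB hn).exists_le_sylow
  obtain ⟨h, hh⟩ := MulAction.exists_smul_eq G T S
  have key : ∀ B : Subgroup G, B ≤ T → B.map (MulAut.conj h).toMonoidHom ≤ S := by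
    intro B hB
    rw [← hh]
    exact Subgroup.map_mono hB
  have h1 := hW.2 h (key _ (le_sup_left.trans hT))
  have h2 := key _ (le_sup_right.trans hT)
  have h3 : (A.map (MulAut.conj g).toMonoidHom).map (MulAut.conj h).toMonoidHom =
      A.map (MulAut.conj (h * g)).toMonoidHom := by
    rw [Subgroup.map_map, map_mul]; rfl
  rw [h3] at h2
  have h4 := hW.2 _ h2
  rw [← h3] at h4
  exact Subgroup.map_injective (MulAut.conj h).injective (h4.trans h1.symm)

end Cfsg.Agent.S1178
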