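import Cfsg.Statements.S1180
import Mathlib
import Cfsg.Agent.Lib.TwoFusion.Isolated

set_option autoImplicit false
open Cfsg

namespace Cfsg.Agent.S1180

/-- Let z be an isolated involution of the finite group G and H a subgroup containing z. Then every conjugate g z g⁻¹ that lies in H is conjugate to z by an element of H. -/
theorem result {G : Type*} [Group G] [Finite G] (z : G) (hz : Cfsg.IsIsolatedInvolution z) (H : Subgroup G) (hzH : z ∈ H) (g : G) (hg : g * z * g⁻¹ ∈ H) : ∃ h ∈ H, h * z * h⁻¹ = g * z * g⁻¹ := by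
  obtain ⟨k, hk⟩ := H41.Isolated.exists_pow_conj hz (H41.Isolated.isConj_conj z g) (IsConj.refl z)
  exact ⟨_, H.pow_mem (H.mul_mem hg hzH) k, hk⟩

end Cfsg.Agent.S1180
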