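import Cfsg.Statements.S1184
import Mathlib
import Cfsg.Agent.Lib.TwoFusion.Isolated

set_option autoImplicit false
open Cfsg

namespace Cfsg.Agent.S1184

/-- Let z be an isolated involution of the finite group G. If s and t are distinct conjugates of z, then st does not commute with z. -/
theorem result {G : Type*} [Group G] [Finite G] (z : G) (hz : Cfsg.IsIsolatedInvolution z) (g h : G) (hne : g * z * g⁻¹ ≠ h * z * h⁻¹) : ¬ Commute (g * z * g⁻¹ * (h * z * h⁻¹)) z := by
  intro hc
  have hs := H41.Isolated.isConj_conj z g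
  have ht := H41.Isolated.isConj_conj z h
  set s := g * z * g⁻¹
  set t := h * z * h⁻¹
  have hs2 := H41.Isolated.mul_self (H41.Isolated.of_isConj hz hs)
  have ht2 := H41.Isolated.mul_self (H41.Isolated.of_isConj hz ht)
  have hodd := H41.Isolated.odd_orderOf_mul hz hs ht
  obtain ⟨m, hm⟩ := H41.Isolated.odd_orderOf_mul hz hs (IsConj.refl z)
  have h1 : s * (s * t) = (s * t)⁻¹ * s := by simpa using H41.invol_mul_pow hs2 ht2 1
  have h2 : SemiconjBy (s * z) (s * t) (s * t)⁻¹ := by
    show s * z * (s * t) = (s * t)⁻¹ * (s * z)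
    rw [mul_assoc, ← hc.eq, ← mul_assoc, h1, mul_assoc]
  have h3 : SemiconjBy (s * z) (s * t)⁻¹ (s * t) := by simpa using h2.inv_right
  have h4 : Commute ((s * z) ^ 2) (s * t) := by
    rw [pow_two]; exact h3.mul_left h2
  have h5 : SemiconjBy ((s * z) ^ (2 * m + 1)) (s * t) (s * t)⁻¹ := by
    rw [pow_succ', pow_mul]
    exact h2.mul_left (h4.pow_left m)
  rw [← hm, pow_orderOf_eq_one] at h5
  have h6 : s * t = (s * t)⁻¹ := by simpa [SemiconjBy] using h5
  have h7 : s * t = 1 := H41.eq_one_of_odd_of_mul_self hodd (by nth_rw 1 [h6]; rw [inv_mul_cancel])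
  apply hne
  rw [eq_inv_of_mul_eq_one_left h7, H41.inv_eq_of_mul_self ht2]

end Cfsg.Agent.S1184
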