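import Cfsg.Statements.S1185
import Mathlib
import Cfsg.Agent.Lib.TwoFusion.Isolated

set_option autoImplicit false
open Cfsg

namespace Cfsg.Agent.S1185

/-- Let z be an isolated involution of the finite group G with centralizer C. Then for every g ∈ G there is exactly one element k in the coset gC that has odd order and is inverted by z. -/
theorem result {G : Type*} [Group G] [Finite G] (z : G) (hz : Cfsg.IsIsolatedInvolution z) (g : G) : ∃! k : G, (Odd (orderOf k) ∧ z * k * z⁻¹ = k⁻¹) ∧ g⁻¹ * k ∈ Subgroup.centralizer ({z} : Set G) := by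
  have hs := H41.Isolated.isConj_conj z g
  have hs2 := H41.Isolated.mul_self (H41.Isolated.of_isConj hz hs)
  have hz2 := H41.Isolated.mul_self hz
  have hzi := H41.Isolated.inv_eq hz
  have key : ∀ k : G, z * k * z⁻¹ = k⁻¹ → g⁻¹ * k ∈ Subgroup.centralizer ({z} : Set G) →
      k * k = g * z * g⁻¹ * z := by
    intro k h1 h2
    rw [Subgroup.mem_centralizer_singleton_iff] at h2
    have h3 : k * z * k⁻¹ = g * z * g⁻¹ := by
      calc k * z * k⁻¹ = g * (g⁻¹ * k * z) * k⁻¹ := by group
        _ = g * z * g⁻¹ := by rw [h2]; group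
    rw [← h3, ← h1, hzi]
    calc k * k = k * (z * z) * k * (z * z) := by rw [hz2]; group
      _ = _ := by group
  obtain ⟨k, hk⟩ := H41.Isolated.exists_pow_commute hz g
  have hodd := H41.odd_orderOf_pow (H41.Isolated.odd_orderOf_mul hz hs (IsConj.refl z)) k
  have hinv : z * (g * z * g⁻¹ * z) ^ k * z⁻¹ = ((g * z * g⁻¹ * z) ^ k)⁻¹ := by
    rw [H41.invol_mul_pow' hs2 hz2]; group
  have hmem : g⁻¹ * (g * z * g⁻¹ * z) ^ k ∈ Subgroup.centralizer ({z} : Set G) := by
    rw [Subgroup.mem_centralizer_singleton_iff]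
    have := hk.inv_left
    rw [mul_inv_rev, inv_inv] at this
    exact this
  refine ⟨_, ⟨⟨hodd, hinv⟩, hmem⟩, ?_⟩
  rintro k' ⟨⟨h1, h2⟩, h3⟩
  exact H41.eq_of_sq_eq_of_odd h1 hodd (by rw [key _ h2 h3, key _ hinv hmem])

end Cfsg.Agent.S1185
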