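import Cfsg.Statements.S1186
import Mathlib
import Cfsg.Agent.Lib.TwoFusion.IsolatedCount

set_option autoImplicit false
open Cfsg

namespace Cfsg.Agent.S1186

/-- Let z be an isolated involution of the finite group G, C = C_G(z), K the set of elements of odd order inverted by z, and s an involution of C. Then |G| = |C| · |C_K(sz)| · |C_K(s)|. -/
theorem result {G : Type*} [Group G] [Finite G] (z : G) (hz : Cfsg.IsIsolatedInvolution z) (s : G) (hs : orderOf s = 2) (hsz : Commute s z) : Nat.card G = Nat.card (Subgroup.centralizer ({z} : Set G)) * Nat.card {k : G // Odd (orderOf k) ∧ z * k * z⁻¹ = k⁻¹ ∧ Commute k (s * z)} * Nat.card {k : G // Odd (orderOf k) ∧ z * k * z⁻¹ = k⁻¹ ∧ Commute k s} := by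
  rw [H41.Isolated.card_inverted_eq hz (hsz.symm.mul_right (Commute.refl z)),
    H41.Isolated.card_inverted_eq hz hsz.symm, mul_assoc,
    ← H41.Isolated.card_isConj_eq_mul hz (H41.mul_self_of_orderOf_two hs) hsz,
    H41.card_centralizer_mul_card_isConj]

end Cfsg.Agent.S1186
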