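import Mathlib
import Cfsg.Statements.S1227
import Cfsg.Agent.Lib.SE42.ElemCent
-- import your own Cfsg.Agent.* helpers here

set_option autoImplicit false
open Cfsg

namespace Cfsg.Agent.S1227

/-- Let G be a finite group with a Sylow 2-subgroup T that is neither cyclic nor normal, such that the centralizer of every involution is an elementary abelian 2-group; put H = N_G(T), let u be an involution outside H and D = H ∩ uHu⁻¹. Then u inverts every element of D, |H| = |T|·(|T| − 1), and D is a complement to T in H. -/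
theorem result {G : Type*} [Group G] [Finite G] (T : Sylow 2 G) (hnc : ¬ IsCyclic (T : Subgroup G)) (hnn : ¬ (T : Subgroup G).Normal) (hC : ∀ t : G, orderOf t = 2 → IsMulCommutative (Subgroup.centralizer ({t} : Set G)) ∧ ∀ c ∈ Subgroup.centralizer ({t} : Set G), c ^ 2 = 1) (u : G) (hu : orderOf u = 2) (huH : u ∉ Subgroup.normalizer ((T : Subgroup G) : Set G)) : (∀ d ∈ Subgroup.normalizer ((T : Subgroup G) : Set G) ⊓ (Subgroup.normalizer ((T : Subgroup G) : Set G)).map (MulAut.conj u).toMonoidHom, u * d * u⁻¹ = d⁻¹) ∧ Nat.card (Subgroup.normalizer ((T : Subgroup G) : Set G)) = Nat.card T * (Nat.card T - 1) ∧ Subgroup.IsComplement' ((Subgroup.normalizer ((T : Subgroup G) : Set G) ⊓ (Subgroup.normalizer ((T : Subgroup G) : Set G)).map (MulAut.conj u).toMonoidHom).subgroupOf (Subgroup.normalizer ((T : Subgroup G) : Set G))) ((T : Subgroup G).subgroupOf (Subgroup.normalizer ((T : Subgroup G) : Set G))) := by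
  have h : H42.EC T := ⟨hnc, hnn, hC⟩
  have hy : (u : G ⧸ Subgroup.normalizer ((T : Subgroup G) : Set G)) ≠ ((1 : G) : G ⧸ _) :=
    fun e => huH ((H42.mk_eq_one_iff _ _).mp e)
  have e := H42.cj_eq_stabilizer (Subgroup.normalizer ((T : Subgroup G) : Set G)) u
  unfold H68.cj at e
  rw [e]
  refine ⟨fun d hd => ?_, h.card_normalizer, h.isComplement' hy⟩
  refine h.inverts hy.symm (H42.smul_mk_one _ _) ?_ ((H42.smul_one_eq_iff _ _).mpr hd.1) hd.2
  rw [← H42.smul_mk_one, ← mul_smul, H9.mul_self_of_orderOf_two hu, one_smul]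

end Cfsg.Agent.S1227
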