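import Mathlib
import Cfsg.Statements.S1228
import Cfsg.Agent.Lib.SE42.ElemCent
-- import your own Cfsg.Agent.* helpers here

set_option autoImplicit false
open Cfsg

namespace Cfsg.Agent.S1228

/-- Let G be a finite group with a Sylow 2-subgroup T that is neither cyclic nor normal, such that the centralizer of every involution is an elementary abelian 2-group; put H = N_G(T), let u be an involution outside H and D = H ∩ uHu⁻¹. Then N_G(D) = D ⊔ ⟨u⟩, and a coset gH is fixed by every element of D exactly when gH = H or gH = uH. -/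
theorem result {G : Type*} [Group G] [Finite G] (T : Sylow 2 G) (hnc : ¬ IsCyclic (T : Subgroup G)) (hnn : ¬ (T : Subgroup G).Normal) (hC : ∀ t : G, orderOf t = 2 → IsMulCommutative (Subgroup.centralizer ({t} : Set G)) ∧ ∀ c ∈ Subgroup.centralizer ({t} : Set G), c ^ 2 = 1) (u : G) (hu : orderOf u = 2) (huH : u ∉ Subgroup.normalizer ((T : Subgroup G) : Set G)) : Subgroup.normalizer ((Subgroup.normalizer ((T : Subgroup G) : Set G) ⊓ (Subgroup.normalizer ((T : Subgroup G) : Set G)).map (MulAut.conj u).toMonoidHom : Subgroup G) : Set G) = (Subgroup.normalizer ((T : Subgroup G) : Set G) ⊓ (Subgroup.normalizer ((T : Subgroup G) : Set G)).map (MulAut.conj u).toMonoidHom) ⊔ Subgroup.zpowers u ∧ ∀ g : G, ((∀ d ∈ Subgroup.normalizer ((T : Subgroup G) : Set G) ⊓ (Subgroup.normalizer ((T : Subgroup G) : Set G)).map (MulAut.conj u).toMonoidHom, d • (QuotientGroup.mk g : G ⧸ Subgroup.normalizer ((T : Subgroup G) : Set G)) = QuotientGroup.mk g) ↔ (QuotientGroup.mk g : G ⧸ Subgroup.normalizer ((T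 : Subgroup G) : Set G)) = QuotientGroup.mk 1 ∨ (QuotientGroup.mk g : G ⧸ Subgroup.normalizer ((T : Subgroup G) : Set G)) = QuotientGroup.mk u) := by
  have h : H42.EC T := ⟨hnc, hnn, hC⟩
  have hy : (u : G ⧸ Subgroup.normalizer ((T : Subgroup G) : Set G)) ≠ ((1 : G) : G ⧸ _) :=
    fun e => huH ((H42.mk_eq_one_iff _ _).mp e)
  have e := H42.cj_eq_stabilizer (Subgroup.normalizer ((T : Subgroup G) : Set G)) u
  unfold H68.cj at e
  rw [e]
  have hu1 := H42.smul_mk_one (Subgroup.normalizer ((T : Subgroup G) : Set G)) u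
  have hu2 : u • (u : G ⧸ Subgroup.normalizer ((T : Subgroup G) : Set G)) = ((1 : G) : G ⧸ _) := by
    rw [← H42.smul_mk_one, ← mul_smul, H9.mul_self_of_orderOf_two hu, one_smul]
  set D := Subgroup.normalizer ((T : Subgroup G) : Set G) ⊓
    MulAction.stabilizer G (u : G ⧸ Subgroup.normalizer ((T : Subgroup G) : Set G)) with hD
  have hfix : ∀ z : G ⧸ Subgroup.normalizer ((T : Subgroup G) : Set G),
      (∀ d ∈ D, d • z = z) ↔ (z = ((1 : G) : G ⧸ _) ∨ z = (u : G ⧸ _)) := by
    intro z
    constructor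
    · intro hz
      obtain ⟨d, hd, hdy, hd1⟩ := h.exists_ne_one_fix hy
      by_cases hz1 : z = ((1 : G) : G ⧸ _)
      · exact Or.inl hz1
      · exact Or.inr (h.eq_of_fix hy hz1 hd hdy (hz d ⟨hd, hdy⟩) hd1)
    · rintro (rfl | rfl) d hd
      · exact (H42.smul_one_eq_iff _ _).mpr hd.1
      · exact hd.2
  refine ⟨le_antisymm ?_ (sup_le Subgroup.le_normalizer ?_), fun g => hfix _⟩
  · intro n hn
    have key : ∀ z : G ⧸ Subgroup.normalizer ((T : Subgroup G) : Set G),
        (z = ((1 : G) : G ⧸ _) ∨ z = (u : G ⧸ _)) →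
        (n • z = ((1 : G) : G ⧸ _) ∨ n • z = (u : G ⧸ _)) := by
      intro z hz
      rw [← hfix] at hz ⊢
      intro d hd
      have := hz _ (H68.conj_mem_of_mem_normalizer' hn hd)
      rw [mul_smul, mul_smul, inv_smul_eq_iff] at this
      exact this
    rcases key _ (Or.inl rfl) with h1 | h1 <;> rcases key _ (Or.inr rfl) with h2 | h2
    · exact absurd ((smul_left_cancel_iff n).mp (h2.trans h1.symm)) hy
    · exact Subgroup.mem_sup_left ⟨(H42.smul_one_eq_iff _ _).mp h1, h2⟩
    · have : n * u ∈ D := ⟨(H42.smul_one_eq_iff _ _).mp (by rw [mul_smul, hu1, h2]),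
        MulAction.mem_stabilizer_iff.mpr (by rw [mul_smul, hu2, h1])⟩
      have e2 : n = n * u * u⁻¹ := by group
      rw [e2]
      exact mul_mem (Subgroup.mem_sup_left this)
        (Subgroup.mem_sup_right (inv_mem (Subgroup.mem_zpowers u)))
    · exact absurd ((smul_left_cancel_iff n).mp (h2.trans h1.symm)) hy
  · rw [Subgroup.zpowers_le]
    apply H68.mem_normalizer_of_cj_le
    rw [H68.cj_le_iff']
    intro d hd
    rw [h.inverts hy.symm hu1 hu2 ((H42.smul_one_eq_iff _ _).mpr hd.1) hd.2]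
    exact inv_mem hd

end Cfsg.Agent.S1228
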