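import Cfsg.Statements.S1231
import Mathlib
import Cfsg.Agent.Base
import Cfsg.Agent.Lib.BG.Api.Rank

set_option autoImplicit false
open Cfsg

namespace Cfsg.Agent.S1231

open Subgroup H45 H69

theorem rk_iff {G : Type*} [Group G] {p k : ℕ} {X : Subgroup G} :
    PRankLE p k X ↔ ∀ A ≤ X, IsMulCommutative A → (∀ a ∈ A, a ^ p = 1) → Nat.card A ≤ p ^ k := by
  refine ⟨fun h A hA hc hp => ?_, fun h A hc hp => ?_⟩
  · rw [← card_subgroupOf hA]
    exact h _ inferInstance fun a ha => Subtype.ext (hp a ha)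
  · rw [← card_map_subtype]
    refine h _ (map_subtype_le _) inferInstance ?_
    rintro _ ⟨a, ha, rfl⟩
    rw [← map_pow, hp a ha, map_one]

theorem rk_mono {G : Type*} [Group G] {p k : ℕ} {X Y : Subgroup G} (h : PRankLE p k Y) (hX : X ≤ Y) :
    PRankLE p k X := rk_iff.2 fun A hA => rk_iff.1 h A (hA.trans hX)

theorem rk_cj {G : Type*} [Group G] {p k : ℕ} {X : Subgroup G} (h : PRankLE p k X) (g : G) :
    PRankLE p k (X ^ᶜ g) := rk_iff.2 fun A hA hc hp => by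
  rw [← card_cj A g⁻¹]
  have := abelem_cj (p := p) ⟨hc, hp⟩ g⁻¹
  exact rk_iff.1 h _ (le_cj_iff.1 hA) this.1 this.2

/-- Let H be a subgroup of the finite group G, p a prime, k ≥ 1, and P a Sylow p-subgroup of H whose p-rank is at least k. Then N_G(X) ≤ H for every subgroup X of P of p-rank at least k if and only if H ∩ gHg⁻¹ has p-rank less than k for every g ∉ H. -/
theorem result {G : Type*} [Group G] [Finite G] {p : ℕ} [Fact p.Prime] (k : ℕ) (hk : 1 ≤ k) (H : Subgroup G) (P : Sylow p ↥H) (hP : ¬ Cfsg.PRankLE p (k - 1) ↥(P : Subgroup ↥H)) : (∀ X : Subgroup G, X ≤ (P : Subgroup ↥H).map H.subtype → ¬ Cfsg.PRankLE p (k - 1) ↥X → Subgroup.normalizer (X : Set G) ≤ H) ↔ (∀ g : G, g ∉ H → Cfsg.PRankLE p (k - 1) ↥(H ⊓ H.map (MulAut.conj g).toMonoidHom)) := by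
  change _ ↔ ∀ g : G, g ∉ H → PRankLE p (k - 1) ↥(H ⊓ H ^ᶜ g)
  have hS := isSylowIn_map_subtype P
  refine ⟨fun h g hg => by_contra fun hc => hg ?_, fun h X hX hr g hg => by_contra fun hc => hr ?_⟩
  · have key : ∀ Y ≤ H, IsPGroup p Y → ¬ PRankLE p (k - 1) Y → 𝐍(Y) ≤ H := fun Y hY hp hr => by
      obtain ⟨x, hx, e⟩ := hS.exists_cj_le hp hY
      have := h _ e fun h1 => hr (cj_cj_inv Y x ▸ rk_cj h1 x⁻¹)
      rwa [← cj_normalizer, cj_le_iff, cj_eq_of_mem (inv_mem hx)] at this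
    rw [rk_iff] at hc
    push Not at hc
    obtain ⟨A, hA, h1, h2, h3⟩ := hc
    obtain ⟨R, hR, hAR⟩ := exists_isSylowIn_le (abelem_pgroup ⟨h1, h2⟩) hA
    have hr : ¬ PRankLE p (k - 1) R := fun h4 => (rk_iff.1 h4 A hAR h1 h2).not_gt h3
    have hRH := hR.le.trans inf_le_left
    have hRg : R ^ᶜ g⁻¹ ≤ H := le_cj_iff.1 (hR.le.trans inf_le_right)
    have h4 := key R hRH hR.isP hr
    have h5 := key _ hRg (isPGroup_cj hR.isP _) fun h1 => hr (cj_inv_cj R g ▸ rk_cj h1 g)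
    rw [← cj_normalizer, ← le_cj_iff] at h5
    have hT : Syl p R ⊤ := isSylowIn_of_normalizer le_top
      (hR.mono (le_inf le_top Subgroup.le_normalizer) (inf_le_right.trans (le_inf h4 h5)))
    obtain ⟨x, hx, e⟩ := (hT.mono hRH le_top).conj ((hT.cj_of_mem (mem_top g⁻¹)).mono hRg le_top)
    have : g * x ∈ 𝐍(R) := by rw [← cj_eq_self_iff, ← cj_cj, e, cj_inv_cj]
    exact (H.mul_mem_cancel_right hx).1 (h4 this)
  · have hXH := hX.trans hS.le
    exact rk_mono (h g hc) (le_inf hXH (cj_eq_of_mem_normalizer hg ▸ cj_mono g hXH))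

end Cfsg.Agent.S1231
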