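import Mathlib
import Cfsg.Statements.S1234
import Cfsg.Agent.Lib.FGS83.MacG

set_option autoImplicit false
open Cfsg

namespace Cfsg.Agent.S1234

open Subgroup H83.Mac
/-- Let S be a finite 2-group and Q ≤ S a subgroup of order 32 having an elementary abelian subgroup E of order 16 and an involution s ∉ E whose centralizer in E has order 4 (so Q ≅ (Z₂ × Z₂) ≀ Z₂). If C_S(Z(Q)) = Q, then every section of S has 2-rank at most 4. -/
theorem result {S : Type*} [Group S] [Finite S] (hS : IsPGroup 2 S) (Q E : Subgroup S) (hEQ : E ≤ Q) (hE : Cfsg.IsElementaryAbelian 2 E) (hE16 : Nat.card E = 16) (hQ32 : Nat.card Q = 32) (s : S) (hsQ : s ∈ Q) (hsE : s ∉ E) (hs : orderOf s = 2) (hfix : Nat.card ↥(E ⊓ Subgroup.centralizer ({s} : Set S)) = 4) (hC : Subgroup.centralizer (((Subgroup.center Q).map Q.subtype : Subgroup S) : Set S) = Q) : Cfsg.SectionalPRankLE 2 4 S := by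
  set Z := E ⊓ Subgroup.centralizer ({s} : Set S)
  have hss : s * s = 1 := by rw [← pow_two, ← hs, pow_orderOf_eq_one]
  have hEc : ∀ x ∈ E, ∀ y ∈ E, x * y = y * x := fun x hx y hy =>
    congrArg Subtype.val (hE.1.1.1 ⟨x, hx⟩ ⟨y, hy⟩)
  have hsc : s ∈ centralizer (Z : Set S) := mem_centralizer_iff.2 fun y hy =>
    mem_centralizer_singleton_iff.1 hy.2
  have hsn := centralizer_le_normalizer _ hsc
  have hm := fun x => mem_cases hEQ (by omega) hsQ hsE (x := x)
  have hcomm := H5.isMulCommutative_sup_zpowers (A := Z)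
    ⟨⟨fun x y => Subtype.ext (hEc _ x.2.1 _ y.2.1)⟩⟩ hsc
  have hsA : s ∈ Z ⊔ zpowers s := mem_sup_right (mem_zpowers s)
  refine (harada hS (A := Z ⊔ zpowers s) ⟨fun a ha => ?_, fun a ha b hb => conj_eq_iff.2
    (congrArg Subtype.val (hcomm.1.1 ⟨a, ha⟩ ⟨b, hb⟩)), fun g hg => ?_, ?_⟩).sectional
  · obtain ⟨k, hk, i, rfl⟩ := (H5.mem_sup_zpowers_iff_nat hsn).1 ha
    have h1 : Commute k (s ^ i) := Commute.pow_right (mem_centralizer_singleton_iff.1 hk.2) i
    rw [← pow_two, h1.mul_pow, hE.2 k hk.1, ← pow_mul, mul_comm i, pow_mul, pow_two, hss, one_pow,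
      one_mul]
  · have hgs : g ∈ centralizer ({s} : Set S) :=
      mem_centralizer_singleton_iff.2 (conj_eq_iff.1 (hg s hsA)).symm
    have hss' : s⁻¹ ∈ centralizer ({s} : Set S) := inv_mem (mem_centralizer_singleton_iff.2 rfl)
    have hgQ : g ∈ Q := by
      rw [← hC]
      refine mem_centralizer_iff.2 ?_
      rintro _ ⟨x, hx, rfl⟩
      have h1 : ∀ y ∈ Q, y * x = x * y := fun y hy =>
        congrArg Subtype.val (mem_center_iff.1 hx ⟨y, hy⟩)
      have h2 : (x : S) ∈ centralizer ({s} : Set S) :=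
        mem_centralizer_singleton_iff.2 (h1 s hsQ).symm
      rcases hm x x.2 with h | h
      · exact conj_eq_iff.1 (hg _ (mem_sup_left ⟨h, h2⟩))
      · have h3 : E ≤ Z := fun e he => ⟨he, mem_centralizer_singleton_iff.2 (by
          have h4 : Commute e (s⁻¹ * x) := hEc e he _ h
          have h5 : Commute e (x : S) := h1 e (hEQ he)
          simpa using (h5.mul_right h4.inv_right).eq)⟩
        have := card_le_of_le h3
        omega
    rcases hm g hgQ with h | h
    · exact mem_sup_left ⟨h, hgs⟩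
    · simpa using mul_mem hsA (mem_sup_left (show s⁻¹ * g ∈ Z from ⟨h, mul_mem hss' hgs⟩))
  · rw [H5.card_sup_zpowers Nat.prime_two hsn (fun h => hsE h.1) (by rw [pow_two, hss]; exact one_mem _),
      hfix]
end Cfsg.Agent.S1234
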