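import Cfsg.Statements.S1235
import Mathlib
import Cfsg.Agent.Base
import Cfsg.Agent.Lib.Tech58.Harada
import Cfsg.Agent.Lib.TwoFusion.QD
import Cfsg.Agent.Lib.Inv73.D8

set_option autoImplicit false
open Cfsg

namespace Cfsg.Agent.S1235

open Subgroup H45 H69 H58.Har

theorem shape {G : Type*} [Group G] [Finite G] {D : Subgroup G}
    (hD : (∃ m : ℕ, 2 ≤ m ∧ Nonempty (D ≃* DihedralGroup m)) ∨ Cfsg.IsQuasiDihedral D) :
    (Nat.card D = 4 ∧ ∀ d ∈ D, d * d = 1) ∨ ((∃ σ ∈ D, Nat.card D = 2 * orderOf σ) ∧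
      Nat.card ↥(D ⊓ 𝐂(D)) ≤ 2 ∧ ∀ d ∈ D ⊓ 𝐂(D), d * d = 1) := by
  rcases hD with ⟨m, hm, ⟨e⟩⟩ | hD
  · obtain ⟨a, b, h⟩ := H73.exists_dihData (by omega) e
    by_cases h2 : m = 2
    · subst h2
      refine Or.inl ⟨h.card, fun d hd => ?_⟩
      obtain ⟨i, rfl | rfl⟩ := (h.mem d).1 hd
      · rw [← zpow_add, ← two_mul, zpow_mul, show a ^ (2 : ℤ) = 1 from by
          exact_mod_cast h.ord ▸ pow_orderOf_eq_one a, one_zpow]
      · exact h.refl_mul_self i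
    have h3 : D ⊓ 𝐂(D) ≤ zpowers a := fun c hc => h.mem_zpowers_of_commute
      (fun hd => by have := Nat.le_of_dvd two_pos hd; omega) hc.1 (hc.2 a h.a_mem).symm
    have h4 : ∀ d ∈ D ⊓ 𝐂(D), d * d = 1 := fun d hd => by
      obtain ⟨i, rfl⟩ := h3 hd
      have := h.conj_zpow i
      rw [hd.2 b h.b_mem, mul_inv_cancel_right] at this
      exact mul_eq_one_iff_eq_inv.2 this
    refine Or.inr ⟨⟨a, h.a_mem, by rw [h.card, h.ord]⟩, ?_, h4⟩
    obtain ⟨n, hn⟩ := (Subgroup.le_zpowers_iff a _).1 h3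
    rw [hn, Nat.card_zpowers]
    exact Nat.le_of_dvd two_pos (orderOf_dvd_of_pow_eq_one (by
      rw [pow_two]; exact h4 _ (hn ▸ mem_zpowers _)))
  · obtain ⟨k, x, y, h⟩ := H41.exists_qd hD
    refine Or.inr ⟨⟨x, h.x_mem, by rw [h.card, h.ord]; ring⟩, ?_, fun d hd => ?_⟩
    · rw [← h.orderOf_z, ← Nat.card_zpowers]
      refine Subgroup.card_le_of_le fun d hd => ?_
      rcases h.center_iff hd.1 hd.2 with rfl | rfl
      exacts [one_mem _, mem_zpowers _]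
    · rcases h.center_iff hd.1 hd.2 with rfl | rfl
      exacts [one_mul _, h.zz]

/-- Let G be a finite group, x an involution and T ≤ G a Sylow 2-subgroup of C_G(x) (T ≤ C_G(x) with |C_G(x) : T| odd) which is the internal direct product of a subgroup D that is dihedral (of order ≥ 4) or quasi-dihedral and a Klein four-subgroup B. Suppose that for every involution b ∈ B, T ≤ C_G(b) with |C_G(b) : T| odd. Then every section of G has 2-rank at most 4. -/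
theorem result {G : Type*} [Group G] [Finite G] (x : G) (hx : orderOf x = 2) (T D B : Subgroup G) (hT : IsPGroup 2 T) (hTx : T ≤ Subgroup.centralizer ({x} : Set G)) (hTxi : Odd (T.relIndex (Subgroup.centralizer ({x} : Set G)))) (hprod : Cfsg.IsInternalDirectProduct D B T) (hD : (∃ m : ℕ, 2 ≤ m ∧ Nonempty (D ≃* DihedralGroup m)) ∨ Cfsg.IsQuasiDihedral D) (hB : IsKleinFour B) (hTb : ∀ b ∈ B, orderOf b = 2 → T ≤ Subgroup.centralizer ({b} : Set G) ∧ Odd (T.relIndex (Subgroup.centralizer ({b} : Set G)))) : Cfsg.SectionalPRankLE 2 4 G := by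
  haveI : Fact (Nat.Prime 2) := ⟨Nat.prime_two⟩
  obtain ⟨hDT, hBT, hcomm, hinf, hsup⟩ := hprod
  obtain ⟨S, hS, hTS⟩ := exists_isSylowIn_le hT (le_top : T ≤ ⊤)
  have hB2 : ∀ b ∈ B, b * b = 1 := fun b hb => congrArg Subtype.val (IsKleinFour.mul_self (⟨b, hb⟩ : B))
  have h : Cfg S T B := ⟨hS.isP, hTS, hBT, hB.card_four, fun b hb h1 => by
    obtain ⟨h3, h4⟩ := hTb b hb (orderOf_eq_prime (by rw [pow_two, hB2 b hb]) h1)
    exact ((isSylowIn_of_not_dvd_relIndex hT h3 h4.not_two_dvd_nat).max _ (le_inf hTS h3) inf_le_right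
      hS.isP.to_inf_left).le⟩
  have hBD : B ≤ 𝐂(D) := fun b hb d hd => hcomm d hd b hb
  have hm : MulEq D B T := hsup ▸ mulEq_of_cent hBD
  have hc : Nat.card T = Nat.card D * 4 := by rw [hm.card_of_inf_eq_bot hinf, hB.card_four]
  have sq : ∀ d ∈ D, ∀ b ∈ B, d * d = 1 → d * b * (d * b) = 1 := fun d hd b hb h1 => by
    rw [mul_assoc, ← mul_assoc b, ← hcomm d hd b hb, mul_assoc, hB2 b hb, mul_one, h1]
  refine sr_of_sylow hS fun H K hH _ hsq => ?_
  rcases shape hD with ⟨h4, h2⟩ | ⟨⟨σ, hσ, h4⟩, h2, h3⟩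
  · refine h.bound (by omega) (fun t ht => ?_) hH hsq
    obtain ⟨d, hd, b, hb, rfl⟩ := hm.exists_mul ht
    exact sq d hd b hb (h2 d hd)
  have hBC : B ≤ 𝐂(T) := by
    rw [← hsup, centralizer_sup]
    exact le_inf hBD fun b hb c hc => comm_of_sq hB2 hc hb
  have key : ∀ t ∈ T ⊓ 𝐂(T), ∃ d ∈ D ⊓ 𝐂(D), ∃ b ∈ B, t = d * b := fun t ht => by
    obtain ⟨d, hd, b, hb, rfl⟩ := hm.exists_mul ht.1
    exact ⟨d, ⟨hd, centralizer_anti hDT ((Subgroup.mul_mem_cancel_right _ (hBC hb)).1 ht.2)⟩, b, hb, rfl⟩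
  have e : T = S := h.eq_of_center hBC (fun t ht => by
    obtain ⟨d, hd, b, hb, rfl⟩ := key t ht
    exact sq d hd.1 b hb (h3 d hd)) (by
    have h5 := Nat.le_of_dvd (Nat.mul_pos Nat.card_pos Nat.card_pos)
      (mulEq_of_cent (A := D ⊓ 𝐂(D)) (hBD.trans (centralizer_anti inf_le_left))).card_dvd
    have h6 : T ⊓ 𝐂(T) ≤ (D ⊓ 𝐂(D)) ⊔ B := fun t ht => by
      obtain ⟨d, hd, b, hb, rfl⟩ := key t ht
      exact mul_mem_sup hd hb
    have := Subgroup.card_le_of_le h6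
    rw [hB.card_four] at h5
    omega)
  exact card_le_of_cyclic (hDT hσ) (c := 8) (by omega) (e ▸ hH) hsq

end Cfsg.Agent.S1235
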