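import Cfsg.Statements.S1236
import Mathlib
import Cfsg.Agent.Base
import Cfsg.Agent.Lib.Tech58.Harada
import Cfsg.Agent.Lib.TwoFusion.QD
import Cfsg.Agent.Lib.Inv73.D8

set_option autoImplicit false
open Cfsg

namespace Cfsg.Agent.S1236

open Subgroup H45 H69 H58.Har

theorem card_le_two {G : Type*} [Group G] [Finite G] {a : G} {X : Subgroup G} (h : X ≤ zpowers a)
    (h2 : ∀ x ∈ X, x * x = 1) : Nat.card X ≤ 2 := by
  obtain ⟨n, hn⟩ := (Subgroup.le_zpowers_iff a _).1 h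
  rw [hn, Nat.card_zpowers]
  exact Nat.le_of_dvd two_pos (orderOf_dvd_of_pow_eq_one (by
    rw [pow_two]; exact h2 _ (hn ▸ mem_zpowers _)))

theorem cent_le {G : Type*} [Group G] [Finite G]
    (hD : (∃ m : ℕ, 2 ≤ m ∧ Nonempty (G ≃* DihedralGroup m)) ∨ Cfsg.IsQuasiDihedral G)
    {V : Subgroup G} (h4 : Nat.card V = 4) (h2 : ∀ x ∈ V, x * x = 1) : 𝐂(V) ≤ V := by
  have hV : V ≤ 𝐂(V) := fun x hx y hy => comm_of_sq h2 hy hx
  have key : ∀ a : G, ∃ s ∈ V, s ∉ zpowers a := fun a => SetLike.not_le_iff_exists.1 fun h => by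
    have := card_le_two h h2
    omega
  refine (Subgroup.eq_of_le_of_card_ge hV (h4 ▸ ?_)).ge
  rcases hD with ⟨m, hm, ⟨e⟩⟩ | hD
  · obtain ⟨a, b, h⟩ := H73.exists_dihData (by omega) (Subgroup.topEquiv.trans e)
    obtain ⟨s, hs, hsa⟩ := key a
    have h3 := idx (T := zpowers a) (N := ⊤) (H := 𝐂(V)) le_top le_top (c := 2)
      (by rw [h.card, Nat.card_zpowers, h.ord])
    have h5 := card_le_two (X := zpowers a ⊓ 𝐂(V)) inf_le_left fun x hx => by
      obtain ⟨⟨i, rfl⟩, hx⟩ := hx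
      have : s * a ^ i * s⁻¹ = (a ^ i)⁻¹ := by
        rw [← conj_zpow, h.inverts_of_notMem trivial hsa, inv_zpow]
      rw [hx s hs, mul_inv_cancel_right] at this
      exact mul_eq_one_iff_eq_inv.2 this
    omega
  · obtain ⟨k, x, y, h⟩ := H41.exists_qd_top hD
    obtain ⟨s, hs, hsa⟩ := key x
    obtain ⟨i, rfl | rfl⟩ := (h.mem s).1 trivial
    · exact absurd (zpow_mem_zpowers x i) hsa
    rw [← h.card_centralizer i]
    exact Subgroup.card_le_of_le fun c hc => ⟨trivial, mem_cent1_iff.2 (hc _ hs).symm⟩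

/-- Let R be a finite group, t a central involution of R such that R ⧸ ⟨t⟩ is dihedral (of order ≥ 4) or quasi-dihedral, and A ≤ R an elementary abelian subgroup of order 8 containing t. Then C_R(A) = A. -/
theorem result {R : Type*} [Group R] [Finite R] (t : R) (ht : orderOf t = 2) (htz : t ∈ Subgroup.center R) [(Subgroup.zpowers t).Normal] (hq : (∃ m : ℕ, 2 ≤ m ∧ Nonempty (R ⧸ Subgroup.zpowers t ≃* DihedralGroup m)) ∨ Cfsg.IsQuasiDihedral (R ⧸ Subgroup.zpowers t)) (A : Subgroup R) (hA : Cfsg.IsElementaryAbelian 2 A) (hA8 : Nat.card A = 8) (htA : t ∈ A) : Subgroup.centralizer (A : Set R) = A := by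
  have hA2 : ∀ x ∈ A, x * x = 1 := fun x hx => by
    rw [← pow_two]; exact hA.2 x hx
  have hle : zpowers t ≤ A := zpowers_le.2 htA
  have h4 : Nat.card (A.map (QuotientGroup.mk' (zpowers t))) = 4 := by
    have := H4.card_mul_relIndex_of_le hle
    rw [Nat.card_zpowers, ht, hA8] at this
    rw [← Subgroup.relIndex_ker, QuotientGroup.ker_mk']
    omega
  refine le_antisymm (fun c hc => ?_) fun x hx y hy => comm_of_sq hA2 hy hx
  have := cent_le hq h4 (by
    rintro _ ⟨x, hx, rfl⟩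
    rw [← map_mul, hA2 x hx, map_one]) (show QuotientGroup.mk' (zpowers t) c ∈ _ from by
    rintro _ ⟨x, hx, rfl⟩
    rw [← map_mul, hc x hx, map_mul])
  rwa [← Subgroup.mem_comap, Subgroup.comap_map_eq, QuotientGroup.ker_mk', sup_eq_left.2 hle] at this

end Cfsg.Agent.S1236
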