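import Cfsg.Statements.S1239
import Mathlib
import Cfsg.Agent.Lib.TwoFusion.QW
import Cfsg.Agent.Lib.ZStar.WClosed

set_option autoImplicit false
open Cfsg

namespace Cfsg.Agent.S1239

/-- Let X be a finite group whose Sylow 2-subgroup S is quasi-dihedral or wreathed, and suppose some involution of S is isolated in X. Then the product of the largest normal odd-order subgroup O(X) with the centre of S is normal in X. -/
theorem result {X : Type*} [Group X] [Finite X] (S : Sylow 2 X) (hS : Cfsg.IsQuasiDihedral (S : Subgroup X) ∨ Cfsg.IsWreathed (S : Subgroup X)) (z : X) (hzS : z ∈ S) (hz : Cfsg.IsIsolatedInvolution z) : (Cfsg.oddCore X ⊔ (Subgroup.center (S : Subgroup X)).map (S : Subgroup X).subtype).Normal := by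
  refine H41.normal_sup_of_commutator_mem fun c hc => ?_
  obtain ⟨h1, h2⟩ := H41.mem_map_center_iff.1 hc
  have hzc : ∀ g ∈ (S : Subgroup X), g * z = z * g := fun g hg =>
    H41.Isolated.commute_of_isPGroup hz S.2 hzS hg
  refine H34.zstar_sylow S h1 fun g hg => ?_
  rcases H41.qw_of hS with ⟨k, x, y, h⟩ | ⟨k, x, y, t, h⟩
  · have h3 : z = h.z := (h.center_iff hzS hzc).resolve_left (H41.Isolated.ne_one hz)
    rcases h.center_iff h1 h2 with rfl | rfl
    · simp
    · rw [← h3] at hg ⊢
      exact H41.Isolated.eq_of_commute hz (IsConj.refl _) (H41.Isolated.isConj_conj z g)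
        (hzc _ hg).symm
  · have h3 : z = h.z := (h.Z_invol (h.map_center ▸ H41.mem_map_center_iff.2 ⟨hzS, hzc⟩)
      (H41.Isolated.mul_self hz)).resolve_left (H41.Isolated.ne_one hz)
    refine h.conj_Z_eq (h.hu_of_not_isConj fun h4 => ?_) (h.map_center ▸ hc) hg
    rw [← h3] at h4
    have h5 := H41.Isolated.eq_of_commute hz (IsConj.refl _) h4 (hzc _ (h.e_mem _ _)).symm
    exact h.u2_notMem_Z (by rw [h5, h3]; exact h.z_mem_Z)

end Cfsg.Agent.S1239
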