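import Mathlib
import Cfsg.Statements.S1242
import Cfsg.Agent.Lib.SE42.TransferPow
import Cfsg.Agent.Lib.Transfer.Residual
-- import your own Cfsg.Agent.* helpers here

set_option autoImplicit false
open Cfsg

namespace Cfsg.Agent.S1242

/-- Let G be a finite group, p a prime and H a subgroup of index prime to p such that any two elements of H of p-power order that are conjugate in G are conjugate in H. Then (O^p(G)·G') ∩ H = O^p(H)·H', where O^p denotes the subgroup generated by the elements of order prime to p. -/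
theorem result {G : Type*} [Group G] [Finite G] {p : ℕ} [Fact p.Prime] (H : Subgroup G) (hidx : Nat.Coprime p H.index) (hfus : ∀ g ∈ H, (∃ k : ℕ, orderOf g = p ^ k) → ∀ a : G, a * g * a⁻¹ ∈ H → ∃ h ∈ H, h * g * h⁻¹ = a * g * a⁻¹) : (Cfsg.pResidual p G ⊔ commutator G) ⊓ H = (Cfsg.pResidual p ↥H ⊔ commutator ↥H).map H.subtype := by
  have hp : p.Prime := Fact.out
  apply le_antisymm
  · rintro x ⟨hx, hxH⟩
    have := H4.pResidual_normal p H
    set K : Subgroup H := Cfsg.pResidual p ↥H ⊔ commutator ↥H with hK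
    have hKn : K.Normal := inferInstance
    let i : CommGroup (H ⧸ K) :=
      { (inferInstance : Group (H ⧸ K)) with
        mul_comm := by
          intro a b
          obtain ⟨a, rfl⟩ := QuotientGroup.mk_surjective a
          obtain ⟨b, rfl⟩ := QuotientGroup.mk_surjective b
          rw [← QuotientGroup.mk_mul, ← QuotientGroup.mk_mul, QuotientGroup.eq]
          apply Subgroup.mem_sup_right
          have := Subgroup.commutator_mem_commutator (Subgroup.mem_top b⁻¹) (Subgroup.mem_top a⁻¹)
          simpa [commutatorElement_def, mul_assoc, commutator_def] using this }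
    have hpK : IsPGroup p (H ⧸ K) := H4.isPGroup_quotient_of_pResidual_le le_sup_left
    let φ : H →* H ⧸ K := QuotientGroup.mk' _
    have hker : Cfsg.pResidual p G ⊔ commutator G ≤ (MonoidHom.transfer φ).ker :=
      sup_le (H4.pResidual_le_ker hpK _) (Abelianization.commutator_subset_ker _)
    obtain ⟨k, m, hm, hkm⟩ := Nat.exists_eq_pow_mul_and_not_dvd (orderOf_pos x).ne' p hp.ne_one
    have hxm : (x ^ m) ^ p ^ k = 1 := by rw [← pow_mul, mul_comm, ← hkm, pow_orderOf_eq_one]
    have h1 := H42.transfer_eq_pow_of_controls φ ⟨x ^ m, pow_mem hxH m⟩ (by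
      intro j a h
      obtain ⟨b, hb, e⟩ := hfus ((x ^ m) ^ j) (pow_mem (pow_mem hxH m) j)
        (by
          obtain ⟨l, -, hl⟩ := (Nat.dvd_prime_pow hp).mp (orderOf_dvd_of_pow_eq_one
            (show ((x ^ m) ^ j) ^ p ^ k = 1 by rw [pow_right_comm, hxm, one_pow]))
          exact ⟨l, hl⟩) a⁻¹ (by simpa using h)
      have : (⟨_, h⟩ : H) = ⟨b, hb⟩ * ⟨x ^ m, pow_mem hxH m⟩ ^ j * ⟨b, hb⟩⁻¹ :=
        Subtype.ext (by simpa using e.symm)
      rw [this, map_mul, map_mul, map_inv, map_pow, mul_inv_cancel_comm])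
    have h2 : MonoidHom.transfer φ (x ^ m) = 1 := hker (pow_mem hx m)
    have h3 : φ ⟨x, hxH⟩ ^ (m * H.index) = 1 := by
      rw [pow_mul, ← map_pow]
      exact h1.symm.trans h2
    have h4 : φ ⟨x, hxH⟩ = 1 := by
      apply H4.eq_one_of_isPGroup_of_coprime hpK
      exact (Nat.Coprime.mul_left ((hp.coprime_iff_not_dvd.mpr hm).symm) hidx.symm).coprime_dvd_left
        (orderOf_dvd_of_pow_eq_one h3)
    exact ⟨⟨x, hxH⟩, (QuotientGroup.eq_one_iff _).mp h4, rfl⟩
  · refine le_inf ?_ (Subgroup.map_subtype_le _)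
    rw [Subgroup.map_sup]
    refine sup_le_sup (H4.map_subtype_pResidual_le H) ?_
    rw [Subgroup.map_subtype_commutator]
    exact Subgroup.commutator_mono le_top le_top

end Cfsg.Agent.S1242
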