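import Mathlib
import Cfsg.Statements.S1243
import Cfsg.Agent.Lib.LocEven.Basic

set_option autoImplicit false
open Cfsg

namespace Cfsg.Agent.S1243

open Subgroup H68

/-- Let T be a Sylow p-subgroup of the finite group G and W ≤ T a subgroup weakly closed in T. If d and g d g⁻¹ both centralize W, then g d g⁻¹ = h d h⁻¹ for some h ∈ N_G(W). -/
theorem result {G : Type*} [Group G] [Finite G] {p : ℕ} [Fact p.Prime] (T : Sylow p G) (W : Subgroup G) (hW : Cfsg.IsWeaklyClosed W (T : Subgroup G)) (d g : G) (hd : d ∈ Subgroup.centralizer (W : Set G)) (hgd : g * d * g⁻¹ ∈ Subgroup.centralizer (W : Set G)) : ∃ h ∈ Subgroup.normalizer (W : Set G), h * d * h⁻¹ = g * d * g⁻¹ := by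
  set e := g * d * g⁻¹ with he
  set C := centralizer ({e} : Set G) with hC
  have hWp : IsPGroup p W := T.isPGroup'.to_le hW.1
  have h1 : W ≤ C := by
    intro w hw
    rw [hC, mem_centralizer_singleton_iff]
    exact (mem_centralizer_iff.mp hgd w hw)
  have h2 : cj g W ≤ C := by
    rw [cj_le_iff']
    intro w hw
    rw [hC, mem_centralizer_singleton_iff, he]
    have := mem_centralizer_iff.mp hd w hw
    calc g * w * g⁻¹ * (g * d * g⁻¹) = g * (w * d) * g⁻¹ := by group
      _ = g * d * g⁻¹ * (g * w * g⁻¹) := by rw [this]; group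
  obtain ⟨P, hP, hWP⟩ := exists_sylowIn_ge hWp h1
  obtain ⟨c, hc, hcP⟩ := hP.exists_cj_le (isPGroup_cj g hWp) h2
  obtain ⟨y, -, hy⟩ := (sylowIn_top T).exists_cj_le hP.isPGroup le_top
  have e1 : cj y W = W := hW.2 y ((cj_mono y hWP).trans hy)
  have e2 : cj (y * (c * g)) W = W := by
    apply hW.2
    change cj (y * (c * g)) W ≤ _
    rw [cj_mul, cj_mul]
    exact (cj_mono y hcP).trans hy
  refine ⟨c * g, ?_, ?_⟩
  · rw [mem_normalizer_iff_cj]
    apply cj_injective y
    rw [← cj_mul, e1, e2]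
  · have := mem_centralizer_singleton_iff.mp hc
    calc c * g * d * (c * g)⁻¹ = c * e * c⁻¹ := by rw [he]; group
      _ = e := by rw [this]; group

end Cfsg.Agent.S1243
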