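import Mathlib
import Cfsg.Statements.S1244
import Cfsg.Agent.Lib.SE42.TransferPow
import Cfsg.Agent.Lib.Transfer.Control
import Cfsg.Agent.Lib.PGroup.Basic
import Cfsg.Agent.Lib.Invol.Dihedral
-- import your own Cfsg.Agent.* helpers here

set_option autoImplicit false
open Cfsg

namespace Cfsg.Agent.S1244

theorem map_eq_one {G X : Type*} [Group G] [Finite G] [Group X] (hG : ∀ H : Subgroup G, H.index ≠ 2)
    (hX : IsPGroup 2 X) (f : G →* X) (g : G) : f g = 1 := by
  by_contra h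
  have : Finite f.range := Finite.of_surjective _ f.rangeRestrict_surjective
  obtain ⟨M, -, -, hM, -⟩ := H5.exists_le_normal_index_eq (hX.to_subgroup f.range) (K := ⊥) (by
    intro e
    have : (⟨f g, g, rfl⟩ : f.range) ∈ (⊥ : Subgroup f.range) := e ▸ Subgroup.mem_top _
    exact h (congrArg Subtype.val (Subgroup.mem_bot.mp this)))
  exact hG (M.comap f.rangeRestrict) (by
    rw [Subgroup.index_comap_of_surjective _ f.rangeRestrict_surjective, hM])


/-- Let G be a finite group with no subgroup of index 2 whose Sylow 2-subgroup S is commutative, and let R ≤ S be a subgroup whose 2-rank is exactly one less than the 2-rank r of S. Then every involution of S is conjugate, by an element of N_G(S), to an element of R. -/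
theorem result {G : Type*} [Group G] [Finite G] (hG : ∀ H : Subgroup G, H.index ≠ 2) (S : Sylow 2 G) (hS : IsMulCommutative (S : Subgroup G)) (r : ℕ) (hr1 : 1 ≤ r) (hSr : Cfsg.PRankLE 2 r (S : Subgroup G) ∧ ¬ Cfsg.PRankLE 2 (r - 1) (S : Subgroup G)) (R : Subgroup G) (hRS : R ≤ S) (hRr : Cfsg.PRankLE 2 (r - 1) R ∧ (r = 1 ∨ ¬ Cfsg.PRankLE 2 (r - 2) R)) (t : G) (ht : orderOf t = 2) (htS : t ∈ S) : ∃ n ∈ Subgroup.normalizer ((S : Subgroup G) : Set G), n * t * n⁻¹ ∈ R := by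
  by_contra hcon
  push Not at hcon
  have hcomm : ∀ a ∈ (S : Subgroup G), ∀ b ∈ (S : Subgroup G), a * b = b * a := fun a ha b hb =>
    congrArg Subtype.val (mul_comm' (⟨a, ha⟩ : (S : Subgroup G)) ⟨b, hb⟩)
  let Ω : Subgroup G → Subgroup G := fun X =>
    { carrier := {a | a ∈ X ∧ a ∈ (S : Subgroup G) ∧ a * a = 1}
      one_mem' := ⟨one_mem _, one_mem _, mul_one 1⟩
      mul_mem' := by
        rintro a b ⟨h1, h2, h3⟩ ⟨k1, k2, k3⟩
        refine ⟨mul_mem h1 k1, mul_mem h2 k2, ?_⟩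
        rw [mul_assoc, ← mul_assoc b, ← hcomm a h2 b k2, mul_assoc, k3, mul_one, h3]
      inv_mem' := by
        rintro a ⟨h1, h2, h3⟩
        exact ⟨inv_mem h1, inv_mem h2, by rw [← mul_inv_rev, h3, inv_one]⟩ }
  have hΩS : ∀ X, Ω X ≤ S := fun X a ha => ha.2.1
  have hΩX : ∀ X, Ω X ≤ X := fun X a ha => ha.1
  have hup : ∀ (X : Subgroup G) (k : ℕ), Cfsg.PRankLE 2 k X → Nat.card (Ω X) ≤ 2 ^ k := by
    intro X k h
    rw [← Nat.card_congr (Subgroup.subgroupOfEquivOfLe (hΩX X)).toEquiv]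
    refine h _ (IsMulCommutative.of_setLike_mul_comm fun a ha b hb =>
      Subtype.ext (hcomm _ ha.2.1 _ hb.2.1)) fun a ha => Subtype.ext ?_
    simpa [pow_two] using ha.2.2
  have hlow : ∀ (X : Subgroup G) (k : ℕ), X ≤ S → ¬ Cfsg.PRankLE 2 k X →
      2 ^ (k + 1) ≤ Nat.card (Ω X) := by
    intro X k hX h
    unfold Cfsg.PRankLE at h
    push Not at h
    obtain ⟨A, -, hA, hc⟩ := h
    have h1 : A.map X.subtype ≤ Ω X := by
      rintro _ ⟨a, ha, rfl⟩
      exact ⟨a.2, hX a.2, by simpa [pow_two] using congrArg Subtype.val (hA a ha)⟩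
    have h2 := Subgroup.card_le_of_le h1
    rw [Subgroup.card_map_of_injective X.subtype_injective] at h2
    obtain ⟨n, hn⟩ := IsPGroup.iff_card.mp (S.isPGroup'.to_le (hΩS X))
    rw [hn] at h2 ⊢
    exact Nat.pow_le_pow_right (by norm_num)
      ((Nat.pow_lt_pow_iff_right (by norm_num)).mp (hc.trans_le h2))
  have hWΩ : Ω R ≤ Ω S := fun a ha => ⟨ha.2.1, ha.2⟩
  have hc1 : Nat.card (Ω S) ≤ 2 ^ r := hup _ _ hSr.1
  have hc2 : 2 ^ r ≤ Nat.card (Ω R) * 2 := by
    rcases hRr.2 with rfl | h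
    · have : 0 < Nat.card (Ω R) := Nat.card_pos
      omega
    · have := hlow R _ hRS h
      calc 2 ^ r ≤ 2 ^ (r - 2 + 1 + 1) := Nat.pow_le_pow_right (by norm_num) (by omega)
        _ ≤ _ := by rw [pow_succ]; omega
  have ht2 := H9.mul_self_of_orderOf_two ht
  have htR : t ∉ R := by simpa using hcon 1 (one_mem _)
  have hidx : (Ω R).relIndex (Ω S) = 2 := by
    have h1 := H1.card_mul_relIndex_of_le hWΩ
    have h2 : (Ω R).relIndex (Ω S) ≠ 1 := fun h =>
      htR (Subgroup.relIndex_eq_one.mp h (show t ∈ Ω S from ⟨htS, htS, ht2⟩)).1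
    have h3 : (Ω R).relIndex (Ω S) ≠ 0 := Subgroup.FiniteIndex.index_ne_zero
    have h4 : 0 < Nat.card (Ω R) := Nat.card_pos
    have h5 : (Ω R).relIndex (Ω S) ≤ 2 := Nat.le_of_mul_le_mul_left (h1.le.trans (hc1.trans hc2)) h4
    omega
  have hn : ((Ω R).subgroupOf S).Normal := inferInstance
  let i : CommGroup ((S : Subgroup G) ⧸ (Ω R).subgroupOf S) :=
    { (inferInstance : Group ((S : Subgroup G) ⧸ (Ω R).subgroupOf S)) with
      mul_comm := by
        intro a b
        obtain ⟨a, rfl⟩ := QuotientGroup.mk_surjective a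
        obtain ⟨b, rfl⟩ := QuotientGroup.mk_surjective b
        rw [← QuotientGroup.mk_mul, ← QuotientGroup.mk_mul, mul_comm' a b] }
  let φ : (S : Subgroup G) →* (S : Subgroup G) ⧸ (Ω R).subgroupOf S := QuotientGroup.mk' _
  have hφt : φ ⟨t, htS⟩ ^ 2 = 1 := by
    rw [← map_pow, show (⟨t, htS⟩ : (S : Subgroup G)) ^ 2 = 1 from
      Subtype.ext (by simpa [pow_two] using ht2), map_one]
  have h1 := H42.transfer_eq_pow_of_controls φ ⟨t, htS⟩ (by
    intro k a h
    have ht2' : t ^ 2 = 1 := by rw [pow_two, ht2]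
    obtain ⟨j, rfl | rfl⟩ := Nat.even_or_odd' k
    · rw [pow_mul (φ _), hφt, one_pow, ← map_one φ]
      congr 1
      exact Subtype.ext (by simp [pow_mul, ht2'])
    · have e : t ^ (2 * j + 1) = t := by rw [pow_succ, pow_mul, ht2', one_pow, one_mul]
      rw [pow_succ (φ _), pow_mul (φ _), hφt, one_pow, one_mul]
      have h' : a⁻¹ * t * a⁻¹⁻¹ ∈ (S : Subgroup G) := by simpa [e] using h
      obtain ⟨n, hn, en⟩ := H4.normalizer_controls_fusion_of_isMulCommutative S t htS a⁻¹ h'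
      have h3 : a⁻¹ * t * a⁻¹⁻¹ ∉ R := en ▸ hcon n hn
      have h4 : a⁻¹ * t * a⁻¹⁻¹ ∈ Ω S := ⟨h', h', by
        calc a⁻¹ * t * a⁻¹⁻¹ * (a⁻¹ * t * a⁻¹⁻¹) = a⁻¹ * (t * t) * a := by group
          _ = 1 := by rw [ht2]; group⟩
      have h5 := (Subgroup.mul_mem_iff_of_index_two hidx (a := ⟨_, inv_mem h4⟩)
        (b := ⟨t, htS, htS, ht2⟩)).mpr (iff_of_false (fun h => h3 (inv_mem_iff.mp h.1))
          (fun h => htR h.1))
      apply QuotientGroup.eq.mpr
      rw [Subgroup.mem_subgroupOf] at h5 ⊢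
      simpa [e] using h5)
  have h2 : MonoidHom.transfer φ t = 1 := map_eq_one hG (S.isPGroup'.to_quotient _) _ t
  obtain ⟨m, hm⟩ : Odd (S : Subgroup G).index := by
    rw [← Nat.not_even_iff_odd, even_iff_two_dvd]
    exact S.not_dvd_index
  rw [h2, hm, pow_succ, pow_mul, hφt, one_pow, one_mul, eq_comm] at h1
  exact htR ((QuotientGroup.eq_one_iff (N := (Ω R).subgroupOf S) _).mp h1).1

end Cfsg.Agent.S1244
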