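import Cfsg.Statements.S1247
import Mathlib
import Cfsg.Agent.Lib.FGS.BenderPair
import Cfsg.Agent.Lib.LocEven.FStarP
import Cfsg.Agent.Lib.Transfer.Control

set_option autoImplicit false
open Cfsg

namespace Cfsg.Agent.S1247

open Subgroup H69
open scoped commutatorElement Pointwise

open H77

theorem lay_le {G : Type*} [Group G] [Finite G] {A S : Subgroup G} (hSF : S ≤ fsOf A)
    (hSsn : SN S (fsOf A)) (hSC : fsOf A ⊓ 𝐂(S) ≤ S) : layOf A ≤ S := by
  have hSA : SN S A := hSsn.trans (sn_of_normal (fsOf_le A) (le_normalizer_fsOf A))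
  have hsub : (S.subgroupOf A).IsSubnormal := (sn_iff.1 hSA).2
  rw [layOf, map_le_iff_le_comap]
  refine sSup_le fun K hK => ?_
  rcases H23.IsComponent.le_or_commutator_eq_bot hK hsub with h | h
  · exact h
  · intro k hk
    refine hSC ⟨⟨k, H23.IsComponent.le_fStar hK hk, rfl⟩, mem_centralizer_iff_commute.2 fun s hs => ?_⟩
    have := mem_centralizer_iff_commute.1 (H69.le_centralizer_of_commutator_eq_bot h hk)
      ⟨s, hSA.le hs⟩ hs
    exact congrArg Subtype.val this

theorem lemA {G : Type*} [Group G] [Finite G] {A S : Subgroup G} (hSF : S ≤ fsOf A)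
    (hE : layOf A ≤ S) (hSC : fsOf A ⊓ 𝐂(S) ≤ S) (r : ℕ) [Fact r.Prime] :
    pCoreOf r A ⊓ 𝐂(S ⊓ pCoreOf r A) ≤ S := by
  have hr : pCoreOf r A ≤ fittingOf A := H1.pCoreOf_le_fittingOf r A
  refine (le_inf (inf_le_left.trans (hr.trans (fittingOf_le_fsOf A))) ?_).trans hSC
  rw [le_centralizer_comm]
  have hS : S = layOf A ⊔ (fittingOf A ⊓ S) := by
    rw [← dedekind_right ((layOf_le A).trans (H1.le_normalizer_fittingOf A)) hE, ← fsOf_eq,
      inf_eq_right.2 hSF]
  refine hS.le.trans (sup_le ((layOf_le_centralizer_fittingOf A).trans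
    (centralizer_anti (inf_le_left.trans hr))) ?_)
  refine H4.le_of_forall_prime_pow fun s hs _ x hx ⟨k, hk⟩ => ?_
  haveI := Fact.mk hs
  have hxs : x ∈ pCoreOf s A := le_pCoreOf_of_le_fittingOf (H70.isPGroup_zpowers hk)
    (zpowers_le.2 hx.1) (mem_zpowers x)
  by_cases hsr : s = r
  · subst hsr
    exact le_centralizer_comm.1 inf_le_right (show x ∈ S ⊓ pCoreOf s A from ⟨hx.2, hxs⟩)
  · exact centralizer_anti inf_le_left (le_centralizer_of_isPGroup_ne hsr
      (H70.isPGroup_pCoreOf s A) (H70.isPGroup_pCoreOf r A)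
      ((H70.pCoreOf_le s A).trans (H70.le_normalizer_pCoreOf r A))
      ((H70.pCoreOf_le r A).trans (H70.le_normalizer_pCoreOf s A)) hxs)

theorem lemB {G : Type*} [Group G] [Finite G] {A S X : Subgroup G} (hSF : S ≤ fsOf A)
    (hE : layOf A ≤ S) (hSC : fsOf A ⊓ 𝐂(S) ≤ S) {q r : ℕ} [Fact q.Prime] [Fact r.Prime]
    (hqr : q ≠ r) (hX : IsPGroup q X) (hXA : X ≤ A) (h : X ≤ 𝐂(S ⊓ pCoreOf r A)) :
    X ≤ 𝐂(pCoreOf r A) := by
  have hr := H70.isPGroup_pCoreOf r A
  refine H2.le_centralizer_of_centralizer_le (C := S ⊓ pCoreOf r A) hr.isNilpotent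
    (hXA.trans (H70.le_normalizer_pCoreOf r A)) (IsPGroup.coprime_card_of_ne q r hqr _ _ hX hr)
    inf_le_right (le_centralizer_comm.1 h) ?_
  exact (le_inf (lemA hSF hE hSC r) inf_le_left).trans (le_centralizer_comm.1 h)


/-- Let G be a non-abelian finite simple group, A a maximal subgroup, F = F*(A) its generalized Fitting subgroup (viewed in G), and S ≤ F a subgroup subnormal in F with C_F(S) ≤ S. Let B be any subgroup of G containing S. Then (a) for every prime q not dividing |F(A)|, O_q(B) ∩ A = 1; and (b) for every prime p dividing |F(A)|, O_p(B) commutes elementwise with the subgroup of F generated by its elements of order prime to p. -/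
theorem result {G : Type*} [Group G] [Finite G] [IsSimpleGroup G] (hna : ¬ IsMulCommutative G) (A : Subgroup G) (hA : IsCoatom A) (S : Subgroup G) (hSF : S ≤ (Cfsg.generalizedFittingSubgroup ↥A).map A.subtype) (hSsn : (S.subgroupOf ((Cfsg.generalizedFittingSubgroup ↥A).map A.subtype)).IsSubnormal) (hSC : (Cfsg.generalizedFittingSubgroup ↥A).map A.subtype ⊓ Subgroup.centralizer (S : Set G) ≤ S) (B : Subgroup G) (hSB : S ≤ B) : (∀ q : ℕ, q.Prime → ¬ q ∣ Nat.card (Cfsg.fittingSubgroup ↥A) → (Cfsg.pCore q ↥B).map B.subtype ⊓ A = ⊥) ∧ (∀ p : ℕ, p.Prime → p ∣ Nat.card (Cfsg.fittingSubgroup ↥A) → ∀ x ∈ (Cfsg.pCore p ↥B).map B.subtype, ∀ y ∈ (Cfsg.pResidual p ↥(Cfsg.generalizedFittingSubgroup ↥A)).map ((Cfsg.generalizedFittingSubgroup ↥A).subtype) , x * (A.subtype y) = (A.subtype y) * x) := by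
  change S ≤ fsOf A at hSF
  change fsOf A ⊓ 𝐂(S) ≤ S at hSC
  have hsn : SN S (fsOf A) := sn_iff.2 ⟨hSF, hSsn⟩
  have hE := lay_le hSF hsn hSC
  have hSA : S ≤ A := hSF.trans (fsOf_le A)
  have hY : ∀ (q : ℕ) [Fact q.Prime], pCoreOf q B ⊓ fsOf A ≤ pCoreOf q A := by
    intro q _
    have hq := (H70.isPGroup_pCoreOf q B).to_le (inf_le_left : _ ⊓ fsOf A ≤ _)
    refine le_pCoreOf_of_le_fittingOf hq (le_fittingOf_of_isSolvable inf_le_right ?_
      (H1.isSolvable_of_isPGroup hq))
    exact H69.le_normalizer_inf (hE.trans (hSB.trans (H70.le_normalizer_pCoreOf q B)))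
      ((layOf_le A).trans (le_normalizer_fsOf A))
  have hcardF : Nat.card (fittingOf A) = Nat.card (fittingSubgroup A) :=
    card_map_of_injective (subtype_injective _)
  have hZ : ∀ (r : ℕ) [Fact r.Prime], zCore r A ≤ S := by
    intro r _
    have h1 : zCore r A ≤ fittingOf A := inf_le_left.trans (H1.pCoreOf_le_fittingOf r A)
    refine (le_inf (h1.trans (fittingOf_le_fsOf A)) ?_).trans hSC
    refine le_trans ?_ (centralizer_anti hSF)
    rw [fsOf_eq, H69.centralizer_sup]
    exact le_inf (h1.trans (le_centralizer_comm.1 (layOf_le_centralizer_fittingOf A)))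
      (zCore_le_centralizer_fittingOf r A)
  constructor
  · intro q hq hqF
    haveI := Fact.mk hq
    change pCoreOf q B ⊓ A = ⊥
    have h0 : pCoreOf q A = ⊥ := eq_bot_of_not_dvd (H70.isPGroup_pCoreOf q A)
      (H1.pCoreOf_le_fittingOf q A) (by rwa [hcardF])
    have hX := (H70.isPGroup_pCoreOf q B).to_le (inf_le_left : _ ⊓ A ≤ _)
    have hXS : pCoreOf q B ⊓ A ≤ 𝐂(S) := by
      apply H69.le_centralizer_of_commutator_eq_bot
      rw [← le_bot_iff, ← h0]
      refine le_trans (le_inf ?_ ?_) (hY q)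
      · exact (commutator_mono inf_le_left hSB).trans
          (H69.commutator_le_left_of_le_normalizer (H70.le_normalizer_pCoreOf q B))
      · exact (commutator_mono inf_le_right hSF).trans
          (H69.commutator_le_right_of_le_normalizer (le_normalizer_fsOf A))
    refine eq_bot_of_le_fittingOf hX (le_trans (le_inf inf_le_right ?_)
      (inf_centralizer_fsOf_le A)) h0
    rw [fsOf_eq, H69.centralizer_sup]
    refine le_inf (hXS.trans (centralizer_anti hE)) (le_centralizer_fittingOf fun r _ => ?_)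
    by_cases hqr : q = r
    · subst hqr; rw [h0, H69.centralizer_bot]; exact le_top
    · exact lemB hSF hE hSC hqr hX inf_le_right (hXS.trans (centralizer_anti inf_le_left))
  · intro p hp hpF x hx y hy
    haveI := Fact.mk hp
    change x ∈ pCoreOf p B at hx
    have hy' : (A.subtype y) ∈ 𝐑(p, fsOf A) := by
      rw [fsOf, ← map_subtype_res]; exact mem_map_of_mem _ hy
    suffices h : 𝐑(p, fsOf A) ≤ 𝐂(pCoreOf p B) from mem_centralizer_iff_commute.1 (h hy') x hx
    set P := pCoreOf p B with hP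
    have hPp : IsPGroup p P := H70.isPGroup_pCoreOf p B
    let K : Subgroup G := layOf A ⊔ ⨆ r : {r : Nat.Primes // (r : ℕ) ≠ p}, pCoreOf (r.1 : ℕ) A
    have hKn : A ≤ 𝐍(K) := H69.le_normalizer_sup (le_normalizer_layOf A)
      (le_normalizer_of_cj_le fun g hg => by
        rw [cj_iSup]
        exact iSup_mono fun r => (cj_eq_of_mem_normalizer (H70.le_normalizer_pCoreOf _ A hg)).le)
    have hRK : 𝐑(p, fsOf A) ≤ K := by
      refine le_trans (res_mono ?_) (res_sup_le (H70.isPGroup_pCoreOf p A)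
        ((H70.pCoreOf_le p A).trans hKn))
      rw [fsOf_eq, H1.fittingOf_eq_iSup_pCoreOf]
      refine sup_le (le_sup_left.trans le_sup_left) (iSup_le fun r => ?_)
      by_cases hr : (r : ℕ) = p
      · rw [hr]; exact le_sup_right
      · exact (le_iSup (fun r : {r : Nat.Primes // (r : ℕ) ≠ p} => pCoreOf (r.1 : ℕ) A)
          ⟨r, hr⟩).trans (le_sup_right.trans le_sup_left)
    have hKO : K ≤ 𝐂(pCoreOf p A) := by
      refine sup_le ((layOf_le_centralizer_fittingOf A).trans
        (centralizer_anti (H1.pCoreOf_le_fittingOf p A))) (iSup_le fun r => ?_)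
      haveI := Fact.mk r.1.2
      exact le_centralizer_of_isPGroup_ne r.2
        (H70.isPGroup_pCoreOf _ A) (H70.isPGroup_pCoreOf p A)
        ((H70.pCoreOf_le _ A).trans (H70.le_normalizer_pCoreOf p A))
        ((H70.pCoreOf_le p A).trans (H70.le_normalizer_pCoreOf _ A))
    have hSP : S ≤ 𝐍(P) := hSB.trans (H70.le_normalizer_pCoreOf p B)
    have hZne : zCore p A ≠ ⊥ := zCore_ne_bot (pCoreOf_ne_bot_of_dvd (by rwa [hcardF]))
    have hNZ := normalizer_eq_of_isCoatom hA hZne (zCore_le p A) (le_normalizer_zCore p A)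
    have hP0A : P ⊓ 𝐂(zCore p A) ≤ A :=
      inf_le_right.trans ((centralizer_le_normalizer _).trans hNZ.le)
    have hRO : 𝐑(p, S) ≤ 𝐂(pCoreOf p A) := (res_mono hSF).trans (hRK.trans hKO)
    have hR0 : 𝐑(p, S) ≤ 𝐂(P ⊓ 𝐂(zCore p A)) := by
      refine res_le_centralizer_of_res_quadratic (hPp.to_le inf_le_left)
        (H69.le_normalizer_inf hSP
          (H69.le_normalizer_centralizer (hSA.trans (le_normalizer_zCore p A)))) ?_
      refine le_trans (le_trans (le_inf ?_ ?_) (hY p)) (le_centralizer_comm.1 hRO)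
      · exact (commutator_mono inf_le_left (res_le S)).trans
          (H69.commutator_le_left_of_le_normalizer hSP)
      · exact (commutator_mono hP0A ((res_le S).trans hSF)).trans
          (H69.commutator_le_right_of_le_normalizer (le_normalizer_fsOf A))
    have hR : 𝐑(p, S) ≤ 𝐂(P) := by
      rw [← res_res]
      refine pxq (X := zCore p A) P hPp ((hZ p).trans hSP) ((res_le S).trans hSP) ?_ ?_
        (le_centralizer_comm.1 hR0)
      · rw [res_eq_bot_of_isPGroup (isPGroup_zCore p A)]; exact bot_le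
      · rw [H69.commutator_eq_bot_of_le_centralizer (A := zCore p A)
          (inf_le_left.trans (le_centralizer_comm.1 hRO))]
        exact bot_le
    have hER : layOf A ≤ 𝐑(p, S) := by
      rw [← H68.res_eq_of_perfect (p := p) (commutator_layOf_self A)]
      exact res_mono hE
    have hrR : ∀ (r : ℕ) [Fact r.Prime], r ≠ p → S ⊓ pCoreOf r A ≤ 𝐑(p, S) := by
      intro r _ hr z hz
      refine mem_res hz.1 ?_
      obtain ⟨k, hk⟩ := H70.isPGroup_iff_mem.1 (H70.isPGroup_pCoreOf r A) z hz.2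
      exact Nat.Coprime.coprime_dvd_left (orderOf_dvd_of_pow_eq_one hk)
        (Nat.Coprime.pow_left k ((Nat.coprime_primes Fact.out hp).2 hr))
    refine hRK.trans (sup_le (hER.trans hR) (iSup_le fun r => ?_))
    haveI := Fact.mk r.1.2
    by_cases h0 : pCoreOf (r.1 : ℕ) A = ⊥
    · rw [h0]; exact bot_le
    have hNZ' := normalizer_eq_of_isCoatom hA (zCore_ne_bot h0) (zCore_le _ A)
      (le_normalizer_zCore _ A)
    have hPA : P ≤ A := by
      refine le_trans ?_ ((centralizer_le_normalizer _).trans hNZ'.le)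
      exact le_centralizer_comm.1 ((le_inf (hZ _) inf_le_left).trans ((hrR _ r.2).trans hR))
    exact le_centralizer_comm.1 (lemB hSF hE hSC (Ne.symm r.2) hPp hPA
      (le_centralizer_comm.1 ((hrR _ r.2).trans hR)))

end Cfsg.Agent.S1247
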