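import Cfsg.Statements.S1248
import Cfsg.Agent.Lib.TwoFusion.U34Model

set_option autoImplicit false
open Cfsg

namespace Cfsg.Agent.S1248

/-- Let F be a field with 16 elements and S a Sylow 2-subgroup of PSU(3) over F (the unitary group U₃(4)). Then |S| = 64; the centre Z(S) is a Klein four-group and coincides with the subgroup generated by the involutions of S and with the derived subgroup; and every element of S ⧸ Z(S) squares to the identity, S ⧸ Z(S) having order 16. -/
theorem result {F : Type*} [Field F] [Fintype F] (hF : Fintype.card F = 16) (S : Sylow 2 (Cfsg.PSU 3 F 4)) : Nat.card S = 64 ∧ IsKleinFour (Subgroup.center (S : Subgroup (Cfsg.PSU 3 F 4))) ∧ Subgroup.center (S : Subgroup (Cfsg.PSU 3 F 4)) = Subgroup.closure {x : (S : Subgroup (Cfsg.PSU 3 F 4)) | orderOf x = 2} ∧ Subgroup.center (S : Subgroup (Cfsg.PSU 3 F 4)) = commutator (S : Subgroup (Cfsg.PSU 3 F 4)) ∧ Nat.card ((S : Subgroup (Cfsg.PSU 3 F 4)) ⧸ Subgroup.center (S : Subgroup (Cfsg.PSU 3 F 4))) = 16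 ∧ ∀ x : (S : Subgroup (Cfsg.PSU 3 F 4)) ⧸ Subgroup.center (S : Subgroup (Cfsg.PSU 3 F 4)), x ^ 2 = 1 := by
  obtain ⟨σ, v, h, a, b, hab⟩ := H41.u34_sylow hF S
  have hc := h.center_eq hab
  have h4 : Nat.card (Subgroup.center (S : Subgroup (Cfsg.PSU 3 F 4))) = 4 := by rw [hc, h.card_V]
  refine ⟨h.card hab, ⟨h4, ?_⟩, ?_, hc.trans (h.commutator_eq hab).symm, ?_, fun x => ?_⟩
  · have : Nontrivial (Subgroup.center (S : Subgroup (Cfsg.PSU 3 F 4))) :=
      Finite.one_lt_card_iff_nontrivial.1 (by omega)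
    rw [Monoid.exponent_eq_prime_iff Nat.prime_two]
    exact fun g hg => H41.orderOf_two_of_mul_self hg (Subtype.ext (h.mem_V.1 (hc ▸ g.2)))
  · rw [hc]
    refine le_antisymm (fun g hg => ?_) ((Subgroup.closure_le _).2 fun g hg =>
      H41.mul_self_of_orderOf_two hg)
    by_cases h1 : g = 1
    · exact h1 ▸ one_mem _
    · exact Subgroup.subset_closure (H41.orderOf_two_of_mul_self h1 hg)
  · have h1 := Subgroup.card_eq_card_quotient_mul_card_subgroup
      (Subgroup.center (S : Subgroup (Cfsg.PSU 3 F 4)))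
    rw [h4, h.card hab] at h1
    omega
  · obtain ⟨x, rfl⟩ := QuotientGroup.mk_surjective x
    rw [← QuotientGroup.mk_pow, QuotientGroup.eq_one_iff, hc, pow_two]
    exact h.four x

end Cfsg.Agent.S1248
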