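import Cfsg.Statements.S1253
import Mathlib
import Cfsg.Agent.Base
import Cfsg.Agent.S1187
import Cfsg.Agent.S1180
import Cfsg.Agent.Lib.BG.Api.Hall
import Cfsg.Agent.Lib.RankOne.OddInv
import Cfsg.Agent.Lib.Transfer.Residual

set_option autoImplicit false
open Cfsg

namespace Cfsg.Agent.S1253

open Subgroup H45 H69

/-- Let z be an isolated involution of the finite group G with centralizer C, p an odd prime and P a Sylow p-subgroup of G normalized by z. Then P ∩ C has p-power-free index in C (it is a Sylow p-subgroup of C), and |P : C_P(z)| equals the number of elements x ∈ P with z x z⁻¹ = x⁻¹. -/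
theorem result {G : Type*} [Group G] [Finite G] (z : G) (hz : Cfsg.IsIsolatedInvolution z) {p : ℕ} [Fact p.Prime] (hp : p ≠ 2) (P : Sylow p G) (hzP : z ∈ Subgroup.normalizer ((P : Subgroup G) : Set G)) : ¬ p ∣ ((P : Subgroup G) ⊓ Subgroup.centralizer ({z} : Set G)).relIndex (Subgroup.centralizer ({z} : Set G)) ∧ ((P : Subgroup G) ⊓ Subgroup.centralizer ({z} : Set G)).relIndex (P : Subgroup G) = Nat.card {x : G // x ∈ P ∧ z * x * z⁻¹ = x⁻¹} := by
  have hzz : z * z = 1 := by rw [← pow_two, ← hz.1, pow_orderOf_eq_one]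
  constructor
  · obtain ⟨Q, hQ⟩ := exists_isSylowIn p 𝐂[z]
    obtain ⟨R, ⟨h1, h2, h3⟩, hmax⟩ := Set.Finite.exists_maximal
      (s := {R : Subgroup G | IsPGroup p R ∧ z ∈ 𝐍(R) ∧ Q ≤ R}) (Set.toFinite _)
      ⟨Q, hQ.isP, Subgroup.centralizer_le_normalizer _ fun x hx => mem_cent1_iff.1 (hQ.le hx), le_rfl⟩
    obtain ⟨S, rfl⟩ := S1187.result z hz R h1 h2 fun T h4 h5 h6 => le_antisymm (hmax ⟨h4, h5, h3.trans h6⟩ h6) h6
    obtain ⟨g, -, hg⟩ := (isSylowIn_top S).conj (isSylowIn_top P)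
    obtain ⟨n, hn, e⟩ := S1180.result z hz _ hzP g (by rw [← hg, ← cj_normalizer]; exact cj_mem g h2)
    have hc : n⁻¹ * g ∈ 𝐂[z] := mem_cent1_iff.2 (by
      calc n⁻¹ * g * z = n⁻¹ * (g * z * g⁻¹) * g := by group
        _ = _ := by rw [← e]; group)
    have h4 := hQ.cj_of_mem hc
    have h5 : (S : Subgroup G) ^ᶜ (n⁻¹ * g) = P := by rw [← cj_cj, hg, cj_eq_of_mem_normalizer (inv_mem hn)]
    rw [h4.max _ (le_inf (h5 ▸ cj_mono _ h3) h4.le) inf_le_right P.isPGroup'.to_inf_left]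
    exact h4.not_dvd_relIndex
  · obtain ⟨k, hk⟩ := IsPGroup.iff_card.1 P.isPGroup'
    have h := H40.card_eq_card_cent_mul_card_inverted hzz (X := P)
      (hk ▸ ((Fact.out : p.Prime).odd_of_ne_two hp).pow) fun x hx => conj_mem_of_mem_normalizer hzP hx
    rw [← H4.card_mul_relIndex_of_le (inf_le_left : (P : Subgroup G) ⊓ 𝐂[z] ≤ P)] at h
    exact Nat.eq_of_mul_eq_mul_left Nat.card_pos h

end Cfsg.Agent.S1253
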