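import Cfsg.Statements.S1254
import Mathlib
import Cfsg.Agent.Base
import Cfsg.Agent.Lib.Tech58.DihFus

set_option autoImplicit false
open Cfsg

namespace Cfsg.Agent.S1254

open H58.Dih H23.GW H69 H73 H45

/-- Let X be a finite group whose Sylow 2-subgroup S is dihedral (of order at least 4). Then X has a normal 2-complement if and only if, for every Klein four-subgroup U ≤ S, the normalizer N_X(U) is generated by C_X(U) and N_S(U). -/
theorem result {X : Type*} [Group X] [Finite X] (S : Sylow 2 X) (m : ℕ) (hm : 2 ≤ m) (eS : (S : Subgroup X) ≃* DihedralGroup m) : Cfsg.HasNormalPComplement 2 X ↔ ∀ U : Subgroup X, U ≤ S → IsKleinFour U → Subgroup.normalizer (U : Set X) = Subgroup.centralizer (U : Set X) ⊔ ((S : Subgroup X) ⊓ Subgroup.normalizer (U : Set X)) := by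
  obtain ⟨k, σ, τ, h⟩ := exists_data S hm eS
  constructor
  · intro hn U hUS _
    haveI := H4.pResidual_normal 2 X
    refine le_antisymm (fun g hg => ?_) (sup_le (le_normalizer_of_le_centralizer le_rfl) inf_le_right)
    obtain ⟨v, hv, e⟩ := H4.controls_fusion_of_isComplement' (H4.isComplement'_pResidual hn S)
      (A := (U : Set X)) hUS (g := g) fun a ha => hUS (conj_mem_of_mem_normalizer hg ha)
    have hvU : v ∈ 𝐍(U) := mem_normalizer_of_cj_le fun x hx => by
      obtain ⟨a, ha, rfl⟩ := mem_cj'.1 hx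
      rw [e a ha]; exact conj_mem_of_mem_normalizer hg ha
    have : g = (g * v⁻¹) * v := by group
    rw [this]
    refine Subgroup.mul_mem_sup (mem_centralizer_iff_commute.2 fun a ha => ?_) ⟨hv, hvU⟩
    have e2 := e _ (conj_mem_of_mem_normalizer' hvU ha)
    calc a * (g * v⁻¹) = v * (v⁻¹ * a * v) * v⁻¹ * (g * v⁻¹) := by group
      _ = _ := by rw [e2]; group
  · intro hU
    rw [H4.hasNormalPComplement_iff_forall_le_sylow S]
    intro Q hQ g hg hodd
    by_contra hc
    obtain ⟨s, hV⟩ := four_of_odd h hQ hg (Nat.coprime_two_right.1 hodd) hc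
    have hg' := hg
    rw [hU Q hQ hV.isKleinFour] at hg'
    have hn : (S : Subgroup X) ⊓ 𝐍(Q) ≤ 𝐍(𝐂(Q)) := inf_le_right.trans (normalizer_le_normalizer_centralizer Q)
    obtain ⟨c, hc', v, hv, rfl⟩ := (mem_sup_of_le_normalizer_left hn).1 hg'
    haveI := (centralizer_normalIn_normalizer Q).normal_subgroupOf
    let f := QuotientGroup.mk' (𝐂(Q).subgroupOf 𝐍(Q))
    have e1 : f ⟨c * v, hg⟩ = f ⟨v, hv.2⟩ := by
      have : (⟨c * v, hg⟩ : 𝐍(Q)) = ⟨c, le_normalizer_of_le_centralizer le_rfl hc'⟩ * ⟨v, hv.2⟩ := rfl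
      rw [this, map_mul, show f ⟨c, _⟩ = 1 from (QuotientGroup.eq_one_iff _).2 hc', one_mul]
    obtain ⟨n, hn⟩ := isPGroup_iff_mem.1 S.isPGroup' v hv.1
    have e2 : orderOf (f ⟨c * v, hg⟩) ∣ 2 ^ n := orderOf_dvd_of_pow_eq_one (by
      rw [e1, ← map_pow, show (⟨v, hv.2⟩ : 𝐍(Q)) ^ 2 ^ n = 1 from Subtype.ext hn, map_one])
    have e3 : orderOf (f ⟨c * v, hg⟩) ∣ orderOf (c * v) :=
      (orderOf_map_dvd f _).trans (by rw [← Subgroup.orderOf_coe])
    have e4 := Nat.eq_one_of_dvd_coprimes (hodd.pow_right n) e3 e2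
    exact hc ((QuotientGroup.eq_one_iff (N := 𝐂(Q).subgroupOf 𝐍(Q)) ⟨c * v, hg⟩).1 (orderOf_eq_one_iff.1 e4))

end Cfsg.Agent.S1254
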