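import Cfsg.Statements.S1255
import Mathlib
import Cfsg.Agent.Base
import Cfsg.Agent.Lib.Tech58.DihFus

set_option autoImplicit false
open Cfsg

namespace Cfsg.Agent.S1255

open H58.Dih H23.GW H69 H73 H45

/-- Let X be a finite group whose Sylow 2-subgroup S is dihedral of order 2m ≥ 4. Then X has no subgroup of index 2 and no isolated involution if and only if either all involutions of X are conjugate, or for every Klein four-subgroup U ≤ S the index |N_X(U) : C_X(U)| equals 3 when |S| = 4 and equals 6 when |S| > 4. -/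
theorem result {X : Type*} [Group X] [Finite X] (S : Sylow 2 X) (m : ℕ) (hm : 2 ≤ m) (eS : (S : Subgroup X) ≃* DihedralGroup m) : ((∀ H : Subgroup X, H.index ≠ 2) ∧ (∀ z : X, ¬ Cfsg.IsIsolatedInvolution z)) ↔ ((∀ a b : X, orderOf a = 2 → orderOf b = 2 → IsConj a b) ∨ (∀ U : Subgroup X, U ≤ S → IsKleinFour U → (Subgroup.centralizer (U : Set X)).relIndex (Subgroup.normalizer (U : Set X)) = (if Nat.card S = 4 then 3 else 6))) := by
  obtain ⟨k, σ, τ, h⟩ := exists_data S hm eS
  have hV := dih_four h h.b_mem h.notMem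
  constructor
  · rintro ⟨h1, -⟩
    have key : ∀ a : X, orderOf a = 2 → IsConj a (σ ^ 2 ^ k) := fun a ha => by
      by_contra hn
      obtain ⟨N, -, hN⟩ := exists_index_two h ha hn
      exact h1 N hN
    exact Or.inl fun a b ha hb => (key a ha).trans (key b hb).symm
  · intro H
    have hone : ∀ a b : X, orderOf a = 2 → orderOf b = 2 → IsConj a b := by
      refine H.elim id fun H => ?_
      have key : ∀ {τ : X}, DihData (S : Subgroup X) (2 ^ (k + 1)) σ τ → IsConj τ (σ ^ 2 ^ k) := fun h => by
        have hV := dih_four h h.b_mem h.notMem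
        refine (isConj_of_three hV ?_).symm
        rw [H _ (hV.le_iff.2 ⟨pow_mem h.a_mem _, h.b_mem⟩) hV.isKleinFour]
        split_ifs <;> norm_num
      have key2 : ∀ a : X, orderOf a = 2 → IsConj a (σ ^ 2 ^ k) := fun a ha => by
        rcases invol_cases h ha with e | e | e
        · exact e
        · exact e.trans (key h)
        · exact e.trans (key (H33.Dih.shift h))
      exact fun a b ha hb => (key2 a ha).trans (key2 b hb).symm
    refine ⟨index_ne_two h hone, fun z hz => ?_⟩
    obtain ⟨g, rfl⟩ := isConj_iff.1 (hone _ _ hV.ha hz.1)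
    obtain ⟨u, hu⟩ := isConj_iff.1 (hone _ _ hV.ha hV.hb)
    have e : g * u * g⁻¹ * (g * σ ^ 2 ^ k * g⁻¹) * (g * u * g⁻¹)⁻¹ = g * τ * g⁻¹ := by rw [← hu]; group
    have := hz.2 (g * u * g⁻¹) (by rw [e]; exact hV.comm.conj g)
    rw [e] at this
    exact hV.ne (by simpa using this.symm)

end Cfsg.Agent.S1255
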