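import Cfsg.Statements.S1256
import Mathlib
import Cfsg.Agent.Base
import Cfsg.Agent.Lib.Tech58.DihFus

set_option autoImplicit false
open Cfsg

namespace Cfsg.Agent.S1256

open H58.Dih H23.GW H69 H73

/-- Let X be a finite group whose Sylow 2-subgroup S is dihedral of order 2m ≥ 4. If |S| = 4, any two Klein four-subgroups of X are conjugate; if |S| > 4, there are Klein four-subgroups U₁, U₂ of X that are not conjugate, and every Klein four-subgroup of X is conjugate to U₁ or to U₂. -/
theorem result {X : Type*} [Group X] [Finite X] (S : Sylow 2 X) (m : ℕ) (hm : 2 ≤ m) (eS : (S : Subgroup X) ≃* DihedralGroup m) : (Nat.card S = 4 → ∀ U V : Subgroup X, IsKleinFour U → IsKleinFour V → (∃ x : X, U.map (MulAut.conj x).toMonoidHom = V)) ∧ (4 < Nat.card S → ∃ U₁ U₂ : Subgroup X, IsKleinFour U₁ ∧ IsKleinFour U₂ ∧ ¬ (∃ x : X, U₁.map (MulAut.conj x).toMonoidHom = U₂) ∧ ∀ V : Subgroup X, IsKleinFour V → (∃ x : X, V.map (MulAut.conj x).toMonoidHom = U₁) ∨ (∃ x : X, V.map (MulAut.conj x).toMonoidHom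 = U₂)) := by
  obtain ⟨k, σ, τ, h⟩ := exists_data S hm eS
  constructor
  · intro h4 U V hU hV
    have key : ∀ U : Subgroup X, IsKleinFour U → ∃ g : X, U ^ᶜ g = S := fun U hU => by
      have hp : IsPGroup 2 U := IsPGroup.of_card (n := 2) (by rw [hU.card_four]; norm_num)
      obtain ⟨g, -, hg⟩ := (syl S).exists_cj_le hp le_top
      exact ⟨g, Subgroup.eq_of_le_of_card_ge hg (by rw [card_cj, hU.card_four]; exact h4.le)⟩
    obtain ⟨g, hg⟩ := key U hU
    obtain ⟨g', hg'⟩ := key V hV
    refine ⟨g'⁻¹ * g, ?_⟩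
    rw [← cj_cj, hg, ← hg', cj_cj_inv]
  · intro h4
    obtain _ | k := k
    · have := h.card
      change Nat.card S = _ at this
      omega
    have h' := H33.Dih.shift h
    exact ⟨_, _, (dih_four h h.b_mem h.notMem).isKleinFour, (dih_four h' h'.b_mem h'.notMem).isKleinFour,
      fun ⟨g, hg⟩ => four_not_conj h g hg, fun V hV => four_cases_conj h hV⟩

end Cfsg.Agent.S1256
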