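import Mathlib
import Cfsg.Statements.S1258
import Cfsg.Agent.Lib.Comp.Component
-- import your own Cfsg.Agent.* helpers here

set_option autoImplicit false
open Cfsg

namespace Cfsg.Agent.S1258

/-- If the central quotient of a finite group X is non-abelian simple, then X = X' Z(X) and the commutator subgroup X' is quasisimple. -/
theorem result {X : Type*} [Group X] [Finite X] (hs : IsSimpleGroup (X ⧸ Subgroup.center X)) (hna : ¬ IsMulCommutative (X ⧸ Subgroup.center X)) : commutator X ⊔ Subgroup.center X = ⊤ ∧ Cfsg.IsQuasisimple ↥(commutator X) := by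
  have hq := H23.isQuasisimple_of_isSimpleGroup hna
  have hs' := QuotientGroup.mk'_surjective (Subgroup.center X)
  have hk : (⊤ : Subgroup X) ⊓ (QuotientGroup.mk' (Subgroup.center X)).ker ≤
      Subgroup.centralizer ((⊤ : Subgroup X) : Set X) := by
    rw [QuotientGroup.ker_mk']
    exact inf_le_right.trans (Subgroup.center_le_centralizer _)
  have hq' : IsQuasisimple ((⊤ : Subgroup X).map (QuotientGroup.mk' (Subgroup.center X))) := by
    rw [Subgroup.map_top_of_surjective _ hs']
    exact H23.IsQuasisimple.of_mulEquiv Subgroup.topEquiv.symm hq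
  refine ⟨?_, H23.isQuasisimple_commutator_of_map _ hk hq'⟩
  have h1 := (H23.commutator_perfect_of_map _ hk (H23.IsQuasisimple.commutator_self hq')).1
  have h2 := Subgroup.comap_map_eq (QuotientGroup.mk' (Subgroup.center X)) ⁅(⊤ : Subgroup X), ⊤⁆
  rw [h1, Subgroup.map_top_of_surjective _ hs', Subgroup.comap_top, QuotientGroup.ker_mk'] at h2
  exact h2.symm

end Cfsg.Agent.S1258
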