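import Mathlib
import Cfsg.Statements.S1263
import Cfsg.Agent.Lib.Comp.LayerStruct
-- import your own Cfsg.Agent.* helpers here

set_option autoImplicit false
open Cfsg

namespace Cfsg.Agent.S1263

/-- For a finite group G, Z(E(G)) is the subgroup generated by the centres Z(L) of the components L of G (all viewed as subgroups of G). -/
theorem result {G : Type*} [Group G] [Finite G] : (Subgroup.center ↥(Cfsg.layer G)).map (Cfsg.layer G).subtype = ⨆ L : {K : Subgroup G // Cfsg.IsComponent K}, (Subgroup.center ↥(L : Subgroup G)).map (L : Subgroup G).subtype := by
  rw [H23.map_center_subtype, H23.center_layer, iSup_subtype']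
  exact iSup_congr fun L => (H23.map_center_subtype _).symm

end Cfsg.Agent.S1263
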