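import Mathlib
import Cfsg.Statements.S1267
import Cfsg.Agent.Lib.Comp.LayerStruct
import Cfsg.Agent.Lib.Core.PCore
-- import your own Cfsg.Agent.* helpers here

set_option autoImplicit false
open Cfsg

namespace Cfsg.Agent.S1267

/-- Let G be finite and P ≤ O_p(G). Then E(N_G(P)) = E(G). -/
theorem result {G : Type*} [Group G] [Finite G] (p : ℕ) [Fact p.Prime] (P : Subgroup G) (hP : P ≤ Cfsg.pCore p G) : (Cfsg.layer ↥(Subgroup.normalizer ((P : Subgroup G) : Set G))).map (Subgroup.normalizer ((P : Subgroup G) : Set G)).subtype = Cfsg.layer G := by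
  have hnil : Group.IsNilpotent (pCore p G) := (H1.isPGroup_pCore (p := p) (G := G)).isNilpotent
  have hEC : layer G ≤ Subgroup.centralizer (pCore p G : Set G) :=
    H23.layer_le_centralizer_of_isSubnormal_of_isSolvable (pCore_normal p G).isSubnormal
      inferInstance
  have hCN : Subgroup.centralizer (pCore p G : Set G) ≤ Subgroup.normalizer (P : Set G) :=
    (H23.centralizer_anti hP).trans (Subgroup.centralizer_le_normalizer _)
  refine le_antisymm ?_ (H23.layer_le_map_layer_subtype (hEC.trans hCN))
  rw [H23.map_layer_subtype_eq_sSup]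
  refine sSup_le fun L hL => ?_
  have hq := (H23.isQuasisimple_subgroupOf_iff hL.1).mp hL.2.2
  -- `L` centralizes `O_p(G) ⊓ N(P)`
  have h1 : pCore p G ⊓ Subgroup.normalizer (P : Set G) ≤ Subgroup.centralizer (L : Set G) := by
    have hsolv : Group.IsSolvable ((pCore p G).subgroupOf (Subgroup.normalizer (P : Set G))) := by
      have h0 : IsPGroup p ((pCore p G).subgroupOf (Subgroup.normalizer (P : Set G))) :=
        (H1.isPGroup_pCore (p := p) (G := G)).comap_subtype
      have := h0.isNilpotent
      exact IsNilpotent.to_isSolvable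
    have h2 := H23.IsComponent.commutator_eq_bot_of_isSolvable hL.2 hsolv
      Subgroup.le_normalizer_of_normal
    have h3 := congrArg (Subgroup.map (Subgroup.normalizer (P : Set G)).subtype) h2
    rw [Subgroup.map_commutator, Subgroup.map_subgroupOf_eq_of_le hL.1,
      Subgroup.subgroupOf_map_subtype, Subgroup.map_bot] at h3
    exact Subgroup.commutator_eq_bot_iff_le_centralizer.mp (H23.commutator_eq_bot_symm h3)
  have h4 : ⁅pCore p G, L⁆ = ⊥ :=
    H23.commutator_eq_bot_of_perfect_of_nilpotent (R := P)
      (H23.IsQuasisimple.commutator_self hq) hnil Subgroup.le_normalizer_of_normal hP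
      ((le_inf hP Subgroup.le_normalizer).trans h1)
      ((inf_le_inf_left _ (Subgroup.centralizer_le_normalizer _)).trans h1)
  have h5 : L ≤ Subgroup.centralizer (pCore p G : Set G) :=
    Subgroup.commutator_eq_bot_iff_le_centralizer.mp (H23.commutator_eq_bot_symm h4)
  exact H23.IsComponent.le_layer (H23.IsComponent.of_subgroupOf
    (Subgroup.normal_centralizer (H := pCore p G)).isSubnormal h5
    (H23.IsComponent.subgroupOf_of_le h5 hCN hL.2))

end Cfsg.Agent.S1267
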