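import Cfsg.Statements.S1271
import Mathlib
import Cfsg.Agent.Lib.PComp.Automizer

set_option autoImplicit false
open Cfsg

namespace Cfsg.Agent.S1271

/-- Let G be finite with O_{p'}(G) = 1. Suppose that for every component L of G and every subgroup H ≥ L in which L is normal, the quotient H / C_H(L) is balanced for the prime p. Then G is balanced for p. -/
theorem result {G : Type*} [Group G] [Finite G] (p : ℕ) [Fact p.Prime] (hO : Cfsg.pPrimeCore p G = ⊥) (h : ∀ L : Subgroup G, Cfsg.IsComponent L → ∀ H : Subgroup G, L ≤ H → (L.subgroupOf H).Normal → ∀ [((Subgroup.centralizer (L : Set G)).subgroupOf H).Normal], Cfsg.IsBalancedFor p (↥H ⧸ (Subgroup.centralizer (L : Set G)).subgroupOf H)) : Cfsg.IsBalancedFor p G := by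
  intro x hx
  rw [H44.centralizerPPrimeCore_eq, hO, le_bot_iff]
  have hP := H44.isPGroup_zpowers_of_orderOf hx
  set W := H44.coreOf p (Subgroup.centralizer ({x} : Set G)) with hW
  have hW' : W = H44.coreOf p (Subgroup.centralizer (Subgroup.zpowers x : Set G)) := by
    rw [H44.centralizer_zpowers]
  refine H44.eq_bot_of_centralizes hO (H44.coprime_card_coreOf p _)
    (hW' ▸ le_sup_right.trans (H44.sup_centralizer_le_centralizer_pCore hP)) fun L hL => ?_
  by_cases hne : ⁅L, Subgroup.zpowers x⁆ = L
  swap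
  · exact H44.commutator_coreOf_eq_bot_of_commutator_ne hO hL hx hne
  have hxL : Subgroup.zpowers x ≤ Subgroup.normalizer (L : Set G) :=
    Subgroup.le_normalizer_iff_commutator_le_left.mpr hne.le
  have hWL : W ≤ Subgroup.normalizer (L : Set G) :=
    hW' ▸ le_sup_right.trans (H44.sup_centralizer_le_normalizer_component hO hL hP)
  set M := L ⊔ (Subgroup.zpowers x ⊔ W) with hM
  have hML : M ≤ Subgroup.normalizer (L : Set G) := sup_le Subgroup.le_normalizer (sup_le hxL hWL)
  have hxM : x ∈ M := (le_sup_left.trans le_sup_right : _ ≤ M) (Subgroup.mem_zpowers x)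
  have hn1 : (L.subgroupOf M).Normal :=
    (Subgroup.normal_subgroupOf_iff_le_normalizer le_sup_left).mpr hML
  have hn2 : ((Subgroup.centralizer (L : Set G)).subgroupOf M).Normal :=
    Subgroup.normal_subgroupOf_of_le_normalizer (H2.le_normalizer_centralizer hML)
  let f := QuotientGroup.mk' ((Subgroup.centralizer (L : Set G)).subgroupOf M)
  have hf : Function.Surjective f := QuotientGroup.mk'_surjective _
  have hk : f.ker = (Subgroup.centralizer (L : Set G)).subgroupOf M := QuotientGroup.ker_mk' _
  have h1 := H44.map_coreOf_le_coreOf_centralizer hO hL.1 le_sup_left hML (a := ⟨x, hxM⟩) hx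
    (sup_le_sup_left (le_inf le_sup_right (sup_le (Subgroup.zpowers_le.mpr
      (H44.mem_centralizer_singleton_self x)) (H44.coreOf_le p _))) _) hf hk
  have hx1 : f ⟨x, hxM⟩ ≠ 1 := by
    intro h2
    rw [← MonoidHom.mem_ker, hk] at h2
    refine H23.IsComponent.ne_bot hL (hne.symm.trans ?_)
    rw [Subgroup.commutator_comm, Subgroup.commutator_eq_bot_iff_le_centralizer,
      Subgroup.zpowers_le]
    exact h2
  have h2 := h L hL M le_sup_left hn1 (f ⟨x, hxM⟩) (H44.orderOf_map_eq (Or.inl (Subtype.ext (by
    rw [← hx]; exact pow_orderOf_eq_one x))) hx1)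
  have hLM := H23.IsComponent.subgroupOf hL (le_sup_left : L ≤ M)
  have hq : H44.PQuasi p (L.subgroupOf M) :=
    (H44.pquasi_subgroupOf_iff le_sup_left).mpr (H44.pquasi_of_isComponent hO hL)
  have hk' : f.ker = Subgroup.centralizer (L.subgroupOf M : Set M) := by
    rw [hk, H44.centralizer_subgroupOf le_sup_left]
  have hne' : (L.subgroupOf M).map f ≠ ⊥ := by
    rw [Ne, Subgroup.map_eq_bot_iff, hk']
    exact H23.IsComponent.not_le_centralizer hLM
  have h3 := H44.pPrimeCore_eq_bot_of_centralizer_eq_bot (p := p)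
    (H23.IsComponent.map_of_surjective hLM hf hne') (hq.map_of_ne_bot f hne').not_coprime
    (H44.centralizer_map_eq_bot hq.perfect hf hk')
  rw [h3] at h2
  have h4 := h1.trans h2
  rw [le_bot_iff, Subgroup.map_eq_bot_iff, hk] at h4
  rw [Subgroup.commutator_comm, Subgroup.commutator_eq_bot_iff_le_centralizer]
  intro w hw
  exact h4 (show (⟨w, (le_sup_right.trans le_sup_right : _ ≤ M) hw⟩ : M) ∈ _ from hw)

end Cfsg.Agent.S1271
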