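import Cfsg.Statements.S1272
import Mathlib
import Cfsg.Agent.Lib.PComp.Basic

set_option autoImplicit false
open Cfsg

namespace Cfsg.Agent.S1272

/-- Let X be finite and Q = X / O_{p'}(X). For every component Kbar of Q there is a unique p-component K of X whose image in Q is Kbar; and the image of the p-layer L_{p'}(X) in Q is E(Q). -/
theorem result {X : Type*} [Group X] [Finite X] (p : ℕ) [Fact p.Prime] : (∀ Kbar : Subgroup (X ⧸ Cfsg.pPrimeCore p X), Cfsg.IsComponent Kbar → ∃! K : Subgroup X, Cfsg.IsPComponent p K ∧ K.map (QuotientGroup.mk' (Cfsg.pPrimeCore p X)) = Kbar) ∧ (Cfsg.pLayer p X).map (QuotientGroup.mk' (Cfsg.pPrimeCore p X)) = Cfsg.layer (X ⧸ Cfsg.pPrimeCore p X) := by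
  refine ⟨fun Kbar hK => ?_, H44.map_mk'_pLayer⟩
  have h1 : H44.PComp p Kbar ((⊤ : Subgroup X).map (QuotientGroup.mk' (pPrimeCore p X))) := by
    rw [Subgroup.map_top_of_surjective _ (QuotientGroup.mk'_surjective _)]
    exact (H44.pcomp_top_iff_isComponent (H44.pPrimeCore_quotient p)).mpr hK
  obtain ⟨L, hL, hL'⟩ := h1.exists_lift (H44.coprime_ker_mk'_inf p ⊤)
  refine ⟨L, ⟨H44.pcomp_top_iff.mp hL, hL'⟩, fun K hK => ?_⟩
  exact (H44.pcomp_top_iff.mpr hK.1).eq_of_map_eq hL (H44.coprime_ker_mk'_inf p ⊤)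
    (hK.2.trans hL'.symm)

end Cfsg.Agent.S1272
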