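import Cfsg.Statements.S1277
import Mathlib
import Cfsg.Agent.Lib.PComp.Basic

set_option autoImplicit false
open Cfsg

namespace Cfsg.Agent.S1277

/-- For a finite group X with core O(X): the image of E(X) in X / O(X) is all of E(X / O(X)) if and only if every 2-component of X is a component, i.e. L_{2'}(X) ≤ E(X). -/
theorem result {X : Type*} [Group X] [Finite X] : (Cfsg.layer X).map (QuotientGroup.mk' (Cfsg.oddCore X)) = Cfsg.layer (X ⧸ Cfsg.oddCore X) ↔ Cfsg.pLayer 2 X ≤ Cfsg.layer X := by
  constructor
  · intro h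
    refine H44.le_of_map_le (H := ⊤) (p := 2) (f := QuotientGroup.mk' (pPrimeCore 2 X)) ?_
      (H44.subnIn_top.mpr H23.layer_normal.isSubnormal) le_top (H44.coprime_ker_mk'_inf 2 ⊤) ?_
    · rw [← H44.pLayerOf_top, H44.pGen_pLayerOf]
    · rw [H44.map_mk'_pLayer]
      exact h.ge
  · intro h
    refine le_antisymm (H23.map_layer_le_of_surjective (QuotientGroup.mk'_surjective _)) ?_
    rw [← H44.map_mk'_pLayer]
    exact Subgroup.map_mono h

end Cfsg.Agent.S1277
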