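import Cfsg.Statements.S1279
import Mathlib
import Cfsg.Agent.Lib.CompW.Core

set_option autoImplicit false
open Cfsg

namespace Cfsg.Agent.S1279

/-- Let A be a noncyclic elementary abelian p-subgroup of the finite group G such that C_G(a) is solvable for every non-identity a ∈ A. Then a ↦ O_{p'}(C_G(a)) is a solvable A-signalizer functor on G. -/
theorem result {G : Type*} [Group G] [Finite G] (p : ℕ) [Fact p.Prime] (A : Subgroup G) (hA : Cfsg.IsElementaryAbelian p A) (hA2 : p ^ 2 ≤ Nat.card ↥A) (hsolv : ∀ a ∈ A, a ≠ 1 → Group.IsSolvable ↥(Subgroup.centralizer ({a} : Set G))) : Cfsg.IsSolvableSignalizerFunctor p A (fun a => Cfsg.centralizerPPrimeCore p a) := by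

  have hL : ∀ a ∈ A, a ≠ 1 → Cfsg.pLayerOf p (Subgroup.centralizer ({a} : Set G)) = ⊥ := by
    intro a ha h1
    rw [H44.pLayerOf_eq_bot_iff]
    intro K hK
    exact hK.pquasi.not_le_of_isSolvable (hsolv a ha h1) hK.le
  simp only [H44.centralizerPPrimeCore_eq]
  refine H43.sf_mk (fun a _ _ => H44.coreOf_le p _) (fun a _ _ => H3.CW.not_dvd_coreOf _) ?_ ?_ ?_
  · intro a ha _
    exact (H43.ea_le_centralizer_singleton hA ha).trans (H44.le_normalizer_coreOf p _)
  · intro a ha _ b hb h1
    exact H3.CW.core_balance (k := 1) (by rw [pow_one]; exact hA.2 a ha) (H43.ea_comm hA ha hb)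
      (hL b hb h1)
  · intro a ha h1
    exact H1.isSolvable_of_le (hsolv a ha h1) (H44.coreOf_le p _)

end Cfsg.Agent.S1279
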