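import Cfsg.Statements.S1286
import Mathlib
import Cfsg.Agent.Base

set_option autoImplicit false
open Cfsg

namespace Cfsg.Agent.S1286

open Equiv

abbrev P := Perm (Fin 6)
def a : P := swap 0 3 * swap 1 4 * swap 2 5
def b : P := swap 0 4 * swap 1 3 * swap 2 5
def x : P := swap 0 1 * swap 1 2 * swap 3 4 * swap 4 5
def y : P := swap 0 1 * swap 1 5 * swap 4 3 * swap 3 2

def sub (s : List P) (h : 1 ∈ s ∧ (∀ g ∈ s, ∀ h ∈ s, g * h ∈ s) ∧ ∀ g ∈ s, g⁻¹ ∈ s) :
    Subgroup P where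
  carrier := {g | g ∈ s}
  mul_mem' := fun hg hh => h.2.1 _ hg _ hh
  one_mem' := h.1
  inv_mem' := fun hg => h.2.2 _ hg

theorem card_sub (s : List P) (h) (hs : s.Nodup) : Nat.card (sub s h) = s.length := by
  rw [← List.toFinset_card_of_nodup hs]
  exact Nat.subtype_card _ fun g => List.mem_toFinset

def A : List P := [1, a, b, a * b]
def T (g : P) : List P := if g = a then [1, x, x⁻¹] else if g = b then [1, y, y⁻¹] else [1]

theorem hT (g : P) : 1 ∈ T g ∧ (∀ u ∈ T g, ∀ h ∈ T g, u * h ∈ T g) ∧ ∀ u ∈ T g, u⁻¹ ∈ T g := by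
  unfold T
  split_ifs <;> decide +kernel

/-- There exist a finite group X, an elementary abelian subgroup A of order 4 and a solvable A-signalizer functor θ on X for the prime 2 which is not complete. -/
theorem result : ∃ (X : Type) (_ : Group X) (_ : Finite X) (A : Subgroup X) (θ : X → Subgroup X), Cfsg.IsElementaryAbelian 2 A ∧ Nat.card ↥A = 4 ∧ Cfsg.IsSolvableSignalizerFunctor 2 A θ ∧ ¬ Cfsg.IsCompleteSignalizerFunctor 2 A θ := by
  have h0 : ∀ g ∈ A, (T g).Nodup ∧ ¬ 2 ∣ (T g).length := by decide +kernel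
  have h1 : ∀ g ∈ A, ∀ u ∈ T g, g * u = u * g := by decide +kernel
  have h2 : ∀ g ∈ A, ∀ h ∈ A, ∀ u ∈ T g, h * u * h⁻¹ ∈ T g := by decide +kernel
  have h3 : ∀ g ∈ A, ∀ h ∈ A, h ≠ 1 → ∀ u ∈ T g, h * u = u * h → u ∈ T h := by decide +kernel
  have h4 : ∀ g ∈ A, ∀ u ∈ T g, ∀ v ∈ T g, u * v = v * u := by decide +kernel
  have h5 : ∀ g ∈ A, g ^ 2 = 1 ∧ ∀ h ∈ A, g * h = h * g := by decide +kernel
  refine ⟨P, inferInstance, inferInstance, sub A (by decide +kernel), fun g => sub (T g) (hT g),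
    ⟨⟨⟨fun g h => Subtype.ext ((h5 _ g.2).2 _ h.2)⟩⟩, fun g hg => (h5 g hg).1⟩,
    card_sub _ _ (by decide +kernel), ⟨⟨fun g hg _ u hu => Subgroup.mem_centralizer_singleton_iff.2
      (h1 g hg u hu).symm, fun g hg _ => card_sub _ _ (h0 g hg).1 ▸ (h0 g hg).2,
      fun g hg _ => h2 g hg, fun g hg _ h hh h6 u hu => h3 g hg h hh h6 u hu.1
        (Subgroup.mem_centralizer_singleton_iff.1 hu.2).symm⟩, fun g hg _ =>
      Group.isSolvable_of_comm fun u v => Subtype.ext (h4 g hg _ u.2 _ v.2)⟩, ?_⟩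
  rintro ⟨-, X, -, h6, h7⟩
  have hx : x ∈ X := ((h7 a (show a ∈ A by decide +kernel) (by decide +kernel)).ge (show x ∈ T a by decide +kernel)).1
  have hy : y ∈ X := ((h7 b (show b ∈ A by decide +kernel) (by decide +kernel)).ge (show y ∈ T b by decide +kernel)).1
  refine h6 ?_
  rw [← orderOf_eq_prime (x := x * x * y * x * y) (p := 2) (by decide +kernel) (by decide +kernel)]
  exact X.orderOf_dvd_natCard (mul_mem (mul_mem (mul_mem (mul_mem hx hx) hy) hx) hy)

end Cfsg.Agent.S1286
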