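import Mathlib
import Cfsg.Agent.Base
import Cfsg.Agent.Lib.SigGen.Gen
import Cfsg.Agent.Lib.Sig.EA
import Cfsg.Statements.S1287

set_option autoImplicit false
open scoped Pointwise
open Cfsg

namespace Cfsg.Agent.S1287

open H45 H69 H79.SG Subgroup

theorem nil_case {G : Type*} [Group G] [Finite G] {A Q X Y : Subgroup G} (hA : IsMulCommutative A)
    (hnc : ¬ IsCyclic A) (hQ : Group.IsNilpotent Q) (hAQ : A ≤ 𝐍(Q))
    (hc : (Nat.card A).Coprime (Nat.card Q)) (hX : X ≤ Q) (hY : Y ≤ Q)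
    (h : ∀ a ∈ A, a ≠ 1 → ∀ c ∈ Q ⊓ 𝐂[a], ∃ x ∈ X, ∃ y ∈ Y, c = x * y) : MulEq X Y Q := by
  obtain ⟨N, ⟨h1, h2, h3, h4⟩, hmax⟩ := (wellFounded_gt (α := Subgroup G)).has_min
    {N | N ≤ Q ∧ Q ≤ 𝐍(N) ∧ A ≤ 𝐍(N) ∧ ∀ c ∈ N, ∃ x ∈ X, ∃ y ∈ Y, c = x * y}
    ⟨⊥, bot_le, (NormalIn.bot Q).norm, (NormalIn.bot A).norm,
      fun c hc => ⟨1, one_mem _, 1, one_mem _, by simpa using hc⟩⟩
  rcases h1.lt_or_eq with hlt | rfl
  swap
  · rw [mulEq_iff_coe]
    ext c
    constructor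
    · rintro ⟨x, hx, y, hy, rfl⟩
      exact mul_mem (hX hx) (hY hy)
    · intro hc
      obtain ⟨x, hx, y, hy, rfl⟩ := h4 c hc
      exact ⟨x, hx, y, hy, rfl⟩
  exfalso
  have hne : ∃ L, N < L ∧ L ≤ Q ∧ A ≤ 𝐍(L) ∧ ⁅L, Q⁆ ≤ N := by
    have hq : Q /ₙ N ≠ ⊥ := (quotient_neq1 h2).2 hlt.not_ge
    have hz := center_nil_ne_bot (quotient_nil N hQ) hq
    have hle : qpre N (Zc (Q /ₙ N)) ≤ Q := qpre_le_of_le_quo h1 (center_le _)
    refine ⟨qpre N (Zc (Q /ₙ N)), ?_, hle,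
      norm_quotient_pre h3 ((center_charIn _).norm_trans (quotient_norms _ hAQ)), ?_⟩
    · conv_lhs => rw [← cosetpre1 N]
      exact cosetpre_proper.2 (bot_lt_iff_ne_bot.2 hz)
    · rw [← quotient_cents2 (hle.trans h2) h2, cosetpreK]
      exact center_cent _
  obtain ⟨M, ⟨m1, m2, m3, m4⟩, hmin⟩ := (wellFounded_lt (α := Subgroup G)).has_min
    {L | N < L ∧ L ≤ Q ∧ A ≤ 𝐍(L) ∧ ⁅L, Q⁆ ≤ N} hne
  obtain ⟨B, hB, hMB, hcoc⟩ := H2.exists_cocyclic_of_irreducible hA m3 h3 m1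
    ((commutator_mono le_rfl m2).trans m4) (fun L l1 l2 l3 => by
      by_contra hcon
      push Not at hcon
      exact hmin L ⟨lt_of_le_of_ne l1 hcon.1.symm, l2.trans m2, l3,
        (commutator_mono l2 le_rfl).trans m4⟩ (lt_of_le_of_ne l2 hcon.2))
  obtain ⟨⟨a, ha⟩, ha1⟩ := (Subgroup.ne_bot_iff_exists_ne_one).1 (H2.ne_bot_of_cocyclic hnc hcoc)
  have hdec := H2.sup_centralizer_eq_of_commutator_le (hB.trans h3) m1.le
    (coprimeSg (coprimegS hc h1) hB) (Or.inl (solvableS (solvable_of_abelian hA) hB)) hMB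
  refine hmax M ⟨m2, le_normalizer_of_commutator_le_left (m4.trans m1.le), m3, fun c hc => ?_⟩ m1
  rw [← hdec, mem_sup_of_le_normalizer_left ((inf_le_left.trans m2).trans h2)] at hc
  obtain ⟨n, hn, d, hd, rfl⟩ := hc
  obtain ⟨x, hx, y, hy, rfl⟩ := h a (hB ha) (fun e => ha1 (Subtype.ext e)) d
    ⟨m2 hd.1, cent_le_cent1 ha hd.2⟩
  obtain ⟨x', hx', y', hy', e⟩ := h4 _ (conj_mem_of_mem_normalizer' (h2 (hX hx)) hn)
  refine ⟨x * x', mul_mem hx hx', y' * y, mul_mem hy' hy, ?_⟩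
  calc n * (x * y) = x * (x⁻¹ * n * x) * y := by group
    _ = x * x' * (y' * y) := by rw [e]; group

theorem syl_card {G : Type*} [Group G] [Finite G] {q : ℕ} [Fact q.Prime] {K X Y Q QX QY QI : Subgroup G}
    (h : Nat.card K * Nat.card (X ⊓ Y : Subgroup G) = Nat.card X * Nat.card Y) (hQ : Syl q Q K)
    (hX : Syl q QX X) (hY : Syl q QY Y) (hI : Syl q QI (X ⊓ Y)) :
    Nat.card Q * Nat.card QI = Nat.card QX * Nat.card QY := by
  rw [hQ.card_eq_pow_factorization, hX.card_eq_pow_factorization, hY.card_eq_pow_factorization,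
    hI.card_eq_pow_factorization, ← pow_add, ← pow_add]
  have := congrArg (fun n => n.factorization q) h
  simp only [Nat.factorization_mul Nat.card_pos.ne' Nat.card_pos.ne', Finsupp.add_apply] at this
  rw [this]

/-- Let A be a noncyclic elementary abelian p-subgroup of a finite group H normalizing a subgroup K of order prime to p, and X, Y ≤ K subgroups normalized by A with C_K(a) = C_X(a) C_Y(a) (as sets) for every non-identity a ∈ A, where X is also normalized by C_K(A). Then K = XY as sets. -/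
theorem result {H : Type*} [Group H] [Finite H] (p : ℕ) [Fact p.Prime] (A K X Y : Subgroup H) (hA : Cfsg.IsElementaryAbelian p A) (hA2 : p ^ 2 ≤ Nat.card ↥A) (hK : ¬ p ∣ Nat.card ↥K) (hAK : A ≤ Subgroup.normalizer (K : Set H)) (hX : X ≤ K) (hY : Y ≤ K) (hAX : A ≤ Subgroup.normalizer (X : Set H)) (hAY : A ≤ Subgroup.normalizer (Y : Set H)) (hCX : K ⊓ Subgroup.centralizer (A : Set H) ≤ Subgroup.normalizer (X : Set H)) (hfac : ∀ a ∈ A, a ≠ 1 → ((K ⊓ Subgroup.centralizer {a} : Subgroup H) : Set H) = ((X ⊓ Subgroup.centralizer {a} : Subgroup H) : Set H) * ((Y ⊓ Subgroup.centralizer {a} : Subgroup H) : Set H)) : (K : Set H) = (X : Set H) * (Y : Set H) := by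
  have hp : p.Prime := Fact.out
  have hAab : IsMulCommutative A := abelian_iff_le_centralizer.2 (H43.ea_le_centralizer hA le_rfl)
  have hAs := solvable_of_abelian hAab
  have hc : (Nat.card A).Coprime (Nat.card K) := H43.ea_coprime hA hK
  symm
  rw [← mulEq_iff_coe]
  refine mulEq_of_card hX hY (le_of_eq ?_)
  refine Nat.eq_of_factorization_eq (Nat.mul_pos Nat.card_pos Nat.card_pos).ne'
    (Nat.mul_pos Nat.card_pos Nat.card_pos).ne' fun q => ?_
  by_cases hq : q.Prime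
  swap
  · simp [Nat.factorization_eq_zero_of_not_prime _ hq]
  haveI := Fact.mk hq
  have hAI : A ≤ 𝐍(X ⊓ Y) := le_normalizer_inf hAX hAY
  obtain ⟨R, hR, hAR⟩ := H2.exists_invariant_sylowIn hAI (coprimegS hc (inf_le_left.trans hX)) (Or.inl hAs) q
  obtain ⟨S, hS, hRS, hAS⟩ := H2.exists_invariant_sylowIn_ge hAY (coprimegS hc hY) (Or.inl hAs)
    (hR.le.trans inf_le_right) hR.isPGroup hAR
  obtain ⟨Q, hQ, hSQ, hAQ⟩ := H2.exists_invariant_sylowIn_ge hAK hc (Or.inl hAs)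
    (hS.le.trans hY) hS.isPGroup hAS
  have hQX := H2.sylowIn_inf_of_invariant hAK hc (Or.inl hAs) hQ hAQ hX hAX hCX
  have hRe : Q ⊓ X ⊓ S = R := hR.eq_of_le (pgroupS hS.isPGroup inf_le_right)
    (le_inf (le_inf (hRS.trans hSQ) (hR.le.trans inf_le_left)) hRS)
    (inf_le_inf inf_le_right hS.le)
  have hAQX : A ≤ 𝐍(Q ⊓ X) := le_normalizer_inf hAQ hAX
  have main : MulEq (Q ⊓ X) S Q := by
    refine nil_case hAab (H43.ea_not_isCyclic hA hA2) (pgroup_nil hQ.isPGroup) hAQ (coprimegS hc hQ.le)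
      inf_le_left hSQ fun a ha h1 c hcm => ?_
    have hz : zpowers a ≤ A := zpowers_le.2 ha
    have hzs : Group.IsSolvable (zpowers a) := solvableS hAs hz
    have aux : ∀ {P L : Subgroup H}, L ≤ K → A ≤ 𝐍(L) → A ≤ 𝐍(P) → H68.SylowIn q P L →
        Syl q (P ⊓ 𝐂[a]) (L ⊓ 𝐂[a]) := by
      intro P L hL hAL hAP hP
      have := H2.sylowIn_inf_centralizer (hz.trans hAL) (coprimeSg (coprimegS hc hL) hz) (Or.inl hzs) hP
        (hz.trans hAP)
      rw [H43.centralizer_zpowers] at this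
      exact syl_of_H68 this
    have e0 : MulEq (X ⊓ 𝐂[a]) (Y ⊓ 𝐂[a]) (K ⊓ 𝐂[a]) := mulEq_iff_coe.2 (hfac a ha h1).symm
    have e1 := syl_card (QI := R ⊓ 𝐂[a]) e0.card (aux le_rfl hAK hAQ hQ) (aux hX hAX hAQX hQX)
      (aux hY hAY hAS hS) (by
        rw [← inf_inf_distrib_right]; exact aux (inf_le_left.trans hX) hAI hAR hR)
    have e2 : MulEq (Q ⊓ X ⊓ 𝐂[a]) (S ⊓ 𝐂[a]) (Q ⊓ 𝐂[a]) :=
      mulEq_of_card (inf_le_inf_right _ inf_le_left) (inf_le_inf_right _ hSQ) (by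
        rw [← inf_inf_distrib_right, hRe]; exact e1.le)
    obtain ⟨x, hx, y, hy, e⟩ := e2.exists_mul hcm
    exact ⟨x, hx.1, y, hy.1, e⟩
  have e3 := main.card
  rw [hRe, (syl_of_H68 hQ).card_eq_pow_factorization, (syl_of_H68 hQX).card_eq_pow_factorization,
    (syl_of_H68 hS).card_eq_pow_factorization, (syl_of_H68 hR).card_eq_pow_factorization,
    ← pow_add, ← pow_add] at e3
  simp only [Nat.factorization_mul Nat.card_pos.ne' Nat.card_pos.ne', Finsupp.add_apply]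
  exact Nat.pow_right_injective hq.two_le e3

end Cfsg.Agent.S1287
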