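import Mathlib
import Cfsg.Agent.Base
import Cfsg.Agent.Lib.SigGen.Gen
import Cfsg.Agent.Lib.Sig.EA
import Cfsg.Statements.S1288

set_option autoImplicit false
open Cfsg

namespace Cfsg.Agent.S1288

open H45 H69 H79.SG Subgroup

/-- Let A be a noncyclic elementary abelian p-subgroup of a finite group H normalizing a solvable subgroup K of order prime to p, q a prime dividing |K|, and U ≤ K a subgroup of order prime to q such that ⁅U, C_K(B)⁆ has order prime to q for every subgroup B of index p in A. Then U ≤ O_{q'}(K). -/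
theorem result {H : Type*} [Group H] [Finite H] (p : ℕ) [Fact p.Prime] (A K : Subgroup H) (hA : Cfsg.IsElementaryAbelian p A) (hA2 : p ^ 2 ≤ Nat.card ↥A) (hK : ¬ p ∣ Nat.card ↥K) (hKs : Group.IsSolvable ↥K) (hAK : A ≤ Subgroup.normalizer (K : Set H)) (q : ℕ) [Fact q.Prime] (hqK : q ∣ Nat.card ↥K) (U : Subgroup H) (hU : U ≤ K) (hUq : ¬ q ∣ Nat.card ↥U) (hcomm : ∀ B : Subgroup H, B ≤ A → B.relIndex A = p → ¬ q ∣ Nat.card ↥⁅U, K ⊓ Subgroup.centralizer (B : Set H)⁆) : U ≤ (Cfsg.pPrimeCore q ↥K).map K.subtype := by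
  have hq : q.Prime := Fact.out
  rw [← pcore_compl_eq_pPrimeCore]
  set N := O[{q}ᶜ] K with hN
  have hNK : N ⊴ K := pcore_normal _ _
  have hAN : A ≤ 𝐍(N) := le_norm_pcore _ hAK
  set Q := qpre N (O[{q}] (K /ₙ N)) with hQ
  have hQK : Q ≤ K := qpre_le_of_le_quo hNK.le (pcore_sub _ _)
  have hKQ : K ≤ 𝐍(Q) := norm_quotient_pre hNK.norm (pcore_norm _ _)
  have hAQ : A ≤ 𝐍(Q) := norm_quotient_pre hAN (le_norm_pcore _ (quotient_norms _ hAK))
  have hQq : Q /ₙ N = O[{q}] (K /ₙ N) := cosetpreK _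
  have h1 : Q ≤ qpre N 𝐂(U /ₙ N) := by
    refine H43.le_of_forall_hyp hA (H43.ne_bot_of_pow_le two_ne_zero hA2) hAQ
      (fun h => hK (h.trans (Subgroup.card_dvd_of_le hQK))) fun B hB => ?_
    have hle : Q ⊓ 𝐂(B) ≤ K := inf_le_left.trans hQK
    rw [← sub_quotient_pre (hle.trans hNK.norm), centsC,
      quotient_cents2 (hU.trans hNK.norm) (hle.trans hNK.norm)]
    have h2 : ⁅U, Q ⊓ 𝐂(B)⁆ ≤ Q :=
      (commutator_mono le_rfl inf_le_left).trans (commutator_le_right_of_le_normalizer (hU.trans hKQ))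
    rw [← quotient_sub1 ((h2.trans hQK).trans hNK.norm)]
    have h3 : IsPi {q}ᶜ ⁅U, Q ⊓ 𝐂(B)⁆ :=
      ((isPi_compl_singleton_iff hq).2 (hcomm B hB.1 hB.2)).of_le
        (commutator_mono le_rfl (inf_le_inf_right _ hQK))
    refine IsPi.eq_bot (π := {q}) ?_ (quotient_pgroup _ h3)
    exact (pcore_pgroup {q} (K /ₙ N)).of_le (hQq ▸ quotientS _ h2)
  rw [← sub_quotient_pre (hQK.trans hNK.norm), hQq, centsC] at h1
  have h4 := cent_sub_pcore (p := q) (quotient_sol N hKs) (trivg_pcore_quotient _ K)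
  rw [← quotient_sub1 (hU.trans hNK.norm)]
  refine IsPi.eq_bot (π := {q}) ?_ (quotient_pgroup _ ((isPi_compl_singleton_iff hq).2 hUq))
  exact (pcore_pgroup {q} (K /ₙ N)).of_le ((le_inf (quotientS _ hU) h1).trans h4)

end Cfsg.Agent.S1288
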