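import Cfsg.Statements.S1289
import Mathlib
import Cfsg.Agent.Lib.PComp.Basic

set_option autoImplicit false
open Cfsg

namespace Cfsg.Agent.S1289

/-- A p-component K of the finite group X is subnormal, perfect, of order divisible by p, and minimal among the subnormal perfect subgroups of X of order divisible by p. -/
theorem result {X : Type*} [Group X] [Finite X] (p : ℕ) [Fact p.Prime] (K : Subgroup X) (hK : Cfsg.IsPComponent p K) : K.IsSubnormal ∧ ⁅K, K⁆ = K ∧ p ∣ Nat.card ↥K ∧ ∀ H : Subgroup X, H ≤ K → H.IsSubnormal → ⁅H, H⁆ = H → p ∣ Nat.card ↥H → H = K := by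
  obtain ⟨hs, hq⟩ := H44.isPComponent_iff.mp hK
  refine ⟨hs, hq.perfect, hq.dvd_card, fun H hle hH hp hd => ?_⟩
  refine (hq.eq_or_commutator_le (H44.SubnIn.of_isSubnormal hH hle)).resolve_right fun h => ?_
  have h1 : H ≤ H44.coreOf p K := by
    rw [← hp]
    exact (Subgroup.commutator_mono le_rfl hle).trans h
  exact (Nat.Prime.coprime_iff_not_dvd (Fact.out : p.Prime)).mp
    (H44.coprime_of_le_coreOf h1).symm hd

end Cfsg.Agent.S1289
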