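import Cfsg.Statements.S1298
import Mathlib
import Cfsg.Agent.Lib.PComp.Automizer

set_option autoImplicit false
open Cfsg

namespace Cfsg.Agent.S1298

/-- Let G be finite and k ≥ 1. Suppose that for every x of order p, writing C = C_G(x), every component K of C / O_{p'}(C) has K / Z(K) locally k-balanced for p. Then G is k-balanced for p. -/
theorem result {G : Type*} [Group G] [Finite G] (p k : ℕ) [Fact p.Prime] (hk : 1 ≤ k) (h : ∀ x : G, orderOf x = p → ∀ K : Subgroup (↥(Subgroup.centralizer ({x} : Set G)) ⧸ Cfsg.pPrimeCore p ↥(Subgroup.centralizer ({x} : Set G))), Cfsg.IsComponent K → Cfsg.IsLocallyKBalanced p k (↥K ⧸ Subgroup.center ↥K)) : Cfsg.IsKBalanced p k G := by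
  intro A hA hc b hb hab
  have hAH : A ≤ Subgroup.centralizer ({b} : Set G) := fun a ha =>
    Subgroup.mem_centralizer_singleton_iff.mpr (hab a ha)
  have h1 := H44.barIn_signalizerDelta_le hA hAH
  rw [H44.signalizerDelta_eq_bot (H44.pPrimeCore_quotient p) (H44.isElementaryAbelian_barIn hA _) hk
    ((H44.card_barIn_of_isPGroup (H24.EA.isPGroup hA) hAH).trans hc)
    (fun L => L ⧸ Subgroup.center L) (fun L hL =>
      ⟨⟨H44.autModelCenter (H23.IsComponent.commutator_self hL)⟩, h b hb L hL⟩), le_bot_iff,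
    H44.barIn_eq_bot_iff inf_le_right] at h1
  exact h1

end Cfsg.Agent.S1298
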