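import Cfsg.Statements.S1300
import Cfsg.Agent.Lib.Sig.Basic

set_option autoImplicit false
open Cfsg

namespace Cfsg.Agent.S1300

/-- For a finite group G, balance in the sense of commuting involutions is the same as 1-balance for the prime 2. -/
theorem result {G : Type*} [Group G] [Finite G] : Cfsg.IsBalanced G ↔ Cfsg.IsKBalanced 2 1 G := by
  have hord : ∀ (A : Subgroup G), Nat.card A = 2 → ∀ x ∈ A, x ≠ 1 → ∀ y ∈ A, y ≠ 1 → x = y := by
    intro A hA x hx hx1 y hy hy1
    obtain ⟨z, -, hz⟩ := (Nat.card_eq_two_iff' (1 : A)).mp hA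
    have h1 := hz ⟨x, hx⟩ (fun h => hx1 (congrArg Subtype.val h))
    have h2 := hz ⟨y, hy⟩ (fun h => hy1 (congrArg Subtype.val h))
    exact congrArg Subtype.val (h1.trans h2.symm)
  have hdelta : ∀ (A : Subgroup G), Nat.card A = 2 → ∀ x ∈ A, x ≠ 1 →
      signalizerDelta 2 A = centralizerPPrimeCore 2 x := by
    intro A hA x hx hx1
    apply le_antisymm
    · exact iInf_le (fun a : {a : G // a ∈ A ∧ a ≠ 1} => centralizerPPrimeCore 2 (a : G))
        ⟨x, hx, hx1⟩
    · exact le_iInf fun a => by rw [hord A hA x hx hx1 a.1 a.2.1 a.2.2]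
  constructor
  · intro h A hA hc b hb hcomm
    rw [pow_one] at hc
    obtain ⟨x, hx, hx1⟩ := H43.exists_mem_ne_one (B := A) (by rintro rfl; simp at hc)
    rw [hdelta A hc x hx hx1, h x b (H43.ea_orderOf hA hx hx1) hb (hcomm x hx)]
    exact inf_le_left
  · intro h
    have key : ∀ x y : G, orderOf x = 2 → orderOf y = 2 → x * y = y * x →
        centralizerPPrimeCore 2 x ⊓ Subgroup.centralizer {y} ≤
          centralizerPPrimeCore 2 y ⊓ Subgroup.centralizer {x} := by
      intro x y hx hy hxy
      have hc : Nat.card (Subgroup.zpowers x) = 2 := by rw [Nat.card_zpowers, hx]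
      have hx1 : x ≠ 1 := by rintro rfl; simp at hx
      have hea : IsElementaryAbelian 2 (Subgroup.zpowers x) := by
        refine ⟨inferInstance, fun a ha => ?_⟩
        rw [← hc]
        exact congrArg Subtype.val (pow_card_eq_one' (x := (⟨a, ha⟩ : Subgroup.zpowers x)))
      have h1 := h (Subgroup.zpowers x) hea (by simpa using hc) y hy (by
        rintro _ ⟨k, rfl⟩
        exact (Commute.zpow_left hxy k).eq)
      rw [hdelta _ hc x (Subgroup.mem_zpowers x) hx1] at h1
      exact le_inf h1 (inf_le_left.trans (Subgroup.map_subtype_le _))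
    intro x y hx hy hxy
    exact le_antisymm (key x y hx hy hxy) (key y x hy hx hxy.symm)

end Cfsg.Agent.S1300
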