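import Cfsg.Statements.S1303
import Mathlib
import Cfsg.Agent.Base
import Cfsg.Agent.Lib.Char.BurnsidePQ
import Cfsg.Agent.Lib.FrobC.SL23
import Cfsg.Agent.Lib.Comp.PConstrained

set_option autoImplicit false
open Cfsg

namespace Cfsg.Agent.S1303

open Subgroup

theorem a1 : ∀ x : H82.SL23, x ^ 4 = 1 ∨ ∃ g : H82.SL23, g * x * g⁻¹ * x⁻¹ ≠ 1 ∧ (g * x * g⁻¹ * x⁻¹) ^ 4 = 1 := by
  decide +kernel

theorem a2 : ∀ x : H82.SL23, x ^ 2 = 1 → ∀ g, g * x = x * g := by
  decide +kernel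

/-- The group X = SL(2, 3): it is 2-constrained, O_{2'}(X) = 1, its centre A = Z(X) contains every involution of X = C_X(A), and X has a subgroup of order 3 (normalized by A) not contained in O_{2'}(X). -/
theorem result : Cfsg.IsPConstrained 2 (Matrix.SpecialLinearGroup (Fin 2) (ZMod 3)) ∧ Cfsg.pPrimeCore 2 (Matrix.SpecialLinearGroup (Fin 2) (ZMod 3)) = ⊥ ∧ (∀ t : Matrix.SpecialLinearGroup (Fin 2) (ZMod 3), orderOf t = 2 → t ∈ Subgroup.center (Matrix.SpecialLinearGroup (Fin 2) (ZMod 3))) ∧ ∃ Q : Subgroup (Matrix.SpecialLinearGroup (Fin 2) (ZMod 3)), Nat.card ↥Q = 3 ∧ ¬ (Q ≤ Cfsg.pPrimeCore 2 (Matrix.SpecialLinearGroup (Fin 2) (ZMod 3))) := by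
  have hb : pPrimeCore 2 H82.SL23 = ⊥ := by
    have key : ∀ x ∈ pPrimeCore 2 H82.SL23, x ^ 4 = 1 → x = 1 := fun x hx h4 => by
      have h1 : (orderOf x).Coprime 2 := H1.coprime_card_pPrimeCore.coprime_dvd_left (orderOf_dvd_natCard _ hx)
      exact orderOf_eq_one_iff.1 (Nat.Coprime.eq_one_of_dvd (h1.pow_right 2) (orderOf_dvd_of_pow_eq_one h4))
    refine eq_bot_iff.2 fun x hx => ?_
    rcases a1 x with h | ⟨g, h1, h2⟩
    · exact key x hx h
    · exact absurd (key _ (mul_mem (Normal.conj_mem inferInstance x hx g) (inv_mem hx)) h2) h1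
  haveI : Group.IsSolvable H82.SL23 := H8.isSolvable_of_card_dvd (a := 3) (b := 1) Nat.prime_two Nat.prime_three
    (by rw [H82.card_SL23]; norm_num)
  refine ⟨H23.isPConstrained_of_isSolvable, hb, fun t ht => mem_center_iff.2
    (a2 t (by simpa only [ht] using pow_orderOf_eq_one t)), ?_⟩
  haveI : Fact (Nat.Prime 3) := ⟨Nat.prime_three⟩
  obtain ⟨x, hx⟩ := exists_prime_orderOf_dvd_card' (G := H82.SL23) 3 (by rw [H82.card_SL23]; norm_num)
  refine ⟨zpowers x, by rw [Nat.card_zpowers, hx], fun h => ?_⟩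
  rw [hb, zpowers_le, mem_bot] at h
  simp [h] at hx

end Cfsg.Agent.S1303
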