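import Mathlib
import Cfsg.Statements.S1304


set_option autoImplicit false
open Cfsg

namespace Cfsg.Agent.S1304

/-- Let X be a perfect group and α an automorphism of X with α(x) x⁻¹ central for every x. Then α is the identity. -/
theorem result {X : Type*} [Group X] (hperf : commutator X = ⊤) (α : X ≃* X) (h : ∀ x : X, α x * x⁻¹ ∈ Subgroup.center X) : ∀ x : X, α x = x := by
  have hmul : ∀ x y : X, α (x * y) * (x * y)⁻¹ = α x * x⁻¹ * (α y * y⁻¹) := by
    intro x y
    have h1 := Subgroup.mem_center_iff.mp (h y) x⁻¹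
    rw [map_mul, mul_inv_rev]
    calc α x * α y * (y⁻¹ * x⁻¹) = α x * (α y * y⁻¹ * x⁻¹) := by group
      _ = α x * (x⁻¹ * (α y * y⁻¹)) := by rw [h1]
      _ = α x * x⁻¹ * (α y * y⁻¹) := by group
  let f : X →* X := MonoidHom.mk' (fun x => α x * x⁻¹) hmul
  have hk : commutator X ≤ f.ker := by
    rw [commutator_def, Subgroup.commutator_le]
    intro x _ y _
    rw [MonoidHom.mem_ker, map_commutatorElement, commutatorElement_eq_one_iff_mul_comm]
    exact Subgroup.mem_center_iff.mp (h y) _
  intro x
  have h2 : f x = 1 := hk (hperf ▸ Subgroup.mem_top x)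
  exact mul_inv_eq_one.mp h2

end Cfsg.Agent.S1304
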