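import Mathlib
import Cfsg.Agent.Base
import Cfsg.Agent.Lib.PComp.Pumpup
import Cfsg.Agent.Lib.PComp.Terminal
import Cfsg.Agent.Lib.SigGen.Key
import Cfsg.Agent.Lib.ZStar.UniqueInvol
import Cfsg.Agent.S0215
import Cfsg.Statements.S1307

set_option autoImplicit false
open Cfsg

namespace Cfsg.Agent.S1307

open H45 H69 Subgroup

theorem uniqInv {L : Type*} [Group L] [Finite L] (hrk : PRankLE 2 1 L) (S : Sylow 2 L) :
    H41.UniqInv (S : Subgroup L) := by
  haveI : Fact (Nat.Prime 2) := ⟨Nat.prime_two⟩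
  have aux : ∀ u z : S, u * u = 1 → z * z = 1 → u ≠ 1 → z ≠ 1 → u * z = z * u → u = z := by
    intro u z hu hz hu1 hz1 hc
    by_contra hne
    have hc' : (u : L) * z = z * u := congrArg Subtype.val hc
    have hu' : (u : L) * u = 1 := congrArg Subtype.val hu
    have hz' : (z : L) * z = 1 := congrArg Subtype.val hz
    have hab : IsMulCommutative ↥(zpowers (u : L) ⊔ zpowers (z : L)) :=
      abelian_sup inferInstance inferInstance (by
        rw [zpowers_le, centralizer_zpowers]; exact mem_cent1_iff.2 hc'.symm)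
    have h2 := hrk _ hab (by
      intro a ha
      rw [mem_sup_of_le_normalizer_left (cents_norm (by
        rw [zpowers_le, centralizer_zpowers]; exact mem_cent1_iff.2 hc'.symm))] at ha
      obtain ⟨_, ⟨m, rfl⟩, _, ⟨n, rfl⟩, rfl⟩ := ha
      have hcm : Commute ((u : L) ^ m) ((z : L) ^ n) := (Commute.zpow_zpow hc' m n)
      simp only
      rw [hcm.mul_pow, ← zpow_natCast, ← zpow_natCast, ← zpow_mul, ← zpow_mul, mul_comm m, mul_comm n,
        zpow_mul, zpow_mul]
      simp [pow_two, hu', hz'])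
    have h3 : ({1, (u : L), (z : L)} : Set L).ncard ≤ Nat.card ↥(zpowers (u : L) ⊔ zpowers (z : L)) := by
      rw [← SetLike.coe_sort_coe, Nat.card_coe_set_eq]
      refine Set.ncard_le_ncard ?_
      rintro a (rfl | rfl | rfl)
      · exact one_mem _
      · exact (le_sup_left : zpowers (u : L) ≤ _) (mem_zpowers _)
      · exact (le_sup_right : zpowers (z : L) ≤ _) (mem_zpowers _)
    rw [Set.ncard_eq_three.2 ⟨1, (u : L), (z : L), fun h => hu1 (Subtype.ext h.symm),
      fun h => hz1 (Subtype.ext h.symm), fun h => hne (Subtype.ext h), rfl⟩] at h3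
    omega
  intro u v hu hv hu1 hv1
  haveI : Nontrivial (S : Subgroup L) := ⟨⟨u, 1, hu1⟩⟩
  haveI := S.isPGroup'.center_nontrivial
  obtain ⟨⟨z, hz⟩, hz2⟩ := exists_prime_orderOf_dvd_card' (G := Subgroup.center (S : Subgroup L)) 2
    (by
      obtain ⟨n, hn, e⟩ := (S.isPGroup'.to_subgroup (Subgroup.center _)).nontrivial_iff_card.1 inferInstance
      rw [e]; exact dvd_pow_self 2 hn.ne')
  rw [← Subgroup.orderOf_coe] at hz2
  simp only at hz2
  have hzz : z * z = 1 := by
    have := pow_orderOf_eq_one z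
    rwa [hz2, pow_two] at this
  have hz1 : z ≠ 1 := by rintro rfl; simp at hz2
  rw [aux u z hu hzz hu1 hz1 (mem_center_iff.1 hz u), aux v z hv hzz hv1 hz1 (mem_center_iff.1 hz v)]

/-- Let G be finite, x an involution and L ≤ C_G(x) a component of C_G(x) of even order and 2-rank 1, such that L is a component of C_G(y) for every involution y ∈ C_G(L). Then some involution of L is a classical involution of G. -/
theorem result {G : Type*} [Group G] [Finite G] (x : G) (hx : orderOf x = 2) (L : Subgroup G) (hLx : L ≤ Subgroup.centralizer ({x} : Set G)) (hL : Cfsg.IsComponent (L.subgroupOf (Subgroup.centralizer ({x} : Set G)))) (heven : Even (Nat.card ↥L)) (hrk : Cfsg.PRankLE 2 1 ↥L) (hne : ∀ y : G, orderOf y = 2 → y ∈ Subgroup.centralizer (L : Set G) → L ≤ Subgroup.centralizer ({y} : Set G) ∧ Cfsg.IsComponent (L.subgroupOf (Subgroup.centralizer ({y} : Set G)))) : ∃ t ∈ L, Cfsg.IsClassicalInvolution t := by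
  haveI : Fact (Nat.Prime 2) := ⟨Nat.prime_two⟩
  have hLc : IsComponentOf L 𝐂[x] := ⟨hLx, hL⟩
  have hq : IsQuasisimple L := H44.IsComponentOf.isQuasisimple hLc
  obtain ⟨S⟩ : Nonempty (Sylow 2 L) := inferInstance
  have hU := uniqInv hrk S
  have hS2 : 2 ∣ Nat.card S := S.dvd_card_of_dvd_card heven.two_dvd
  obtain ⟨u, hu⟩ := exists_prime_orderOf_dvd_card' (G := (S : Subgroup L)) 2 hS2
  have hu' : orderOf (u : L) = 2 := by rw [Subgroup.orderOf_coe, hu]
  have huu : u * u = 1 := by
    have := pow_orderOf_eq_one u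
    rwa [hu, pow_two] at this
  have hu1 : u ≠ 1 := by rintro rfl; simp at hu
  obtain ⟨N, hN, hNodd, hNc⟩ := Cfsg.Agent.S0215.result S (u : L) hu' u.2 (fun g hg => by
    have := hU ⟨_, hg⟩ u (Subtype.ext (by
      have : (u : L) * u = 1 := congrArg Subtype.val huu
      show g * u * g⁻¹ * (g * u * g⁻¹) = 1
      calc g * u * g⁻¹ * (g * u * g⁻¹) = g * ((u : L) * u) * g⁻¹ := by group
        _ = 1 := by rw [this]; group)) huu (fun h => hu1 (Subtype.ext (by
          have : g * u * g⁻¹ = 1 := congrArg Subtype.val h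
          simpa using this))) hu1
    exact congrArg Subtype.val this)
  have hcop : ¬ (Nat.card L).Coprime 2 := fun h => (Nat.coprime_two_right.1 h).not_two_dvd_nat heven.two_dvd
  have hpq : H44.PQuasi 2 L := H44.PQuasi.of_isQuasisimple hq hcop
  set t : G := ((u : L) : G) with ht
  have ht2 : orderOf t = 2 := by rw [ht, Subgroup.orderOf_coe, hu']
  have htc : t ∈ 𝐂(L) := by
    rw [← H44.cbar_eq_centralizer hpq hq, H44.mem_cbar_iff]
    intro k hk
    have := H44.le_pPrimeCore hN (Nat.coprime_two_right.2 hNodd) (hNc ⟨k, hk⟩)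
    exact H44.mem_coreOf_iff.2 this
  obtain ⟨h1, h2⟩ := hne t ht2 htc
  refine ⟨t, (u : L).2, ht2, L, h1, (u : L).2, h2.1, S, ?_⟩
  refine (hU.cyclic_or_quaternion S.isPGroup').resolve_left fun hc => ?_
  have hm : (Nat.card L).minFac = 2 := (Nat.minFac_eq_two_iff _).mpr heven.two_dvd
  have h3 := MonoidHom.not_dvd_card_ker_transferSylow S (hc.normalizer_le_centralizer hm)
  set f := MonoidHom.transferSylow S (hc.normalizer_le_centralizer hm)
  have h4 : f.ker = ⊤ := by
    rw [eq_top_iff, ← hq.1.commutator_eq_top]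
    letI : CommGroup (S : Subgroup L) := IsCyclic.commGroup
    exact Abelianization.commutator_subset_ker f
  rw [h4, Subgroup.card_top] at h3
  exact h3 heven.two_dvd

end Cfsg.Agent.S1307
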