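import Cfsg.Statements.S1314
import Mathlib
import Cfsg.Agent.Lib.PComp.Pumpup

set_option autoImplicit false
open Cfsg

namespace Cfsg.Agent.S1314

/-- Let x be an involution of a group G and L a perfect subgroup with ⁅L, x L x⁻¹⁆ = 1. Then l ↦ l (x l x⁻¹) is a group homomorphism π from L to G whose kernel is central in L and whose image lies in C_G(x); and the commutator subgroup of C_{L ⊔ xLx⁻¹}(x) equals the image of π. -/
theorem result {G : Type*} [Group G] [Finite G] (x : G) (hx : orderOf x = 2) (L : Subgroup G) (hperf : ⁅L, L⁆ = L) (hcomm : ⁅L, L.map (MulAut.conj x).toMonoidHom⁆ = ⊥) : ∃ π : ↥L →* G, (∀ l : ↥L, π l = (l : G) * (x * (l : G) * x⁻¹)) ∧ π.ker ≤ Subgroup.center ↥L ∧ π.range ≤ Subgroup.centralizer ({x} : Set G) ∧ ⁅(L ⊔ L.map (MulAut.conj x).toMonoidHom) ⊓ Subgroup.centralizer ({x} : Set G), (L ⊔ L.map (MulAut.conj x).toMonoidHom) ⊓ Subgroup.centralizer ({x} : Set G)⁆ = π.range := by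
  have hx2 : x ^ 2 = 1 := by rw [← hx]; exact pow_orderOf_eq_one x
  have h : ∀ i, 0 < i → i < 2 → ⁅L, H68.cj (x ^ i) L⁆ = ⊥ := fun i h0 hi => by
    obtain rfl : i = 1 := by omega
    rwa [pow_one]
  have hc : x ^ 2 ∈ Subgroup.centralizer (L : Set G) := by rw [hx2]; exact Subgroup.one_mem _
  refine ⟨H44.nrmHom h, fun l => H44.nrm_two x l, H44.nrmHom_ker_le two_pos h,
    (H44.nrmHom_range_le two_pos h hc).trans inf_le_right, ?_⟩
  rw [← H44.commutator_inf_centralizer_eq_range hperf two_pos h hc,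
    H44.orbitJoin_zpowers_two (Subgroup.centralizer_le_normalizer _ hc)]

end Cfsg.Agent.S1314
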