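import Mathlib
import Cfsg.Statements.S1316
import Cfsg.Agent.Lib.Comp.FStar
-- import your own Cfsg.Agent.* helpers here

set_option autoImplicit false
open Cfsg

namespace Cfsg.Agent.S1316

/-- For a finite group X, E(X) equals the intersection of the derived series of F*(X) (its last term). -/
theorem result {X : Type*} [Group X] [Finite X] : (⨅ n : ℕ, (derivedSeries ↥(Cfsg.generalizedFittingSubgroup X) n).map (Cfsg.generalizedFittingSubgroup X).subtype) = Cfsg.layer X := by
  apply le_antisymm
  · obtain ⟨n, hn⟩ := (H23.isSolvable_fitting (G := X)).solvable
    refine iInf_le_of_le n ?_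
    have key : ∀ m : ℕ, ((derivedSeries (generalizedFittingSubgroup X) m).map
        (generalizedFittingSubgroup X).subtype).map (QuotientGroup.mk' (layer X)) ≤
        ((derivedSeries (fittingSubgroup X) m).map
        (fittingSubgroup X).subtype).map (QuotientGroup.mk' (layer X)) := by
      intro m
      induction m with
      | zero =>
        simp only [derivedSeries_zero, ← MonoidHom.range_eq_map, Subgroup.range_subtype]
        rw [H23.fStar_def, Subgroup.map_sup,
          (Subgroup.map_eq_bot_iff _).mpr (QuotientGroup.ker_mk' _).ge, bot_sup_eq]
      | succ m ih =>
        simp only [derivedSeries_succ, Subgroup.map_commutator]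
        exact Subgroup.commutator_mono ih ih
    have := key n
    rw [hn, Subgroup.map_bot, Subgroup.map_bot, le_bot_iff, Subgroup.map_eq_bot_iff,
      QuotientGroup.ker_mk'] at this
    exact this
  · refine le_iInf fun n => ?_
    induction n with
    | zero =>
      rw [derivedSeries_zero, ← MonoidHom.range_eq_map, Subgroup.range_subtype]
      exact H23.layer_le_fStar
    | succ n ih =>
      rw [derivedSeries_succ, Subgroup.map_commutator, ← H23.commutator_layer_self]
      exact Subgroup.commutator_mono ih ih

end Cfsg.Agent.S1316
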