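import Mathlib
import Cfsg.Statements.S1319
import Cfsg.Agent.Lib.Comp.Component
-- import your own Cfsg.Agent.* helpers here

set_option autoImplicit false
open Cfsg

namespace Cfsg.Agent.S1319

/-- Let A be a subnormal subgroup of the finite group X with E(A) = A. Then A ≤ E(X) and A is normal in E(X). -/
theorem result {X : Type*} [Group X] [Finite X] (A : Subgroup X) (hsn : A.IsSubnormal) (hA : Cfsg.layer ↥A = ⊤) : A ≤ Cfsg.layer X ∧ (A.subgroupOf (Cfsg.layer X)).Normal := by
  refine ⟨?_, Subgroup.normal_subgroupOf_of_le_normalizer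
    (H23.layer_le_normalizer_of_isSubnormal hsn)⟩
  have := H23.map_layer_subtype_le_of_isSubnormal hsn
  rwa [hA, ← MonoidHom.range_eq_map, Subgroup.range_subtype] at this

end Cfsg.Agent.S1319
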