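import Cfsg.Statements.S1331
import Cfsg.Agent.Lib.Sig.Basic

set_option autoImplicit false
open Cfsg

namespace Cfsg.Agent.S1331

/-- Let θ be a solvable A-signalizer functor on the finite group G for the prime p, A elementary abelian of rank at least 3, X a member of the family of θ, and B ≤ A with |B| ≥ p². Then X is generated by the subgroups X ∩ ⋂_{d ∈ D, d ≠ 1} θ d, D ranging over the subgroups of index p in B. -/
theorem result {G : Type*} [Group G] [Finite G] (p : ℕ) [Fact p.Prime] (A : Subgroup G) (hA : Cfsg.IsElementaryAbelian p A) (hA3 : p ^ 3 ≤ Nat.card ↥A) (θ : G → Subgroup G) (hθ : Cfsg.IsSolvableSignalizerFunctor p A θ) (X : Subgroup G) (hX : X ∈ Cfsg.signalizerFamily p A θ) (B : Subgroup G) (hB : B ≤ A) (hB2 : p ^ 2 ≤ Nat.card ↥B) : X = ⨆ D : {D : Subgroup G // D ≤ B ∧ D.relIndex B = p}, X ⊓ Cfsg.signalizerInf (D : Subgroup G) θ := by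
  refine le_antisymm ?_ (iSup_le fun _ => inf_le_left)
  refine H43.fam_le_of_forall_hyp hA hB (H43.ne_bot_of_pow_le two_ne_zero hB2) hX fun D hD => ?_
  exact le_iSup (fun D : {D : Subgroup G // D ≤ B ∧ D.relIndex B = p} =>
    X ⊓ Cfsg.signalizerInf (D : Subgroup G) θ) ⟨D, hD⟩

end Cfsg.Agent.S1331
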