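import Cfsg.Statements.S1335
import Mathlib
import Cfsg.Agent.Base
import Cfsg.Agent.Lib.Functor.SPE2

set_option autoImplicit false
open Cfsg

namespace Cfsg.Agent.S1335

/-- Let H be a subgroup of the finite group G, p a prime, k ≥ 1, P a Sylow p-subgroup of H of p-rank at least k, and suppose N_G(X) ≤ H for every subgroup X ≤ P of p-rank at least k. Then P is a Sylow p-subgroup of G. -/
theorem result {G : Type*} [Group G] [Finite G] {p : ℕ} [Fact p.Prime] (k : ℕ) (hk : 1 ≤ k) (H : Subgroup G) (P : Sylow p ↥H) (hP : ¬ Cfsg.PRankLE p (k - 1) ↥(P : Subgroup ↥H)) (hΓ : (∀ X : Subgroup G, X ≤ (P : Subgroup ↥H).map H.subtype → ¬ Cfsg.PRankLE p (k - 1) ↥X → Subgroup.normalizer (X : Set G) ≤ H)) : ∃ Q : Sylow p G, (Q : Subgroup G) = (P : Subgroup ↥H).map H.subtype := by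
  open Subgroup H69 H59 in
  refine IsSylowIn.exists_sylow_top (isSylowIn_of_normalizer le_top
    ((isSylowIn_map_subtype P).mono (le_inf le_top le_normalizer) (inf_le_right.trans
      (hΓ _ le_rfl fun h => hP fun A hA hA' => ?_))))
  let e := (P : Subgroup H).equivMapOfInjective H.subtype H.subtype_injective
  have := h (A.map (e : _ →* _)) (by infer_instance) (by
    rintro _ ⟨a, ha, rfl⟩; rw [← map_pow, hA' a ha, map_one])
  rwa [card_map_of_injective e.injective] at this

end Cfsg.Agent.S1335
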