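import Cfsg.Statements.S1336
import Mathlib
import Cfsg.Agent.Base
import Cfsg.Agent.Lib.Functor.SPE2

set_option autoImplicit false
open Cfsg

namespace Cfsg.Agent.S1336

/-- Let G be finite and p prime. Then G has a proper subgroup H with p ∣ |H| and p ∤ |H ∩ gHg⁻¹| for every g ∉ H (a strongly p-embedded subgroup) if and only if G is not 1-connected for p. -/
theorem result {G : Type*} [Group G] [Finite G] (p : ℕ) [Fact p.Prime] : (∃ H : Subgroup G, H ≠ ⊤ ∧ p ∣ Nat.card ↥H ∧ ∀ g : G, g ∉ H → ¬ p ∣ Nat.card ↥(H ⊓ H.map (MulAut.conj g).toMonoidHom)) ↔ ¬ Cfsg.IsKConnected p 1 G := by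
  open Subgroup H69 H59 in
  have hp : p.Prime := Fact.out
  have hEA : ∀ {E : Subgroup G}, IsElementaryAbelian p E → IsPGroup p E := fun h =>
    isPGroup_iff_mem.2 fun x hx => ⟨1, by rw [pow_one, h.2 x hx]⟩
  have hne : ∀ {E : Subgroup G}, p ^ 1 ≤ Nat.card E → E ≠ ⊥ := fun h e => by
    rw [e, card_bot, pow_one] at h; exact hp.one_lt.not_ge h
  have hz : ∀ {z : G}, orderOf z = p → IsElementaryAbelian p (zpowers z) ∧
      p ^ 1 ≤ Nat.card (zpowers z) := fun {z} hz =>
    ⟨⟨inferInstance, by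
      rintro _ ⟨k, rfl⟩
      change (z ^ k) ^ p = 1
      rw [← zpow_natCast, ← zpow_mul, mul_comm, zpow_mul, zpow_natCast, ← hz, pow_orderOf_eq_one,
        one_zpow]⟩, by rw [pow_one, Nat.card_zpowers, hz]⟩
  refine (exists_congr fun H => H68.spe_iff_inter.symm).trans ⟨?_, fun h => ?_⟩
  · rintro ⟨M, hM⟩ hc
    obtain ⟨S, hS⟩ := H68.spe_exists_sylow_le hM
    obtain ⟨z, hzS, hzo⟩ := exists_orderOf_eq_prime S.isPGroup'
      ((isSylowIn_top S).dvd_card_iff.1 (by rw [card_top]; exact hM.1))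
    refine H68.spe_ne_top hM (eq_top_iff.2 fun g _ => ?_)
    have hzo' : orderOf (g * z * g⁻¹) = p := hzo ▸ (MulAut.conj g).orderOf_eq z
    have key : ∀ E', Relation.ReflTransGen (fun A B : Subgroup G => IsElementaryAbelian p A ∧
        p ^ 1 ≤ Nat.card ↥A ∧ IsElementaryAbelian p B ∧ p ^ 1 ≤ Nat.card ↥B ∧
        ∀ a ∈ A, ∀ b ∈ B, a * b = b * a) (zpowers z) E' → E' ≤ M := fun E' h => by
      induction h with
      | refl => exact zpowers_le.2 (hS hzS)
      | tail _ h ih =>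
        exact (le_normalizer_of_le_centralizer fun b hb => mem_centralizer_iff_commute.2
          fun a ha => h.2.2.2.2 a ha b hb).trans
          (H68.spe_normalizer_le hM ih (hEA h.1) (hne h.2.1))
    refine H68.spe_mem_of_conj_mem hM (hS hzS) (fun e => ?_) (k := 1)
      (by rw [pow_one, ← hzo, pow_orderOf_eq_one])
      (key _ (hc _ _ (hz hzo).1 (hz hzo).2 (hz hzo').1 (hz hzo').2) (mem_zpowers _))
    rw [e, orderOf_one] at hzo; exact hp.one_lt.ne hzo
  · refine exists_spe_of_not_chainConnected fun hc => h fun E E' h1 h2 h3 h4 => ?_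
    set r := fun A B : Subgroup G => IsElementaryAbelian p A ∧
        p ^ 1 ≤ Nat.card ↥A ∧ IsElementaryAbelian p B ∧ p ^ 1 ≤ Nat.card ↥B ∧
        ∀ a ∈ A, ∀ b ∈ B, a * b = b * a with hr
    have hin : ∀ (S : Sylow p G) (A B : Subgroup G), A ≤ S → B ≤ S → IsElementaryAbelian p A →
        p ^ 1 ≤ Nat.card A → IsElementaryAbelian p B → p ^ 1 ≤ Nat.card B →
        Relation.ReflTransGen r A B := fun S A B hA hB a1 a2 b1 b2 => by
      obtain ⟨z, hzS, hzo⟩ := exists_orderOf_eq_prime (S.isPGroup'.to_le inf_le_left)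
        (center_ne_bot S.isPGroup' fun e => hne a2 (eq_bot_iff.2 (e ▸ hA)))
      have hc : ∀ a ∈ (S : Subgroup G), ∀ b ∈ zpowers z, a * b = b * a := fun a ha b hb =>
        mem_centralizer_iff_commute.1 (zpowers_le.2 hzS.2 hb) a ha
      exact (Relation.ReflTransGen.single (b := zpowers z)
        ⟨a1, a2, (hz hzo).1, (hz hzo).2, fun a ha => hc a (hA ha)⟩).tail
        ⟨(hz hzo).1, (hz hzo).2, b1, b2, fun a ha b hb => (hc b (hB hb) a ha).symm⟩
    obtain ⟨S, hS⟩ := (hEA h1).exists_le_sylow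
    obtain ⟨T, hT⟩ := (hEA h3).exists_le_sylow
    obtain ⟨n, c, h0, hl, -, hc⟩ := hc S T
    have key : ∀ i, ∀ B ≤ (c i : Subgroup G), IsElementaryAbelian p B → p ^ 1 ≤ Nat.card B →
        Relation.ReflTransGen r E B := fun i => by
      refine Fin.induction (fun B hB b1 b2 => hin S E B hS (h0 ▸ hB) h1 h2 b1 b2)
        (fun i ih B hB b1 b2 => ?_) i
      obtain ⟨z, hzS, hzo⟩ := exists_orderOf_eq_prime
        ((c i.castSucc).isPGroup'.to_le inf_le_left) (hc i).2
      exact (ih _ (zpowers_le.2 hzS.1) (hz hzo).1 (hz hzo).2).trans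
        (hin _ _ _ (zpowers_le.2 hzS.2) hB (hz hzo).1 (hz hzo).2 b1 b2)
    exact key _ _ (hl ▸ hT) h3 h4

end Cfsg.Agent.S1336
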