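import Cfsg.Statements.S1337
import Mathlib
import Cfsg.Agent.Lib.CompW.NormU

set_option autoImplicit false
open Cfsg

namespace Cfsg.Agent.S1337

/-- Let P be a finite p-group of p-rank greater than 2. Then P has a normal elementary abelian subgroup U of order p², and for every elementary abelian X ≤ P with |X| ≥ p²: X is joined to U by a chain of pairwise commuting elementary abelian subgroups of order ≥ p² if and only if C_P(X) has p-rank greater than 2. -/
theorem result {P : Type*} [Group P] [Finite P] (p : ℕ) [Fact p.Prime] (hP : IsPGroup p P) (hrk : ¬ Cfsg.PRankLE p 2 P) : ∃ U : Subgroup P, U.Normal ∧ Cfsg.IsElementaryAbelian p U ∧ Nat.card ↥U = p ^ 2 ∧ ∀ X : Subgroup P, Cfsg.IsElementaryAbelian p X → p ^ 2 ≤ Nat.card ↥X → (Relation.ReflTransGen (fun A B : Subgroup P => Cfsg.IsElementaryAbelian p A ∧ p ^ 2 ≤ Nat.card ↥A ∧ Cfsg.IsElementaryAbelian p B ∧ p ^ 2 ≤ Nat.card ↥B ∧ ∀ a ∈ A, ∀ b ∈ B, a * b = b * a) X U ↔ ¬ Cfsg.PRankLE p 2 ↥(Subgroup.centralizer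 (X : Set P))) := by

  obtain ⟨A, hA⟩ := H3.CW.exists_eak_of_not_pRankLE_top hrk
  have hT : IsPGroup p (⊤ : Subgroup P) := hP.to_subgroup ⊤
  obtain ⟨U, hU⟩ := H3.CW.exists_nu hT hA le_top
  refine ⟨U, Subgroup.normalizer_eq_top_iff.1 (top_le_iff.1 hU.norm), hU.ea, hU.card, ?_⟩
  intro X hX hX2
  constructor
  · intro h
    apply H3.CW.Vtx.not_pRankLE_centralizer
    clear hX hX2
    induction h using Relation.ReflTransGen.head_induction_on with
    | refl =>
      obtain ⟨B, -, h2, h3⟩ := hU.exists_eak hT hA le_top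
      exact ⟨hU.eak, B, h2, h3⟩
    | @head X Y h1 _ ih =>
      by_cases e : X = Y
      · rw [e]; exact ih
      · exact H3.CW.vtx_of_commute_of_ne ⟨h1.1, h1.2.1⟩ ih.1 h1.2.2.2.2 e
  · intro h
    obtain ⟨E, hEX, hE⟩ := H3.CW.exists_eak_of_not_pRankLE h
    have h1 := hU.eak_inf hT hE le_top
    refine Relation.ReflTransGen.head (b := E ⊓ Subgroup.centralizer (U : Set P))
      ⟨hX, hX2, h1.1, h1.2, fun a ha b hb => Subgroup.mem_centralizer_iff.1 (hEX hb.1) a ha⟩ ?_
    exact Relation.ReflTransGen.single ⟨h1.1, h1.2, hU.ea, hU.card.ge,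
      fun a ha b hb => (Subgroup.mem_centralizer_iff.1 ha.2 b hb).symm⟩

end Cfsg.Agent.S1337
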