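import Mathlib
import Cfsg.Agent.Base
import Cfsg.Agent.S1337
import Cfsg.Agent.S0122
import Cfsg.Agent.Lib.CompW.NormU
import Cfsg.Agent.Lib.Thompson.Replacement
import Cfsg.Agent.Lib.BG5.Rank
import Cfsg.Agent.Lib.SigGen.Key
import Cfsg.Statements.S1338

set_option autoImplicit false
open Cfsg

namespace Cfsg.Agent.S1338

open Subgroup H3.CW H43
open scoped commutatorElement

theorem card_le_cube {G : Type*} [Group G] [Finite G] {A : Subgroup G} (hA : IsElementaryAbelian 3 A)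
    {x : G} (hx : x ∈ normalizer (A : Set G)) (hx3 : x ^ 3 = 1) :
    Nat.card A ≤ Nat.card (A ⊓ centralizer (zpowers x : Set G) : Subgroup G) ^ 3 := by
  have hc : ∀ a ∈ A, ∀ b ∈ A, a * b = b * a := fun a ha b hb => ea_comm hA ha hb
  have hzx : zpowers x ≤ normalizer (A : Set G) := zpowers_le.2 hx
  set A1 := ⁅A, zpowers x⁆ with hA1
  have hA1A : A1 ≤ A := H24.commutator_le_left_of_le_normalizer hzx
  have hA1c : IsMulCommutative A1 := (ea_of_le hA hA1A).1
  have hx1 : x ∈ normalizer (A1 : Set G) := by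
    have := H79.SG.right_norm_comm A (zpowers x)
    exact this (mem_zpowers x)
  have hq : ⁅⁅A1, zpowers x⁆, zpowers x⁆ = ⊥ := by
    have hA2A1 : ⁅A1, zpowers x⁆ ≤ A1 := H24.commutator_le_left_of_le_normalizer (zpowers_le.2 hx1)
    rw [commutator_eq_bot_iff_le_centralizer, H24.centralizer_zpowers]
    intro w hw
    obtain ⟨u, hu, rfl⟩ := (H24.mem_commutator_zpowers_iff hA1c hx1).1 hw
    obtain ⟨v, hv, rfl⟩ := (H24.mem_commutator_zpowers_iff hA.1 hx).1 hu
    rw [mem_centralizer_singleton_iff]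
    set v1 := x * v * x⁻¹ with hv1
    set v2 := x * v1 * x⁻¹ with hv2
    have h1 : v1 ∈ A := (mem_normalizer_iff.1 hx v).1 hv
    have h2 : v2 ∈ A := (mem_normalizer_iff.1 hx v1).1 h1
    have h3 : x * v2 * x⁻¹ = v := by
      have : x * v2 * x⁻¹ = x ^ 3 * v * (x ^ 3)⁻¹ := by
        rw [hv2, hv1]; simp only [pow_succ, pow_zero, one_mul]; group
      rw [this, hx3]; group
    have e1 : ⁅⁅v, x⁆, x⁆ = v * v1⁻¹ * v2 * v1⁻¹ := by
      rw [hv2, hv1]; simp only [commutatorElement_def]; group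
    have e2 : x * (v * v1⁻¹ * v2 * v1⁻¹) * x⁻¹ = v1 * v2⁻¹ * v * v2⁻¹ := by
      have : x * (v * v1⁻¹ * v2 * v1⁻¹) * x⁻¹ =
        (x * v * x⁻¹) * (x * v1 * x⁻¹)⁻¹ * (x * v2 * x⁻¹) * (x * v1 * x⁻¹)⁻¹ := by group
      rw [this, h3]
    rw [e1]
    have e3 : v1 * v2⁻¹ * v * v2⁻¹ = v * v1⁻¹ * v2 * v1⁻¹ := by
      have := hA.1
      let a : A := ⟨v, hv⟩
      let b : A := ⟨v1, h1⟩
      let c : A := ⟨v2, h2⟩
      have hb : b ^ 3 = 1 := Subtype.ext (hA.2 _ h1)
      have hc : c ^ 3 = 1 := Subtype.ext (hA.2 _ h2)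
      have : b * c⁻¹ * a * c⁻¹ = a * b⁻¹ * c * b⁻¹ := by
        letI : CommGroup A := { (inferInstance : Group A) with mul_comm := mul_comm' }
        calc b * c⁻¹ * a * c⁻¹ = a * b⁻¹ * c * b⁻¹ * b ^ 3 * (c ^ 3)⁻¹ := by
              simp only [pow_succ, pow_zero, one_mul, mul_inv_rev]
              simp only [mul_comm, mul_left_comm, mul_assoc, mul_inv_cancel_left]
          _ = _ := by rw [hb, hc]; simp
      exact congrArg Subtype.val this
    rw [e3] at e2
    exact (mul_inv_eq_iff_eq_mul.1 e2).symm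
  have h1 := H24.card_eq_card_centralizer_mul_card_commutator hA.1 hx
  have h2 := H24.card_le_sq_of_quadratic hA1c hx1 hq
  have h3 : Nat.card (A1 ⊓ centralizer (zpowers x : Set G) : Subgroup G) ≤
      Nat.card (A ⊓ centralizer (zpowers x : Set G) : Subgroup G) :=
    card_le_of_le (inf_le_inf_right _ hA1A)
  rw [h1, pow_succ']
  exact Nat.mul_le_mul_left _ (h2.trans (Nat.pow_le_pow_left h3 2))

/-- A finite 3-group of 3-rank at least 4 is 2-connected for the prime 3: its commuting graph on elementary abelian subgroups of order ≥ 9 is connected. -/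
theorem result {P : Type*} [Group P] [Finite P] (hP : IsPGroup 3 P) (hrk : ¬ Cfsg.PRankLE 3 3 P) : Cfsg.IsKConnected 3 2 P := by
  haveI : Fact (Nat.Prime 3) := ⟨Nat.prime_three⟩
  obtain ⟨E, hE⟩ := exists_eak_of_not_pRankLE_top hrk
  obtain ⟨U, -, -, -, hU⟩ := S1337.result 3 hP (not_pRankLE_top_of_eak (hE.mono (by norm_num)))
  obtain ⟨E', hE'E, hE'⟩ := Sylow.exists_subgroup_le_card_pow_prime_of_le_card Nat.prime_three hP hE.2
  obtain ⟨A, hAn, hA, hA4⟩ := S0122.result (p := 3) (by norm_num) hP E' (ea_of_le hE.1 hE'E) hE'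
  have key : ∀ X : Subgroup P, EAk 3 2 X → ¬ PRankLE 3 2 (centralizer (X : Set P)) := by
    intro X hX
    by_cases h3 : 3 ^ 3 ≤ Nat.card X
    · exact not_pRankLE_of_eak (k := 2) ⟨hX.1, h3⟩ (ea_le_centralizer hX.1 le_rfl)
    have hX9 : Nat.card X = 9 := by
      by_contra h
      exact h3 (pow_succ_le_card (ea_isPGroup hX.1) (lt_of_le_of_ne hX.2 (Ne.symm h)))
    have hA1 : A ≠ ⊥ := by
      rintro rfl
      simp at hA4
    obtain ⟨⟨z, hzA, hzc⟩, hz1⟩ := (Subgroup.ne_bot_iff_exists_ne_one.1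
      (H49.inf_centralizer_ne_bot_of_le_normalizer (W := ⊤) (hP.to_subgroup ⊤) (hP.to_subgroup A) hA1
        le_normalizer_of_normal))
    have hz1 : z ≠ 1 := fun h => hz1 (Subtype.ext h)
    have hzc' : ∀ g : P, g * z = z * g := fun g => mem_centralizer_iff.1 hzc g (by simp)
    have hz3 : z ^ 3 = 1 := hA.2 z hzA
    have sup : ∀ W : Subgroup P, IsElementaryAbelian 3 W → W ≤ centralizer (X : Set P) → ¬ W ≤ X →
        ¬ PRankLE 3 2 (centralizer (X : Set P)) := fun W hW hWX hn =>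
      not_pRankLE_of_eak (hX.sup_of_not_le hW
        (fun a ha b hb => mem_centralizer_iff.1 (hWX hb) a ha) hn)
        (sup_le (ea_le_centralizer hX.1 le_rfl) hWX)
    by_cases hzX : z ∈ X
    swap
    · exact sup _ (ea_zpowers hz3) (zpowers_le.2 (mem_centralizer_iff.2 fun g _ => hzc' g))
        (fun h => hzX (h (mem_zpowers z)))
    have hZ : EAk 3 1 (zpowers z) := ⟨ea_zpowers hz3, by
      rw [Nat.card_zpowers, ea_orderOf hA hzA hz1]; norm_num⟩
    have hZ3 : Nat.card (zpowers z) = 3 := by rw [Nat.card_zpowers, ea_orderOf hA hzA hz1]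
    obtain ⟨x, hxX, hxz⟩ : ∃ x ∈ X, x ∉ zpowers z := by
      by_contra h
      push Not at h
      have := card_le_of_le (show X ≤ zpowers z from h)
      omega
    have hx3 : x ^ 3 = 1 := hX.1.2 x hxX
    have hzx : zpowers z ⊔ zpowers x ≤ X := sup_le (zpowers_le.2 hzX) (zpowers_le.2 hxX)
    have h2 : EAk 3 2 (zpowers z ⊔ zpowers x) := hZ.sup_of_not_le (ea_zpowers hx3)
      (fun a ha b hb => ea_comm hX.1 (zpowers_le.2 hzX ha) (zpowers_le.2 hxX hb))
      (fun h => hxz (h (mem_zpowers x)))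
    have hXe : zpowers z ⊔ zpowers x = X := eq_of_le_of_card_ge hzx (by rw [hX9]; exact h2.2)
    set W := A ⊓ centralizer (zpowers x : Set P) with hW
    have hWX : W ≤ centralizer (X : Set P) := by
      rw [le_centralizer_iff, ← hXe]
      refine sup_le (zpowers_le.2 (mem_centralizer_iff.2 fun g _ => hzc' g)) ?_
      rw [← le_centralizer_iff]
      exact inf_le_right
    refine sup W (ea_of_le hA inf_le_left) hWX fun hle => ?_
    have hc := card_le_cube hA (x := x) (le_normalizer_of_normal (mem_top x)) hx3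
    rw [hA4, ← hW] at hc
    have hW9 : 3 ^ 2 ≤ Nat.card W := by
      apply pow_succ_le_card (hP.to_subgroup W)
      by_contra h
      have := Nat.pow_le_pow_left (not_lt.1 h) 3
      omega
    have hWe : W = X := eq_of_le_of_card_ge hle (by rw [hX9]; exact hW9)
    have hxA : x ∈ A := (hWe.ge hxX).1
    have : A ≤ W := le_inf le_rfl (ea_le_centralizer hA (zpowers_le.2 hxA))
    have := card_le_of_le (this.trans hle)
    omega
  intro X Y hX hX2 hY hY2
  refine ((hU X hX hX2).2 (key X ⟨hX, hX2⟩)).trans ?_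
  have := (hU Y hY hY2).2 (key Y ⟨hY, hY2⟩)
  clear hY hY2
  induction this using Relation.ReflTransGen.head_induction_on with
  | refl => exact Relation.ReflTransGen.refl
  | head h _ ih =>
    exact ih.tail ⟨h.2.2.1, h.2.2.2.1, h.1, h.2.1, fun a ha b hb => (h.2.2.2.2 b hb a ha).symm⟩

end Cfsg.Agent.S1338
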