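import Cfsg.Statements.S1343
import Mathlib
import Cfsg.Agent.Base
import Cfsg.Agent.Lib.Tech58.ExtLayer

set_option autoImplicit false
open Cfsg

namespace Cfsg.Agent.S1343

open Subgroup H68 H44

/-- Let X be finite. Then L*_{2'}(X) = L_{2'}(X) ⊔ F for some subgroup F of odd order normalized by a Sylow 2-subgroup of X. -/
theorem result {X : Type*} [Group X] [Finite X] : ∃ F : Subgroup X, Odd (Nat.card ↥F) ∧ (∃ S : Sylow 2 X, (S : Subgroup X) ≤ Subgroup.normalizer (F : Set X)) ∧ Cfsg.extendedTwoLayer X = Cfsg.pLayer 2 X ⊔ F := by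
  obtain ⟨T, hT⟩ := exists_sylowIn 2 (H58.extW X)
  obtain ⟨S, hS⟩ := hT.isPGroup.exists_le_sylow
  have hn : ∀ L : Subgroup X, L ≤ normalizer (oddCore X : Set X) := fun L => by
    rw [normalizer_eq_top]; exact le_top
  refine ⟨coreOf 2 (centralizer (T : Set X)) ⊔ oddCore X, ?_, ⟨S, ?_⟩, ?_⟩
  · exact Nat.coprime_two_right.1 (coprime_card_sup (hn _) (coprime_card_coreOf _ _)
      (coprime_card_pPrimeCore _ _))
  · have h1 : (S : Subgroup X) ⊓ H58.extW X = T :=
      hT.eq_of_le (S.isPGroup'.to_le inf_le_left) (le_inf hS hT.le) inf_le_right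
    have h2 : (S : Subgroup X) ≤ normalizer (T : Set X) := by
      rw [← h1]
      refine le_trans ?_ inf_normalizer_le_normalizer_inf
      exact le_inf le_normalizer (by rw [normalizer_eq_top]; exact le_top)
    intro g hg
    rw [mem_normalizer_iff_cj, cj_sup, cj_eq_of_normal g (oddCore X),
      cj_eq_of_mem_normalizer (H58.normalizer_le_normalizer_coreOf_centralizer T (h2 hg))]
  · rw [H58.extendedTwoLayer_eq hT, sup_assoc, sup_comm (oddCore X)]

end Cfsg.Agent.S1343
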