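import Mathlib
import Cfsg.Agent.Base
import Cfsg.Agent.Lib.BlkSL.Basic
import Cfsg.Agent.Lib.Core.CoprimeBasic
import Cfsg.Statements.S1348

set_option autoImplicit false
open Cfsg

namespace Cfsg.Agent.S1348

open Matrix H63.Emb H79.BS Subgroup

/-- Let F be a finite field of odd order, n ≥ 7 odd, and t ∈ SL(n, F) the diagonal matrix with entries −1, …, −1, 1. Then E(C(t)) is a standard subgroup of SL(n, F). -/
theorem result {F : Type*} [Field F] [Fintype F] [DecidableEq F] (hF : Odd (Fintype.card F)) (n : ℕ) (hn : 7 ≤ n) (hodd : Odd n) (t : Matrix.SpecialLinearGroup (Fin n) F) (ht : (t : Matrix (Fin n) (Fin n) F) = Matrix.diagonal (fun i : Fin n => if (i : ℕ) + 1 = n then (1 : F) else -1)) : Cfsg.IsStandardSubgroup ((Cfsg.layer ↥(Subgroup.centralizer ({t} : Set (Matrix.SpecialLinearGroup (Fin n) F)))).map (Subgroup.centralizer ({t} : Set (Matrix.SpecialLinearGroup (Fin n) F))).subtype) := by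
  obtain ⟨m, rfl⟩ : ∃ m, n = m + 1 := ⟨n - 1, by omega⟩
  have h2 := two_ne_zero_of_odd hF
  have hm : Even m := by simpa [Nat.odd_add_one] using hodd
  have hq : IsQuasisimple (SpecialLinearGroup (Fin m) F) :=
    isQuasisimple_SL m (by omega) fun h => by omega
  let S : Setup (F := F) (lastSplit m) (SpecialLinearGroup (Fin (m + 1)) F) :=
    { ρ := SpecialLinearGroup.coeMonoidHom
      inj := Subtype.val_injective
      ψ := slBlock (lastSplit m)
      comp := fun _ => rfl
      t := t
      ht := by
        refine ht.trans ?_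
        congr 1
        ext i
        simp only [dg, lastSplit_inr, Fin.ext_iff, Fin.val_last, add_left_inj]
      two := h2 }
  haveI : Nontrivial (Fin m) := Fin.nontrivial_iff_two_le.2 (by omega)
  have hL := S.layer_eq hq
  change IsStandardSubgroup ((layer (centralizer ({S.t} : Set (SpecialLinearGroup (Fin (m + 1)) F)))).map (centralizer ({S.t} : Set (SpecialLinearGroup (Fin (m + 1)) F))).subtype)
  rw [hL]
  set L := S.ψ.range with hLd
  have hLq : IsQuasisimple L := S.isQuasisimple hq
  have hab : ∀ x ∈ centralizer (L : Set (SpecialLinearGroup (Fin (m + 1)) F)), ∀ y ∈ centralizer (L : Set (SpecialLinearGroup (Fin (m + 1)) F)), x * y = y * x := by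
    intro x hx y hy
    obtain ⟨a, b, h⟩ := S.exists_of_mem_centralizer hx
    obtain ⟨c, d, h'⟩ := S.exists_of_mem_centralizer hy
    apply S.inj
    rw [map_mul, map_mul, h, h', diagonal_mul_diagonal, diagonal_mul_diagonal]
    simp only [mul_comm]
  have huniq : ∀ x ∈ centralizer (L : Set (SpecialLinearGroup (Fin (m + 1)) F)), orderOf x = 2 → x = S.t := by
    intro x hx ho
    obtain ⟨a, b, h⟩ := S.exists_of_mem_centralizer hx
    have hsq : S.ρ x * S.ρ x = 1 := by rw [← map_mul, ← pow_two, ← ho, pow_orderOf_eq_one, map_one]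
    obtain ⟨i⟩ : Nonempty (Fin m) := inferInstance
    have hi := inl_ne (lastSplit m) i
    have ha : a * a = 1 := by
      have := congrFun (congrFun hsq (lastSplit m (Sum.inl i))) (lastSplit m (Sum.inl i))
      rwa [h, diagonal_mul_diagonal, diagonal_apply_eq, if_neg hi, one_apply_eq] at this
    have hdet : (S.ρ x).det = 1 := x.det_coe
    rw [h, det_diagonal, Fin.prod_univ_castSucc, lastSplit_inr, if_pos rfl] at hdet
    simp only [Fin.castSucc_ne_last, if_false, Finset.prod_const, Finset.card_univ,
      Fintype.card_fin] at hdet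
    obtain ⟨k, hk⟩ := hm
    have hak : a ^ m = 1 := by rw [hk, pow_add, ← mul_pow, ha, one_pow]
    rw [hak, one_mul] at hdet
    rcases mul_self_eq_one_iff.1 ha with rfl | rfl
    · exfalso
      have : x = 1 := by
        apply S.inj
        rw [h, hdet, map_one, ← diagonal_one]
        simp
      rw [this] at ho
      simp at ho
    · apply S.inj
      rw [h, hdet, S.ht]
      rfl
  have htK : S.t ∈ centralizer (L : Set (SpecialLinearGroup (Fin (m + 1)) F)) := by
    have := le_centralizer_iff.1 (show L ≤ centralizer (zpowers S.t : Set (SpecialLinearGroup (Fin (m + 1)) F)) by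
      rw [zpowers_eq_closure, centralizer_closure]; exact S.range_le)
    exact this (mem_zpowers _)
  have h1 : centralizer ({S.t} : Set (SpecialLinearGroup (Fin (m + 1)) F)) ≤ normalizer (L : Set (SpecialLinearGroup (Fin (m + 1)) F)) :=
    (normal_subgroupOf_iff_le_normalizer S.range_le).1 S.normal
  have h3 : normalizer (L : Set (SpecialLinearGroup (Fin (m + 1)) F)) ≤ normalizer (centralizer (L : Set (SpecialLinearGroup (Fin (m + 1)) F)) : Set (SpecialLinearGroup (Fin (m + 1)) F)) :=
    H2.le_normalizer_centralizer le_rfl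
  have hconj : ∀ (g x : SpecialLinearGroup (Fin (m + 1)) F), orderOf (g * x * g⁻¹) = orderOf x :=
    fun g x => (MulAut.conj g).orderOf_eq x
  refine ⟨hLq, ⟨?_, fun g hg => ?_⟩, fun g _ h => ?_, le_antisymm h3 fun g hg => h1 ?_⟩
  · rw [even_iff_two_dvd, ← S.orderOf_t]
    exact Subgroup.orderOf_dvd_natCard _ htK
  · rw [← Nat.not_even_iff_odd, even_iff_two_dvd]
    intro hev
    obtain ⟨⟨x, hx, y, hy, rfl⟩, ho⟩ := exists_prime_orderOf_dvd_card' 2 hev
    have ho : orderOf (g * y * g⁻¹) = 2 := by rw [← ho, ← Subgroup.orderOf_coe]; rfl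
    have e1 := huniq _ hx ho
    have e2 := huniq _ hy (by rwa [hconj] at ho)
    refine hg (h3 (h1 (mem_centralizer_singleton_iff.2 ?_)))
    rw [e2] at e1
    exact mul_inv_eq_iff_eq_mul.1 e1
  · rw [Subgroup.commutator_comm, commutator_eq_bot_iff_le_centralizer] at h
    have hq' := (H23.isQuasisimple_map_iff (f := (MulAut.conj g).toMonoidHom) (MulAut.conj g).injective L).2 hLq
    exact H23.IsQuasisimple.not_le_centralizer hq'
      fun x hx => mem_centralizer_iff.2 fun y hy => hab y (h hy) x (h hx)
  · rw [mem_centralizer_singleton_iff]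
    have := huniq _ ((mem_normalizer_iff.1 hg _).1 htK) (by rw [hconj, S.orderOf_t])
    exact mul_inv_eq_iff_eq_mul.1 this

end Cfsg.Agent.S1348
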