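import Cfsg.Statements.S1351
import Cfsg.Agent.Lib.BG.T15_1

set_option autoImplicit false
open Cfsg H69 H45 H45.BG Subgroup

namespace Cfsg.Agent.S1351

/-- Let G be a minimal simple group of odd order and M a maximal subgroup. Then M possesses a Hall κ(M)-subgroup, and every Hall κ(M)-subgroup of M is cyclic. -/
theorem result {G : Type*} [Group G] [Finite G] (hG : Cfsg.IsMinSimpleOddOrder G)
    (M : Subgroup G) (hM : IsCoatom M) :
    (∃ K : Subgroup G, Cfsg.IsPiHallOf (Cfsg.kappa M) K M) ∧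
      ∀ K : Subgroup G, Cfsg.IsPiHallOf (Cfsg.kappa M) K M → IsCyclic K := by
  have : Fact (IsMinSimpleOddOrder G) := ⟨hG⟩
  refine ⟨Hall_exists _ (mmax_sol hM), fun K hK => ?_⟩
  obtain ⟨U, K', h, hle⟩ := ex_kappa_compl hM hK.1 (Hall.isPi hK)
  exact cyclicS (kappa_structure hM h).1.2.2.1 hle

end Cfsg.Agent.S1351
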