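import Cfsg.Statements.S1354
import Cfsg.Agent.Lib.BG50.AE

set_option autoImplicit false
open Cfsg H69 H45 H45.BG Subgroup

namespace Cfsg.Agent.S1354

/-- Let G be a minimal simple group of odd order, M a maximal subgroup and K a cyclic Hall κ(M)-subgroup of M, and put K* = M_σ ∩ C_G(K). Then K* ≠ 1, and if K ≠ 1 then for every non-identity k ∈ K the centralizer C_M(k) is the subgroup generated by K and K* (an internal direct product, as K ∩ M_σ = 1 and K* centralizes K). -/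
theorem result {G : Type*} [Group G] [Finite G] (hG : Cfsg.IsMinSimpleOddOrder G)
    (M : Subgroup G) (hM : IsCoatom M) (K : Subgroup G)
    (hKc : IsCyclic K) (hK : Cfsg.IsPiHallOf (Cfsg.kappa M) K M) :
    Cfsg.sigmaCore M ⊓ Subgroup.centralizer (K : Set G) ≠ ⊥ ∧
      (K ≠ ⊥ → ∀ k ∈ K, k ≠ 1 →
        M ⊓ Subgroup.centralizer ({k} : Set G) = K ⊔ (Cfsg.sigmaCore M ⊓ Subgroup.centralizer (K : Set G))) := by
  have : Fact (IsMinSimpleOddOrder G) := ⟨hG⟩
  by_cases hK1 : K = ⊥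
  · refine ⟨?_, fun h => (h hK1).elim⟩
    rw [hK1, H69.centralizer_bot, inf_top_eq]
    exact Msigma_neq1 hM
  · have hP := H50.AE.MP_of_ne_bot hM hK hK1
    obtain ⟨-, ⟨hD, hX⟩, ⟨h1, -⟩, -⟩ := Ptype_structure hP hK
    refine ⟨h1, fun _ k hk hk1 => le_antisymm ?_ ?_⟩
    · obtain ⟨X, hX1, hX2, hX3⟩ := exists_prime_order_mem_zpowers hk1
      rw [hD.sup_eq, ← (hX X ⟨hX1.trans ((zpowers_le).2 hk), hX2⟩).1]
      exact inf_le_inf_left _ (hX3.trans (cents_norm le_rfl))
    · refine sup_le (le_inf hK.1 ?_) (inf_le_inf (Msigma_le M) (cent_le_cent1 hk))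
      exact (abelian_iff_le_centralizer.1 (cyclic_abelian hKc)).trans (cent_le_cent1 hk)

end Cfsg.Agent.S1354
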