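import Cfsg.Statements.S1355
import Cfsg.Agent.Lib.BG.T15_5
import Cfsg.Agent.Lib.BG.T15_2

set_option autoImplicit false
open Cfsg H69 H45 H45.BG Subgroup

namespace Cfsg.Agent.S1355

/-- Let G be a minimal simple group of odd order and M a maximal subgroup. Then the largest normal nilpotent Hall subgroup M_F of M is nontrivial and contained in M_σ, M_σ is contained in the derived subgroup M', M' is proper in M, and the image of M' in M/M_F is nilpotent. -/
theorem result {G : Type*} [Group G] [Finite G] (hG : Cfsg.IsMinSimpleOddOrder G)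
    (M : Subgroup G) (hM : IsCoatom M) :
    Cfsg.fittingHallOf M ≠ ⊥ ∧ Cfsg.fittingHallOf M ≤ Cfsg.sigmaCore M ∧ Cfsg.sigmaCore M ≤ ⁅M, M⁆ ∧ ⁅M, M⁆ < M ∧
      Group.IsNilpotent ↥((commutator ↥M).map (QuotientGroup.mk' (Cfsg.fittingHall ↥M))) := by
  have : Fact (IsMinSimpleOddOrder G) := ⟨hG⟩
  refine ⟨(Fcore_structure_a hM).1, Fcore_sub_Msigma hM, Msigma_der1 hM, (Fcore_structure_a hM).2, ?_⟩
  have h1 := (Fitting_structure hM).2.2.1.2
  have hk : kerOf (QuotientGroup.mk' (fittingHall M)) = fittingHallOf M := by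
    unfold kerOf fittingHallOf
    rw [QuotientGroup.ker_mk']
  obtain ⟨e⟩ := isog_of_ker_eq (f := coset (fittingHallOf M)) (QuotientGroup.mk' (fittingHall M))
    ((der_le M).trans (Fcore_norm M)) (der_le M) (by rw [ker_coset, hk])
  have h2 : im (QuotientGroup.mk' (fittingHall M)) ⁅M, M⁆ =
      (commutator M).map (QuotientGroup.mk' (fittingHall M)) := by
    unfold im
    rw [← H45.map_subtype_commutator, subgroupOf_map_subtype']
  rw [← h2]
  exact nilpotent_of_mulEquiv e

end Cfsg.Agent.S1355
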