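import Cfsg.Statements.S1356
import Cfsg.Agent.Lib.BG.T15_5

set_option autoImplicit false
open Cfsg H69 H45 H45.BG Subgroup

namespace Cfsg.Agent.S1356

/-- Let G be a minimal simple group of odd order and M a maximal subgroup. Then the second derived subgroup M'' lies in the Fitting subgroup F(M), F(M) is generated by M_F together with C_M(M_F), and if κ(M) is nonempty then F(M) ≤ M'. -/
theorem result {G : Type*} [Group G] [Finite G] (hG : Cfsg.IsMinSimpleOddOrder G)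
    (M : Subgroup G) (hM : IsCoatom M) :
    ⁅⁅M, M⁆, ⁅M, M⁆⁆ ≤ Cfsg.fittingOf M ∧
      Cfsg.fittingOf M = (M ⊓ Subgroup.centralizer (Cfsg.fittingHallOf M : Set G)) ⊔ Cfsg.fittingHallOf M ∧
      ((Cfsg.kappa M).Nonempty → Cfsg.fittingOf M ≤ ⁅M, M⁆) := by
  have : Fact (IsMinSimpleOddOrder G) := ⟨hG⟩
  obtain ⟨-, ⟨h1, h2, -⟩, -, h3⟩ := Fitting_structure hM
  exact ⟨h1, by rw [sup_comm]; exact h2.symm, fun h => h3 ⟨hM, h⟩⟩

end Cfsg.Agent.S1356
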