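import Cfsg.Statements.S1358
import Cfsg.Agent.Lib.BG.T16_3

set_option autoImplicit false
open Cfsg H69 H45 H45.BG Subgroup

namespace Cfsg.Agent.S1358

/-- Let G be a minimal simple group of odd order and M a maximal subgroup with standard factorisation M = K U M_σ. Then for every prime p, every Sylow p-subgroup of U is abelian and has no elementary abelian subgroup of order p ^ 3. -/
theorem result {G : Type*} [Group G] [Finite G] (hG : Cfsg.IsMinSimpleOddOrder G)
    (M : Subgroup G) (hM : IsCoatom M) (K U : Subgroup G) (hKU : Cfsg.IsSigmaDecomposition M K U) :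
    ∀ (p : ℕ), p.Prime → ∀ P : Sylow p U, IsMulCommutative (P : Subgroup U) ∧ Cfsg.PRankLE p 2 (P : Subgroup U) := by
  have : Fact (IsMinSimpleOddOrder G) := ⟨hG⟩
  have h := (sigmaDecomposition_iff hM).1 hKU
  intro p hp P
  have hU : IsPi (sigma M)ᶜ U := (isPi_compl_union_iff.1 h.1.isPi).1
  have hle : (P : Subgroup U).map U.subtype ≤ U := map_subtype_le _
  obtain ⟨h1, h2⟩ := s16_sigma'_pgroup hM (hle.trans h.1.le) (hU.of_le hle) hp
    (isPGroup_map_subtype_iff.2 P.isPGroup')
  let e := Subgroup.equivMapOfInjective (P : Subgroup U) U.subtype U.subtype_injective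
  refine ⟨⟨⟨fun a b => e.injective ?_⟩⟩, fun A hA hAp => ?_⟩
  · rw [map_mul, map_mul]; exact h1.is_comm.comm _ _
  · rw [← Subgroup.card_map_of_injective (f := e.toMonoidHom) e.injective]
    refine h2 _ (by infer_instance) ?_
    rintro _ ⟨a, ha, rfl⟩
    rw [← map_pow, hAp a ha, map_one]

end Cfsg.Agent.S1358
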