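import Cfsg.Statements.S1359
import Cfsg.Agent.Lib.BG.T16_0

set_option autoImplicit false
open Cfsg H69 H45 H45.BG Subgroup

namespace Cfsg.Agent.S1359

/-- Let G be a minimal simple group of odd order and M a maximal subgroup with standard factorisation M = K U M_σ. Then the subgroup generated by those elements of U which centralize some non-identity element of M_σ is abelian. -/
theorem result {G : Type*} [Group G] [Finite G] (hG : Cfsg.IsMinSimpleOddOrder G)
    (M : Subgroup G) (hM : IsCoatom M) (K U : Subgroup G) (hKU : Cfsg.IsSigmaDecomposition M K U) :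
    IsMulCommutative (Subgroup.closure ((U : Set G) ∩ Cfsg.sigmaHat M)) := by
  have : Fact (IsMinSimpleOddOrder G) := ⟨hG⟩
  have h := (sigmaDecomposition_iff hM).1 hKU
  refine abelianS (kappa_structure hM h).2.2.2.1 ((closure_le _).2 ?_)
  rintro a ⟨ha, -, y, hy, hy1, hc⟩
  have h1 : U ⊓ 𝐂[y] ≤ ⨆ x ∈ sharp (sigmaCore M), U ⊓ 𝐂[x] :=
    le_iSup₂_of_le (f := fun x (_ : x ∈ sharp (sigmaCore M)) => U ⊓ 𝐂[x]) y ⟨hy, hy1⟩ le_rfl
  exact h1 ⟨ha, mem_cent1_iff.2 hc⟩

end Cfsg.Agent.S1359
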