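import Cfsg.Statements.S1360
import Cfsg.Agent.Lib.BG.T16_0

set_option autoImplicit false
open Cfsg H69 H45 H45.BG Subgroup

namespace Cfsg.Agent.S1360

/-- Let G be a minimal simple group of odd order and M a maximal subgroup with standard factorisation M = K U M_σ. Then U contains a subgroup U₀ with the same exponent as U such that no non-identity element of U₀ centralizes a non-identity element of M_σ. -/
theorem result {G : Type*} [Group G] [Finite G] (hG : Cfsg.IsMinSimpleOddOrder G)
    (M : Subgroup G) (hM : IsCoatom M) (K U : Subgroup G) (hKU : Cfsg.IsSigmaDecomposition M K U) :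
    ∃ U₀ : Subgroup G, U₀ ≤ U ∧ Monoid.exponent U₀ = Monoid.exponent U ∧ ∀ u ∈ U₀, u ∈ Cfsg.sigmaHat M → u = 1 := by
  have : Fact (IsMinSimpleOddOrder G) := ⟨hG⟩
  have h := (sigmaDecomposition_iff hM).1 hKU
  obtain ⟨U₀, h1, h2, h3⟩ := (kappa_structure hM h).2.2.2.2
  refine ⟨U₀, h1, h2, fun u hu hh => ?_⟩
  obtain ⟨-, y, hy, hy1, hc⟩ := hh
  by_contra hu1
  exact hy1 (h3.eq_one hu hu1 hy hc.symm)

end Cfsg.Agent.S1360
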