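import Cfsg.Statements.S1361
import Cfsg.Agent.Lib.BG.T16_0

set_option autoImplicit false
open Cfsg H69 H45 H45.BG Subgroup

namespace Cfsg.Agent.S1361

/-- Let G be a minimal simple group of odd order and M a maximal subgroup with standard factorisation M = K U M_σ. If X is a nontrivial subgroup of U centralizing some non-identity element of M_σ, then C_G(X) ≤ M and M is the unique maximal subgroup of G containing C_G(X). -/
theorem result {G : Type*} [Group G] [Finite G] (hG : Cfsg.IsMinSimpleOddOrder G)
    (M : Subgroup G) (hM : IsCoatom M) (K U : Subgroup G) (hKU : Cfsg.IsSigmaDecomposition M K U) (X : Subgroup G) (hXU : X ≤ U) (hX : X ≠ ⊥)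
    (hXc : Cfsg.sigmaCore M ⊓ Subgroup.centralizer (X : Set G) ≠ ⊥) :
    Subgroup.centralizer (X : Set G) ≤ M ∧ ∀ L : Subgroup G, IsCoatom L → Subgroup.centralizer (X : Set G) ≤ L → L = M := by
  have : Fact (IsMinSimpleOddOrder G) := ⟨hG⟩
  have h := (sigmaDecomposition_iff hM).1 hKU
  exact (uniqMax_iff.1 ((kappa_structure hM h).2.2.1 X hXU hX hXc).1).2

end Cfsg.Agent.S1361
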