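import Cfsg.Statements.S1362
import Cfsg.Agent.Lib.BG.T16_3
import Cfsg.Agent.Lib.BG50.AE

set_option autoImplicit false
open Cfsg H69 H45 H45.BG Subgroup

namespace Cfsg.Agent.S1362

/-- Let G be a minimal simple group of odd order and M a maximal subgroup with standard factorisation M = K U M_σ, and let A(M) be the set of elements of U M_σ centralizing some non-identity element of M_σ. Then A(M) with M_σ removed is a TI-subset of G. -/
theorem result {G : Type*} [Group G] [Finite G] (hG : Cfsg.IsMinSimpleOddOrder G)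
    (M : Subgroup G) (hM : IsCoatom M) (K U : Subgroup G) (hKU : Cfsg.IsSigmaDecomposition M K U) :
    Cfsg.IsTISubset (Cfsg.sigmaA M U \ (Cfsg.sigmaCore M : Set G)) := by
  have : Fact (IsMinSimpleOddOrder G) := ⟨hG⟩
  have h := (sigmaDecomposition_iff hM).1 hKU
  have e : sigmaA M U \ (sigmaCore M : Set G) = H51.typeA M \ typeA1 M := by
    ext x
    rw [Set.mem_diff, Set.mem_diff, s16_mem_typeA hM, s16_mem_typeA1 hM]
    constructor
    · rintro ⟨⟨⟨hx, hy⟩, hU⟩, hσ⟩
      exact ⟨⟨hx, fun e => hσ (e ▸ (sigmaCore M).one_mem), (H50.AE.mem_sup_iff hM h hx).1 hU, hy⟩,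
        fun h' => hσ h'.1⟩
    · rintro ⟨⟨hx, h1, hκ, hy⟩, hσ⟩
      exact ⟨⟨⟨hx, hy⟩, (H50.AE.mem_sup_iff hM h hx).2 hκ⟩, fun h' => hσ ⟨h', h1⟩⟩
  rw [e]
  exact typeA_diff_TI hM

end Cfsg.Agent.S1362
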