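import Cfsg.Statements.S1363
import Cfsg.Agent.Lib.BG.T16_1
import Cfsg.Agent.Lib.BG50.AE

set_option autoImplicit false
open Cfsg H69 H45 H45.BG Subgroup

namespace Cfsg.Agent.S1363

/-- Let G be a minimal simple group of odd order and M a maximal subgroup with standard factorisation M = K U M_σ and K ≠ 1. Then U is abelian and the normalizer of U in G is not contained in M. -/
theorem result {G : Type*} [Group G] [Finite G] (hG : Cfsg.IsMinSimpleOddOrder G)
    (M : Subgroup G) (hM : IsCoatom M) (K U : Subgroup G) (hKU : Cfsg.IsSigmaDecomposition M K U) (hK1 : K ≠ ⊥) :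
    IsMulCommutative U ∧ ¬ Subgroup.normalizer (U : Set G) ≤ M := by
  have : Fact (IsMinSimpleOddOrder G) := ⟨hG⟩
  have h := (sigmaDecomposition_iff hM).1 hKU
  refine ⟨((kappa_structure hM h).2.1 hK1).2, ?_⟩
  by_cases hU : U = ⊥
  · rw [hU, normalizer_eq_top]
    exact fun h' => hM.1 (top_le_iff.1 h')
  · exact s16_norm_not_le (H50.AE.MP2_of_ne_bot hM h hK1 hU) h

end Cfsg.Agent.S1363
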