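import Cfsg.Statements.S1366
import Cfsg.Agent.Lib.BG50.AE

set_option autoImplicit false
open Cfsg H69 H45 H45.BG Subgroup

namespace Cfsg.Agent.S1366

/-- Let G be a minimal simple group of odd order, M a maximal subgroup with standard factorisation M = K U M_σ, K ≠ 1, and K* = M_σ ∩ C_G(K). Then there is exactly one maximal subgroup M* of G such that K = M*_σ ∩ C_G(K*) and K* is a Hall κ(M*)-subgroup of M* (in particular κ(M*) is nonempty). -/
theorem result {G : Type*} [Group G] [Finite G] (hG : Cfsg.IsMinSimpleOddOrder G)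
    (M : Subgroup G) (hM : IsCoatom M) (K U : Subgroup G) (hKU : Cfsg.IsSigmaDecomposition M K U) (hK1 : K ≠ ⊥) :
    ∃! Mstar : Subgroup G, IsCoatom Mstar ∧ K = Cfsg.sigmaCore Mstar ⊓ Subgroup.centralizer ((Cfsg.sigmaCore M ⊓ Subgroup.centralizer (K : Set G)) : Set G) ∧
        Cfsg.IsPiHallOf (Cfsg.kappa Mstar) (Cfsg.sigmaCore M ⊓ Subgroup.centralizer (K : Set G)) Mstar := by
  have : Fact (IsMinSimpleOddOrder G) := ⟨hG⟩
  have h := (sigmaDecomposition_iff hM).1 hKU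
  have hP := H50.AE.MP_of_ne_bot hM h.2.1 hK1
  obtain ⟨Ms, hMs, -, hU, ⟨h1, -⟩, ⟨h2, -⟩, -⟩ := Ptype_embedding hP h.2.1
  exact ⟨Ms, ⟨hMs.1, h2.symm, h1⟩, fun L hL =>
    H50.AE.partner_eq hP h.2.1 hK1 hL.1 hL.2.1 hL.2.2 hU⟩

end Cfsg.Agent.S1366
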