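import Cfsg.Statements.S1368
import Cfsg.Agent.Lib.BG50.AE

set_option autoImplicit false
open Cfsg H69 H45 H45.BG Subgroup

namespace Cfsg.Agent.S1368

/-- Let G be a minimal simple group of odd order, M a maximal subgroup with standard factorisation M = K U M_σ, K ≠ 1, K* = M_σ ∩ C_G(K), and M* a maximal subgroup with K = M*_σ ∩ C_G(K*) and K* a Hall κ(M*)-subgroup of M*. Then M ∩ M* is the subgroup generated by K and K*, and it is cyclic. -/
theorem result {G : Type*} [Group G] [Finite G] (hG : Cfsg.IsMinSimpleOddOrder G)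
    (M : Subgroup G) (hM : IsCoatom M) (K U : Subgroup G) (hKU : Cfsg.IsSigmaDecomposition M K U) (hK1 : K ≠ ⊥) (Mstar : Subgroup G) (hMstar : IsCoatom Mstar)
    (hKst : K = Cfsg.sigmaCore Mstar ⊓ Subgroup.centralizer ((Cfsg.sigmaCore M ⊓ Subgroup.centralizer (K : Set G)) : Set G))
    (hKstH : Cfsg.IsPiHallOf (Cfsg.kappa Mstar) (Cfsg.sigmaCore M ⊓ Subgroup.centralizer (K : Set G)) Mstar) :
    M ⊓ Mstar = K ⊔ (Cfsg.sigmaCore M ⊓ Subgroup.centralizer (K : Set G)) ∧ IsCyclic ↥(K ⊔ (Cfsg.sigmaCore M ⊓ Subgroup.centralizer (K : Set G))) := by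
  have : Fact (IsMinSimpleOddOrder G) := ⟨hG⟩
  have h := (sigmaDecomposition_iff hM).1 hKU
  have hP := H50.AE.MP_of_ne_bot hM h.2.1 hK1
  obtain ⟨Ms, -, -, hU, -, -, ⟨h1, h2, -⟩, -⟩ := Ptype_embedding hP h.2.1
  obtain rfl := H50.AE.partner_eq hP h.2.1 hK1 hMstar hKst hKstH hU
  exact ⟨h2, h1⟩

end Cfsg.Agent.S1368
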