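import Cfsg.Statements.S1369
import Cfsg.Agent.Lib.BG50.AE

set_option autoImplicit false
open Cfsg H69 H45 H45.BG Subgroup

namespace Cfsg.Agent.S1369

/-- Let G be a minimal simple group of odd order, M a maximal subgroup with standard factorisation M = K U M_σ, K ≠ 1, K* = M_σ ∩ C_G(K), and M* a maximal subgroup with K = M*_σ ∩ C_G(K*) and K* a Hall κ(M*)-subgroup of M*. Then either U ≠ 1 or every K*-invariant complement of K* M*_σ in M* is nontrivial; and every maximal subgroup H of G with κ(H) nonempty is conjugate to M or to M*. -/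
theorem result {G : Type*} [Group G] [Finite G] (hG : Cfsg.IsMinSimpleOddOrder G)
    (M : Subgroup G) (hM : IsCoatom M) (K U : Subgroup G) (hKU : Cfsg.IsSigmaDecomposition M K U) (hK1 : K ≠ ⊥) (Mstar : Subgroup G) (hMstar : IsCoatom Mstar)
    (hKst : K = Cfsg.sigmaCore Mstar ⊓ Subgroup.centralizer ((Cfsg.sigmaCore M ⊓ Subgroup.centralizer (K : Set G)) : Set G))
    (hKstH : Cfsg.IsPiHallOf (Cfsg.kappa Mstar) (Cfsg.sigmaCore M ⊓ Subgroup.centralizer (K : Set G)) Mstar) :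
    (U ≠ ⊥ ∨ ∀ Ustar : Subgroup G, Cfsg.IsSigmaDecomposition Mstar (Cfsg.sigmaCore M ⊓ Subgroup.centralizer (K : Set G)) Ustar → Ustar ≠ ⊥) ∧
      ∀ H : Subgroup G, IsCoatom H → (Cfsg.kappa H).Nonempty →
        ∃ g : G, H = M.map (MulAut.conj g).toMonoidHom ∨ H = Mstar.map (MulAut.conj g).toMonoidHom := by
  have : Fact (IsMinSimpleOddOrder G) := ⟨hG⟩
  have h := (sigmaDecomposition_iff hM).1 hKU
  have hP := H50.AE.MP_of_ne_bot hM h.2.1 hK1
  obtain ⟨Ms, -, -, hU, -, -, -, -, h1, h2, -⟩ := Ptype_embedding hP h.2.1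
  obtain rfl := H50.AE.partner_eq hP h.2.1 hK1 hMstar hKst hKstH hU
  refine ⟨?_, fun H hH hκ => ?_⟩
  · rcases h1 with h1 | h1
    · exact Or.inl (H50.AE.ne_bot_of_MP2 h h1.1)
    · exact Or.inr fun V hV => H50.AE.ne_bot_of_MP2 ((sigmaDecomposition_iff hMstar).1 hV) h1.1
  · rcases h2 H ⟨hH, hκ⟩ with ⟨g, hg⟩ | ⟨g, hg⟩
    · exact ⟨g, Or.inl hg⟩
    · exact ⟨g, Or.inr hg⟩

end Cfsg.Agent.S1369
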