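import Cfsg.Statements.S1371
import Cfsg.Agent.Lib.BG50.AE
import Cfsg.Agent.Lib.BG.T14_8

set_option autoImplicit false
open Cfsg H69 H45 H45.BG Subgroup

namespace Cfsg.Agent.S1371

/-- Let G be a minimal simple group of odd order, M a maximal subgroup with standard factorisation M = K U M_σ, K ≠ 1, K* = M_σ ∩ C_G(K), and Ẑ the set of elements of K K* outside K ∪ K*. Then the union of the M-conjugates of Ẑ equals A₀(M) with A(M) removed, and it is a TI-subset of G. -/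
theorem result {G : Type*} [Group G] [Finite G] (hG : Cfsg.IsMinSimpleOddOrder G)
    (M : Subgroup G) (hM : IsCoatom M) (K U : Subgroup G) (hKU : Cfsg.IsSigmaDecomposition M K U) (hK1 : K ≠ ⊥) :
    {a : G | ∃ m ∈ M, ∃ z ∈ ((↑(K ⊔ (Cfsg.sigmaCore M ⊓ Subgroup.centralizer (K : Set G))) : Set G) \ ((K : Set G) ∪ ↑(Cfsg.sigmaCore M ⊓ Subgroup.centralizer (K : Set G)))), a = m * z * m⁻¹} = Cfsg.sigmaA0 M K \ Cfsg.sigmaA M U ∧
      Cfsg.IsTISubset (Cfsg.sigmaA0 M K \ Cfsg.sigmaA M U) := by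
  have : Fact (IsMinSimpleOddOrder G) := ⟨hG⟩
  have h := (sigmaDecomposition_iff hM).1 hKU
  have hP := H50.AE.MP_of_ne_bot hM h.2.1 hK1
  have hK : Hall (kappa M) K M := h.2.1
  obtain ⟨Ms, -, -, -, -, -, ⟨-, -, hc, -⟩, ⟨h1, h2, -⟩, -⟩ := Ptype_embedding hP hK
  have hD := (Ptype_structure hP hK).2.1.1
  have hZM : K ⊔ (sigmaCore M ⊓ 𝐂(K)) ≤ M := sup_le hK.le (inf_le_left.trans (Msigma_le M))
  have e : classSupport (zHat K (sigmaCore M ⊓ 𝐂(K))) M = sigmaA0 M K \ sigmaA M U := by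
    ext a
    constructor
    · rintro ⟨m, hm, z, hz, rfl⟩
      have hzM : z ∈ M := hZM hz.1
      have haM : m * z * m⁻¹ ∈ M := M.mul_mem (M.mul_mem hm hzM) (M.inv_mem hm)
      obtain ⟨x, hx, hx1, y, hy, hy1, rfl⟩ := exists_mul_of_mem_zHat (cents_norm hD.cent) hz
      have hxy : Commute x y := hy.2 x hx
      have hxκ : IsPiElt (kappa M) x := hK.isPi.isPiElt hx
      have hyσ : IsPiElt (sigma M) y := (isPi_Msigma M).isPiElt hy.1
      have hyκ : IsPiElt (kappa M)ᶜ y := hyσ.mono fun p hp hq => kappa_not_sigma hq hp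
      refine ⟨⟨⟨haM, m * y * m⁻¹, (Msigma_normal M).conj_mem hm hy.1, conj_ne_one hy1, ?_⟩, ?_⟩, ?_⟩
      · have : x * y * y = y * (x * y) := by rw [← mul_assoc, hxy.eq]
        calc m * (x * y) * m⁻¹ * (m * y * m⁻¹) = m * (x * y * y) * m⁻¹ := by group
          _ = m * y * m⁻¹ * (m * (x * y) * m⁻¹) := by rw [this]; group
      · rintro ⟨k, hk, -, n, -, hn⟩
        have h3 : IsPiElt (kappa M) (x * y) := by
          rw [← isPiElt_conj_iff (g := m), hn]
          exact (hK.isPi.isPiElt hk).conj n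
        have h4 := (constt_eq_self_iff.2 h3).symm.trans (constt_mul hxy hxκ hyκ)
        exact hy1 (by simpa using h4)
      · rintro ⟨-, hU⟩
        have h3 := isPiElt_conj_iff.1 ((H50.AE.mem_sup_iff hM h haM).1 hU)
        exact hx1 ((constt_mul hxy hxκ hyκ).symm.trans (constt1P.2 h3))
    · rintro ⟨⟨ha, hnK⟩, hnA⟩
      have hU : a ∉ U ⊔ sigmaCore M := fun h' => hnA ⟨ha, h'⟩
      have hk1 : piPart (kappa M) a ≠ 1 := fun h' =>
        hU ((H50.AE.mem_sup_iff hM h ha.1).2 (constt1P.1 h'))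
      obtain ⟨m, hm, hle⟩ := Hall_cj_le (mmax_sol hM) hK
        ((zpowers_le).2 (constt_mem (kappa M) ha.1)) (isPiElt_iff.1 (p_elt_constt _ _))
      have hk : m * piPart (kappa M) a * m⁻¹ ∈ K := hle (cj_mem m (mem_zpowers _))
      have hb : m * a * m⁻¹ ∈ K ⊔ (sigmaCore M ⊓ 𝐂(K)) := by
        rw [← hc _ hk (conj_ne_one hk1), ← consttJ]
        exact ⟨M.mul_mem (M.mul_mem hm ha.1) (M.inv_mem hm),
          cent1_le_cent1_constt _ _ (self_mem_cent1 _)⟩
      refine ⟨m⁻¹, M.inv_mem hm, m * a * m⁻¹, ⟨hb, ?_⟩, by group⟩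
      rintro (h3 | h3)
      · exact hnK ⟨_, h3, conj_ne_one fun e => hU (e ▸ one_mem _), m⁻¹, M.inv_mem hm, by group⟩
      · have h4 := (Msigma_normal M).conj_mem (M.inv_mem hm) h3.1
        exact hU (mem_sup_right (by simpa [mul_assoc] using h4))
  refine ⟨e, ?_⟩
  rw [← e]
  refine NormedTI.isTISubset (L := M) ⟨classSupport_nonempty.2 h1.nonempty,
    fun g hg a ha => classSupport_conj_mem ha hg, ?_⟩
  rintro g _ ⟨m, hm, z, hz, rfl⟩ hg
  have h3 : g * (m * z * m⁻¹) * g⁻¹ ∈ M :=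
    class_support_subG (H := M) (fun y hy => hZM hy.1) le_normalizer hg
  have h4 : (g * m)⁻¹ ∈ M := by
    by_contra h5
    refine h2 _ h5 z hz (mem_cj.2 ?_)
    simpa [mul_assoc] using h3
  simpa using M.mul_mem (M.inv_mem h4) (M.inv_mem hm)

end Cfsg.Agent.S1371
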