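import Cfsg.Statements.S1372
import Cfsg.Agent.Lib.BG.T16_1
import Cfsg.Agent.Lib.BG50.AE

set_option autoImplicit false
open Cfsg H69 H45 H45.BG Subgroup

namespace Cfsg.Agent.S1372

/-- Let G be a minimal simple group of odd order and M a maximal subgroup with standard factorisation M = K U M_σ, K ≠ 1 and U ≠ 1. Then K has prime order, and the Fitting subgroup F(M) contains M_σ and is a TI-subset of G. -/
theorem result {G : Type*} [Group G] [Finite G] (hG : Cfsg.IsMinSimpleOddOrder G)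
    (M : Subgroup G) (hM : IsCoatom M) (K U : Subgroup G) (hKU : Cfsg.IsSigmaDecomposition M K U) (hK1 : K ≠ ⊥) (hU1 : U ≠ ⊥) :
    (Nat.card K).Prime ∧ Cfsg.IsTISubset (Cfsg.fittingOf M : Set G) ∧ Cfsg.sigmaCore M ≤ Cfsg.fittingOf M := by
  have : Fact (IsMinSimpleOddOrder G) := ⟨hG⟩
  have h := (sigmaDecomposition_iff hM).1 hKU
  have h2 := H50.AE.MP2_of_ne_bot hM h hK1 hU1
  obtain ⟨-, h3, h4, -⟩ := (Ptype_structure h2.1 h.2.1).2.2.2.2.2.2 h2
  exact ⟨h3, s16_Fitting_TI hM (Or.inl h2), Fitting_max (Msigma_normal M) h4⟩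

end Cfsg.Agent.S1372
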