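import Cfsg.Statements.S1373
import Cfsg.Agent.Lib.BG50.AE

set_option autoImplicit false
open Cfsg H69 H45 H45.BG Subgroup

namespace Cfsg.Agent.S1373

/-- Let G be a minimal simple group of odd order and M a maximal subgroup with standard factorisation M = K U M_σ, K ≠ 1 and U = 1. Then M_σ ∩ C_G(K) has prime order. -/
theorem result {G : Type*} [Group G] [Finite G] (hG : Cfsg.IsMinSimpleOddOrder G)
    (M : Subgroup G) (hM : IsCoatom M) (K U : Subgroup G) (hKU : Cfsg.IsSigmaDecomposition M K U) (hK1 : K ≠ ⊥) (hU : U = ⊥) :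
    (Nat.card ↥(Cfsg.sigmaCore M ⊓ Subgroup.centralizer (K : Set G))).Prime := by
  have : Fact (IsMinSimpleOddOrder G) := ⟨hG⟩
  have h := (sigmaDecomposition_iff hM).1 hKU
  have hP := H50.AE.MP_of_ne_bot hM h.2.1 hK1
  obtain ⟨Ms, -, -, -, -, -, -, -, h1, -⟩ := Ptype_embedding hP h.2.1
  rcases h1 with h1 | h1
  · exact (H50.AE.ne_bot_of_MP2 h h1.1 hU).elim
  · exact h1.2

end Cfsg.Agent.S1373
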