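import Cfsg.Statements.S1374
import Cfsg.Agent.Lib.BG50.AE

set_option autoImplicit false
open Cfsg H69 H45 H45.BG Subgroup

namespace Cfsg.Agent.S1374

/-- Let G be a minimal simple group of odd order, M a maximal subgroup and x a non-identity element of M_σ. Then C_M(x) has order coprime to its index in C_G(x), and C_G(x) has a normal subgroup R complementing C_M(x) such that for every conjugate gMg⁻¹ containing x there is exactly one r ∈ R with rMr⁻¹ = gMg⁻¹. -/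
theorem result {G : Type*} [Group G] [Finite G] (hG : Cfsg.IsMinSimpleOddOrder G)
    (M : Subgroup G) (hM : IsCoatom M) (x : G) (hx : x ∈ Cfsg.sigmaCore M) (hx1 : x ≠ 1) :
    (Nat.card ↥(M ⊓ Subgroup.centralizer ({x} : Set G))).Coprime ((M ⊓ Subgroup.centralizer ({x} : Set G)).relIndex (Subgroup.centralizer ({x} : Set G))) ∧
      ∃ R : Subgroup G, Subgroup.centralizer ({x} : Set G) ≤ Subgroup.normalizer (R : Set G) ∧ Cfsg.IsComplIn (M ⊓ Subgroup.centralizer ({x} : Set G)) R (Subgroup.centralizer ({x} : Set G)) ∧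
        ∀ g : G, x ∈ M.map (MulAut.conj g).toMonoidHom → ∃! r : G, r ∈ R ∧ M.map (MulAut.conj r).toMonoidHom = M.map (MulAut.conj g).toMonoidHom := by
  have : Fact (IsMinSimpleOddOrder G) := ⟨hG⟩
  have hl := Msigma_ell1 hM hx hx1
  have hs := H50.AE.sdprod_cent1 hM hx hx1
  obtain ⟨ht, -, -, hH⟩ := (FT_signalizer_context hl).1
  refine ⟨(hs.isHallIn_right_iff.2 (hs.isHallIn_left_iff.1 hH)).2, sigR x, hs.normalIn.norm,
    isComplIn_iff.2 ⟨hs.mulEq.symm, by rw [inf_comm]; exact hs.inf_eq⟩, fun g hg => ?_⟩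
  have hMx : M ∈ MSigmaOf x := ⟨hM, hx⟩
  have hg' : M ^ᶜ g ∈ MSigmaOf x := ⟨mmax_cj hM g, (H50.AE.mem_Msigma_iff (mmax_cj hM g) hg).2
    (by rw [sigmaJ]; exact MSigmaOf_isPiElt hMx)⟩
  obtain ⟨r, hr, e⟩ := ht M hMx _ hg'
  refine ⟨r, ⟨hr, e.symm⟩, fun s hs' => ?_⟩
  have h1 : M ^ᶜ (r⁻¹ * s) = M := by rw [← cj_cj, hs'.2, e, cj_cj_inv]
  have h2 : r⁻¹ * s ∈ sigR x ⊓ M :=
    ⟨(sigR x).mul_mem ((sigR x).inv_mem hr) hs'.1, (mmax_cj_eq_iff hM).1 h1⟩
  rw [sigR_inf_eq_bot hl hMx, mem_bot] at h2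
  exact (inv_mul_eq_one.1 h2).symm

end Cfsg.Agent.S1374
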