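import Cfsg.Statements.S1375
import Cfsg.Agent.Lib.BG50.AE
import Cfsg.Agent.Lib.BG.T14_6

set_option autoImplicit false
open Cfsg H69 H45 H45.BG Subgroup

namespace Cfsg.Agent.S1375

/-- Let G be a minimal simple group of odd order, M a maximal subgroup, x ≠ 1 in M_σ with C_G(x) not contained in M. Then exactly one maximal subgroup N contains C_G(x); for it N_σ = N_F, C_{N_σ}(x) is a normal subgroup of C_G(x) complementing C_M(x), M ∩ N is a complement to N_σ in N, and for every standard factorisation N = K' U' N_σ one has U' ≠ 1 and x ∈ A(N) with x ∉ N_σ. -/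
theorem result {G : Type*} [Group G] [Finite G] (hG : Cfsg.IsMinSimpleOddOrder G)
    (M : Subgroup G) (hM : IsCoatom M) (x : G) (hx : x ∈ Cfsg.sigmaCore M) (hx1 : x ≠ 1) (hxM : ¬ Subgroup.centralizer ({x} : Set G) ≤ M) :
    ∃ N : Subgroup G, (IsCoatom N ∧ Subgroup.centralizer ({x} : Set G) ≤ N) ∧ (∀ L : Subgroup G, IsCoatom L → Subgroup.centralizer ({x} : Set G) ≤ L → L = N) ∧
        Cfsg.sigmaCore N = Cfsg.fittingHallOf N ∧
        Subgroup.centralizer ({x} : Set G) ≤ Subgroup.normalizer ((Cfsg.sigmaCore N ⊓ Subgroup.centralizer ({x} : Set G) : Subgroup G) : Set G) ∧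
        Cfsg.IsComplIn (M ⊓ Subgroup.centralizer ({x} : Set G)) (Cfsg.sigmaCore N ⊓ Subgroup.centralizer ({x} : Set G)) (Subgroup.centralizer ({x} : Set G)) ∧
        Cfsg.IsComplIn (M ⊓ N) (Cfsg.sigmaCore N) N ∧
        ∀ K' U' : Subgroup G, Cfsg.IsSigmaDecomposition N K' U' → U' ≠ ⊥ ∧ x ∈ Cfsg.sigmaA N U' ∧ x ∉ Cfsg.sigmaCore N := by
  have : Fact (IsMinSimpleOddOrder G) := ⟨hG⟩
  have hl := Msigma_ell1 hM hx hx1
  have h1 := (cent1_not_le_iff hM hx hx1).1 hxM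
  have hs := H50.AE.sdprod_cent1 hM hx hx1
  obtain ⟨hU, hR, hτ, hF, h2⟩ := (FT_signalizer_context hl).2 h1
  obtain ⟨hN, hle, hu⟩ := uniqMax_iff.1 hU
  have h3 := (Msigma_Hall hN).sdprod (Msigma_normal _) (h2 M ⟨hM, hx⟩).2.2.2
  have hxN : x ∈ sigN x := hle (self_mem_cent1 x)
  refine ⟨sigN x, ⟨hN, hle⟩, hu, (sigN_Fcore hl h1).symm, hs.normalIn.norm,
    isComplIn_iff.2 ⟨hs.mulEq.symm, by rw [inf_comm]; exact hs.inf_eq⟩,
    isComplIn_iff.2 ⟨h3.mulEq.symm, by rw [inf_comm]; exact h3.inf_eq⟩, fun K' U' h' => ?_⟩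
  have h := (sigmaDecomposition_iff hN).1 h'
  obtain ⟨y, hy, hy1⟩ := exists_mem_ne_one hR
  refine ⟨hF.elim (H50.AE.ne_bot_of_MF h) (H50.AE.ne_bot_of_MP2 h),
    ⟨⟨hxN, y, hy.1, hy1, (mem_cent1_iff.1 hy.2).symm⟩, (H50.AE.mem_sup_iff hN h hxN).2
      (hτ.mono fun p hp hq => h50_kappa_tau2' hN hq hp)⟩, fun hσ => hx1 ?_⟩
  exact p_elt_eq_one_of_disjoint (disjoint_sigma_tau2 _) ((isPi_Msigma _).isPiElt hσ) hτ

end Cfsg.Agent.S1375
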