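import Cfsg.Statements.S1376
import Cfsg.Agent.Lib.BG50.AE
import Cfsg.Agent.Lib.BG.T15_9
import Cfsg.Agent.Lib.BG.T14_1

set_option autoImplicit false
open Cfsg H69 H45 H45.BG Subgroup

namespace Cfsg.Agent.S1376

/-- Let G be a minimal simple group of odd order, M a maximal subgroup, x ≠ 1 in M_σ with C_G(x) not contained in M, and N a maximal subgroup containing C_G(x) with κ(N) nonempty. Then κ(M) is empty, M has a cyclic Frobenius complement (M is a Frobenius group), and M_F is not a TI-subset of G. -/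
theorem result {G : Type*} [Group G] [Finite G] (hG : Cfsg.IsMinSimpleOddOrder G)
    (M : Subgroup G) (hM : IsCoatom M) (x : G) (hx : x ∈ Cfsg.sigmaCore M) (hx1 : x ≠ 1) (hxM : ¬ Subgroup.centralizer ({x} : Set G) ≤ M)
    (N : Subgroup G) (hN : IsCoatom N) (hxN : Subgroup.centralizer ({x} : Set G) ≤ N) (hkN : (Cfsg.kappa N).Nonempty) :
    Cfsg.kappa M = ∅ ∧ (∃ E : Subgroup ↥M, Cfsg.IsFrobeniusComplement E ∧ IsCyclic E) ∧ ¬ Cfsg.IsTISubset (Cfsg.fittingHallOf M : Set G) := by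
  have : Fact (IsMinSimpleOddOrder G) := ⟨hG⟩
  have hl := Msigma_ell1 hM hx hx1
  have h1 := (cent1_not_le_iff hM hx hx1).1 hxM
  obtain rfl := eq_uniq_mmax (sigN_uniqMax hl h1) hN hxN
  obtain ⟨hF, -, -, E, hE, hc, hFr⟩ := nonFtype_signalizer_base hM hx hx1 hxM
    (fun h => Set.not_nonempty_empty (h.2 ▸ hkN))
  refine ⟨hF.2, ⟨E.subgroupOf M, hFr.isFrobeniusComplement, ?_⟩, fun hTI => hxM ?_⟩
  · exact isCyclic_of_surjective _ (subgroupOfEquivOfLe hE.le).symm.surjective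
  · rw [(Fcore_eq_Msigma hM).2 (notP1type_Msigma_nil (Or.inl hF))] at hTI
    exact (normedTI_sharp_iff_isTISubset.2 ⟨Msigma_neq1 hM, norm_Msigma hM (Msigma_neq1 hM),
      hTI⟩).cent1_le hx hx1

end Cfsg.Agent.S1376
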