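import Mathlib
import Cfsg.Statements.S1381
import Cfsg.Agent.Lib.BG.T16_1

set_option autoImplicit false
open Cfsg

namespace Cfsg.Agent.S1381

/-- Let G be a minimal simple group of odd order and M a maximal subgroup with standard factorisation M = K U M_σ. Then M is of Type II if and only if K ≠ 1 and U ≠ 1. -/
theorem result {G : Type*} [Group G] [Finite G] (hG : Cfsg.IsMinSimpleOddOrder G)
    (M : Subgroup G) (hM : IsCoatom M) (K U : Subgroup G) (hKU : Cfsg.IsSigmaDecomposition M K U) :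
    Cfsg.IsOfTypeII M ↔ (K ≠ ⊥ ∧ U ≠ ⊥) := by
  haveI : Fact (Cfsg.IsMinSimpleOddOrder G) := ⟨hG⟩
  have h := (H45.BG.sigmaDecomposition_iff hM).1 hKU
  rw [H45.BG.typeII_iff_MP2 hM, Ne, Ne, H45.BG.trivg_kappa hM h.2.1, H45.BG.trivg_kappa_compl hM h]
  constructor
  · exact fun h2 => ⟨H45.BG.s16_not_MF_of_MP h2.1, fun h1 => h2.2 h1.2⟩
  · rintro ⟨h1, h2⟩
    have hP := (H45.BG.s16_MF_or_MP hM).resolve_left h1
    exact (H45.BG.s16_MP1_or_MP2 hP).resolve_left h2

end Cfsg.Agent.S1381
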