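import Mathlib
import Cfsg.Statements.S1383
import Cfsg.Agent.Lib.BG.T16_1

set_option autoImplicit false
open Cfsg

namespace Cfsg.Agent.S1383

/-- Let G be a minimal simple group of odd order and M a maximal subgroup with standard factorisation M = K U M_σ. Then M is of Type V if and only if K ≠ 1, U = 1 and M_F = M_σ. -/
theorem result {G : Type*} [Group G] [Finite G] (hG : Cfsg.IsMinSimpleOddOrder G)
    (M : Subgroup G) (hM : IsCoatom M) (K U : Subgroup G) (hKU : Cfsg.IsSigmaDecomposition M K U) :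
    Cfsg.IsOfTypeV M ↔ (K ≠ ⊥ ∧ U = ⊥ ∧ Cfsg.fittingHallOf M = Cfsg.sigmaCore M) := by
  haveI : Fact (Cfsg.IsMinSimpleOddOrder G) := ⟨hG⟩
  have h := (H45.BG.sigmaDecomposition_iff hM).1 hKU
  rw [H45.BG.typeV_iff hM, H45.BG.trivg_kappa_compl hM h]
  exact ⟨fun h2 => ⟨H45.BG.s16_kappa_ne_bot h2.1.1 h.2.1, h2.1, h2.2⟩, fun h2 => h2.2⟩

end Cfsg.Agent.S1383
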