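import Mathlib
import Cfsg.Statements.S1394
import Cfsg.Agent.Lib.BG.T7_2

set_option autoImplicit false
open Cfsg

namespace Cfsg.Agent.S1394

/-- Let G be a minimal simple group of odd order, A a subgroup satisfying the transitivity hypothesis whose centre has rank at least 2, K = O_{π(A)'}(C_G(A)), and q a prime dividing the order of C_G(A) but not that of A. Then any two maximal A-invariant q-subgroups of G are conjugate by an element of K. -/
theorem result {G : Type*} [Group G] [Finite G] (hG : Cfsg.IsMinSimpleOddOrder G)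
    (A : Subgroup G) (hA : Cfsg.TransitivityHypothesis A) (hZ : ¬ Cfsg.RankLE 1 ↥(A ⊓ Subgroup.centralizer (A : Set G)))
    (q : ℕ) (hq : q.Prime) (hqA : ¬ q ∣ Nat.card A) (hqC : q ∣ Nat.card (Subgroup.centralizer (A : Set G))) :
    ∀ Q₁ ∈ Cfsg.maxInvSubgroups ⊤ A {q}, ∀ Q₂ ∈ Cfsg.maxInvSubgroups ⊤ A {q}, ∃ k ∈ Cfsg.piCoreOf (Cfsg.primesNotDvd (Nat.card A)) (Subgroup.centralizer (A : Set G)), Q₂ = Q₁.map (MulAut.conj k).toMonoidHom := by
  have : Fact (Cfsg.IsMinSimpleOddOrder G) := ⟨hG⟩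
  have : Fact q.Prime := ⟨hq⟩
  have hO : ∀ X : Subgroup G, Cfsg.piCoreOf (Cfsg.primesNotDvd (Nat.card A)) X =
      Cfsg.piCoreOf (H45.primesOf A)ᶜ X := fun X => H45.eq_pcore (π := Cfsg.primesNotDvd (Nat.card A))
    (ρ := (H45.primesOf A)ᶜ) (fun p hp =>
    ⟨fun h h1 => h.2 h1.2, fun h => ⟨hp, fun h1 => h ⟨hp, h1⟩⟩⟩) X
  have hc := H45.normedConstrained_iff.mpr hA
  have hq1 : q ∉ H45.primesOf A := fun h => hqA h.2
  rw [hO]
  exact H45.BG.normed_constrained_rank2_trans hc hq1 hqC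
    (Nat.succ_le_of_lt (not_le.mp fun h => hZ (H49.Rk_le_iff'.mp h)))

end Cfsg.Agent.S1394
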