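import Mathlib
import Cfsg.Statements.S1397
import Cfsg.Agent.Lib.BG.T8_1a
import Cfsg.Agent.Lib.BG.T8_1b
import Cfsg.Agent.Base

set_option autoImplicit false
open Cfsg

namespace Cfsg.Agent.S1397

open H45 H69 Subgroup

/-- Let G be a minimal simple group of odd order, M a maximal subgroup, p a prime and A₀ an elementary abelian p-subgroup of F(M) of order at least p ^ 3 that is maximal among elementary abelian p-subgroups of F(M). (a) If F(M) is not a p-group, then F(M) ∩ C_G(A₀) lies in exactly one maximal subgroup of G. (b) If F(M) is a p-group and P is a Sylow p-subgroup of M, then p does not divide the index of P in G, and every normal self-centralizing subgroup A of P containing an elementary abelian subgroup of order p ^ 3 is contained in F(M) and lies in exactly one maximal subgroup of G. -/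
theorem result {G : Type*} [Group G] [Finite G] (hG : Cfsg.IsMinSimpleOddOrder G)
    (M : Subgroup G) (hM : IsCoatom M) (p : ℕ) [Fact p.Prime] (A₀ : Subgroup G)
    (hA₀ : A₀ ≤ Cfsg.fittingOf M) (hA₀e : Cfsg.IsElementaryAbelian p A₀) (hA₀3 : p ^ 3 ≤ Nat.card A₀)
    (hA₀max : ∀ B : Subgroup G, B ≤ Cfsg.fittingOf M → Cfsg.IsElementaryAbelian p B → A₀ ≤ B → B = A₀) :
    (¬ IsPGroup p ↥(Cfsg.fittingOf M) → Cfsg.InUniqueMaximal (Cfsg.fittingOf M ⊓ Subgroup.centralizer (A₀ : Set G))) ∧
      (IsPGroup p ↥(Cfsg.fittingOf M) → ∀ P : Sylow p M,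
        ¬ p ∣ ((P : Subgroup M).map M.subtype).index ∧
        ∀ A : Subgroup G, Cfsg.IsSCN ((P : Subgroup M).map M.subtype) A → ¬ Cfsg.PRankLE p 2 ↥A →
          A ≤ Cfsg.fittingOf M ∧ Cfsg.InUniqueMaximal A) := by
  have := Fact.mk hG
  have pp : p.Prime := Fact.out
  have hr : 3 ≤ pRk p A₀ := by
    have := (min_not_pRankLE_iff pp (k := 2)).1 (H49.not_pRankLE_of_lt (H := A₀) le_rfl hA₀e
      (lt_of_lt_of_le (Nat.pow_lt_pow_right pp.one_lt (by norm_num)) hA₀3))
    omega
  refine ⟨fun hF => BG.non_pcore_Fitting_Uniqueness hM hF ⟨⟨hA₀, hA₀e⟩, hA₀max⟩ hr,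
    fun hF P => ⟨?_, fun A hA hA3 => ?_⟩⟩
  · have hP := isSylowIn_map_subtype P
    have solM := mmax_sol hM
    have Mp'1 : O[{p}ᶜ] M = ⊥ := by
      rw [← trivg_Fitting (solvableS solM (pcore_sub _ M)), Fitting_pcore]
      exact pcore_eq_bot_of_compl (by rw [compl_compl]; exact (isPi_singleton_iff pp).2 hF)
    have ntP := hP.dvd_card_iff.1 ((min_pRk_pos_iff pp).1
      (lt_of_lt_of_le (by omega) (min_pRk_mono pp (hA₀.trans (Fitting_sub M)))))
    have h1 := mmax_normal hM (BG.Puig_center_normal (mFT_odd M) solM hP Mp'1)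
      (BG.center_Puig_neq1 hP.isP ntP)
    have h2 := isSylowIn_of_normalizer le_top (hP.mono (le_inf le_top le_normalizer)
      (inf_le_right.trans ((BG.center_Puig_char _).norms.trans h1.le)))
    simpa using h2.not_dvd_relIndex
  · refine (BG.SCN_Fitting_Uniqueness hM hF (isSylowIn_map_subtype P)
      (hr.trans (min_pRk_mono pp hA₀)) ⟨hA, ?_⟩).2
    exact ((min_not_pRankLE_iff pp).1 hA3).trans_le (H25.BG.pRk_le_rk pp A)

end Cfsg.Agent.S1397
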