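import Cfsg.Statements.S1403
import Cfsg.Agent.Lib.BG.Api.Rank2
import Cfsg.Agent.Lib.BG.Api.Quo2
import Cfsg.Agent.Lib.BG.Api.Core3
import Cfsg.Agent.Lib.BG.Api.Min2
import Cfsg.Agent.Lib.BG.Api.Frob
import Cfsg.Agent.Lib.BG.T9_6
-- import your own Cfsg.Agent.* helpers here

set_option autoImplicit false
open Cfsg

namespace Cfsg.Agent.S1403

open H45 H45.BG H69 Subgroup

/-- Let G be a minimal simple group of odd order and K a proper subgroup having an elementary abelian subgroup of order p ^ 2 for some prime p. If K, or its centralizer C_G(K), has an elementary abelian subgroup of order q ^ 3 for some prime q, then K lies in exactly one maximal subgroup of G. -/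
theorem result {G : Type*} [Group G] [Finite G] (hG : Cfsg.IsMinSimpleOddOrder G)
    (K : Subgroup G) (hK : K ≠ ⊤) (hK2 : ¬ Cfsg.RankLE 1 K)
    (hK3 : ¬ Cfsg.RankLE 2 K ∨ ¬ Cfsg.RankLE 2 (Subgroup.centralizer (K : Set G))) :
    Cfsg.InUniqueMaximal K := by
  have := Fact.mk hG
  simp only [rankLE_iff_Rk] at hK2 hK3
  rcases hK3 with h | h
  · exact rank3_Uniqueness hK (by omega)
  · exact cent_rank3_Uniqueness (by omega) (by omega)

end Cfsg.Agent.S1403
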