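import Cfsg.Statements.S1405
import Cfsg.Agent.Lib.BG.Api.Rank2
import Cfsg.Agent.Lib.BG.Api.Quo2
import Cfsg.Agent.Lib.BG.Api.Core3
import Cfsg.Agent.Lib.BG.Api.Min2
import Cfsg.Agent.Lib.BG.Api.Frob
import Cfsg.Agent.Lib.BG.T10_2
import Cfsg.Agent.Lib.BG5.Rank
-- import your own Cfsg.Agent.* helpers here

set_option autoImplicit false
open Cfsg

namespace Cfsg.Agent.S1405

open H45 H45.BG H69 Subgroup

/-- Let G be a minimal simple group of odd order and M a maximal subgroup, α(M) the set of primes p with M of p-rank at least 3, and M_α = O_{α(M)}(M). Then M_α is a Hall α(M)-subgroup of M and of G, M_α ≤ M_σ, the quotient M/M_α has no elementary abelian subgroup of order p ^ 3 for any prime p, and the image of M' in M/M_α is nilpotent. -/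
theorem result {G : Type*} [Group G] [Finite G] (hG : Cfsg.IsMinSimpleOddOrder G)
    (M : Subgroup G) (hM : IsCoatom M) :
    Cfsg.IsPiHallOf (Cfsg.alpha M) (Cfsg.alphaCore M) M ∧ Cfsg.IsPiHall (Cfsg.alpha M) (Cfsg.alphaCore M) ∧
      Cfsg.alphaCore M ≤ Cfsg.sigmaCore M ∧ Cfsg.RankLE 2 (↥M ⧸ Cfsg.piCore (Cfsg.alpha M) ↥M) ∧
      Group.IsNilpotent ↥((commutator ↥M).map (QuotientGroup.mk' (Cfsg.piCore (Cfsg.alpha M) ↥M))) := by
  have := Fact.mk hG
  have hn := le_norm_Malpha M
  let φ := QuotientGroup.lift (piCore (alpha M) M) (imHom (coset (alphaCore M)) hn)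
    (by rw [ker_imHom, ker_coset]; exact (pcore_subgroupOf (alpha M) M).ge)
  have hφ : Function.Injective φ := by
    rw [QuotientGroup.injective_lift_iff, ker_imHom, ker_coset]
    exact (pcore_subgroupOf (alpha M) M).symm
  refine ⟨Malpha_Hall hM, hall_top_iff.1 (Malpha_Hall_G hM), Malpha_sub_Msigma hM,
    fun p pp => H49.pRankLE_of_injective hφ (rankLE_iff_Rk.2 (Malpha_quo_rank2 hM) p pp), ?_⟩
  have h1 := Malpha_quo_nil hM
  rw [← H45.map_subtype_commutator, quo, ← map_imHom (coset (alphaCore M)) hn] at h1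
  have h2 : (commutator M).map (imHom (coset (alphaCore M)) hn) =
      ((commutator M).map (QuotientGroup.mk' (piCore (alpha M) M))).map φ := by
    rw [Subgroup.map_map]; rfl
  rw [h2, Subgroup.map_map] at h1
  have h3 : Function.Injective ((im (coset (alphaCore M)) M).subtype.comp φ) :=
    fun a b h => hφ (Subtype.ext h)
  exact Group.nilpotent_of_mulEquiv (_h := h1) (Subgroup.equivMapOfInjective _ _ h3).symm

end Cfsg.Agent.S1405
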