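import Cfsg.Statements.S1407
import Cfsg.Agent.Lib.BG.Api.Rank2
import Cfsg.Agent.Lib.BG.Api.Quo2
import Cfsg.Agent.Lib.BG.Api.Core3
import Cfsg.Agent.Lib.BG.Api.Min2
import Cfsg.Agent.Lib.BG.Api.Frob
import Cfsg.Agent.Lib.BG.T10_3
-- import your own Cfsg.Agent.* helpers here

set_option autoImplicit false
open Cfsg

namespace Cfsg.Agent.S1407

open H45 H45.BG H69 Subgroup

/-- Let G be a minimal simple group of odd order, M a maximal subgroup with M_α ≠ 1, p a prime dividing the order of M but not in σ(M), and P a Sylow p-subgroup of M. Then there is an element x of order p in the centre of P such that M_α ∩ C_G(x) has all Sylow subgroups cyclic and M is not the unique maximal subgroup of G containing C_G(x). -/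
theorem result {G : Type*} [Group G] [Finite G] (hG : Cfsg.IsMinSimpleOddOrder G)
    (M : Subgroup G) (hM : IsCoatom M) (hMα : Cfsg.alphaCore M ≠ ⊥) (p : ℕ) [Fact p.Prime] (hpM : p ∣ Nat.card M) (hp : p ∉ Cfsg.sigma M) (P : Sylow p M) :
    ∃ x : G, x ∈ ((Subgroup.center ↥(P : Subgroup M)).map (P : Subgroup M).subtype).map M.subtype ∧ orderOf x = p ∧
        IsZGroup ↥(Cfsg.alphaCore M ⊓ Subgroup.centralizer ({x} : Set G)) ∧
        ¬ (Subgroup.centralizer ({x} : Set G) ≤ M ∧ ∀ L : Subgroup G, IsCoatom L → Subgroup.centralizer ({x} : Set G) ≤ L → L = M) := by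
  have := Fact.mk hG
  have hP := isSylowIn_map_subtype P
  obtain ⟨x, hx, hx1, h1, h2⟩ := cent1_sigma'_Zgroup hM hp hP (Syl.ne_bot hP ⟨Fact.out, hpM⟩)
  refine ⟨x, ?_, abelem_order_p (Ohm1_center_abelem p _) hx hx1, h2,
    fun h => h1 (uniqMax_iff.2 ⟨hM, h⟩)⟩
  obtain ⟨⟨y, hy, rfl⟩, h3⟩ := Ohm1_sub p _ hx
  exact ⟨y, ⟨⟨y, hy⟩, mem_center_iff.2 fun z => Subtype.ext (Subtype.ext
    (h3 _ ⟨z, z.2, rfl⟩)), rfl⟩, rfl⟩

end Cfsg.Agent.S1407
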