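import Cfsg.Statements.S1408
import Cfsg.Agent.Lib.BG.Api.Rank2
import Cfsg.Agent.Lib.BG.Api.Quo2
import Cfsg.Agent.Lib.BG.Api.Core3
import Cfsg.Agent.Lib.BG.Api.Min2
import Cfsg.Agent.Lib.BG.Api.Frob
import Cfsg.Agent.Lib.BG.T10_3
-- import your own Cfsg.Agent.* helpers here

set_option autoImplicit false
open Cfsg

namespace Cfsg.Agent.S1408

open H45 H45.BG H69 Subgroup

/-- Let G be a minimal simple group of odd order, M a maximal subgroup, and p a prime not in σ(M) such that M has p-rank exactly 2. Then p is not an ideal prime for G, and every elementary abelian subgroup of M of order p ^ 2 is maximal among elementary abelian p-subgroups of G. -/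
theorem result {G : Type*} [Group G] [Finite G] (hG : Cfsg.IsMinSimpleOddOrder G)
    (M : Subgroup G) (hM : IsCoatom M) (p : ℕ) [Fact p.Prime] (hp : p ∉ Cfsg.sigma M) (hr2 : Cfsg.PRankLE p 2 M) (hr1 : ¬ Cfsg.PRankLE p 1 M) :
    ¬ Cfsg.IsIdealPrime p G ∧ ∀ A : Subgroup G, A ≤ M → Cfsg.IsElementaryAbelian p A → Nat.card A = p ^ 2 →
        ∀ B : Subgroup G, Cfsg.IsElementaryAbelian p B → A ≤ B → B = A := by
  have := Fact.mk hG
  have hr : pRk p M = 2 := le_antisymm (pRankLE_iff_pRk.1 hr2)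
    ((min_not_pRankLE_iff Fact.out).1 hr1)
  exact ⟨sigma'_rank2_beta' hM hp hr, fun A h1 h2 h3 B hB hAB =>
    (sigma'_rank2_max hM hp hr ⟨h1, h2, h3⟩).2 B le_top hB hAB⟩

end Cfsg.Agent.S1408
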