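import Cfsg.Statements.S1409
import Cfsg.Agent.Lib.BG.Api.Rank2
import Cfsg.Agent.Lib.BG.Api.Quo2
import Cfsg.Agent.Lib.BG.Api.Core3
import Cfsg.Agent.Lib.BG.Api.Min2
import Cfsg.Agent.Lib.BG.Api.Frob
import Cfsg.Agent.Lib.BG.T10_3
-- import your own Cfsg.Agent.* helpers here

set_option autoImplicit false
open Cfsg

namespace Cfsg.Agent.S1409

open H45 H45.BG H69 Subgroup

/-- Let G be a minimal simple group of odd order, M a maximal subgroup, p a prime not in σ(M), and X a subgroup of order p with N_G(X) ≤ M. Then M has p-rank exactly 2, p is not an ideal prime for G, and X is contained in some elementary abelian subgroup of G of order p ^ 2. -/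
theorem result {G : Type*} [Group G] [Finite G] (hG : Cfsg.IsMinSimpleOddOrder G)
    (M : Subgroup G) (hM : IsCoatom M) (p : ℕ) [Fact p.Prime] (hp : p ∉ Cfsg.sigma M) (X : Subgroup G) (hX : Nat.card X = p)
    (hNX : Subgroup.normalizer (X : Set G) ≤ M) :
    (Cfsg.PRankLE p 2 M ∧ ¬ Cfsg.PRankLE p 1 M) ∧ ¬ Cfsg.IsIdealPrime p G ∧
      ∃ A : Subgroup G, Cfsg.IsElementaryAbelian p A ∧ Nat.card A = p ^ 2 ∧ X ≤ A := by
  have := Fact.mk hG
  have hr := sigma'_norm_mmax_rank2 hM hp (isPGroup_of_card_eq hX) hNX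
  obtain ⟨A, hA, hXA⟩ := sigma'1Elem_sub_p2Elem hM hp (p1ElemE.2 ⟨le_top, hX⟩) hNX
  exact ⟨⟨pRankLE_iff_pRk.2 hr.le, by rw [pRankLE_iff_pRk]; omega⟩, sigma'_rank2_beta' hM hp hr,
    A, hA.abelem, hA.card, hXA⟩

end Cfsg.Agent.S1409
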