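import Cfsg.Statements.S1412
import Cfsg.Agent.Lib.BG.Api.Rank2
import Cfsg.Agent.Lib.BG.Api.Quo2
import Cfsg.Agent.Lib.BG.Api.Core3
import Cfsg.Agent.Lib.BG.Api.Min2
import Cfsg.Agent.Lib.BG.Api.Frob
import Cfsg.Agent.Lib.BG.T10_7
-- import your own Cfsg.Agent.* helpers here

set_option autoImplicit false
open Cfsg

namespace Cfsg.Agent.S1412

open H45 H45.BG H69 Subgroup

/-- Let G be a minimal simple group of odd order, p a prime and P a Sylow p-subgroup of G with no elementary abelian subgroup of order p ^ 3. Then either P is abelian, or P is generated by two elementwise-commuting subgroups P₁, P₂ with P₁ nonabelian of order p ^ 3 and exponent p, P₂ cyclic, and the elements of P₂ of order dividing p generating exactly the centre of P₁. -/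
theorem result {G : Type*} [Group G] [Finite G] (hG : Cfsg.IsMinSimpleOddOrder G) (p : ℕ) [Fact p.Prime] (P : Sylow p G) (hr : Cfsg.PRankLE p 2 (P : Subgroup G)) :
    IsMulCommutative (P : Subgroup G) ∨ ∃ P₁ P₂ : Subgroup G, P₁ ⊔ P₂ = (P : Subgroup G) ∧ (∀ a ∈ P₁, ∀ b ∈ P₂, a * b = b * a) ∧
        ¬ IsMulCommutative P₁ ∧ Nat.card P₁ = p ^ 3 ∧ Monoid.exponent P₁ = p ∧ IsCyclic P₂ ∧
        Subgroup.closure {x : G | x ∈ P₂ ∧ x ^ p = 1} = P₁ ⊓ Subgroup.centralizer (P₁ : Set G) := by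
  have := Fact.mk hG
  refine or_iff_not_imp_left.2 fun hna => ?_
  obtain ⟨S, C, hS, hc, h1, h2⟩ := mFT_rank2_Sylow_cprod (isSylowIn_top P)
    (by rw [rank_pgroup P.2]; exact Nat.lt_succ_of_le (pRankLE_iff_pRk.1 hr)) hna
  refine ⟨S, C, h1.sup_eq, fun a ha b hb => h1.cent hb a ha, hS.1, hS.2.1, ?_, hc, h2⟩
  have hS1 : Nontrivial S := (Subgroup.nontrivial_iff_ne_bot S).2 fun e => hS.1 (e ▸ inferInstance)
  exact ((Nat.dvd_prime Fact.out).1 (Monoid.exponent_dvd_of_forall_pow_eq_one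
    fun x => Subtype.ext (hS.2.2 x x.2))).resolve_left Monoid.one_lt_exponent.ne'

end Cfsg.Agent.S1412
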