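import Cfsg.Statements.S1413
import Cfsg.Agent.Lib.BG.Api.Rank2
import Cfsg.Agent.Lib.BG.Api.Quo2
import Cfsg.Agent.Lib.BG.Api.Core3
import Cfsg.Agent.Lib.BG.Api.Min2
import Cfsg.Agent.Lib.BG.Api.Frob
import Cfsg.Agent.Lib.BG.T10_7
-- import your own Cfsg.Agent.* helpers here

set_option autoImplicit false
open Cfsg

namespace Cfsg.Agent.S1413

open H45 H45.BG H69 Subgroup

/-- Let G be a minimal simple group of odd order, p a prime and P a Sylow p-subgroup. (c) If Q ≤ P and xQx⁻¹ ≤ P then xQx⁻¹ = yQy⁻¹ for some y ∈ N_G(P). (d) For every Q ≤ P, p does not divide the index of N_P(Q) in N_G(Q). (e) If R is a p-subgroup and Q ≤ P ∩ R is normal in N_G(P), then Q is normal in N_G(R). -/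
theorem result {G : Type*} [Group G] [Finite G] (hG : Cfsg.IsMinSimpleOddOrder G) (p : ℕ) [Fact p.Prime] (P : Sylow p G) :
    (∀ (Q : Subgroup G) (x : G), Q ≤ (P : Subgroup G) → Q.map (MulAut.conj x).toMonoidHom ≤ (P : Subgroup G) →
        ∃ y ∈ Subgroup.normalizer ((P : Subgroup G) : Set G), Q.map (MulAut.conj x).toMonoidHom = Q.map (MulAut.conj y).toMonoidHom) ∧
      (∀ Q : Subgroup G, Q ≤ (P : Subgroup G) →
        ¬ p ∣ ((P : Subgroup G) ⊓ Subgroup.normalizer (Q : Set G)).relIndex (Subgroup.normalizer (Q : Set G))) ∧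
      (∀ (R Q : Subgroup G), IsPGroup p R → Q ≤ (P : Subgroup G) ⊓ R →
        Subgroup.normalizer ((P : Subgroup G) : Set G) ≤ Subgroup.normalizer (Q : Set G) →
        Subgroup.normalizer (R : Set G) ≤ Subgroup.normalizer (Q : Set G)) := by
  have := Fact.mk hG
  have hP := isSylowIn_top P
  exact ⟨fun Q x h1 h2 => mFT_sub_Sylow_trans hP h1 h2,
    fun Q h => (mFT_subnorm_Sylow hP h).not_dvd_relIndex,
    fun R Q h1 h2 h3 => (mFT_Sylow_normalS hP h1 h2
      ⟨(h2.trans inf_le_left).trans le_normalizer, h3⟩).2⟩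

end Cfsg.Agent.S1413
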