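import Cfsg.Statements.S1415
import Cfsg.Agent.Lib.BG.Api.Rank2
import Cfsg.Agent.Lib.BG.Api.Quo2
import Cfsg.Agent.Lib.BG.Api.Core3
import Cfsg.Agent.Lib.BG.Api.Min2
import Cfsg.Agent.Lib.BG.Api.Frob
import Cfsg.Agent.Lib.BG.T12_1
import Cfsg.Agent.Lib.BG.T10_2
-- import your own Cfsg.Agent.* helpers here

set_option autoImplicit false
open Cfsg

namespace Cfsg.Agent.S1415

open H45 H45.BG H69 Subgroup

/-- Let G be a minimal simple group of odd order, M a maximal subgroup and E a complement to M_σ in M. Then the derived subgroup E' is nilpotent; every Hall τ₁(M)-subgroup of E is cyclic; and every Hall τ₃(M)-subgroup E₃ of E is cyclic, contained in E' and normal in E. -/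
theorem result {G : Type*} [Group G] [Finite G] (hG : Cfsg.IsMinSimpleOddOrder G)
    (M : Subgroup G) (hM : IsCoatom M) (E : Subgroup G) (hE : Cfsg.IsComplIn E (Cfsg.sigmaCore M) M) :
    Group.IsNilpotent ↥⁅E, E⁆ ∧
      (∀ E₁ : Subgroup G, Cfsg.IsPiHallOf (Cfsg.tau1 M) E₁ E → IsCyclic E₁) ∧
      ∀ E₃ : Subgroup G, Cfsg.IsPiHallOf (Cfsg.tau3 M) E₃ E → IsCyclic E₃ ∧ E₃ ≤ ⁅E, E⁆ ∧ E ≤ Subgroup.normalizer (E₃ : Set G) := by
  have := Fact.mk hG
  have hE' : Hall (sigma M)ᶜ E M := (sdprod_of_isComplIn (Msigma_normal M) (isComplIn_iff.2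
    ⟨(isComplIn_iff.1 hE).1.symm, inf_comm E _ ▸ hE.2.2.1⟩)).hall_compl (Msigma_Hall hM)
  have hs := mmax_sub_sol hM hE'.le
  refine ⟨der1_sigma_compl_nil hM hE', fun E₁ h₁ => ?_, fun E₃ h₃ => ?_⟩
  · obtain ⟨E₃, h₃⟩ := Hall_exists (tau3 M) hs
    obtain ⟨E₂, h⟩ := ex_tau2_compl hM hE' h₁ h₃
    exact (sigma_compl_context hM h).2.2.1.1
  · obtain ⟨E₁, h₁⟩ := Hall_exists (tau1 M) hs
    obtain ⟨E₂, h⟩ := ex_tau2_compl hM hE' h₁ h₃
    have h := sigma_compl_context hM h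
    exact ⟨h.2.2.1.2, h.1.1, h.1.2.2⟩

end Cfsg.Agent.S1415
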