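import Cfsg.Statements.S1416
import Cfsg.Agent.Lib.BG.Api.Rank2
import Cfsg.Agent.Lib.BG.Api.Quo2
import Cfsg.Agent.Lib.BG.Api.Core3
import Cfsg.Agent.Lib.BG.Api.Min2
import Cfsg.Agent.Lib.BG.Api.Frob
import Cfsg.Agent.Lib.BG.T12_3
-- import your own Cfsg.Agent.* helpers here

set_option autoImplicit false
open Cfsg

namespace Cfsg.Agent.S1416

open H45 H45.BG H69 Subgroup

/-- Let G be a minimal simple group of odd order, M a maximal subgroup, p a prime and A ≤ M elementary abelian of order p ^ 2. Then C_G(A) ≤ M. If moreover for every subgroup A₀ of A of order p, M is not the unique maximal subgroup containing N_G(A₀), then p ∈ σ(M), M_α = 1 and M_σ is nilpotent. -/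
theorem result {G : Type*} [Group G] [Finite G] (hG : Cfsg.IsMinSimpleOddOrder G)
    (M : Subgroup G) (hM : IsCoatom M) (p : ℕ) [Fact p.Prime] (A : Subgroup G) (hA : (A ≤ M ∧ Cfsg.IsElementaryAbelian p A ∧ Nat.card A = p ^ 2)) :
    Subgroup.centralizer (A : Set G) ≤ M ∧
      ((∀ A₀ : Subgroup G, A₀ ≤ A → Nat.card A₀ = p →
          ¬ (Subgroup.normalizer (A₀ : Set G) ≤ M ∧ ∀ L : Subgroup G, IsCoatom L → Subgroup.normalizer (A₀ : Set G) ≤ L → L = M)) →
        p ∈ Cfsg.sigma M ∧ Cfsg.alphaCore M = ⊥ ∧ Group.IsNilpotent (Cfsg.sigmaCore M)) := by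
  have := Fact.mk hG
  have h := p2Elem_mmax hM hA
  exact ⟨h.1, fun h1 => h.2 fun A₀ h2 h3 => h1 A₀ h2.le h2.card1 (uniqMax_iff.1 h3).2⟩

end Cfsg.Agent.S1416
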