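import Mathlib
import Cfsg.Statements.S1417
import Cfsg.Agent.Lib.BG.T12_5
import Cfsg.Agent.Lib.BG.Api.Rank
import Cfsg.Agent.Base

set_option autoImplicit false
open Cfsg

namespace Cfsg.Agent.S1417

open H45 H69 Subgroup

/-- Let G be a minimal simple group of odd order, M a maximal subgroup, p ∈ τ₂(M) and A ≤ M elementary abelian of order p ^ 2. Then (a) M_σ is nilpotent; (b) every Sylow p-subgroup P of M is abelian, and if A ≤ P then the elements of P of order dividing p are exactly those of A and N_G(P) is not contained in M; (c) M normalizes M_σA; (d) M_σ ∩ C_G(A) = 1; (e) M_σ ∩ M* = 1 for every maximal subgroup M* ≠ M containing A; (f) M_σ ∩ C_G(A₁) = 1 for some subgroup A₁ ≤ A of order p. -/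
theorem result {G : Type*} [Group G] [Finite G] (hG : Cfsg.IsMinSimpleOddOrder G)
    (M : Subgroup G) (hM : IsCoatom M) (p : ℕ) [Fact p.Prime] (hp : p ∈ Cfsg.tau2 M) (A : Subgroup G) (hA : (A ≤ M ∧ Cfsg.IsElementaryAbelian p A ∧ Nat.card A = p ^ 2)) :
    Group.IsNilpotent (Cfsg.sigmaCore M) ∧
      (∀ P : Sylow p M, IsMulCommutative (P : Subgroup M) ∧
        (A ≤ (P : Subgroup M).map M.subtype →
          (∀ x ∈ (P : Subgroup M).map M.subtype, x ^ p = 1 ↔ x ∈ A) ∧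
          ¬ Subgroup.normalizer ((((P : Subgroup M).map M.subtype : Subgroup G)) : Set G) ≤ M)) ∧
      M ≤ Subgroup.normalizer ((Cfsg.sigmaCore M ⊔ A : Subgroup G) : Set G) ∧
      Cfsg.sigmaCore M ⊓ Subgroup.centralizer (A : Set G) = ⊥ ∧
      (∀ Mstar : Subgroup G, IsCoatom Mstar → Mstar ≠ M → A ≤ Mstar → Cfsg.sigmaCore M ⊓ Mstar = ⊥) ∧
      ∃ A₁ : Subgroup G, A₁ ≤ A ∧ Nat.card A₁ = p ∧ Cfsg.sigmaCore M ⊓ Subgroup.centralizer (A₁ : Set G) = ⊥ := by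
  have := Fact.mk hG
  obtain ⟨h1, h2, h3, h4, A₁, h5, h6⟩ := H45.BG.tau2_context hM hp (show PnElem p 2 M A from hA)
  refine ⟨H45.BG.tau2_Msigma_nil hM hp, fun P => ?_, h2.2, h3,
    fun Ms hMs hne hA' => h4 Ms ⟨hMs, hA'⟩ hne, A₁, h5.le, h5.card1, h6⟩
  obtain ⟨hc, h7⟩ := h1 _ (isSylowIn_map_subtype P)
  refine ⟨?_, fun hAP => ?_⟩
  · refine ⟨⟨fun a b => Subtype.ext (Subtype.ext ?_)⟩⟩
    have := hc.is_comm.comm ⟨((a : M) : G), mem_map_of_mem _ a.2⟩ ⟨((b : M) : G), mem_map_of_mem _ b.2⟩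
    have h' := congrArg Subtype.val this
    exact h'
  · obtain ⟨h8, h9⟩ := h7 hAP
    exact ⟨fun x hx => ⟨fun h => h8 ▸ mem_Ohm1 hx h, fun h => hA.2.1.2 x h⟩, h9⟩

end Cfsg.Agent.S1417
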