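import Mathlib
import Cfsg.Statements.S1420
import Cfsg.Agent.Lib.BG.T12_10
import Cfsg.Agent.Lib.BG.T10_2
-- import your own Cfsg.Agent.* helpers here

set_option autoImplicit false
open Cfsg

namespace Cfsg.Agent.S1420

/-- Let G be a minimal simple group of odd order, M a maximal subgroup and E a complement to M_σ in M. Then every nilpotent subgroup of M whose order involves no prime of σ(M) is abelian; E' is abelian; for p ∈ σ(M) and every noncyclic p-subgroup P of M, N_G(P) ≤ M; and if x ≠ 1 in M has every prime divisor of its order in τ₂(M) and centralizes a non-identity element of M_σ, then C_G(x) ≤ M and M is the unique maximal subgroup containing C_G(x). -/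
theorem result {G : Type*} [Group G] [Finite G] (hG : Cfsg.IsMinSimpleOddOrder G)
    (M : Subgroup G) (hM : IsCoatom M) (E : Subgroup G) (hE : Cfsg.IsComplIn E (Cfsg.sigmaCore M) M) :
    (∀ N : Subgroup G, N ≤ M → Group.IsNilpotent N → (∀ p : ℕ, p.Prime → p ∣ Nat.card N → p ∉ Cfsg.sigma M) → IsMulCommutative N) ∧
      IsMulCommutative ↥⁅E, E⁆ ∧
      (∀ (p : ℕ) (P : Subgroup G), p ∈ Cfsg.sigma M → IsPGroup p P → P ≤ M → ¬ IsCyclic P → Subgroup.normalizer (P : Set G) ≤ M) ∧
      ∀ x ∈ M, x ≠ 1 → (∀ p : ℕ, p.Prime → p ∣ orderOf x → p ∈ Cfsg.tau2 M) → x ∈ Cfsg.sigmaHat M →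
        Subgroup.centralizer ({x} : Set G) ≤ M ∧ ∀ L : Subgroup G, IsCoatom L → Subgroup.centralizer ({x} : Set G) ≤ L → L = M := by
  haveI : Fact (Cfsg.IsMinSimpleOddOrder G) := ⟨hG⟩
  have hsd : H45.SDProd (Cfsg.sigmaCore M) E M :=
    H45.sdprod_of_isComplIn (H45.Msigma_normal M)
      (H45.isComplIn_iff.2 ⟨(H45.isComplIn_iff.1 hE).1.symm, by
        rw [inf_comm]; exact (H45.isComplIn_iff.1 hE).2⟩)
  have hE' := hsd.hall_compl (H45.BG.Msigma_Hall hM)
  refine ⟨fun N hN hnil h => H45.BG.sigma'_nil_abelian hM hN h hnil,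
    H45.BG.der_mmax_compl_abelian hM hE', fun p P hp hP hPM hnc => ?_, fun x hx hx1 hτ hs => ?_⟩
  · haveI : Fact p.Prime := ⟨H45.sigma_prime hp⟩
    exact H45.BG.norm_noncyclic_sigma hM hp hP hPM hnc
  · have := H45.BG.cent1_nreg_sigma_uniq hM hx hx1 hτ (by
      obtain ⟨-, y, hy, hy1, e⟩ := hs
      intro h
      have : y ∈ Cfsg.sigmaCore M ⊓ Subgroup.centralizer ({x} : Set G) :=
        ⟨hy, H45.mem_cent1_iff.2 e.symm⟩
      rw [h] at this
      exact hy1 this)
    exact (H45.uniqMax_iff.1 this).2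

end Cfsg.Agent.S1420
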