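import Mathlib
import Cfsg.Statements.S1425
import Cfsg.Agent.Lib.BG.T12_16
import Cfsg.Agent.Base

set_option autoImplicit false
open Cfsg

namespace Cfsg.Agent.S1425

open H45 H69 Subgroup

/-- Let G be a minimal simple group of odd order, M a maximal subgroup and Y a nontrivial subgroup of G all of whose prime divisors lie in σ(M). Then gYg⁻¹ ≤ M_σ for some g ∈ G. -/
theorem result {G : Type*} [Group G] [Finite G] (hG : Cfsg.IsMinSimpleOddOrder G)
    (M : Subgroup G) (hM : IsCoatom M) (Y : Subgroup G) (hY1 : Y ≠ ⊥) (hY : ∀ p : ℕ, p.Prime → p ∣ Nat.card Y → p ∈ Cfsg.sigma M) :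
    ∃ g : G, Y.map (MulAut.conj g).toMonoidHom ≤ Cfsg.sigmaCore M := by
  haveI := Fact.mk hG
  exact (H45.BG.sigma_Jsub hM hY hY1).1

end Cfsg.Agent.S1425
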