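import Cfsg.Statements.S1431
import Mathlib
import Cfsg.Agent.Lib.BG.T14_2

set_option autoImplicit false
open Cfsg

namespace Cfsg.Agent.S1431

open H45 H69 in

/-- Let G be a minimal simple group of odd order, M a maximal subgroup, K ≠ 1 a Hall κ(M)-subgroup of M and K* = M_σ ∩ C_G(K). Then K* ∩ gMg⁻¹ = 1 for g ∉ M; K ∩ gKg⁻¹ = 1 for g ∈ M outside K K*; for every prime p dividing the order of K* and every Sylow p-subgroup S of M_σ, M is the unique maximal subgroup containing S, and S is not contained in K*; and every subgroup Y of G whose prime divisors lie in σ(M) and with Y ∩ K* ≠ 1 is contained in M_σ. -/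
theorem result {G : Type*} [Group G] [Finite G] (hG : Cfsg.IsMinSimpleOddOrder G)
    (M : Subgroup G) (hM : IsCoatom M) (K : Subgroup G) (hK : Cfsg.IsPiHallOf (Cfsg.kappa M) K M) (hK1 : K ≠ ⊥) :
    (∀ g : G, g ∉ M → (Cfsg.sigmaCore M ⊓ Subgroup.centralizer (K : Set G)) ⊓ M.map (MulAut.conj g).toMonoidHom = ⊥) ∧
      (∀ g ∈ M, g ∉ K ⊔ (Cfsg.sigmaCore M ⊓ Subgroup.centralizer (K : Set G)) → K ⊓ K.map (MulAut.conj g).toMonoidHom = ⊥) ∧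
      (∀ (p : ℕ), p.Prime → p ∣ Nat.card ↥(Cfsg.sigmaCore M ⊓ Subgroup.centralizer (K : Set G)) → ∀ S : Sylow p ↥(Cfsg.sigmaCore M),
        Cfsg.InUniqueMaximal ((S : Subgroup ↥(Cfsg.sigmaCore M)).map (Cfsg.sigmaCore M).subtype) ∧
        (S : Subgroup ↥(Cfsg.sigmaCore M)).map (Cfsg.sigmaCore M).subtype ≤ M ∧
        ¬ (S : Subgroup ↥(Cfsg.sigmaCore M)).map (Cfsg.sigmaCore M).subtype ≤ (Cfsg.sigmaCore M ⊓ Subgroup.centralizer (K : Set G))) ∧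
      ∀ Y : Subgroup G, (∀ p : ℕ, p.Prime → p ∣ Nat.card Y → p ∈ Cfsg.sigma M) → Y ⊓ (Cfsg.sigmaCore M ⊓ Subgroup.centralizer (K : Set G)) ≠ ⊥ → Y ≤ Cfsg.sigmaCore M := by
  have : Fact (Cfsg.IsMinSimpleOddOrder G) := ⟨hG⟩
  have hP : MP M := ⟨hM, Set.nonempty_iff_ne_empty.2 fun h =>
    hK1 ((H45.BG.trivg_kappa hM hK).2 ⟨hM, h⟩)⟩
  obtain ⟨-, ⟨hd, -⟩, -, ⟨h1, h2⟩, h3, h4, -⟩ := H45.BG.Ptype_structure hP hK
  refine ⟨h1, fun g hg hg' => h2 g hg fun h => hg' ?_, fun p hp hd S => ?_, h4⟩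
  · rw [hd.sup_eq]
    exact ⟨hg, h⟩
  · obtain ⟨h5, h6⟩ := h3 p ⟨hp, hd⟩ _ (H69.isSylowIn_map_subtype S)
    exact ⟨H45.uniqMax_inUniq h5, H45.uniqMax_le h5, h6⟩

end Cfsg.Agent.S1431
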