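import Cfsg.Statements.S1432
import Mathlib
import Cfsg.Agent.Lib.BG.T14_3

set_option autoImplicit false
open Cfsg

namespace Cfsg.Agent.S1432

open H45 H69 in

/-- Let G be a minimal simple group of odd order, M a maximal subgroup, x a non-identity element of M_σ and x' a non-identity element of C_M(x) no prime divisor of whose order lies in σ(M). Then either all prime divisors of the order of x' lie in κ(M) and C_G(x) ≤ M; or all of them lie in τ₂(M), they all lie in σ(L) for a single maximal subgroup L, and C_G(x') ≤ M with M the unique maximal subgroup containing C_G(x'). -/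
theorem result {G : Type*} [Group G] [Finite G] (hG : Cfsg.IsMinSimpleOddOrder G)
    (M : Subgroup G) (hM : IsCoatom M) (x : G) (hx : x ∈ Cfsg.sigmaCore M) (hx1 : x ≠ 1) (x' : G) (hx' : x' ∈ M ⊓ Subgroup.centralizer ({x} : Set G)) (hx'1 : x' ≠ 1)
    (hσ : ∀ p : ℕ, p.Prime → p ∣ orderOf x' → p ∉ Cfsg.sigma M) :
    ((∀ p : ℕ, p.Prime → p ∣ orderOf x' → p ∈ Cfsg.kappa M) ∧ Subgroup.centralizer ({x} : Set G) ≤ M) ∨
      ((∀ p : ℕ, p.Prime → p ∣ orderOf x' → p ∈ Cfsg.tau2 M) ∧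
        (∃ L : Subgroup G, IsCoatom L ∧ ∀ p : ℕ, p.Prime → p ∣ orderOf x' → p ∈ Cfsg.sigma L) ∧
        (Subgroup.centralizer ({x'} : Set G) ≤ M ∧ ∀ L : Subgroup G, IsCoatom L → Subgroup.centralizer ({x'} : Set G) ≤ L → L = M)) := by
  have : Fact (Cfsg.IsMinSimpleOddOrder G) := ⟨hG⟩
  rcases H45.BG.pi_of_cent_sigma hM hx hx1 hx' hx'1 hσ with h | ⟨h1, h2, h3⟩
  · exact Or.inl h
  · obtain ⟨-, L, hL, hxL⟩ := H45.BG.ell_sigma1.1 h2
    exact Or.inr ⟨h1, ⟨L, hL, (H45.isPi_Msigma L).isPiElt hxL⟩, (H45.uniqMax_iff.1 h3).2⟩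

end Cfsg.Agent.S1432
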