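import Cfsg.Statements.S1434
import Mathlib
import Cfsg.Agent.Lib.BG.T14_2
import Cfsg.Agent.Lib.BG.T14_7
import Cfsg.Agent.Lib.BG.T16_0

set_option autoImplicit false
open Cfsg

namespace Cfsg.Agent.S1434

open H45 H69 in

/-- Let G be a minimal simple group of odd order, M a maximal subgroup with standard factorisation M = K U M_σ, K ≠ 1, K* = M_σ ∩ C_G(K), and M* a maximal subgroup with K = M*_σ ∩ C_G(K*) and K* a Hall κ(M*)-subgroup of M*. Then κ(M) = τ₁(M); K* is a Hall σ(M)-subgroup of M*; for non-identity x ∈ K and y ∈ K*, C_M(x), C_{M*}(y) and C_G(xy) all equal K K*; the set Ẑ of elements of K K* outside K ∪ K* meets no gMg⁻¹ with g ∉ M; and with k = #K, k* = #K*, the union of the conjugates of Ẑ has k·k*·(number of elements) = (k k* − k − k* + 1)·#G and more than #G / 2 elements. -/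
theorem result {G : Type*} [Group G] [Finite G] (hG : Cfsg.IsMinSimpleOddOrder G)
    (M : Subgroup G) (hM : IsCoatom M) (K U : Subgroup G) (hKU : Cfsg.IsSigmaDecomposition M K U) (hK1 : K ≠ ⊥) (Mstar : Subgroup G) (hMstar : IsCoatom Mstar)
    (hKst : K = Cfsg.sigmaCore Mstar ⊓ Subgroup.centralizer ((Cfsg.sigmaCore M ⊓ Subgroup.centralizer (K : Set G)) : Set G))
    (hKstH : Cfsg.IsPiHallOf (Cfsg.kappa Mstar) (Cfsg.sigmaCore M ⊓ Subgroup.centralizer (K : Set G)) Mstar) :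
    Cfsg.kappa M = Cfsg.tau1 M ∧ Cfsg.IsPiHallOf (Cfsg.sigma M) (Cfsg.sigmaCore M ⊓ Subgroup.centralizer (K : Set G)) Mstar ∧
      (∀ x ∈ K, x ≠ 1 → ∀ y ∈ (Cfsg.sigmaCore M ⊓ Subgroup.centralizer (K : Set G)), y ≠ 1 →
        M ⊓ Subgroup.centralizer ({x} : Set G) = K ⊔ (Cfsg.sigmaCore M ⊓ Subgroup.centralizer (K : Set G)) ∧ Mstar ⊓ Subgroup.centralizer ({y} : Set G) = K ⊔ (Cfsg.sigmaCore M ⊓ Subgroup.centralizer (K : Set G)) ∧
        Subgroup.centralizer ({x * y} : Set G) = K ⊔ (Cfsg.sigmaCore M ⊓ Subgroup.centralizer (K : Set G))) ∧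
      (∀ g : G, g ∉ M → ∀ z ∈ ((↑(K ⊔ (Cfsg.sigmaCore M ⊓ Subgroup.centralizer (K : Set G))) : Set G) \ ((K : Set G) ∪ ↑(Cfsg.sigmaCore M ⊓ Subgroup.centralizer (K : Set G)))), z ∉ M.map (MulAut.conj g).toMonoidHom) ∧
      Nat.card K * Nat.card ↥(Cfsg.sigmaCore M ⊓ Subgroup.centralizer (K : Set G)) * Set.ncard {a : G | ∃ g : G, ∃ z ∈ ((↑(K ⊔ (Cfsg.sigmaCore M ⊓ Subgroup.centralizer (K : Set G))) : Set G) \ ((K : Set G) ∪ ↑(Cfsg.sigmaCore M ⊓ Subgroup.centralizer (K : Set G)))), a = g * z * g⁻¹} =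
        (Nat.card K * Nat.card ↥(Cfsg.sigmaCore M ⊓ Subgroup.centralizer (K : Set G)) - Nat.card K - Nat.card ↥(Cfsg.sigmaCore M ⊓ Subgroup.centralizer (K : Set G)) + 1) * Nat.card G ∧
      Nat.card G < 2 * Set.ncard {a : G | ∃ g : G, ∃ z ∈ ((↑(K ⊔ (Cfsg.sigmaCore M ⊓ Subgroup.centralizer (K : Set G))) : Set G) \ ((K : Set G) ∪ ↑(Cfsg.sigmaCore M ⊓ Subgroup.centralizer (K : Set G)))), a = g * z * g⁻¹} := by
  have : Fact (Cfsg.IsMinSimpleOddOrder G) := ⟨hG⟩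
  have hUK := (H45.BG.sigmaDecomposition_iff hM).1 hKU
  have hK := hUK.2.1
  have hP : MP M := ⟨hM, Set.nonempty_iff_ne_empty.2 fun h =>
    hK1 ((H45.BG.trivg_kappa hM hK).2 ⟨hM, h⟩)⟩
  obtain ⟨-, ⟨hd, -⟩, ⟨hKs1, -⟩, -⟩ := H45.BG.Ptype_structure hP hK
  have hPs : MP Mstar := ⟨hMstar, Set.nonempty_iff_ne_empty.2 fun h =>
    hKs1 ((H45.BG.trivg_kappa hMstar hKstH).2 ⟨hMstar, h⟩)⟩
  have hKst' : K = Cfsg.sigmaCore Mstar ⊓ 𝐂(Cfsg.sigmaCore M ⊓ 𝐂(K)) := hKst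
  obtain ⟨X, hX⟩ := H45.exists_prime_card_le hK1
  have hu := (H45.BG.Ptype_structure hPs hKstH).2.2.1.2 X ⟨hX.1.trans hKst'.le, hX.2⟩
  obtain ⟨Ms, hMs, -, h1, ⟨-, h2⟩, ⟨-, h3⟩, ⟨-, -, h4, h5, h6⟩, ⟨h7, h8, h9⟩, -⟩ :=
    H45.BG.Ptype_embedding hP hK
  have e : Mstar = Ms := H45.eq_uniq_mmax (h1 X hX) hMstar (H45.uniqMax_le hu)
  subst e
  refine ⟨h3, h2, fun x hx hx1 y hy hy1 => ⟨h4 x hx hx1, h5 y hy hy1, h6 x hx hx1 y hy hy1⟩, h8,
    ?_, ?_⟩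
  · generalize Cfsg.sigmaCore M ⊓ 𝐂(K) = Ks at hd h7
    have e1 : {a : G | ∃ g : G, ∃ z ∈ ((↑(K ⊔ Ks) : Set G) \ ((K : Set G) ∪ ↑Ks)),
        a = g * z * g⁻¹} = classSupport (zHat K Ks) ⊤ :=
      Set.ext fun a => H45.mem_classSupport_top.symm
    rw [e1, H45.card_support_normedTI h7]
    have hc : Nat.card ↥(K ⊔ Ks) = Nat.card K * Nat.card Ks := by
      rw [hd.sup_eq]; exact hd.card
    have h10 : (zHat K Ks).ncard + ((K : Set G) ∪ ↑Ks).ncard = Nat.card K * Nat.card Ks := by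
      rw [← hc, ← H45.ncard_coe]
      exact Set.ncard_sdiff_add_ncard_of_subset
        (Set.union_subset (fun _ h => Subgroup.mem_sup_left h) fun _ h => Subgroup.mem_sup_right h)
    have h11 : ((K : Set G) ∪ ↑Ks).ncard + 1 = Nat.card K + Nat.card Ks := by
      rw [← H45.ncard_coe, ← H45.ncard_coe, ← Set.ncard_union_add_ncard_inter,
        ← Subgroup.coe_inf, hd.inf_eq, H45.ncard_coe, Subgroup.card_bot]
    have h12 : 0 < (zHat K Ks).ncard := (Set.ncard_pos (Set.toFinite _)).2 h7.1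
    have h13 : Nat.card K * Nat.card Ks - Nat.card K - Nat.card Ks + 1 = (zHat K Ks).ncard := by
      omega
    rw [h13, ← Subgroup.card_mul_index (K ⊔ Ks), hc]
    ring
  · have e1 : {a : G | ∃ g : G, ∃ z ∈ ((↑(K ⊔ (Cfsg.sigmaCore M ⊓ 𝐂(K))) : Set G) \
        ((K : Set G) ∪ ↑(Cfsg.sigmaCore M ⊓ 𝐂(K)))), a = g * z * g⁻¹} =
        classSupport (zHat K (Cfsg.sigmaCore M ⊓ 𝐂(K))) ⊤ :=
      Set.ext fun a => H45.mem_classSupport_top.symm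
    rw [e1]
    exact h9

end Cfsg.Agent.S1434
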