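import Cfsg.Statements.S1436
import Mathlib
import Cfsg.Agent.Lib.BG.T14_2
import Cfsg.Agent.Lib.BG.T14_4
import Cfsg.Agent.Lib.BG.T14_12
import Cfsg.Agent.Lib.BG.T16_0

set_option autoImplicit false
open Cfsg

namespace Cfsg.Agent.S1436

open H45 H69 in

/-- Let G be a minimal simple group of odd order, M a maximal subgroup, x ≠ 1 in M_σ with C_G(x) ⊄ M, and N a maximal subgroup containing C_G(x). (a) If some prime of σ(N) divides the order of M, then κ(M) = ∅ and τ₂(M) = ∅. (b) If y ≠ 1 in M_σ has C_G(y) ⊄ M, N' is a maximal subgroup containing C_G(y), and gN'g⁻¹ = N for some g ∈ G, then mN'm⁻¹ = N for some m ∈ M. -/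
theorem result {G : Type*} [Group G] [Finite G] (hG : Cfsg.IsMinSimpleOddOrder G)
    (M : Subgroup G) (hM : IsCoatom M) (x : G) (hx : x ∈ Cfsg.sigmaCore M) (hx1 : x ≠ 1) (hxM : ¬ Subgroup.centralizer ({x} : Set G) ≤ M)
    (N : Subgroup G) (hN : IsCoatom N) (hxN : Subgroup.centralizer ({x} : Set G) ≤ N) :
    ((∃ p ∈ Cfsg.sigma N, p ∣ Nat.card M) → Cfsg.kappa M = ∅ ∧ Cfsg.tau2 M = ∅) ∧
      ∀ (y : G) (N' : Subgroup G) (g : G), y ∈ Cfsg.sigmaCore M → y ≠ 1 → ¬ Subgroup.centralizer ({y} : Set G) ≤ M → IsCoatom N' → Subgroup.centralizer ({y} : Set G) ≤ N' →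
        N'.map (MulAut.conj g).toMonoidHom = N → ∃ m ∈ M, N'.map (MulAut.conj m).toMonoidHom = N := by
  have : Fact (Cfsg.IsMinSimpleOddOrder G) := ⟨hG⟩
  have key : ∀ (y : G) (N' : Subgroup G), y ∈ Cfsg.sigmaCore M → y ≠ 1 → ¬ 𝐂[y] ≤ M →
      IsCoatom N' → 𝐂[y] ≤ N' →
      ellSigma y = 1 ∧ 1 < (MSigmaOf y).ncard ∧ N' = sigN y := by
    intro y N' hy hy1 hyM hN' hyN
    have h1 : ellSigma y = 1 := H45.BG.ell_sigma1.2 ⟨hy1, M, hM, hy⟩
    have h2 := (H45.BG.cent1_not_le_iff hM hy hy1).1 hyM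
    exact ⟨h1, h2, H45.eq_uniq_mmax (H45.BG.sigN_uniqMax h1 h2) hN' hyN⟩
  obtain ⟨h1, h2, rfl⟩ := key x N hx hx1 hxM hN hxN
  refine ⟨?_, fun y N' g hy hy1 hyM hN' hyN hg => ?_⟩
  · rintro ⟨p, hp, hpM⟩
    obtain ⟨h3, h4⟩ := H45.BG.non_disjoint_signalizer_Frobenius h1 h2 ⟨hM, hx⟩
      fun h => h p (H45.sigma_prime hp) hpM hp
    exact ⟨h3.2, Set.eq_empty_of_forall_notMem fun q hq =>
      h4 q (H45.tau2_prime hq) (H45.tau2_dvd hq) hq⟩
  · obtain ⟨h3, h4, rfl⟩ := key y N' hy hy1 hyM hN' hyN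
    obtain ⟨-, -, hτ, -, hx'⟩ := (H45.BG.FT_signalizer_context h1).2 h2
    obtain ⟨-, hτσ, -, hH⟩ := hx' M ⟨hM, hx⟩
    obtain ⟨-, -, -, hH'⟩ := ((H45.BG.FT_signalizer_context h3).2 h4).2.2.2.2 M ⟨hM, hy⟩
    have hH'' := H45.Hall.cj hH' g
    rw [← H45.sigmaJ _ g, hg] at hH''
    obtain ⟨n, hn, e⟩ := H45.Hall_trans (H45.mmax_sol hN) hH'' hH
    rw [H69.cj_cj] at e
    obtain ⟨p, hp⟩ := H45.primesOf_nonempty (H45.zpowers_ne_bot hx1)
    have : Fact p.Prime := ⟨hp.1⟩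
    have hp2 := (H45.isPiElt_iff.1 hτ).mem_of_mem_primesOf hp
    obtain ⟨A, hA⟩ := H45.BG.ex_tau2Elem hN hH hp2
    have hAM : A ≤ M := hA.1.trans inf_le_left
    have hAs : A ≤ Cfsg.sigmaCore M :=
      H45.BG.s13_sigma_sub_Msigma hM hAM (H4.pn_isPi hA (hτσ hp2))
    have hAg : A ≤ M ^ᶜ (n * g) := by
      have h5 := hA.1
      rw [← e] at h5
      exact h5.trans (H69.cj_mono _ inf_le_left)
    have hm : n * g ∈ M := by
      by_contra h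
      obtain ⟨E, hE, -⟩ := H45.BG.ex_sigma_compl hM bot_le (H45.isPi_bot _)
      exact hA.not_cyclic (by norm_num)
        (H45.cyclicS ((H45.BG.sigma_compl_embedding hM hE).2.2 _ h).1 (le_inf hAs hAg))
    refine ⟨n * g, hm, ?_⟩
    rw [← H69.cj_cj, hg, H69.cj_eq_of_mem hn]

end Cfsg.Agent.S1436
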