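import Cfsg.Statements.S1437
import Mathlib
import Cfsg.Agent.Lib.BG.T14_2
import Cfsg.Agent.Lib.BG.T15_1
import Cfsg.Agent.Lib.BG.T15_2
import Cfsg.Agent.Lib.BG.T16_0
import Cfsg.Agent.Lib.BG.Api.Quo
import Cfsg.Agent.Lib.BG.Api.Core2

set_option autoImplicit false
open Cfsg

namespace Cfsg.Agent.S1437

open H45 H69 in

/-- Let G be a minimal simple group of odd order and M a maximal subgroup with standard factorisation M = K U M_σ such that M_F ≠ M_σ; put K* = M_σ ∩ C_G(K), p = #K, q = #K*. Then U = 1 and M_σ = M'; p and q are prime, q divides #M_F and q ∈ β(M); M_σ has a Sylow q-subgroup Q normal in M and contained in M_F; every complement D of Q in M_σ is nilpotent, and Q₀ = Q ∩ C_G(D) is normal in M; Q₀ < Q with #Q = #Q₀ · q ^ p, every element of Q has its q-th power and all its commutators with Q in Q₀, and every subgroup strictly between Q₀ and Q fails to be normal in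 M. -/
theorem result {G : Type*} [Group G] [Finite G] (hG : Cfsg.IsMinSimpleOddOrder G)
    (M : Subgroup G) (hM : IsCoatom M) (K U : Subgroup G) (hKU : Cfsg.IsSigmaDecomposition M K U) (hne : Cfsg.fittingHallOf M ≠ Cfsg.sigmaCore M) :
    U = ⊥ ∧ Cfsg.sigmaCore M = ⁅M, M⁆ ∧ (Nat.card K).Prime ∧ (Nat.card ↥(Cfsg.sigmaCore M ⊓ Subgroup.centralizer (K : Set G))).Prime ∧
      Nat.card ↥(Cfsg.sigmaCore M ⊓ Subgroup.centralizer (K : Set G)) ∣ Nat.card (Cfsg.fittingHallOf M) ∧ Nat.card ↥(Cfsg.sigmaCore M ⊓ Subgroup.centralizer (K : Set G)) ∈ Cfsg.beta M ∧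
      ∃ Q : Subgroup G, Q ≤ Cfsg.fittingHallOf M ∧ M ≤ Subgroup.normalizer (Q : Set G) ∧ IsPGroup (Nat.card ↥(Cfsg.sigmaCore M ⊓ Subgroup.centralizer (K : Set G))) Q ∧
        ¬ Nat.card ↥(Cfsg.sigmaCore M ⊓ Subgroup.centralizer (K : Set G)) ∣ Q.relIndex (Cfsg.sigmaCore M) ∧
        ∀ D : Subgroup G, Cfsg.IsComplIn Q D (Cfsg.sigmaCore M) →
          Group.IsNilpotent D ∧ M ≤ Subgroup.normalizer ((Q ⊓ Subgroup.centralizer (D : Set G) : Subgroup G) : Set G) ∧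
          Q ⊓ Subgroup.centralizer (D : Set G) < Q ∧
          Nat.card Q = Nat.card ↥(Q ⊓ Subgroup.centralizer (D : Set G)) * Nat.card ↥(Cfsg.sigmaCore M ⊓ Subgroup.centralizer (K : Set G)) ^ Nat.card K ∧
          (∀ a ∈ Q, ∀ b ∈ Q, a ^ Nat.card ↥(Cfsg.sigmaCore M ⊓ Subgroup.centralizer (K : Set G)) ∈ Q ⊓ Subgroup.centralizer (D : Set G) ∧
            a * b * a⁻¹ * b⁻¹ ∈ Q ⊓ Subgroup.centralizer (D : Set G)) ∧
          ∀ N : Subgroup G, Q ⊓ Subgroup.centralizer (D : Set G) < N → N < Q → ¬ M ≤ Subgroup.normalizer (N : Set G) := by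
  have : Fact (Cfsg.IsMinSimpleOddOrder G) := ⟨hG⟩
  have hUK := (H45.BG.sigmaDecomposition_iff hM).1 hKU
  have hK := hUK.2.1
  have hsol : Group.IsSolvable (Cfsg.sigmaCore M) := H45.mmax_sub_sol hM (H45.Msigma_le M)
  generalize hq : Nat.card ↥(Cfsg.sigmaCore M ⊓ 𝐂(K)) = q
  obtain ⟨D₀, hD₀, hKD⟩ := H45.coprime_Hall_exists ({q}ᶜ) (hK.le.trans (H45.le_norm_Msigma M))
    (H45.coprime_Msigma (hK.isPi.mono (H45.kappa_sub_sigma' M))) hsol
  obtain ⟨⟨h1, -, h2⟩, ⟨h3, h4, h5, h6⟩, ⟨h7, h8, h9⟩, ⟨h10, h11, h12⟩, -⟩ :=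
    H45.BG.Fcore_structure hM hK hne rfl hq.symm rfl rfl hD₀ hKD
  have : Fact q.Prime := ⟨h4⟩
  have hQn := H45.pcore_normal {q} M
  generalize Cfsg.piCoreOf {q} M = Q at h7 h9 h10 h11 h12 hQn
  have hQF : Q ≤ Cfsg.fittingHallOf M := H45.Fcore_max_Syl h7 hQn.norm
  have hQs : Q ≤ Cfsg.sigmaCore M := hQF.trans (H45.BG.Fcore_sub_Msigma hM)
  have hS : Syl q Q (Cfsg.sigmaCore M) := h7.mono hQs (H45.Msigma_le M)
  refine ⟨(H45.BG.trivg_kappa_compl hM hUK).2 h1, h2, h3, h4, h5.2, h6, Q, hQF, hQn.norm, h7.isP,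
    hS.not_dvd_relIndex, fun D hD => ?_⟩
  have hD' : Hall ({q}ᶜ) D (Cfsg.sigmaCore M) :=
    (H45.sdprod_of_isComplIn (hQn.mono hQs (H45.Msigma_le M)) hD).hall_compl (Syl.hall hS h4)
  obtain ⟨g, hg, rfl⟩ := H45.Hall_trans hsol hD₀ hD'
  have hgM := H45.Msigma_le M hg
  have e : Q ⊓ 𝐂(D₀ ^ᶜ g) = Q ⊓ 𝐂(D₀) := by
    rw [← H69.cj_centralizer, ← h9.cj_eq hgM, H69.cj_inf, hQn.cj_eq hgM]
  rw [e]
  generalize Q ⊓ 𝐂(D₀) = Q₀ at h9 h10 h11 h12
  have hn : Q ≤ 𝐍(Q₀) := hQn.le.trans h9.norm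
  refine ⟨?_, h9.norm, h10.1, ?_, fun a ha b hb => ⟨?_, ?_⟩, fun N hN1 hN2 hN => ?_⟩
  · exact Group.nilpotent_of_mulEquiv ((MulAut.conj g).subgroupMap D₀)
  · rw [← h12, H45.card_quotient_mul ⟨h10.1.le, hn⟩]
  · rw [← H45.coset_eq_one_iff (hn (Q.pow_mem ha q)), H45.ap_pow _ (hn ha)]
    exact h11.2 _ (H45.mem_quotient _ ha)
  · exact (H45.quotient_abelian_iff hn).1 h11.1 (Subgroup.commutator_mem_commutator ha hb)
  · rcases h10.2.2.2 N hN1.le hN2.le hN with h | h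
    · exact hN1.ne' h
    · exact hN2.ne h

end Cfsg.Agent.S1437
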