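import Cfsg.Statements.S1439
import Mathlib
import Cfsg.Agent.Lib.BG.T15_5
import Cfsg.Agent.Lib.BG.Api.Core

set_option autoImplicit false
open Cfsg

namespace Cfsg.Agent.S1439

open H45 H69 in

/-- Let G be a minimal simple group of odd order and M a maximal subgroup, and let Y be the largest normal subgroup of F(M) involving no prime of σ(M). Then Y is cyclic, every prime divisor of its order lies in τ₂(M), and F(M) is generated by F(M_σ) and Y (a direct product, the orders being coprime). -/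
theorem result {G : Type*} [Group G] [Finite G] (hG : Cfsg.IsMinSimpleOddOrder G)
    (M : Subgroup G) (hM : IsCoatom M) :
    IsCyclic ↥(Cfsg.piCoreOf {q | q.Prime ∧ q ∉ Cfsg.sigma M} (Cfsg.fittingOf M)) ∧
      (∀ p : ℕ, p.Prime → p ∣ Nat.card ↥(Cfsg.piCoreOf {q | q.Prime ∧ q ∉ Cfsg.sigma M} (Cfsg.fittingOf M)) → p ∈ Cfsg.tau2 M) ∧
      Cfsg.fittingOf M = Cfsg.fittingOf (Cfsg.sigmaCore M) ⊔ Cfsg.piCoreOf {q | q.Prime ∧ q ∉ Cfsg.sigma M} (Cfsg.fittingOf M) := by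
  have : Fact (Cfsg.IsMinSimpleOddOrder G) := ⟨hG⟩
  have e : Cfsg.piCoreOf {q | q.Prime ∧ q ∉ Cfsg.sigma M} (Cfsg.fittingOf M) =
      Cfsg.piCoreOf (Cfsg.sigma M)ᶜ (Cfsg.fittingOf M) :=
    H45.eq_pcore (fun p hp => ⟨fun h => h.2, fun h => show p.Prime ∧ _ from ⟨hp, h⟩⟩) _
  rw [e]
  obtain ⟨⟨h1, h2⟩, ⟨-, -, h3⟩, -⟩ := H45.BG.Fitting_structure hM
  exact ⟨h1, h2, h3.1.symm⟩

end Cfsg.Agent.S1439
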