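import Mathlib
import Cfsg.Statements.S1441
import Cfsg.Agent.Lib.Core.Coprime
import Cfsg.Agent.Lib.Transfer.NormalComplement
import Cfsg.Agent.Lib.Core.PCore

set_option autoImplicit false
open Cfsg

namespace Cfsg.Agent.S1441

/-- Let G be a finite group, H a solvable subgroup and A a subgroup normalizing H. Suppose there is a chain H = H₀ ≥ H₁ ≥ ⋯ ≥ H_n = 1 of subgroups normal in H and normalized by A such that A acts trivially on each factor H_{i-1}/H_i (that is, [H_{i-1}, A] ≤ H_i). Then every prime dividing the index of C_A(H) in A divides the order of H. -/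
theorem result {G : Type*} [Group G] [Finite G] (H A : Subgroup G) (hH : Group.IsSolvable H) (hA : (A ≤ Subgroup.normalizer (H : Set G)))
    (n : ℕ) (c : Fin (n + 1) → Subgroup G) (hc0 : c 0 = H) (hcn : c (Fin.last n) = ⊥) (hanti : Antitone c)
    (hcN : ∀ i, H ≤ Subgroup.normalizer ((c i : Subgroup G) : Set G)) (hcA : ∀ i, A ≤ Subgroup.normalizer ((c i : Subgroup G) : Set G))
    (htriv : ∀ i : Fin n, ⁅c i.castSucc, A⁆ ≤ c i.succ) :
    ∀ p : ℕ, p.Prime → p ∣ (A ⊓ Subgroup.centralizer (H : Set G)).relIndex A → p ∣ Nat.card H := by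
  intro p hp hdvd
  by_contra hpH
  haveI := Fact.mk hp
  obtain ⟨S, -, hS⟩ := H4.exists_sylow_ge_not_dvd_relIndex (p := p) (K := A) (A := ⊥)
    IsPGroup.of_bot bot_le
  apply hS
  have hP : IsPGroup p ((S : Subgroup G) ⊓ A : Subgroup G) := S.isPGroup'.to_le inf_le_left
  have hC : (S : Subgroup G) ⊓ A ≤ Subgroup.centralizer (H : Set G) := by
    have := H2.le_centralizer_of_chain (A := (S : Subgroup G) ⊓ A)
      (fun i => if h : i < n + 1 then c ⟨i, h⟩ else ⊥) n
      (by simpa [hc0] using inf_le_right.trans hA)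
      (by
        simp only [Nat.zero_lt_succ, dite_true, Fin.zero_eta, hc0]
        exact H1.coprime_card_of_isPGroup_of_coprime hP
          ((Nat.coprime_comm.1 ((Nat.Prime.coprime_iff_not_dvd hp).2 hpH))))
      (by
        intro i hi
        simp only [dif_pos (Nat.lt_succ_of_lt hi), dif_pos (Nat.succ_lt_succ hi)]
        exact (Subgroup.commutator_mono le_rfl inf_le_right).trans (htriv ⟨i, hi⟩))
      (by
        simp only [Nat.lt_succ_self, dite_true]
        have : c ⟨n, Nat.lt_succ_self n⟩ = ⊥ := hcn
        rw [this]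
        intro x _ y hy
        have : y = 1 := by simpa using hy
        simp [this])
    simpa [hc0] using this
  rw [← Subgroup.inf_relIndex_right (S : Subgroup G) A]
  exact hdvd.trans (Subgroup.relIndex_dvd_of_le_left A (le_inf inf_le_right hC))

end Cfsg.Agent.S1441
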