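import Mathlib
import Cfsg.Statements.S1443
import Cfsg.Agent.Lib.BG6.Omega

set_option autoImplicit false
open Cfsg

namespace Cfsg.Agent.S1443

/-- Let G be a finite group, p an odd prime, H a p-subgroup, E an elementary abelian subgroup of H, and A a subgroup of order coprime to p normalizing H. If A centralizes every element of order p in H ∩ C_G(E), then A centralizes H. -/
theorem result {G : Type*} [Group G] [Finite G] (p : ℕ) [Fact p.Prime] (hp : p ≠ 2) (H E A : Subgroup G) (hH : IsPGroup p H) (hE : E ≤ H) (hEe : Cfsg.IsElementaryAbelian p E)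
    (hA : (A ≤ Subgroup.normalizer (H : Set G))) (hcop : (Nat.card A).Coprime p)
    (hfix : ∀ x ∈ (H ⊓ Subgroup.centralizer (E : Set G)), orderOf x = p → A ≤ Subgroup.centralizer ({x} : Set G)) :
    A ≤ Subgroup.centralizer (H : Set G) := by
  have hfix' : ∀ x ∈ H, x ∈ Subgroup.centralizer (E : Set G) → x ^ p = 1 → ∀ a ∈ A, x * a = a * x := by
    intro x hx hxE hxp a ha
    by_cases h1 : x = 1
    · simp [h1]
    · exact (hfix x ⟨hx, hxE⟩ (orderOf_eq_prime hxp h1) ha x rfl)
  refine H49.le_centralizer_of_fix_omega_centralizer hp hH hE hA hcop ?_ hfix'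
  intro x hx a ha
  refine (hfix' x (hE hx) (fun y hy => ?_) (hEe.2 x hx) a ha).symm
  exact congrArg Subtype.val (hEe.1.is_comm.comm (⟨y, hy⟩ : E) ⟨x, hx⟩)

end Cfsg.Agent.S1443
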