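import Cfsg.Statements.S1446
import Mathlib
import Cfsg.Agent.Lib.BG47.Act

set_option autoImplicit false
open Cfsg

namespace Cfsg.Agent.S1446

/-- Let X be a finite group with subgroups K, R, M such that: K and R are nontrivial, K ∩ R = 1, R normalizes K, no non-identity element of R centralizes a non-identity element of K, K ⊔ R is solvable of odd order; M is nilpotent and nontrivial, normalized by K and by R, with order coprime to that of K ⊔ R, M ∩ C(K) = 1, and M ∩ C(x) = M ∩ C(R) for all non-identity x ∈ R. Then R has prime order p, #M = #(M ∩ C(R)) ^ p, and if M ∩ C(R) is cyclic then [K, K] centralizes M. -/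
theorem result {X : Type*} [Group X] [Finite X] (K R M : Subgroup X) (hK1 : K ≠ ⊥) (hR1 : R ≠ ⊥) (hKR : K ⊓ R = ⊥)
    (hRK : R ≤ Subgroup.normalizer (K : Set X)) (hfrob : ∀ r ∈ R, r ≠ 1 → K ⊓ Subgroup.centralizer ({r} : Set X) = ⊥)
    (hsolv : Group.IsSolvable ↥(K ⊔ R)) (hodd : Odd (Nat.card ↥(K ⊔ R)))
    (hM1 : M ≠ ⊥) (hMn : Group.IsNilpotent M) (hKM : K ≤ Subgroup.normalizer (M : Set X)) (hRM : R ≤ Subgroup.normalizer (M : Set X))
    (hcop : (Nat.card ↥(K ⊔ R)).Coprime (Nat.card M)) (hCK : M ⊓ Subgroup.centralizer (K : Set X) = ⊥)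
    (hpr : ∀ x ∈ R, x ≠ 1 → M ⊓ Subgroup.centralizer ({x} : Set X) = M ⊓ Subgroup.centralizer (R : Set X)) :
    (Nat.card R).Prime ∧ Nat.card M = Nat.card ↥(M ⊓ Subgroup.centralizer (R : Set X)) ^ Nat.card R ∧
      (IsCyclic ↥(M ⊓ Subgroup.centralizer (R : Set X)) → ⁅K, K⁆ ≤ Subgroup.centralizer (M : Set X)) := by
  have hMs : Group.IsSolvable M := inferInstance
  have hcard : ∀ E : Subgroup X, E ≤ R →
      Nat.card M = Nat.card ↥(M ⊓ Subgroup.centralizer (E : Set X)) ^ Nat.card E := fun E hE =>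
    H53.Wielandt.frobenius_card_eq K E M (le_bot_iff.1 (hKR ▸ inf_le_inf_left K hE))
      (fun _ he _ hu => H2.conj_mem_of_le_normalizer hRK (hE he) hu)
      (fun e he he1 u hu h => by
        have : u ∈ K ⊓ Subgroup.centralizer ({e} : Set X) :=
          ⟨hu, Subgroup.mem_centralizer_singleton_iff.2 h.symm⟩
        rwa [hfrob e (hE he) he1, Subgroup.mem_bot] at this)
      (sup_le hKM (hE.trans hRM)) hMs
      (H2.coprime_of_le_left hcop (sup_le_sup_left hE K)).symm hCK
  have hR : (Nat.card R).Prime := by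
    obtain ⟨r, hr, hd⟩ := Nat.exists_prime_and_dvd (mt Subgroup.card_eq_one.1 hR1)
    obtain ⟨x, hx, hxr⟩ := H1.exists_mem_orderOf_eq_prime hr hd
    have hx1 : x ≠ 1 := fun h => hr.ne_one (by rw [← hxr, h, orderOf_one])
    have h1 := hcard _ (Subgroup.zpowers_le_of_mem hx)
    rw [H69.centralizer_zpowers, hpr x hx hx1, Nat.card_zpowers, hxr] at h1
    have h2 := hcard R le_rfl
    have h3 : 2 ≤ Nat.card ↥(M ⊓ Subgroup.centralizer (R : Set X)) := by
      by_contra h
      have h4 : Nat.card ↥(M ⊓ Subgroup.centralizer (R : Set X)) = 1 := by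
        have := Nat.card_pos (α := ↥(M ⊓ Subgroup.centralizer (R : Set X)))
        omega
      rw [h4, one_pow] at h2
      exact hM1 (Subgroup.card_eq_one.1 h2)
    rwa [Nat.pow_right_injective h3 (h2.symm.trans h1)]
  refine ⟨hR, hcard R le_rfl, fun hC => ?_⟩
  obtain ⟨x, hx, hx1⟩ := (Subgroup.ne_bot_iff_exists_ne_one.1 hR1).imp fun x h => And.intro x.2 h
  have hx1' : (x : X) ≠ 1 := fun h => hx1 (Subtype.ext h)
  exact H47.bg35_nil hRK hR
    (by rw [← H47.centralizer_eq_of_card_prime hR hx hx1']; exact hfrob x hx hx1') hMn hKM hRM hcop hC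

end Cfsg.Agent.S1446
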