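import Mathlib
import Cfsg.Statements.S1454
import Cfsg.Agent.Lib.BG5.NarrowSolv
import Cfsg.Agent.Lib.BG6.Coprime
import Cfsg.Agent.S1448
import Cfsg.Agent.Lib.BG4.Rank1

set_option autoImplicit false
open Cfsg

namespace Cfsg.Agent.S1454

/-- Let G be a finite group, p an odd prime, R a narrow p-subgroup and A a solvable subgroup of odd order normalizing R with A ∩ C_G(R) = 1. Then [A, A] ≤ O_p(A) and the index of O_p(A) in A is coprime to p; if R has an elementary abelian subgroup of order p ^ 3 then the order of every element of A of order coprime to p divides p − 1; and if the order of A is a prime not dividing p(p − 1), then 2·#A divides p + 1, and if in addition [R, A] = R and R is non-abelian then #R = p ^ 3. -/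
theorem result {G : Type*} [Group G] [Finite G] (p : ℕ) [Fact p.Prime] (hp : p ≠ 2) (R A : Subgroup G) (hR : IsPGroup p R) (hRn : Cfsg.IsNarrow p R)
    (hA : (A ≤ Subgroup.normalizer (R : Set G))) (hAs : Group.IsSolvable A) (hAodd : Odd (Nat.card A)) (hfaith : A ⊓ Subgroup.centralizer (R : Set G) = ⊥) :
    (commutator ↥A ≤ Cfsg.pCore p ↥A ∧ ((Cfsg.pCore p ↥A).index).Coprime p) ∧
      (¬ Cfsg.PRankLE p 2 R → ∀ a ∈ A, (orderOf a).Coprime p → orderOf a ∣ p - 1) ∧
      ((Nat.card A).Prime → ¬ Nat.card A ∣ p * (p - 1) →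
        2 * Nat.card A ∣ p + 1 ∧ (⁅R, A⁆ = R → ¬ IsMulCommutative R → Nat.card R = p ^ 3)) := by
  have hpp : p.Prime := Fact.out
  have hone : ∀ a ∈ A, a ∈ Subgroup.centralizer (R : Set G) → a = 1 := fun a ha hc => by
    rw [← Subgroup.mem_bot, ← hfaith]; exact ⟨ha, hc⟩
  have h1 : commutator ↥A ≤ Cfsg.pCore p ↥A := by
    refine H49.commutator_le_pCore_of_forall_coprime (MonoidHom.id A) Function.surjective_id
      fun g hg hc => Subtype.ext (hone g g.2 ?_)
    refine H49.mem_centralizer_of_mem_commutator_of_narrow hp hR hRn hA hAs hAodd ?_ (by simpa using hc)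
    rw [← Subgroup.map_subtype_commutator]
    exact Subgroup.mem_map_of_mem _ hg
  have h2 : ¬ Cfsg.PRankLE p 2 R → ∀ a ∈ A, (orderOf a).Coprime p → orderOf a ∣ p - 1 :=
    fun hr a ha hc => orderOf_dvd_of_pow_eq_one
      (hone _ (pow_mem ha _) ((H49.aut_narrow_rank_three hp hR hr hRn hA).2 a ha hc))
  refine ⟨⟨h1, H48.coprime_index_pCore_of_commutator_le h1⟩, h2, fun hq hd => ?_⟩
  haveI := Fact.mk hq
  have hqp : Nat.card A ≠ p := fun h => hd (h ▸ dvd_mul_right _ _)
  have hq1 : ¬ Nat.card A ∣ p - 1 := fun h => hd (h.mul_left _)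
  have hcop : (Nat.card A).Coprime p := (Nat.coprime_primes hq hpp).2 hqp
  have hr : Cfsg.PRankLE p 2 R := by
    by_contra hr
    obtain ⟨a, ha, hao⟩ := H1.exists_mem_orderOf_eq_prime (H := A) hq dvd_rfl
    exact hq1 (hao ▸ h2 hr a ha (hao ▸ hcop))
  constructor
  · have h3 := H48.dvd_sq_sub_one_of_not_le_centralizer hp hR hr hA hqp
      (IsPGroup.of_card (n := 1) (pow_one _).symm) (fun h => by
        rw [inf_eq_left.2 h] at hfaith
        rw [hfaith, Subgroup.card_bot] at hq
        exact Nat.not_prime_one hq)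
    have h4 : p ^ 2 - 1 = (p + 1) * (p - 1) := by
      simpa using Nat.sq_sub_sq p 1
    rw [h4] at h3
    refine Nat.Coprime.mul_dvd_of_dvd_of_dvd (Nat.coprime_two_left.2 hAodd) ?_
      (((Nat.Prime.dvd_mul hq).1 h3).resolve_right hq1)
    exact (hpp.odd_of_ne_two hp).add_one.two_dvd
  intro hRA hna
  have hR1 : R ≠ ⊥ := fun h => hna (h ▸ inferInstance)
  obtain ⟨R₁, R₂, e1, e2, e3, e4, e5, e6, -⟩ :=
    ((Cfsg.Agent.S1448.result p hp R A hR hR1 hr hA hcop hAodd hRA).2).resolve_left hna
  have hR₁ : R₁ ≤ R := e1 ▸ le_sup_left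
  have hR₂ : R₂ ≤ R := e1 ▸ le_sup_right
  have h21 : R₂ ≤ Subgroup.centralizer (R₁ : Set G) := fun b hb a ha => e2 a ha b hb
  have h22 : R₂ ≤ Subgroup.centralizer (R₂ : Set G) :=
    Subgroup.le_centralizer_iff_isMulCommutative.2 e6.isMulCommutative
  set Z := R ⊓ Subgroup.centralizer (R : Set G) with hZ
  have hZp : IsPGroup p Z := hR.to_le inf_le_left
  have hZc : IsCyclic Z := by
    by_contra hZc
    obtain ⟨E, hE, -, hEe, hE2⟩ := H48.exists_normal_p2_of_not_isCyclic hp hZp hZc
    refine e3 (H24.isMulCommutative_of_le hEe.1 fun x hx => ?_)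
    have hxp : x ^ p = 1 := by
      have := Monoid.pow_exponent_eq_one (⟨x, hx⟩ : R₁)
      rw [e5] at this
      exact congrArg Subtype.val this
    have h3 := H24.EA.sup hEe (H24.EA.zpowers hxp) (hE.trans (inf_le_right.trans
      (H24.centralizer_anti (Subgroup.zpowers_le.2 (hR₁ hx)))))
    have h4 := H49.pRankLE_subgroup_iff.1 hr _
      (sup_le (hE.trans inf_le_left) (Subgroup.zpowers_le.2 (hR₁ hx))) h3
    rw [Subgroup.eq_of_le_of_card_ge le_sup_left (h4.trans hE2.ge)]
    exact Subgroup.mem_sup_right (Subgroup.mem_zpowers x)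
  have hAZ : A ≤ Subgroup.centralizer (Z : Set G) := by
    intro a ha
    refine H4.mem_of_pow_mem_of_coprime (H49.pow_totient_mem_centralizer_of_isCyclic hZc
      (H2.le_normalizer_inf hA (H2.le_normalizer_centralizer hA) ha))
      (Nat.Coprime.coprime_dvd_left (H1.orderOf_dvd_card_of_mem ha) ?_)
    obtain ⟨k, hk⟩ := hZp.exists_card_eq
    rw [hk]
    rcases k with _ | k
    · simp
    · rw [Nat.totient_prime_pow_succ hpp]
      exact Nat.Coprime.mul_right (hcop.pow_right k) ((Nat.Prime.coprime_iff_not_dvd hq).2 hq1)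
  have h3 : R₂ ≤ R₁ := by
    have h4 : R₂ ≤ Z := le_inf hR₂ (by rw [← e1, H24.centralizer_sup]; exact le_inf h21 h22)
    refine (le_inf hR₂ (h4.trans (Subgroup.le_centralizer_iff.1 hAZ))).trans
      ((H2.inf_centralizer_le_commutator hA (H2.coprime_card_of_isPGroup hcop hR) hRA.ge).trans ?_)
    rw [← e1]
    refine H49.commutator_sup_sup_le Subgroup.le_normalizer
      (h21.trans (Subgroup.centralizer_le_normalizer _))
      (H2.commutator_le_of_le_normalizer Subgroup.le_normalizer)
      (H2.commutator_le_of_le_normalizer (h21.trans (Subgroup.centralizer_le_normalizer _))) ?_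
    rw [Subgroup.commutator_eq_bot_iff_le_centralizer.2 h22]
    exact bot_le
  rw [← e1, sup_eq_left.2 h3, e4]

end Cfsg.Agent.S1454
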