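import Mathlib
import Cfsg.Statements.S1456
import Cfsg.Agent.Lib.BG5.NarrowSolv

set_option autoImplicit false
open Cfsg

namespace Cfsg.Agent.S1456

/-- Let G be a solvable group of odd order, p a prime, and E an elementary abelian p-subgroup of the Fitting subgroup F(G) such that F(G) ∩ C_G(E) has no elementary abelian subgroup of order q ^ 3 for any prime q. Then the derived subgroup of G is contained in F(G). -/
theorem result {G : Type*} [Group G] [Finite G] [Group.IsSolvable G] (hodd : Odd (Nat.card G)) (p : ℕ) [Fact p.Prime] (E : Subgroup G) (hE : E ≤ Cfsg.fittingSubgroup G) (hEe : Cfsg.IsElementaryAbelian p E)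
    (hr : Cfsg.RankLE 2 ↥(Cfsg.fittingSubgroup G ⊓ Subgroup.centralizer (E : Set G))) :
    commutator G ≤ Cfsg.fittingSubgroup G := by
  refine H49.commutator_le_fitting_of_narrow hodd fun r hr => ?_
  haveI := Fact.mk hr
  have hEp : E ≤ Cfsg.pCore p G := H1.le_pCore_of_le_fitting (H24.EA.isPGroup hEe) hE
  by_cases hrp : r = p
  · subst hrp
    by_cases h2 : r = 2
    · left
      have : Cfsg.pCore r G = ⊥ := H69.eq_bot_of_not_dvd H1.isPGroup_pCore le_top
        (fun h => H48.ne_two_of_dvd_of_odd (H48.odd_card_subgroup hodd _) h h2)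
      exact H49.pRankLE_of_le (this.le.trans bot_le) (‹Cfsg.RankLE 2 _› r hr)
    refine H49.isNarrow_of_centralizer_ea h2 H1.isPGroup_pCore (H24.EA.subgroupOf hEe _) ?_
    rw [← H49.pRankLE_map_iff (Cfsg.pCore r G).subtype_injective, H69.map_subtype_centralizer,
      Subgroup.map_subgroupOf_eq_of_le hEp]
    exact H49.pRankLE_of_le (inf_le_inf_right _ (H1.pCore_le_fitting r)) (‹Cfsg.RankLE 2 _› r hr)
  · left
    refine H49.pRankLE_of_le (le_inf (H1.pCore_le_fitting r) ?_) (‹Cfsg.RankLE 2 _› r hr)
    exact ((H1.pCore_le_pPrimeCore ((Nat.coprime_primes hr Fact.out).2 hrp)).trans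
      H1.pPrimeCore_le_centralizer_pCore).trans (H24.centralizer_anti hEp)

end Cfsg.Agent.S1456
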