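import Mathlib
import Cfsg.Statements.S1457
import Cfsg.Agent.Lib.BG6.PLength
import Cfsg.Agent.S1465

set_option autoImplicit false
open Cfsg

namespace Cfsg.Agent.S1457

/-- Let G be a solvable group of odd order, p a prime, S a Sylow p-subgroup of G and A an abelian subgroup of S normal in S. Then A ≤ O_{p',p}(G). -/
theorem result {G : Type*} [Group G] [Finite G] [Group.IsSolvable G] (hodd : Odd (Nat.card G)) (p : ℕ) [Fact p.Prime] (S : Sylow p G) (A : Subgroup G) (hA : A ≤ (S : Subgroup G)) (hAc : IsMulCommutative A)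
    (hAn : (S : Subgroup G) ≤ Subgroup.normalizer (A : Set G)) :
    A ≤ Cfsg.pPrimePCore p G := by
  by_cases hp : p = 2
  · subst hp
    have h1 : Nat.card A = 1 := by
      obtain ⟨k, hk⟩ := (S.isPGroup'.to_le hA).exists_card_eq
      have h2 : Odd (2 ^ k) := hk ▸ Odd.of_dvd_nat hodd (Subgroup.card_subgroup_dvd_card A)
      rcases k with _ | k
      · simpa using hk
      · exact absurd h2 (Nat.not_odd_iff_even.2 (by simp [Nat.even_pow]))
    rw [Subgroup.eq_bot_of_card_eq A h1]
    exact bot_le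
  rw [H49.le_pPrimePCore_iff]
  set f := QuotientGroup.mk' (Cfsg.pPrimeCore p G) with hf
  have hO : Cfsg.pPrimeCore p (G ⧸ Cfsg.pPrimeCore p G) = ⊥ := H1.pPrimeCore_quotient_pPrimeCore
  have h := (Cfsg.Agent.S1465.result (G := G ⧸ Cfsg.pPrimeCore p G)
    (Odd.of_dvd_nat hodd (Subgroup.card_quotient_dvd_card _)) p hp (Cfsg.pCore p _) H1.isPGroup_pCore
    {A.map f} ?_).2 hO (inf_le_right.trans (H1.centralizer_pCore_le_of_isSolvable hO))
  · simpa using h
  · rintro B rfl
    refine ⟨inferInstance, (S.isPGroup'.to_le hA).map f, ?_⟩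
    have h1 := H1.pCore_le_sylow (S.mapSurjective (QuotientGroup.mk'_surjective (Cfsg.pPrimeCore p G)))
    rw [Sylow.coe_mapSurjective] at h1
    exact h1.trans ((Subgroup.map_mono hAn).trans (Subgroup.le_normalizer_map f))

end Cfsg.Agent.S1457
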