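import Cfsg.Statements.S1474
import Cfsg.Agent.Lib.Loc45.CN

set_option autoImplicit false
open Cfsg
open H45 H69

namespace Cfsg.Agent.S1474

/-- Let G be a finite group in which every non-identity element has nilpotent centralizer, not itself nilpotent, and having a nontrivial normal Sylow p-subgroup for some prime p. Let H be the largest normal nilpotent Hall subgroup of G. Then H is a nontrivial proper normal subgroup with a complement E that is a Frobenius complement in G (no non-identity element of E centralizes a non-identity element of H), and G/H is nilpotent. -/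
theorem result {G : Type*} [Group G] [Finite G] (hCN : Cfsg.IsCNGroup G) (hnn : ¬ Group.IsNilpotent G) (p : ℕ) [Fact p.Prime] (P : Sylow p G)
    (hP1 : (P : Subgroup G) ≠ ⊥) (hPn : (P : Subgroup G).Normal) :
    Cfsg.fittingHall G ≠ ⊥ ∧ Cfsg.fittingHall G ≠ ⊤ ∧
      (∃ E : Subgroup G, Subgroup.IsComplement' (Cfsg.fittingHall G) E ∧ Cfsg.IsFrobeniusComplement E ∧
        ∀ e ∈ E, e ≠ 1 → Cfsg.fittingHall G ⊓ Subgroup.centralizer ({e} : Set G) = ⊥) ∧
      Group.IsNilpotent (G ⧸ Cfsg.fittingHall G) := by
  obtain ⟨E, hE, hn⟩ := CN.frobenius_of_normal_Syl hCN hnn (isSylowIn_top P) hP1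
    (normal_iff_top_le_normalizer.1 hPn)
  have e : fittingHallOf (⊤ : Subgroup G) = fittingHall G := by
    apply le_antisymm
    · refine Fcore_le fun K h1 h2 h3 => le_sSup ⟨normal_iff_top_le_normalizer.2 h2, h3, ?_⟩
      simpa using h1.2
    · exact sSup_le fun K hK => Fcore_max' ⟨le_top, by simpa using hK.2.2⟩
        (normal_iff_top_le_normalizer.1 hK.1) hK.2.1
  rw [e] at hE
  have hc := CN.isComplement'_of_sdprod hE.sdprod
  exact ⟨hE.ker_ne_bot, hE.ker_lt.ne, ⟨E, hc, (frobenius_top_iff hE.sdprod).1 hE, hE.reg_ker⟩,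
    Group.nilpotent_of_mulEquiv hc.symm.QuotientMulEquiv.symm⟩

end Cfsg.Agent.S1474
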