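import Cfsg.Statements.S1476
import Cfsg.Agent.Lib.Loc45.CN

set_option autoImplicit false
open Cfsg
open H45 H69

namespace Cfsg.Agent.S1476

/-- Let G be a finite solvable group in which every non-identity element has nilpotent centralizer. Then either G is nilpotent; or G has a normal subgroup K with a Frobenius complement E (K E = G, K ∩ E = 1, E meets its conjugates by outside elements trivially) such that E is cyclic or E is generated by two elementwise-commuting subgroups, one cyclic of odd order and one isomorphic to a generalized quaternion group; or G is a three-step group with respect to some prime p. -/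
theorem result {G : Type*} [Group G] [Finite G] [Group.IsSolvable G] (hCN : Cfsg.IsCNGroup G) :
    Group.IsNilpotent G ∨
      (∃ K E : Subgroup G, K.Normal ∧ Subgroup.IsComplement' K E ∧ Cfsg.IsFrobeniusComplement E ∧
        (IsCyclic E ∨ ∃ C Q : Subgroup G, C ⊔ Q = E ∧ (∀ a ∈ C, ∀ b ∈ Q, a * b = b * a) ∧ IsCyclic C ∧ Odd (Nat.card C) ∧
          ∃ n : ℕ, Nonempty (↥Q ≃* QuaternionGroup (2 ^ n)))) ∨
      ∃ p : ℕ, p.Prime ∧ Cfsg.IsThreeStepGroup p G := by
  by_cases hnn : Group.IsNilpotent G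
  · exact Or.inl hnn
  right
  by_cases h : ∃ (p : ℕ) (_ : Fact p.Prime) (P : Subgroup G), Syl p P ⊤ ∧ P ≠ ⊥ ∧ ⊤ ≤ 𝐍(P)
  · obtain ⟨p, _, P, h1, h2, h3⟩ := h
    obtain ⟨E, hE, hn⟩ := CN.frobenius_of_normal_Syl hCN hnn h1 h2 h3
    obtain ⟨h4, h5⟩ := CN.cyclic_or_quaternion_of_semiregular hE.reg_ker hE.norm hE.ker_ne_bot hn
    refine Or.inl ⟨_, E, normal_iff_top_le_normalizer.2 hE.normalIn.2,
      CN.isComplement'_of_sdprod hE.sdprod, (frobenius_top_iff hE.sdprod).1 hE,
      h5.imp_right fun h6 => ?_⟩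
    have hd := (nilpotent_pcoreC {2} hn).symm
    exact ⟨_, _, hd.sup_eq, fun a ha b hb => mem_centralizer_iff_commute.1 (hd.cent hb) a ha, h4,
      Nat.odd_iff.2 (Nat.two_dvd_ne_zero.1
        ((isPi_compl_singleton_iff Nat.prime_two).1 (pcore_pgroup _ _))), h6⟩
  · refine Or.inr (CN.threeStep hCN ‹_› ?_ fun p _ P h1 h2 h3 => h ⟨p, ‹_›, P, h1, h2, h3⟩)
    by_contra h1
    have := not_nontrivial_iff_subsingleton.1 h1
    exact hnn inferInstance

end Cfsg.Agent.S1476
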