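import Cfsg.Statements.S1481
import Cfsg.Agent.Lib.Misc92.PxQ
-- import your own Cfsg.Agent.* helpers here

set_option autoImplicit false
open Cfsg

namespace Cfsg.Agent.S1481

section
open Subgroup H69 H45
open scoped commutatorElement

variable {G : Type*} [Group G] [Finite G]

theorem zc_facts {H : Subgroup G} (hHmax : ∀ L : Subgroup G, IsLocalSubgroup L → H ≤ L → L = H)
    {p : ℕ} [hp : Fact p.Prime] (hd : p ∣ Nat.card (Fit H)) :
    Zc (O[{p}] H) ≤ Fit H ⊓ 𝐂(Fit H) ∧ 𝐍(Zc (O[{p}] H)) = H := by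
  have hP : IsPGroup p (O[{p}] H) := pcore_isPGroup p H
  have hne : O[{p}] H ≠ ⊥ := (Fitting_pcore_Syl p H).dvd_card_iff.mp hd
  have hD := Fitting_pcoreC p H
  refine ⟨le_inf ((center_le _).trans hD.le_left) ?_, hHmax _
    ⟨p, _, hp.out, hP.to_le (center_le _), center_ne_bot hP hne, rfl⟩
    ((center_charIn _).norm_trans (pcore_norm _ _))⟩
  rw [← hD.sup_eq, centralizer_sup]
  exact le_inf (center_cent _) ((center_le _).trans hD.cent')

theorem inf_eq_bot {H M R Y : Subgroup G} (hM : M ≤ Fit H) (hCM : Fit H ⊓ 𝐂(M) ≤ M)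
    (hR : Group.IsSolvable R) (hXR : H ⊓ 𝐂(Fit H) ≤ 𝐍(R)) (hY : Y ≤ R) (hMY : M ≤ 𝐍(Y))
    (hc : (Nat.card Y).Coprime (Nat.card (Fit H))) : Y ⊓ H = ⊥ := by
  have hMW : M ≤ 𝐍(Y ⊓ H) := le_normalizer_inf hMY ((hM.trans (Fitting_sub H)).trans le_normalizer)
  have h1 : M ≤ 𝐂(Y ⊓ H) := by
    apply le_centralizer_of_commutator_eq_bot
    rw [eq_bot_iff, ← coprime_TIg hc]
    exact le_inf ((commutator_le_right_of_le_normalizer hMW).trans inf_le_left)
      ((commutator_mono hM inf_le_right).trans (Fitting_normal H).commutator_le_left)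
  have h2 : Y ⊓ H ≤ 𝐂(Fit H) := H2.le_centralizer_of_centralizer_le (Fitting_nil H)
    (inf_le_right.trans (Fitting_norm H)) (coprimeSg hc inf_le_left) hM h1 (hCM.trans h1)
  have hX : H ⊓ 𝐂(Fit H) ⊴ H := normalIn_inf_centralizer (Fitting_norm H)
  have hS : R ⊓ (H ⊓ 𝐂(Fit H)) ⊴ H ⊓ 𝐂(Fit H) := normalIn_inf_of_norm' hXR
  have h3 : Fit (R ⊓ (H ⊓ 𝐂(Fit H))) ≤ Fit H := (FittingS_normal hS).trans (FittingS_normal hX)
  have h4 : R ⊓ (H ⊓ 𝐂(Fit H)) ≤ Fit H := by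
    refine le_trans (le_inf le_rfl ?_) ((cent_sub_Fitting (solvableS hR inf_le_left)).trans h3)
    exact (inf_le_right.trans inf_le_right).trans (centralizer_anti h3)
  rw [eq_bot_iff, ← coprime_TIg hc]
  exact le_inf inf_le_left ((le_inf (inf_le_left.trans hY) (le_inf inf_le_right h2)).trans h4)

theorem le_core {H M R Q : Subgroup G} (hHmax : ∀ L : Subgroup G, IsLocalSubgroup L → H ≤ L → L = H)
    (hF2 : 2 ≤ (Nat.card (Fit H)).primeFactors.card)
    (hM : M ≤ Fit H) (hCM : Fit H ⊓ 𝐂(M) ≤ M)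
    (hR : Group.IsSolvable R) (hMR : M ≤ 𝐍(R)) (hXR : H ⊓ 𝐂(Fit H) ≤ 𝐍(R)) (hQ : Q ≤ R)
    (hMQ : M ≤ 𝐍(Q)) (hc : (Nat.card Q).Coprime (Nat.card (Fit H))) :
    Q ≤ O[primesNotDvd (Nat.card (Fit H))] R := by
  have hQH := inf_eq_bot hM hCM hR hXR hQ hMQ hc
  have key : ∀ p : ℕ, p.Prime → p ∣ Nat.card (Fit H) → Q ≤ O[{p}ᶜ] R := by
    intro p hp hd
    haveI := Fact.mk hp
    obtain ⟨r, hr, hrp⟩ := Finset.exists_mem_ne (s := (Nat.card (Fit H)).primeFactors) hF2 p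
    haveI := Fact.mk (Nat.prime_of_mem_primeFactors hr)
    obtain ⟨hp1, hp2⟩ := zc_facts hHmax hd
    obtain ⟨hr1, hr2⟩ := zc_facts hHmax (Nat.dvd_of_mem_primeFactors hr)
    have hZM : ∀ Z, Z ≤ Fit H ⊓ 𝐂(Fit H) → Z ≤ M := fun Z h =>
      (h.trans (inf_le_inf_left _ (centralizer_anti hM))).trans hCM
    have hZr : IsPi {p}ᶜ (Zc (O[{r}] H)) :=
      isPi_of_isPGroup Fact.out ((pcore_isPGroup r H).to_le (center_le _)) hrp
    refine H92.le_pcore_compl_of_PxQ (A := O[{p}] M) (Z := Zc (O[{r}] H)) hR (pcore_isPGroup p M) hZr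
      ((pcore_sub _ _).trans hMR) ((hZM _ hr1).trans hMR)
      (((pcore_sub _ _).trans hM).trans (centsC.mp (hr1.trans inf_le_right))) (hZr.of_le ?_)
      ((isPi_compl_singleton_iff hp).mpr fun h => hp.one_lt.ne' (Nat.eq_one_of_dvd_coprimes hc h hd)) ?_
    · refine commutator_le_right_of_le_normalizer (inf_le_right.trans ?_)
      rw [hr2, ← hp2]
      exact (centralizer_anti (nilpotent_sub_pcore_p (sub_Fitting_nil hM) (hZM _ hp1)
        ((pcore_isPGroup p H).to_le (center_le _)))).trans (cents_norm le_rfl)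
    · have h1 := H2.commutator_sup_centralizer ((hZM _ hr1).trans hMQ)
        (coprimegS hc (hr1.trans inf_le_left)).symm (Or.inr (solvableS hR hQ))
      have h2 : Q ⊓ 𝐂(Zc (O[{r}] H)) = ⊥ := by
        rw [eq_bot_iff, ← hQH]
        exact inf_le_inf_left _ ((cents_norm le_rfl).trans hr2.le)
      rw [h2, sup_bot_eq] at h1
      exact h1.ge.trans (commutator_mono hQ le_rfl)
  set Y := R ⊓ ⨅ p : {p : ℕ // p.Prime ∧ p ∣ Nat.card (Fit H)}, O[{p.1}ᶜ] R with hY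
  refine le_trans (b := Y) (le_inf hQ (le_iInf fun p => key p p.2.1 p.2.2))
    (pcore_max' (fun s hs hd => ⟨hs, fun hd' => ?_⟩) inf_le_left ?_)
  · have h1 : Y ≤ O[{s}ᶜ] R := inf_le_right.trans
      (iInf_le (fun p : {p : ℕ // p.Prime ∧ p ∣ Nat.card (Fit H)} => O[{p.1}ᶜ] R) ⟨s, hs, hd'⟩)
    exact ((pcore_pgroup _ R).of_le h1).not_dvd hs rfl hd
  · refine le_normalizer_of_cj_le fun g hg => le_inf (cj_le_of_mem inf_le_left hg)
      (le_iInf fun p => cj_le_of_mem_normalizer (inf_le_right.trans (iInf_le _ p)) (pcore_norm _ _ hg))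

theorem main {H : Subgroup G} (hHmax : ∀ L : Subgroup G, IsLocalSubgroup L → H ≤ L → L = H)
    (hF2 : 2 ≤ (Nat.card (Fit H)).primeFactors.card) {M : Subgroup G}
    (hM : M ≤ Fit H) (hCM : Fit H ⊓ 𝐂(M) ≤ M) {R : Subgroup G}
    (hR : Group.IsSolvable R) (hMR : M ≤ 𝐍(R)) (hXR : H ⊓ 𝐂(Fit H) ≤ 𝐍(R))
    (q : ℕ) [hq' : Fact q.Prime] (hq : ¬ q ∣ Nat.card (Fit H)) :
    ∃! Q : Subgroup G, Q ∈ maxInvSubgroups R M {q} ∧
      (∀ Q' : Subgroup G, Q' ∈ maxInvSubgroups R M {q} →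
        Q' ≤ O[primesNotDvd (Nat.card (Fit H))] R ∧
        ¬ q ∣ Q'.relIndex (O[primesNotDvd (Nat.card (Fit H))] R)) := by
  set Y := O[primesNotDvd (Nat.card (Fit H))] R with hY
  have hYc : (Nat.card Y).Coprime (Nat.card (Fit H)) :=
    coprime_iff_forall_prime.mpr fun s hs hd => ((pcore_pgroup _ R).mem hs hd).2
  have hMY : M ≤ 𝐍(Y) := le_norm_pcore _ hMR
  have hYs : Group.IsSolvable Y := solvableS hR (pcore_sub _ _)
  have hYM := coprimegS hYc hM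
  have hin : ∀ Q ∈ invSubgroups R M {q}, Q ≤ Y := fun Q hQ =>
    le_core hHmax hF2 hM hCM hR hMR hXR hQ.1 hQ.2.2
      (coprime_of_isPGroup_of_not_dvd hq'.out ((isPi_singleton_iff hq'.out).mp hQ.2.1) hq)
  have hmax : ∀ Q ∈ maxInvSubgroups R M {q}, Hall {q} Q Y := by
    intro Q hQ
    obtain ⟨P, h1, h2, h3⟩ := coprime_Hall_subset hMY hYM hYs (hin Q hQ.1) hQ.1.2.1 hQ.1.2.2
    rwa [← hQ.2 P ⟨h1.le.trans (pcore_sub _ _), h1.isPi, h2⟩ h3]
  obtain ⟨P, hP, hMP⟩ := coprime_Hall_exists {q} hMY hYM hYs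
  refine ⟨P, ⟨⟨⟨hP.le.trans (pcore_sub _ _), hP.isPi, hMP⟩, fun Q hQ hPQ =>
    (hP.syl hq'.out).max Q hPQ (hin Q hQ) ((isPi_singleton_iff hq'.out).mp hQ.2.1)⟩,
    fun Q hQ => ⟨(hmax Q hQ).le, ((hmax Q hQ).syl hq'.out).not_dvd_relIndex⟩⟩, fun Q hQ => ?_⟩
  obtain ⟨g, hg, rfl⟩ := coprime_Hall_trans hMY hYM hYs hP hMP (hmax Q hQ.1) hQ.1.1.2.2
  obtain ⟨r, hr⟩ := Finset.card_pos.mp (lt_of_lt_of_le two_pos hF2)
  haveI := Fact.mk (Nat.prime_of_mem_primeFactors hr)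
  obtain ⟨hr1, hr2⟩ := zc_facts hHmax (Nat.dvd_of_mem_primeFactors hr)
  have : g ∈ Y ⊓ H := ⟨hg.1, hr2.le (cents_norm le_rfl (centralizer_anti
    ((hr1.trans (inf_le_inf_left _ (centralizer_anti hM))).trans hCM) hg.2))⟩
  rw [inf_eq_bot hM hCM hR hXR (pcore_sub _ _) hMY hYc, mem_bot] at this
  rw [this, cj_one]

end

/-- Let G be a finite group and H a local subgroup (the normalizer of a nontrivial subgroup of prime-power order) not properly contained in any local subgroup; let F = F(H), suppose at least two primes divide #F, put X = H ∩ C_G(F), let M ≤ F with F ∩ C_G(M) ≤ M, and let R be a solvable subgroup normalized by M and by X. Then for every prime q not dividing #F there is exactly one maximal M-invariant q-subgroup of R, and it is a Sylow q-subgroup of the largest normal subgroup of R of order coprime to #F. -/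
theorem result {G : Type*} [Group G] [Finite G] (H : Subgroup G) (hH : Cfsg.IsLocalSubgroup H) (hHmax : ∀ L : Subgroup G, Cfsg.IsLocalSubgroup L → H ≤ L → L = H)
    (hF2 : 2 ≤ (Nat.card (Cfsg.fittingOf H)).primeFactors.card)
    (M : Subgroup G) (hM : M ≤ Cfsg.fittingOf H) (hCM : Cfsg.fittingOf H ⊓ Subgroup.centralizer (M : Set G) ≤ M)
    (R : Subgroup G) (hR : Group.IsSolvable R) (hMR : M ≤ Subgroup.normalizer (R : Set G))
    (hXR : H ⊓ Subgroup.centralizer (Cfsg.fittingOf H : Set G) ≤ Subgroup.normalizer (R : Set G))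
    (q : ℕ) [Fact q.Prime] (hq : ¬ q ∣ Nat.card (Cfsg.fittingOf H)) :
    ∃! Q : Subgroup G, Q ∈ Cfsg.maxInvSubgroups R M {q} ∧
      (∀ Q' : Subgroup G, Q' ∈ Cfsg.maxInvSubgroups R M {q} →
        Q' ≤ Cfsg.piCoreOf (Cfsg.primesNotDvd (Nat.card (Cfsg.fittingOf H))) R ∧
        ¬ q ∣ Q'.relIndex (Cfsg.piCoreOf (Cfsg.primesNotDvd (Nat.card (Cfsg.fittingOf H))) R)) := by
  exact main hHmax hF2 hM hCM hR hMR hXR q hq

end Cfsg.Agent.S1481
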