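import Mathlib
import Cfsg.Statements.S1487
import Cfsg.Agent.Lib.Char.Clifford
import Cfsg.Agent.Lib.Char.More
-- import your own Cfsg.Agent.* helpers here

set_option autoImplicit false
open Cfsg

namespace Cfsg.Agent.S1487

/-- Let A ≤ H be normal subgroups of the finite group G and θ an irreducible character of H. Then θ takes the value θ 1 on all of A if and only if the function induced from θ to G takes its value at 1 on all of A. -/
theorem result {G : Type*} [Group G] [Fintype G] (A H : Subgroup G) [A.Normal] [H.Normal] (hAH : A ≤ H) (θ : H → ℂ) (hθ : Cfsg.IsIrrCharacter H θ) : (∀ a : H, (a : G) ∈ A → θ a = θ 1) ↔ (∀ a : G, a ∈ A → Cfsg.indFun H θ a = Cfsg.indFun H θ 1) := by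
  classical
  constructor
  · intro h a ha
    refine (H7.indFun_normal_apply H θ ⟨a, hAH ha⟩).trans
      (Eq.trans ?_ (H7.indFun_normal_apply H θ 1).symm)
    congr 1
    refine Finset.sum_congr rfl fun g _ => ?_
    rw [h _ (Subgroup.Normal.conj_mem inferInstance a ha g)]
    congr 1
    ext; simp
  · intro h a ha
    refine H6.irr_apply_eq_of_char_apply_eq
      (H7.isCharacter_res (H7.isCharacter_indFun H (H6.irr_isCharacter hθ)) H) hθ ?_ (h a ha)
    rw [← H7.classInner_indFun_right H θ (H7.isClassFunction_indFun H θ), Ne,
      H7.classInner_self_eq_zero]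
    intro h0
    have h2 := congrFun h0 1
    rw [H7.indFun_one] at h2
    exact mul_ne_zero (H7.index_ne_zero' H) (H6.irr_one_ne_zero hθ) h2

end Cfsg.Agent.S1487
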