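import Mathlib
import Cfsg.Statements.S1490
import Cfsg.Agent.Lib.PF.Clifford2
-- import your own Cfsg.Agent.* helpers here

set_option autoImplicit false
open Cfsg

namespace Cfsg.Agent.S1490

theorem inertia_eq {G : Type*} [Group G] (H T : Subgroup G) [hN : H.Normal] (θ : H → ℂ) (hT : ∀ g : G, g ∈ T ↔ ∀ h : H, θ ⟨g * h * g⁻¹, hN.conj_mem h h.2 g⟩ = θ h) : H51.inertia ⊤ (extendByZero H θ) = T := by
  have hF : ∀ x : H, extendByZero H θ x = θ x := congrFun (H51.coe_extendByZero H θ)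
  ext g
  rw [H51.mem_inertia, hT]
  constructor
  · intro h x
    exact (hF ⟨_, hN.conj_mem x x.2 g⟩).symm.trans ((congrFun h.2 x).trans (hF x))
  · intro h
    refine ⟨trivial, funext fun x => ?_⟩
    by_cases hx : x ∈ H
    · exact (hF ⟨_, hN.conj_mem x hx g⟩).trans ((h ⟨x, hx⟩).trans (hF ⟨x, hx⟩).symm)
    · exact (H51.extendByZero_supp H θ _ fun h1 => hx (by simpa [mul_assoc] using hN.conj_mem _ h1 g⁻¹)).trans
        (H51.extendByZero_supp H θ _ hx).symm


/-- Let H be a normal subgroup of the finite group G, θ an irreducible character of H with inertia group T, and suppose the commutator of any two elements of T lies in H (T/H abelian). Then there are a positive integer e and a finite set C of irreducible characters of G with e ^ 2 * |C| * |H| = |T|, such that the function induced from θ is e times the sum of the members of C and every member of C has degree [G:T] * e * θ(1). -/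
theorem result {G : Type*} [Group G] [Fintype G] (H T : Subgroup G) [hN : H.Normal] (θ : H → ℂ) (hθ : Cfsg.IsIrrCharacter H θ) (hT : ∀ g : G, g ∈ T ↔ ∀ h : H, θ ⟨g * h * g⁻¹, hN.conj_mem h h.2 g⟩ = θ h) (hab : ∀ x ∈ T, ∀ y ∈ T, x * y * x⁻¹ * y⁻¹ ∈ H) : ∃ (e : ℕ) (C : Finset (G → ℂ)), 0 < e ∧ (∀ χ ∈ C, Cfsg.IsIrrCharacter G χ) ∧ e ^ 2 * C.card * Nat.card H = Nat.card T ∧ Cfsg.indFun H θ = (e : ℂ) • ∑ χ ∈ C, χ ∧ ∀ χ ∈ C, χ 1 = (T.index : ℂ) * e * θ 1 := by
  have hθ' : extendByZero H θ ∈ H51.irr H := H51.extendByZero_mem_irr.2 hθ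
  have h1 : extendByZero H θ 1 = θ 1 := congrFun (H51.coe_extendByZero H θ) 1
  have hT' := inertia_eq H T θ hT
  obtain ⟨e, he, -, h2, h3, h4⟩ := H51.ind_of_abelian_inertia (L := ⊤) (H51.normalIn_top.2 hN) hθ' hT'
    (Subgroup.commutator_le.2 hab)
  refine ⟨e, _, he, fun χ hχ => H51.mem_irr_top.1 (H51.constt_irr hχ), ?_,
    by rw [← H51.ind_top_extendByZero]; exact h2, fun χ hχ => ?_⟩
  · rw [h3, ← H51.card_eq_relIndex_mul (H51.le_of_inertia_le (H51.normalIn_top.2 hN) hθ' hT'.le)]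
  · rw [H51.irr_apply_one (H51.constt_irr hχ), h4 χ hχ, ← h1, H51.irr_apply_one hθ', Subgroup.relIndex_top_right]
    push_cast; rfl

end Cfsg.Agent.S1490
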