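import Mathlib
import Cfsg.Statements.S1491
import Cfsg.Agent.Lib.PF.Clifford2
import Cfsg.Agent.S1490
-- import your own Cfsg.Agent.* helpers here

set_option autoImplicit false
open Cfsg

namespace Cfsg.Agent.S1491

/-- Let H be a normal subgroup of the finite group G and θ an irreducible character of H with inertia group T, where T/H is abelian (commutators of T lie in H) and the index of H in T is coprime to the order of H. Then the function induced from θ is the sum of a set of exactly [T:H] irreducible characters of G, each of degree [G:T] * θ(1). -/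
theorem result {G : Type*} [Group G] [Fintype G] (H T : Subgroup G) [hN : H.Normal] (θ : H → ℂ) (hθ : Cfsg.IsIrrCharacter H θ) (hT : ∀ g : G, g ∈ T ↔ ∀ h : H, θ ⟨g * h * g⁻¹, hN.conj_mem h h.2 g⟩ = θ h) (hab : ∀ x ∈ T, ∀ y ∈ T, x * y * x⁻¹ * y⁻¹ ∈ H) (hcop : Nat.Coprime (Nat.card H) (H.relIndex T)) : ∃ C : Finset (G → ℂ), (∀ χ ∈ C, Cfsg.IsIrrCharacter G χ) ∧ C.card = H.relIndex T ∧ Cfsg.indFun H θ = ∑ χ ∈ C, χ ∧ ∀ χ ∈ C, χ 1 = (T.index : ℂ) * θ 1 := by
  have hθ' : extendByZero H θ ∈ H51.irr H := H51.extendByZero_mem_irr.2 hθ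
  have h1 : extendByZero H θ 1 = θ 1 := congrFun (H51.coe_extendByZero H θ) 1
  have hT' := S1490.inertia_eq H T θ hT
  obtain ⟨-, h2, h3, h4⟩ := H51.ind_of_abelian_coprime_inertia (L := ⊤) (H51.normalIn_top.2 hN) hθ' hT'
    (Subgroup.commutator_le.2 hab) hcop.symm
  refine ⟨_, fun χ hχ => H51.mem_irr_top.1 (H51.constt_irr hχ), h3,
    by rw [← H51.ind_top_extendByZero]; exact h2, fun χ hχ => ?_⟩
  rw [H51.irr_apply_one (H51.constt_irr hχ), h4 χ hχ, ← h1, H51.irr_apply_one hθ', Subgroup.relIndex_top_right]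
  push_cast; rfl

end Cfsg.Agent.S1491
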