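import Cfsg.Statements.S1492
import Mathlib
import Cfsg.Agent.Lib.PF.S1a

set_option autoImplicit false
open Cfsg

namespace Cfsg.Agent.S1492

/-- Let ψ be an irreducible character of the finite group G and B ≤ D ≤ C subgroups with B normal in C, every commutator of an element of D with an element of C lying in B (so D/B is central in C/B), and ψ constant equal to ψ 1 on B. Then ψ(1) ^ 2 * |C| * |D| ≤ |G| ^ 2. -/
theorem result {G : Type*} [Group G] [Finite G] (ψ : G → ℂ) (hψ : Cfsg.IsIrrCharacter G ψ) (B C D : Subgroup G) (hBD : B ≤ D) (hDC : D ≤ C) (hBn : ∀ c ∈ C, ∀ b ∈ B, c * b * c⁻¹ ∈ B) (hcent : ∀ d ∈ D, ∀ c ∈ C, d * c * d⁻¹ * c⁻¹ ∈ B) (hker : ∀ b ∈ B, ψ b = ψ 1) : ‖ψ 1‖ ^ 2 * (Nat.card C : ℝ) * (Nat.card D : ℝ) ≤ (Nat.card G : ℝ) ^ 2 := by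
  have := Fintype.ofFinite G
  have hχ := H51.mem_irr_top.2 hψ
  have h1 := H51.irr_deg_sq_le hDC le_top hχ (by
    rw [Subgroup.commutator_comm, Subgroup.commutator_le]
    intro d hd c hc
    exact ((H51.irr_isChar hχ).le_cker_iff le_top).2 hker (hcent d hd c hc))
  rw [(H51.irr_isChar hχ).norm_apply_one, ← Subgroup.card_top (G := G),
    H51.card_eq_relIndex_mul (le_top (a := C))]
  have h2 := H51.card_eq_relIndex_mul hDC
  have h3 : H51.deg ψ ^ 2 * Nat.card C * Nat.card D ≤ (C.relIndex ⊤ * Nat.card C) ^ 2 :=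
    calc _ ≤ C.relIndex ⊤ ^ 2 * D.relIndex C * Nat.card C * Nat.card D := by gcongr
      _ = C.relIndex ⊤ ^ 2 * Nat.card C * (D.relIndex C * Nat.card D) := by ring
      _ = _ := by rw [← h2]; ring
  exact_mod_cast h3

end Cfsg.Agent.S1492
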