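import Mathlib
import Cfsg.Statements.S1495
import Cfsg.Agent.Lib.Char.Galois
import Cfsg.Agent.Lib.Char.Integral

set_option autoImplicit false
open Cfsg

namespace Cfsg.Agent.S1495

theorem result (p : ℕ) (hp : p.Prime) (n : ℤ) (ω : ℂ) (hω : IsIntegral ℤ ω) (h : (n : ℂ) = (1 - Complex.exp (2 * Real.pi * Complex.I / p)) * ω) : (p : ℤ) ∣ n := by
  have hε := Complex.isPrimitiveRoot_exp p hp.ne_zero
  set ε := Complex.exp (2 * Real.pi * Complex.I / p) with hεdef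
  obtain ⟨q, rfl⟩ : ∃ q, p = q + 1 := ⟨p - 1, by have := hp.pos; omega⟩
  have key : ∀ k ∈ Finset.range q, ∃ w : ℂ, IsIntegral ℤ w ∧ (n : ℂ) = (1 - ε ^ (k + 1)) * w := by
    intro k hk
    have hk' : k + 1 < q + 1 := by simpa using hk
    have hcop : (k + 1).Coprime (q + 1) :=
      (Nat.coprime_of_lt_prime (Nat.succ_ne_zero k) hk' hp).symm
    obtain ⟨σ, hσ⟩ := H8.exists_ringEquiv_pow hp.pos hcop
    refine ⟨σ ω, hω.map (σ : ℂ →+* ℂ).toIntAlgHom, ?_⟩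
    have := congrArg σ h
    rw [map_intCast, map_mul, map_sub, map_one, hσ ε hε.pow_eq_one] at this
    exact this
  choose! w hw hw' using key
  have h1 : (n : ℂ) ^ q = ((q + 1 : ℕ) : ℂ) * ∏ k ∈ Finset.range q, w k := by
    have h2 := hε.prod_one_sub_pow_eq_order
    push_cast
    rw [← h2, ← Finset.prod_mul_distrib, ← Finset.prod_congr rfl hw', Finset.prod_const,
      Finset.card_range]
  have h3 : IsIntegral ℤ (∏ k ∈ Finset.range q, w k) := IsIntegral.prod _ hw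
  have hq : ((q + 1 : ℕ) : ℂ) ≠ 0 := Nat.cast_ne_zero.2 hp.ne_zero
  have h4 : (∏ k ∈ Finset.range q, w k) = (((n : ℚ) ^ q / ((q + 1 : ℕ) : ℚ) : ℚ) : ℂ) := by
    rw [Rat.cast_div, Rat.cast_pow, Rat.cast_intCast, Rat.cast_natCast, h1,
      mul_div_cancel_left₀ _ hq]
  rw [h4] at h3
  obtain ⟨z, hz⟩ := H8.exists_int_of_isIntegral_rat h3
  have h5 : n ^ q = ((q + 1 : ℕ) : ℤ) * z := by
    have hq' : ((q + 1 : ℕ) : ℚ) ≠ 0 := Nat.cast_ne_zero.2 hp.ne_zero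
    rw [div_eq_iff hq'] at hz
    have : ((n ^ q : ℤ) : ℚ) = ((((q + 1 : ℕ) : ℤ) * z : ℤ) : ℚ) := by
      rw [Int.cast_pow, hz, Int.cast_mul, Int.cast_natCast, mul_comm]
    exact_mod_cast this
  exact (Nat.prime_iff_prime_int.1 hp).dvd_of_dvd_pow ⟨z, h5⟩

end Cfsg.Agent.S1495
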