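import Cfsg.Statements.S1497
import Mathlib
import Cfsg.Agent.Lib.PF.S2

set_option autoImplicit false
open Cfsg

namespace Cfsg.Agent.S1497

/-- Let A be a nonempty subset of the finite group G not containing 1 and L a subgroup. Then A is a TI-subset whose normaliser is L if and only if the Dade hypothesis holds for A, L and the constant choice H(a) = ⊥. -/
theorem result {G : Type*} [Group G] [Finite G] (A : Set G) (hA : A.Nonempty) (h1 : (1 : G) ∉ A) (L : Subgroup G) : (Cfsg.IsTISubset A ∧ Subgroup.normalizer A = L) ↔ Cfsg.DadeHypothesis A L (fun _ => ⊥) := by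
  constructor
  · rintro ⟨h2, h3⟩
    refine H51.dadeHyp_of_normedTI ⟨h1, fun a ha => ?_, le_top, fun g hg a ha => ?_,
      fun g _ a ha hg => ?_⟩ (fun _ _ => rfl)
    · by_contra h4
      exact h1 (h2 a (h3 ▸ h4) a ha (by simpa using ha) ▸ ha)
    · rw [← h3] at hg
      exact (hg a).1 ha
    · by_contra h4
      exact h1 (h2 g (h3 ▸ h4) a ha hg ▸ ha)
  · intro h
    have h' := H51.normedTI_of_dadeHyp h (fun _ _ => rfl)
    exact ⟨h'.isTISubset, h'.normalizer_eq hA⟩

end Cfsg.Agent.S1497
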