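import Cfsg.Statements.S1499
import Mathlib
import Cfsg.Agent.Lib.PF.S2

set_option autoImplicit false
open Cfsg

namespace Cfsg.Agent.S1499

/-- Under the Dade hypothesis for (A, L, H), let a, b ∈ A. If an element of the coset a·H(a) is conjugate in G to an element of b·H(b), then a and b are conjugate by an element of L. Moreover the set normaliser of the coset a·H(a) is the centraliser of a. -/
theorem result {G : Type*} [Group G] [Finite G] (A : Set G) (L : Subgroup G) (H : G → Subgroup G) (hD : Cfsg.DadeHypothesis A L H) (a b : G) (ha : a ∈ A) (hb : b ∈ A) : ((∃ u ∈ H a, ∃ v ∈ H b, ∃ g : G, g * (a * u) * g⁻¹ = b * v) → ∃ x ∈ L, x * a * x⁻¹ = b) ∧ Subgroup.normalizer ((fun u : G => a * u) '' (H a : Set G)) = Subgroup.centralizer ({a} : Set G) := by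
  have := Fintype.ofFinite G
  refine ⟨fun ⟨u, hu, v, hv, g, hg⟩ => H51.dade_exists_conj hD ha hb hu hv hg, ?_⟩
  apply le_antisymm
  · intro g hg
    obtain ⟨v, hv, e⟩ := (hg (a * 1)).1 ⟨1, (H a).one_mem, rfl⟩
    have := H51.dade_conj_eq hD ha ha (H a).one_mem hv e.symm
    exact H8.mem_centralizer_singleton'.2 (mul_inv_eq_iff_eq_mul.1 this)
  · refine Subgroup.le_set_normalizer_iff.2 ?_
    rintro g hg _ ⟨u, hu, rfl⟩
    refine ⟨g * u * g⁻¹, hD.conj_mem_H a ha g hg u hu, ?_⟩
    show a * (g * u * g⁻¹) = g * (a * u) * g⁻¹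
    rw [← mul_assoc, ← mul_assoc, ← H8.mem_centralizer_singleton'.1 hg]; group

end Cfsg.Agent.S1499
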