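import Cfsg.Statements.S1500
import Mathlib
import Cfsg.Agent.Lib.PF.S2
import Cfsg.Agent.Lib.PF.Irr

set_option autoImplicit false
open Cfsg

namespace Cfsg.Agent.S1500

/-- Under the Dade hypothesis for (A, L, H), let α be a class function of L vanishing outside A. Then (i) for every class function β of L vanishing outside A, the inner product over G of the Dade images of α and β equals the inner product of α and β over L; and (ii) for every class function χ of G and every function ψ on L whose value at each a ∈ A is the average of χ over the coset a·H(a), the inner product over G of the Dade image of α with χ equals the inner product over L of α with ψ. -/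
theorem result {G : Type*} [Group G] [Fintype G] (A : Set G) (L : Subgroup G) [Fintype L] (H : G → Subgroup G) (hD : Cfsg.DadeHypothesis A L H) (α : L → ℂ) (hα : Cfsg.IsClassFunction L α) (hαA : ∀ x : L, (x : G) ∉ A → α x = 0) : (∀ β : L → ℂ, Cfsg.IsClassFunction L β → (∀ x : L, (x : G) ∉ A → β x = 0) → Cfsg.classInner (Cfsg.dadeIsometry A L H α) (Cfsg.dadeIsometry A L H β) = Cfsg.classInner α β) ∧ (∀ (χ : G → ℂ) (ψ : L → ℂ), Cfsg.IsClassFunction G χ → (∀ a : L, (a : G) ∈ A → ψ a = (Nat.card (H a) : ℂ)⁻¹ * ∑ᶠ u ∈ (H a : Set G), χ (a * u)) → Cfsg.classInner (Cfsg.dadeIsometry A L H α) χ = Cfsg.classInner α ψ) := by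
  have e : ∀ β : L → ℂ, Cfsg.dadeIsometry A L H β = H51.dade A L H (extendByZero L β) := fun β => by
    conv_lhs => rw [← H51.coe_extendByZero L β]
    rfl
  have hm : ∀ β : L → ℂ, Cfsg.IsClassFunction L β → (∀ x : L, (x : G) ∉ A → β x = 0) →
      extendByZero L β ∈ H51.CFon L A := fun β h1 h2 => by
    refine ⟨H51.extendByZero_mem_CF.2 h1, fun x hx => ?_⟩
    by_cases hL : x ∈ L
    · exact (congrFun (H51.coe_extendByZero L β) ⟨x, hL⟩).trans (h2 _ hx)
    · exact H51.extendByZero_supp L β x hL
  have hα' := hm α hα hαA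
  constructor
  · intro β h1 h2
    rw [e, e, ← H51.dot_top, H51.dot_dade hD hα' (hm β h1 h2).1,
      H51.dot_eq_classInner L hα'.1.1, H51.coe_extendByZero, H51.coe_extendByZero]
  · intro χ ψ hχ hψ
    rw [e, ← H51.dot_top, H51.dot_dade_left hD hα'.1 (H51.mem_CF_top.2 hχ),
      H51.dot_congr_right L hα'.2 (ψ' := extendByZero L ψ) fun a ha => ?_,
      H51.dot_eq_classInner L hα'.1.1, H51.coe_extendByZero, H51.coe_extendByZero]
    rw [H51.rho_apply _ ha, ← H51.finsum_mem_eq_sum_elems]
    exact ((congrFun (H51.coe_extendByZero L ψ) ⟨a, hD.subset ha⟩).trans (hψ _ ha)).symm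

end Cfsg.Agent.S1500
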