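import Cfsg.Statements.S1504
import Mathlib
import Cfsg.Agent.Lib.PF.H9_Bridge

set_option autoImplicit false
open Cfsg

namespace Cfsg.Agent.S1504

/-- Let W₁, W₂ be subgroups of a finite group with W₁ ⊓ W₂ = ⊥ whose elements commute, and W = W₁ ⊔ W₂. For linear characters φ, ψ of W with φ trivial on W₂ and ψ trivial on W₁, the function (1 − φ)(1 − ψ) vanishes on W₁ ∪ W₂; and the family of these functions, indexed by pairs (φ, ψ) with φ ≠ 1 ≠ ψ, is linearly independent over ℂ. -/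
theorem result {G : Type*} [Group G] [Finite G] (W₁ W₂ : Subgroup G) (hdisj : W₁ ⊓ W₂ = ⊥) (hcomm : ∀ a ∈ W₁, ∀ b ∈ W₂, a * b = b * a) : (∀ φ ψ : ↥(W₁ ⊔ W₂) →* ℂˣ, (∀ w : ↥(W₁ ⊔ W₂), (w : G) ∈ W₂ → φ w = 1) → (∀ w : ↥(W₁ ⊔ W₂), (w : G) ∈ W₁ → ψ w = 1) → ∀ w : ↥(W₁ ⊔ W₂), ((w : G) ∈ W₁ ∨ (w : G) ∈ W₂) → (1 - (φ w : ℂ) - (ψ w : ℂ) + (φ w : ℂ) * (ψ w : ℂ)) = 0) ∧ LinearIndependent ℂ (fun p : {p : (↥(W₁ ⊔ W₂) →* ℂˣ) × (↥(W₁ ⊔ W₂) →* ℂˣ) // p.1 ≠ 1 ∧ p.2 ≠ 1 ∧ (∀ w : ↥(W₁ ⊔ W₂), (w : G) ∈ W₂ → p.1 w = 1) ∧ (∀ w : ↥(W₁ ⊔ W₂), (w : G) ∈ W₁ → p.2 w = 1)} => fun w : ↥(W₁ ⊔ W₂) => 1 - (p.1.1 w : ℂ) - (p.1.2 w : ℂ) + (p.1.1 w : ℂ) * (p.1.2 w : ℂ)) := by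
  classical
  have _ := hdisj
  have _ := hcomm
  refine ⟨fun φ ψ h1 h2 w hw => ?_, ?_⟩
  · rcases hw with hw | hw
    · rw [h2 w hw]; simp
    · rw [h1 w hw]; simp
  have := Fintype.ofFinite ↥(W₁ ⊔ W₂)
  have triv : ∀ ω : ↥(W₁ ⊔ W₂) →* ℂˣ, (∀ w : ↥(W₁ ⊔ W₂), (w : G) ∈ W₁ → ω w = 1) →
      (∀ w : ↥(W₁ ⊔ W₂), (w : G) ∈ W₂ → ω w = 1) → ω = 1 := fun ω h1 h2 => by
    have : W₁ ⊔ W₂ ≤ ω.ker.map (W₁ ⊔ W₂).subtype := sup_le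
      (fun x hx => ⟨⟨x, Subgroup.mem_sup_left hx⟩, h1 _ hx, rfl⟩)
      (fun x hx => ⟨⟨x, Subgroup.mem_sup_right hx⟩, h2 _ hx, rfl⟩)
    ext w
    obtain ⟨y, hy, e⟩ := this w.2
    rw [← Subtype.ext e (a2 := w), MonoidHom.mem_ker.1 hy]; rfl
  have eqv : ∀ ω ω' : ↥(W₁ ⊔ W₂) →* ℂˣ, (∀ w : ↥(W₁ ⊔ W₂), (w : G) ∈ W₁ → ω w = ω' w) →
      (∀ w : ↥(W₁ ⊔ W₂), (w : G) ∈ W₂ → ω w = ω' w) → ω = ω' := fun ω ω' h1 h2 =>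
    H9.dual_mul_inv_eq_one.1 (triv _ (fun w hw => by simp [h1 w hw]) (fun w hw => by simp [h2 w hw]))
  have ort : ∀ ω ω' : ↥(W₁ ⊔ W₂) →* ℂˣ, H51.dot ⊤ (fun w => (ω w : ℂ)) (fun w => (ω' w : ℂ)) =
      if ω = ω' then 1 else 0 := fun ω ω' => by
    rw [H51.dot_top, H6.irr_inner (H6.isIrrCharacter_hom ω) (H6.isIrrCharacter_hom ω')]
    congr 1
    exact propext ⟨fun e => MonoidHom.ext fun w => Units.ext (congrFun e w), fun e => by rw [e]⟩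
  rw [linearIndependent_iff']
  intro s g hs q hq
  have e := congrArg (fun f => H51.dot ⊤ f (fun w => ((q.1.1 * q.1.2) w : ℂ))) hs
  simp only [H51.dot_sum_left, H51.dot_smul_left, H51.dot_zero_left] at e
  have key : ∀ p : {p : (↥(W₁ ⊔ W₂) →* ℂˣ) × (↥(W₁ ⊔ W₂) →* ℂˣ) // p.1 ≠ 1 ∧ p.2 ≠ 1 ∧ (∀ w : ↥(W₁ ⊔ W₂), (w : G) ∈ W₂ → p.1 w = 1) ∧ (∀ w : ↥(W₁ ⊔ W₂), (w : G) ∈ W₁ → p.2 w = 1)},
      H51.dot ⊤ (fun w : ↥(W₁ ⊔ W₂) => 1 - (p.1.1 w : ℂ) - (p.1.2 w : ℂ) + (p.1.1 w : ℂ) * (p.1.2 w : ℂ))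
        (fun w => ((q.1.1 * q.1.2) w : ℂ)) = if p = q then 1 else 0 := fun p => by
    have : (fun w : ↥(W₁ ⊔ W₂) => 1 - (p.1.1 w : ℂ) - (p.1.2 w : ℂ) + (p.1.1 w : ℂ) * (p.1.2 w : ℂ)) =
        (fun w => ((1 : ↥(W₁ ⊔ W₂) →* ℂˣ) w : ℂ)) - (fun w => (p.1.1 w : ℂ)) - (fun w => (p.1.2 w : ℂ)) +
          fun w => ((p.1.1 * p.1.2) w : ℂ) := by
      funext w; simp
    obtain ⟨q1, q2, q3, q4⟩ := q.2
    obtain ⟨-, -, p3, p4⟩ := p.2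
    have n2 : ∀ ω : ↥(W₁ ⊔ W₂) →* ℂˣ, (∀ w : ↥(W₁ ⊔ W₂), (w : G) ∈ W₂ → ω w = 1) →
        ω ≠ q.1.1 * q.1.2 := fun ω h e => q2 (triv _ q4 fun w hw => by
      have := h w hw
      rwa [e, MonoidHom.mul_apply, q3 w hw, one_mul] at this)
    have n1 : ∀ ω : ↥(W₁ ⊔ W₂) →* ℂˣ, (∀ w : ↥(W₁ ⊔ W₂), (w : G) ∈ W₁ → ω w = 1) →
        ω ≠ q.1.1 * q.1.2 := fun ω h e => q1 (triv _ (fun w hw => by
      have := h w hw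
      rwa [e, MonoidHom.mul_apply, q4 w hw, mul_one] at this) q3)
    rw [this, H51.dot_add_left, H51.dot_sub_left, H51.dot_sub_left, ort, ort, ort, ort,
      if_neg (n1 _ fun _ _ => rfl), if_neg (n2 _ p3), if_neg (n1 _ p4)]
    simp only [sub_self, zero_add]
    congr 1
    refine propext ⟨fun e => Subtype.ext (Prod.ext (eqv _ _ (fun w hw => ?_) fun w hw => ?_)
      (eqv _ _ (fun w hw => ?_) fun w hw => ?_)), fun e => by rw [e]⟩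
    · have := DFunLike.congr_fun e w
      rwa [MonoidHom.mul_apply, MonoidHom.mul_apply, p4 w hw, q4 w hw, mul_one, mul_one] at this
    · rw [p3 w hw, q3 w hw]
    · rw [p4 w hw, q4 w hw]
    · have := DFunLike.congr_fun e w
      rwa [MonoidHom.mul_apply, MonoidHom.mul_apply, p3 w hw, q3 w hw, one_mul, one_mul] at this
  simp only [key] at e
  rw [Finset.sum_eq_single q (fun p _ hp => by simp [hp]) (fun h => absurd hq h)] at e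
  simpa using e

end Cfsg.Agent.S1504
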