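import Cfsg.Statements.S1505
import Mathlib
import Cfsg.Agent.Lib.PF.H9_Bridge

set_option autoImplicit false
open Cfsg

namespace Cfsg.Agent.S1505

open Classical in
/-- Let W₁, W₂ ≤ G form a self-normalising cyclic subgroup W = W₁ ⊔ W₂. For nontrivial linear characters φ, φ' of W trivial on W₂ and ψ, ψ' trivial on W₁, put α = (1 − φ)(1 − ψ) and α' = (1 − φ')(1 − ψ'). Then the function induced from α to G has inner product 1 with the principal character, and the inner product of the functions induced from α and α' is 1 + a + b + ab where a = 1 if φ = φ' (else 0) and b = 1 if ψ = ψ' (else 0). -/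
theorem result {G : Type*} [Group G] [Fintype G] (W₁ W₂ : Subgroup G) (hW : Cfsg.IsSelfNormalizingCyclic W₁ W₂) (φ φ' ψ ψ' : ↥(W₁ ⊔ W₂) →* ℂˣ) (hφ : φ ≠ 1) (hφ' : φ' ≠ 1) (hψ : ψ ≠ 1) (hψ' : ψ' ≠ 1) (hφ₂ : ∀ w : ↥(W₁ ⊔ W₂), (w : G) ∈ W₂ → φ w = 1 ∧ φ' w = 1) (hψ₁ : ∀ w : ↥(W₁ ⊔ W₂), (w : G) ∈ W₁ → ψ w = 1 ∧ ψ' w = 1) : Cfsg.classInner (Cfsg.indFun (W₁ ⊔ W₂) (fun w => 1 - (φ w : ℂ) - (ψ w : ℂ) + (φ w : ℂ) * (ψ w : ℂ))) (fun _ => 1) = 1 ∧ Cfsg.classInner (Cfsg.indFun (W₁ ⊔ W₂) (fun w => 1 - (φ w : ℂ) - (ψ w : ℂ) + (φ w : ℂ) * (ψ w : ℂ))) (Cfsg.indFun (W₁ ⊔ W₂) (fun w => 1 - (φ' w : ℂ) - (ψ' w : ℂ) + (φ' w : ℂ) * (ψ' w : ℂ))) = 1 + (if φ = φ' then 1 else 0) + (if ψ = ψ' then 1 else 0) + (if φ = φ' then 1 else 0) * (if ψ = ψ' then 1 else 0) := by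
  have h := H9.cti_of_isSelfNormalizingCyclic hW
  have e1 := h.dp.eq_join rfl (H9.res₂_eq_one_iff.2 fun w hw => (hφ₂ w hw).1)
  have e2 := h.dp.eq_join rfl (H9.res₂_eq_one_iff.2 fun w hw => (hφ₂ w hw).2)
  have e3 := h.dp.eq_join (H9.res₁_eq_one_iff.2 fun w hw => (hψ₁ w hw).1) rfl
  have e4 := h.dp.eq_join (H9.res₁_eq_one_iff.2 fun w hw => (hψ₁ w hw).2) rfl
  generalize H9.res₁ W₁ W₂ φ = i at e1
  generalize H9.res₁ W₁ W₂ φ' = i' at e2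
  generalize H9.res₂ W₁ W₂ ψ = j at e3
  generalize H9.res₂ W₁ W₂ ψ' = j' at e4
  subst e1 e2 e3 e4
  have hi : i ≠ 1 := fun e => hφ (by rw [e, h.dp.join_one])
  have hi' : i' ≠ 1 := fun e => hφ' (by rw [e, h.dp.join_one])
  have hj : j ≠ 1 := fun e => hψ (by rw [e, h.dp.join_one])
  have hj' : j' ≠ 1 := fun e => hψ' (by rw [e, h.dp.join_one])
  rw [h.dp.indFun_alp, h.dp.indFun_alp, ← H51.dot_top, ← H51.dot_top, ← H51.one_top,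
    h.dot_ind_alp_one hi hj, h.dot_ind_alp hi hj hi' hj']
  simp only [h.dp.join_inj, and_true, true_and]
  congr

end Cfsg.Agent.S1505
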