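import Cfsg.Statements.S1507
import Mathlib
import Cfsg.Agent.Lib.PF.H9_Bridge

set_option autoImplicit false
open Cfsg

namespace Cfsg.Agent.S1507

open Classical in
/-- Let W₁, W₂ ≤ G form a self-normalising cyclic subgroup W = W₁ ⊔ W₂ of odd order with Nat.card W₁ < Nat.card W₂, and χ an orthonormal family of irreducible characters of G up to sign, indexed by the linear characters ω of W, with χ_1 = 1, χ_ω = ω on W outside W₁ ∪ W₂, and the induction identity for (1 − φ)(1 − ψ). Let θ be a class function of G vanishing on W outside W₁ ∪ W₂, and suppose fewer than 2 · Nat.card W₁ linear characters ω of W have ⟨θ, χ ω⟩ ≠ 0. Then one of: all ⟨θ, χ ω⟩ vanish; or there are ψ₀ and a with ⟨θ, χ ω⟩ = a when ω ψ₀⁻¹ is trivial on W₂ and 0 otherwise; or there are φ₀ and a with ⟨θ, χ ω⟩ = a when ω φ₀⁻¹ is trivial on W₁ and 0 otherwise. -/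
theorem result {G : Type*} [Group G] [Fintype G] (W₁ W₂ : Subgroup G) (hW : Cfsg.IsSelfNormalizingCyclic W₁ W₂) (hodd : Odd (Nat.card ↥(W₁ ⊔ W₂))) (χ : (↥(W₁ ⊔ W₂) →* ℂˣ) → (G → ℂ)) (hχ : Cfsg.IsCyclicTIFamily W₁ W₂ χ) (hlt : Nat.card W₁ < Nat.card W₂) (θ : G → ℂ) (hθ : Cfsg.IsClassFunction G θ) (hθV : ∀ w : ↥(W₁ ⊔ W₂), (w : G) ∉ W₁ → (w : G) ∉ W₂ → θ w = 0) (hfew : Nat.card {ω : ↥(W₁ ⊔ W₂) →* ℂˣ // Cfsg.classInner θ (χ ω) ≠ 0} < 2 * Nat.card W₁) : (∀ ω, Cfsg.classInner θ (χ ω) = 0) ∨ (∃ (ψ₀ : ↥(W₁ ⊔ W₂) →* ℂˣ) (a : ℂ), ∀ ω, Cfsg.classInner θ (χ ω) = if (∀ w : ↥(W₁ ⊔ W₂), (w : G) ∈ W₂ → (ω * ψ₀⁻¹) w = 1) then a else 0) ∨ (∃ (φ₀ : ↥(W₁ ⊔ W₂) →* ℂˣ) (a : ℂ), ∀ ω, Cfsg.classInner θ (χ ω) = if (∀ w : ↥(W₁ ⊔ W₂), (w : G) ∈ W₁ → (ω * φ₀⁻¹) w = 1) then a else 0) := by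
  have h := H9.cti_of_isSelfNormalizingCyclic hW
  have hc := H51.CyclicTI.of_isSelfNormalizingCyclic hW hodd
  have f := H9.fam_of_family h.dp hχ
  have hN : H9.ncf ⊤ W₁ W₂ (fun i j => χ (h.dp.join i j)) θ =
      Nat.card {ω : ↥(W₁ ⊔ W₂) →* ℂˣ // Cfsg.classInner θ (χ ω) ≠ 0} := by
    open H51 in rw [H9.ncf, ← Fintype.card_subtype, ← Nat.card_eq_fintype_card]
    refine Nat.card_congr ⟨fun p => ⟨h.dp.join p.1.1 p.1.2, by rw [← H51.dot_top]; exact p.2⟩,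
      fun ω => ⟨(H9.res₁ W₁ W₂ ω.1, H9.res₂ W₁ W₂ ω.1), by
        simp only [h.dp.join_res, H51.dot_top]; exact ω.2⟩, fun p => ?_, fun ω => ?_⟩
    · simp only [h.dp.res₁_join, h.dp.res₂_join]
    · simp only [h.dp.join_res]
  obtain ⟨k, hk⟩ := hc.odd₁
  obtain ⟨l, hl⟩ := hc.odd₂
  rcases f.small h (H51.mem_CF_top.2 hθ)
    (fun x hx => hθV ⟨x, (H9.pf_mem_vset.1 hx).1⟩ (H9.pf_mem_vset.1 hx).2.1
      (H9.pf_mem_vset.1 hx).2.2) (by omega) (by omega) (by omega) with e | ⟨j, a, -, -, e⟩ | ⟨i, a, -, -, e⟩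
  · exact Or.inl fun ω => by rw [← h.dp.join_res ω, ← H51.dot_top]; exact e _ _
  · refine Or.inr (Or.inl ⟨h.dp.join 1 j, a, fun ω => ?_⟩)
    have := e (H9.res₁ W₁ W₂ ω) (H9.res₂ W₁ W₂ ω)
    rw [h.dp.join_res, H51.dot_top] at this
    rw [this]
    simp only [← H9.res₂_eq_one_iff, H9.res₂_mul, H9.res₂_inv, h.dp.res₂_join,
      H9.dual_mul_inv_eq_one]
    congr
  · refine Or.inr (Or.inr ⟨h.dp.join i 1, a, fun ω => ?_⟩)
    have := e (H9.res₁ W₁ W₂ ω) (H9.res₂ W₁ W₂ ω)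
    rw [h.dp.join_res, H51.dot_top] at this
    rw [this]
    simp only [← H9.res₁_eq_one_iff, H9.res₁_mul, H9.res₁_inv, h.dp.res₁_join,
      H9.dual_mul_inv_eq_one]
    congr

end Cfsg.Agent.S1507
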