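import Cfsg.Statements.S1509
import Cfsg.Agent.Lib.Char.Ortho

set_option autoImplicit false
open Cfsg

namespace Cfsg.Agent.S1509

section aux

variable {X : Type*} [Group X] [Fintype X]

theorem inner_self {α : X → ℂ} (hα : IsIrrCharacter X α ∨ IsIrrCharacter X (-α)) :
    classInner α α = 1 := by
  rcases hα with h | h
  · exact H6.irr_inner_self h
  · have := H6.irr_inner_self h
    rwa [H6.classInner_neg_left, H6.classInner_neg_right, neg_neg] at this

theorem one_ne {α : X → ℂ} (hα : IsIrrCharacter X α ∨ IsIrrCharacter X (-α)) : α 1 ≠ 0 := by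
  rcases hα with h | h
  · exact H6.irr_one_ne_zero h
  · have := H6.irr_one_ne_zero h
    simpa using this

theorem trichotomy {α γ : X → ℂ} (hα : IsIrrCharacter X α ∨ IsIrrCharacter X (-α))
    (hγ : IsIrrCharacter X γ ∨ IsIrrCharacter X (-γ)) :
    classInner α γ = 0 ∨ γ = α ∨ γ = -α := by
  by_cases h0 : classInner α γ = 0
  · exact Or.inl h0
  right
  rcases hα with h | h <;> rcases hγ with h' | h'
  · exact Or.inl (H6.irr_eq_of_inner_ne_zero h h' h0).symm
  · refine Or.inr ?_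
    have := H6.irr_eq_of_inner_ne_zero h h' (by rwa [H6.classInner_neg_right, neg_ne_zero])
    rw [this, neg_neg]
  · refine Or.inr ?_
    exact (H6.irr_eq_of_inner_ne_zero h h' (by rwa [H6.classInner_neg_left, neg_ne_zero])).symm
  · refine Or.inl ?_
    have := H6.irr_eq_of_inner_ne_zero h h' (by
      rwa [H6.classInner_neg_left, H6.classInner_neg_right, neg_neg])
    exact (neg_injective this).symm

theorem first (α β γ δ : X → ℂ) (hα : IsIrrCharacter X α ∨ IsIrrCharacter X (-α))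
    (hβ : IsIrrCharacter X β ∨ IsIrrCharacter X (-β))
    (hγ : IsIrrCharacter X γ ∨ IsIrrCharacter X (-γ))
    (hδ : IsIrrCharacter X δ ∨ IsIrrCharacter X (-δ)) (u v : ℝ) (hu : u ≠ 0)
    (hab : classInner α β = 0) (hcd : classInner γ δ = 0)
    (hmix : classInner (α - β) ((u : ℂ) • γ - (v : ℂ) • δ) = 0) (h1 : α 1 = β 1)
    (h2 : (u : ℂ) * γ 1 = (v : ℂ) * δ 1) : classInner α γ = 0 := by
  have hba : classInner β α = 0 := H6.classInner_eq_zero_comm.1 hab
  have hu' : (u : ℂ) ≠ 0 := by exact_mod_cast hu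
  have ha := inner_self hα
  have hb := inner_self hβ
  have ha1 := one_ne hα
  simp only [H6.classInner_sub_left, H6.classInner_sub_right, H6.classInner_smul_right,
    Complex.conj_ofReal] at hmix
  rcases trichotomy hα hγ with h | rfl | rfl
  · exact h
  · exfalso
    rcases trichotomy hβ hδ with h | rfl | rfl
    · rw [ha, hba, hcd, h] at hmix
      exact hu' (by linear_combination hmix)
    · rw [ha, hba, hab, hb] at hmix
      exact ha1 (mul_left_cancel₀ hu' (by linear_combination (1 / 2 : ℂ) * h2 +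
        ((1 / 2 : ℂ) * δ 1) * hmix + ((1 / 2 : ℂ) * u) * h1))
    · rw [H6.classInner_neg_right, H6.classInner_neg_right, ha, hba, hab, hb] at hmix
      simp only [Pi.neg_apply] at h2
      exact ha1 (mul_left_cancel₀ hu' (by linear_combination (1 / 2 : ℂ) * h2 +
        ((1 / 2 : ℂ) * β 1) * hmix + ((1 / 2 : ℂ) * u) * h1))
  · exfalso
    rw [H6.classInner_neg_left, neg_eq_zero] at hcd
    rcases trichotomy hβ hδ with h | rfl | rfl
    · rw [H6.classInner_neg_right, H6.classInner_neg_right, ha, hba, hcd, h] at hmix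
      exact hu' (by linear_combination -hmix)
    · rw [H6.classInner_neg_right, H6.classInner_neg_right, ha, hba, hab, hb] at hmix
      simp only [Pi.neg_apply] at h2
      exact ha1 (mul_left_cancel₀ hu' (by linear_combination -(1 / 2 : ℂ) * h2 -
        ((1 / 2 : ℂ) * δ 1) * hmix + ((1 / 2 : ℂ) * u) * h1))
    · simp only [H6.classInner_neg_right] at hmix
      rw [ha, hba, hab, hb] at hmix
      simp only [Pi.neg_apply] at h2
      exact ha1 (mul_left_cancel₀ hu' (by linear_combination -(1 / 2 : ℂ) * h2 -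
        ((1 / 2 : ℂ) * β 1) * hmix + ((1 / 2 : ℂ) * u) * h1))

end aux

/-- Let α, β, γ, δ be functions on a finite group X each of which is an irreducible character or the negative of one, and u, v nonzero real numbers. Suppose ⟨α, β⟩ = ⟨γ, δ⟩ = 0, ⟨α − β, uγ − vδ⟩ = 0, α 1 = β 1 and u γ 1 = v δ 1. Then also ⟨α, γ⟩ = ⟨α, δ⟩ = ⟨β, γ⟩ = ⟨β, δ⟩ = 0. -/
theorem result {X : Type*} [Group X] [Fintype X] (α β γ δ : X → ℂ) (hα : Cfsg.IsIrrCharacter X α ∨ Cfsg.IsIrrCharacter X (-α)) (hβ : Cfsg.IsIrrCharacter X β ∨ Cfsg.IsIrrCharacter X (-β)) (hγ : Cfsg.IsIrrCharacter X γ ∨ Cfsg.IsIrrCharacter X (-γ)) (hδ : Cfsg.IsIrrCharacter X δ ∨ Cfsg.IsIrrCharacter X (-δ)) (u v : ℝ) (hu : u ≠ 0) (hv : v ≠ 0) (hab : Cfsg.classInner α β = 0) (hcd : Cfsg.classInner γ δ = 0) (hmix : Cfsg.classInner (α - β) ((u : ℂ) • γ - (v : ℂ) • δ) = 0) (h1 : α 1 = β 1) (h2 : (u : ℂ) * γ 1 = (v : ℂ) * δ 1) : Cfsg.classInner α γ = 0 ∧ Cfsg.classInner α δ = 0 ∧ Cfsg.classInner β γ = 0 ∧ Cfsg.classInner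 β δ = 0 := by
  have hba : classInner β α = 0 := H6.classInner_eq_zero_comm.1 hab
  have hdc : classInner δ γ = 0 := H6.classInner_eq_zero_comm.1 hcd
  have m1 : classInner (α - β) ((v : ℂ) • δ - (u : ℂ) • γ) = 0 := by
    rw [← neg_sub ((u : ℂ) • γ), H6.classInner_neg_right, hmix, neg_zero]
  have m2 : classInner (β - α) ((u : ℂ) • γ - (v : ℂ) • δ) = 0 := by
    rw [← neg_sub α, H6.classInner_neg_left, hmix, neg_zero]
  have m3 : classInner (β - α) ((v : ℂ) • δ - (u : ℂ) • γ) = 0 := by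
    rw [← neg_sub α, H6.classInner_neg_left, m1, neg_zero]
  exact ⟨first α β γ δ hα hβ hγ hδ u v hu hab hcd hmix h1 h2,
    first α β δ γ hα hβ hδ hγ v u hv hab hdc m1 h1 h2.symm,
    first β α γ δ hβ hα hγ hδ u v hu hba hcd m2 h1.symm h2,
    first β α δ γ hβ hα hδ hγ v u hv hba hdc m3 h1.symm h2.symm⟩

end Cfsg.Agent.S1509
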