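import Cfsg.Statements.S1511
import Cfsg.Agent.Lib.PF.H52_Rows

set_option autoImplicit false
open Cfsg H51

namespace Cfsg.Agent.S1511

/-- Let L be a finite group with K normal with complement W₁ ≠ 1 a cyclic Hall subgroup, and W₂ ≠ 1 a cyclic subgroup of K equal to C_K(x) for every non-identity x ∈ W₁, with W₁W₂ of odd order. Then there are a map μ from the linear characters of W = W₁ ⊔ W₂ to irreducible characters of L, injective, and a sign δ(ω) ∈ {1, −1} depending only on the values of ω on W₂, such that: for ω, ω' agreeing on W₂, the function induced to L from ω − ω' equals δ(ω) • (μ ω − μ ω'); μ ω x = δ(ω) ω x for x ∈ W outside W₂; every irreducible character of L not of the form μ ω vanishes on W outside W₂; and μ ω 1 − δ(ω) is an integer multiple of Nat.card W₁. -/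
theorem result {L : Type*} [Group L] [Fintype L] (K W₁ W₂ : Subgroup L) [hK : K.Normal] (hKW₁ : K ⊓ W₁ = ⊥) (hKW₁' : K ⊔ W₁ = ⊤) (hW₁ : W₁ ≠ ⊥) (hW₁c : IsCyclic W₁) (hHall : Nat.Coprime (Nat.card W₁) W₁.index) (hW₂ : W₂ ≠ ⊥) (hW₂c : IsCyclic W₂) (hW₂K : W₂ ≤ K) (hC : ∀ x ∈ W₁, x ≠ 1 → K ⊓ Subgroup.centralizer ({x} : Set L) = W₂) (hodd : Odd (Nat.card ↥(W₁ ⊔ W₂))) : ∃ (μ : (↥(W₁ ⊔ W₂) →* ℂˣ) → (L → ℂ)) (δ : (↥(W₁ ⊔ W₂) →* ℂˣ) → ℂ), Function.Injective μ ∧ (∀ ω, Cfsg.IsIrrCharacter L (μ ω)) ∧ (∀ ω, δ ω = 1 ∨ δ ω = -1) ∧ (∀ ω ω' : ↥(W₁ ⊔ W₂) →* ℂˣ, (∀ w : ↥(W₁ ⊔ W₂), (w : L) ∈ W₂ → ω w = ω' w) → δ ω = δ ω' ∧ Cfsg.indFun (W₁ ⊔ W₂) (fun w => (ω w : ℂ) - (ω' w : ℂ)) = δ ω • (μ ω - μ ω')) ∧ (∀ ω, ∀ w : ↥(W₁ ⊔ W₂), (w : L) ∉ W₂ → μ ω w = δ ω * (ω w : ℂ)) ∧ (∀ θ : L → ℂ, Cfsg.IsIrrCharacter L θ → (∀ ω, θ ≠ μ ω)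 → ∀ w : ↥(W₁ ⊔ W₂), (w : L) ∉ W₂ → θ w = 0) ∧ (∀ ω, ∃ n : ℤ, μ ω 1 - δ ω = n * (Nat.card W₁ : ℂ)) := by
  have h := H52.primeTI_top hK hKW₁ hKW₁' hW₁ hW₁c hHall hW₂ hW₂c hW₂K hC hodd
  have dp := h.dp
  have hv : ∀ (ω : Dual (W₁ ⊔ W₂)) (w : ↥(W₁ ⊔ W₂)),
      omg W₁ W₂ (H9.res₁ W₁ W₂ ω) (H9.res₂ W₁ W₂ ω) w = (ω w : ℂ) := fun ω w => by
    rw [dp.omg_res, H9.lin_coe]
  refine ⟨fun ω => mu ⊤ W₁ W₂ (H9.res₁ W₁ W₂ ω) (H9.res₂ W₁ W₂ ω),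
    fun ω => (dlt ⊤ W₁ W₂ (H9.res₂ W₁ W₂ ω) : ℂ), fun ω ω' e => dp.eq_iff_res.2 (h.mu_inj e),
    fun ω => mem_irr_top.1 (h.mu_irr _ _), fun ω => ?_, fun ω ω' e => ?_, fun ω w hw => ?_,
    fun θ hθ hne w hw => ?_, fun ω => ?_⟩
  · rcases dlt_eq_or ⊤ W₁ W₂ (H9.res₂ W₁ W₂ ω) with e | e <;> simp [e]
  · have e2 : H9.res₂ W₁ W₂ ω = H9.res₂ W₁ W₂ ω' := by
      rw [← H9.dual_mul_inv_eq_one, ← H9.res₂_inv, ← H9.res₂_mul, H9.res₂_eq_one_iff]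
      intro w hw
      show ω w * (ω' w)⁻¹ = 1
      rw [e w hw, mul_inv_cancel]
    refine ⟨by simp only [e2], ?_⟩
    have := h.ind_sub_omg (H9.res₁ W₁ W₂ ω) (H9.res₁ W₁ W₂ ω') (H9.res₂ W₁ W₂ ω)
    rw [ind_top] at this
    simp only [← e2]
    rw [← this]
    congr 1
    funext w
    rw [Pi.sub_apply, hv, e2, hv]
  · simp only
    rw [h.mu_eq_on _ _ w.2 hw, hv]
  · refine h.not_mu_vanish (mem_irr_top.2 hθ) (fun i j e => hne (dp.join i j) ?_) w.2 hw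
    simp only [dp.res₁_join, dp.res₂_join]
    exact e
  · obtain ⟨n, hn⟩ := (h.deg_mu_modEq (H9.res₁ W₁ W₂ ω) (H9.res₂ W₁ W₂ ω)).symm.dvd
    refine ⟨n, ?_⟩
    simp only
    rw [irr_apply_one (h.mu_irr _ _), mul_comm]
    exact_mod_cast hn

end Cfsg.Agent.S1511
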