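import Cfsg.Statements.S1512
import Mathlib

set_option autoImplicit false
open Cfsg

namespace Cfsg.Agent.S1512

/-- Let K be a normal subgroup of the finite group L and x a non-identity element whose order is coprime to the order of K, such that K ⊓ C_L(y) = W₂ for every non-identity element y of the cyclic group generated by x. Then the number of conjugacy classes of K mapped to themselves by conjugation by x is at most Nat.card W₂. -/
theorem result {L : Type*} [Group L] [Finite L] (K W₂ : Subgroup L) [hK : K.Normal] (x : L) (hx1 : x ≠ 1) (hx : Nat.Coprime (orderOf x) (Nat.card K)) (hC : ∀ y ∈ Subgroup.zpowers x, y ≠ 1 → K ⊓ Subgroup.centralizer ({y} : Set L) = W₂) : Nat.card {C : ConjClasses K // ConjClasses.map (MulEquiv.toMonoidHom ((MulAut.conjNormal x : MulAut K))) C = C} ≤ Nat.card W₂ := by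
  classical
  -- an element of prime order in the cyclic group generated by `x`
  have hx0 : orderOf x ≠ 1 := fun h => hx1 (orderOf_eq_one_iff.1 h)
  obtain ⟨p, hp, hpx⟩ := Nat.exists_prime_and_dvd hx0
  have hpos : 0 < orderOf x := orderOf_pos x
  set y : L := x ^ (orderOf x / p) with hy
  have hoy : orderOf y = p := by
    rw [hy, orderOf_pow_orderOf_div hpos.ne' hpx]
  have hy1 : y ≠ 1 := by
    intro h
    rw [h, orderOf_one] at hoy
    exact hp.one_lt.ne hoy
  have hyx : y ∈ Subgroup.zpowers x := Subgroup.pow_mem _ (Subgroup.mem_zpowers x) _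
  have hpK : Nat.Coprime p (Nat.card K) := Nat.Coprime.coprime_dvd_left hpx hx
  have key : ∀ C : ConjClasses K,
      ConjClasses.map (MulEquiv.toMonoidHom ((MulAut.conjNormal x : MulAut K))) C = C →
      ∃ w : K, (w : L) ∈ W₂ ∧ ConjClasses.mk w = C := by
    intro C hCx
    obtain ⟨c, rfl⟩ := ConjClasses.mk_surjective C
    have hstep : ∀ k : K, IsConj c k → IsConj c (MulAut.conjNormal x k) := by
      intro k hk
      have h1 : IsConj (MulAut.conjNormal x c) c := ConjClasses.mk_eq_mk_iff_isConj.1 hCx
      exact h1.symm.trans
        ((MulEquiv.toMonoidHom ((MulAut.conjNormal x : MulAut K))).map_isConj hk)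
    have hpow : ∀ n : ℕ, ∀ k : K, IsConj c k → IsConj c (MulAut.conjNormal (x ^ n) k) := by
      intro n
      induction n with
      | zero => intro k hk; simpa using hk
      | succ n ih =>
        intro k hk
        rw [pow_succ', map_mul]
        exact hstep _ (ih k hk)
    let f : {k : K // IsConj c k} → {k : K // IsConj c k} :=
      fun k => ⟨MulAut.conjNormal y k.1, hpow _ _ k.2⟩
    have hfn : ∀ n : ℕ, ∀ k, ((f^[n] k).1 : K) = MulAut.conjNormal (y ^ n) k.1 := by
      intro n
      induction n with
      | zero => intro k; simp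
      | succ n ih =>
        intro k
        rw [Function.iterate_succ_apply', pow_succ', map_mul]
        simp only [f, ih, MulAut.mul_apply]
    have hfp : f^[p ^ 1] = id := by
      funext k
      apply Subtype.ext
      rw [hfn, pow_one, ← hoy, pow_orderOf_eq_one]
      simp
    have : Fintype {k : K // IsConj c k} := Fintype.ofFinite _
    have : Fact p.Prime := ⟨hp⟩
    have hcard : ¬ p ∣ Fintype.card {k : K // IsConj c k} := by
      intro hd
      have h1 : Fintype.card {k : K // IsConj c k} ∣ Nat.card K := by
        have e : {k : K // IsConj c k} ≃ MulAction.orbit (ConjAct K) c :=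
          Equiv.subtypeEquivRight (fun k => by
            rw [ConjAct.mem_orbit_conjAct]; exact isConj_comm)
        rw [← Nat.card_eq_fintype_card, Nat.card_congr e]
        have h3 := MulAction.index_stabilizer (ConjAct K) c
        rw [Nat.card_coe_set_eq, ← h3]
        exact Subgroup.index_dvd_card _
      have := Nat.dvd_gcd (dvd_refl p) (hd.trans h1)
      rw [hpK, Nat.dvd_one] at this
      exact hp.one_lt.ne' this
    obtain ⟨k, hk⟩ := Equiv.Perm.exists_fixed_point_of_prime (p := p) (n := 1) hcard
      (σ := Equiv.ofBijective f (Finite.injective_iff_bijective.1 (fun a b hab => by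
        apply Subtype.ext
        exact (MulAut.conjNormal y).injective (congrArg Subtype.val hab)))) (by
        ext k
        rw [← Equiv.Perm.iterate_eq_pow]
        simp only [Equiv.coe_ofBijective, hfp, id, Equiv.Perm.coe_one])
    refine ⟨k.1, ?_, (ConjClasses.mk_eq_mk_iff_isConj.2 k.2).symm⟩
    rw [← hC y hyx hy1]
    refine ⟨k.1.2, Subgroup.mem_centralizer_singleton_iff.2 ?_⟩
    have h1 : (MulAut.conjNormal y k.1 : K) = k.1 := congrArg Subtype.val hk
    have h2 : y * k.1 * y⁻¹ = k.1 := congrArg Subtype.val h1
    calc (k.1 : L) * y = (y * k.1 * y⁻¹) * y := by rw [h2]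
      _ = y * k.1 := by group
  choose w hw using key
  refine Nat.card_le_card_of_injective (fun C => (⟨(w C.1 C.2 : L), (hw C.1 C.2).1⟩ : W₂)) ?_
  intro C D hCD
  apply Subtype.ext
  rw [← (hw C.1 C.2).2, ← (hw D.1 D.2).2]
  congr 1
  exact Subtype.ext (congrArg (fun z : W₂ => (z : L)) hCD)

end Cfsg.Agent.S1512
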