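import Cfsg.Statements.S1513
import Cfsg.Agent.Lib.PF.H52_Rows

set_option autoImplicit false
open Cfsg H51

namespace Cfsg.Agent.S1513

/-- Let L be a finite group with K normal with complement W₁ ≠ 1 a cyclic Hall subgroup, and W₂ ≠ 1 a cyclic subgroup of K equal to C_K(x) for every non-identity x ∈ W₁, with W₁W₂ of odd order. For an irreducible character θ of K: if θ is not fixed under conjugation by some element of W₁, then the function induced from θ to L is an irreducible character of L; and the irreducible characters of K fixed by all of W₁ are exactly Nat.card W₂ in number, each inducing to the sum of Nat.card W₁ pairwise distinct irreducible characters of L. -/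
theorem result {L : Type*} [Group L] [Fintype L] (K W₁ W₂ : Subgroup L) [hK : K.Normal] (hKW₁ : K ⊓ W₁ = ⊥) (hKW₁' : K ⊔ W₁ = ⊤) (hW₁ : W₁ ≠ ⊥) (hW₁c : IsCyclic W₁) (hHall : Nat.Coprime (Nat.card W₁) W₁.index) (hW₂ : W₂ ≠ ⊥) (hW₂c : IsCyclic W₂) (hW₂K : W₂ ≤ K) (hC : ∀ x ∈ W₁, x ≠ 1 → K ⊓ Subgroup.centralizer ({x} : Set L) = W₂) (hodd : Odd (Nat.card ↥(W₁ ⊔ W₂))) : (∀ θ : K → ℂ, Cfsg.IsIrrCharacter K θ → (∃ x ∈ W₁, (fun k : K => θ ⟨x * k * x⁻¹, hK.conj_mem (k : L) k.2 x⟩) ≠ θ) → Cfsg.IsIrrCharacter L (Cfsg.indFun K θ)) ∧ Nat.card {θ : Cfsg.IrrCharacter K // ∀ x ∈ W₁, (fun k : K => (θ : K → ℂ) ⟨x * k * x⁻¹, hK.conj_mem (k : L) k.2 x⟩) = θ} = Nat.card W₂ ∧ (∀ θ : K → ℂ, Cfsg.IsIrrCharacter K θ → (∀ x ∈ W₁, (fun k : K => θ ⟨x * k * x⁻¹, hK.conj_mem (k : L) k.2 x⟩) = θ) → ∃ C : Finset (L → ℂ), C.card = Nat.card W₁ ∧ (∀ μ ∈ C, Cfsg.IsIrrCharacter L μ) ∧ Cfsg.indFun K θ = ∑ μ ∈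 C, μ) := by
  classical
  have h := H52.primeTI_top hK hKW₁ hKW₁' hW₁ hW₁c hHall hW₂ hW₂c hW₂K hC hodd
  have hfix : ∀ (j : Dual W₂) (x : L), conjg x (muRes ⊤ K W₁ W₂ j) = muRes ⊤ K W₁ W₂ j := fun j x =>
    (mem_inertia.1 ((h.inertia_muRes j).ge (Subgroup.mem_top x))).2
  obtain ⟨x₀, hx₀, hx1⟩ : ∃ x ∈ W₁, x ≠ 1 := by
    obtain ⟨⟨x, hx⟩, hne⟩ := Subgroup.ne_bot_iff_exists_ne_one.1 hW₁
    exact ⟨x, hx, by simpa using hne⟩
  have hex : ∀ θ : K → ℂ, IsIrrCharacter K θ →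
      (∀ x ∈ W₁, (fun k : K => θ ⟨x * k * x⁻¹, hK.conj_mem (k : L) k.2 x⟩) = θ) →
      ∃ j, extendByZero K θ = muRes ⊤ K W₁ W₂ j := fun θ hθ hf =>
    h.eq_muRes_of_fixed (extendByZero_mem_irr.2 hθ) (Subgroup.mem_top x₀)
      (fun hk => hx1 (h.eq_one hk hx₀)) ((H52.conj_fixed_iff hK θ x₀).1 (hf x₀ hx₀))
  refine ⟨fun θ hθ ⟨x, _, hx⟩ => ?_, ?_, fun θ hθ hf => ?_⟩
  · rcases h.irr_cases (extendByZero_mem_irr.2 hθ) with ⟨j, hj⟩ | ⟨hi, -⟩
    · exact absurd ((H52.conj_fixed_iff hK θ x).2 (by rw [hj, hfix])) hx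
    · rw [ind_top_extendByZero] at hi
      exact mem_irr_top.1 hi
  · have hs : ∀ j : Dual W₂, extendByZero K (fun k : K => muRes ⊤ K W₁ W₂ j k) = muRes ⊤ K W₁ W₂ j :=
      fun j => extendByZero_coe_of_supp (irr_supp (h.muRes_irr j))
    rw [← h.cyclicTI.card_dual₂, ← Nat.card_eq_fintype_card]
    symm
    refine Nat.card_eq_of_bijective (fun j => ⟨⟨fun k : K => muRes ⊤ K W₁ W₂ j k,
      (mem_irr.1 (h.muRes_irr j)).1⟩, fun x _ => (H52.conj_fixed_iff hK _ x).2 (by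
        simp only [hs, hfix])⟩) ⟨fun j j' e => h.muRes_injective ?_, fun θ => ?_⟩
    · have e1 : (fun k : K => muRes ⊤ K W₁ W₂ j k) = fun k : K => muRes ⊤ K W₁ W₂ j' k :=
        congrArg (fun t => t.1.1) e
      rw [← hs j, ← hs j', e1]
    · obtain ⟨j, hj⟩ := hex θ.1.1 θ.1.2 θ.2
      refine ⟨j, Subtype.ext (Subtype.ext ?_)⟩
      simp only [← hj]
      exact coe_extendByZero K _
  · obtain ⟨j, hj⟩ := hex θ hθ hf
    have hinj : Function.Injective fun i : Dual W₁ => mu ⊤ W₁ W₂ i j := fun i i' e => (h.mu_inj e).1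
    refine ⟨Finset.univ.image fun i : Dual W₁ => mu ⊤ W₁ W₂ i j, ?_, fun μ hμ => ?_, ?_⟩
    · rw [Finset.card_image_of_injective _ hinj, Finset.card_univ, h.cyclicTI.card_dual₁]
    · obtain ⟨i, -, rfl⟩ := Finset.mem_image.1 hμ
      exact mem_irr_top.1 (h.mu_irr i j)
    · rw [Finset.sum_image fun i _ i' _ e => hinj e, ← ind_top_extendByZero, hj, h.ind_muRes, muCol_def]

end Cfsg.Agent.S1513
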