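import Cfsg.Statements.S1514
import Cfsg.Agent.Lib.PF.H52_Rows

set_option autoImplicit false
open Cfsg H51

namespace Cfsg.Agent.S1514

/-- Let S be a nonempty set of irreducible characters of the finite group L, closed under complex conjugation and containing no real-valued member, and τ a linear isometry on the integer combinations of S vanishing at 1, with values virtual characters of G vanishing at 1. Then there is a choice R making (S, τ, R) a coherence system. -/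
theorem result {L : Type*} [Group L] [Fintype L] {G : Type*} [Group G] [Fintype G] (S : Set (L → ℂ)) (hS : S.Nonempty) (hirr : ∀ χ ∈ S, Cfsg.IsIrrCharacter L χ) (hconj : ∀ χ ∈ S, Cfsg.conjFun χ ∈ S ∧ Cfsg.conjFun χ ≠ χ) (τ : (L → ℂ) → (G → ℂ)) (hτ : Cfsg.IsLinearIsometryOn (Cfsg.zspanOn S {1}ᶜ) τ) (hτ1 : ∀ α ∈ Cfsg.zspanOn S {1}ᶜ, τ α 1 = 0) : ∃ R : (L → ℂ) → Finset (G → ℂ), Cfsg.IsCoherenceSystem S τ R := by
  classical
  have hfin : S.Finite := (irr (⊤ : Subgroup L)).finite_toSet.subset fun χ hχ => mem_irr_top.2 (hirr χ hχ)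
  obtain ⟨S, rfl⟩ := hfin.exists_finset_coe
  obtain ⟨T, hT⟩ := H53.exists_linear_of_inner hτ.2.2.1
  have hT' : ∀ α ∈ zs1 S, T α = τ α := fun α hα => hT α (H53.mem_zspanOn_iff.2 hα)
  have hsub := irr_subcoherent (L := ⊤) (G := ⊤) (S := S) (τ := T)
    (fun χ hχ => mem_irr_top.2 (hirr χ hχ)) (fun χ hχ => (hconj χ hχ).1) (fun χ hχ => (hconj χ hχ).2)
    (fun α hα β hβ => by
      rw [hT' α hα, hT' β hβ, dot_top, dot_top]
      exact hτ.2.2.1 α (H53.mem_zspanOn_iff.2 hα) β (H53.mem_zspanOn_iff.2 hβ))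
    (fun α hα => by rw [hT' α hα, mem_vchar_top]; exact hτ.2.2.2 α (H53.mem_zspanOn_iff.2 hα))
    (fun α hα => by rw [hT' α hα]; exact hτ1 α (H53.mem_zspanOn_iff.2 hα))
  refine ⟨_, hS, fun χ hχ => isChar_top.1 (hsub.isChar χ hχ), fun χ hχ => (hconj χ hχ).1,
    fun χ hχ => (hconj χ hχ).2, hτ, hτ1, fun χ hχ φ hφ hne => ?_, fun χ hχ α hα β hβ => ?_,
    fun χ hχ α hα => mem_vchar_top.1 (hsub.R_mem χ hχ α hα), fun χ hχ => ?_,
    fun χ hχ φ hφ h1 h2 α hα β hβ => ?_⟩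
  · rw [← dot_top]; exact hsub.ortho χ hχ φ hφ hne
  · rw [← dot_top, hsub.R_orthonormal χ hχ α hα β hβ]
    congr
  · rw [← hsub.R_sum χ hχ, hT' _ (hsub.sub_star_mem hχ)]; rfl
  · rw [← dot_top] at h1 h2 ⊢
    exact hsub.R_ortho χ hχ φ hφ h1 h2 α hα β hβ

end Cfsg.Agent.S1514
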