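import Cfsg.Statements.S1515
import Cfsg.Agent.Lib.PF.H52_Rows

set_option autoImplicit false
open Cfsg H51

namespace Cfsg.Agent.S1515

/-- Let (S, τ, R) be a coherence system from L to G, χ ∈ S, and ψ an integer combination of S with ⟨χ, ψ⟩ = ⟨conj χ, ψ⟩ = 0. Let τ₁ be a linear isometry on the integer combinations of χ − ψ and χ − conj χ, with virtual-character values, agreeing with τ on integer multiples of χ − conj χ. Then the sum over α ∈ R χ of the squared absolute values of ⟨τ₁(χ − ψ), α⟩ is at least ⟨χ, χ⟩; and if ⟨τ₁(χ − ψ), τ₁(χ − ψ)⟩ minus that sum is at least ⟨ψ, ψ⟩, then the sum equals ⟨χ, χ⟩ and every ⟨τ₁(χ − ψ), α⟩ with α ∈ R χ is 0 or 1. -/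
theorem result {L : Type*} [Group L] [Fintype L] {G : Type*} [Group G] [Fintype G] (S : Set (L → ℂ)) (τ : (L → ℂ) → (G → ℂ)) (R : (L → ℂ) → Finset (G → ℂ)) (hS : Cfsg.IsCoherenceSystem S τ R) (χ : L → ℂ) (hχ : χ ∈ S) (ψ : L → ℂ) (hψ : ψ ∈ Cfsg.zspan S) (h1 : Cfsg.classInner χ ψ = 0) (h2 : Cfsg.classInner (Cfsg.conjFun χ) ψ = 0) (τ₁ : (L → ℂ) → (G → ℂ)) (hτ₁ : Cfsg.IsLinearIsometryOn (Cfsg.zspan {χ - ψ, χ - Cfsg.conjFun χ}) τ₁) (hagree : ∀ n : ℤ, τ₁ (n • (χ - Cfsg.conjFun χ)) = τ (n • (χ - Cfsg.conjFun χ))) : (Cfsg.classInner χ χ).re ≤ ∑ α ∈ R χ, ‖Cfsg.classInner (τ₁ (χ - ψ)) α‖ ^ 2 ∧ ((Cfsg.classInner ψ ψ).re ≤ (Cfsg.classInner (τ₁ (χ - ψ)) (τ₁ (χ - ψ))).re - ∑ α ∈ R χ, ‖Cfsg.classInner (τ₁ (χ - ψ)) α‖ ^ 2 → (∑ α ∈ R χ, ‖Cfsg.classInner (τ₁ (χ - ψ)) α‖ ^ 2 = (Cfsg.classInner χ χ).re ∧ ∀ α ∈ R χ, Cfsg.classInner (τ₁ (χ - ψ)) α = 0 ∨ Cfsg.classInner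 (τ₁ (χ - ψ)) α = 1)) := by
  have m1 : χ - ψ ∈ zspan ({χ - ψ, χ - conjFun χ} : Set (L → ℂ)) :=
    Submodule.subset_span (by simp)
  have m2 : χ - conjFun χ ∈ zspan ({χ - ψ, χ - conjFun χ} : Set (L → ℂ)) :=
    Submodule.subset_span (by simp)
  have ha : τ₁ (χ - ψ) ∈ vchar (⊤ : Subgroup G) := mem_vchar_top.2 (hτ₁.2.2.2 _ m1)
  have e1 := hτ₁.2.2.1 _ m1 _ m2
  have e2 := hτ₁.2.2.1 _ m1 _ m1
  have e3 := hagree 1
  have e4 := hS.orthogonal χ hχ _ (hS.conj_mem χ hχ) (hS.conj_ne χ hχ).symm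
  rw [one_smul] at e3
  rw [e3, hS.sum_eq χ hχ] at e1
  simp only [← dot_top] at *
  have h1' := (dot_eq_zero_comm ⊤).1 h1
  have h2' := (dot_eq_zero_comm ⊤).1 h2
  rw [dot_sum_right, dot_sub_left, dot_sub_right, dot_sub_right, e4, h1', h2'] at e1
  rw [dot_sub_left, dot_sub_right, dot_sub_right, h1, h1'] at e2
  have hv : ∀ α ∈ R χ, α ∈ vchar (⊤ : Subgroup G) := fun α hα => mem_vchar_top.2 (hS.virtual χ hχ α hα)
  have f1 : (dot ⊤ χ χ).re = ∑ α ∈ R χ, (idot ⊤ (τ₁ (χ - ψ)) α : ℝ) := by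
    have := congrArg Complex.re e1
    rw [Complex.re_sum, Finset.sum_congr rfl fun α hα => re_dot_eq_idot ha (hv α hα)] at this
    simpa using this.symm
  have f2 : (dot ⊤ (τ₁ (χ - ψ)) (τ₁ (χ - ψ))).re = (dot ⊤ χ χ).re + (dot ⊤ ψ ψ).re := by
    rw [e2]; simp
  have f3 : ∀ n : ℤ, (n : ℝ) ≤ (n : ℝ) ^ 2 := fun n => by exact_mod_cast Int.le_self_sq n
  rw [Finset.sum_congr rfl fun α hα => norm_dot_sq_eq_idot ha (hv α hα), f2, f1]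
  have f4 := Finset.sum_le_sum fun α (_ : α ∈ R χ) => f3 (idot ⊤ (τ₁ (χ - ψ)) α)
  refine ⟨f4, fun hle => ⟨by linarith, fun α hα => ?_⟩⟩
  have f5 := (Finset.sum_eq_sum_iff_of_le fun α (_ : α ∈ R χ) => f3 (idot ⊤ (τ₁ (χ - ψ)) α)).1
    (by linarith) α hα
  rw [dot_eq_idot ha (hv α hα)]
  generalize idot ⊤ (τ₁ (χ - ψ)) α = n at f5
  have f6 : n * (n - 1) = 0 := by
    have : (n : ℝ) * (n - 1) = 0 := by nlinarith
    exact_mod_cast this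
  rcases mul_eq_zero.1 f6 with h | h
  · left; simp [h]
  · right; simp [sub_eq_zero.1 h]

end Cfsg.Agent.S1515
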