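import Cfsg.Statements.S1518
import Cfsg.Agent.Lib.PF.H52_Rows

set_option autoImplicit false
open Cfsg H51

namespace Cfsg.Agent.S1518

/-- Under the Dade hypothesis for (A, L, H): if χ is an irreducible character of L vanishing at every non-identity element of L outside A, then the Dade image of χ − conj χ equals μ − conj μ for some irreducible character μ of G. -/
theorem result {G : Type*} [Group G] [Fintype G] (A : Set G) (L : Subgroup G) [Fintype L] (H : G → Subgroup G) (hD : Cfsg.DadeHypothesis A L H) (χ : L → ℂ) (hχ : Cfsg.IsIrrCharacter L χ) (hsupp : ∀ x : L, x ≠ 1 → (x : G) ∉ A → χ x = 0) : ∃ μ : G → ℂ, Cfsg.IsIrrCharacter G μ ∧ Cfsg.dadeIsometry A L H (χ - Cfsg.conjFun χ) = μ - Cfsg.conjFun μ := by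
  have hi := extendByZero_mem_irr.2 hχ
  have e : ∀ x : L, extendByZero L χ x = χ x := fun x => congrFun (coe_extendByZero L χ) x
  obtain ⟨μ, hμ, h⟩ := dade_irr_sub_star hD hi ⟨irr_mem_CF hi, fun x hx => by
    by_cases hL : x ∈ L
    · rw [Set.mem_insert_iff, not_or] at hx
      exact (e ⟨x, hL⟩).trans (hsupp ⟨x, hL⟩ (fun h => hx.1 (congrArg Subtype.val h)) hx.2)
    · exact extendByZero_supp L χ x hL⟩
  refine ⟨μ, mem_irr_top.1 hμ, Eq.trans ?_ h⟩
  show _ = dadeIsometry A L H fun x : L => (extendByZero L χ - star (extendByZero L χ)) x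
  congr 1
  funext x
  simp only [Pi.sub_apply, Pi.star_apply, e]
  rfl

end Cfsg.Agent.S1518
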