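import Mathlib
import Cfsg.Statements.S1519
import Cfsg.Agent.Base
import Cfsg.Agent.Lib.PF.H53_Bridge

set_option autoImplicit false
open Cfsg

namespace Cfsg.Agent.S1519


/-- Let K be a solvable normal subgroup of the finite group L and (S, τ, R) a coherence system from L to G where S is the set of functions induced from non-principal irreducible characters of K; write S(A) for those induced from characters whose kernel contains A. Let A, B, C, D be normal subgroups of L with A < K, B < K, B ≤ D ≤ C ≤ K and every commutator of D with C in B. If S(A) is coherent and 4 * [L:C]^2 * [C:D] < ([K:A] − 1)^2, then S(B) is coherent. -/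
theorem result {L : Type*} [Group L] [Fintype L] {G : Type*} [Group G] [Fintype G] (K : Subgroup L) [hK : K.Normal] (hsolv : Group.IsSolvable K) (τ : (L → ℂ) → (G → ℂ)) (R : (L → ℂ) → Finset (G → ℂ)) (hS : Cfsg.IsCoherenceSystem (Cfsg.inducedIrrAbove K ⊥) τ R) (A B C D : Subgroup L) [A.Normal] [B.Normal] [C.Normal] [D.Normal] (hAK : A < K) (hBK : B < K) (hBD : B ≤ D) (hDC : D ≤ C) (hCK : C ≤ K) (hcent : ∀ x ∈ D, ∀ y ∈ C, x * y * x⁻¹ * y⁻¹ ∈ B) (hA : Cfsg.IsCoherent (Cfsg.inducedIrrAbove K A) {1}ᶜ τ) (hlt : 4 * C.index ^ 2 * D.relIndex C < (A.relIndex K - 1) ^ 2) : Cfsg.IsCoherent (Cfsg.inducedIrrAbove K B) {1}ᶜ τ := by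
  have hKL : H51.NormalIn K ⊤ := H51.normalIn_top.2 hK
  have hA' : H51.NormalIn A ⊤ := H51.normalIn_top.2 inferInstance
  have hB' : H51.NormalIn B ⊤ := H51.normalIn_top.2 inferInstance
  rw [H53.inducedIrrAbove_eq bot_le] at hS
  rw [H53.inducedIrrAbove_eq hAK.le] at hA
  rw [H53.inducedIrrAbove_eq hBK.le]
  obtain ⟨T, hT, hsub⟩ := H53.exists_subcoherent_of_system hS
  have hmono : ∀ M : Subgroup L, H51.seqInd K ⊤ K M ⊆ H51.seqInd K ⊤ K ⊥ :=
    fun M => H53.seqInd_mono le_rfl bot_le
  refine H53.isCoherent_sub hsub hT (hmono B) (fun χ hχ => H53.seqInd_star hχ)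
    (H53.seqInd_nonempty (hB'.mono hBK.le le_top) hBK) ?_
  refine H51.coherent_seqInd_bound hKL hsolv hsub hA' hB' hAK hBD hDC hCK ?_
    (H53.coherent_of_isCoherent (fun α hα => hT α (H51.zs1_mono (hmono A) hα)) hA) ?_
  · rw [Subgroup.commutator_le]
    intro x hx y hy
    exact hcent x hx y hy
  · rwa [Subgroup.relIndex_top_right]

end Cfsg.Agent.S1519
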