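import Mathlib
import Cfsg.Statements.S1520
import Cfsg.Agent.Base
import Cfsg.Agent.Lib.PF.H53_Bridge

set_option autoImplicit false
open Cfsg

namespace Cfsg.Agent.S1520


/-- Let K be a solvable normal subgroup of the finite group L and (S, τ, R) a coherence system from L to G with S the functions induced from non-principal irreducible characters of K; S(A) the members of S induced from characters whose kernel contains A. Let M ≤ H₁ ≤ H ≤ K be normal subgroups of L such that every term of the lower central series of H eventually lies in M (H/M nilpotent), S(H₁) is coherent and [H:H₁] > 4 * [L:K]^2 + 1. Then S(M) is coherent. -/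
theorem result {L : Type*} [Group L] [Fintype L] {G : Type*} [Group G] [Fintype G] (K : Subgroup L) [hK : K.Normal] (hsolv : Group.IsSolvable K) (τ : (L → ℂ) → (G → ℂ)) (R : (L → ℂ) → Finset (G → ℂ)) (hS : Cfsg.IsCoherenceSystem (Cfsg.inducedIrrAbove K ⊥) τ R) (M H₁ H : Subgroup L) [M.Normal] [H₁.Normal] [H.Normal] (hMH₁ : M ≤ H₁) (hH₁H : H₁ ≤ H) (hHK : H ≤ K) [(M.subgroupOf H).Normal] (hnil : Group.IsNilpotent (↥H ⧸ M.subgroupOf H)) (hcoh : Cfsg.IsCoherent (Cfsg.inducedIrrAbove K H₁) {1}ᶜ τ) (hbig : 4 * K.index ^ 2 + 1 < H₁.relIndex H) : Cfsg.IsCoherent (Cfsg.inducedIrrAbove K M) {1}ᶜ τ := by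
  have hKL : H51.NormalIn K ⊤ := H51.normalIn_top.2 hK
  have hM' : H51.NormalIn M ⊤ := H51.normalIn_top.2 inferInstance
  have hH' : H51.NormalIn H ⊤ := H51.normalIn_top.2 inferInstance
  have hH₁' : H51.NormalIn H₁ ⊤ := H51.normalIn_top.2 inferInstance
  have hMK : M < K := by
    refine lt_of_le_of_ne (hMH₁.trans (hH₁H.trans hHK)) fun e => ?_
    have : H₁.relIndex H = 1 := Subgroup.relIndex_eq_one.2 (hHK.trans (e ▸ hMH₁))
    rw [this] at hbig
    omega
  rw [H53.inducedIrrAbove_eq bot_le] at hS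
  rw [H53.inducedIrrAbove_eq (hH₁H.trans hHK)] at hcoh
  rw [H53.inducedIrrAbove_eq hMK.le]
  obtain ⟨T, hT, hsub⟩ := H53.exists_subcoherent_of_system hS
  have hmono : ∀ M : Subgroup L, H51.seqInd K ⊤ K M ⊆ H51.seqInd K ⊤ K ⊥ :=
    fun M => H53.seqInd_mono le_rfl bot_le
  refine H53.isCoherent_sub hsub hT (hmono M) (fun χ hχ => H53.seqInd_star hχ)
    (H53.seqInd_nonempty (hM'.mono hMK.le le_top) hMK) ?_
  refine H51.bounded_seqInd_coherence hKL hsolv hsub hM' hH' hH₁' hMH₁ hH₁H hHK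
    (H51.nilMod_iff_quotient.2 hnil)
    (H53.coherent_of_isCoherent (fun α hα => hT α (H51.zs1_mono (hmono H₁) hα)) hcoh) ?_
  rwa [Subgroup.relIndex_top_right]

end Cfsg.Agent.S1520
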