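import Mathlib
import Cfsg.Statements.S1521
import Cfsg.Agent.Base
import Cfsg.Agent.Lib.PF.H53_Bridge

set_option autoImplicit false
open Cfsg

namespace Cfsg.Agent.S1521


/-- Let K be a solvable normal subgroup of the finite group L of odd order and (S, τ, R) a coherence system from L to G with S the functions induced from non-principal irreducible characters of K; S(A) as before. Let M ≤ K be normal in L with K/M nilpotent, H₁ = [K, K] ⊔ M, H₁ < K < L, and suppose every element of K outside H₁ is centralised modulo H₁ only from inside K (L/H₁ is a Frobenius group with kernel K/H₁). Suppose one of the following: some normal subgroup of L lies strictly between H₁ and K; or [K:H₁] > 4[L:K]^2 + 1; or [K:M] is not a prime power; or [K,K] ≤ M; or [K:M] is a power of a prime p with [L:K] dividing p − 1. Then S(M) is coherent. -/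
theorem result {L : Type*} [Group L] [Fintype L] {G : Type*} [Group G] [Fintype G] (K : Subgroup L) [hK : K.Normal] (hsolv : Group.IsSolvable K) (τ : (L → ℂ) → (G → ℂ)) (R : (L → ℂ) → Finset (G → ℂ)) (hS : Cfsg.IsCoherenceSystem (Cfsg.inducedIrrAbove K ⊥) τ R) (hodd : Odd (Nat.card L)) (M : Subgroup L) [M.Normal] (hMK : M ≤ K) [(M.subgroupOf K).Normal] (hnil : Group.IsNilpotent (↥K ⧸ M.subgroupOf K)) (H₁ : Subgroup L) (hH₁ : H₁ = ⁅K, K⁆ ⊔ M) (hH₁K : H₁ < K) (hKL : K < ⊤) (hfrob : ∀ k ∈ K, k ∉ H₁ → ∀ x : L, x * k * x⁻¹ * k⁻¹ ∈ H₁ → x ∈ K) (hgood : (∃ N : Subgroup L, N.Normal ∧ H₁ < N ∧ N < K) ∨ 4 * K.index ^ 2 + 1 < H₁.relIndex K ∨ (¬ ∃ p m : ℕ, p.Prime ∧ M.relIndex K = p ^ m) ∨ ⁅K, K⁆ ≤ M ∨ (∃ p m : ℕ, p.Prime ∧ M.relIndex K = p ^ m ∧ K.index ∣ p - 1)) : Cfsg.IsCoherent (Cfsg.inducedIrrAbove K M) {1}ᶜ τ := by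
  subst hH₁
  have hKL' : H51.NormalIn K ⊤ := H51.normalIn_top.2 hK
  have hM' : H51.NormalIn M ⊤ := H51.normalIn_top.2 inferInstance
  have hMK' : M < K := lt_of_le_of_lt le_sup_right hH₁K
  rw [H53.inducedIrrAbove_eq bot_le] at hS
  rw [H53.inducedIrrAbove_eq hMK]
  obtain ⟨T, hT, hsub⟩ := H53.exists_subcoherent_of_system hS
  have hmono : ∀ M : Subgroup L, H51.seqInd K ⊤ K M ⊆ H51.seqInd K ⊤ K ⊥ :=
    fun M => H53.seqInd_mono le_rfl bot_le
  refine H53.isCoherent_sub hsub hT (hmono M) (fun χ hχ => H53.seqInd_star hχ)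
    (H53.seqInd_nonempty (hM'.mono hMK le_top) hMK') ?_
  by_contra hn
  have hq : H51.OddFrobQuot K ⊤ M :=
    ⟨by rwa [Subgroup.card_top], hKL', hM', hMK, H51.nilMod_iff_quotient.2 hnil, hH₁K, hKL.ne,
      fun k hk hk' x _ hx => hfrob k hk hk' x hx⟩
  obtain ⟨h1, h2, h3, p, m, hp, h4, h5⟩ := H51.non_coherent_chief hsolv hsub hq hn
  rw [Subgroup.relIndex_top_right] at h2 h5
  rcases hgood with ⟨N, hN, h6, h7⟩ | h | h | h | ⟨q, n, hq', h6, h7⟩
  · rcases h1.min N (H51.normalIn_top.2 hN) h6.le h7.le with e | e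
    · exact h6.ne' e
    · exact h7.ne e
  · omega
  · exact h ⟨p, m, hp, h4⟩
  · exact h3 h
  · have h8 : 1 < M.relIndex K := H53.one_lt_relIndex hMK'.not_ge
    have hm : m ≠ 0 := by rintro rfl; rw [h4] at h8; simp at h8
    have : p ∣ q ^ n := by rw [← h6, h4]; exact dvd_pow_self p hm
    rw [← (Nat.prime_dvd_prime_iff_eq hp hq').1 (hp.dvd_of_dvd_pow this)] at h7
    exact h5 h7

end Cfsg.Agent.S1521
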