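import Mathlib
import Cfsg.Statements.S1522
import Cfsg.Agent.Base
import Cfsg.Agent.Lib.PF.H53_Bridge

set_option autoImplicit false
open Cfsg

namespace Cfsg.Agent.S1522


/-- Let K be a nilpotent normal subgroup of the finite group L of odd order with [K,K] < K < L and L/[K,K] a Frobenius group with kernel K/[K,K] (elements of K outside [K,K] are centralised modulo [K,K] only from inside K); let (S, τ, R) be a coherence system from L to G with S the functions induced from non-principal irreducible characters of K. Let Z be a nontrivial normal subgroup of L contained in the centre of K, and suppose every member of S outside S(Z) is an irreducible character of L. Then S minus S(Z) is the set of irreducible characters χ of L with χ z ≠ χ 1 for some z ∈ Z, and it is coherent. -/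
theorem result {L : Type*} [Group L] [Fintype L] {G : Type*} [Group G] [Fintype G] (K : Subgroup L) [hK : K.Normal] (hsolv : Group.IsSolvable K) (τ : (L → ℂ) → (G → ℂ)) (R : (L → ℂ) → Finset (G → ℂ)) (hS : Cfsg.IsCoherenceSystem (Cfsg.inducedIrrAbove K ⊥) τ R) (hodd : Odd (Nat.card L)) (hnil : Group.IsNilpotent K) (hH₁K : ⁅K, K⁆ < K) (hKL : K < ⊤) (hfrob : ∀ k ∈ K, k ∉ ⁅K, K⁆ → ∀ x : L, x * k * x⁻¹ * k⁻¹ ∈ ⁅K, K⁆ → x ∈ K) (Z : Subgroup L) [Z.Normal] (hZ1 : Z ≠ ⊥) (hZK : Z ≤ K) (hZc : ∀ z ∈ Z, ∀ k ∈ K, z * k = k * z) (hirr : ∀ χ ∈ Cfsg.inducedIrrAbove K ⊥ \ Cfsg.inducedIrrAbove K Z, Cfsg.IsIrrCharacter L χ) : Cfsg.inducedIrrAbove K ⊥ \ Cfsg.inducedIrrAbove K Z = {χ | Cfsg.IsIrrCharacter L χ ∧ ∃ z ∈ Z, χ z ≠ χ 1} ∧ Cfsg.IsCoherent (Cfsg.inducedIrrAbove K ⊥ \ Cfsg.inducedIrrAbove K Z) {1}ᶜ τ := by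
  have hKL' : H51.NormalIn K ⊤ := H51.normalIn_top.2 hK
  have hZ' : H51.NormalIn Z ⊤ := H51.normalIn_top.2 inferInstance
  have e : Cfsg.inducedIrrAbove K ⊥ \ Cfsg.inducedIrrAbove K Z =
      (H51.seqInd K ⊤ Z ⊥ : Set (L → ℂ)) := by
    rw [H53.inducedIrrAbove_eq bot_le, H53.inducedIrrAbove_eq hZK]
    ext φ
    simp only [Set.mem_sdiff, Finset.mem_coe]
    constructor
    · rintro ⟨h1, h2⟩
      obtain ⟨θ, ⟨h3, h4, h5⟩, rfl⟩ := H53.mem_seqInd.1 h1
      exact H53.ind_mem_seqInd h3 (fun h => h2 (H53.ind_mem_seqInd h3 h4 h)) h5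
    · intro h
      refine ⟨H53.seqInd_mono hZK le_rfl h, fun h' => ?_⟩
      obtain ⟨θ, ⟨h3, h4, h5⟩, rfl⟩ := H53.mem_seqInd.1 h
      exact h4 ((H53.ind_mem_seqInd_iff hKL' hKL' hZ' h3).1 h').2
  rw [e] at hirr ⊢
  rw [H53.inducedIrrAbove_eq bot_le] at hS
  obtain ⟨T, hT, hsub⟩ := H53.exists_subcoherent_of_system hS
  have hq : H51.OddFrobQuot K ⊤ ⊥ :=
    ⟨by rwa [Subgroup.card_top], hKL', H51.NormalIn.bot _, bot_le, H51.nilMod_bot_iff.2 hnil,
      by rwa [sup_bot_eq], hKL.ne,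
      fun k hk hk' x _ hx => hfrob k hk (by rwa [sup_bot_eq] at hk') x (by rwa [sup_bot_eq] at hx)⟩
  obtain ⟨h1, h2⟩ := H51.seqInd_irr_coherence hsub hq hZ' hZ1 hZK hZc
    (fun χ hχ => H51.mem_irr_top.2 (hirr χ hχ))
  constructor
  · rw [h1]
    ext χ
    simp only [Finset.coe_filter, Set.mem_ofPred_eq, H51.mem_irr_top]
    refine and_congr_right fun hχ => ?_
    rw [(H51.irr_isChar (H51.mem_irr_top.2 hχ)).le_cker_iff le_top]
    push Not
    rfl
  · refine H53.isCoherent_sub hsub hT (H53.seqInd_mono hZK le_rfl)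
      (fun χ hχ => H53.seqInd_star hχ) ?_ h2
    obtain ⟨θ, h3, h4, h5⟩ := H53.exists_irrKerD (hZ'.mono hZK le_top) (H51.NormalIn.bot K)
      (bot_lt_iff_ne_bot.2 hZ1)
    exact ⟨_, H53.ind_mem_seqInd h3 h4 h5⟩

end Cfsg.Agent.S1522
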