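import Cfsg.Statements.S1525
import Mathlib
import Cfsg.Agent.Lib.PF.S2
import Cfsg.Agent.Lib.PF.Irr

set_option autoImplicit false
open Cfsg

namespace Cfsg.Agent.S1525

/-- Under the Dade hypothesis for (A, L, H), let χ be a class function of G and let ψ be a function on L whose value at each a ∈ A is the average of χ over the coset a·H(a). Then (1/|G|) Σ |χ g|² over the elements g of G conjugate into some coset a·H(a) with a ∈ A is at least (1/|L|) Σ_{a ∈ A ∩ L} |ψ a|². -/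
theorem result {G : Type*} [Group G] [Fintype G] (A : Set G) (L : Subgroup G) [Fintype L] (H : G → Subgroup G) (hD : Cfsg.DadeHypothesis A L H) (χ : G → ℂ) (hχ : Cfsg.IsClassFunction G χ) (ψ : L → ℂ) (hψ : ∀ a : L, (a : G) ∈ A → ψ a = (Nat.card (H a) : ℂ)⁻¹ * ∑ᶠ u ∈ (H a : Set G), χ (a * u)) : (Nat.card L : ℝ)⁻¹ * ∑ᶠ a ∈ {a : L | (a : G) ∈ A}, ‖ψ a‖ ^ 2 ≤ (Nat.card G : ℝ)⁻¹ * ∑ᶠ g ∈ {g : G | ∃ a ∈ A, ∃ u ∈ H a, ∃ x : G, x * g * x⁻¹ = a * u}, ‖χ g‖ ^ 2 := by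
  classical
  have e1 : {g : G | ∃ a ∈ A, ∃ u ∈ H a, ∃ x : G, x * g * x⁻¹ = a * u} = H51.dadeSupp A H := by
    ext g
    constructor
    · rintro ⟨a, ha, u, hu, x, e⟩
      exact (H51.conj_mem_dadeSupp_iff x).1 (e ▸ H51.mul_mem_dadeSupp ha hu)
    · rintro ⟨a, ha, u, hu, x, rfl⟩
      exact ⟨a, ha, u, hu, x⁻¹, by group⟩
  rw [e1, H51.finsum_mem_eq_sum_elems, H51.finsum_mem_eq_sum_elems]
  refine le_of_eq_of_le ?_ (H51.nrm_rho_le_supp hD (H51.mem_CF_top.2 hχ))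
  rw [H51.nrm_eq_sum_elems L A fun x hx => H51.rho_apply_of_not_mem _ hx]
  congr 1
  refine Finset.sum_bij (fun a _ => (a : G)) (fun a ha => by simpa using ha)
    (fun a _ b _ e => Subtype.ext e) (fun b hb => ⟨⟨b, hD.subset (H51.mem_elems.1 hb)⟩,
      by simpa using hb, rfl⟩) fun a ha => ?_
  have ha' : (a : G) ∈ A := by simpa using ha
  rw [H51.rho_apply _ ha', ← H51.finsum_mem_eq_sum_elems, hψ a ha']

end Cfsg.Agent.S1525
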