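import Cfsg.Statements.S1527
import Cfsg.Agent.Lib.PF.TICount

set_option autoImplicit false
open Cfsg

namespace Cfsg.Agent.S1527

/-- Let G be a finite group and H i (i in a finite index type) subgroups of pairwise coprime orders, each of whose underlying sets is a TI-subset of G, such that every non-identity element of G is conjugate to an element of some H i. Then Nat.card G − 1 = Σ_i [G : N_G(H i)] · (Nat.card (H i) − 1). -/
theorem result {G : Type*} [Group G] [Finite G] {ι : Type*} [Fintype ι] (H : ι → Subgroup G) (hcop : ∀ i j, i ≠ j → Nat.Coprime (Nat.card (H i)) (Nat.card (H j))) (hTI : ∀ i, Cfsg.IsTISubset (H i : Set G)) (hcover : ∀ g : G, g ≠ 1 → ∃ i, ∃ x : G, x * g * x⁻¹ ∈ H i) : Nat.card G - 1 = ∑ i, (Subgroup.normalizer (H i : Set G)).index * (Nat.card (H i) - 1) := by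
  classical
  have : Fintype G := Fintype.ofFinite G
  have h1 := H52.sum_ne_one_eq_sum_family H hcop hcover (fun _ => (1 : ℕ))
  have h2 : ∀ i, _ := fun i =>
    H52.sum_conjugates_of_ti_subgroup (H i) (hTI i) (fun _ => (1 : ℕ)) (fun _ _ => rfl)
  simp only [h2] at h1
  simp only [Finset.sum_const, smul_eq_mul, mul_one, H52.card_filter_ne_one_mem] at h1
  rw [← h1, Finset.filter_ne', Finset.card_erase_of_mem (Finset.mem_univ _), Finset.card_univ,
    Nat.card_eq_fintype_card]

end Cfsg.Agent.S1527
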