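import Mathlib
import Cfsg.Statements.S1528
import Cfsg.Agent.Base
import Cfsg.Agent.Lib.PF.H53_Bridge
import Cfsg.Agent.Lib.PF.Clifford2

set_option autoImplicit false
open Cfsg

namespace Cfsg.Agent.S1528


/-- Let N be a normal subgroup of the finite group G such that every element of G commuting with a non-identity element of N lies in N. If χ is an irreducible character of G with χ n ≠ χ 1 for some n ∈ N, then χ is the function induced from some irreducible character of N. -/
theorem result {G : Type*} [Group G] [Fintype G] (N : Subgroup G) [N.Normal] (hC : ∀ n ∈ N, n ≠ 1 → Subgroup.centralizer ({n} : Set G) ≤ N) (χ : G → ℂ) (hχ : Cfsg.IsIrrCharacter G χ) (hker : ∃ n ∈ N, χ n ≠ χ 1) : ∃ φ : N → ℂ, Cfsg.IsIrrCharacter N φ ∧ χ = Cfsg.indFun N φ := by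
  have hχ' := H51.mem_irr_top.2 hχ
  have hk : ¬ N ≤ H51.cker ⊤ χ := by
    obtain ⟨n, hn, h⟩ := hker
    exact fun h' => h (H51.apply_of_mem_cker (h' hn))
  have key : ∃ θ ∈ H51.irr N, H51.ind N ⊤ θ = χ := by
    by_cases hN : N = ⊤
    · subst hN
      exact ⟨χ, hχ', H51.ind_self (H51.irr_mem_CF hχ')⟩
    · have hF : H51.FrobKer ⊤ N := by
        refine ⟨H51.normalIn_top.2 inferInstance, ?_, hN, fun k hk h1 g _ hg => ?_⟩
        · rintro rfl
          exact hk bot_le
        · exact hC k hk h1 (Subgroup.mem_centralizer_singleton_iff.2 hg)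
      obtain ⟨θ, h1, -, h2⟩ := hF.exists_ind_eq hχ' hk
      exact ⟨θ, h1, h2⟩
  obtain ⟨θ, h1, h2⟩ := key
  exact ⟨fun x : N => θ x, (H51.mem_irr.1 h1).1, by rw [← h2, H51.ind_top]⟩

end Cfsg.Agent.S1528
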