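import Mathlib
import Cfsg.Statements.S1529
import Cfsg.Agent.Base
import Cfsg.Agent.Lib.Feit.Criterion

set_option autoImplicit false
open Cfsg

namespace Cfsg.Agent.S1529


/-- Let N be a subgroup of the finite group G, S a set of irreducible characters of N with at least two members, and τ₁ a linear isometry on the integer combinations of S with virtual-character values such that τ₁ α vanishes at 1 whenever α ∈ ℤ[S] does. Then there is ε ∈ {1, −1} such that ε • τ₁ χ is an irreducible character of G for every χ ∈ S, and distinct members of S give distinct characters. -/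
theorem result {G : Type*} [Group G] [Fintype G] (N : Subgroup G) [Fintype N] (S : Set (N → ℂ)) (hirr : ∀ χ ∈ S, Cfsg.IsIrrCharacter N χ) (htwo : ∃ χ ∈ S, ∃ ψ ∈ S, χ ≠ ψ) (τ₁ : (N → ℂ) → (G → ℂ)) (hτ₁ : Cfsg.IsLinearIsometryOn (Cfsg.zspan S) τ₁) (h0 : ∀ α ∈ Cfsg.zspan S, α 1 = 0 → τ₁ α 1 = 0) : ∃ ε : ℂ, (ε = 1 ∨ ε = -1) ∧ (∀ χ ∈ S, Cfsg.IsIrrCharacter G (ε • τ₁ χ)) ∧ (∀ χ ∈ S, ∀ ψ ∈ S, τ₁ χ = τ₁ ψ → χ = ψ) := by
  have hd : ∀ χ ∈ S, H53.Feit.DIrr G (τ₁ χ) := fun χ hχ =>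
    H53.Feit.dirr_of_gen (hτ₁.2.2.2 χ (Submodule.subset_span hχ)) (by
      rw [hτ₁.2.2.1 χ (Submodule.subset_span hχ) χ (Submodule.subset_span hχ),
        H6.irr_inner_self (hirr χ hχ)])
  have h1 : ∀ χ ∈ S, ∀ ψ ∈ S, ψ 1 * τ₁ χ 1 = χ 1 * τ₁ ψ 1 := by
    intro χ hχ ψ hψ
    have hm := H53.Feit.diff_mem_Z0 hirr hχ hψ
    have := h0 _ hm.1 hm.2
    rw [H53.Feit.iso_diff hirr hτ₁ hχ hψ] at this
    simpa [sub_eq_zero] using this
  have hinj : ∀ χ ∈ S, ∀ ψ ∈ S, τ₁ χ = τ₁ ψ → χ = ψ := by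
    intro χ hχ ψ hψ h
    apply H6.irr_eq_of_inner_ne_zero (hirr χ hχ) (hirr ψ hψ)
    rw [← hτ₁.2.2.1 χ (Submodule.subset_span hχ) ψ (Submodule.subset_span hψ), h,
      (hd ψ hψ).inner_self]
    exact one_ne_zero
  rcases H53.Feit.CohW.signs hirr hd h1 with h | h
  · exact ⟨1, Or.inl rfl, fun χ hχ => by rw [one_smul]; exact h χ hχ, hinj⟩
  · exact ⟨-1, Or.inr rfl, fun χ hχ => by rw [neg_smul, one_smul]; exact h χ hχ, hinj⟩

end Cfsg.Agent.S1529
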