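import Mathlib
import Cfsg.Statements.S1530
import Cfsg.Agent.Base
import Cfsg.Agent.Lib.Feit.Criterion

set_option autoImplicit false
open Cfsg

namespace Cfsg.Agent.S1530


/-- Let N be a subgroup of the finite group G and S₀ a finite set of irreducible characters of N, χ an irreducible character of N not in S₀, with degrees ξ 1 = d ξ. Let τ be a linear isometry on the integer combinations of S₀ ∪ {χ} vanishing at 1, with values virtual characters of G vanishing at 1, such that (S₀, N minus 1, τ) is coherent. If some ψ ∈ S₀ has d ψ dividing d χ and 2 · d ψ · d χ < Σ_{ξ ∈ S₀} (d ξ)², then (S₀ ∪ {χ}, N minus 1, τ) is coherent. -/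
theorem result {G : Type*} [Group G] [Fintype G] (N : Subgroup G) [Fintype N] (S₀ : Finset (N → ℂ)) (χ : N → ℂ) (hirr : ∀ ξ ∈ S₀, Cfsg.IsIrrCharacter N ξ) (hχ : Cfsg.IsIrrCharacter N χ) (hχS : χ ∉ S₀) (d : (N → ℂ) → ℕ) (hd : ∀ ξ ∈ insert χ S₀, ξ 1 = (d ξ : ℂ)) (τ : (N → ℂ) → (G → ℂ)) (hτ : Cfsg.IsLinearIsometryOn (Cfsg.zspanOn (↑(insert χ S₀) : Set (N → ℂ)) {1}ᶜ) τ) (hτ1 : ∀ α ∈ Cfsg.zspanOn (↑(insert χ S₀) : Set (N → ℂ)) {1}ᶜ, τ α 1 = 0) (hcoh : Cfsg.IsCoherent (↑S₀ : Set (N → ℂ)) {1}ᶜ τ) (ψ : N → ℂ) (hψ : ψ ∈ S₀) (hdvd : d ψ ∣ d χ) (hlt : 2 * d ψ * d χ < ∑ ξ ∈ S₀, d ξ ^ 2) : Cfsg.IsCoherent (↑(insert χ S₀) : Set (N → ℂ)) {1}ᶜ τ := by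
  classical
  rw [Finset.coe_insert] at hτ hτ1 ⊢
  have hirr' : ∀ ξ ∈ insert χ (S₀ : Set (N → ℂ)), Cfsg.IsIrrCharacter N ξ := by
    rintro ξ (rfl | h)
    · exact hχ
    · exact hirr ξ h
  obtain ⟨τ', hτ', hI⟩ := H53.Feit.exists_linear_of_iso hirr' hτ hτ1
  obtain ⟨⟨a, ha, b, hb, hab⟩, hc⟩ := H53.Feit.coh_of_isCoherent hirr
    (fun α hα => hτ' α (H53.Feit.Z0_mono (Set.subset_insert _ _) hα)) hcoh
  obtain ⟨m, hm⟩ := hdvd
  refine H53.Feit.isCoherent_of_coh hirr' ⟨a, Or.inr ha, b, Or.inr hb, hab⟩ hτ'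
    (H53.Feit.criterion S₀ hI hχS d (fun ξ hξ => hd ξ (by simp [hξ])) hc hψ (m := m) ?_ ?_)
  · rw [hd χ (by simp), hm]; push_cast; ring
  · rw [hm] at hlt
    calc 2 * m * d ψ ^ 2 = 2 * d ψ * (d ψ * m) := by ring
      _ < _ := hlt

end Cfsg.Agent.S1530
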