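import Mathlib
import Cfsg.Statements.S1531
import Cfsg.Agent.Base
import Cfsg.Agent.Lib.Feit.Criterion

set_option autoImplicit false
open Cfsg

namespace Cfsg.Agent.S1531


/-- Let N be a subgroup of the finite group G, S a set of irreducible characters of N, and α a linear isometry on the integer combinations of S vanishing at 1 with values virtual characters of G vanishing at 1. Let X, Y ⊆ S be disjoint, each with at least two members, and σ, τ linear isometries on ℤ[X], ℤ[Y] into virtual characters agreeing with α on the members vanishing at 1. Then ⟨σ χ, τ η⟩ = 0 for χ ∈ X, η ∈ Y; and if for some χ₀ ∈ X, η₀ ∈ Y with degrees c = χ₀ 1, e = η₀ 1 one has α (c • η₀ − e • χ₀) = c • τ η₀ − e • σ χ₀, then (X ∪ Y, N minus 1, α) is coherent. -/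
theorem result {G : Type*} [Group G] [Fintype G] (N : Subgroup G) [Fintype N] (S X Y : Set (N → ℂ)) (hirr : ∀ ξ ∈ S, Cfsg.IsIrrCharacter N ξ) (hXS : X ⊆ S) (hYS : Y ⊆ S) (hXY : Disjoint X Y) (hX2 : ∃ a ∈ X, ∃ b ∈ X, a ≠ b) (hY2 : ∃ a ∈ Y, ∃ b ∈ Y, a ≠ b) (α : (N → ℂ) → (G → ℂ)) (hα : Cfsg.IsLinearIsometryOn (Cfsg.zspanOn S {1}ᶜ) α) (hα1 : ∀ θ ∈ Cfsg.zspanOn S {1}ᶜ, α θ 1 = 0) (σ τ : (N → ℂ) → (G → ℂ)) (hσ : Cfsg.IsLinearIsometryOn (Cfsg.zspan X) σ) (hσα : ∀ θ ∈ Cfsg.zspanOn X {1}ᶜ, σ θ = α θ) (hτ : Cfsg.IsLinearIsometryOn (Cfsg.zspan Y) τ) (hτα : ∀ θ ∈ Cfsg.zspanOn Y {1}ᶜ, τ θ = α θ) : (∀ χ ∈ X, ∀ η ∈ Y, Cfsg.classInner (σ χ) (τ η) = 0) ∧ ((∃ χ₀ ∈ X, ∃ η₀ ∈ Y, α (χ₀ 1 • η₀ - η₀ 1 • χ₀) = χ₀ 1 • τ η₀ - η₀ 1 • σ χ₀) → Cfsg.IsCoherent (X ∪ Y) {1}ᶜ α) := by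
  obtain ⟨α', hα', hI⟩ := H53.Feit.exists_linear_of_iso hirr hα hα1
  have hf : H53.Feit.CohW X α' σ := H53.Feit.cohW_of_iso (fun ξ hξ => hirr ξ (hXS hξ)) hσ
    (fun θ hθ => by rw [hσα θ (H53.Feit.mem_zspanOn.2 hθ), hα' θ (H53.Feit.Z0_mono hXS hθ)])
  have hg : H53.Feit.CohW Y α' τ := H53.Feit.cohW_of_iso (fun ξ hξ => hirr ξ (hYS hξ)) hτ
    (fun θ hθ => by rw [hτα θ (H53.Feit.mem_zspanOn.2 hθ), hα' θ (H53.Feit.Z0_mono hYS hθ)])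
  have hXYS : X ∪ Y ⊆ S := Set.union_subset hXS hYS
  have h1 := H53.Feit.ortho_of_disjoint (hI.mono hXYS) hXY hX2 hY2 hf hg
  refine ⟨h1, ?_⟩
  rintro ⟨χ₀, hχ₀, η₀, hη₀, h⟩
  obtain ⟨a, ha, b, hb, hab⟩ := hX2
  refine H53.Feit.isCoherent_of_coh (fun ξ hξ => hirr ξ (hXYS hξ))
    ⟨a, Or.inl ha, b, Or.inl hb, hab⟩ (fun θ hθ => hα' θ (H53.Feit.Z0_mono hXYS hθ))
    (H53.Feit.coh_union (fun ξ hξ => hirr ξ (hXYS hξ)) hXY hf hg h1 hχ₀ hη₀ ?_)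
  rw [hα' _ (H53.Feit.diff_mem_Z0 hirr (hYS hη₀) (hXS hχ₀)), h]

end Cfsg.Agent.S1531
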