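import Cfsg.Statements.S1536
import Cfsg.Agent.Lib.Char.Ortho
import Cfsg.Agent.S0173

set_option autoImplicit false
open Cfsg

namespace Cfsg.Agent.S1536

/-- Let H be a normal subgroup of the finite group M whose order is coprime to its index. For x ∈ M: some non-principal irreducible character of H is unchanged under h ↦ θ(x h x⁻¹) if and only if some non-identity element of H commutes with x. -/
theorem result {M : Type*} [Group M] [Finite M] (H : Subgroup M) [hN : H.Normal] (hHall : Nat.Coprime (Nat.card H) H.index) (x : M) : (∃ θ : H → ℂ, Cfsg.IsIrrCharacter H θ ∧ θ ≠ (fun _ => 1) ∧ (fun h : H => θ ⟨x * h * x⁻¹, hN.conj_mem h h.2 x⟩) = θ) ↔ ∃ h ∈ H, h ≠ 1 ∧ x * h = h * x := by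
  classical
  have hB := Cfsg.Agent.S0173.result (G := H) (MulAut.conjNormal x)
  -- both sides are equivalent to a cardinality being larger than one
  have h1 : (∃ θ : H → ℂ, Cfsg.IsIrrCharacter H θ ∧ θ ≠ (fun _ => 1) ∧
      (fun h : H => θ ⟨x * h * x⁻¹, hN.conj_mem h h.2 x⟩) = θ) ↔
      1 < Nat.card {χ : Cfsg.IrrCharacter H //
        (χ : H → ℂ) ∘ (MulAut.conjNormal x : MulAut H) = (χ : H → ℂ)} := by
    rw [Finite.one_lt_card_iff_nontrivial]
    constructor
    · rintro ⟨θ, hθ, hne, hfix⟩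
      exact ⟨⟨⟨θ, hθ⟩, hfix⟩, ⟨⟨fun _ => 1, H6.isIrrCharacter_one⟩, rfl⟩,
        fun h => hne (congrArg (fun z => z.1.1) h)⟩
    · intro h
      obtain ⟨⟨⟨θ, hθ⟩, hfix⟩, hne⟩ := exists_ne
        (⟨⟨fun _ => 1, H6.isIrrCharacter_one⟩, rfl⟩ : {χ : Cfsg.IrrCharacter H //
          (χ : H → ℂ) ∘ (MulAut.conjNormal x : MulAut H) = (χ : H → ℂ)})
      exact ⟨θ, hθ, fun h => hne (Subtype.ext (Subtype.ext h)), hfix⟩
  have hone : ConjClasses.map (MulAut.conjNormal x : MulAut H).toMonoidHom (ConjClasses.mk (1 : H)) =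
      ConjClasses.mk 1 := by
    show ConjClasses.mk _ = _
    simp
  rw [h1, ← hB, Finite.one_lt_card_iff_nontrivial]
  constructor
  · intro h
    obtain ⟨⟨C, hC⟩, hne⟩ := exists_ne
      (⟨ConjClasses.mk 1, hone⟩ : {C : ConjClasses H //
        ConjClasses.map (MulAut.conjNormal x : MulAut H).toMonoidHom C = C})
    obtain ⟨c, rfl⟩ := ConjClasses.mk_surjective C
    have hc1 : c ≠ 1 := fun h => hne (Subtype.ext (by simp [h]))
    have h2 : IsConj (MulAut.conjNormal x c) c := ConjClasses.mk_eq_mk_iff_isConj.1 hC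
    obtain ⟨k, hk⟩ := isConj_iff.1 h2
    have hk' : (k : M) * (x * c * x⁻¹) * (k : M)⁻¹ = c := congrArg Subtype.val hk
    by_contra hno
    push Not at hno
    -- `u ↦ u x u⁻¹ x⁻¹` is a bijection of `H`
    let f : H → H := fun u => ⟨u * (x * (u : M)⁻¹ * x⁻¹),
      H.mul_mem u.2 (hN.conj_mem _ (H.inv_mem u.2) x)⟩
    have hf : Function.Injective f := by
      intro u v huv
      have h3 : (u : M) * (x * (u : M)⁻¹ * x⁻¹) = v * (x * (v : M)⁻¹ * x⁻¹) :=
        congrArg Subtype.val huv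
      by_contra hne
      refine hno ((v : M)⁻¹ * u) (H.mul_mem (H.inv_mem v.2) u.2) ?_ ?_
      · intro h
        exact hne (Subtype.ext (inv_mul_eq_one.1 h).symm)
      · calc x * ((v : M)⁻¹ * u) = (v : M)⁻¹ * (v * (x * (v : M)⁻¹ * x⁻¹)) * x * u := by group
          _ = (v : M)⁻¹ * u * x := by rw [← h3]; group
    obtain ⟨u, hu⟩ := (Finite.injective_iff_surjective.1 hf) k
    have hu' : (u : M) * (x * (u : M)⁻¹ * x⁻¹) = k := congrArg Subtype.val hu
    refine hno ((u : M)⁻¹ * c * u) (H.mul_mem (H.mul_mem (H.inv_mem u.2) c.2) u.2) ?_ ?_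
    · intro h
      apply hc1
      apply Subtype.ext
      calc (c : M) = u * ((u : M)⁻¹ * c * u) * (u : M)⁻¹ := by group
        _ = 1 := by rw [h]; simp
    · rw [← hu'] at hk'
      calc x * ((u : M)⁻¹ * c * u) = (u : M)⁻¹ * (u * (x * (u : M)⁻¹ * x⁻¹) * (x * c * x⁻¹) *
            ((u : M) * (x * (u : M)⁻¹ * x⁻¹))⁻¹) * u * x := by group
        _ = (u : M)⁻¹ * c * u * x := by rw [hk']
  · rintro ⟨h, hh, hne, hx⟩
    refine ⟨⟨ConjClasses.mk ⟨h, hh⟩, ?_⟩, ⟨ConjClasses.mk 1, hone⟩, ?_⟩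
    · show ConjClasses.mk _ = _
      congr 1
      apply Subtype.ext
      show x * h * x⁻¹ = h
      rw [hx]; simp
    · intro he
      have h3 : IsConj (⟨h, hh⟩ : H) 1 :=
        ConjClasses.mk_eq_mk_iff_isConj.1 (congrArg Subtype.val he)
      exact hne (congrArg Subtype.val (isConj_one_left.1 h3))

end Cfsg.Agent.S1536
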