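import Mathlib
import Cfsg.Statements.S1552
import Cfsg.Agent.Lib.M24Geom.Pairs

set_option autoImplicit false
open scoped Pointwise
open Cfsg

namespace Cfsg.Agent.S1552

open H15 H55.Golay H96.Geo


/-- A sextet stabiliser has four orbits on the 1771 sextets, of sizes 1, 90, 240, 1440; and the stabiliser is a maximal proper subgroup. -/
theorem result (S : Finset (Finset Cfsg.GolayPt)) (hS : S ∈ Cfsg.sextets) : ∃ X₁ ∈ Cfsg.sextets, ∃ X₂ ∈ Cfsg.sextets, ∃ X₃ ∈ Cfsg.sextets, (MulAction.orbit ↥(MulAction.stabilizer Cfsg.M24 S) X₁).ncard = 90 ∧ (MulAction.orbit ↥(MulAction.stabilizer Cfsg.M24 S) X₂).ncard = 240 ∧ (MulAction.orbit ↥(MulAction.stabilizer Cfsg.M24 S) X₃).ncard = 1440 ∧ Cfsg.sextets = {S} ∪ MulAction.orbit ↥(MulAction.stabilizer Cfsg.M24 S) X₁ ∪ MulAction.orbit ↥(MulAction.stabilizer Cfsg.M24 S) X₂ ∪ MulAction.orbit ↥(MulAction.stabilizer Cfsg.M24 S) X₃ ∧ IsCoatom (MulAction.stabilizer Cfsg.M24 S) := by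
  have h := orbs_sex_sex hS
  obtain ⟨x1, m1, e1, c1⟩ := h.exists_rep (v := 49176) (n := 90) (by simp) (by decide)
  obtain ⟨x2, m2, e2, c2⟩ := h.exists_rep (v := 525456) (n := 240) (by simp) (by decide)
  obtain ⟨x3, m3, e3, c3⟩ := h.exists_rep (v := 17424) (n := 1440) (by simp) (by decide)
  obtain ⟨h3, h4⟩ := h.self_class hS
  have h5 : Phi f64 S S = 100663326 := by simpa using h4
  refine ⟨x1, m1, x2, m2, x3, m3, c1, c2, c3, ?_, h.isCoatom hS (fun x hx => M24_trans_sextets hS hx)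
    ncard_sextets (by decide) (e := (100663326, 1)) (by simp) h5 (by decide +kernel)⟩
  rw [e1, e2, e3, ← h3, h5]
  ext y
  have := h.vals y
  simp only [List.map_cons, List.map_nil, List.mem_cons, List.not_mem_nil, or_false] at this
  simp only [Set.mem_union, Set.mem_ofPred_eq]
  tauto

end Cfsg.Agent.S1552
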