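import Mathlib
import Cfsg.Statements.S1554
import Cfsg.Agent.Lib.M24Geom.Struct

set_option autoImplicit false
open scoped Pointwise
open Cfsg

namespace Cfsg.Agent.S1554

open H15 H55.Golay H96.Geo

set_option maxRecDepth 100000


/-- An octad stabiliser is a split extension: the joint stabiliser of the octad and a point outside it is a complement to the pointwise stabiliser of the octad, and is isomorphic to the alternating group of degree 8. -/
theorem result (o : Finset Cfsg.GolayPt) (ho : o ∈ Cfsg.octads) (p : Cfsg.GolayPt) (hp : p ∉ o) : (Cfsg.M24 ⊓ fixingSubgroup (Equiv.Perm Cfsg.GolayPt) (o : Set Cfsg.GolayPt)) ⊓ (Cfsg.M24 ⊓ MulAction.stabilizer (Equiv.Perm Cfsg.GolayPt) o ⊓ MulAction.stabilizer (Equiv.Perm Cfsg.GolayPt) p) = ⊥ ∧ (Cfsg.M24 ⊓ fixingSubgroup (Equiv.Perm Cfsg.GolayPt) (o : Set Cfsg.GolayPt)) ⊔ (Cfsg.M24 ⊓ MulAction.stabilizer (Equiv.Perm Cfsg.GolayPt) o ⊓ MulAction.stabilizer (Equiv.Perm Cfsg.GolayPt) p)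 = (Cfsg.M24 ⊓ MulAction.stabilizer (Equiv.Perm Cfsg.GolayPt) o) ∧ Nonempty (↥(Cfsg.M24 ⊓ MulAction.stabilizer (Equiv.Perm Cfsg.GolayPt) o ⊓ MulAction.stabilizer (Equiv.Perm Cfsg.GolayPt) p) ≃* alternatingGroup (Fin 8)) := by
  refine ⟨(Subgroup.eq_bot_iff_forall _).2 fun g hg => fixSet_octad_eq_one ho hg.1 hp hg.2.2,
    le_antisymm (sup_le (fun g hg => ⟨hg.1, smul_eq_of_fix (mem_fixSet.1 hg).2⟩) inf_le_left)
      fun g hg => ?_, ?_⟩
  · obtain ⟨n, hn, e⟩ := fixSet_octad_trans ho (p := g p)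
      (fun c => hp ((apply_mem_of_smul_eq hg.2).1 c)) hp
    have h1 : n * g ∈ M24 ⊓ St o ⊓ St p := ⟨⟨M24.mul_mem hn.1 hg.1, by
      show (n * g) • o = o
      rw [mul_smul, show g • o = o from hg.2, smul_eq_of_fix (mem_fixSet.1 hn).2]⟩, e⟩
    simpa using mul_mem (Subgroup.mem_sup_left (inv_mem hn)) (Subgroup.mem_sup_right h1)
  · let f : ↥(M24 ⊓ St o ⊓ St p) →* alternatingGroup o :=
      (resHom (M24 ⊓ St o ⊓ St p).subtype o fun g => g.2.1.2).codRestrict _ fun g =>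
        range_res_octad ho ▸ ⟨⟨g.1, g.2.1⟩, rfl⟩
    have hi : Function.Injective f := (injective_iff_map_eq_one _).2 fun g e =>
      Subtype.ext (fixSet_octad_eq_one ho (mem_fixSet.2 ⟨g.2.1.1,
        (resHom_eq_one _ _ _ g).1 (congrArg Subtype.val e)⟩) hp g.2.2)
    have h1 := card_eq_of_orbit (M24 ⊓ St o) p ((o : Set GolayPt)ᶜ)
      (fun g hg c => hp ((apply_mem_of_smul_eq hg.2).1 c)) (fun q hq => by
        obtain ⟨g, hg, e⟩ := fixSet_octad_trans ho hp hq
        exact ⟨g, ⟨hg.1, smul_eq_of_fix (mem_fixSet.1 hg).2⟩, e⟩)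
    rw [card_stab_octad ho, ncard_compl_finset, ho.2] at h1
    have h2 := card_stab_eq o
    rw [card_stab_octad ho, card_fixSet_octad ho, range_res_octad ho] at h2
    have hb : Function.Bijective f := (Nat.bijective_iff_injective_and_card _).2 ⟨hi, by
      show Nat.card ↥(M24 ⊓ St o ⊓ MulAction.stabilizer (Equiv.Perm GolayPt) p) = _
      omega⟩
    exact ⟨(MulEquiv.ofBijective f hb).trans (Finset.equivFinOfCardEq ho.2).altCongrHom⟩

end Cfsg.Agent.S1554
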