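import Mathlib
import Cfsg.Statements.S1559
import Cfsg.Agent.Lib.M24Geom.Pairs

set_option autoImplicit false
open scoped Pointwise
open Cfsg

namespace Cfsg.Agent.S1559

open H15 H55.Golay H96.Geo


/-- A trio stabiliser has five orbits on the 3795 trios, of sizes 1, 42, 56, 1008, 2688; and the stabiliser is a maximal proper subgroup. -/
theorem result (T : Finset (Finset Cfsg.GolayPt)) (hT : T ∈ Cfsg.trios) : ∃ X₁ ∈ Cfsg.trios, ∃ X₂ ∈ Cfsg.trios, ∃ X₃ ∈ Cfsg.trios, ∃ X₄ ∈ Cfsg.trios, (MulAction.orbit ↥(MulAction.stabilizer Cfsg.M24 T) X₁).ncard = 42 ∧ (MulAction.orbit ↥(MulAction.stabilizer Cfsg.M24 T) X₂).ncard = 56 ∧ (MulAction.orbit ↥(MulAction.stabilizer Cfsg.M24 T) X₃).ncard = 1008 ∧ (MulAction.orbit ↥(MulAction.stabilizer Cfsg.M24 T) X₄).ncard = 2688 ∧ Cfsg.trios = {T} ∪ MulAction.orbit ↥(MulAction.stabilizer Cfsg.M24 T) X₁ ∪ MulAction.orbit ↥(MulAction.stabilizer Cfsg.M24 T) X₂ ∪ MulAction.orbit ↥(MulAction.stabilizer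 Cfsg.M24 T) X₃ ∪ MulAction.orbit ↥(MulAction.stabilizer Cfsg.M24 T) X₄ ∧ IsCoatom (MulAction.stabilizer Cfsg.M24 T) := by
  have h := orbs_tri_tri hT
  obtain ⟨x1, m1, e1, c1⟩ := h.exists_rep (v := 281475043819524) (n := 42) (by simp) (by decide)
  obtain ⟨x2, m2, e2, c2⟩ := h.exists_rep (v := 100663299) (n := 56) (by simp) (by decide)
  obtain ⟨x3, m3, e3, c3⟩ := h.exists_rep (v := 67125249) (n := 1008) (by simp) (by decide)
  obtain ⟨x4, m4, e4, c4⟩ := h.exists_rep (v := 50356224) (n := 2688) (by simp) (by decide)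
  obtain ⟨h3, h4⟩ := h.self_class hT
  have h5 : Phi f64 T T = 844424930131974 := by simpa using h4
  refine ⟨x1, m1, x2, m2, x3, m3, x4, m4, c1, c2, c3, c4, ?_,
    h.isCoatom hT (fun x hx => M24_trans_trios hT hx)
    ncard_trios (by decide) (e := (844424930131974, 1)) (by simp) h5 (by decide +kernel)⟩
  rw [e1, e2, e3, e4, ← h3, h5]
  ext y
  have := h.vals y
  simp only [List.map_cons, List.map_nil, List.mem_cons, List.not_mem_nil, or_false] at this
  simp only [Set.mem_union, Set.mem_ofPred_eq]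
  tauto

end Cfsg.Agent.S1559
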