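import Mathlib
import Cfsg.Statements.S1568
import Cfsg.Agent.Lib.Leech.Count

set_option autoImplicit false
open Cfsg

namespace Cfsg.Agent.S1568

open H16

theorem sum_sub_one (x : GolayPt → ℤ) : ∑ i, (x i ^ 2 - 1) = sqNorm x - 24 := by
  rw [Finset.sum_sub_distrib, sqNorm_def]; simp

theorem odd_sq {x : GolayPt → ℤ} {c : Finset GolayPt} (h : Cong x 1 c) (i : GolayPt) :
    0 ≤ x i ^ 2 - 1 := by
  have := h.1 i
  have : x i ≤ -1 ∨ 1 ≤ x i := by omega
  rcases this with h | h <;> nlinarith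

theorem fin48 (P : (GolayPt → ℤ) → Prop) (Q : (GolayPt → ℤ) → Prop) :
    {x : GolayPt → ℤ | P x ∧ Q x ∧ sqNorm x = ((48 : ℕ) : ℤ)}.Finite :=
  (finite_sqNorm_le 48).subset fun _ hx => hx.2.2.le

theorem part1 : {x : Cfsg.GolayPt → ℤ | x ∈ Cfsg.leechLattice ∧ Cfsg.sqNorm x = 48 ∧ ∀ i, x i = 0 ∨ x i = 2 ∨ x i = -2}.ncard = 5275648 := by
  rw [← show cntTot 2 0 48 = 5275648 by decide +kernel, ← ncard_parity 2 (by norm_num) 0 (by norm_num)]
  refine congrArg Set.ncard ?_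
  ext x
  simp only [Set.mem_ofPred_eq, mem_leech_iff', Nat.cast_zero, Nat.cast_ofNat]
  constructor
  · rintro ⟨h | ⟨c, -, h⟩, h2, h3⟩
    · refine ⟨h, fun i => ?_, h2⟩
      rcases h3 i with h | h | h <;> rw [h] <;> norm_num
    · have h1 := h.1 none
      have := h3 none
      omega
  · rintro ⟨⟨c, hc, h⟩, h2, h3⟩
    refine ⟨Or.inl ⟨c, hc, h⟩, h3, fun i => ?_⟩
    have h1 := h.1 i
    have := abs_le.1 (h2 i)
    omega

theorem part2 : {x : Cfsg.GolayPt → ℤ | x ∈ Cfsg.leechLattice ∧ Cfsg.sqNorm x = 48 ∧ ∃ i j k, i ≠ j ∧ j ≠ k ∧ i ≠ k ∧ |x i| = 3 ∧ |x j| = 3 ∧ |x k| = 3}.ncard = 8290304 := by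
  rw [← show cntTot 3 1 48 = 8290304 by decide +kernel, ← ncard_parity 3 (by norm_num) 1 (by norm_num)]
  refine congrArg Set.ncard ?_
  ext x
  simp only [Set.mem_ofPred_eq, mem_leech_iff', Nat.cast_one, Nat.cast_ofNat]
  constructor
  · rintro ⟨⟨c, -, h⟩ | ⟨c, hc, h⟩, h2, i, j, k, hij, hjk, hik, hi, hj, hk⟩
    · have h1 := h.1 i
      rcases (abs_eq (by norm_num)).1 hi with h | h <;> omega
    · refine ⟨⟨c, hc, h⟩, fun l => ?_, h2⟩
      by_contra hl
      have hl' : 15 ≤ x l ^ 2 - 1 := by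
        rw [← sq_abs]; nlinarith [abs_nonneg (x l)]
      have hli : l ≠ i := by rintro rfl; omega
      have hlj : l ≠ j := by rintro rfl; omega
      have hlk : l ≠ k := by rintro rfl; omega
      have := Finset.sum_le_sum_of_subset_of_nonneg (f := fun i => x i ^ 2 - 1)
        (Finset.subset_univ {l, i, j, k}) (fun a _ _ => odd_sq h a)
      rw [sum_sub_one, Finset.sum_insert (by simp [hli, hlj, hlk]),
        Finset.sum_insert (by simp [hij, hik]), Finset.sum_insert (by simp [hjk]),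
        Finset.sum_singleton, ← sq_abs (x i), ← sq_abs (x j), ← sq_abs (x k), hi, hj, hk] at this
      omega
  · rintro ⟨⟨c, hc, h⟩, h2, h3⟩
    refine ⟨Or.inr ⟨c, hc, h⟩, h3, ?_⟩
    have hs : ∑ i, (x i ^ 2 - 1) = 8 * ((Finset.univ.filter fun i => |x i| = 3).card : ℤ) := by
      rw [← sum_ind, Finset.mul_sum]
      refine Finset.sum_congr rfl fun i _ => ?_
      have h1 := h.1 i
      have h4 := abs_le.1 (h2 i)
      rw [ind_apply (Finset.univ.filter fun i => |x i| = 3)]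
      simp only [Finset.mem_filter, Finset.mem_univ, true_and]
      have : x i = 1 ∨ x i = -1 ∨ x i = 3 ∨ x i = -3 := by omega
      rcases this with h | h | h | h <;> rw [h] <;> norm_num
    rw [sum_sub_one, h3] at hs
    obtain ⟨i, j, k, hij, hik, hjk, he⟩ := Finset.card_eq_three.1
      (show (Finset.univ.filter fun i => |x i| = 3).card = 3 by omega)
    have hm : ∀ l, l ∈ ({i, j, k} : Finset GolayPt) → |x l| = 3 := fun l hl => by
      rw [← he] at hl
      exact (Finset.mem_filter.1 hl).2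
    exact ⟨i, j, k, hij, hjk, hik, hm i (by simp), hm j (by simp), hm k (by simp)⟩

theorem part3 : {x : Cfsg.GolayPt → ℤ | x ∈ Cfsg.leechLattice ∧ Cfsg.sqNorm x = 48 ∧ ∃ i, |x i| = 4}.ncard = 3108864 := by
  rw [← show cntTot 8 0 48 - cntTot 3 0 48 = 3108864 by decide +kernel,
    ← ncard_parity 3 (by norm_num) 0 (by norm_num), ← ncard_parity 8 (by norm_num) 0 (by norm_num),
    ← Set.ncard_sdiff ?_ (fin48 _ _)]
  swap
  · exact fun x hx => ⟨hx.1, fun i => (hx.2.1 i).trans (by norm_num), hx.2.2⟩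
  refine congrArg Set.ncard ?_
  ext x
  simp only [Set.mem_ofPred_eq, Set.mem_diff, mem_leech_iff', Nat.cast_zero, Nat.cast_ofNat]
  constructor
  · rintro ⟨⟨c, hc, h⟩ | ⟨c, -, h⟩, h2, i, hi⟩
    · refine ⟨⟨⟨c, hc, h⟩, abs_le_of_sqNorm (k := 8) (by omega), h2⟩, fun h' => ?_⟩
      have := h'.2.1 i
      omega
    · have h1 := h.1 i
      rcases (abs_eq (by norm_num)).1 hi with h | h <;> omega
  · rintro ⟨⟨⟨c, hc, h⟩, -, h3⟩, h4⟩
    refine ⟨Or.inl ⟨c, hc, h⟩, h3, ?_⟩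
    by_contra hne
    refine h4 ⟨⟨c, hc, h⟩, fun i => ?_, h3⟩
    have h5 := abs_le.1 (abs_le_of_sqNorm (x := x) (k := 6) (by omega) i)
    have h6 : |x i| ≠ 4 := fun h => hne ⟨i, h⟩
    have h1 := h.1 i
    rw [Ne, abs_eq (by norm_num)] at h6
    rw [abs_le]
    by_contra h7
    have h8 : x i = 6 ∨ x i = -6 := by omega
    have hic : i ∈ c := by
      by_contra hic
      rw [ind_of_notMem hic] at h1
      omega
    have hc8 : 8 ≤ c.card := by
      by_contra hlt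
      rw [eq_empty_of_card_lt hc (by omega)] at hic
      simp at hic
    have := Finset.single_le_sum (f := fun j => x j ^ 2 - 4 * ind c j) (s := Finset.univ)
      (fun j _ => by
        have := h.1 j
        rw [ind_apply] at *
        split_ifs at *
        · have : x j ≤ -2 ∨ 2 ≤ x j := by omega
          rcases this with h | h <;> nlinarith
        · nlinarith [sq_nonneg (x j)]) (Finset.mem_univ i)
    rw [Finset.sum_sub_distrib, ← Finset.mul_sum, sum_ind, ← sqNorm_def, h3, ind_of_mem hic] at this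
    rcases h8 with h | h <;> rw [h] at this <;> omega

theorem part4 : {x : Cfsg.GolayPt → ℤ | x ∈ Cfsg.leechLattice ∧ Cfsg.sqNorm x = 48 ∧ ∃ i, |x i| = 5}.ncard = 98304 := by
  rw [← show cntTot 8 1 48 - cntTot 4 1 48 = 98304 by decide +kernel,
    ← ncard_parity 4 (by norm_num) 1 (by norm_num), ← ncard_parity 8 (by norm_num) 1 (by norm_num),
    ← Set.ncard_sdiff ?_ (fin48 _ _)]
  swap
  · exact fun x hx => ⟨hx.1, fun i => (hx.2.1 i).trans (by norm_num), hx.2.2⟩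
  refine congrArg Set.ncard ?_
  ext x
  simp only [Set.mem_ofPred_eq, Set.mem_diff, mem_leech_iff', Nat.cast_one, Nat.cast_ofNat]
  constructor
  · rintro ⟨⟨c, -, h⟩ | ⟨c, hc, h⟩, h2, i, hi⟩
    · have h1 := h.1 i
      rcases (abs_eq (by norm_num)).1 hi with h | h <;> omega
    · refine ⟨⟨⟨c, hc, h⟩, abs_le_of_sqNorm (k := 8) (by omega), h2⟩, fun h' => ?_⟩
      have := h'.2.1 i
      omega
  · rintro ⟨⟨⟨c, hc, h⟩, -, h3⟩, h4⟩
    refine ⟨Or.inr ⟨c, hc, h⟩, h3, ?_⟩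
    by_contra hne
    refine h4 ⟨⟨c, hc, h⟩, fun i => ?_, h3⟩
    have h5 := abs_le.1 (abs_le_of_sqNorm (x := x) (k := 6) (by omega) i)
    have h6 : |x i| ≠ 5 := fun h => hne ⟨i, h⟩
    have h1 := h.1 i
    rw [Ne, abs_eq (by norm_num)] at h6
    rw [abs_le]
    omega

/-- Shape census of the lattice vectors of sum of squares 48 (customary norm 6): the four families (2^12, 0^12), (±3^3, ±1^21), (±4, ±2^8, 0^15) and (±5, ±1^23) have 5275648, 8290304, 3108864 and 98304 members. -/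
theorem result : {x : Cfsg.GolayPt → ℤ | x ∈ Cfsg.leechLattice ∧ Cfsg.sqNorm x = 48 ∧ ∀ i, x i = 0 ∨ x i = 2 ∨ x i = -2}.ncard = 5275648 ∧ {x : Cfsg.GolayPt → ℤ | x ∈ Cfsg.leechLattice ∧ Cfsg.sqNorm x = 48 ∧ ∃ i j k, i ≠ j ∧ j ≠ k ∧ i ≠ k ∧ |x i| = 3 ∧ |x j| = 3 ∧ |x k| = 3}.ncard = 8290304 ∧ {x : Cfsg.GolayPt → ℤ | x ∈ Cfsg.leechLattice ∧ Cfsg.sqNorm x = 48 ∧ ∃ i, |x i| = 4}.ncard = 3108864 ∧ {x : Cfsg.GolayPt → ℤ | x ∈ Cfsg.leechLattice ∧ Cfsg.sqNorm x = 48 ∧ ∃ i, |x i| = 5}.ncard = 98304 := by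
  exact ⟨part1, part2, part3, part4⟩

end Cfsg.Agent.S1568
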