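import Mathlib
import Cfsg.Statements.S1580
import Cfsg.Agent.Lib.Leech.Order

set_option autoImplicit false
open Cfsg

namespace Cfsg.Agent.S1580

/-- The McLaughlin configuration: for u of customary norm 6 and v minimal with u − v minimal, there are 275 further such summands x of customary inner product 2 with v, permuted transitively by the stabiliser of u and v. -/
theorem result (u v : ↥Cfsg.leechLattice) (hu : Cfsg.sqNorm (u : Cfsg.GolayPt → ℤ) = 48) (hv : Cfsg.sqNorm (v : Cfsg.GolayPt → ℤ) = 32 ∧ Cfsg.sqNorm ((u - v) : Cfsg.GolayPt → ℤ) = 32) : {x : ↥Cfsg.leechLattice | Cfsg.sqNorm (x : Cfsg.GolayPt → ℤ) = 32 ∧ Cfsg.sqNorm ((u - x) : Cfsg.GolayPt → ℤ) = 32 ∧ Cfsg.dotInt (v : Cfsg.GolayPt → ℤ) (x : Cfsg.GolayPt → ℤ) = 16}.ncard = 275 ∧ ∀ x ∈ {x : ↥Cfsg.leechLattice | Cfsg.sqNorm (x : Cfsg.GolayPt → ℤ) = 32 ∧ Cfsg.sqNorm ((u - x) : Cfsg.GolayPt → ℤ)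 = 32 ∧ Cfsg.dotInt (v : Cfsg.GolayPt → ℤ) (x : Cfsg.GolayPt → ℤ) = 16}, ∀ x' ∈ {x : ↥Cfsg.leechLattice | Cfsg.sqNorm (x : Cfsg.GolayPt → ℤ) = 32 ∧ Cfsg.sqNorm ((u - x) : Cfsg.GolayPt → ℤ) = 32 ∧ Cfsg.dotInt (v : Cfsg.GolayPt → ℤ) (x : Cfsg.GolayPt → ℤ) = 16}, ∃ g : ↥Cfsg.Co0, g • u = u ∧ g • v = v ∧ g • x = x' := by
  have hw : u - v ∈ H16.Min := hv.2
  have h1 := hv.2
  rw [H16.sqNorm_sub, hu, hv.1] at h1
  have hd : Cfsg.dotInt (v : Cfsg.GolayPt → ℤ) ((u - v : Cfsg.leechLattice) : Cfsg.GolayPt → ℤ) = -8 := by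
    rw [AddSubgroup.coe_sub, H16.dotInt_sub_right, H16.dotInt_self, hv.1, H16.dotInt_comm]
    omega
  refine ⟨Eq.trans ?_ ((H16.mcl_count' hv.1 hw hd (fun p q => p = 16 ∧ q = 8)).trans (by decide)),
    fun x hx x' hx' => ?_⟩
  · congr 1
    ext x
    simp only [Set.mem_ofPred_eq, H16.sqNorm_sub, hu, AddSubgroup.coe_sub, H16.dotInt_sub_left]
    constructor <;> rintro ⟨h1, h2, h3⟩ <;> exact ⟨h1, by omega, by omega⟩
  · obtain ⟨a1, a2, a3⟩ := hx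
    obtain ⟨b1, b2, b3⟩ := hx'
    rw [H16.sqNorm_sub, hu, a1] at a2
    rw [H16.sqNorm_sub, hu, b1] at b2
    obtain ⟨g, e1, e2, e3⟩ := H16.mcl_trans' hv.1 hw hd a1 b1 (a3.trans b3.symm) (by
      simp only [AddSubgroup.coe_sub, H16.dotInt_sub_left]
      omega)
    refine ⟨g, ?_, e1, e3⟩
    rwa [smul_sub, e1, sub_left_inj] at e2

end Cfsg.Agent.S1580
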