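import Mathlib
import Cfsg.Statements.S1581
import Cfsg.Agent.Lib.Leech.Sub

set_option autoImplicit false
open Cfsg

namespace Cfsg.Agent.S1581

/-- The McLaughlin group acts with rank 3 and subdegrees 1, 112, 162 on its 275 points: the point stabiliser has two orbits on the remaining points, distinguished by customary inner product 1 or 2 with the fixed point. -/
theorem result (u v x : ↥Cfsg.leechLattice) (hu : Cfsg.sqNorm (u : Cfsg.GolayPt → ℤ) = 48) (hv : Cfsg.sqNorm (v : Cfsg.GolayPt → ℤ) = 32 ∧ Cfsg.sqNorm ((u - v) : Cfsg.GolayPt → ℤ) = 32) (hx : x ∈ {x : ↥Cfsg.leechLattice | Cfsg.sqNorm (x : Cfsg.GolayPt → ℤ) = 32 ∧ Cfsg.sqNorm ((u - x) : Cfsg.GolayPt → ℤ) = 32 ∧ Cfsg.dotInt (v : Cfsg.GolayPt → ℤ) (x : Cfsg.GolayPt → ℤ) = 16}) : {y : ↥Cfsg.leechLattice | y ∈ {x : ↥Cfsg.leechLattice | Cfsg.sqNorm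 (x : Cfsg.GolayPt → ℤ) = 32 ∧ Cfsg.sqNorm ((u - x) : Cfsg.GolayPt → ℤ) = 32 ∧ Cfsg.dotInt (v : Cfsg.GolayPt → ℤ) (x : Cfsg.GolayPt → ℤ) = 16} ∧ Cfsg.dotInt (x : Cfsg.GolayPt → ℤ) (y : Cfsg.GolayPt → ℤ) = 8}.ncard = 112 ∧ {y : ↥Cfsg.leechLattice | y ∈ {x : ↥Cfsg.leechLattice | Cfsg.sqNorm (x : Cfsg.GolayPt → ℤ) = 32 ∧ Cfsg.sqNorm ((u - x) : Cfsg.GolayPt → ℤ) = 32 ∧ Cfsg.dotInt (v : Cfsg.GolayPt → ℤ) (x : Cfsg.GolayPt → ℤ) = 16} ∧ y ≠ x ∧ Cfsg.dotInt (x : Cfsg.GolayPt → ℤ) (y : Cfsg.GolayPt → ℤ) = 16}.ncard = 162 ∧ ∀ y ∈ {x : ↥Cfsg.leechLattice | Cfsg.sqNorm (x : Cfsg.GolayPt → ℤ) = 32 ∧ Cfsg.sqNorm ((u - x) : Cfsg.GolayPt → ℤ) = 32 ∧ Cfsg.dotInt (v : Cfsg.GolayPt → ℤ) (x : Cfsg.GolayPt → ℤ) = 16}, ∀ y' ∈ {x : ↥Cfsg.leechLattice | Cfsg.sqNorm (x : Cfsg.GolayPt → ℤ) = 32 ∧ Cfsg.sqNorm ((u - x) : Cfsg.GolayPt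 → ℤ) = 32 ∧ Cfsg.dotInt (v : Cfsg.GolayPt → ℤ) (x : Cfsg.GolayPt → ℤ) = 16}, y ≠ x → y' ≠ x → Cfsg.dotInt (x : Cfsg.GolayPt → ℤ) (y : Cfsg.GolayPt → ℤ) = Cfsg.dotInt (x : Cfsg.GolayPt → ℤ) (y' : Cfsg.GolayPt → ℤ) → ∃ g : ↥Cfsg.Co0, g • u = u ∧ g • v = v ∧ g • x = x ∧ g • y = y' := by
  have hw : u - v ∈ H16.Min := hv.2
  have h1 := hv.2
  rw [H16.sqNorm_sub, hu, hv.1] at h1
  have hd : Cfsg.dotInt (v : Cfsg.GolayPt → ℤ) ((u - v : Cfsg.leechLattice) : Cfsg.GolayPt → ℤ) = -8 := by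
    rw [AddSubgroup.coe_sub, H16.dotInt_sub_right, H16.dotInt_self, hv.1, H16.dotInt_comm]
    omega
  have key : ∀ y : Cfsg.leechLattice, Cfsg.sqNorm (y : Cfsg.GolayPt → ℤ) = 32 →
      Cfsg.dotInt (v : Cfsg.GolayPt → ℤ) (y : Cfsg.GolayPt → ℤ) = 16 →
      (Cfsg.sqNorm ((u - y) : Cfsg.GolayPt → ℤ) = 32 ↔
      Cfsg.dotInt ((u - v : Cfsg.leechLattice) : Cfsg.GolayPt → ℤ) (y : Cfsg.GolayPt → ℤ) = 8) := by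
    intro y a b
    rw [H16.sqNorm_sub, hu, a, AddSubgroup.coe_sub, H16.dotInt_sub_left, b]
    omega
  have L := H16.level_u43' hv.1 hw hd hx.1 hx.2.2 ((key x hx.1 hx.2.2).1 hx.2.1)
  refine ⟨Eq.trans ?_ ((L.count fun t => t = 8).trans (by decide)),
    Eq.trans ?_ ((L.count fun t => t = 16).trans (by decide)), fun y hy y' hy' _ _ e => ?_⟩
  · congr 1
    ext y
    simp only [Set.mem_ofPred_eq]
    constructor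
    · rintro ⟨⟨a, b, c⟩, d⟩; exact ⟨a, c, (key y a c).1 b, d⟩
    · rintro ⟨a, b, c, d⟩; exact ⟨⟨a, (key y a b).2 c, b⟩, d⟩
  · congr 1
    ext y
    simp only [Set.mem_ofPred_eq]
    constructor
    · rintro ⟨⟨a, b, c⟩, -, d⟩; exact ⟨a, c, (key y a c).1 b, d⟩
    · rintro ⟨a, b, c, d⟩
      refine ⟨⟨a, (key y a b).2 c, b⟩, ?_, d⟩
      rintro rfl
      rw [H16.dotInt_self, a] at d
      omega
  · obtain ⟨g, e1, e2, e3, e4⟩ := L.1 y y' hy.1 hy'.1 hy.2.2 ((key y hy.1 hy.2.2).1 hy.2.1)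
      hy'.2.2 ((key y' hy'.1 hy'.2.2).1 hy'.2.1) e
    refine ⟨g, ?_, e1, e3, e4⟩
    rwa [smul_sub, e1, sub_left_inj] at e2

end Cfsg.Agent.S1581
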