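import Mathlib
import Cfsg.Statements.S1583
import Cfsg.Agent.Lib.Leech.Sub

set_option autoImplicit false
open Cfsg

namespace Cfsg.Agent.S1583

/-- The Higman–Sims configuration: for two vectors of customary norm 6 with inner product −4, exactly 100 minimal vectors have customary inner products 3 and −3 with them, and the joint stabiliser permutes these transitively. -/
theorem result (v w : ↥Cfsg.leechLattice) (hv : Cfsg.sqNorm (v : Cfsg.GolayPt → ℤ) = 48) (hw : Cfsg.sqNorm (w : Cfsg.GolayPt → ℤ) = 48) (hvw : Cfsg.dotInt (v : Cfsg.GolayPt → ℤ) (w : Cfsg.GolayPt → ℤ) = -32) : {x : ↥Cfsg.leechLattice | Cfsg.sqNorm (x : Cfsg.GolayPt → ℤ) = 32 ∧ Cfsg.dotInt (v : Cfsg.GolayPt → ℤ) (x : Cfsg.GolayPt → ℤ) = 24 ∧ Cfsg.dotInt (w : Cfsg.GolayPt → ℤ) (x : Cfsg.GolayPt → ℤ) = -24}.ncard = 100 ∧ ∀ x ∈ {x : ↥Cfsg.leechLattice | Cfsg.sqNorm (x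 : Cfsg.GolayPt → ℤ) = 32 ∧ Cfsg.dotInt (v : Cfsg.GolayPt → ℤ) (x : Cfsg.GolayPt → ℤ) = 24 ∧ Cfsg.dotInt (w : Cfsg.GolayPt → ℤ) (x : Cfsg.GolayPt → ℤ) = -24}, ∀ x' ∈ {x : ↥Cfsg.leechLattice | Cfsg.sqNorm (x : Cfsg.GolayPt → ℤ) = 32 ∧ Cfsg.dotInt (v : Cfsg.GolayPt → ℤ) (x : Cfsg.GolayPt → ℤ) = 24 ∧ Cfsg.dotInt (w : Cfsg.GolayPt → ℤ) (x : Cfsg.GolayPt → ℤ) = -24}, ∃ g : ↥Cfsg.Co0, g • v = v ∧ g • w = w ∧ g • x = x' := by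
  obtain ⟨h1, h2, h3⟩ := H16.hs_side hv hw hvw
  have L := H16.level_hs552' hv h1 h2
  refine ⟨Eq.trans ?_ ((L.count fun t => t = 0).trans (by decide)), fun x hx x' hx' => ?_⟩
  · congr 1
    ext x
    simp only [Set.mem_ofPred_eq, h3]
    constructor
    · rintro ⟨a, b, c⟩; exact ⟨a, b, b, by omega⟩
    · rintro ⟨a, b, -, c⟩; exact ⟨a, b, by omega⟩
  · obtain ⟨g, e1, -, e2, e3⟩ := L.1 x x' hx.1 hx'.1 hx.2.1 hx.2.1 hx'.2.1 hx'.2.1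
      (by rw [h3, h3, hx.2.1, hx.2.2, hx'.2.1, hx'.2.2])
    exact ⟨g, e1, (H16.fix_side e1).1 e2, e3⟩

end Cfsg.Agent.S1583
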