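import Mathlib
import Cfsg.Statements.S1584
import Cfsg.Agent.Lib.Leech.Sub

set_option autoImplicit false
open Cfsg

namespace Cfsg.Agent.S1584

/-- The Higman–Sims group acts with rank 3 and subdegrees 1, 22, 77 on its 100 points, the orbits of a point stabiliser being distinguished by customary inner product 1 with the fixed point. -/
theorem result (v w x : ↥Cfsg.leechLattice) (hv : Cfsg.sqNorm (v : Cfsg.GolayPt → ℤ) = 48) (hw : Cfsg.sqNorm (w : Cfsg.GolayPt → ℤ) = 48) (hvw : Cfsg.dotInt (v : Cfsg.GolayPt → ℤ) (w : Cfsg.GolayPt → ℤ) = -32) (hx : x ∈ {x : ↥Cfsg.leechLattice | Cfsg.sqNorm (x : Cfsg.GolayPt → ℤ) = 32 ∧ Cfsg.dotInt (v : Cfsg.GolayPt → ℤ) (x : Cfsg.GolayPt → ℤ) = 24 ∧ Cfsg.dotInt (w : Cfsg.GolayPt → ℤ) (x : Cfsg.GolayPt → ℤ) = -24}) : {y : ↥Cfsg.leechLattice | y ∈ {x : ↥Cfsg.leechLattice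 | Cfsg.sqNorm (x : Cfsg.GolayPt → ℤ) = 32 ∧ Cfsg.dotInt (v : Cfsg.GolayPt → ℤ) (x : Cfsg.GolayPt → ℤ) = 24 ∧ Cfsg.dotInt (w : Cfsg.GolayPt → ℤ) (x : Cfsg.GolayPt → ℤ) = -24} ∧ Cfsg.dotInt (x : Cfsg.GolayPt → ℤ) (y : Cfsg.GolayPt → ℤ) = 8}.ncard = 22 ∧ {y : ↥Cfsg.leechLattice | y ∈ {x : ↥Cfsg.leechLattice | Cfsg.sqNorm (x : Cfsg.GolayPt → ℤ) = 32 ∧ Cfsg.dotInt (v : Cfsg.GolayPt → ℤ) (x : Cfsg.GolayPt → ℤ) = 24 ∧ Cfsg.dotInt (w : Cfsg.GolayPt → ℤ) (x : Cfsg.GolayPt → ℤ) = -24} ∧ y ≠ x ∧ Cfsg.dotInt (x : Cfsg.GolayPt → ℤ) (y : Cfsg.GolayPt → ℤ) ≠ 8}.ncard = 77 ∧ ∀ y ∈ {x : ↥Cfsg.leechLattice | Cfsg.sqNorm (x : Cfsg.GolayPt → ℤ) = 32 ∧ Cfsg.dotInt (v : Cfsg.GolayPt → ℤ) (x : Cfsg.GolayPt → ℤ) = 24 ∧ Cfsg.dotInt (w : Cfsg.GolayPt → ℤ) (x : Cfsg.GolayPt → ℤ) = -24}, ∀ y' ∈ {x : ↥Cfsg.leechLattice | Cfsg.sqNorm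 (x : Cfsg.GolayPt → ℤ) = 32 ∧ Cfsg.dotInt (v : Cfsg.GolayPt → ℤ) (x : Cfsg.GolayPt → ℤ) = 24 ∧ Cfsg.dotInt (w : Cfsg.GolayPt → ℤ) (x : Cfsg.GolayPt → ℤ) = -24}, y ≠ x → y' ≠ x → (Cfsg.dotInt (x : Cfsg.GolayPt → ℤ) (y : Cfsg.GolayPt → ℤ) = 8 ↔ Cfsg.dotInt (x : Cfsg.GolayPt → ℤ) (y' : Cfsg.GolayPt → ℤ) = 8) → ∃ g : ↥Cfsg.Co0, g • v = v ∧ g • w = w ∧ g • x = x ∧ g • y = y' := by
  obtain ⟨h1, h2, h3⟩ := H16.hs_side hv hw hvw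
  have L := H16.level_m22b' hv h1 h2 hx.1 hx.2.1 (by rw [h3, hx.2.1, hx.2.2]; norm_num)
  have key : ∀ y : Cfsg.leechLattice, Cfsg.sqNorm (y : Cfsg.GolayPt → ℤ) = 32 →
      Cfsg.dotInt (v : Cfsg.GolayPt → ℤ) (y : Cfsg.GolayPt → ℤ) = 24 →
      Cfsg.dotInt (w : Cfsg.GolayPt → ℤ) (y : Cfsg.GolayPt → ℤ) = -24 → y ≠ x →
      Cfsg.dotInt (x : Cfsg.GolayPt → ℤ) (y : Cfsg.GolayPt → ℤ) ≠ 8 →
      Cfsg.dotInt (x : Cfsg.GolayPt → ℤ) (y : Cfsg.GolayPt → ℤ) = 16 := by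
    intro y a b c d e
    by_contra f
    have h0 := (L.count fun t => t ≠ 32 ∧ t ≠ 16 ∧ t ≠ 8).trans (by decide : _ = 0)
    rw [Set.ncard_eq_zero (H16.finite_Min.subset fun x hx => hx.1), Set.eq_empty_iff_forall_notMem] at h0
    exact h0 y ⟨a, b, by rw [h3, b, c]; norm_num, fun g => d (H16.eq_of_dot32 hx.1 a g), f, e⟩
  refine ⟨Eq.trans ?_ ((L.count fun t => t = 8).trans (by decide)),
    Eq.trans ?_ ((L.count fun t => t = 16).trans (by decide)), fun y hy y' hy' n n' e => ?_⟩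
  · congr 1
    ext y
    simp only [Set.mem_ofPred_eq, h3]
    constructor
    · rintro ⟨⟨a, b, c⟩, d⟩; exact ⟨a, b, by omega, d⟩
    · rintro ⟨a, b, c, d⟩; exact ⟨⟨a, b, by omega⟩, d⟩
  · congr 1
    ext y
    simp only [Set.mem_ofPred_eq, h3]
    constructor
    · rintro ⟨⟨a, b, c⟩, d, e⟩; exact ⟨a, b, by omega, key y a b c d e⟩
    · rintro ⟨a, b, c, d⟩
      refine ⟨⟨a, b, by omega⟩, ?_, by omega⟩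
      rintro rfl
      rw [H16.dotInt_self, a] at d
      omega
  · obtain ⟨g, e1, e2, e3, e4⟩ := L.1 y y' hy.1 hy'.1 hy.2.1 (by rw [h3, hy.2.1, hy.2.2]; norm_num)
      hy'.2.1 (by rw [h3, hy'.2.1, hy'.2.2]; norm_num) (by
        by_cases h8 : Cfsg.dotInt (x : Cfsg.GolayPt → ℤ) (y : Cfsg.GolayPt → ℤ) = 8
        · rw [h8, e.1 h8]
        · rw [key y hy.1 hy.2.1 hy.2.2 n h8, key y' hy'.1 hy'.2.1 hy'.2.2 n' fun h => h8 (e.2 h)])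
    exact ⟨g, e1, (H16.fix_side e1).1 e2, e3, e4⟩

end Cfsg.Agent.S1584
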