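import Mathlib
import Cfsg.Statements.S1585
import Cfsg.Agent.Lib.Leech.Order

set_option autoImplicit false
open Cfsg

namespace Cfsg.Agent.S1585

/-- Two vectors of customary norm 6 with inner product −4 are exchanged by some automorphism of the lattice. -/
theorem result (v w : ↥Cfsg.leechLattice) (hv : Cfsg.sqNorm (v : Cfsg.GolayPt → ℤ) = 48) (hw : Cfsg.sqNorm (w : Cfsg.GolayPt → ℤ) = 48) (hvw : Cfsg.dotInt (v : Cfsg.GolayPt → ℤ) (w : Cfsg.GolayPt → ℤ) = -32) : ∃ g : ↥Cfsg.Co0, g • v = w ∧ g • w = v := by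
  have hz : -(v + w) ∈ H16.Min := by
    rw [H16.mem_Min, AddSubgroup.coe_neg, AddSubgroup.coe_add, H16.sqNorm_neg, H16.sqNorm_add, hv, hw,
      hvw]
    norm_num
  obtain ⟨g, h1, h2⟩ := H16.pair_trans3 hv hz hw hz (by
    simp only [AddSubgroup.coe_neg, AddSubgroup.coe_add, H16.dotInt_neg_right, H16.dotInt_add_right,
      H16.dotInt_self, hv, hw, hvw, H16.dotInt_comm (w : Cfsg.GolayPt → ℤ) v]
    norm_num)
  refine ⟨g, h1, ?_⟩
  rw [smul_neg, smul_add, h1, neg_inj, add_comm v, add_right_inj] at h2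
  exact h2

end Cfsg.Agent.S1585
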