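import Cfsg.Statements.S1588
import Cfsg.Agent.Lib.Spor55.EvenLattice

set_option autoImplicit false
open Matrix
open Cfsg

namespace Cfsg.Agent.S1588

/-- Second step of the characterisation: under the vector counts of the rank-24 lattice, the norm-8 vectors fall into congruence classes of exactly 48 modulo twice the lattice. -/
theorem result (B : Matrix (Fin 24) (Fin 24) ℤ) (hsymm : B.IsSymm) (hpos : ∀ x : Fin 24 → ℤ, x ≠ 0 → 0 < x ⬝ᵥ (B *ᵥ x)) (heven : ∀ x : Fin 24 → ℤ, (2 : ℤ) ∣ x ⬝ᵥ (B *ᵥ x)) (h2 : ∀ x : Fin 24 → ℤ, x ⬝ᵥ (B *ᵥ x) ≠ 2) (h4 : {x : Fin 24 → ℤ | x ⬝ᵥ (B *ᵥ x) = 4}.ncard = 196560) (h6 : {x : Fin 24 → ℤ | x ⬝ᵥ (B *ᵥ x) = 6}.ncard = 16773120) (h8 : {x : Fin 24 → ℤ | x ⬝ᵥ (B *ᵥ x) = 8}.ncard = 398034000) (x : Fin 24 → ℤ) (hx : x ⬝ᵥ (B *ᵥ x) = 8) : {y : Fin 24 → ℤ | y ⬝ᵥ (B *ᵥ y) = 8 ∧ ∀ i, (2 : ℤ) ∣ (x - y) i}.ncard = 48 := by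
  classical
  have f4 : {x : Fin 24 → ℤ | x ⬝ᵥ (B *ᵥ x) = 4}.Finite := Set.finite_of_ncard_ne_zero (by rw [h4]; norm_num)
  have f6 : {x : Fin 24 → ℤ | x ⬝ᵥ (B *ᵥ x) = 6}.Finite := Set.finite_of_ncard_ne_zero (by rw [h6]; norm_num)
  have f8 : {x : Fin 24 → ℤ | x ⬝ᵥ (B *ᵥ x) = 8}.Finite := Set.finite_of_ncard_ne_zero (by rw [h8]; norm_num)
  rw [Set.ncard_eq_toFinset_card _ f4] at h4
  rw [Set.ncard_eq_toFinset_card _ f6] at h6
  rw [Set.ncard_eq_toFinset_card _ f8] at h8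
  set A4 := f4.toFinset with hA4
  set A6 := f6.toFinset with hA6
  set A8 := f8.toFinset with hA8
  have m4 : ∀ y, y ∈ A4 ↔ y ⬝ᵥ (B *ᵥ y) = 4 := fun y => by simp [hA4]
  have m6 : ∀ y, y ∈ A6 ↔ y ⬝ᵥ (B *ᵥ y) = 6 := fun y => by simp [hA6]
  have m8 : ∀ y, y ∈ A8 ↔ y ⬝ᵥ (B *ᵥ y) = 8 := fun y => by simp [hA8]
  let φ : (Fin 24 → ℤ) → (Fin 24 → ZMod 2) := fun y i => (y i : ZMod 2)
  have hφ : ∀ y z, φ y = φ z ↔ ∀ i, (2 : ℤ) ∣ (y - z) i := by
    intro y z
    rw [funext_iff]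
    refine forall_congr' fun i => ?_
    show ((y i : ℤ) : ZMod 2) = (z i : ZMod 2) ↔ _
    rw [eq_comm, ZMod.intCast_eq_intCast_iff_dvd_sub]
    simp
  have sc := H55.EvenLattice.short_congr B hsymm hpos heven h2
  let w : (Fin 24 → ZMod 2) → ℕ := fun c =>
    48 * (({0} : Finset (Fin 24 → ℤ)).filter fun y => φ y = c).card +
      24 * (A4.filter fun y => φ y = c).card + 24 * (A6.filter fun y => φ y = c).card +
      (A8.filter fun y => φ y = c).card
  have hn : ∀ y : Fin 24 → ℤ, (-y) ⬝ᵥ (B *ᵥ (-y)) = y ⬝ᵥ (B *ᵥ y) := by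
    intro y; simp [Matrix.mulVec_neg]
  -- a vector of norm < 8 in the class kills all other norms
  have kill : ∀ (c : Fin 24 → ZMod 2) (y : Fin 24 → ℤ), φ y = c → y ⬝ᵥ (B *ᵥ y) < 8 →
      ∀ (A : Finset (Fin 24 → ℤ)) (k : ℤ), k ≤ 8 → (∀ z ∈ A, z ⬝ᵥ (B *ᵥ z) = k) →
      (A.filter fun z => φ z = c).card ≤ 2 ∧
      (k ≠ y ⬝ᵥ (B *ᵥ y) → (A.filter fun z => φ z = c).card = 0) := by
    intro c y hy hlt A k hk hA
    have : ∀ z ∈ A.filter fun z => φ z = c, z = y ∨ z = -y := by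
      intro z hz
      rw [Finset.mem_filter] at hz
      rcases sc y z hlt.le ((hA z hz.1).le.trans hk) ((hφ y z).1 (hy.trans hz.2.symm)) with h | h | h
      · exact Or.inl h
      · exact Or.inr h
      · omega
    constructor
    · calc _ ≤ ({y, -y} : Finset (Fin 24 → ℤ)).card := by
            apply Finset.card_le_card
            intro z hz
            simpa using this z hz
        _ ≤ 2 := Finset.card_le_two
    · intro hne
      rw [Finset.card_eq_zero, Finset.eq_empty_iff_forall_notMem]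
      intro z hz
      have h1 := hA z (Finset.mem_filter.1 hz).1
      rcases this z hz with h | h
      · exact hne (by rw [← h1, h])
      · exact hne (by rw [← h1, h, hn])
  have z0 : ∀ z ∈ ({0} : Finset (Fin 24 → ℤ)), z ⬝ᵥ (B *ᵥ z) = 0 := by
    intro z hz; rw [Finset.mem_singleton.1 hz]; simp
  have hw : ∀ c, w c ≤ 48 := by
    intro c
    simp only [w]
    by_cases e0 : (({0} : Finset (Fin 24 → ℤ)).filter fun y => φ y = c).card = 0
    swap
    · obtain ⟨y, hy⟩ := Finset.card_pos.1 (Nat.pos_of_ne_zero e0)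
      rw [Finset.mem_filter] at hy
      have hy0 := z0 y hy.1
      have a0 : (({0} : Finset (Fin 24 → ℤ)).filter fun y => φ y = c).card ≤ 1 :=
        (Finset.card_filter_le _ _).trans (by simp)
      have a4 := (kill c y hy.2 (by omega) A4 4 (by norm_num) (fun z hz => (m4 z).1 hz)).2 (by omega)
      have a6 := (kill c y hy.2 (by omega) A6 6 (by norm_num) (fun z hz => (m6 z).1 hz)).2 (by omega)
      have a8 := (kill c y hy.2 (by omega) A8 8 (by norm_num) (fun z hz => (m8 z).1 hz)).2 (by omega)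
      omega
    by_cases e4 : (A4.filter fun y => φ y = c).card = 0
    swap
    · obtain ⟨y, hy⟩ := Finset.card_pos.1 (Nat.pos_of_ne_zero e4)
      rw [Finset.mem_filter] at hy
      have hy0 := (m4 y).1 hy.1
      have a4 := (kill c y hy.2 (by omega) A4 4 (by norm_num) (fun z hz => (m4 z).1 hz)).1
      have a6 := (kill c y hy.2 (by omega) A6 6 (by norm_num) (fun z hz => (m6 z).1 hz)).2 (by omega)
      have a8 := (kill c y hy.2 (by omega) A8 8 (by norm_num) (fun z hz => (m8 z).1 hz)).2 (by omega)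
      omega
    by_cases e6 : (A6.filter fun y => φ y = c).card = 0
    swap
    · obtain ⟨y, hy⟩ := Finset.card_pos.1 (Nat.pos_of_ne_zero e6)
      rw [Finset.mem_filter] at hy
      have hy0 := (m6 y).1 hy.1
      have a6 := (kill c y hy.2 (by omega) A6 6 (by norm_num) (fun z hz => (m6 z).1 hz)).1
      have a8 := (kill c y hy.2 (by omega) A8 8 (by norm_num) (fun z hz => (m8 z).1 hz)).2 (by omega)
      omega
    have a8 := H55.EvenLattice.card_class_le B hsymm hpos heven h2 (A8.filter fun y => φ y = c)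
      (fun z hz => (m8 z).1 (Finset.mem_filter.1 hz).1)
      (fun y hy z hz => (hφ y z).1 ((Finset.mem_filter.1 hy).2.trans (Finset.mem_filter.1 hz).2.symm))
    omega
  have hsum : ∑ c, w c = ∑ _c : Fin 24 → ZMod 2, 48 := by
    simp only [w, Finset.sum_add_distrib, ← Finset.mul_sum]
    rw [← Finset.card_eq_sum_card_fiberwise (f := φ) (by simp),
      ← Finset.card_eq_sum_card_fiberwise (f := φ) (by simp),
      ← Finset.card_eq_sum_card_fiberwise (f := φ) (by simp),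
      ← Finset.card_eq_sum_card_fiberwise (f := φ) (by simp), h4, h6, h8]
    simp
  have hall := (Finset.sum_eq_sum_iff_of_le (fun c _ => hw c)).1 hsum (φ x) (Finset.mem_univ _)
  have zero_of : ∀ (A : Finset (Fin 24 → ℤ)) (k : ℤ), k < 8 → (∀ z ∈ A, z ⬝ᵥ (B *ᵥ z) = k) →
      (A.filter fun z => φ z = φ x).card = 0 := by
    intro A k hk hA
    rw [Finset.card_eq_zero, Finset.eq_empty_iff_forall_notMem]
    intro z hz
    rw [Finset.mem_filter] at hz
    have h1 := hA z hz.1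
    rcases sc x z hx.le (by omega) ((hφ x z).1 hz.2.symm) with h | h | h
    · rw [h] at h1; omega
    · rw [h, hn] at h1; omega
    · omega
  simp only [w] at hall
  rw [zero_of _ 0 (by norm_num) z0, zero_of A4 4 (by norm_num) (fun z hz => (m4 z).1 hz),
    zero_of A6 6 (by norm_num) (fun z hz => (m6 z).1 hz)] at hall
  have : {y : Fin 24 → ℤ | y ⬝ᵥ (B *ᵥ y) = 8 ∧ ∀ i, (2 : ℤ) ∣ (x - y) i} =
      ↑(A8.filter fun z => φ z = φ x) := by
    ext y
    simp only [Set.mem_setOf_eq, Finset.coe_filter, m8, ← hφ, eq_comm]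
  rw [this, Set.ncard_coe_finset]
  omega

end Cfsg.Agent.S1588
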