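import Cfsg.Statements.S1589
import Cfsg.Agent.Lib.MIdx.Main

set_option autoImplicit false
open scoped Pointwise
open Cfsg

namespace Cfsg.Agent.S1589

/-- Subgroups of the group of the length-24 code of index 759, 276 and 1771 are exactly the octad, duad and sextet stabilisers, and no subgroup has index 253. -/
theorem result : (∀ H : Subgroup ↥Cfsg.M24, H.index = 759 → ∃ o ∈ Cfsg.octads, H = MulAction.stabilizer Cfsg.M24 o) ∧ (∀ H : Subgroup ↥Cfsg.M24, H.index = 276 → ∃ s : Finset Cfsg.GolayPt, s.card = 2 ∧ H = MulAction.stabilizer Cfsg.M24 s) ∧ (∀ H : Subgroup ↥Cfsg.M24, H.index = 1771 → ∃ S ∈ Cfsg.sextets, H = MulAction.stabilizer Cfsg.M24 S) ∧ ∀ H : Subgroup ↥Cfsg.M24, H.index ≠ 253 := by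
  have hc : ∀ (H : Subgroup ↥Cfsg.M24) {n m : ℕ}, H.index = n → n ≠ 0 → 244823040 = m * n →
      Nat.card (H.map Cfsg.M24.subtype) = m := fun H n m h hn e => by
    have := H.card_mul_index
    rw [h, H15.card_M24, e] at this
    rw [Subgroup.card_map_of_injective Cfsg.M24.subtype_injective]
    exact Nat.eq_of_mul_eq_mul_right (Nat.pos_of_ne_zero hn) this
  have he : ∀ (H : Subgroup ↥Cfsg.M24) (L : Subgroup (Equiv.Perm GolayPt)),
      H.map Cfsg.M24.subtype = Cfsg.M24 ⊓ L → ∀ g : Cfsg.M24, g ∈ H ↔ g.1 ∈ L := fun H L e g => by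
    rw [← Subgroup.mem_map_iff_mem Cfsg.M24.subtype_injective, e]
    exact ⟨fun h => h.2, fun h => ⟨g.2, h⟩⟩
  refine ⟨fun H h => ?_, fun H h => ?_, fun H h => ?_, fun H h => ?_⟩
  · obtain ⟨o, ho, e⟩ := H16.MI.m24_759 (Subgroup.map_subtype_le H) (hc H h (by norm_num) rfl)
    exact ⟨o, ho, Subgroup.ext (he H _ e)⟩
  · obtain ⟨o, ho, e⟩ := H16.MI.m24_276 (Subgroup.map_subtype_le H) (hc H h (by norm_num) rfl)
    exact ⟨o, ho, Subgroup.ext (he H _ e)⟩
  · obtain ⟨o, ho, e⟩ := H16.MI.m24_1771 (Subgroup.map_subtype_le H) (hc H h (by norm_num) rfl)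
    exact ⟨o, ho, Subgroup.ext (he H _ e)⟩
  · exact H16.MI.m24_253 (Subgroup.map_subtype_le H) (hc H h (by norm_num) rfl)

end Cfsg.Agent.S1589
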