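import Cfsg.Statements.S1594
import Cfsg.Agent.Lib.Spor55.Ternary
import Cfsg.Agent.Lib.Spor55.Monomial
import Cfsg.Agent.Lib.CGT.Check
import Cfsg.Agent.Lib.Golay.Perm
import Cfsg.Agent.S0425

set_option autoImplicit false
open Cfsg

namespace Cfsg.Agent.S1594

set_option maxRecDepth 100000
open H55.Ternary H55.Monomial
open scoped Pointwise

noncomputable def c12 : H54.Cfg := ⟨12, 12, 4, 15, 0xba9876543210,
  0x111111111111,
  0x777777777777,
  0x888888888888,
  (.cons 64 0x111111 24
    (.cons 65 0x111000111 12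
    (.cons 66 0x1001001001 4
    (.cons 67 0x10010010010 4
    (.cons 112 0x1001001001 4
    (.cons 113 0x111000111 12
    (.cons 114 0x111111 24
    .nil)))))))⟩
theorem c12_check : c12.check = true := by decide +kernel

noncomputable def ch_5 : H54.Chain := .nil
noncomputable def ch_t4 : H54.Tr :=
 (.node 3 (.node 1 (.node 0 (.leaf 0x446450040a00113900000000301000006)
 (.leaf 0x400430000240102840001000100000007))
 (.node 2 (.leaf 0x20044200000840811040002000200000005)
 (.leaf 0x12220044000802200811240003000201000001)))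
 (.node 5 (.node 4 (.leaf 0x200410020000040942100004000300000006)
 (.leaf 0x2004000240002841040800005000101000007))
 (.node 6 (.leaf 0x12230000040840840006000200000001)
 (.leaf 0x7000000000007))))
noncomputable def ch_4 : H54.Chain := .cons 7 255 ch_t4
  [0xba9814275063, 0xba9850624137]
  [] ch_5
noncomputable def ch_t3 : H54.Tr :=
 (.node 4 (.node 1 (.node 0 (.leaf 0x12024044400840001011840000000301000001)
 (.leaf 0x14450000840840800001000201000007))
 (.node 2 (.leaf 0x14004020002841000240002000300000006)
 (.node 3 (.leaf 0x6420000840843000003000301000006)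
 (.leaf 0x12020442000802000112940004000300000001))))
 (.node 7 (.node 5 (.leaf 0x2014000020000841041200005000100000008)
 (.node 6 (.leaf 0x10002220000840040040006000200000005)
 (.leaf 0x2014004070000841000900007000101000008)))
 (.node 8 (.leaf 0x8000000000008)
 (.node 12 (.leaf 0x201400002000084104120000c000000000000)
 (.leaf 0x201400407000084100090000d000000000000)))))
noncomputable def ch_3 : H54.Chain := .cons 8 511 ch_t3
  [0xba9572630841, 0xba9713642508]
  [[7, 6, 12, 0, 4, 6, 2], [13, 3, 13, 6]] ch_4
noncomputable def ch_t2 : H54.Tr :=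
 (.node 5 (.node 2 (.node 0 (.leaf 0x10024040460840001040800000000201000007)
 (.node 1 (.leaf 0x12024042640840841842200001000200000002)
 (.leaf 0x10004006400842001813340002000101000009)))
 (.node 3 (.leaf 0x20446440040840102900003000300000005)
 (.node 4 (.leaf 0x24040050002801051800004000301000000)
 (.leaf 0x12200454010842000951840005000201000002))))
 (.node 8 (.node 6 (.leaf 0x12220010230802200851940006000400000003)
 (.node 7 (.leaf 0x12220044040802200841b00007000100000009)
 (.leaf 0x30006050000840810b40008000300000001)))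
 (.node 9 (.leaf 0x9000000000009)
 (.node 12 (.leaf 0x12220044040802200841b0000c000000000000)
 (.leaf 0x1000400640084200181334000d000000000000)))))
noncomputable def ch_2 : H54.Chain := .cons 9 1023 ch_t2
  [0xba7490356182, 0xba2706389514]
  [[5, 4, 9, 7], [13, 12, 6, 7, 12, 3]] ch_3
noncomputable def ch_t1 : H54.Tr :=
 (.node 5 (.node 2 (.node 0 (.leaf 0x20412620000800843240000000501000002)
 (.node 1 (.leaf 0x12200002250842000111b00001000201000007)
 (.leaf 0x12014446060800841842200002000400000004)))
 (.node 3 (.leaf 0x1026004000081094000300010100000a)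
 (.node 4 (.leaf 0x200044660040200102800004000301000005)
 (.leaf 0x230400000040800801000005000200000007))))
 (.node 8 (.node 6 (.leaf 0x2204044060800241000800006000500000002)
 (.node 7 (.leaf 0x214004200840841140a0000700010000000a)
 (.leaf 0x2000042660842040150a00008000600000006)))
 (.node 10 (.node 9 (.leaf 0x220406400040a00050200009000300000005)
 (.leaf 0xa00000000000a))
 (.node 12 (.leaf 0x214004200840841140a0000c000000000000)
 (.leaf 0x1026004000081094000d000000000000)))))
noncomputable def ch_1 : H54.Chain := .cons 10 2047 ch_t1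
  [0xb74a58921630, 0xb3a815427096]
  [[10, 13, 12, 13, 5, 8, 3], [5, 10, 13, 4, 13, 12, 1, 12, 6]] ch_2
noncomputable def ch_t0 : H54.Tr :=
 (.node 6 (.node 2 (.node 0 (.leaf 0x10204406010840000910840000000401000009)
 (.node 1 (.leaf 0x2204442270042841840800001000401000008)
 (.leaf 0x200405602080204190020000200010100000b)))
 (.node 4 (.node 3 (.leaf 0x10000052200840040852240003000301000004)
 (.leaf 0x12000016420840a00912100004000201000002))
 (.node 5 (.leaf 0x2014056220042a40942240005000400000003)
 (.leaf 0x12020402270840840103900006000201000007))))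
 (.node 9 (.node 7 (.leaf 0x203445240084284191390000700010000000b)
 (.node 8 (.leaf 0x200452050042a0181090000800030100000a)
 (.leaf 0x214440460802800950b0000900030000000a)))
 (.node 11 (.node 10 (.leaf 0x12034042220800a40152b0000a000200000002)
 (.leaf 0xb00000000000b))
 (.node 12 (.leaf 0x203445240084284191390000c000000000000)
 (.leaf 0x200405602080204190020000d000000000000)))))
noncomputable def ch_0 : H54.Chain := .cons 11 4095 ch_t0
  [0x7983b4625a10, 0x2801675394ab]
  [[4, 5, 5, 13, 7, 3, 8], [12, 13, 0, 9, 2, 11, 2]] ch_1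
noncomputable def ch : H54.Chain := ch_0

theorem ch_low0 : H54.checkLow c12 ch_0 = true := by decide +kernel
theorem ch_low : H54.checkLow c12 ch = true := ch_low0
theorem ch_size : ch.size c12.n = 95040 := by decide +kernel

/-- enumeration of the positions -/
def apt (i : ℕ) : ArrayPt := (Fin.ofNat 4 (i / 3), (i : ZMod 3))

theorem X12 : H54.Ctx c12 apt :=
  ⟨c12.ok_of_check c12_check, fun i j hi hj => by
    have : ∀ i < 12, ∀ j < 12, apt i = apt j → i = j := by decide
    exact this i hi j hj⟩

theorem K12 : H54.Kfix (Equiv.Perm ArrayPt) c12 apt = ⊥ :=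
  H54.Kfix_eq_bot (by
    have : ∀ x : ArrayPt, ∃ i < 12, apt i = x := by decide
    exact this)

/-- a function on the array from its table -/
def tab {β : Type} (T : Fin 4 → Fin 3 → β) (p : ArrayPt) : β := T p.1 p.2

theorem pres_of_word {σ : Equiv.Perm ArrayPt} {c : ArrayPt → (ZMod 3)ˣ}
    (h : ∀ t : P6, monomialMap σ c (word t) = word (info (monomialMap σ c (word t)))) :
    σ ∈ permPart ternaryGolayCode := ⟨c, fun x hx => by
  obtain ⟨t, rfl⟩ := (mem_iff x).1 hx
  rw [h t]; exact word_mem _⟩

/-- a generator -/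
def g0 : Equiv.Perm ArrayPt :=
  ⟨tab ![![(0, 0), (0, 1), (3, 1)], ![(1, 2), (0, 2), (2, 0)], ![(1, 1), (3, 2), (1, 0)], ![(2, 2), (3, 0), (2, 1)]],
   tab ![![(0, 0), (0, 1), (1, 1)], ![(2, 2), (2, 0), (1, 0)], ![(1, 2), (3, 2), (3, 0)], ![(3, 1), (0, 2), (2, 1)]], by decide, by decide⟩

theorem g0_mem : g0 ∈ permPart ternaryGolayCode :=
  pres_of_word (c := tab ![![1, -1, -1], ![1, -1, -1], ![-1, -1, 1], ![1, 1, 1]])
    (by
      intro t
      funext i
      rw [mono_apply]
      simp only [info, mono_apply]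
      revert t i
      decide +kernel)

theorem g0_rep : H54.Rep c12 apt g0 133606574021136 := by
  show ∀ i < 12, c12.get _ i < 12 ∧ g0 (apt i) = apt (c12.get _ i)
  decide +kernel

/-- a generator -/
def g1 : Equiv.Perm ArrayPt :=
  ⟨tab ![![(3, 2), (3, 1), (1, 1)], ![(3, 0), (1, 0), (1, 2)], ![(2, 1), (2, 0), (0, 1)], ![(0, 0), (2, 2), (0, 2)]],
   tab ![![(3, 0), (2, 2), (3, 2)], ![(1, 1), (0, 2), (1, 2)], ![(2, 1), (2, 0), (3, 1)], ![(1, 0), (0, 1), (0, 0)]], by decide, by decide⟩

theorem g1_mem : g1 ∈ permPart ternaryGolayCode :=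
  pres_of_word (c := tab ![![1, -1, 1], ![-1, 1, -1], ![1, 1, -1], ![1, -1, -1]])
    (by
      intro t
      funext i
      rw [mono_apply]
      simp only [info, mono_apply]
      revert t i
      decide +kernel)

theorem g1_rep : H54.Rep c12 apt g1 43986493609131 := by
  show ∀ i < 12, c12.get _ i < 12 ∧ g1 (apt i) = apt (c12.get _ i)
  decide +kernel


/-- The monomial automorphism group of the length-12 ternary code has order 190080 and its permutation parts are exactly the automorphisms of its hexad system. -/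
theorem result : Nat.card {f : Equiv.Perm Cfsg.ArrayPt × (Cfsg.ArrayPt → (ZMod 3)ˣ) // (∀ x ∈ Cfsg.ternaryGolayCode, Cfsg.monomialMap f.1 f.2 x ∈ Cfsg.ternaryGolayCode)} = 190080 ∧ {σ : Equiv.Perm Cfsg.ArrayPt | ∃ c : Cfsg.ArrayPt → (ZMod 3)ˣ, (∀ x ∈ Cfsg.ternaryGolayCode, Cfsg.monomialMap σ c x ∈ Cfsg.ternaryGolayCode)} = (Cfsg.setSystemAut {h : Finset Cfsg.ArrayPt | ∃ x ∈ Cfsg.ternaryGolayCode, Cfsg.ternarySupport x = h ∧ h.card = 6} : Set (Equiv.Perm Cfsg.ArrayPt)) := by
  have hA : Nat.card (setSystemAut hexads) = 95040 :=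
    (Cfsg.Agent.S0425.result (by decide) hexads_steiner).1.2
  have hle : permPart ternaryGolayCode ≤ setSystemAut hexads := by
    rintro σ ⟨c, hc⟩
    show σ • hexads = hexads
    refine Set.eq_of_subset_of_ncard_le ?_ (Set.ncard_smul_set _ _).ge (Set.toFinite _)
    rintro _ ⟨_, ⟨x, hx, rfl, h6⟩, rfl⟩
    refine ⟨_, hc x hx, support_monomial σ c x, ?_⟩
    rw [← h6]; exact Finset.card_smul_finset _ _
  have hge : 95040 ≤ Nat.card (permPart ternaryGolayCode) := by
    rw [← ch_size]
    refine H54.size_le_card X12 K12 (fun s hs => ?_) ch_low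
    have e : ch.gens = [133606574021136, 43986493609131] := rfl
    rw [e] at hs
    simp only [List.mem_cons, List.not_mem_nil, or_false] at hs
    rcases hs with rfl | rfl
    exacts [⟨g0, g0_mem, g0_rep⟩, ⟨g1, g1_mem, g1_rep⟩]
  have he : permPart ternaryGolayCode = setSystemAut hexads :=
    Subgroup.eq_of_le_of_card_ge hle (hA ▸ hge)
  refine ⟨?_, congrArg (fun H : Subgroup (Equiv.Perm ArrayPt) => (H : Set (Equiv.Perm ArrayPt))) he⟩
  rw [card_monomial _ (fun c hc i j => by
    rcases diag_kernel c hc with h | h <;> rw [h, h]), he, hA, Nat.card_units, Nat.card_zmod]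

end Cfsg.Agent.S1594
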