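import Cfsg.Statements.S1595
import Cfsg.Agent.Lib.Spor55.Design

set_option autoImplicit false
open Cfsg

namespace Cfsg.Agent.S1595

/-- Leech triangle of S(5, 6, 12): blocks meet in 0, 2, 3 or 4 points, and a block is met exactly in a given 2-, 3- or 4-subset by 3, 2, 3 blocks respectively. -/
theorem result {α : Type*} [Fintype α] [DecidableEq α] (hα : Fintype.card α = 12) {B : Set (Finset α)} (hB : Cfsg.IsSteinerSystem 5 6 B) (b : Finset α) (hb : b ∈ B) : (∀ c ∈ B, c ≠ b → (b ∩ c).card = 0 ∨ (b ∩ c).card = 2 ∨ (b ∩ c).card = 3 ∨ (b ∩ c).card = 4) ∧ ∀ s ⊆ b, (s.card = 2 → {c : Finset α | c ∈ B ∧ b ∩ c = s}.ncard = 3) ∧ (s.card = 3 → {c : Finset α | c ∈ B ∧ b ∩ c = s}.ncard = 2) ∧ (s.card = 4 → {c : Finset α | c ∈ B ∧ b ∩ c = s}.ncard = 3) := by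
  refine ⟨fun c hc hcb => ?_, fun s hs => ?_⟩
  · have h := H55.Design.exact12 hα hB hb (b ∩ c) Finset.inter_subset_left
    have hpos : 0 < {c' : Finset α | c' ∈ B ∧ b ∩ c' = b ∩ c}.ncard :=
      (Set.ncard_pos (Set.toFinite _)).2 ⟨c, hc, rfl⟩
    have hlt : (b ∩ c).card < 5 := by
      by_contra h5
      exact hcb (H55.Design.steiner_unique hB hb hc (by omega)).symm
    rw [h] at hpos
    generalize (b ∩ c).card = i at *
    interval_cases i <;> simp at hpos ⊢
  · have h := H55.Design.exact12 hα hB hb s hs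
    refine ⟨fun h2 => ?_, fun h2 => ?_, fun h2 => ?_⟩ <;> rw [h, h2] <;> rfl

end Cfsg.Agent.S1595
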