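import Cfsg.Statements.S1597
import Cfsg.Agent.Lib.Spor55.Quartet2

set_option autoImplicit false
open scoped Pointwise
open Cfsg

namespace Cfsg.Agent.S1597

set_option maxRecDepth 100000
open H15 H55.Br


/-- A dodecad has 220 quartets and its stabiliser is transitive on them. -/
theorem result (d : Finset Cfsg.GolayPt) (hd : d ∈ Cfsg.dodecads) : (Cfsg.quartets d).ncard = 220 ∧ ∀ Q ∈ Cfsg.quartets d, ∀ Q' ∈ Cfsg.quartets d, ∃ g : Equiv.Perm Cfsg.GolayPt, g ∈ Cfsg.M24 ∧ g • d = d ∧ g • Q = Q' := by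
  refine ⟨H55.Golay.ncard_quartets hd, fun Q hQ Q' hQ' => ?_⟩
  obtain ⟨k, hk, rfl, rfl⟩ := flag_quartet hd hQ
  rw [← orbit_quartet hk] at hQ'
  obtain ⟨g, rfl⟩ := hQ'
  exact ⟨g.1.1, g.1.2, g.2, rfl⟩

end Cfsg.Agent.S1597
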