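import Cfsg.Statements.S1599
import Cfsg.Agent.Lib.Spor55.Quartet2

set_option autoImplicit false
open scoped Pointwise
open Cfsg

namespace Cfsg.Agent.S1599

set_option maxRecDepth 100000
open H15 H55.Br

noncomputable def o12_S : List ℕ := [0x200880008c540128501806180004100a0000512000c52582453010080000000000000000, 0x10800080820010002008239c800100020501120804100a8450584000000000000000000]
noncomputable def o12_d : H54.Tr := (.leaf 0x100000000000b000001)
noncomputable def o12_h : ℕ → ℕ := H54.phash 5 1073741827 23 o12_d
noncomputable def o12_ws : List ℕ := [200527]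
theorem o12_chk : H54.orbCheck c24.net (fun a => o12_h (H54.famKey c24 4 2305843009213693951 a)) (fun _ => 0) o12_S 64 o12_ws 0x100804088800008000000000110424 12 0 = true := by decide +kernel

noncomputable def s12_2 : H54.Chain := .nil
noncomputable def s12_t1 : H54.Tr :=
 (.node 13 (.node 8 (.leaf 0x8009000421020290020803040000005040a000c42400430502800008000101000016)
 (.leaf 0x2010080000800000802880200c00410000040000480400000440502c0000d000201000014))
 (.node 20 (.leaf 0x840808042008101080080000100800524004808501a0021000080014000100000016)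
 (.leaf 0x16000000000016)))
noncomputable def s12_1 : H54.Chain := .cons 22 0x502100 s12_t1
  [0xbd096648505b9137a8ed498b51c401, 0xba04d98c905ba8c795363995195401]
  [] s12_2
noncomputable def s12_t0 : H54.Tr :=
 (.node 4 (.node 1 (.node 0 (.leaf 0x2200c04000004210a12580208050410082012000000c425a2430012080000000200000015)
 (.leaf 0x880098000200a02d0421001000000005050a00085208207241a600001000201000015))
 (.node 2 (.leaf 0x108002808442100104002110600100a001051808081048247208a600002000100000017)
 (.node 3 (.leaf 0x2000000098804012840100680020410400050500000412108030112880003000201000002)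
 (.leaf 0x210c04000874000a12100411c700104a20020028000500a047241e800004000300000003))))
 (.node 21 (.node 17 (.leaf 0x200804010854012a12180411cc000008205211a000c4008a42208c000011000301000003)
 (.node 18 (.leaf 0x200080000804210a42d0023807041000004000a000c0248a430012a80012000200000002)
 (.leaf 0x200880290860210002d00220c40410420050508080c10580462592800015000101000017)))
 (.node 23 (.leaf 0x17000000000017)
 (.node 24 (.leaf 0x108002808442100104002110600100a001051808081048247208a600018000000000000)
 (.leaf 0x200880290860210002d00220c40410420050508080c10580462592800019000000000000)))))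
noncomputable def s12_0 : H54.Chain := .cons 23 0xa6001f s12_t0
  [0x13416606b0315135ba874bd5724871, 0xad0286005032ad37b9a74acb788e44]
  [[24, 23, 18, 4, 24, 25, 25, 3], [24, 1, 25, 25, 23, 25, 21, 4]] s12_1
noncomputable def s12 : H54.Chain := s12_0

theorem s12_low0 : H54.checkLow c24 s12_0 = true := by decide +kernel
theorem s12_low : H54.checkLow c24 s12 = true := s12_low0
theorem s12_size : s12.size c24.n = 36 := by decide +kernel

theorem orb12 {k : Equiv.Perm GolayPt} (hk : k ∈ M24) :
    H54.famObj c24 (ptk k) 4 83239328566330511738952047867790372 ∈ quartets (setk k dod1) ∧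
    (MulAction.orbit ↥(MulAction.stabilizer M24 (setk k dod1) ⊓
      MulAction.stabilizer M24 (H54.famObj c24 (ptk k) 4 xQ))
      (H54.famObj c24 (ptk k) 4 83239328566330511738952047867790372)).ncard = 12 := by
  refine ⟨?_, ((good_chQ hk).stabilizer_fam (Xk k) (by decide) (by decide +kernel)
    (by decide +kernel) s12_low (H54.le_orbit_fam (Xk k) ((good_chQ hk).all_in_net (Xk k)
    (by decide +kernel)) (by decide) (by decide +kernel) o12_chk) (by rw [chQ_size, s12_size])).2.2⟩
  obtain ⟨g, hg, r⟩ := (good_chD hk).in_of_memb (Xk k) (x := 173524275072922294944273557858535489) (by decide +kernel)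
  rw [← H54.smul_eq_of_mapsFam (Xk k) (r := 4) (x' := xQ) (by decide) (by decide +kernel) r,
    ← orbit_quartet hk]
  exact ⟨⟨g, hg⟩, rfl⟩

noncomputable def o27_S : List ℕ := [0x200880008c540128501806180004100a0000512000c52582453010080000000000000000, 0x10800080820010002008239c800100020501120804100a8450584000000000000000000]
noncomputable def o27_d : H54.Tr := (.leaf 0x4000000000000000000000000000000000000000000000000000000000000000000000001000000000002000001)
noncomputable def o27_h : ℕ → ℕ := H54.phash 19 1073741839 41 o27_d
noncomputable def o27_ws : List ℕ := [0x40009e633f7bf]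
theorem o27_chk : H54.orbCheck c24.net (fun a => o27_h (H54.famKey c24 4 2305843009213693951 a)) (fun _ => 0) o27_S 64 o27_ws 0x201000a04800001000000000111044 27 0 = true := by decide +kernel

noncomputable def s27_2 : H54.Chain := .nil
noncomputable def s27_t1 : H54.Tr :=
 (.node 13 (.leaf 0x1000400844000020010808000001002000200000000000203040000000d000100000016)
 (.leaf 0x16000000000016))
noncomputable def s27_1 : H54.Chain := .cons 22 0x402000 s27_t1
  [0xbb674ab064796d24292b31dd088820]
  [] s27_2
noncomputable def s27_t0 : H54.Tr :=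
 (.node 17 (.node 3 (.node 0 (.leaf 0x2210c00000804012002980008070410082000000480c1208042011208000000020000000c)
 (.leaf 0x100000088040120001002084100100a0000000480c1208003011288000300020100000c))
 (.node 12 (.leaf 0x2200080008440200852808020480410082050002080c4200200110400000c000100000017)
 (.leaf 0x22008000088040100029800000204000a2000000400802000420002000011000401000013)))
 (.node 19 (.node 18 (.leaf 0x200c04098c602028129044384c040048201201880045000806008e400012000301000003)
 (.leaf 0x200084288c0401205298c2288d040042205011a000c12108423016400013000300000000))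
 (.node 21 (.leaf 0xc00088c240002501846b0840400482050100000002188452588280015000300000003)
 (.node 23 (.leaf 0x17000000000017)
 (.leaf 0x2010880208420012842000409c404104a0000002480c1000a030084000019000000000000)))))
noncomputable def s27_0 : H54.Chain := .cons 23 0xae1009 s27_t0
  [0x61a28b8e417b960b28e9a34a2a9213, 0x62ee8882a2794c34a8f66d1c191213]
  [[12, 25, 17, 3]] s27_1
noncomputable def s27 : H54.Chain := s27_0

theorem s27_low0 : H54.checkLow c24 s27_0 = true := by decide +kernel
theorem s27_low : H54.checkLow c24 s27 = true := s27_low0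
theorem s27_size : s27.size c24.n = 16 := by decide +kernel

theorem orb27 {k : Equiv.Perm GolayPt} (hk : k ∈ M24) :
    H54.famObj c24 (ptk k) 4 166478067631417142420144839707398212 ∈ quartets (setk k dod1) ∧
    (MulAction.orbit ↥(MulAction.stabilizer M24 (setk k dod1) ⊓
      MulAction.stabilizer M24 (H54.famObj c24 (ptk k) 4 xQ))
      (H54.famObj c24 (ptk k) 4 166478067631417142420144839707398212)).ncard = 27 := by
  refine ⟨?_, ((good_chQ hk).stabilizer_fam (Xk k) (by decide) (by decide +kernel)
    (by decide +kernel) s27_low (H54.le_orbit_fam (Xk k) ((good_chQ hk).all_in_net (Xk k)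
    (by decide +kernel)) (by decide) (by decide +kernel) o27_chk) (by rw [chQ_size, s27_size])).2.2⟩
  obtain ⟨g, hg, r⟩ := (good_chD hk).in_of_memb (Xk k) (x := 516281846228912530628500850498635364) (by decide +kernel)
  rw [← H54.smul_eq_of_mapsFam (Xk k) (r := 4) (x' := xQ) (by decide) (by decide +kernel) r,
    ← orbit_quartet hk]
  exact ⟨⟨g, hg⟩, rfl⟩

noncomputable def o72_S : List ℕ := [0x200880008c540128501806180004100a0000512000c52582453010080000000000000000, 0x10800080820010002008239c800100020501120804100a8450584000000000000000000]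
noncomputable def o72_d : H54.Tr := (.leaf 0x600000100000300000400000000000300000100000100000100000000000000000400000000000000000000000000000000000100000000000000000000000000000000000000000000000000000200000000000300000000000600000300000000000100000100000000000000000000000b000004000002000000000000000003000003000000000003)
noncomputable def o72_h : ℕ → ℕ := H54.phash 47 1073741857 101 o72_d
noncomputable def o72_ws : List ℕ := [0x40a20002c91b3d965ffcafd6f7ff7ff]
theorem o72_chk : H54.orbCheck c24.net (fun a => o72_h (H54.famKey c24 4 2305843009213693951 a)) (fun _ => 0) o72_S 64 o72_ws 0x100804202800001000000000221022 72 0 = true := by decide +kernel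

noncomputable def s72_2 : H54.Chain := .nil
noncomputable def s72_t1 : H54.Tr :=
 (.node 3 (.leaf 0x2000000098804012840100680020410400050500000412108030112880003000100000017)
 (.leaf 0x17000000000017))
noncomputable def s72_1 : H54.Chain := .cons 23 0x800008 s72_t1
  [0x1d8949c830594ec7a909699d5b8222]
  [] s72_2
noncomputable def s72_t0 : H54.Tr :=
 (.node 13 (.node 7 (.leaf 0x2210004200044000040488001c00410402000100c80c0008a051000e8000700020100000d)
 (.leaf 0x210800008814000040804020c00000000010012480800008002406c0000d000100000016))
 (.node 22 (.leaf 0x16000000000016)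
 (.node 24 (.leaf 0x210800008814000040804020c00000000010012480800008002406c00018000000000000)
 (.leaf 0x2010004208070010a10d846010904000a200210a800040180430496480019000000000000))))
noncomputable def s72_0 : H54.Chain := .cons 22 0x402080 s72_t0
  [0xbb64b1d5827aad1a38c83a4a49c020, 0x9b48b1d422a14f17b906b2552b8190]
  [[25, 24, 13, 7]] s72_1
noncomputable def s72 : H54.Chain := s72_0

theorem s72_low0 : H54.checkLow c24 s72_0 = true := by decide +kernel
theorem s72_low : H54.checkLow c24 s72 = true := s72_low0
theorem s72_size : s72.size c24.n = 6 := by decide +kernel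

theorem orb72 {k : Equiv.Perm GolayPt} (hk : k ∈ M24) :
    H54.famObj c24 (ptk k) 4 83239335877913860697778764243931170 ∈ quartets (setk k dod1) ∧
    (MulAction.orbit ↥(MulAction.stabilizer M24 (setk k dod1) ⊓
      MulAction.stabilizer M24 (H54.famObj c24 (ptk k) 4 xQ))
      (H54.famObj c24 (ptk k) 4 83239335877913860697778764243931170)).ncard = 72 := by
  refine ⟨?_, ((good_chQ hk).stabilizer_fam (Xk k) (by decide) (by decide +kernel)
    (by decide +kernel) s72_low (H54.le_orbit_fam (Xk k) ((good_chQ hk).all_in_net (Xk k)
    (by decide +kernel)) (by decide) (by decide +kernel) o72_chk) (by rw [chQ_size, s72_size])).2.2⟩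
  obtain ⟨g, hg, r⟩ := (good_chD hk).in_of_memb (Xk k) (x := 67598128256553052902849041329577361) (by decide +kernel)
  rw [← H54.smul_eq_of_mapsFam (Xk k) (r := 4) (x' := xQ) (by decide) (by decide +kernel) r,
    ← orbit_quartet hk]
  exact ⟨⟨g, hg⟩, rfl⟩

noncomputable def o108_S : List ℕ := [0x200880008c540128501806180004100a0000512000c52582453010080000000000000000, 0x10800080820010002008239c800100020501120804100a8450584000000000000000000]
noncomputable def o108_d : H54.Tr := (.leaf 0x1000000000000000000000004000000000001000000000003000000000000000001000001000001000004000000000002000001000001000000000012000004000000000003000000000003000000000000000000000000000000000000000000000003000002000005000000000004000003000000000003000000000000000002000000000000000003000000000002000011000005000000000000000001000000000000000000000000000000)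
noncomputable def o108_h : ℕ → ℕ := H54.phash 59 1073741857 149 o108_d
noncomputable def o108_ws : List ℕ := [0x1c179bf2e7ae27ab43ff7ef3ff7df7ff, 0x104004623840988e001]
theorem o108_chk : H54.orbCheck c24.net (fun a => o108_h (H54.famKey c24 4 2305843009213693951 a)) (fun _ => 0) o108_S 64 o108_ws 0x101004082100004000000000410504 108 0 = true := by decide +kernel

noncomputable def s108_2 : H54.Chain := .nil
noncomputable def s108_t1 : H54.Tr :=
 (.node 20 (.leaf 0x840808042008101080080000100800524004808501a0021000080014000100000016)
 (.leaf 0x16000000000016))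
noncomputable def s108_1 : H54.Chain := .cons 22 0x500000 s108_t1
  [0xbd096648505b9137a8ed498b51c401]
  [] s108_2
noncomputable def s108_t0 : H54.Tr :=
 (.node 18 (.leaf 0x2210c0400880021001000821102041008201201048004200000110a200012000100000017)
 (.node 23 (.leaf 0x17000000000017)
 (.leaf 0x2000004208004012a12800038c00410000002500000c0218241001cc80019000000000000)))
noncomputable def s108_0 : H54.Chain := .cons 23 0x840000 s108_t0
  [0x91c0965e307a9135ba8db18a118895, 0x924279dc505a9ac7bac8a18a01c6a4]
  [[23, 25, 18, 23]] s108_1
noncomputable def s108 : H54.Chain := s108_0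

theorem s108_low0 : H54.checkLow c24 s108_0 = true := by decide +kernel
theorem s108_low : H54.checkLow c24 s108 = true := s108_low0
theorem s108_size : s108.size c24.n = 4 := by decide +kernel

theorem orb108 {k : Equiv.Perm GolayPt} (hk : k ∈ M24) :
    H54.famObj c24 (ptk k) 4 83401587718640361070350802459100420 ∈ quartets (setk k dod1) ∧
    (MulAction.orbit ↥(MulAction.stabilizer M24 (setk k dod1) ⊓
      MulAction.stabilizer M24 (H54.famObj c24 (ptk k) 4 xQ))
      (H54.famObj c24 (ptk k) 4 83401587718640361070350802459100420)).ncard = 108 := by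
  refine ⟨?_, ((good_chQ hk).stabilizer_fam (Xk k) (by decide) (by decide +kernel)
    (by decide +kernel) s108_low (H54.le_orbit_fam (Xk k) ((good_chQ hk).all_in_net (Xk k)
    (by decide +kernel)) (by decide) (by decide +kernel) o108_chk) (by rw [chQ_size, s108_size])).2.2⟩
  obtain ⟨g, hg, r⟩ := (good_chD hk).in_of_memb (Xk k) (x := 693183094852176740435602566428084770) (by decide +kernel)
  rw [← H54.smul_eq_of_mapsFam (Xk k) (r := 4) (x' := xQ) (by decide) (by decide +kernel) r,
    ← orbit_quartet hk]
  exact ⟨⟨g, hg⟩, rfl⟩

theorem disj {G X : Type*} [Group G] [MulAction G X] {a b : X}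
    (h : (MulAction.orbit G a).ncard ≠ (MulAction.orbit G b).ncard) :
    Disjoint (MulAction.orbit G a) (MulAction.orbit G b) := by
  rw [Set.disjoint_left]
  intro x ha hb
  exact h (by rw [← MulAction.orbit_eq_iff.2 ha, MulAction.orbit_eq_iff.2 hb])


/-- A quartet stabiliser has five orbits on the quartets of its dodecad, of sizes 1, 12, 27, 72, 108. -/
theorem result (d : Finset Cfsg.GolayPt) (hd : d ∈ Cfsg.dodecads) (Q : Finset (Finset Cfsg.GolayPt)) (hQ : Q ∈ Cfsg.quartets d) : ∃ X₁ ∈ Cfsg.quartets d, ∃ X₂ ∈ Cfsg.quartets d, ∃ X₃ ∈ Cfsg.quartets d, ∃ X₄ ∈ Cfsg.quartets d, (MulAction.orbit ↥(MulAction.stabilizer Cfsg.M24 d ⊓ MulAction.stabilizer Cfsg.M24 Q) X₁).ncard = 12 ∧ (MulAction.orbit ↥(MulAction.stabilizer Cfsg.M24 d ⊓ MulAction.stabilizer Cfsg.M24 Q) X₂).ncard = 27 ∧ (MulAction.orbit ↥(MulAction.stabilizer Cfsg.M24 d ⊓ MulAction.stabilizer Cfsg.M24 Q) X₃).ncard = 72 ∧ (MulAction.orbit ↥(MulAction.stabilizer Cfsg.M24 d ⊓ MulAction.stabilizer Cfsg.M24 Q) X₄).ncard = 108 ∧ Cfsg.quartets d = {Q} ∪ MulAction.orbit ↥(MulAction.stabilizer Cfsg.M24 d ⊓ MulAction.stabilizer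 Cfsg.M24 Q) X₁ ∪ MulAction.orbit ↥(MulAction.stabilizer Cfsg.M24 d ⊓ MulAction.stabilizer Cfsg.M24 Q) X₂ ∪ MulAction.orbit ↥(MulAction.stabilizer Cfsg.M24 d ⊓ MulAction.stabilizer Cfsg.M24 Q) X₃ ∪ MulAction.orbit ↥(MulAction.stabilizer Cfsg.M24 d ⊓ MulAction.stabilizer Cfsg.M24 Q) X₄ := by
  obtain ⟨k, hk, rfl, rfl⟩ := flag_quartet hd hQ
  obtain ⟨m1, c1⟩ := orb12 hk
  obtain ⟨m2, c2⟩ := orb27 hk
  obtain ⟨m3, c3⟩ := orb72 hk
  obtain ⟨m4, c4⟩ := orb108 hk
  refine ⟨_, m1, _, m2, _, m3, _, m4, c1, c2, c3, c4, ?_⟩
  have e0 : ({H54.famObj c24 (ptk k) 4 xQ} : Set (Finset (Finset GolayPt))) =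
      MulAction.orbit ↥(MulAction.stabilizer M24 (setk k dod1) ⊓
      MulAction.stabilizer M24 (H54.famObj c24 (ptk k) 4 xQ)) (H54.famObj c24 (ptk k) 4 xQ) := by
    ext Y
    exact ⟨fun h => h ▸ MulAction.mem_orbit_self _, fun ⟨g, e⟩ => e ▸ g.2.2⟩
  have c0 := congrArg Set.ncard e0
  rw [Set.ncard_singleton] at c0
  rw [e0]
  symm
  apply Set.eq_of_subset_of_ncard_le _ _ (Set.toFinite _)
  · simp only [Set.union_subset_iff]
    exact ⟨⟨⟨⟨orbit_subset_quartets inf_le_left hQ, orbit_subset_quartets inf_le_left m1⟩,
      orbit_subset_quartets inf_le_left m2⟩, orbit_subset_quartets inf_le_left m3⟩,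
      orbit_subset_quartets inf_le_left m4⟩
  · rw [H55.Golay.ncard_quartets hd, Set.ncard_union_eq, Set.ncard_union_eq, Set.ncard_union_eq,
      Set.ncard_union_eq, ← c0, c1, c2, c3, c4]
    all_goals
      try simp only [Set.disjoint_union_left]
      repeat' apply And.intro
    all_goals
      apply disj
      omega

end Cfsg.Agent.S1599
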