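import Cfsg.Statements.S1600
import Cfsg.Agent.Lib.Spor55.Quartet2

set_option autoImplicit false
open scoped Pointwise
open Cfsg

namespace Cfsg.Agent.S1600

set_option maxRecDepth 100000
open H15 H55.Br

noncomputable def ch_3 : H54.Chain := .nil
noncomputable def ch_t2 : H54.Tr :=
 (.node 4 (.leaf 0x2000840004100000100880380000104800424028800100a004140c000004000100000015)
 (.leaf 0x15000000000015))
noncomputable def ch_2 : H54.Chain := .cons 21 0x200010 ch_t2
  [0xbd8948ca636a9e2438eb498b583020]
  [] ch_3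
noncomputable def ch_t1 : H54.Tr :=
 (.node 15 (.node 13 (.leaf 0x10804000860010a0090c08000001000200210088000002a03241000000d000100000016)
 (.leaf 0x84008020200a5200441000040000205201000044042a40248800000f000101000016))
 (.node 22 (.leaf 0x16000000000016)
 (.node 24 (.leaf 0x10804000860010a0090c08000001000200210088000002a032410000018000000000000)
 (.leaf 0x84008020200a5200441000040000205201000044042a402488000019000000000000))))
noncomputable def ch_1 : H54.Chain := .cons 22 0x40a000 ch_t1
  [0xbb48b65473b39f0428f4324b214420, 0xbbea811211b29a35b93431cb264c20]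
  [[25, 24, 15, 24, 15, 13, 13]] ch_2
noncomputable def ch_t0 : H54.Tr :=
 (.node 11 (.node 7 (.node 5 (.leaf 0x5000000000005)
 (.node 6 (.leaf 0x210800098820202a5048c49840041040001201080044208a05249e800006000401000014)
 (.leaf 0x2108802888440002104804b80004000a2012402c00c1008005049c000007000201000008)))
 (.node 9 (.node 8 (.leaf 0x200804218c64200812c0021980000000001200a480850082402408200008000100000005)
 (.leaf 0x210000210830212a0298449840040042201050200044258a45348a80000900020000000d))
 (.node 10 (.leaf 0x2010080000800000802880200c00410000040000480400000440502c0000a000200000008)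
 (.leaf 0x210c000108040002421086100000004a0040500000c4042a41341000000b000301000009))))
 (.node 15 (.node 13 (.leaf 0x847000085050c2a800000008001000200045008a07208000000d000101000005)
 (.node 14 (.leaf 0x1040421004020001088c0314000100820105080000104a006048c20000e00040100000f)
 (.leaf 0x2010c04000c742108405042a040041008205040208084208041351280000f00030100000a)))
 (.node 22 (.node 20 (.leaf 0x2210880208064202212804219800400080040000000c50522402508a0001400030000000a)
 (.leaf 0x2210000200c3401285048408800041048005001a000c4218a071090000016000300000009))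
 (.node 24 (.leaf 0x200804218c64200812c0021980000000001200a480850082402408200018000000000000)
 (.leaf 0x847000085050c2a800000008001000200045008a072080000019000000000000)))))
noncomputable def ch_0 : H54.Chain := .cons 5 0x50efe0 ch_t0
  [0xb9e658919032d35752ca6bd0314820, 0xbaaa688c53758b24bd67a21ac24020]
  [[22, 25, 11, 25, 7], [14, 24, 22, 24, 25, 10, 20, 25, 9]] ch_1
noncomputable def ch : H54.Chain := ch_0

theorem ch_low0 : H54.checkLow c24 ch_0 = true := by decide +kernel
theorem ch_low : H54.checkLow c24 ch = true := ch_low0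
theorem ch_size : ch.size c24.n = 72 := by decide +kernel


/-- The pointwise stabiliser of three points of a dodecad inside the dodecad stabiliser (order 72) is transitive on the complementary dodecad. -/
theorem result (d : Finset Cfsg.GolayPt) (hd : d ∈ Cfsg.dodecads) (p q r : Cfsg.GolayPt) (hp : p ∈ d) (hq : q ∈ d) (hr : r ∈ d) (hpq : p ≠ q) (hpr : p ≠ r) (hqr : q ≠ r) : Nat.card ↥(MulAction.stabilizer Cfsg.M24 d ⊓ MulAction.stabilizer Cfsg.M24 p ⊓ MulAction.stabilizer Cfsg.M24 q ⊓ MulAction.stabilizer Cfsg.M24 r) = 72 ∧ ∀ x ∉ d, ∀ y ∉ d, ∃ g ∈ (MulAction.stabilizer Cfsg.M24 d ⊓ MulAction.stabilizer Cfsg.M24 p ⊓ MulAction.stabilizer Cfsg.M24 q ⊓ MulAction.stabilizer Cfsg.M24 r), ((g : ↥Cfsg.M24) : Equiv.Perm Cfsg.GolayPt) x = y := by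
  have hc : Nat.card ↥(MulAction.stabilizer M24 d ⊓ MulAction.stabilizer M24 p ⊓
      MulAction.stabilizer M24 q ⊓ MulAction.stabilizer M24 r) = 72 := by
    have h1 := card_eq_of_orbit (MulAction.stabilizer M24 d ⊓ MulAction.stabilizer M24 p) q
      ((d.erase p : Finset GolayPt) : Set GolayPt)
      (fun g hg => Finset.mem_coe.2 (Finset.mem_erase.2
        ⟨ne_of_fix (g := g.1) hg.2 hpq.symm, (apply_mem_of_smul_eq (g := g.1) hg.1).2 hq⟩))
      (fun y hy => by
        obtain ⟨hy1, hy2⟩ := Finset.mem_erase.1 hy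
        obtain ⟨g, hg, e1, e2, e3⟩ := M24_trans_dodecad_pt2 hd hd hp hq hp hy2 hpq hy1.symm
        exact ⟨⟨g, hg⟩, ⟨e1, e2⟩, e3⟩)
    have h2 := card_eq_of_orbit (MulAction.stabilizer M24 d ⊓ MulAction.stabilizer M24 p ⊓
      MulAction.stabilizer M24 q) r (((d.erase p).erase q : Finset GolayPt) : Set GolayPt)
      (fun g hg => Finset.mem_coe.2 (Finset.mem_erase.2 ⟨ne_of_fix (g := g.1) hg.2 hqr.symm,
        Finset.mem_erase.2
        ⟨ne_of_fix (g := g.1) hg.1.2 hpr.symm, (apply_mem_of_smul_eq (g := g.1) hg.1.1).2 hr⟩⟩))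
      (fun y hy => by
        obtain ⟨hy0, hy⟩ := Finset.mem_erase.1 hy
        obtain ⟨hy1, hy2⟩ := Finset.mem_erase.1 hy
        obtain ⟨g, hg, e1, e2, e3, e4⟩ := M24_trans_dodecad_pt3 hd hd hp hq hr hp hq hy2 hpq hpr hqr
          hpq hy1.symm hy0.symm
        exact ⟨⟨g, hg⟩, ⟨⟨e1, e2⟩, e3⟩, e4⟩)
    rw [Set.ncard_coe_finset, Finset.card_erase_of_mem hp, card_Kdp hd hp, hd.2] at h1
    rw [Set.ncard_coe_finset, Finset.card_erase_of_mem (Finset.mem_erase.2 ⟨hpq.symm, hq⟩),
      Finset.card_erase_of_mem hp, hd.2] at h2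
    omega
  refine ⟨hc, ?_⟩
  obtain ⟨k, hk, e, e1, e2, e3⟩ := M24_trans_dodecad_pt3 hd dod1_mem hp hq hr (base5_mem_dod1 0)
    (base5_mem_dod1 1) (base5_mem_dod1 2) hpq hpr hqr (by decide) (by decide) (by decide)
  obtain rfl := eq_setk e
  obtain rfl : p = ptk k 23 := eq_ptk e1
  obtain rfl : q = ptk k 0 := eq_ptk e2
  obtain rfl : r = ptk k 1 := eq_ptk e3
  have h : ∀ s ∈ ch.gens, inM24 s = true ∧ imgM s dod1 = dod1 ∧ ap s 23 = 23 ∧ ap s 0 = 0 ∧
      ap s 1 = 1 := by decide +kernel
  have G := (good_of_all hk (fun s hs => ⟨(h s hs).1, (((all_set (h s hs).2.1).inf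
    (all_pt (by norm_num) (h s hs).2.2.1)).inf (all_pt (by norm_num) (h s hs).2.2.2.1)).inf
    (all_pt (by norm_num) (h s hs).2.2.2.2)⟩) ch_low (by rw [hc, ch_size])).1
  have hm : ∀ x, x ∉ setk k dod1 → x ∈ setk k 5304288 := by
    intro x hx
    obtain ⟨i, hi, rfl⟩ := ptk_surj k x
    rw [ptk_mem_setk hi] at hx ⊢
    revert i; decide +kernel
  exact fun x hx y hy => trans_of_good G (by decide +kernel) (by decide) x (hm x hx) y (hm y hy)

end Cfsg.Agent.S1600
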