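import Cfsg.Statements.S1602
import Cfsg.Agent.Lib.Spor55.Quartet2

set_option autoImplicit false
open scoped Pointwise
open Cfsg

namespace Cfsg.Agent.S1602

set_option maxRecDepth 100000
open H15 H55.Br

noncomputable def cs_3 : H54.Chain := .nil
noncomputable def cs_t2 : H54.Tr :=
 (.node 15 (.leaf 0x98440002250100001c000000800104180004104a8030000e8000f000100000014)
 (.leaf 0x14000000000014))
noncomputable def cs_2 : H54.Chain := .cons 20 0x108000 cs_t2
  [0xbdaaf8b261a1db252d09718a018a04]
  [] cs_3
noncomputable def cs_t1 : H54.Tr :=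
 (.node 3 (.node 0 (.leaf 0xc0401844001000008c2a04a00100820124188000100a0051510400000000400000003)
 (.node 1 (.leaf 0x2104800088040100029080984604004a2040000400802082430110c00001000100000015)
 (.leaf 0x2200080280444010200488201400410400050500000c02482041000a80003000301000010)))
 (.node 16 (.node 4 (.leaf 0x2000840004100000100880380000104800424028800100a004140c000004000101000015)
 (.leaf 0x10004080470002a52888228c3001000001200ac804024a203200a600010000200000004))
 (.node 21 (.leaf 0x15000000000015)
 (.leaf 0x2000840004100000100880380000104800424028800100a004140c000019000000000000))))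
noncomputable def cs_1 : H54.Chain := .cons 21 0x21001b cs_t1
  [0xbd82d98a247ae8c72927414d004aa3, 0xbd8948ca636a9e2438eb498b583020]
  [[25, 3, 25, 3, 4]] cs_2
noncomputable def cs_t0 : H54.Tr :=
 (.node 13 (.node 9 (.node 7 (.leaf 0x200084280044210250488630420010080012018000c40582040408800007000101000016)
 (.node 8 (.leaf 0x2004000000342102001080b90a041008000040a880c0240803048660000800040000000f)
 (.leaf 0x2104842888040108121082880e00104a2052100080802008431110e0000900030000000a)))
 (.node 10 (.leaf 0x220000020845001000008c21142041040000051a88005000005250a80000a000200000007)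
 (.node 11 (.leaf 0x9844401081000800102041000201001880081208000258080000b000201000014)
 (.leaf 0x2200800218050000a02c8401882041042200041a4800121aa06249680000d000500000008))))
 (.node 20 (.node 14 (.leaf 0x2200084010004012a40100638c20400420050410000c0042003300008000e000201000007)
 (.node 15 (.leaf 0x210484018404202a401000a94604004a2042500000c00502410180c0000f00030000000b)
 (.leaf 0x200000200810002200c886b10004004000004124004000a2050496200014000100000016)))
 (.node 22 (.leaf 0x16000000000016)
 (.node 24 (.leaf 0x200000200810002200c886b10004004000004124004000a2050496200018000000000000)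
 (.leaf 0x200084280044210250488630420010080012018000c40582040408800019000000000000)))))
noncomputable def cs_0 : H54.Chain := .cons 22 0x50ef80 cs_t0
  [0xbd2166484441d717a5cd514c3acc20, 0xb9c0b132644d9b253d14714d584461]
  [[24, 8, 14, 11], [9, 25, 7, 22, 8, 8, 20]] cs_1
noncomputable def cs : H54.Chain := cs_0

theorem cs_low0 : H54.checkLow c24 cs_0 = true := by decide +kernel
theorem cs_low : H54.checkLow c24 cs = true := cs_low0
theorem cs_size : cs.size c24.n = 120 := by decide +kernel

noncomputable def c5 : H54.Cfg := ⟨5, 5, 3, 7, 18056,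
  4681,
  14043,
  18724,
  (.cons 64 65 3
    (.cons 65 520 3
    (.cons 66 65 3
    (.cons 79 520 3
    (.cons 80 65 3
    .nil)))))⟩
theorem c5_check : c5.check = true := by decide +kernel

noncomputable def c2 : H54.Cfg := ⟨29, 32, 5, 31, 0xffbbcdeb38bdab49ca307b9ac5a928398a418820,
  0x842108421084210842108421084210842108421,
  0x7bdef7bdef7bdef7bdef7bdef7bdef7bdef7bdef,
  0x8421084210842108421084210842108421084210,
  (.cons 64 0x8421084210842108421 80
    (.cons 65 0x84210842100000000000842108421 40
    (.cons 66 0x8421000000842100000084210000008421 20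
    (.cons 67 0x2100021000210002100021000210002100021 10
    (.cons 68 0x40100401004010040100401004010040100401 5
    (.cons 224 0x2100021000210002100021000210002100021 10
    (.cons 225 0x8421000000842100000084210000008421 20
    (.cons 226 0x84210842100000000000842108421 40
    (.cons 227 0x8421084210842108421 80
    .nil)))))))))⟩
theorem c2_check : c2.check = true := by decide +kernel

noncomputable def ch_3 : H54.Chain := .nil
noncomputable def ch_t2 : H54.Tr :=
 (.node 15 (.leaf 0x2000000000050080040008421492000040122001100401000002010100c011084a11000008020000f000100000014)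
 (.leaf 0x14000000000014))
noncomputable def ch_2 : H54.Chain := .cons 20 0x108000 ch_t2
  [0xffbb9de39abdaaf8b261a1db252d09718a018a04]
  [] ch_3
noncomputable def ch_t1 : H54.Tr :=
 (.node 3 (.node 0 (.leaf 0x1200800000040120108632010142946000000400010150001100c0200019010022098b00000000400000003)
 (.node 1 (.leaf 0x200000200000100202210c0206000000040000410000000040102011010423001100001000100000015)
 (.leaf 0x200000100005008604000800021021000006800110000000000205180080010000000430000800003000301000010)))
 (.node 16 (.node 4 (.leaf 0x6000000000200000000822201a54092000010001900000000110001102009010062090200004000101000015)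
 (.leaf 0x20000010000530840401084016140020129680001000110000020115008031011b1080102d1800010000200000004))
 (.node 21 (.leaf 0x15000000000015)
 (.leaf 0x6000000000200000000822201a5409200001000190000000011000110200901006209020001e000000000000))))
noncomputable def ch_1 : H54.Chain := .cons 21 0x21001b ch_t1
  [0xffbbcd6f38bd82d98a247ae8c72927414d004aa3, 0xffbb9c6b9bbd8948ca636a9e2438eb498b583020]
  [[30, 3, 30, 3, 4]] ch_2
noncomputable def ch_t0 : H54.Tr :=
 (.node 13 (.node 9 (.node 7 (.leaf 0x1004100024000230000810802021014284000110200800410000010040000911004d23240100007000101000016)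
 (.node 8 (.leaf 0x110821010a42180202128401224000c031e30400025100048403081000531004110801318990000800040000000f)
 (.leaf 0x2110802000200000000000108022312d5094800110210000410000010041000410000533294b0000900030000000a)))
 (.node 10 (.leaf 0x20100030000120846000080006921109400400011020010000121088000001004001482108010000a000200000007)
 (.node 11 (.leaf 0x3000a1208e2001084010b20028000200001004000041021484000021084200011100010000b000201000014)
 (.leaf 0x4020005210c340101029094000d0206000010241001405020950080210c011080100d010000d000500000008))))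
 (.node 20 (.node 14 (.leaf 0x11086001004000004202852148401201094a0001001190040020011008411284a10c03029000000e000201000007)
 (.node 15 (.leaf 0x1108632100400040420295094840020001200401020190040020410008411294010c1000c010000f00030000000b)
 (.leaf 0x10022000201084740028500422202112000000000001004012210d00c0110410114021204000014000100000016)))
 (.node 22 (.leaf 0x16000000000016)
 (.node 29 (.leaf 0x10022000201084740028500422202112000000000001004012210d00c011041011402120400001d000000000000)
 (.leaf 0x1004100024000230000810802021014284000110200800410000010040000911004d2324010001e000000000000)))))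
noncomputable def ch_0 : H54.Chain := .cons 22 0x50ef80 ch_t0
  [0xffbb8e6b79bd2166484441d717a5cd514c3acc20, 0xffbbbce39ab9c0b132644d9b253d14714d584461]
  [[29, 8, 14, 11], [9, 30, 7, 22, 8, 8, 20]] ch_1
noncomputable def ch : H54.Chain := ch_0

theorem ch_low0 : H54.checkLow c2 ch_0 = true := by decide +kernel
theorem ch_low : H54.checkLow c2 ch = true := ch_low0
theorem ch_up0 : H54.checkUp c2 ch_0 = true := by decide +kernel
theorem ch_up : H54.checkUp c2 ch = true := ch_up0
theorem ch_size : ch.size c2.n = 120 := by decide +kernel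

noncomputable def ch1_4 : H54.Chain := .nil
noncomputable def ch1_t3 : H54.Tr :=
 (.node 0 (.leaf 0x10000000100000001)
 (.leaf 0x1000000000001))
noncomputable def ch1_3 : H54.Chain := .cons 1 3 ch1_t3
  [18049]
  [] ch1_4
noncomputable def ch1_t2 : H54.Tr :=
 (.node 1 (.node 0 (.leaf 0x1550000000100000003)
 (.leaf 0x1540001000101000003))
 (.node 3 (.leaf 0x3000000000003)
 (.node 5 (.leaf 0x1550005000000000000)
 (.leaf 0x1540006000000000000))))
noncomputable def ch1_2 : H54.Chain := .cons 3 11 ch1_t2
  [16523, 17027]
  [[5, 6, 6]] ch1_3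
noncomputable def ch1_t1 : H54.Tr :=
 (.node 2 (.node 0 (.leaf 0x401140000000200000003)
 (.node 1 (.leaf 0x401150001000201000003)
 (.leaf 0x2000000000002)))
 (.node 3 (.leaf 0x1110003000100000002)
 (.node 5 (.leaf 0x1110005000000000000)
 (.leaf 0x1100006000000000000))))
noncomputable def ch1_1 : H54.Chain := .cons 2 15 ch1_t1
  [16593, 17104]
  [[1, 5, 6, 5, 0, 6, 5, 1], [6, 6, 2, 6, 5, 2, 2, 1]] ch1_2
noncomputable def ch1_t0 : H54.Tr :=
 (.node 2 (.node 0 (.leaf 0x10001510000000100000004)
 (.node 1 (.leaf 0x14405540001000200000000)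
 (.leaf 0x505410002000201000000)))
 (.node 4 (.node 3 (.leaf 0x405140003000101000004)
 (.leaf 0x4000000000004))
 (.node 5 (.leaf 0x10001510005000000000000)
 (.leaf 0x405140006000000000000))))
noncomputable def ch1_0 : H54.Chain := .cons 4 31 ch1_t0
  [2201, 12834]
  [[2, 5, 0, 0, 2, 3, 5, 1], [1, 6, 5, 1]] ch1_1
noncomputable def ch1 : H54.Chain := ch1_0

theorem ch1_low0 : H54.checkLow c5 ch1_0 = true := by decide +kernel
theorem ch1_low : H54.checkLow c5 ch1 = true := ch1_low0
theorem ch1_size : ch1.size c5.n = 120 := by decide +kernel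


/-- In the 12-point action of the smallest Mathieu group the setwise stabiliser of a pair is isomorphic to the symmetric group of degree 5. -/
theorem result (d : Finset Cfsg.GolayPt) (hd : d ∈ Cfsg.dodecads) (p q q' : Cfsg.GolayPt) (hp : p ∈ d) (hq : q ∉ d) (hq' : q' ∉ d) (hqq' : q ≠ q') : Nonempty (↥(MulAction.stabilizer Cfsg.M24 d ⊓ MulAction.stabilizer Cfsg.M24 p ⊓ MulAction.stabilizer Cfsg.M24 ({q, q'} : Finset Cfsg.GolayPt)) ≃* Equiv.Perm (Fin 5)) := by
  have hc : Nat.card ↥(MulAction.stabilizer M24 d ⊓ MulAction.stabilizer M24 p ⊓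
      MulAction.stabilizer M24 ({q, q'} : Finset GolayPt)) = 120 := by
    have h1 := card_eq_of_orbit (MulAction.stabilizer M24 d ⊓ MulAction.stabilizer M24 p)
      ({q, q'} : Finset GolayPt) {t : Finset GolayPt | t ⊆ dᶜ ∧ t.card = 2}
      (fun g hg => by
        refine ⟨?_, by rw [coe_smul_finset, card_smul, Finset.card_pair hqq']⟩
        have : (g : Equiv.Perm GolayPt) • dᶜ = dᶜ := by
          rw [smul_compl]; exact congrArg _ hg.1
        rw [← this, coe_smul_finset, smul_subset_smul_iff]
        simp [Finset.insert_subset_iff, hq, hq'])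
      (fun t ht => by
        obtain ⟨a, b, hab, rfl⟩ := Finset.card_eq_two.1 ht.2
        have ht1 := ht.1
        simp only [Finset.insert_subset_iff, Finset.singleton_subset_iff, Finset.mem_compl] at ht1
        obtain ⟨k, hk, rfl, rfl, rfl, rfl⟩ := flag_dpq hd hp hq hq' hqq'
        obtain ⟨k', hk', e1, e2, rfl, rfl⟩ := flag_dpq hd hp ht1.1 ht1.2 hab
        refine ⟨⟨k'⁻¹ * k, M24.mul_mem (M24.inv_mem hk') hk⟩, ⟨?_, ?_⟩, ?_⟩
        · show (k'⁻¹ * k) • setk k dod1 = _
          rw [mul_smul, smul_setk, e1]; rfl
        · show (k'⁻¹ * k) (ptk k 23) = _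
          rw [Equiv.Perm.mul_apply, apply_ptk, e2]; rfl
        · show (k'⁻¹ * k) • ({ptk k 5, ptk k 6} : Finset GolayPt) = _
          rw [Finset.smul_finset_insert, Finset.smul_finset_singleton, mul_smul, mul_smul]
          show ({k'⁻¹ (k (ptk k 5)), k'⁻¹ (k (ptk k 6))} : Finset GolayPt) = _
          rw [apply_ptk, apply_ptk]; rfl)
    rw [H55.Golay.ncard_subsets, Finset.card_compl, card_golayPt, hd.2, card_Kdp hd hp,
      show Nat.choose (24 - 12) 2 = 66 by decide +kernel] at h1
    omega
  obtain ⟨k, hk, rfl, rfl, rfl, rfl⟩ := flag_dpq hd hp hq hq' hqq'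
  rw [← setk_pair (by norm_num) (by norm_num)] at hc ⊢
  have h : ∀ s ∈ cs.gens, inM24 s = true ∧ imgM s dod1 = dod1 ∧ ap s 23 = 23 ∧
      imgM s (Nat.lor (2 ^ 5) (2 ^ 6)) = Nat.lor (2 ^ 5) (2 ^ 6) := by decide +kernel
  have G := good_of_all hk (fun s hs => ⟨(h s hs).1, ((all_set (h s hs).2.1).inf
    (all_pt (by norm_num) (h s hs).2.2.1)).inf (all_set (h s hs).2.2.2)⟩) cs_low
    (by rw [hc, cs_size])
  have X5 := H54.ctx_fin (n := 5) c5_check rfl
  have v5 : H54.Valid (Equiv.Perm (Fin 5)) c5 (H54.finPt 5) ch1.gens :=
    H54.valid_perm X5 (by decide +kernel)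
  have c120 : Nat.card (⊤ : Subgroup (Equiv.Perm (Fin 5))) = 120 := by
    rw [Subgroup.card_top, Nat.card_perm, Nat.card_fin]; rfl
  have G5 := H54.good_of_card_le X5 (H54.Kfix_fin rfl) (H := ⊤)
    (fun s hs => (v5.in_grp hs).mono le_top) ch1_low (by rw [c120, ch1_size])
  obtain ⟨e⟩ := H54.nonempty_mulEquiv (Xk k) X5 c2_check (Kk k) (H54.Kfix_fin rfl)
    (H54.valid_of_in (G.1.all_in (Xk k) (S := cs.gens) (by decide +kernel))) v5
    (by decide +kernel) ch_low ch_up G.2 G5.2 ch_size (by norm_num) hc c120
  exact ⟨e.trans Subgroup.topEquiv⟩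

end Cfsg.Agent.S1602
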