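import Cfsg.Statements.S1606
import Cfsg.Agent.Lib.MIdx.M22

set_option autoImplicit false
open scoped Pointwise
open Cfsg

namespace Cfsg.Agent.S1606

/-- The stabiliser of two points in the group of the length-24 code has no subgroups of index 56 or 210. -/
theorem result (p q : Cfsg.GolayPt) (hpq : p ≠ q) (H : Subgroup ↥(MulAction.stabilizer Cfsg.M24 p ⊓ MulAction.stabilizer Cfsg.M24 q)) : H.index ≠ 56 ∧ H.index ≠ 210 := by
  have h1 := H.card_mul_index
  rw [H96.Geo.card_stab_inf, H15.card_stab2 hpq] at h1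
  have h2 : Nat.card ((H.map (Subgroup.subtype _)).map Cfsg.M24.subtype) = Nat.card H := by
    rw [Subgroup.card_map_of_injective Cfsg.M24.subtype_injective,
      Subgroup.card_map_of_injective (Subgroup.subtype_injective _)]
  have h3 : (H.map (Subgroup.subtype _)).map Cfsg.M24.subtype ≤ Cfsg.M24 ⊓ H15.St p ⊓ H15.St q := by
    rintro _ ⟨_, ⟨g, -, rfl⟩, rfl⟩
    exact ⟨⟨g.1.2, g.2.1⟩, g.2.2⟩
  refine ⟨fun h => H16.MI.m22_56 hpq h3 (h2.trans ?_), fun h =>
    H16.MI.m22_210 (h3.trans (inf_le_left.trans inf_le_left)) (h2.trans ?_)⟩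
  · rw [h] at h1
    exact Nat.eq_of_mul_eq_mul_right (by norm_num) h1
  · rw [h] at h1
    exact Nat.eq_of_mul_eq_mul_right (by norm_num) h1

end Cfsg.Agent.S1606
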