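import Cfsg.Statements.S1609
import Cfsg.Agent.Lib.MIdx.Main

set_option autoImplicit false
open scoped Pointwise
open Cfsg

namespace Cfsg.Agent.S1609

/-- Subgroups of index 253 in the Mathieu group of degree 23 are exactly the duad stabilisers and the heptad stabilisers. -/
theorem result (x : Cfsg.GolayPt) (H : Subgroup ↥(MulAction.stabilizer Cfsg.M24 x)) (hH : H.index = 253) : (∃ s : Finset Cfsg.GolayPt, s.card = 2 ∧ x ∉ s ∧ H = (MulAction.stabilizer Cfsg.M24 s).subgroupOf (MulAction.stabilizer Cfsg.M24 x)) ∨ ∃ o ∈ Cfsg.octads, x ∈ o ∧ H = (MulAction.stabilizer Cfsg.M24 o).subgroupOf (MulAction.stabilizer Cfsg.M24 x) := by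
  have h1 := H.card_mul_index
  rw [H15.card_inf_stabilizer, H15.card_stab1, hH] at h1
  have h2 : Nat.card ((H.map (Subgroup.subtype _)).map Cfsg.M24.subtype) = Nat.card H := by
    rw [Subgroup.card_map_of_injective Cfsg.M24.subtype_injective,
      Subgroup.card_map_of_injective (Subgroup.subtype_injective _)]
  have h3 : (H.map (Subgroup.subtype _)).map Cfsg.M24.subtype ≤ Cfsg.M24 ⊓ H15.St x := by
    rintro _ ⟨_, ⟨g, -, rfl⟩, rfl⟩
    exact ⟨g.1.2, g.2⟩
  have he : ∀ L : Subgroup (Equiv.Perm GolayPt),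
      (H.map (Subgroup.subtype _)).map Cfsg.M24.subtype = Cfsg.M24 ⊓ H15.St x ⊓ L →
      ∀ g : MulAction.stabilizer Cfsg.M24 x, g ∈ H ↔ g.1.1 ∈ L := fun L e g => by
    rw [← Subgroup.mem_map_iff_mem (Subgroup.subtype_injective _),
      ← Subgroup.mem_map_iff_mem Cfsg.M24.subtype_injective, e]
    exact ⟨fun h => h.2, fun h => ⟨⟨g.1.2, g.2⟩, h⟩⟩
  rcases H16.MI.m23_253 h3 (h2.trans (Nat.eq_of_mul_eq_mul_right (by norm_num) h1)) with ⟨s, hs, hx, e⟩ | ⟨s, hs, hx, e⟩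
  · exact Or.inl ⟨s, hs, hx, Subgroup.ext (he _ e)⟩
  · exact Or.inr ⟨s, hs, hx, Subgroup.ext (he _ e)⟩

end Cfsg.Agent.S1609
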