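import Cfsg.Statements.S1611
import Cfsg.Agent.Lib.Spor55.Hexa
import Cfsg.Agent.Lib.Spor55.Monomial

set_option autoImplicit false
open Cfsg

namespace Cfsg.Agent.S1611

open H55.Hexa H55.Monomial

/-- parity checks of the model hexacode -/
def inH (x : Fin 6 → G4) : Prop :=
  x 3 = x 0 + x 1 + x 2 ∧ x 4 = mul (x 0) w2 + mul (x 1) w + x 2 ∧
    x 5 = mul (x 0) w + mul (x 1) w2 + x 2

instance instDecInH (x : Fin 6 → G4) : Decidable (inH x) := by unfold inH; infer_instance

theorem inH_mw (t : G4 × G4 × G4) : inH (mw t) := by revert t; decide +kernel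

theorem exists_of_inH (x : Fin 6 → G4) (h : inH x) : ∃ t, mw t = x := by
  have key : ∀ a b c : G4, ∃ t, mw t 0 = a ∧ mw t 1 = b ∧ mw t 2 = c := by decide +kernel
  obtain ⟨t, h0, h1, h2⟩ := key (x 0) (x 1) (x 2)
  refine ⟨t, ?_⟩
  obtain ⟨h3, h4, h5⟩ := inH_mw t
  rw [h0, h1, h2] at h3 h4 h5
  funext i
  fin_cases i
  · exact h0
  · exact h1
  · exact h2
  · exact h3.trans h.1.symm
  · exact h4.trans h.2.1.symm
  · exact h5.trans h.2.2.symm

section
variable {F : Type*} [Field F] [Fintype F] {ω : F}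

theorem mem_iff_parity (hF : Fintype.card F = 4) (hω : ω ^ 2 + ω + 1 = 0) (x : Fin 6 → F) :
    x ∈ hexacode F ω ↔ x 3 = x 0 + x 1 + x 2 ∧ x 4 = x 0 * ω ^ 2 + x 1 * ω + x 2 ∧
      x 5 = x 0 * ω + x 1 * ω ^ 2 + x 2 := by
  have h2 := two_eq_zero hF
  rw [mem_iff hF hω]
  constructor
  · rintro ⟨t, rfl⟩
    obtain ⟨h3, h4, h5⟩ := inH_mw t
    simp only [h3, h4, h5, phi_add h2, phi_mul h2 hω, phi_w, phi_w2 h2 hω, and_self]
  · intro h
    choose y hy using fun i => (phi_bijective hF hω).2 (x i)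
    obtain ⟨t, rfl⟩ := exists_of_inH y (by
      refine ⟨?_, ?_, ?_⟩ <;> apply phi_injective h2 hω <;>
        simp only [hy, phi_add h2, phi_mul h2 hω, phi_w, phi_w2 h2 hω]
      exacts [h.1, h.2.1, h.2.2])
    exact ⟨t, funext hy⟩

theorem diag (hF : Fintype.card F = 4) (hω : ω ^ 2 + ω + 1 = 0) (c : Fin 6 → Fˣ)
    (h : ∀ x ∈ hexacode F ω, monomialMap 1 c x ∈ hexacode F ω) : ∀ i j, c i = c j := by
  have h2 := two_eq_zero hF
  have hω0 : ω ≠ 0 := by rintro rfl; simp at hω
  have a := (mem_iff_parity hF hω _).1 (h ![1, 0, 0, 1, ω ^ 2, ω]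
    ((mem_iff_parity hF hω _).2 (by simp)))
  have b := (mem_iff_parity hF hω _).1 (h ![0, 1, 0, 1, ω, ω ^ 2]
    ((mem_iff_parity hF hω _).2 (by simp)))
  have d := (mem_iff_parity hF hω _).1 (h ![0, 0, 1, 1, 1, 1]
    ((mem_iff_parity hF hω _).2 (by simp)))
  have e1 : (1 : Equiv.Perm (Fin 6)).symm = 1 := rfl
  simp [mono_apply, e1, hω0] at a b d
  have key : ∀ i, c i = c 3 := by
    intro i
    apply Units.ext
    fin_cases i
    · exact a.1.symm
    · exact b.1.symm
    · exact d.1.symm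
    · rfl
    · exact d.2.1.trans d.1.symm
    · exact d.2.2.trans d.1.symm
  intro i j
  rw [key i, key j]

theorem swap_not_mem (hF : Fintype.card F = 4) (hω : ω ^ 2 + ω + 1 = 0) :
    Equiv.swap (0 : Fin 6) 1 ∉ permPart (hexacode F ω) := by
  rintro ⟨c, h⟩
  have h2 := two_eq_zero hF
  have a := (mem_iff_parity hF hω _).1 (h ![1, 0, 0, 1, ω ^ 2, ω]
    ((mem_iff_parity hF hω _).2 (by simp)))
  have b := (mem_iff_parity hF hω _).1 (h ![0, 1, 0, 1, ω, ω ^ 2]
    ((mem_iff_parity hF hω _).2 (by simp)))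
  have d := (mem_iff_parity hF hω _).1 (h ![0, 0, 1, 1, 1, 1]
    ((mem_iff_parity hF hω _).2 (by simp)))
  have s0 : (Equiv.swap (0 : Fin 6) 1).symm 0 = 1 := by decide
  have s1 : (Equiv.swap (0 : Fin 6) 1).symm 1 = 0 := by decide
  have s2 : (Equiv.swap (0 : Fin 6) 1).symm 2 = 2 := by decide
  have s3 : (Equiv.swap (0 : Fin 6) 1).symm 3 = 3 := by decide
  have s4 : (Equiv.swap (0 : Fin 6) 1).symm 4 = 4 := by decide
  have s5 : (Equiv.swap (0 : Fin 6) 1).symm 5 = 5 := by decide
  simp only [mono_apply, s0, s1, s2, s3, s4, s5] at a b d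
  simp at a b d
  have h4 : (c 4 : F) ≠ 0 := Units.ne_zero _
  have a1 : (c 3 : F) = c 1 := by rw [a.1]
  have a2 := a.2.1
  have d1 : (c 3 : F) = c 2 := by rw [d.1]
  have d2 : (c 4 : F) = c 2 := by rw [d.2.1]
  have h1 : (1 : F) ≠ 0 := one_ne_zero
  apply h4
  grind

/-- table of diagonal parts for the 3-cycles -/
def tab : ℕ := 32086281186593017948480780918850077784325708229067847859586166083710679643630008016019427079535337333495329269725739286885643049639155383080330634030722264978818024447813507253173149085717795462331796114928217305510163360952879249969345619104185715106954830106526457406882137609854217652195047282446347098956450876183470796124048262312021172389466516436141980702068714594000297068579454223116929612316466610516001226391718624160310996553218627026146799123622555403678419464205611800690502362967844492972715765719759647961436497277086956945061323423476870900044049645766442108571238351590728087043545006112474550032584522875130920668194557621676392621689872296857501889505051603591170475331916110238491387669935417086486470612817518803323011479697287544832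

/-- the diagonal part belonging to `swap a b * swap a c` -/
def wit (a b c i : Fin 6) : G4 :=
  let k := tab >>> (2 * (((a.val * 6 + b.val) * 6 + c.val) * 6 + i.val))
  (((k % 2 : ℕ) : ZMod 2), ((k / 2 % 2 : ℕ) : ZMod 2))

theorem wit_ok : ∀ a b c : Fin 6, a ≠ b → a ≠ c → (∀ i, wit a b c i ≠ 0) ∧
    ∀ t ∈ ([((1, 0), 0, 0), (0, (1, 0), 0), (0, 0, (1, 0))] : List (G4 × G4 × G4)),
      inH fun i => mul (wit a b c i) (mw t ((Equiv.swap a b * Equiv.swap a c).symm i)) := by
  decide +kernel

theorem alt_le (hF : Fintype.card F = 4) (hω : ω ^ 2 + ω + 1 = 0) :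
    alternatingGroup (Fin 6) ≤ permPart (hexacode F ω) := by
  have h2 := two_eq_zero hF
  apply alternating_le
  intro a b c hab hac
  obtain ⟨h0, h1⟩ := wit_ok a b c hab hac
  refine ⟨fun i => Units.mk0 (phi ω (wit a b c i)) (fun h => h0 i ((phi_eq_zero h2 hω _).1 h)), ?_⟩
  have key : ∀ t ∈ ([((1, 0), 0, 0), (0, (1, 0), 0), (0, 0, (1, 0))] : List (G4 × G4 × G4)),
      monomialMap (Equiv.swap a b * Equiv.swap a c)
        (fun i => Units.mk0 (phi ω (wit a b c i)) (fun h => h0 i ((phi_eq_zero h2 hω _).1 h)))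
        (fun i => phi ω (mw t i)) ∈ hexacode F ω := by
    intro t ht
    obtain ⟨t', ht'⟩ := exists_of_inH _ (h1 t ht)
    rw [mem_iff hF hω]
    refine ⟨t', ?_⟩
    funext i
    rw [ht', mono_apply, phi_mul h2 hω]
    rfl
  apply pres_of_span (C := hexacode F ω) (S := _) le_rfl
  have v1 : ∀ i, mw ((1, 0), 0, 0) i = (![w, w2, w2, w, w2, w] : Fin 6 → G4) i := by decide
  have v2 : ∀ i, mw (0, (1, 0), 0) i = (![w2, w, w, w2, w2, w] : Fin 6 → G4) i := by decide
  have v3 : ∀ i, mw (0, 0, (1, 0)) i = (![w2, w, w2, w, w, w2] : Fin 6 → G4) i := by decide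
  rintro x (rfl | rfl | rfl)
  · convert key _ (.head _) using 2
    funext i; rw [v1]; fin_cases i <;> simp [phi_w, phi_w2 h2 hω]
  · convert key _ (.tail _ (.head _)) using 2
    funext i; rw [v2]; fin_cases i <;> simp [phi_w, phi_w2 h2 hω]
  · convert key _ (.tail _ (.tail _ (.head _))) using 2
    funext i; rw [v3]; fin_cases i <;> simp [phi_w, phi_w2 h2 hω]

end

/-- The monomial automorphism group of the hexacode has order 1080: its diagonal part is the scalars and its permutation parts form the alternating group of degree 6. -/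
theorem result (F : Type*) [Field F] [Fintype F] [DecidableEq F] (hF : Fintype.card F = 4) (ω : F) (hω : ω ^ 2 + ω + 1 = 0) : Nat.card {f : Equiv.Perm (Fin 6) × (Fin 6 → Fˣ) // (∀ x ∈ Cfsg.hexacode F ω, Cfsg.monomialMap f.1 f.2 x ∈ Cfsg.hexacode F ω)} = 1080 ∧ (∀ c : Fin 6 → Fˣ, (∀ x ∈ Cfsg.hexacode F ω, Cfsg.monomialMap 1 c x ∈ Cfsg.hexacode F ω) → ∀ i j, c i = c j) ∧ {σ : Equiv.Perm (Fin 6) | ∃ c : Fin 6 → Fˣ, (∀ x ∈ Cfsg.hexacode F ω, Cfsg.monomialMap σ c x ∈ Cfsg.hexacode F ω)} = (alternatingGroup (Fin 6) : Set (Equiv.Perm (Fin 6))) := by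
  have h2 := two_eq_zero hF
  have hP : permPart (hexacode F ω) = alternatingGroup (Fin 6) := by
    apply le_antisymm _ (alt_le hF hω)
    intro σ hσ
    by_contra hs
    apply swap_not_mem hF hω
    have hs' : Equiv.Perm.sign σ = -1 := by
      rcases Int.units_eq_one_or (Equiv.Perm.sign σ) with h | h
      · exact absurd (Equiv.Perm.mem_alternatingGroup.2 h) hs
      · exact h
    have h1 : Equiv.swap (0 : Fin 6) 1 * σ⁻¹ ∈ alternatingGroup (Fin 6) := by
      rw [Equiv.Perm.mem_alternatingGroup, Equiv.Perm.sign_mul, Equiv.Perm.sign_inv, hs',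
        Equiv.Perm.sign_swap (by decide)]
      simp
    simpa using (permPart (hexacode F ω)).mul_mem (alt_le hF hω h1) hσ
  refine ⟨?_, diag hF hω, ?_⟩
  · rw [card_monomial _ (diag hF hω), hP, nat_card_alternatingGroup, Nat.card_units,
      Nat.card_eq_fintype_card (α := F), hF, Nat.card_eq_fintype_card, Fintype.card_fin]
    rfl
  · rw [← hP]; rfl

end Cfsg.Agent.S1611
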