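import Mathlib
import Cfsg.Statements.S1612
import Cfsg.Agent.Lib.Fischer.Reduce

set_option autoImplicit false
open Cfsg

namespace Cfsg.Agent.S1612

open H56 Subgroup

variable {G : Type*} [Group G]

theorem isPGroup_closure {D E : Set G} (h : T3 D) (hE : E ⊆ D) (hc : ∀ a ∈ E, ∀ b ∈ E, Commute a b) :
    IsPGroup 2 (closure E) := by
  have h1 : ∀ a ∈ closure E, ∀ b ∈ closure E, Commute a b := fun a ha b hb =>
    commute_of_mem_closure (fun y hy => (commute_of_mem_closure (fun z hz => hc y hy z hz) ha).symm) hb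
  have h2 : ∀ a ∈ closure E, a ^ 2 = 1 := by
    intro a ha
    induction ha using Subgroup.closure_induction with
    | mem x hx => rw [pow_two, h.mul_self (hE hx)]
    | one => simp
    | mul a b ha hb iha ihb => rw [(h1 a ha b hb).mul_pow, iha, ihb, one_mul]
    | inv a _ ih => rw [inv_pow, ih, inv_one]
  intro g
  exact ⟨1, Subtype.ext (by simpa using h2 g g.2)⟩

theorem commute_of_mem_pGroup {D : Set G} (h : T3 D) {P : Subgroup G} (hP : IsPGroup 2 P) {a b : G}
    (ha : a ∈ D) (hb : b ∈ D) (haP : a ∈ P) (hbP : b ∈ P) : Commute a b := by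
  have key : (a * b) ^ 2 = 1 := by
    rcases h.prod a ha b hb with h2 | h3
    · exact h2
    · obtain ⟨k, hk⟩ := hP ⟨a * b, mul_mem haP hbP⟩
      have hk' : (a * b) ^ (2 ^ k) = 1 := congrArg Subtype.val hk
      have : (a * b) ^ (Nat.gcd 3 (2 ^ k)) = 1 := pow_gcd_eq_one.2 ⟨h3, hk'⟩
      rw [Nat.Coprime.gcd_eq_one (Nat.Coprime.pow_right k (by norm_num)), pow_one] at this
      rw [this, one_pow]
  have : (a * b)⁻¹ = a * b := inv_eq_of_mul_eq_one_right (by rw [← pow_two]; exact key)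
  rw [mul_inv_rev, h.inv_eq ha, h.inv_eq hb] at this
  exact this.symm

theorem eq_inter_of_max [Finite G] {D E : Set G} (h : T3 D) (hE : E ⊆ D)
    (hmax : ∀ E' : Set G, E' ⊆ D → (∀ a ∈ E', ∀ b ∈ E', Commute a b) → E'.ncard ≤ E.ncard)
    {P : Subgroup G} (hP : IsPGroup 2 P) (hEP : E ⊆ P) : E = D ∩ P :=
  Set.eq_of_subset_of_ncard_le (Set.subset_inter hE hEP)
    (hmax _ Set.inter_subset_left (fun _ ha _ hb => commute_of_mem_pGroup h hP ha.1 hb.1 ha.2 hb.2))

/-- In a 3-transposition group (no solvable normal subgroup, perfect derived group), the normaliser of a commuting set of transpositions of maximum size contains a Sylow 2-subgroup and is doubly transitive on the set. -/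
theorem result {G : Type*} [Group G] [Finite G] (hsol : ∀ N : Subgroup G, N.Normal → Group.IsSolvable ↥N → N = ⊥) (hperf : ⁅commutator G, commutator G⁆ = commutator G) {D : Set G} (hD : Cfsg.IsThreeTranspositionClass D) {E : Set G} (hE : E ⊆ D) (hc : ∀ a ∈ E, ∀ b ∈ E, Commute a b) (hmax : ∀ E' : Set G, E' ⊆ D → (∀ a ∈ E', ∀ b ∈ E', Commute a b) → E'.ncard ≤ E.ncard) : (∃ P : Sylow 2 G, (P : Subgroup G) ≤ Subgroup.normalizer E) ∧ ∀ a ∈ E, ∀ b ∈ E, ∀ c ∈ E, ∀ d ∈ E, a ≠ b → c ≠ d → ∃ g ∈ Subgroup.normalizer E, g * a * g⁻¹ = c ∧ g * b * g⁻¹ = d := by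
  have h := FP.of_fischer hsol hperf hD
  have : Fact (Nat.Prime 2) := ⟨Nat.prime_two⟩
  constructor
  · obtain ⟨P, hP⟩ := (isPGroup_closure h.toT3 hE hc).exists_le_sylow
    refine ⟨P, fun g hg => ?_⟩
    have hEP := eq_inter_of_max h.toT3 hE hmax P.isPGroup' (fun x hx => hP (subset_closure hx))
    rw [mem_set_normalizer_iff]
    intro n
    rw [hEP]
    constructor
    · rintro ⟨h1, h2⟩
      exact ⟨h.conj g n h1, mul_mem (mul_mem hg h2) (inv_mem hg)⟩
    · rintro ⟨h1, h2⟩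
      have h3 := h.conj g⁻¹ _ h1
      have h4 : g⁻¹ * (g * n * g⁻¹) * g⁻¹⁻¹ ∈ (P : Subgroup G) :=
        mul_mem (mul_mem (inv_mem hg) h2) (inv_mem (inv_mem hg))
      have e : g⁻¹ * (g * n * g⁻¹) * g⁻¹⁻¹ = n := by group
      rw [e] at h3 h4
      exact ⟨h3, h4⟩
  · intro a ha b hb c hc' d hd hab hcd
    obtain ⟨g, hga, hgb⟩ := h.pair_commute (hE ha) (hE hc') ⟨hE hb, hab.symm, hc a ha b hb⟩
      ⟨hE hd, hcd.symm, hc c hc' d hd⟩
    set C := centralizer ({c, d} : Set G) with hC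
    set E' := (fun x => g * x * g⁻¹) '' E with hE'
    have hE'D : E' ⊆ D := by rintro _ ⟨x, hx, rfl⟩; exact h.conj g x (hE hx)
    have hE'c : ∀ a ∈ E', ∀ b ∈ E', Commute a b := by
      rintro _ ⟨x, hx, rfl⟩ _ ⟨y, hy, rfl⟩
      exact (commute_conj_iff g x y).2 (hc x hx y hy)
    have hcard : E'.ncard = E.ncard := Set.ncard_image_of_injective _ (fun x y e => conj_inj e)
    have hin : ∀ F : Set G, (∀ a ∈ F, ∀ b ∈ F, Commute a b) → c ∈ F → d ∈ F → closure F ≤ C := by
      intro F hF h1 h2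
      rw [closure_le]
      intro x hx
      rw [hC, SetLike.mem_coe, mem_centralizer_iff]
      rintro y (rfl | rfl)
      · exact hF _ h1 x hx
      · exact hF _ h2 x hx
    have h1 := hin E hc hc' hd
    have h2 := hin E' hE'c ⟨a, ha, hga⟩ ⟨b, hb, hgb⟩
    obtain ⟨P, hP⟩ := ((isPGroup_closure h.toT3 hE hc).comap_subtype (K := C)).exists_le_sylow
    obtain ⟨Q, hQ⟩ := ((isPGroup_closure h.toT3 hE'D hE'c).comap_subtype (K := C)).exists_le_sylow
    obtain ⟨k, hk⟩ := MulAction.exists_smul_eq C Q P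
    have hPp : IsPGroup 2 ((P : Subgroup C).map C.subtype) := P.isPGroup'.map _
    have e1 := eq_inter_of_max h.toT3 hE hmax hPp (fun x hx =>
      ⟨⟨x, h1 (subset_closure hx)⟩, hP (subset_closure hx), rfl⟩)
    have hsub : (fun x => (k * g) * x * (k * g : G)⁻¹) '' E ⊆ E := by
      rintro _ ⟨x, hx, rfl⟩
      rw [e1]
      refine ⟨h.conj _ x (hE hx), ?_⟩
      have hx' : g * x * g⁻¹ ∈ E' := ⟨x, hx, rfl⟩
      have h3 : (⟨g * x * g⁻¹, h2 (subset_closure hx')⟩ : C) ∈ (Q : Subgroup C) := hQ (subset_closure hx')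
      refine ⟨k * ⟨g * x * g⁻¹, h2 (subset_closure hx')⟩ * k⁻¹, ?_, by simp [mul_assoc]⟩
      rw [← hk, SetLike.mem_coe, Sylow.coe_subgroup_smul, Subgroup.mem_pointwise_smul_iff_inv_smul_mem]
      simpa [mul_assoc] using h3
    have heq := Set.eq_of_subset_of_ncard_le hsub
      (by rw [Set.ncard_image_of_injective _ (fun x y e => conj_inj e)])
    have hkc : Commute c k := mem_centralizer_iff.1 k.2 c (Or.inl rfl)
    have hkd : Commute d k := mem_centralizer_iff.1 k.2 d (Or.inr rfl)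
    refine ⟨k * g, ?_, ?_, ?_⟩
    · rw [mem_set_normalizer_iff]
      intro n
      constructor
      · intro hn; exact hsub ⟨n, hn, rfl⟩
      · intro hn
        rw [← heq] at hn
        obtain ⟨x, hx, hx'⟩ := hn
        rwa [← conj_inj hx']
    · rw [← conj_eq_of_commute hkc, ← hga]; simp [mul_assoc]
    · rw [← conj_eq_of_commute hkd, ← hgb]; simp [mul_assoc]

end Cfsg.Agent.S1612
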