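import Mathlib
import Cfsg.Statements.S1615
import Cfsg.Agent.Lib.Fischer.LocalW

set_option autoImplicit false
open Cfsg

namespace Cfsg.Agent.S1615

/-- If O(⟨D_x⟩) is not central in ⟨D_x⟩ for some transposition x, the 3-transposition group is the symmetric group of degree 5. -/
theorem result {G : Type*} [Group G] [Finite G] (hsol : ∀ N : Subgroup G, N.Normal → Group.IsSolvable ↥N → N = ⊥) (hperf : ⁅commutator G, commutator G⁆ = commutator G) {D : Set G} (hD : Cfsg.IsThreeTranspositionClass D) (x : G) (hx : x ∈ D) (h : ¬ Cfsg.oddCore ↥(Subgroup.closure {y : G | y ∈ D ∧ y ≠ x ∧ Commute x y}) ≤ Subgroup.center ↥(Subgroup.closure {y : G | y ∈ D ∧ y ≠ x ∧ Commute x y})) : Nonempty (G ≃* Equiv.Perm (Fin 5)) := by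
  have hF := H56.FP.of_fischer hsol hperf hD
  obtain ⟨d, w, hl⟩ := hF.toT3.exists_LW_of_oddCore (x := x) h
  obtain ⟨φ, -⟩ := hF.iso_perm5_of_LW hx hl
  exact ⟨φ.symm⟩

end Cfsg.Agent.S1615
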