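import Mathlib
import Cfsg.Statements.S1618
import Cfsg.Agent.S1187

set_option autoImplicit false
open Cfsg

namespace Cfsg.Agent.S1618

/-- Two subgroups of coprime index factorize a finite group. -/
theorem exists_mul_of_coprime_index {G : Type*} [Group G] [Finite G] (P C : Subgroup G)
    (h : P.index.Coprime C.index) (g : G) : ∃ x ∈ P, ∃ c ∈ C, g = x * c := by
  have h1 : C.relIndex P = C.index := by
    have e1 : C.relIndex P * P.index = (C ⊓ P).index := by
      rw [← Subgroup.inf_relIndex_right, Subgroup.relIndex_mul_index inf_le_right]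
    have d1 : C.index ∣ (C ⊓ P).index := Subgroup.index_dvd_of_le inf_le_left
    rw [← e1] at d1
    have d2 : C.index ∣ C.relIndex P := h.symm.dvd_of_dvd_mul_right d1
    have l1 : C.relIndex P ≤ C.index := by
      have := Subgroup.relIndex_le_of_le_right (H := C) (K := P) (L := ⊤) le_top
        (by rw [Subgroup.relIndex_top_right]; exact Subgroup.index_ne_zero_of_finite)
      rwa [Subgroup.relIndex_top_right] at this
    have p1 : C.relIndex P ≠ 0 := Subgroup.index_ne_zero_of_finite
    exact le_antisymm l1 (Nat.le_of_dvd (Nat.pos_of_ne_zero p1) d2)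
  let f : P ⧸ C.subgroupOf P → G ⧸ C := Quotient.map' Subtype.val (by
    intro a b hab
    rw [QuotientGroup.leftRel_apply] at hab ⊢
    exact hab)
  have finj : Function.Injective f := by
    intro a b
    induction a using Quotient.inductionOn'
    induction b using Quotient.inductionOn'
    intro hab
    have := Quotient.exact' hab
    apply Quotient.sound'
    rw [QuotientGroup.leftRel_apply] at this ⊢
    exact this
  have fbij : Function.Bijective f := finj.bijective_of_nat_card_le (le_of_eq h1.symm)
  obtain ⟨a, ha⟩ := fbij.2 (QuotientGroup.mk g)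
  induction a using Quotient.inductionOn' with
  | h x =>
    have := Quotient.exact' ha
    rw [QuotientGroup.leftRel_apply] at this
    exact ⟨x, x.2, _, this, by simp⟩

theorem exists_invariant_sylow {G : Type*} [Group G] [Finite G] (z : G)
    (hz : Cfsg.IsIsolatedInvolution z) (q : ℕ) [Fact q.Prime] :
    ∃ Q : Sylow q G, z ∈ Subgroup.normalizer ((Q : Subgroup G) : Set G) := by
  have hfin : Finite (Subgroup G) := inferInstance
  obtain ⟨Q, hQ⟩ := Set.Finite.exists_maximal
    (s := {R : Subgroup G | IsPGroup q R ∧ z ∈ Subgroup.normalizer (R : Set G)}) (Set.toFinite _)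
    ⟨⊥, IsPGroup.of_bot, by
      have : (⊥ : Subgroup G).Normal := inferInstance
      rw [Subgroup.normalizer_eq_top]; trivial⟩
  obtain ⟨P, hP⟩ := Cfsg.Agent.S1187.result z hz Q hQ.prop.1 hQ.prop.2
    (fun R h1 h2 h3 => le_antisymm (hQ.le_of_ge ⟨h1, h2⟩ h3) h3)
  exact ⟨P, hP ▸ hQ.prop.2⟩

/-- A group generated by a class of involutions whose pairwise products (of distinct members) have p-power order for a fixed odd prime p has nilpotent derived subgroup. -/
theorem result {G : Type*} [Group G] [Finite G] (p : ℕ) (hp : p.Prime) (hodd : p ≠ 2) {D : Set G} (hinv : ∀ d ∈ D, orderOf d = 2) (hconj : ∃ d ∈ D, D = conjugatesOf d) (hgen : Subgroup.closure D = ⊤) (hprod : ∀ x ∈ D, ∀ y ∈ D, x ≠ y → ∃ k : ℕ, orderOf (x * y) = p ^ k) : Group.IsNilpotent ↥(commutator G) := by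
  have : Fact p.Prime := ⟨hp⟩
  obtain ⟨z, hzD, hD⟩ := hconj
  have hz2 : orderOf z = 2 := hinv z hzD
  have hzz : z * z = 1 := by have := pow_orderOf_eq_one z; rwa [hz2, pow_two] at this
  have hzi : z⁻¹ = z := inv_eq_of_mul_eq_one_right hzz
  have hmem : ∀ g : G, g * z * g⁻¹ ∈ D := fun g => by
    rw [hD]; exact isConj_iff.2 ⟨g, rfl⟩
  -- a conjugate `y` of `z` with `z * y` of order prime to `p` is `z`
  have key : ∀ g : G, (orderOf (z * (g * z * g⁻¹))).Coprime p → g * z * g⁻¹ = z := by
    intro g hc
    by_contra hne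
    obtain ⟨k, hk⟩ := hprod z hzD _ (hmem g) (Ne.symm hne)
    have h1 : orderOf (z * (g * z * g⁻¹)) = 1 := by
      have : (orderOf (z * (g * z * g⁻¹))).Coprime (p ^ k) := hc.pow_right k
      rw [← hk] at this
      exact (Nat.coprime_self _).1 this
    rw [orderOf_eq_one_iff] at h1
    apply hne
    exact (eq_inv_of_mul_eq_one_right h1).trans hzi
  have hiso : Cfsg.IsIsolatedInvolution z := by
    refine ⟨hz2, fun g hc => key g ?_⟩
    have h2 : (z * (g * z * g⁻¹)) ^ 2 = 1 := by
      rw [hc.mul_pow, pow_two, hzz, conj_pow, pow_two, hzz]; simp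
    exact Nat.Coprime.coprime_dvd_left (orderOf_dvd_of_pow_eq_one h2)
      ((Nat.coprime_primes Nat.prime_two hp).2 (Ne.symm hodd))
  set C := Subgroup.centralizer ({z} : Set G) with hC
  have hq : ∀ q : ℕ, q.Prime → q ≠ p → ¬ q ∣ C.index := by
    intro q hq hqp
    have : Fact q.Prime := ⟨hq⟩
    obtain ⟨Q, hQ⟩ := exists_invariant_sylow z hiso q
    have hle : (Q : Subgroup G) ≤ C := by
      intro x hx
      have h1 : z * (x * z * x⁻¹) ∈ (Q : Subgroup G) := by
        have : z * (x * z * x⁻¹) = (z * x * z⁻¹) * x⁻¹ := by rw [hzi]; group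
        rw [this]
        exact Subgroup.mul_mem _ ((Subgroup.mem_normalizer_iff.1 hQ x).1 hx) (Subgroup.inv_mem _ hx)
      obtain ⟨k, hk⟩ := (IsPGroup.iff_orderOf.1 Q.isPGroup') ⟨_, h1⟩
      rw [Subgroup.orderOf_mk] at hk
      have := key x (by
        rw [hk]; exact ((Nat.coprime_primes hq hp).2 hqp).pow_left k)
      rw [hC, Subgroup.mem_centralizer_iff]
      intro y hy
      rw [Set.mem_singleton_iff.1 hy]
      calc z * x = (x * z * x⁻¹) * x := by rw [this]
        _ = x * z := by group
    intro hdvd
    exact Q.not_dvd_index (hdvd.trans (Subgroup.index_dvd_of_le hle))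
  obtain ⟨P, hP⟩ := exists_invariant_sylow z hiso p
  have hcop : (P : Subgroup G).index.Coprime C.index := by
    apply Nat.coprime_of_dvd
    intro k hk h1 h2
    by_cases hkp : k = p
    · subst hkp; exact P.not_dvd_index h1
    · exact hq k hk hkp h2
  -- the set `P ∪ zP` is a subgroup containing `D`
  have hnorm : ∀ x ∈ (P : Subgroup G), z * x * z ∈ (P : Subgroup G) := fun x hx => by
    have := (Subgroup.mem_normalizer_iff.1 hP x).1 hx
    rwa [hzi] at this
  have hall : ∀ g : G, g ∈ (P : Subgroup G) ∨ z * g ∈ (P : Subgroup G) := by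
    intro g
    have hg : g ∈ Subgroup.closure D := hgen ▸ Subgroup.mem_top g
    induction hg using Subgroup.closure_induction with
    | mem d hd =>
      right
      rw [hD] at hd
      obtain ⟨g, rfl⟩ := isConj_iff.1 hd
      obtain ⟨x, hx, c, hc, rfl⟩ := exists_mul_of_coprime_index _ C hcop g
      have hc' : z * c = c * z := (Subgroup.mem_centralizer_iff.1 hc) z rfl
      have : z * (x * c * z * (x * c)⁻¹) = (z * x * z) * x⁻¹ := by
        rw [mul_assoc x c z, ← hc']; group
      rw [this]
      exact Subgroup.mul_mem _ (hnorm x hx) (Subgroup.inv_mem _ hx)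
    | one => left; exact Subgroup.one_mem _
    | mul a b _ _ ha hb =>
      rcases ha with ha | ha <;> rcases hb with hb | hb
      · left; exact Subgroup.mul_mem _ ha hb
      · right
        have : z * (a * b) = (z * a * z) * (z * b) := by
          rw [mul_assoc (z * a) z, ← mul_assoc z z b, hzz]; group
        rw [this]; exact Subgroup.mul_mem _ (hnorm a ha) hb
      · right; rw [← mul_assoc]; exact Subgroup.mul_mem _ ha hb
      · left
        have : a * b = (z * (z * a) * z) * (z * b) := by
          rw [mul_assoc (z * (z * a)) z, ← mul_assoc z z b, ← mul_assoc z z a, hzz]; group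
        rw [this]; exact Subgroup.mul_mem _ (hnorm _ ha) hb
    | inv a _ ha =>
      rcases ha with ha | ha
      · left; exact Subgroup.inv_mem _ ha
      · right
        have : z * a⁻¹ = z * (z * a)⁻¹ * z := by
          rw [mul_inv_rev, hzi, mul_assoc, mul_assoc, hzz]; group
        rw [this]; exact hnorm _ (Subgroup.inv_mem _ ha)
  have hPn : (P : Subgroup G).Normal := by
    constructor
    intro x hx g
    rcases hall g with hg | hg
    · exact Subgroup.mul_mem _ (Subgroup.mul_mem _ hg hx) (Subgroup.inv_mem _ hg)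
    · have : g * x * g⁻¹ = z * ((z * g) * x * (z * g)⁻¹) * z := by
        rw [mul_inv_rev, hzi]
        calc g * x * g⁻¹ = (z * z) * g * x * g⁻¹ * (z * z) := by rw [hzz]; group
          _ = _ := by group
      rw [this]
      exact hnorm _ (Subgroup.mul_mem _ (Subgroup.mul_mem _ hg hx) (Subgroup.inv_mem _ hg))
  have hle : commutator G ≤ (P : Subgroup G) := by
    rw [commutator, Subgroup.commutator_le]
    intro a _ b _
    have hq : ∀ g : G, (QuotientGroup.mk g : G ⧸ (P : Subgroup G)) = 1 ∨
        (QuotientGroup.mk g : G ⧸ (P : Subgroup G)) = QuotientGroup.mk z := by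
      intro g
      rcases hall g with hg | hg
      · left; exact (QuotientGroup.eq_one_iff g).2 hg
      · right; symm; rw [QuotientGroup.eq, hzi]; exact hg
    rw [← QuotientGroup.eq_one_iff, commutatorElement_def]
    simp only [QuotientGroup.mk_mul, QuotientGroup.mk_inv]
    rcases hq a with ha | ha <;> rcases hq b with hb | hb <;> rw [ha, hb] <;> group
  exact (P.isPGroup'.to_le hle).isNilpotent

end Cfsg.Agent.S1618
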