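import Cfsg.Statements.S1631
import Cfsg.Agent.Lib.Fischer.UTrans

set_option autoImplicit false
open scoped MatrixGroups
open Cfsg

namespace Cfsg.Agent.S1631

/-- The unitary transvections of SU(n, 2), n ≥ 4, form a generating conjugacy class of 3-transpositions. -/
theorem result (F : Type) [Field F] [Fintype F] [DecidableEq F] (hF : Fintype.card F = 4) (n : ℕ) (hn : 4 ≤ n) : Cfsg.IsThreeTranspositionClass {g : ↥(Cfsg.SU n F 2) | (((g : Matrix.SpecialLinearGroup (Fin n) F) : Matrix (Fin n) (Fin n) F) - 1).rank = 1} := by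
  have : H11.U.IsSq F 2 := ⟨hF⟩
  have e : {g : ↥(Cfsg.SU n F 2) | (((g : Matrix.SpecialLinearGroup (Fin n) F) : Matrix (Fin n) (Fin n) F) - 1).rank = 1} = H56.TV n F := by
    ext g
    exact H56.mem_TV_iff_rank.symm
  rw [e]
  exact (H56.TC_TV hn).isClass

end Cfsg.Agent.S1631
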