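import Cfsg.Statements.S1635
import Cfsg.Agent.Lib.Spor55.GolayCoset

set_option autoImplicit false
open Cfsg

namespace Cfsg.Agent.S1635

/-- Coset leaders of the length-24 code: a coset contains a unique word of weight ≤ 3, or else exactly six words of weight 4 and none lighter. -/
theorem result (w : Cfsg.GolayPt → ZMod 2) : ({v : Cfsg.GolayPt → ZMod 2 | hammingNorm v ≤ 4 ∧ w - v ∈ Cfsg.golayCode}.ncard = 1 ∧ ∃ v : Cfsg.GolayPt → ZMod 2, hammingNorm v ≤ 3 ∧ w - v ∈ Cfsg.golayCode) ∨ ({v : Cfsg.GolayPt → ZMod 2 | hammingNorm v ≤ 4 ∧ w - v ∈ Cfsg.golayCode}.ncard = 6 ∧ ∀ v : Cfsg.GolayPt → ZMod 2, w - v ∈ Cfsg.golayCode → hammingNorm v ≤ 4 → hammingNorm v = 4) := by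
  obtain ⟨t, ht, hc⟩ := H55.Golay.exists_small (support₂ w)
  rw [H55.Golay.ncard_small]
  by_cases h3 : ∃ v : GolayPt → ZMod 2, hammingNorm v ≤ 3 ∧ w - v ∈ golayCode
  · left
    refine ⟨?_, h3⟩
    obtain ⟨v, hv, hvc⟩ := h3
    rw [H55.Golay.sub_mem_iff] at hvc
    rw [H15.hammingNorm_eq_card] at hv
    rw [Set.ncard_eq_one]
    refine ⟨support₂ v, ?_⟩
    ext u
    simp only [Set.mem_ofPred_eq, Set.mem_singleton_iff]
    constructor
    · rintro ⟨h1, h2⟩
      have h4 := H55.Golay.symmDiff_of_both h2 hvc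
      have h5 := H15.card_symmDiff_add u (support₂ v)
      rcases H15.card_of_mem_codeSets h4 with e | e | e | e | e
      · exact symmDiff_eq_bot.1 (Finset.card_eq_zero.1 e)
      all_goals omega
    · rintro rfl; exact ⟨by omega, hvc⟩
  · right
    push Not at h3
    have h4 : ∀ v : GolayPt → ZMod 2, w - v ∈ golayCode → hammingNorm v ≤ 4 → hammingNorm v = 4 := by
      intro v hv h
      by_contra hne
      exact h3 v (by omega) hv
    refine ⟨?_, h4⟩
    have ht4 : t.card = 4 := by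
      have := h4 (H15.wordOf t) (by rwa [H55.Golay.sub_mem_iff, H15.support₂_wordOf])
        (by rwa [H15.hammingNorm_wordOf])
      rwa [H15.hammingNorm_wordOf] at this
    have : {u : Finset GolayPt | u.card ≤ 4 ∧ symmDiff (support₂ w) u ∈ H15.CodeSets} =
        ↑(H55.Golay.sextetOf t) := by
      ext u
      rw [Finset.mem_coe, H55.Golay.mem_sextetOf_iff ht4, Set.mem_ofPred_eq]
      refine and_congr_right fun _ => ⟨fun h => H55.Golay.symmDiff_of_both hc h, fun h => ?_⟩
      have := H15.symmDiff_mem_codeSets hc h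
      rwa [symmDiff_assoc, symmDiff_symmDiff_cancel_left] at this
    rw [this, Set.ncard_coe_finset, (H55.Golay.sextetOf_mem ht4).1]

end Cfsg.Agent.S1635
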