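import Cfsg.Statements.S1637
import Cfsg.Agent.Lib.Spor55.GolayCoset

set_option autoImplicit false
open Cfsg

namespace Cfsg.Agent.S1637

/-- The punctured length-23 code is a perfect 3-error-correcting code: each word of length 23 is within distance 3 of exactly one codeword. -/
theorem result (u : ZMod 23 → ZMod 2) : ∃! c : ZMod 23 → ZMod 2, c ∈ {u : ZMod 23 → ZMod 2 | ∃ w ∈ Cfsg.golayCode, ∀ x : ZMod 23, u x = w (some x)} ∧ hammingDist u c ≤ 3 := by
  have hsub : ∀ a b : ZMod 23 → ZMod 2, hammingDist a b = hammingNorm (a - b) :=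
    fun a b => by rw [hammingDist_comm, hammingDist_eq_hammingNorm, neg_add_eq_sub]
  have hex : ∃ c : ZMod 23 → ZMod 2, (∃ w ∈ golayCode, ∀ x : ZMod 23, c x = w (some x)) ∧
      hammingDist u c ≤ 3 := by
    -- extend `u` to a word of odd weight
    obtain ⟨s, hs, hodd⟩ : ∃ s : Finset GolayPt, (∀ x, H15.wordOf s (some x) = u x) ∧
        Odd s.card := by
      let s0 := support₂ (H55.Golay.ext23 u 0)
      have h0 : none ∉ s0 := by rw [H15.mem_support₂]; exact fun h => h rfl
      have h1 : ∀ x, H15.wordOf s0 (some x) = u x := fun x => by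
        rw [H15.wordOf_support₂]; rfl
      by_cases h : Odd s0.card
      · exact ⟨s0, h1, h⟩
      · refine ⟨insert none s0, fun x => ?_, ?_⟩
        · rw [← h1 x]; simp [H15.wordOf]
        · rw [Finset.card_insert_of_notMem h0]
          exact (Nat.not_odd_iff_even.1 h).add_one
    obtain ⟨t, ht, hc⟩ := H55.Golay.exists_small s
    have h1 := H15.card_symmDiff_add s t
    have h2 := H15.four_dvd_card_of_mem_codeSets hc
    rw [Nat.odd_iff] at hodd
    refine ⟨fun x => H15.wordOf (symmDiff s t) (some x),
      ⟨_, H15.mem_codeSets_iff.1 hc, fun _ => rfl⟩, ?_⟩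
    have : (u - fun x => H15.wordOf (symmDiff s t) (some x)) = fun x => H15.wordOf t (some x) := by
      funext x
      rw [Pi.sub_apply, H15.wordOf_symmDiff, Pi.add_apply, hs]
      generalize u x = a
      generalize H15.wordOf t (some x) = b
      revert a b; decide
    rw [hsub, this, H55.Golay.hammingNorm_punct, H15.support₂_wordOf]
    have := Finset.card_erase_le (s := t) (a := none)
    omega
  obtain ⟨c, hc, hd⟩ := hex
  refine ⟨c, ⟨hc, hd⟩, ?_⟩
  rintro c' ⟨⟨w', hw', h'⟩, hd'⟩
  obtain ⟨w, hw, h⟩ := hc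
  obtain rfl : c = fun x => w (some x) := funext h
  obtain rfl : c' = fun x => w' (some x) := funext h'
  by_contra hne
  have h7 := H55.Golay.punct_seven (Submodule.sub_mem _ hw' hw)
    (fun e => hne (by rw [sub_eq_zero.1 e]))
  have h8 := hammingDist_triangle_left (fun x => w' (some x)) (fun x => w (some x)) u
  rw [hsub] at h8
  have e : (fun x : ZMod 23 => (w' - w) (some x)) = (fun x => w' (some x)) - fun x => w (some x) := rfl
  rw [e] at h7
  omega

end Cfsg.Agent.S1637
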