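import Mathlib
import Cfsg.Statements.S1641
import Cfsg.Agent.Lib.Leech.Sub

set_option autoImplicit false
open Cfsg

namespace Cfsg.Agent.S1641

/-- The third Conway group acts on the 11178 cosets of the Higman–Sims group with rank 5 and subdegrees 1, 352, 1100, 4125, 5600. -/
theorem result (u x : ↥Cfsg.leechLattice) (hu : Cfsg.sqNorm (u : Cfsg.GolayPt → ℤ) = 48) (hx : x ∈ {x : ↥Cfsg.leechLattice | Cfsg.sqNorm (x : Cfsg.GolayPt → ℤ) = 32 ∧ Cfsg.dotInt (u : Cfsg.GolayPt → ℤ) (x : Cfsg.GolayPt → ℤ) = -16}) : ∃ y₁ ∈ {x : ↥Cfsg.leechLattice | Cfsg.sqNorm (x : Cfsg.GolayPt → ℤ) = 32 ∧ Cfsg.dotInt (u : Cfsg.GolayPt → ℤ) (x : Cfsg.GolayPt → ℤ) = -16}, ∃ y₂ ∈ {x : ↥Cfsg.leechLattice | Cfsg.sqNorm (x : Cfsg.GolayPt → ℤ) = 32 ∧ Cfsg.dotInt (u : Cfsg.GolayPt → ℤ) (x : Cfsg.GolayPt → ℤ)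 = -16}, ∃ y₃ ∈ {x : ↥Cfsg.leechLattice | Cfsg.sqNorm (x : Cfsg.GolayPt → ℤ) = 32 ∧ Cfsg.dotInt (u : Cfsg.GolayPt → ℤ) (x : Cfsg.GolayPt → ℤ) = -16}, ∃ y₄ ∈ {x : ↥Cfsg.leechLattice | Cfsg.sqNorm (x : Cfsg.GolayPt → ℤ) = 32 ∧ Cfsg.dotInt (u : Cfsg.GolayPt → ℤ) (x : Cfsg.GolayPt → ℤ) = -16}, (MulAction.orbit ↥(MulAction.stabilizer ↥Cfsg.Co0 u ⊓ MulAction.stabilizer ↥Cfsg.Co0 x) y₁).ncard = 352 ∧ (MulAction.orbit ↥(MulAction.stabilizer ↥Cfsg.Co0 u ⊓ MulAction.stabilizer ↥Cfsg.Co0 x) y₂).ncard = 1100 ∧ (MulAction.orbit ↥(MulAction.stabilizer ↥Cfsg.Co0 u ⊓ MulAction.stabilizer ↥Cfsg.Co0 x) y₃).ncard = 4125 ∧ (MulAction.orbit ↥(MulAction.stabilizer ↥Cfsg.Co0 u ⊓ MulAction.stabilizer ↥Cfsg.Co0 x) y₄).ncard = 5600 ∧ {x : ↥Cfsg.leechLattice | Cfsg.sqNorm (x : Cfsg.GolayPt → ℤ) = 32 ∧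 Cfsg.dotInt (u : Cfsg.GolayPt → ℤ) (x : Cfsg.GolayPt → ℤ) = -16} = {x} ∪ MulAction.orbit ↥(MulAction.stabilizer ↥Cfsg.Co0 u ⊓ MulAction.stabilizer ↥Cfsg.Co0 x) y₁ ∪ MulAction.orbit ↥(MulAction.stabilizer ↥Cfsg.Co0 u ⊓ MulAction.stabilizer ↥Cfsg.Co0 x) y₂ ∪ MulAction.orbit ↥(MulAction.stabilizer ↥Cfsg.Co0 u ⊓ MulAction.stabilizer ↥Cfsg.Co0 x) y₃ ∪ MulAction.orbit ↥(MulAction.stabilizer ↥Cfsg.Co0 u ⊓ MulAction.stabilizer ↥Cfsg.Co0 x) y₄ := by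
  have L := H16.level_hs11178' hu hx.1 hx.2
  have hH : ∀ g, g ∈ MulAction.stabilizer ↥Cfsg.Co0 u ⊓ MulAction.stabilizer ↥Cfsg.Co0 x ↔
      g • u = u ∧ g • u = u ∧ g • x = x := fun g => ⟨fun h => ⟨h.1, h.1, h.2⟩, fun h => ⟨h.1, h.2.2⟩⟩
  obtain ⟨y₁, a1, c1, b1⟩ := L.exists_orbit hH (-8) (n := 352) (by norm_num) (by decide)
  obtain ⟨y₂, a2, c2, b2⟩ := L.exists_orbit hH 16 (n := 1100) (by norm_num) (by decide)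
  obtain ⟨y₃, a3, c3, b3⟩ := L.exists_orbit hH 0 (n := 4125) (by norm_num) (by decide)
  obtain ⟨y₄, a4, c4, b4⟩ := L.exists_orbit hH 8 (n := 5600) (by norm_num) (by decide)
  refine ⟨y₁, ⟨a1.1, a1.2.1⟩, y₂, ⟨a2.1, a2.2.1⟩, y₃, ⟨a3.1, a3.2.1⟩, y₄, ⟨a4.1, a4.2.1⟩,
    b1, b2, b3, b4, ?_⟩
  rw [L.orbit_eq hH a1.1 a1.2.1 a1.2.1, L.orbit_eq hH a2.1 a2.2.1 a2.2.1,
    L.orbit_eq hH a3.1 a3.2.1 a3.2.1, L.orbit_eq hH a4.1 a4.2.1 a4.2.1, c1, c2, c3, c4]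
  have h0 := (L.count fun t => t ≠ 32 ∧ t ≠ -8 ∧ t ≠ 16 ∧ t ≠ 0 ∧ t ≠ 8).trans (by decide : _ = 0)
  rw [Set.ncard_eq_zero (H16.finite_Min.subset fun x hx => hx.1), Set.eq_empty_iff_forall_notMem] at h0
  ext y
  simp only [Set.mem_union, Set.mem_ofPred_eq, Set.mem_singleton_iff]
  constructor
  · rintro ⟨a, b⟩
    by_contra hc
    simp only [a, b, true_and, not_or] at hc
    exact h0 y ⟨a, b, b, fun g => hc.1.1.1.1 (H16.eq_of_dot32 hx.1 a g), hc.1.1.1.2, hc.1.1.2, hc.1.2,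
      hc.2⟩
  · rintro ((((rfl | h) | h) | h) | h)
    exacts [hx, ⟨h.1, h.2.1⟩, ⟨h.1, h.2.1⟩, ⟨h.1, h.2.1⟩, ⟨h.1, h.2.1⟩]

end Cfsg.Agent.S1641
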