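import Mathlib
import Cfsg.Statements.S1642
import Cfsg.Agent.Lib.Leech.M276
import Cfsg.Agent.Lib.CGT.Conj

set_option autoImplicit false
open Cfsg

namespace Cfsg.Agent.S1642

open H16 H54

/-- code of a fixed point free involution -/
def tC : ℕ := 0xfffbefcf7ebcf8efdbaf4e7cb8f0dfbb6ecd7ab4e8cf9b2e48b09d1634d51241c3650006dd0c12b2d3391118faba565a1b7d3b1bc5d8aa234b1c844178682cacc6f491e09b19510c4b8989c52f5545fdc8176a939a30e1d917d8120b82981406023d676ed1e76a56cf0c1cb91aec8a58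

theorem t_ok : memb c100 chHS100 tC = true ∧ ordc c100 tC = 2 ∧ ∀ i < 100, c100.get tC i ≠ i := by
  decide +kernel

/-- Some involution of the Higman–Sims group acts without fixed points on its 100 points. -/
theorem result (v w : ↥Cfsg.leechLattice) (hv : Cfsg.sqNorm (v : Cfsg.GolayPt → ℤ) = 48) (hw : Cfsg.sqNorm (w : Cfsg.GolayPt → ℤ) = 48) (hvw : Cfsg.dotInt (v : Cfsg.GolayPt → ℤ) (w : Cfsg.GolayPt → ℤ) = -32) : ∃ g : ↥Cfsg.Co0, g • v = v ∧ g • w = w ∧ orderOf g = 2 ∧ ∀ x ∈ {x : ↥Cfsg.leechLattice | Cfsg.sqNorm (x : Cfsg.GolayPt → ℤ) = 32 ∧ Cfsg.dotInt (v : Cfsg.GolayPt → ℤ) (x : Cfsg.GolayPt → ℤ) = 24 ∧ Cfsg.dotInt (w : Cfsg.GolayPt → ℤ) (x : Cfsg.GolayPt → ℤ) = -24}, g • x ≠ x := by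
  obtain ⟨h1, h2, h3⟩ := hs_side hv hw hvw
  obtain ⟨k, e1, e2⟩ := exists_smul_VUP hv h1 h2
  obtain ⟨t, -, r⟩ := good_HS100.in_of_memb X100 t_ok.1
  have ho : orderOf t = 2 := (r.orderOf_eq X100 K100).trans t_ok.2.1
  have f1 : (k * (t : Co0) * k⁻¹) • v = v := by
    rw [← e1, mul_smul, mul_smul, inv_smul_smul, mem_Stab.1 t.2.1]
  refine ⟨k * t * k⁻¹, f1, (fix_side f1).1 ?_, ?_, ?_⟩
  · rw [← e2, mul_smul, mul_smul, inv_smul_smul, mem_Stab.1 t.2.2]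
  · exact ((MulAut.conj k).orderOf_eq (t : Co0)).trans ((Subgroup.orderOf_coe t).trans ho)
  · rintro x ⟨x1, x2, x3⟩ e
    obtain ⟨i, hi, ei⟩ := exists_pt100 (x := -(k⁻¹ • x)) (neg_mem_Min (smul_mem_Min _ x1))
      (by rw [AddSubgroup.coe_neg, dotInt_neg_right, ← dotInt_co0_left, e1, x2])
      (by rw [AddSubgroup.coe_neg, dotInt_neg_right, ← dotInt_co0_left, e2, h3, x2, x3]; rfl)
    have f2 : t • pt100 i = pt100 i := by
      show (t : Co0) • pt100 i = _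
      rw [ei, smul_neg, neg_inj, eq_inv_smul_iff, ← mul_smul, ← mul_smul]
      exact e
    rw [r.smul_eq hi] at f2
    exact t_ok.2.2 i hi (X100.inj _ _ (r.lt hi) hi f2)

end Cfsg.Agent.S1642
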