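import Cfsg.Statements.S1654
import Mathlib
import Cfsg.Agent.Lib.Ly27.Final

set_option autoImplicit false
open Cfsg

namespace Cfsg.Agent.S1654



/-- A group of Lyons type contains G₂(5): if a finite simple group has an involution whose centraliser is a non-split double cover of the alternating group of degree 11, then it has a subgroup isomorphic to the adjoint Chevalley group of type G₂ over a field with 5 elements. -/
theorem result {G : Type*} [Group G] [Finite G] [IsSimpleGroup G] (t : G) (ht : orderOf t = 2) (hcov : Cfsg.IsNonsplitDoubleCover (Subgroup.centralizer ({t} : Set G)) (alternatingGroup (Fin 11))) : ∃ (H : Subgroup G) (K : Type) (_ : Field K) (_ : Fintype K), Fintype.card K = 5 ∧ Nonempty (H ≃* Cfsg.Lie.chevG2.group K) := by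
  obtain ⟨e⟩ := H27.LY.ly_of_simple ht hcov
  exact ⟨(e.symm.toMonoidHom.comp H54.Ly.θ).range, ZMod 5, inferInstance, inferInstance, ZMod.card 5,
    ⟨(MonoidHom.ofInjective (e.symm.injective.comp H54.Ly.θ_inj)).symm.trans H54.Ly.equivP.some⟩⟩

end Cfsg.Agent.S1654
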