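import Cfsg.Statements.S1666
import Mathlib
import Cfsg.Agent.Base
import Cfsg.Agent.Lib.Design.HSLeech

set_option autoImplicit false
open Cfsg

namespace Cfsg.Agent.S1666

/-- Recognition of the Higman–Sims group as a rank 3 permutation group: a transitive permutation group on 100 points in which the stabiliser of a point is isomorphic to the Mathieu group M₂₂ and has two further orbits, of sizes 22 and 77, is isomorphic to the Higman–Sims group. -/
theorem result {Ω : Type*} [Fintype Ω] [DecidableEq Ω] (hΩ : Fintype.card Ω = 100) (G : Subgroup (Equiv.Perm Ω)) [MulAction.IsPretransitive G Ω] (a : Ω)  (e : MulAction.stabilizer G a ≃* Cfsg.Spor.M22) (b c : Ω) (hb : (MulAction.orbit (MulAction.stabilizer G a) b).ncard = 22) (hc : (MulAction.orbit (MulAction.stabilizer G a) c).ncard = 77) : Cfsg.Spor.IsoHS G := by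
  have hX : Nat.card G = 44352000 := by
    have := (MulAction.stabilizer G a).card_mul_index
    rw [MulAction.index_stabilizer_of_transitive, Nat.card_congr e.toEquiv, H15.card_M22,
      Nat.card_eq_fintype_card (α := Ω), hΩ] at this
    exact this.symm
  obtain ⟨-, -, φ, -⟩ := H17.hs_of_rank3 hΩ hX hb hc
  exact ⟨φ.trans H17.hs0Equiv⟩

end Cfsg.Agent.S1666
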