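import Mathlib
import Cfsg.Statements.S1667
import Cfsg.Agent.Lib.Rk19.McA

set_option autoImplicit false
open Cfsg

namespace Cfsg.Agent.S1667



/-- Recognition of the McLaughlin group as a rank 3 permutation group: a transitive permutation group on 275 points in which the stabiliser of a point is isomorphic to the unitary group U₄(3) and has two further orbits, of sizes 112 and 162, is isomorphic to the McLaughlin group. -/
theorem result {Ω : Type*} [Fintype Ω] [DecidableEq Ω] (hΩ : Fintype.card Ω = 275) (G : Subgroup (Equiv.Perm Ω)) [MulAction.IsPretransitive G Ω] (a : Ω) (K : Type) [Field K] [Fintype K] (hK : Fintype.card K = 9) (e : MulAction.stabilizer G a ≃* Cfsg.PSU 4 K 3) (b c : Ω) (hb : (MulAction.orbit (MulAction.stabilizer G a) b).ncard = 112) (hc : (MulAction.orbit (MulAction.stabilizer G a) c).ncard = 162) : Cfsg.Spor.IsoMcL G := by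
  exact H19.R3.McL.main (H19.R3.rk3_of_perm hΩ G hb hc (by norm_num) (by norm_num) (by norm_num))
    (H19.R3.faithful_perm G)
    (e.trans (H30.psuCongr (FiniteField.ringEquivOfCardEq (hK.trans H74.F9.card_eq.symm)) 4 3))

end Cfsg.Agent.S1667
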