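import Cfsg.Statements.S1680
import Mathlib
import Cfsg.Agent.Lib.SuzSp.Model

set_option autoImplicit false
open Cfsg

namespace Cfsg.Agent.S1680

open H54 H40.Suz MulAction
attribute [local instance] H40.Suz.act

/-- In the presented sporadic Suzuki group, let H be the subgroup generated by the images of a, …, f. Then H has index 1782, H has orbits of sizes 416 and 1365 on the cosets of H other than H itself (with the index 1782 this makes the action rank 3). -/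
theorem result : (((Subgroup.closure ({Cfsg.Spor.Suz.a, Cfsg.Spor.Suz.b, Cfsg.Spor.Suz.c, Cfsg.Spor.Suz.d, Cfsg.Spor.Suz.e, Cfsg.Spor.Suz.f} : Set (FreeGroup Cfsg.Spor.Suz.Gen))).map (PresentedGroup.mk (Cfsg.Spor.coxRelators Cfsg.Spor.Suz.edges ∪ {r | r ∈ Cfsg.Spor.Suz.extra})))).index = 1782 ∧ ∃ q₁ q₂ : Cfsg.Spor.Suz ⧸ (((Subgroup.closure ({Cfsg.Spor.Suz.a, Cfsg.Spor.Suz.b, Cfsg.Spor.Suz.c, Cfsg.Spor.Suz.d, Cfsg.Spor.Suz.e, Cfsg.Spor.Suz.f} : Set (FreeGroup Cfsg.Spor.Suz.Gen))).map (PresentedGroup.mk (Cfsg.Spor.coxRelators Cfsg.Spor.Suz.edges ∪ {r | r ∈ Cfsg.Spor.Suz.extra})))), (MulAction.orbit (((Subgroup.closure ({Cfsg.Spor.Suz.a, Cfsg.Spor.Suz.b, Cfsg.Spor.Suz.c, Cfsg.Spor.Suz.d, Cfsg.Spor.Suz.e, Cfsg.Spor.Suz.f} : Set (FreeGroup Cfsg.Spor.Suz.Gen))).map (PresentedGroup.mk (Cfsg.Spor.coxRelators Cfsg.Spor.Suz.edges ∪ {r | r ∈ Cfsg.Spor.Suz.extra})))) q₁).ncard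 = 416 ∧ (MulAction.orbit (((Subgroup.closure ({Cfsg.Spor.Suz.a, Cfsg.Spor.Suz.b, Cfsg.Spor.Suz.c, Cfsg.Spor.Suz.d, Cfsg.Spor.Suz.e, Cfsg.Spor.Suz.f} : Set (FreeGroup Cfsg.Spor.Suz.Gen))).map (PresentedGroup.mk (Cfsg.Spor.coxRelators Cfsg.Spor.Suz.edges ∪ {r | r ∈ Cfsg.Spor.Suz.extra})))) q₂).ncard = 1365 := by
  rw [map_closure_eq mem_gens [Spor.Suz.a, Spor.Suz.b, Spor.Suz.c, Spor.Suz.d, Spor.Suz.e, Spor.Suz.f]
    (by simp) (E := E) (by decide +kernel)]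
  have h1 := orb1
  have h2 := orb2
  rw [wgen_E] at h1 h2 ⊢
  have := pretrans
  refine ⟨by rw [index_stabilizer_of_transitive]; simp, ?_⟩
  obtain ⟨g1, e1⟩ := exists_smul_eq Spor.Suz (finPt 1782 0) (finPt 1782 47)
  obtain ⟨g2, e2⟩ := exists_smul_eq Spor.Suz (finPt 1782 0) (finPt 1782 1)
  exact ⟨g1, g2, by rw [ncard_orbit_coset, e1, h1], by rw [ncard_orbit_coset, e2, h2]⟩

end Cfsg.Agent.S1680
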