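import Mathlib
import Cfsg.Statements.S1711
import Cfsg.Agent.Lib.J4.Order
-- import your own Cfsg.Agent.* helpers here

set_option autoImplicit false
open Cfsg

namespace Cfsg.Agent.S1711

/-- In the presented fourth Janko group (generators x, y, t), the subgroup generated by the images of x and y is isomorphic to the Mathieu group M₂₄. -/
theorem result : Nonempty ((((Subgroup.closure ({Cfsg.Spor.J4.x, Cfsg.Spor.J4.y} : Set (FreeGroup Cfsg.Spor.J4.Gen))).map (PresentedGroup.mk (Cfsg.Spor.coxRelators Cfsg.Spor.J4.edges ∪ {r | r ∈ Cfsg.Spor.J4.extra})))) ≃* Cfsg.M24) := by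
  rw [H54.map_closure_eq H66.J4.mem_gens [Cfsg.Spor.J4.x, Cfsg.Spor.J4.y] (by simp)
    (E := H54.letW 2) (by decide +kernel), H54.wgen_letW]
  exact H66.J4.equiv_M24

end Cfsg.Agent.S1711
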