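import Cfsg.Statements.S1717
import Cfsg.Agent.Lib.LocStruct.SylowIn
import Cfsg.Agent.Lib.Core.PCore
-- import your own Cfsg.Agent.* helpers here

set_option autoImplicit false
open Cfsg

namespace Cfsg.Agent.S1717

section
open Subgroup H69 Matrix

abbrev X := Matrix.SpecialLinearGroup (Fin 5) (ZMod 2)

def tv (i j : Fin 5) (h : i ≠ j) : X := ⟨transvection i j 1, det_transvection_of_ne i j h 1⟩

theorem tv_eq_defs (i j : Fin 5) (h : i ≠ j) :
    tv i j h = ⟨transvection i j 1, det_transvection_of_ne i j h 1⟩ := rfl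

theorem comm_tv {x : X} {i j : Fin 5} {h : i ≠ j} (hc : tv i j h * x = x * tv i j h) :
    (∀ k, k ≠ i → x k i = 0) ∧ (∀ k, k ≠ j → x j k = 0) ∧ x i i = x j j := by
  have e : transvection i j (1 : ZMod 2) * (x : Matrix (Fin 5) (Fin 5) (ZMod 2)) =
      (x : Matrix (Fin 5) (Fin 5) (ZMod 2)) * transvection i j 1 := congrArg Subtype.val hc
  refine ⟨fun k hk => ?_, fun k hk => ?_, ?_⟩
  · have := congrFun (congrFun e k) j
    rw [transvection_mul_apply_of_ne _ _ _ _ hk, mul_transvection_apply_same] at this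
    simpa using this
  · have := congrFun (congrFun e i) k
    rw [transvection_mul_apply_same, mul_transvection_apply_of_ne _ _ _ _ hk] at this
    simpa using this
  · have := congrFun (congrFun e i) j
    rw [transvection_mul_apply_same, mul_transvection_apply_same] at this
    simpa using this.symm

theorem h01 : (0 : Fin 5) ≠ 1 := by decide

theorem mul_apply' (a b : X) (i j : Fin 5) : (a * b) i j = ∑ k, a i k * b k j := by
  rw [← Matrix.mul_apply]; rfl

theorem one_apply' (i j : Fin 5) : (1 : X) i j = if i = j then 1 else 0 := by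
  rw [← Matrix.one_apply]; rfl

def rowG : Subgroup X where
  carrier := {a | ∀ i j, i ≠ 0 → a i j = (1 : X) i j}
  one_mem' := fun _ _ _ => rfl
  mul_mem' := fun {a b} ha hb i j hi => by
    rw [mul_apply', ← hb i j hi]
    simp [ha i _ hi, one_apply']
  inv_mem' := fun {a} ha i j hi => by
    rw [← mul_inv_cancel a, mul_apply']
    simp [ha i _ hi, one_apply']

def colG : Subgroup X where
  carrier := {a | ∀ i j, j ≠ 1 → a i j = (1 : X) i j}
  one_mem' := fun _ _ _ => rfl
  mul_mem' := fun {a b} ha hb i j hj => by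
    rw [mul_apply', ← ha i j hj]
    simp [hb _ j hj, one_apply']
  inv_mem' := fun {a} ha i j hj => by
    rw [← inv_mul_cancel a, mul_apply']
    simp [ha _ j hj, one_apply']

theorem rowG_eq_defs : ∀ a : X, a ∈ rowG ↔ ∀ i j, i ≠ 0 → a i j = (1 : X) i j := fun _ => Iff.rfl

theorem colG_eq_defs : ∀ a : X, a ∈ colG ↔ ∀ i j, j ≠ 1 → a i j = (1 : X) i j := fun _ => Iff.rfl

abbrev C : Subgroup X := centralizer {tv 0 1 h01}

theorem memC {g : X} (hg : g ∈ C) :
    (∀ k, k ≠ 0 → g k 0 = 0) ∧ (∀ k, k ≠ 1 → g 1 k = 0) ∧ g 0 0 = g 1 1 :=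
  comm_tv (mem_centralizer_iff.mp hg _ rfl)

theorem row_norm : C ≤ 𝐍(rowG) := le_normalizer_of_cj_le fun g hg x hx => by
  obtain ⟨a, ha, rfl⟩ := mem_cj'.mp hx
  intro i j hi
  have h : ∀ k, (g * a) i k = g i k := fun k => by
    have : ∀ l, g i l * a l k = g i l * (1 : X) l k := fun l => by
      by_cases hl : l = 0
      · rw [hl, (memC hg).1 i hi, zero_mul, zero_mul]
      · rw [ha l k hl]
    rw [mul_apply', Finset.sum_congr rfl fun l _ => this l, ← mul_apply', mul_one]
  rw [mul_apply', Finset.sum_congr rfl fun l _ => by rw [h l], ← mul_apply', mul_inv_cancel]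

theorem col_norm : C ≤ 𝐍(colG) := le_normalizer_of_cj_le fun g hg x hx => by
  obtain ⟨a, ha, rfl⟩ := mem_cj'.mp hx
  intro i j hj
  have h : ∀ k, (a * g⁻¹) k j = g⁻¹ k j := fun k => by
    have : ∀ l, a k l * g⁻¹ l j = (1 : X) k l * g⁻¹ l j := fun l => by
      by_cases hl : l = 1
      · rw [hl, (memC (inv_mem hg)).2.1 j hj, mul_zero, mul_zero]
      · rw [ha k l hl]
    rw [mul_apply', Finset.sum_congr rfl fun l _ => this l, ← mul_apply', one_mul]
  rw [mul_assoc, mul_apply', Finset.sum_congr rfl fun l _ => by rw [h l], ← mul_apply',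
    mul_inv_cancel]

theorem two_eq (a : ZMod 2) : a + a = 0 := by revert a; decide

theorem row_pgroup : IsPGroup 2 (C ⊓ rowG : Subgroup X) := isPGroup_iff_mem.mpr fun a ha => ⟨1, by
  have h0 : a 0 0 = 1 := by rw [(memC ha.1).2.2, ha.2 1 1 h01.symm, one_apply', if_pos rfl]
  ext i j
  by_cases hi : i = 0
  · subst hi
    rw [pow_one, pow_two, mul_apply', Fin.sum_univ_five, ha.2 1 j (by decide), ha.2 2 j (by decide),
      ha.2 3 j (by decide), ha.2 4 j (by decide), h0]
    fin_cases j <;> simp [one_apply', two_eq, h0]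
  · exact (rowG.pow_mem ha.2 _) i j hi⟩

theorem col_pgroup : IsPGroup 2 (C ⊓ colG : Subgroup X) := isPGroup_iff_mem.mpr fun a ha => ⟨1, by
  have h0 : a 1 1 = 1 := by rw [← (memC ha.1).2.2, ha.2 0 0 h01, one_apply', if_pos rfl]
  ext i j
  by_cases hj : j = 1
  · subst hj
    rw [pow_one, pow_two, mul_apply', Fin.sum_univ_five, ha.2 i 0 (by decide), ha.2 i 2 (by decide),
      ha.2 i 3 (by decide), ha.2 i 4 (by decide), h0]
    fin_cases i <;> simp [one_apply', two_eq, h0]
  · exact (colG.pow_mem ha.2 _) i j hj⟩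

theorem tv_row (j : Fin 5) (h : (0 : Fin 5) ≠ j) : tv 0 j h ∈ C ⊓ rowG := by
  refine ⟨mem_centralizer_iff.mpr ?_, ?_⟩
  · rintro _ rfl
    revert j; decide +kernel
  · refine (rowG_eq_defs _).mpr fun a b ha => ?_
    show transvection 0 j (1 : ZMod 2) a b = (1 : Matrix _ _ _) a b
    simp [transvection, Matrix.single, ha.symm]

theorem tv_col (i : Fin 5) (h : i ≠ 1) : tv i 1 h ∈ C ⊓ colG := by
  refine ⟨mem_centralizer_iff.mpr ?_, ?_⟩
  · rintro _ rfl
    revert i; decide +kernel
  · refine (colG_eq_defs _).mpr fun a b hb => ?_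
    show transvection i 1 (1 : ZMod 2) a b = (1 : Matrix _ _ _) a b
    simp [transvection, Matrix.single, hb.symm]

theorem key {T : Subgroup X} (hT : IsSylowIn 2 T C) {x : X} (hx : x ∈ 𝐂(T)) :
    x = 1 ∨ x = tv 0 1 h01 := by
  have hA : C ⊓ rowG ≤ T := hT.le_of_le_normalizer row_pgroup inf_le_left
    (hT.le.trans (le_normalizer_inf le_normalizer row_norm))
  have hB : C ⊓ colG ≤ T := hT.le_of_le_normalizer col_pgroup inf_le_left
    (hT.le.trans (le_normalizer_inf le_normalizer col_norm))
  have h1 := fun j h => comm_tv (mem_centralizer_iff.mp hx _ (hA (tv_row j h)))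
  have h2 := fun i h => comm_tv (mem_centralizer_iff.mp hx _ (hB (tv_col i h)))
  have hoff : ∀ i j, i ≠ j → (i ≠ 0 ∨ j ≠ 1) → x i j = 0 := by
    rintro i j hij (h | h)
    · exact (h1 i h.symm).2.1 j hij.symm
    · exact (h2 j h).1 i hij
  have hd : ∀ j, x j j = x 0 0 := fun j => by
    by_cases h : 0 = j
    · rw [h]
    · exact (h1 j h).2.2.symm
  have h0 : x 0 0 = 1 := by
    have := mul_apply' x⁻¹ x 0 0
    rw [inv_mul_cancel, one_apply', if_pos rfl, Fin.sum_univ_five, hoff 1 0 (by decide) (by decide),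
      hoff 2 0 (by decide) (by decide), hoff 3 0 (by decide) (by decide),
      hoff 4 0 (by decide) (by decide)] at this
    simp only [mul_zero, add_zero] at this
    revert this
    generalize x⁻¹ 0 0 = a
    generalize x 0 0 = b
    revert a b; decide
  have hgen : ∀ y : X, (∀ i j, i ≠ j → (i ≠ 0 ∨ j ≠ 1) → y i j = 0) → (∀ j, y j j = 1) →
      y 0 1 = x 0 1 → x = y := by
    intro y a b c
    ext i j
    by_cases hij : i = j
    · rw [hij, hd, h0, b]
    · by_cases h : i ≠ 0 ∨ j ≠ 1
      · rw [hoff i j hij h, a i j hij h]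
      · push Not at h
        rw [h.1, h.2, c]
  have : x 0 1 = 0 ∨ x 0 1 = 1 := by generalize x 0 1 = a; revert a; decide
  rcases this with h | h
  · exact Or.inl (hgen 1 (fun i j a _ => by rw [one_apply', if_neg a]) (by decide +kernel) (by rw [h]; decide +kernel))
  · exact Or.inr (hgen _ (fun i j a b => by
      revert a b; fin_cases i <;> fin_cases j <;> decide +kernel) (by unfold tv; decide +kernel)
      (by rw [h]; unfold tv; decide +kernel))

theorem main {G : Type*} [Group G] [Finite G] (z : G) (hz : orderOf z = 2)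
    (e : (centralizer ({z} : Set G)) ≃* C) (T : Sylow 2 (centralizer ({z} : Set G))) :
    ¬ 2 ∣ ((T : Subgroup (centralizer ({z} : Set G))).map (centralizer ({z} : Set G)).subtype).index := by
  set S := (T : Subgroup (centralizer ({z} : Set G))).map (centralizer ({z} : Set G)).subtype with hS
  have hS1 : IsSylowIn 2 S (centralizer {z}) := isSylowIn_map_subtype T
  let f : centralizer ({z} : Set G) →* X := C.subtype.comp e.toMonoidHom
  have hf : Function.Injective f := Subtype.val_injective.comp e.injective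
  have hT : IsSylowIn 2 ((T : Subgroup _).map f) C := by
    have := (isSylowIn_top T).map f
    rwa [← MonoidHom.range_eq_map, MonoidHom.range_comp, MonoidHom.range_eq_top.mpr e.surjective,
      map_subtype_top] at this
  have hz1 : z ≠ 1 := by rintro rfl; simp at hz
  have hzc : z ∈ centralizer ({z} : Set G) := mem_centralizer_iff.mpr (by rintro _ rfl; rfl)
  have hk : ∀ y : centralizer ({z} : Set G), (y : G) ∈ 𝐂(S) → y ≠ 1 → f y = tv 0 1 h01 := by
    intro y hy h1
    refine (key hT (mem_centralizer_iff.mpr ?_)).resolve_left fun h => h1 (hf (by rw [h, map_one]))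
    rintro _ ⟨t, ht, rfl⟩
    rw [← map_mul, ← map_mul]
    exact congrArg f (Subtype.ext (mem_centralizer_iff.mp hy _ ⟨t, ht, rfl⟩))
  have hzS : z ∈ 𝐂(S) := mem_centralizer_iff.mpr fun s hs =>
    (mem_centralizer_iff.mp (hS1.le hs) z rfl).symm
  have hzp : IsPGroup 2 (zpowers z) := IsPGroup.of_card (n := 1) (by rw [Nat.card_zpowers, hz]; rfl)
  have hzS' : z ∈ S := hS1.le_of_le_normalizer' hzp (zpowers_le.mpr hzc)
    (le_normalizer_of_le_centralizer (zpowers_le.mpr hzS)) (mem_zpowers z)
  have hN : 𝐍(S) ≤ centralizer {z} := by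
    intro g hg
    have h1 : g * z * g⁻¹ ∈ S := conj_mem_of_mem_normalizer hg hzS'
    have h2 : g * z * g⁻¹ ∈ 𝐂(S) :=
      conj_mem_of_mem_normalizer (normalizer_le_normalizer_centralizer S hg) hzS
    have h3 := hk ⟨_, hS1.le h1⟩ h2 (fun h => hz1 (by simpa using congrArg Subtype.val h))
    have h4 := hk ⟨z, hzc⟩ hzS (fun h => hz1 (congrArg Subtype.val h))
    have h5 : g * z * g⁻¹ = z := congrArg Subtype.val (hf (h3.trans h4.symm))
    refine mem_centralizer_iff.mpr ?_
    rintro _ rfl
    exact (mul_inv_eq_iff_eq_mul.mp h5).symm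
  have := (isSylowIn_of_normalizer (L := ⊤) le_top
    (hS1.mono (le_inf le_top le_normalizer) (inf_le_right.trans hN))).not_dvd_relIndex
  rwa [relIndex_top_right] at this

end

/-- Let G be a finite group with an involution z whose centraliser C is isomorphic to the centraliser of a transvection of SL(5, 2). Then a Sylow 2-subgroup of C, viewed in G, is a Sylow 2-subgroup of G (its index in G is odd). -/
theorem result {G : Type*} [Group G] [Finite G] (s : Matrix.SpecialLinearGroup (Fin 5) (ZMod 2)) (hs : (s : Matrix (Fin 5) (Fin 5) (ZMod 2)) = Matrix.transvection 0 1 1) (z : G) (hz : orderOf z = 2) (e : (Subgroup.centralizer ({z} : Set G)) ≃* Subgroup.centralizer ({s} : Set (Matrix.SpecialLinearGroup (Fin 5) (ZMod 2)))) (T : Sylow 2 (Subgroup.centralizer ({z} : Set G))) : ¬ 2 ∣ ((T : Subgroup (Subgroup.centralizer ({z} : Set G))).map (Subgroup.subtype (Subgroup.centralizer ({z} : Set G)))).index := by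
  obtain rfl : s = tv 0 1 h01 := Subtype.ext hs
  exact main z hz e T

end Cfsg.Agent.S1717
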