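import Mathlib
import Cfsg.Statements.S1743
import Cfsg.Agent.Lib.G2S.Fus
import Cfsg.Agent.Lib.G2S.Syl
-- import your own Cfsg.Agent.* helpers here

set_option autoImplicit false
open Cfsg

namespace Cfsg.Agent.S1743

/-- Let G be a finite simple group whose Sylow 2-subgroups are isomorphic to a Sylow 2-subgroup of the Chevalley group of type G₂ over a finite field of odd order, and let S be a Sylow 2-subgroup of G. Then either all involutions of G are conjugate, or S has order 64 and the involutions of G form exactly two conjugacy classes. -/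
theorem result {G : Type*} [Group G] [Finite G] [IsSimpleGroup G]
    {F : Type*} [Field F] [Fintype F] (hF : Odd (Fintype.card F)) (S : Sylow 2 G) (P : Sylow 2 ↥(Cfsg.Lie.chevG2.group F))
    (hS : Nonempty (↥(S : Subgroup G) ≃* ↥(P : Subgroup ↥(Cfsg.Lie.chevG2.group F)))) :
    (∀ x y : G, orderOf x = 2 → orderOf y = 2 → IsConj x y) ∨
      (Nat.card ↥(S : Subgroup G) = 64 ∧ ∃ x y : G, orderOf x = 2 ∧ orderOf y = 2 ∧ ¬ IsConj x y ∧
        ∀ z : G, orderOf z = 2 → IsConj z x ∨ IsConj z y) := by
  obtain ⟨e⟩ := hS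
  obtain ⟨k, ⟨e'⟩⟩ := H91.G2S.sylow_g2 hF P
  obtain ⟨z, t, hz, ht, h1, h2⟩ := H91.G2S.fusion (H91.G2S.hyp_zmod k) S (e.trans e')
  by_cases c : IsConj z t
  · have : ∀ x, orderOf x = 2 → IsConj x z := fun x hx => (h1 x hx).elim id fun a => a.trans c.symm
    exact Or.inl fun x y hx hy => (this x hx).trans (this y hy).symm
  · refine Or.inr ⟨?_, z, t, hz, ht, c, h1⟩
    cases k with
    | zero => rw [Nat.card_congr (e.trans e').toEquiv, H91.G2S.Md.card, Nat.card_zmod]; rfl
    | succ k => exact absurd (h2 ⟨2 ^ k, by ring⟩) c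

end Cfsg.Agent.S1743
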