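import Cfsg.Statements.S1752
import Cfsg.Agent.Lib.HNT.StD
import Cfsg.Agent.Lib.HNT.StE
-- import your own Cfsg.Agent.* helpers here

set_option autoImplicit false
open Cfsg

namespace Cfsg.Agent.S1752

open H54 H54.HN H54.HNT Subgroup in
/-- Let G be a non-abelian finite simple group with the strong B-property (every section of G has the B-property) possessing a standard subgroup L whose centre has order 2 with quotient isomorphic to the Higman–Sims group. Then G is a group of Lie type in characteristic 3, or an alternating group of degree at least 9, or G is isomorphic to the Harada–Norton group. -/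
theorem result {G : Type*} [Group G] [Finite G] [IsSimpleGroup G] (hG : ¬ IsMulCommutative G)
    (hB : Cfsg.HasStrongBProperty G) (L : Subgroup G) (hL : Cfsg.IsStandardSubgroup L)
    (hLX : Nat.card ↥(Subgroup.center ↥L) = 2 ∧ Nonempty (↥L ⧸ Subgroup.center ↥L ≃* ↥Cfsg.Spor.HS)) :
    Cfsg.IsLieTypeChar 3 G ∨ (∃ n : ℕ, 9 ≤ n ∧ Nonempty (G ≃* ↥(alternatingGroup (Fin n)))) ∨ Cfsg.Spor.IsoHN G := by
  classical
  obtain ⟨s⟩ := cover_equiv (M := L) ⟨hLX.1, hLX.2, fun A hA => by
    have h2 : A.index = 2 := hA.index_eq_card.trans hLX.1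
    have h1 : commutator L ≤ A := commutator_le.2 fun a _ b _ => by
      simp only [commutatorElement_def, mul_mem_iff_of_index_two h2, inv_mem_iff]; tauto
    rw [top_le_iff.1 (hL.1.1.commutator_eq_top.ge.trans h1), index_top] at h2
    omega⟩
  let F : P → G := fun q => if h : q ∈ K then s ⟨q, h⟩ else 1
  have F0 : ∀ {q} (h : q ∈ K), F q = s ⟨q, h⟩ := fun h => dif_pos h
  have FL : ∀ l ∈ L, ∃ q ∈ K, F q = l := fun l hl => by
    obtain ⟨q, e⟩ := s.surjective ⟨l, hl⟩
    exact ⟨q, q.2, (F0 q.2).trans (congrArg Subtype.val e)⟩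
  have Fi : ∀ {q r}, q ∈ K → r ∈ K → F q = F r → q = r := fun a b e => by
    rw [F0 a, F0 b] at e; exact congrArg Subtype.val (s.injective (Subtype.ext e))
  have Fm : ∀ {q r}, q ∈ K → r ∈ K → F (q * r) = F q * F r := fun a b => by
    rw [F0 a, F0 b, F0 (K.mul_mem a b), ← coe_mul, ← map_mul]; rfl
  have F1 : F 1 = 1 := (F0 K.one_mem).trans (congrArg Subtype.val (map_one s))
  have aC : ∀ {a}, Act F a 1 ↔ a ∈ centralizer (L : Set G) := fun {a} => ⟨fun h l hl => by
    obtain ⟨q, hq, rfl⟩ := FL l hl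
    exact (h.cF hq (Commute.one_left _)).symm, fun h y hy => by
      rw [← h (F y) (F0 hy ▸ (s _).2), mul_inv_cancel_right, one_mul, inv_one, mul_one]⟩
  have ti : ∀ {a g}, a * a = 1 → a ≠ 1 → Act F a 1 → Act F (g * a * g⁻¹) 1 → g ∈ normalizer (L : Set G) :=
    fun {a g} a2 a1 h h' => hL.2.2.2 ▸ by_contra fun hn => by
      have := (hL.2.1.2 g hn).of_dvd_nat
        (Subgroup.orderOf_dvd_natCard (x := g * a * g⁻¹) _ (mem_inf.2 ⟨aC.1 h', a, aC.1 h, rfl⟩))
      rw [H9.orderOf_conj, H9.orderOf_eq_two_of_mul_self a1 a2] at this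
      exact absurd this (by decide)
  have act : ∀ {g}, g ∈ normalizer (L : Set G) → ∃ q, Act F g q := fun {g} h => by
    obtain ⟨k, e | e⟩ := aut_of_out_two π π_surj cover.2.2 perfect_K H16.card_Out_HS _ out_z
      (s.trans ((L.normalizerMonoidHom ⟨g, h⟩).trans s.symm))
    · exact ⟨k, fun y hy => by
        rw [F0 hy, F0 (conjK.2 hy)]; exact congrArg Subtype.val (s.symm_apply_eq.1 (e ⟨y, hy⟩))⟩
    · exact ⟨p 2 * k, fun y hy => by
        rw [F0 hy, F0 (conjK.2 hy)]
        exact (congrArg Subtype.val (s.symm_apply_eq.1 (e ⟨y, hy⟩))).trans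
          (congrArg (fun x => (s x : G)) (Subtype.ext (by simp [mul_assoc])))⟩
  have tt : F c * F c = 1 := by rw [← Fm cK cK, c_sq, F1]
  have t1 : F c ≠ 1 := fun h => sq_ne (Fi cK K.one_mem (h.trans F1.symm))
  have at1 : Act F (F c) 1 := fun y hy => by
    rw [← Fm cK hy, ← (cen y).eq, Fm hy cK, mul_inv_cancel_right, one_mul, inv_one, mul_one]
  have E : St F := ⟨Fi, Fm, fun h => act (ti tt t1 at1 (by rwa [h.eq, mul_inv_cancel_right])),
    fun a2 a1 h h' => (act (ti a2 a1 h h')).elim fun _ a => a.ct⟩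
  obtain ⟨g, hg, hn⟩ : ∃ g, Commute (g * F c * g⁻¹) (F c) ∧ g * F c * g⁻¹ ≠ F c := by
    by_contra hn
    push Not at hn
    have := H73.centralizer_sup_oddCore_eq_top' (H9.orderOf_eq_two_of_mul_self t1 tt) hn
    rcases IsSimpleGroup.eq_bot_or_eq_top_of_normal (oddCore G) inferInstance with e | e
    · rw [e, sup_bot_eq] at this
      rcases IsSimpleGroup.eq_bot_or_eq_top_of_normal (center G) inferInstance with e | e
      · exact t1 (mem_bot.1 (e ▸ mem_center_iff.2 fun g => mem_centralizer_singleton_iff.1 (this ▸ trivial)))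
      · exact hG ⟨⟨fun a b => mem_center_iff.1 (e ▸ trivial : b ∈ _) a⟩⟩
    · have := (H1.odd_card_oddCore (G := G)).of_dvd_nat (Subgroup.orderOf_dvd_natCard _ (e ▸ trivial : F c ∈ _))
      rw [H9.orderOf_eq_two_of_mul_self t1 tt] at this
      exact absurd this (by decide)
  obtain ⟨j, g, b, S⟩ := E.sw (E.De hg hn)
  obtain ⟨φ, i, a, hc, ho⟩ := S.exists_hom
  have e : φ (H15K.yg 3) = j c := H15K.θ_c ▸ a c
  have := H15K.norm_top i (e ▸ hc) (fun g h => by
    rw [e] at h ⊢
    obtain ⟨q, e⟩ := S.hT g h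
    exact ⟨θ q, (a q).trans e⟩) (fun h => S.E.not_s (by
      rw [← e, ← a]
      rcases H15K.two (d := θ (ev [8, 10, 10])) (by rw [← map_mul, ml _ _ []]; exact map_one θ)
        (fun e => nev [8, 10, 10] [] (by decide +kernel) (θ_inj (e.trans (map_one θ).symm))) with h' | h'
      exacts [(φ.map_isConj h').symm, h.trans (φ.map_isConj h').symm])) ho
  refine .inr (.inr ⟨(MulEquiv.ofBijective φ ⟨i, MonoidHom.range_eq_top.1 ((IsSimpleGroup.eq_bot_or_eq_top_of_normal _
    (normalizer_eq_top_iff.1 this)).resolve_left fun h => S.E.t1 ?_)⟩).symm⟩)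
  exact mem_bot.1 (h ▸ ⟨_, e⟩)

end Cfsg.Agent.S1752
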