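import Mathlib
import Cfsg.Statements.S1755
import Cfsg.Agent.Lib.Cls.Basic

set_option autoImplicit false
open Cfsg

namespace Cfsg.Agent.S1755



/-- Let G be a finite group and let z be an involution of G such that Q, the generalized Fitting subgroup of the centralizer C of z, is a 2-group of symplectic type (every characteristic abelian subgroup of Q is cyclic). Let B be a characteristic abelian subgroup of Q, viewed as a subgroup of G. Then for every g in G, the conjugate of B by g either equals B or meets B trivially. -/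
theorem result {G : Type*} [Group G] [Finite G] (z : G) (hz : orderOf z = 2) (hQ : Cfsg.IsOfSymplecticType ↥(Cfsg.generalizedFittingSubgroup ↥(Subgroup.centralizer ({z} : Set G))))
    (B : Subgroup ↥(Cfsg.generalizedFittingSubgroup ↥(Subgroup.centralizer ({z} : Set G)))) (hBc : B.Characteristic) (hBa : IsMulCommutative ↥B) (g : G) :
    ((B.map (Cfsg.generalizedFittingSubgroup ↥(Subgroup.centralizer ({z} : Set G))).subtype).map (Subgroup.centralizer ({z} : Set G)).subtype).map (MulAut.conj g).toMonoidHom =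
        (B.map (Cfsg.generalizedFittingSubgroup ↥(Subgroup.centralizer ({z} : Set G))).subtype).map (Subgroup.centralizer ({z} : Set G)).subtype ∨
      ((B.map (Cfsg.generalizedFittingSubgroup ↥(Subgroup.centralizer ({z} : Set G))).subtype).map (Subgroup.centralizer ({z} : Set G)).subtype).map (MulAut.conj g).toMonoidHom ⊓
        (B.map (Cfsg.generalizedFittingSubgroup ↥(Subgroup.centralizer ({z} : Set G))).subtype).map (Subgroup.centralizer ({z} : Set G)).subtype = ⊥ := by
  let C := Subgroup.centralizer ({z} : Set G)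
  let Q := Cfsg.generalizedFittingSubgroup C
  let B' := (B.map Q.subtype).map C.subtype
  have hB' : B' = (B.map Q.subtype).map C.subtype := rfl
  change B'.map (MulAut.conj g).toMonoidHom = B' ∨ B'.map (MulAut.conj g).toMonoidHom ⊓ B' = ⊥
  have hzC : z ∈ C := Subgroup.mem_centralizer_singleton_iff.mpr rfl
  have hzZ : (⟨z, hzC⟩ : C) ∈ Subgroup.center C := by
    rw [Subgroup.mem_center_iff]
    intro c
    exact Subtype.ext (Subgroup.mem_centralizer_singleton_iff.mp c.2)
  have hzQ : (⟨z, hzC⟩ : C) ∈ Q := H19.center_le_genFitting hzZ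
  have hz1 : z ≠ 1 := by rintro rfl; simp at hz
  have hz2 : z ^ 2 = 1 := by rw [← hz]; exact pow_orderOf_eq_one z
  have hBcyc : IsCyclic B := hQ.2 B hBc hBa
  have hB'cyc : IsCyclic B' := by
    have e1 := B.equivMapOfInjective Q.subtype Q.subtype_injective
    have e2 := (B.map Q.subtype).equivMapOfInjective C.subtype C.subtype_injective
    exact isCyclic_of_surjective (e1.trans e2) (e1.trans e2).surjective
  have hB'2 : IsPGroup 2 B' := ((hQ.1.to_subgroup B).map _).map _
  have hzB : B' ≠ ⊥ → z ∈ B' := by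
    intro hne
    have hBne : B ≠ ⊥ := by
      intro h
      apply hne
      rw [hB', h]
      simp
    obtain ⟨x, hxB, hx2, hxc⟩ := H19.exists_mem_orderOf_eq_commute (P := ⊤) (K := B)
      (hQ.1.to_subgroup ⊤) (hQ.1.to_subgroup B) Subgroup.le_normalizer_of_normal hBne
    have hZcyc : IsCyclic (Subgroup.center Q) := hQ.2 _ inferInstance inferInstance
    have hxZ : x ∈ Subgroup.center Q := by
      rw [Subgroup.mem_center_iff]
      intro q
      exact (hxc q (by simp)).symm
    have hzZ' : (⟨⟨z, hzC⟩, hzQ⟩ : Q) ∈ Subgroup.center Q := by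
      rw [Subgroup.mem_center_iff]
      intro q
      exact Subtype.ext (Subgroup.mem_center_iff.mp hzZ q)
    have : x = ⟨⟨z, hzC⟩, hzQ⟩ := by
      refine H19.eq_of_mem_isCyclic hZcyc hxZ hzZ' ?_ ?_ ?_ ?_
      · rintro rfl; simp at hx2
      · rw [← hx2]; exact pow_orderOf_eq_one x
      · intro h; exact hz1 (congrArg (fun y : Q => ((y : C) : G)) h)
      · exact Subtype.ext (Subtype.ext hz2)
    exact ⟨⟨z, hzC⟩, ⟨x, hxB, by rw [this]; rfl⟩, rfl⟩
  have hnorm : C ≤ Subgroup.normalizer (B' : Set G) := by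
    have hQn : Q.Normal := H19.genFitting_normal C
    have h1 : (B.map Q.subtype).Normal := ConjAct.normal_of_characteristic_of_normal
    intro c hc
    rw [Subgroup.mem_normalizer_iff]
    have key : ∀ c ∈ C, ∀ h ∈ B', c * h * c⁻¹ ∈ B' := by
      rintro c hc h ⟨y, hy, rfl⟩
      exact ⟨_, h1.conj_mem y hy ⟨c, hc⟩, rfl⟩
    intro h
    refine ⟨key c hc h, fun hh => ?_⟩
    have := key c⁻¹ (C.inv_mem hc) _ hh
    simpa [mul_assoc] using this
  by_cases hbot : B'.map (MulAut.conj g).toMonoidHom ⊓ B' = ⊥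
  · exact Or.inr hbot
  left
  have hB'ne : B' ≠ ⊥ := by
    intro h
    apply hbot
    rw [h, inf_bot_eq]
  have hz' := hzB hB'ne
  obtain ⟨x, hx, hx2, -⟩ := H19.exists_mem_orderOf_eq_commute (P := ⊥)
    (K := B'.map (MulAut.conj g).toMonoidHom ⊓ B') IsPGroup.of_bot hB'2.to_inf_right bot_le hbot
  have hx1 : x ≠ 1 := by rintro rfl; simp at hx2
  have hx2' : x ^ 2 = 1 := by rw [← hx2]; exact pow_orderOf_eq_one x
  have h1 : x = z := H19.eq_of_mem_isCyclic hB'cyc hx.2 hz' hx1 hx2' hz1 hz2
  have h2 : g⁻¹ * x * g = z := by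
    refine H19.eq_of_mem_isCyclic hB'cyc (H1.mem_map_conj_iff.mp hx.1) hz' ?_ ?_ hz1 hz2
    · intro h
      apply hx1
      have : x = g * (g⁻¹ * x * g) * g⁻¹ := by group
      rw [this, h]; simp
    · have : (g⁻¹ * x * g) ^ 2 = g⁻¹ * x ^ 2 * g := by simp [pow_two, mul_assoc]
      rw [this, hx2']; simp
  have hg : g ∈ C := by
    rw [Subgroup.mem_centralizer_singleton_iff]
    rw [h1] at h2
    calc g * z = g * (g⁻¹ * z * g) := by rw [h2]
      _ = z * g := by group
  exact H1.mem_normalizer_iff_conj_smul_eq.mp (hnorm hg)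

end Cfsg.Agent.S1755
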