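import Mathlib
import Cfsg.Statements.S1756
import Cfsg.Agent.Lib.PGroup.Extra
import Cfsg.Agent.Lib.FGS83.Meta2

set_option autoImplicit false
open Cfsg
open scoped commutatorElement

namespace Cfsg.Agent.S1756

/-- Let Q be an extraspecial 2-subgroup of the finite group G (special with centre of order 2) and t an involution of G normalizing Q such that the centralizer of t in Q has index at most 2 in Q. Then t lies in the product of Q with the centralizer of Q. -/
theorem result {G : Type*} [Group G] [Finite G] (Q : Subgroup G)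
    (hQ : Cfsg.IsExtraspecial 2 ↥Q) (t : G) (ht : orderOf t = 2) (htN : t ∈ Subgroup.normalizer (Q : Set G))
    (hi : (Subgroup.centralizer ({t} : Set G) ⊓ Q).relIndex Q ≤ 2) :
    t ∈ Q ⊔ Subgroup.centralizer (Q : Set G) := by
  obtain ⟨z, h1, -⟩ := H5.exists_wes hQ
  have hz2 : z * z = 1 := by rw [← pow_two, ← h1.ord, pow_orderOf_eq_one]
  have ht2 : t * t = 1 := by rw [← pow_two, ← ht, pow_orderOf_eq_one]
  have hconj : ∀ x ∈ Q, t * x * t⁻¹ ∈ Q := fun x hx => (Subgroup.mem_normalizer_iff.1 htN x).1 hx
  have htz : Commute t z := by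
    have h2 : t ∈ Subgroup.normalizer (Subgroup.zpowers z : Set G) := by
      rw [← h1.cent]
      exact H69.le_normalizer_inf le_rfl (H69.normalizer_le_normalizer_centralizer Q) htN
    rcases H83.mem_zpowers_invol hz2
      ((Subgroup.mem_normalizer_iff.1 h2 z).1 (Subgroup.mem_zpowers z)) with h | h
    · have : z = 1 := by simpa using h
      rw [this]; exact Commute.one_right t
    · rw [Commute, SemiconjBy]; conv_rhs => rw [← h]
      group
  have hmul : ∀ a ∈ Q, ∀ b ∈ Q, ¬ Commute a t → ¬ Commute b t → Commute (a * b) t := by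
    intro a ha b hb hat hbt
    have h0 : (Subgroup.centralizer ({t} : Set G) ⊓ Q).relIndex Q ≠ 0 :=
      Subgroup.index_ne_zero_of_finite
    have h2 : (Subgroup.centralizer ({t} : Set G) ⊓ Q).relIndex Q ≠ 1 := fun h =>
      hat (Subgroup.mem_centralizer_singleton_iff.1 (Subgroup.relIndex_eq_one.1 h ha).1)
    have h3 : ((Subgroup.centralizer ({t} : Set G) ⊓ Q).subgroupOf Q).index = 2 := by
      change (Subgroup.centralizer ({t} : Set G) ⊓ Q).relIndex Q = 2
      omega
    have := (Subgroup.mul_mem_iff_of_index_two h3 (a := ⟨a, ha⟩) (b := ⟨b, hb⟩)).2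
      (iff_of_false (fun h => hat (Subgroup.mem_centralizer_singleton_iff.1 h.1))
        fun h => hbt (Subgroup.mem_centralizer_singleton_iff.1 h.1))
    exact Subgroup.mem_centralizer_singleton_iff.1 this.1
  have hc : ∀ x ∈ Q, ⁅t, x⁆ ∈ Subgroup.zpowers z := fun x hx => by
    by_cases hxt : Commute x t
    · rw [commutatorElement_eq_one_iff_commute.2 hxt.symm]; exact one_mem _
    set c := x⁻¹ * (t * x * t⁻¹) with hcdef
    have hcQ : c ∈ Q := mul_mem (inv_mem hx) (hconj x hx)
    have htx : t * x * t⁻¹ = x * c := by rw [hcdef]; group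
    have hct : Commute c t := hmul _ (inv_mem hx) _ (hconj x hx) (fun h => hxt (by simpa using h.inv_left))
      fun h => hxt (by
        have := h.eq
        calc x * t = t⁻¹ * (t * x * t⁻¹ * t) * t := by group
          _ = t * x := by rw [this]; group)
    have hc2 : c * c = 1 := by
      have : x = x * c * c := by
        calc x = (t * t) * x * (t * t)⁻¹ := by rw [ht2]; group
          _ = t * (t * x * t⁻¹) * t⁻¹ := by group
          _ = t * (x * c) * t⁻¹ := by rw [htx]
          _ = (t * x * t⁻¹) * (t * c * t⁻¹) := by group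
          _ = x * c * c := by rw [htx, show t * c * t⁻¹ = c by rw [← hct.eq]; group]
      rw [mul_assoc] at this
      exact (mul_eq_left.1 this.symm)
    have hM : ∀ m ∈ Q, Commute m t → Commute m c := fun m hm hmt => by
      have h2 : Commute (x * m * x⁻¹) t := by
        rw [H5.conj_eq_commutator_mul]
        refine Commute.mul_left ?_ hmt
        obtain ⟨k, hk⟩ := h1.comm x hx m hm
        rw [← hk]
        exact (htz.symm.zpow_left k)
      have h3 : x * c * m * (x * c)⁻¹ = x * m * x⁻¹ := by
        calc x * c * m * (x * c)⁻¹ = (t * x * t⁻¹) * (t * m * t⁻¹) * (t * x * t⁻¹)⁻¹ := by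
              rw [htx, ← hmt.eq]; group
          _ = t * (x * m * x⁻¹) * t⁻¹ := by group
          _ = _ := by rw [← h2.eq]; group
      calc m * c = x⁻¹ * (x * m * x⁻¹) * (x * c) := by group
        _ = c * m := by rw [← h3]; group
    have hxc : Commute x c := by
      have h2 := hmul x hx x hx hxt hxt
      have h3 : x * x = x * c * (x * c) := by
        calc x * x = t * (x * x) * t⁻¹ := by rw [← h2.eq]; group
          _ = (t * x * t⁻¹) * (t * x * t⁻¹) := by group
          _ = _ := by rw [htx]
      have h4 : x = c * x * c := by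
        calc x = x⁻¹ * (x * x) := by group
          _ = _ := by rw [h3]; group
      calc x * c = c * x * (c * c) := by conv_lhs => rw [h4]
                                         group
        _ = c * x := by rw [hc2, mul_one]
    have hcz : c ∈ Subgroup.zpowers z := h1.mem_zpowers_of_commute hcQ fun y hy => by
      by_cases hyt : Commute y t
      · exact hM y hy hyt
      · have := hM _ (mul_mem hy hx) (hmul y hy x hx hyt hxt)
        have h2 := this.mul_left hxc.inv_left
        rwa [mul_inv_cancel_right] at h2
    have : ⁅t, x⁆ = c := by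
      rw [commutatorElement_def, htx, hxc.eq]; group
    rwa [this]
  obtain ⟨w, hw, hw'⟩ := h1.exists_mul_centralizer Nat.prime_two Q t hc htz
  rw [show t = w * (w⁻¹ * t) by group]
  exact mul_mem (Subgroup.mem_sup_left hw) (Subgroup.mem_sup_right hw')

end Cfsg.Agent.S1756
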