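import Mathlib
import Cfsg.Statements.S1757
import Cfsg.Agent.Lib.Cls.Basic

set_option autoImplicit false
open Cfsg

namespace Cfsg.Agent.S1757



/-- Let p be a prime and A, B p-subgroups of the finite group G, each of which meets every conjugate of itself other than itself trivially. Suppose the order of A is at most that of B, A and B intersect trivially, and B normalizes A. Then A and B commute elementwise. -/
theorem result {G : Type*} [Group G] [Finite G] (p : ℕ) [Fact p.Prime] (A B : Subgroup G)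
    (hA : IsPGroup p ↥A) (hB : IsPGroup p ↥B)
    (hAti : ∀ g : G, A.map (MulAut.conj g).toMonoidHom = A ∨ A.map (MulAut.conj g).toMonoidHom ⊓ A = ⊥)
    (hBti : ∀ g : G, B.map (MulAut.conj g).toMonoidHom = B ∨ B.map (MulAut.conj g).toMonoidHom ⊓ B = ⊥)
    (hle : Nat.card ↥A ≤ Nat.card ↥B) (hAB : A ⊓ B = ⊥) (hN : B ≤ Subgroup.normalizer (A : Set G)) : ⁅A, B⁆ = ⊥ := by
  rw [Subgroup.commutator_eq_bot_iff_le_centralizer]
  by_contra hc
  obtain ⟨x, hxA, hxC, -, hcomm⟩ := H19.exists_mem_pow_mem_commutator_mem' hB hA hN hc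
  -- an element of `A` centralising a nontrivial element of `B` centralises `B`
  have key : ∀ a ∈ A, ∀ b ∈ B, b ≠ 1 → a * b = b * a → a ∈ Subgroup.centralizer (B : Set G) := by
    intro a ha b hb hb1 hab
    have hnorm : B.map (MulAut.conj a).toMonoidHom = B := by
      rcases hBti a with h | h
      · exact h
      · exfalso
        apply hb1
        rw [← Subgroup.mem_bot, ← h]
        refine Subgroup.mem_inf.mpr ⟨?_, hb⟩
        rw [H1.mem_map_conj_iff, mul_assoc, ← hab]
        simpa using hb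
    intro c hc
    have h1 : a * c * a⁻¹ ∈ B := by
      rw [← hnorm, H1.mem_map_conj_iff]
      simpa [mul_assoc] using hc
    have h2 : a * c * a⁻¹ * c⁻¹ ∈ A ⊓ B := by
      refine Subgroup.mem_inf.mpr ⟨?_, B.mul_mem h1 (B.inv_mem hc)⟩
      have := (Subgroup.mem_normalizer_iff.mp (hN hc) a⁻¹).mp (A.inv_mem ha)
      have h3 : a * c * a⁻¹ * c⁻¹ = a * (c * a⁻¹ * c⁻¹) := by group
      rw [h3]
      exact A.mul_mem ha this
    rw [hAB, Subgroup.mem_bot, mul_inv_eq_one, mul_inv_eq_iff_eq_mul] at h2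
    exact h2.symm
  let f : B → (A ⊓ Subgroup.centralizer (B : Set G) : Subgroup G) := fun b =>
    ⟨x * b * x⁻¹ * (b : G)⁻¹, Subgroup.mem_inf.mpr ⟨by
      have := (Subgroup.mem_normalizer_iff.mp (hN b.2) x⁻¹).mp (A.inv_mem hxA)
      have h3 : x * b * x⁻¹ * (b : G)⁻¹ = x * (b * x⁻¹ * (b : G)⁻¹) := by group
      rw [h3]
      exact A.mul_mem hxA this, hcomm b (Subgroup.mem_sup_left b.2)⟩⟩
  have hf : Function.Injective f := by
    intro b c hbc
    have h1 : x * b * x⁻¹ * (b : G)⁻¹ = x * c * x⁻¹ * (c : G)⁻¹ := congrArg Subtype.val hbc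
    by_contra hne
    apply hxC
    apply key x hxA ((c : G)⁻¹ * b) (B.mul_mem (B.inv_mem c.2) b.2)
    · intro h
      apply hne
      rw [inv_mul_eq_one] at h
      exact Subtype.ext h.symm
    · have h2 : (b : G) * x⁻¹ * (b : G)⁻¹ = c * x⁻¹ * (c : G)⁻¹ := by
        have := congrArg (fun y => x⁻¹ * y) h1
        simpa [mul_assoc] using this
      have h3 : (b : G) * x * (b : G)⁻¹ = c * x * (c : G)⁻¹ := by
        have := congrArg (fun y => y⁻¹) h2
        simpa [mul_assoc] using this
      calc x * ((c : G)⁻¹ * b) = (c : G)⁻¹ * (c * x * (c : G)⁻¹) * b := by group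
        _ = (c : G)⁻¹ * (b * x * (b : G)⁻¹) * b := by rw [h3]
        _ = (c : G)⁻¹ * b * x := by group
  have h1 := Nat.card_le_card_of_injective f hf
  have h2 : Nat.card (A ⊓ Subgroup.centralizer (B : Set G) : Subgroup G) < Nat.card A :=
    H1.card_lt_of_lt (lt_of_le_of_ne inf_le_left (fun h => hc (inf_eq_left.mp h)))
  omega

end Cfsg.Agent.S1757
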