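import Mathlib
import Cfsg.Agent.Base
import Cfsg.Agent.Lib.PComp.Basic
import Cfsg.Agent.Lib.Comp.PConstrained
import Cfsg.Statements.S1775

set_option autoImplicit false
open Cfsg

namespace Cfsg.Agent.S1775

open Subgroup H44
open scoped commutatorElement

/-- Let G be a finite group whose generalized Fitting subgroup is a non-abelian simple group and in which every proper section (every quotient H/N of a proper subgroup H, or of G by a nontrivial normal subgroup) has the B-property. Let x, y be commuting involutions, let D be the intersection of the 2-layer of C_G(x) with C_G(y), and let J be a 2-component of D. Write Q for the quotient of C_G(y) by its largest normal odd-order subgroup. Then (i) the image of J in Q is a component of the centralizer in Q of the image of x; and (ii) for every J-invariant subgroup E of odd order of C_G(x) ∩ C_G(y), the commutator subgroup [J, E] lies in the largest normal odd-order subgroup of C_G(y). -/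
theorem result {G : Type*} [Group G] [Finite G]
    (hF : IsSimpleGroup ↥(Cfsg.generalizedFittingSubgroup G)) (hF' : ¬ IsMulCommutative ↥(Cfsg.generalizedFittingSubgroup G))
    (hsec : ∀ (H : Subgroup G) (N : Subgroup ↥H) [N.Normal], (H ≠ ⊤ ∨ N ≠ ⊥) → Cfsg.HasBProperty (↥H ⧸ N))
    (x y : G) (hx : orderOf x = 2) (hy : orderOf y = 2) (hxy : x * y = y * x)
    (J : Subgroup ↥((Cfsg.pLayer 2 ↥(Subgroup.centralizer ({x} : Set G))).map (Subgroup.centralizer ({x} : Set G)).subtype ⊓ Subgroup.centralizer ({y} : Set G)))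
    (hJ : Cfsg.IsPComponent 2 J) :
    Cfsg.IsComponent
        ((((J.map (Subgroup.subtype _)).subgroupOf (Subgroup.centralizer ({y} : Set G))).map (QuotientGroup.mk' (Cfsg.oddCore ↥(Subgroup.centralizer ({y} : Set G))))).subgroupOf
          (Subgroup.centralizer ({(QuotientGroup.mk' (Cfsg.oddCore ↥(Subgroup.centralizer ({y} : Set G))) ⟨x, Subgroup.mem_centralizer_singleton_iff.mpr hxy⟩ : ↥(Subgroup.centralizer ({y} : Set G)) ⧸ Cfsg.oddCore ↥(Subgroup.centralizer ({y} : Set G)))} : Set _))) ∧
      ∀ E : Subgroup G, E ≤ Subgroup.centralizer ({x} : Set G) ⊓ Subgroup.centralizer ({y} : Set G) → Odd (Nat.card ↥E) →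
        (∀ j ∈ J.map (Subgroup.subtype _), ∀ e ∈ E, j * e * j⁻¹ ∈ E) →
          ⁅J.map (Subgroup.subtype _), E⁆ ≤ (Cfsg.oddCore ↥(Subgroup.centralizer ({y} : Set G))).map (Subgroup.centralizer ({y} : Set G)).subtype := by
  let Y := centralizer ({y} : Set G)
  let X := centralizer ({x} : Set G)
  have hX : X = centralizer ({x} : Set G) := rfl
  have hxY : x ∈ Y := mem_centralizer_singleton_iff.mpr hxy
  have hYt : Y ≠ ⊤ := by
    intro e
    have hc : ∀ g, g * y = y * g := fun g => mem_centralizer_singleton_iff.1 (e ▸ mem_top g : g ∈ Y)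
    have hyF : y ∈ Cfsg.generalizedFittingSubgroup G := H23.centralizer_fStar_le fun g _ => hc g
    rcases hF.eq_bot_or_eq_top_of_normal (center _) inferInstance with h | h
    · have : (⟨y, hyF⟩ : Cfsg.generalizedFittingSubgroup G) ∈ center _ :=
        mem_center_iff.2 fun g => Subtype.ext (hc g)
      rw [h, mem_bot] at this
      rw [show y = 1 from congrArg Subtype.val this] at hy
      simp at hy
    · exact hF' ⟨⟨fun a b => mem_center_iff.1 (h ▸ mem_top b : b ∈ center _) a⟩⟩
  have hB := hsec Y (Cfsg.oddCore Y) (Or.inl hYt)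
  let J' := J.map (Subgroup.subtype _)
  have h1 : PComp 2 J' (X ⊓ Y) :=
    (pcomp_map_subtype_iff.2 hJ).trans ((subnIn_pLayerOf X).inf_right Y)
  have hJY : J' ≤ Y := h1.le.trans inf_le_right
  let π := QuotientGroup.mk' (Cfsg.oddCore Y)
  let xb := π ⟨x, hxY⟩
  have hxb : xb = π ⟨x, hxY⟩ := rfl
  have hx2 : IsPGroup 2 (zpowers (⟨x, hxY⟩ : Y)) :=
    IsPGroup.of_card (n := 1) (by rw [Nat.card_zpowers, ← orderOf_coe, hx, pow_one])
  have hcen : ((X ⊓ Y).subgroupOf Y).map π = centralizer {xb} := by
    have := H23.map_centralizer_of_isPGroup (f := π) (QuotientGroup.mk'_surjective _)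
      (coprime_ker_mk' 2) hx2
    rw [MonoidHom.map_zpowers, zpowers_eq_closure, zpowers_eq_closure, centralizer_closure,
      centralizer_closure] at this
    rw [← this]
    congr 1
    ext g
    simp only [mem_subgroupOf, mem_inf, hX, mem_centralizer_singleton_iff, g.2, and_true]
    exact ⟨fun h => Subtype.ext h, fun h => congrArg Subtype.val h⟩
  have h2 : PComp 2 ((J'.subgroupOf Y).map π) (centralizer {xb}) :=
    hcen ▸ (h1.subgroupOf hJY).map_of_ker' (coprime_ker_mk'_inf 2 _)
  have hxb2 : orderOf xb = 2 := by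
    refine orderOf_eq_prime ?_ fun e => ?_
    · rw [hxb, ← map_pow]
      convert map_one π
      exact Subtype.ext (by simpa using hx ▸ pow_orderOf_eq_one x)
    · have hm : (⟨x, hxY⟩ : Y) ∈ Cfsg.oddCore Y := (QuotientGroup.eq_one_iff _).1 e
      have := coprime_of_le_pPrimeCore (zpowers_le.2 hm)
      rw [Nat.card_zpowers, ← orderOf_coe, hx] at this
      simp at this
  have h3 := hB xb hxb2
  rw [show Cfsg.oddCore (Y ⧸ Cfsg.oddCore Y) = ⊥ from pPrimeCore_quotient 2, map_commutator] at h3
  have hq : Cfsg.IsQuasisimple ((J'.subgroupOf Y).map π) :=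
    h2.isQuasisimple_iff.2 (le_bot_iff.1 ((commutator_mono h2.le_pLayerOf le_rfl).trans h3))
  refine ⟨(isComponentOf_iff.2 ⟨h2.subnIn, hq⟩).2, fun E hE hEo hEn => ?_⟩
  have hEY : E ≤ Y := hE.trans inf_le_right
  refine (commutator_barIn_eq_bot_iff (p := 2) hJY hEY).1 ?_
  have hEb : barIn 2 E Y ≤ centralizer {xb} := hcen ▸ map_mono (subgroupOf_mono _ hE)
  have hJn : J' ≤ normalizer (E : Set G) := fun j hj => mem_normalizer_fintype (hEn j hj)
  have hEc : (Nat.card (barIn 2 E Y)).Coprime 2 := by
    refine coprime_card_map ?_ _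
    rw [Nat.card_congr (subgroupOfEquivOfLe hEY).toEquiv]
    exact Nat.coprime_two_right.2 hEo
  refine h2.commutator_eq_bot_of_isQuasisimple hq hEb ?_
  refine (h2.le_sup_or_commutator_le hEb (barIn_le_normalizer hJn Y)).resolve_left fun h => ?_
  exact h2.pquasi.not_le_of_coprime (coprime_card_sup (hEb.trans (le_normalizer_coreOf 2 _)) hEc
    (coprime_card_coreOf 2 _)) h

end Cfsg.Agent.S1775
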