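import Mathlib
import Cfsg.Agent.Base
import Cfsg.Agent.Lib.TI2.Basic
import Cfsg.Agent.Lib.Comp.FStar
import Cfsg.Statements.S1783

set_option autoImplicit false
open Cfsg

namespace Cfsg.Agent.S1783

open Subgroup H79.TI
open scoped commutatorElement

theorem mem_sq_iff {X : Type*} [Group X] {A : Subgroup X} (hAa : IsMulCommutative A) {b : X}
    (hb : b ∈ closure ((fun a : X => a ^ 2) '' (A : Set X))) : ∃ a ∈ A, a ^ 2 = b := by
  induction hb using closure_induction with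
  | mem x hx => exact hx
  | one => exact ⟨1, one_mem _, one_pow _⟩
  | mul x y _ _ hx hy =>
    obtain ⟨a, ha, rfl⟩ := hx
    obtain ⟨c, hc, rfl⟩ := hy
    refine ⟨a * c, mul_mem ha hc, Commute.mul_pow ?_ 2⟩
    exact congrArg Subtype.val (hAa.is_comm.comm ⟨a, ha⟩ ⟨c, hc⟩)
  | inv x _ hx =>
    obtain ⟨a, ha, rfl⟩ := hx
    exact ⟨a⁻¹, inv_mem ha, inv_pow _ _⟩

theorem conj_commute {X : Type*} [Group X] [Finite X] {A B P : Subgroup X} (hBA : B ≤ A)
    (hn : ∀ h, cj h A = A → cj h B = B) (hAa : IsMulCommutative A)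
    (hti : ∀ h : X, cj h A = A ∨ cj h A ⊓ A = ⊥) (hB : ∃ a ∈ B, a ^ 2 ≠ 1) (hP : IsPGroup 2 P)
    {g h : X} (hg : cj g B ≤ P) (hh : cj h B ≤ P) :
    ∀ a ∈ cj g B, ∀ b ∈ cj h B, Commute a b := by
  by_cases e : cj g B = cj h B
  · rw [e]
    rintro _ ⟨a, ha, rfl⟩ _ ⟨b, hb, rfl⟩
    have : Commute a b := congrArg Subtype.val (hAa.is_comm.comm ⟨a, hBA ha⟩ ⟨b, hBA hb⟩)
    exact this.map _
  refine commute_of_TI (Set.range fun s => cj s B) ?_ ?_ ?_ _ P rfl hP ?_ _ ⟨g, rfl⟩ _ ⟨h, rfl⟩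
    hg hh e
  · rintro _ ⟨s, rfl⟩
    obtain ⟨a, ha, h2⟩ := hB
    exact ⟨_, conj_mem_cj ha, by rw [conj_pow]; exact fun h => h2 (conj_eq_one_iff.1 h)⟩
  · rintro _ ⟨s, rfl⟩ _ ⟨t, rfl⟩
    simp only [card_cj]
  · rintro _ ⟨s, rfl⟩ _ ⟨t, rfl⟩
    rcases hti (t⁻¹ * s) with h1 | h1
    · left
      have := congrArg (cj t) (hn _ h1)
      rwa [cj_cj, mul_inv_cancel_left] at this
    · right
      rw [eq_bot_iff]
      rintro x ⟨hx1, hx2⟩
      have : t⁻¹ * x * t ∈ cj (t⁻¹ * s) A ⊓ A := by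
        refine mem_inf.2 ⟨?_, hBA (mem_cj.1 hx2)⟩
        have := hBA (mem_cj.1 hx1)
        rw [mem_cj]
        simpa [mul_assoc] using this
      rw [h1, mem_bot] at this
      have h3 : t⁻¹ * x * t⁻¹⁻¹ = 1 := by rwa [inv_inv]
      exact conj_eq_one_iff.1 h3
  · rintro s _ _ ⟨t, rfl⟩ _
    exact ⟨s * t, (cj_cj _ _ _).symm⟩

/-- Let X be a finite group whose generalized Fitting subgroup equals its largest normal 2-subgroup Q, and let A be an abelian 2-subgroup of X such that every conjugate of A equals A or meets A trivially. Let B be the subgroup generated by the squares of the elements of A. Then B lies in Q, and if B is not an elementary abelian 2-group then the normal closure of B in X is commutative. -/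
theorem result {X : Type*} [Group X] [Finite X]
    (hX : Cfsg.generalizedFittingSubgroup X = Cfsg.pCore 2 X) (A : Subgroup X) (hA2 : IsPGroup 2 ↥A) (hAa : IsMulCommutative ↥A)
    (hti : ∀ h : X, A.map (MulAut.conj h).toMonoidHom = A ∨ A.map (MulAut.conj h).toMonoidHom ⊓ A = ⊥) :
    Subgroup.closure ((fun a : X => a ^ 2) '' (A : Set X)) ≤ Cfsg.pCore 2 X ∧
      (¬ Cfsg.IsElementaryAbelian 2 (Subgroup.closure ((fun a : X => a ^ 2) '' (A : Set X))) →
        IsMulCommutative ↥(Subgroup.normalClosure ((fun a : X => a ^ 2) '' (A : Set X)))) := by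
  have hC := H23.fStar_eq_pCore_iff.1 hX
  set Q := Cfsg.pCore 2 X with hQ
  have hQp : IsPGroup 2 Q := H1.isPGroup_pCore
  haveI hQn : Q.Normal := inferInstance
  set B := closure ((fun a : X => a ^ 2) '' (A : Set X)) with hB
  have h1 : B ≤ Q := by
    rw [hB, closure_le]
    rintro _ ⟨a, ha, rfl⟩
    by_cases h2 : a ^ 2 = 1
    · simp only [h2]; exact one_mem Q
    have hP : IsPGroup 2 (A ⊔ Q : Subgroup X) := hA2.to_sup_of_normal_right hQp
    refine mem_of_frattini hC fun q hq => ?_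
    have hc := conj_commute (P := A ⊔ Q) le_rfl (fun _ h => h) hAa hti ⟨a, ha, h2⟩ hP (g := 1) (h := q)
      (by rw [cj_one]; exact le_sup_left) (by
        rintro _ ⟨x, hx, rfl⟩
        exact mul_mem (mul_mem (mem_sup_right hq) (mem_sup_left hx)) (inv_mem (mem_sup_right hq)))
      a (by rwa [cj_one]) _ (conj_mem_cj (inv_mem ha))
    have e : ⁅a ^ 2, q⁆ = ⁅a, q⁆ ^ 2 := by
      have e1 : ⁅a, q⁆ = a * (q * a⁻¹ * q⁻¹) := by simp only [commutatorElement_def, mul_assoc]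
      rw [e1, hc.mul_pow, conj_pow, commutatorElement_def]; group
    show ⁅a ^ 2, q⁆ ∈ _
    rw [e]
    refine H5.pow_mem_map_frattini hQp ?_
    exact mul_mem (hQn.conj_mem q hq a) (inv_mem hq)
  refine ⟨h1, fun hne => ?_⟩
  have hBA : B ≤ A := fun b hb => by
    obtain ⟨a, ha, rfl⟩ := mem_sq_iff hAa hb
    exact pow_mem ha 2
  have hB2 : ∃ a ∈ B, a ^ 2 ≠ 1 := by
    by_contra h
    push Not at h
    refine hne ⟨⟨⟨fun x y => Subtype.ext ?_⟩⟩, h⟩
    exact congrArg (Subtype.val : A → X) (hAa.is_comm.comm ⟨x, hBA x.2⟩ ⟨y, hBA y.2⟩)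
  have hn : ∀ h, cj h A = A → cj h B = B := by
    intro h hh
    refine eq_of_le_of_card_ge ?_ (card_cj h B).ge
    rintro _ ⟨b, hb, rfl⟩
    obtain ⟨a, ha, rfl⟩ := mem_sq_iff hAa hb
    refine subset_closure ⟨h * a * h⁻¹, hh ▸ conj_mem_cj ha, ?_⟩
    simp only [conj_pow]; rfl
  have hle : ∀ g, cj g B ≤ Q := by
    rintro g _ ⟨b, hb, rfl⟩
    exact hQn.conj_mem b (h1 hb) g
  have key : ∀ x ∈ Group.conjugatesOfSet ((fun a : X => a ^ 2) '' (A : Set X)),
      ∀ y ∈ Group.conjugatesOfSet ((fun a : X => a ^ 2) '' (A : Set X)), x * y = y * x := by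
    intro x hx y hy
    obtain ⟨a, ha, hx⟩ := Group.mem_conjugatesOfSet_iff.1 hx
    obtain ⟨b, hb, hy⟩ := Group.mem_conjugatesOfSet_iff.1 hy
    obtain ⟨g, rfl⟩ := isConj_iff.1 hx
    obtain ⟨h, rfl⟩ := isConj_iff.1 hy
    exact (conj_commute hBA hn hAa hti hB2 hQp (hle g) (hle h) _
      (conj_mem_cj (subset_closure ha)) _ (conj_mem_cj (subset_closure hb))).eq
  exact isMulCommutative_closure key

end Cfsg.Agent.S1783
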