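import Cfsg.Statements.S1785
import Mathlib
import Cfsg.Agent.Lib.PGroup.Basic
import Cfsg.Agent.Lib.Cls.Four
import Cfsg.Agent.Lib.LocEven.CharP

set_option autoImplicit false
open Cfsg

namespace Cfsg.Agent.S1785

open Subgroup

theorem ea_of_le {X : Type*} [Group X] {A B : Subgroup X} (hB : IsElementaryAbelian 2 B) (h : A ≤ B) :
    IsElementaryAbelian 2 A :=
  ⟨⟨⟨fun a b => Subtype.ext (by
    have := hB.1.is_comm.comm ⟨a, h a.2⟩ ⟨b, h b.2⟩
    simpa using congrArg Subtype.val this)⟩⟩, fun a ha => hB.2 a (h ha)⟩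

theorem ea_comm {X : Type*} [Group X] {A : Subgroup X} (hA : IsElementaryAbelian 2 A) :
    ∀ a ∈ A, ∀ b ∈ A, a * b = b * a := fun a ha b hb => by
  have := hA.1.is_comm.comm ⟨a, ha⟩ ⟨b, hb⟩
  simpa using congrArg Subtype.val this

theorem ea_sq {X : Type*} [Group X] {A : Subgroup X} (hA : IsElementaryAbelian 2 A) :
    ∀ a ∈ A, a * a = 1 := fun a ha => by rw [← pow_two]; exact hA.2 a ha

theorem ea_sup {X : Type*} [Group X] {K : Subgroup X} (hK : IsElementaryAbelian 2 K) {x : X}
    (hxK : x ∉ K) (hx2 : x ^ 2 = 1) (hc : x ∈ centralizer (K : Set X)) :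
    IsElementaryAbelian 2 (K ⊔ zpowers x) ∧ Nat.card ↥(K ⊔ zpowers x) = Nat.card K * 2 := by
  have hn : x ∈ normalizer (K : Set X) := centralizer_le_normalizer _ hc
  refine ⟨⟨H5.isMulCommutative_sup_zpowers hK.1 hc, fun g hg => ?_⟩,
    H5.card_sup_zpowers Nat.prime_two hn hxK (by rw [hx2]; exact K.one_mem)⟩
  obtain ⟨k, hk, i, rfl⟩ := (H5.mem_sup_zpowers_iff hn).mp hg
  have h1 : Commute k (x ^ i) := Commute.zpow_right (hc k hk) i
  rw [h1.mul_pow, hK.2 k hk, one_mul, ← zpow_natCast, ← zpow_mul, mul_comm, zpow_mul, zpow_natCast,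
    hx2, one_zpow]

theorem exists_not_mem {X : Type*} [Group X] [Finite X] {A B : Subgroup X}
    (h : Nat.card B < Nat.card A) : ∃ a ∈ A, a ∉ B := by
  by_contra hc
  push Not at hc
  exact absurd (card_le_of_le (show A ≤ B from hc)) (not_le.mpr h)

theorem card_cent1 {X : Type*} [Group X] [Finite X] (hX : IsPGroup 2 X) (E : Subgroup X) [hN : E.Normal]
    (hE : IsElementaryAbelian 2 E) (hE32 : 32 ≤ Nat.card ↥E) {a : X} (ha : a * a = 1) :
    2 ^ 3 ≤ Nat.card ↥(E ⊓ centralizer ({a} : Set X)) := by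
  have h := H19.card_le_sq_card_centralizer (ea_comm hE) (ea_sq hE) ha (fun e he => hN.conj_mem e he a)
  obtain ⟨k, hk⟩ := IsPGroup.iff_card.mp (hX.to_subgroup (E ⊓ centralizer ({a} : Set X)))
  rw [hk] at h ⊢
  apply Nat.pow_le_pow_right (by norm_num)
  by_contra hc
  have : k ≤ 2 := by omega
  interval_cases k <;> omega

theorem card_cent2 {X : Type*} [Group X] [Finite X] (hX : IsPGroup 2 X) (E : Subgroup X) [hN : E.Normal]
    (hE : IsElementaryAbelian 2 E) (hE32 : 32 ≤ Nat.card ↥E) {a b : X} (ha : a * a = 1)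
    (hb : b * b = 1) (hab : a * b = b * a) :
    2 ^ 2 ≤ Nat.card ↥(E ⊓ centralizer ({a} : Set X) ⊓ centralizer ({b} : Set X)) := by
  have h0 := card_cent1 hX E hE hE32 ha
  have hE' : IsElementaryAbelian 2 (E ⊓ centralizer ({a} : Set X)) := ea_of_le hE inf_le_left
  have h := H19.card_le_sq_card_centralizer (ea_comm hE') (ea_sq hE') hb (fun e he => by
    refine ⟨hN.conj_mem e he.1 b, mem_centralizer_singleton_iff.mpr ?_⟩
    have h1 : e * a = a * e := mem_centralizer_singleton_iff.mp he.2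
    have h2 : b⁻¹ * a = a * b⁻¹ := by
      rw [inv_mul_eq_iff_eq_mul, ← mul_assoc, ← hab, mul_inv_cancel_right]
    rw [mul_assoc, h2, ← mul_assoc, mul_assoc b, h1, ← mul_assoc, ← hab]
    simp only [mul_assoc])
  obtain ⟨k, hk⟩ := IsPGroup.iff_card.mp
    (hX.to_subgroup (E ⊓ centralizer ({a} : Set X) ⊓ centralizer ({b} : Set X)))
  rw [hk] at h ⊢
  apply Nat.pow_le_pow_right (by norm_num)
  by_contra hc
  have : k ≤ 1 := by omega
  interval_cases k <;> omega

/-- The adjacency relation of the statement. -/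
def Adj {X : Type*} [Group X] (C D : Subgroup X) : Prop :=
  IsElementaryAbelian 2 C ∧ Nat.card ↥C = 8 ∧ IsElementaryAbelian 2 D ∧ Nat.card ↥D = 8 ∧ ⁅C, D⁆ = ⊥

theorem Adj.symm {X : Type*} [Group X] {C D : Subgroup X} (h : Adj C D) : Adj D C :=
  ⟨h.2.2.1, h.2.2.2.1, h.1, h.2.1, by rw [commutator_comm]; exact h.2.2.2.2⟩

theorem exists_chain {X : Type*} [Group X] [Finite X] (hX : IsPGroup 2 X) (E : Subgroup X)
    [hN : E.Normal] (hE : IsElementaryAbelian 2 E) (hE32 : 32 ≤ Nat.card ↥E) (A : Subgroup X)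
    (hA : IsElementaryAbelian 2 A) (hA8 : Nat.card A = 8) :
    ∃ D₁ D₂ D₃ : Subgroup X, Adj A D₁ ∧ Adj D₁ D₂ ∧ Adj D₂ D₃ ∧ D₃ ≤ E := by
  have hE1 : E ≠ ⊥ := by
    rintro rfl
    simp at hE32
  obtain ⟨z, hzE, hzc, hz⟩ := H5.exists_mem_center_orderOf_eq hX E hE1
  have hz1 : z ≠ 1 := by rintro rfl; simp at hz
  have hz2 : z ^ 2 = 1 := hE.2 z hzE
  have hzz : z * z = 1 := ea_sq hE z hzE
  obtain ⟨a, haA, ha1, haz⟩ := H19.exists_mem_ne_ne (A := A) (by omega) z
  have haa := ea_sq hA a haA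
  have hK := H19.isKleinFour_closure_pair ha1 hz1 haz haa hzz (mem_center_iff.mp hzc a)
  obtain ⟨b, hbA, hb⟩ := exists_not_mem (A := A) (B := closure {a, z}) (by
    rw [hK.card_four]; omega)
  have hbb := ea_sq hA b hbA
  have hab := ea_comm hA a haA b hbA
  rw [H19.mem_closure_pair_of_sq haa hzz (mem_center_iff.mp hzc a)] at hb
  push Not at hb
  have hB := H19.isKleinFour_closure_pair ha1 hb.1 hb.2.1.symm haa hbb hab
  have hBA : closure {a, b} ≤ A := by
    rw [closure_le]
    rintro x (rfl | rfl)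
    · exact haA
    · exact hbA
  have hzB : z ∉ closure ({a, b} : Set X) := by
    rw [H19.mem_closure_pair_of_sq haa hbb hab]
    rintro (h | h | h | h)
    · exact hz1 h
    · exact haz h.symm
    · exact hb.2.2.1 h.symm
    · apply hb.2.2.2
      rw [h, ← mul_assoc, haa, one_mul]
  obtain ⟨hD1, hD1c⟩ := ea_sup (ea_of_le hA hBA) hzB hz2 (center_le_centralizer _ hzc)
  rw [hB.card_four] at hD1c
  obtain ⟨C, hC, hC4⟩ := Sylow.exists_subgroup_le_card_pow_prime_of_le_card Nat.prime_two hX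
    (card_cent2 hX E hE hE32 haa hbb hab)
  have hCE : C ≤ E := hC.trans (inf_le_left.trans inf_le_left)
  have hD1C : closure {a, b} ⊔ zpowers z ≤ centralizer (C : Set X) := by
    refine sup_le ?_ (zpowers_le.mpr (center_le_centralizer _ hzc))
    rw [closure_le]
    rintro x (rfl | rfl)
    · exact fun c hc => mem_centralizer_singleton_iff.mp (hC hc).1.2
    · exact fun c hc => mem_centralizer_singleton_iff.mp (hC hc).2
  obtain ⟨d, hdD, hdC⟩ := exists_not_mem (A := closure {a, b} ⊔ zpowers z) (B := C) (by omega)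
  obtain ⟨hD2, hD2c⟩ := ea_sup (ea_of_le hE hCE) hdC (hD1.2 d hdD) (hD1C hdD)
  obtain ⟨D, hD, hD8⟩ := Sylow.exists_subgroup_le_card_pow_prime_of_le_card Nat.prime_two hX
    (card_cent1 hX E hE hE32 (ea_sq hD1 d hdD))
  have hDE : D ≤ E := hD.trans inf_le_left
  refine ⟨closure {a, b} ⊔ zpowers z, C ⊔ zpowers d, D, ⟨hA, hA8, hD1, hD1c, ?_⟩,
    ⟨hD1, hD1c, hD2, by omega, ?_⟩, ⟨hD2, by omega, ea_of_le hE hDE, hD8, ?_⟩, hDE⟩
  · rw [commutator_comm, commutator_eq_bot_iff_le_centralizer]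
    exact sup_le (fun x hx y hy => ea_comm hA y hy x (hBA hx))
      (zpowers_le.mpr (center_le_centralizer _ hzc))
  · rw [commutator_comm, commutator_eq_bot_iff_le_centralizer]
    exact sup_le (le_centralizer_iff.mp hD1C)
      (zpowers_le.mpr fun y hy => ea_comm hD1 y hy d hdD)
  · rw [commutator_eq_bot_iff_le_centralizer]
    exact sup_le (fun x hx y hy => ea_comm hE y (hDE hy) x (hCE hx))
      (zpowers_le.mpr fun y hy => mem_centralizer_singleton_iff.mp (hD hy).2)

/-- Let X be a finite 2-group having a normal elementary abelian subgroup of order at least 32. Then (a) for any two elementary abelian subgroups A, B of X of order 8 there is a chain A = A₁, A₂, …, Aₙ = B of elementary abelian subgroups of order 8 in which consecutive members commute elementwise; and (b) every elementary abelian subgroup of X of order 4 is contained in an elementary abelian subgroup of order 8. -/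
theorem result {X : Type*} [Group X] [Finite X]
    (hX : IsPGroup 2 X) (E : Subgroup X) [E.Normal] (hE : Cfsg.IsElementaryAbelian 2 E) (hE32 : 32 ≤ Nat.card ↥E) :
    (∀ A B : Subgroup X, Cfsg.IsElementaryAbelian 2 A → Nat.card ↥A = 8 → Cfsg.IsElementaryAbelian 2 B → Nat.card ↥B = 8 →
        Relation.ReflTransGen
          (fun C D : Subgroup X => Cfsg.IsElementaryAbelian 2 C ∧ Nat.card ↥C = 8 ∧ Cfsg.IsElementaryAbelian 2 D ∧ Nat.card ↥D = 8 ∧ ⁅C, D⁆ = ⊥)
          A B) ∧
      (∀ V : Subgroup X, Cfsg.IsElementaryAbelian 2 V → Nat.card ↥V = 4 →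
        ∃ A : Subgroup X, V ≤ A ∧ Cfsg.IsElementaryAbelian 2 A ∧ Nat.card ↥A = 8) := by
  refine ⟨fun A B hA hA8 hB hB8 => ?_, fun V hV hV4 => ?_⟩
  · obtain ⟨D₁, D₂, D₃, h1, h2, h3, h4⟩ := exists_chain hX E hE hE32 A hA hA8
    obtain ⟨C₁, C₂, C₃, k1, k2, k3, k4⟩ := exists_chain hX E hE hE32 B hB hB8
    have h5 : Adj D₃ C₃ := by
      refine ⟨h3.2.2.1, h3.2.2.2.1, k3.2.2.1, k3.2.2.2.1, ?_⟩
      rw [commutator_eq_bot_iff_le_centralizer]
      exact fun x hx y hy => ea_comm hE y (k4 hy) x (h4 hx)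
    change Relation.ReflTransGen Adj A B
    exact ((((((Relation.ReflTransGen.single h1).tail h2).tail h3).tail h5).tail k3.symm).tail
      k2.symm).tail k1.symm
  · suffices h : ∃ e ∈ E, e ∉ V ∧ e ∈ centralizer (V : Set X) by
      obtain ⟨e, heE, heV, hec⟩ := h
      obtain ⟨h1, h2⟩ := ea_sup hV heV (hE.2 e heE) hec
      exact ⟨_, le_sup_left, h1, by omega⟩
    by_cases hVE : V ≤ E
    · obtain ⟨e, heE, heV⟩ := exists_not_mem (A := E) (B := V) (by omega)
      exact ⟨e, heE, heV, fun v hv => ea_comm hE v (hVE hv) e heE⟩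
    obtain ⟨a, haV, ha1, -⟩ := H19.exists_mem_ne_ne (A := V) (by omega) 1
    obtain ⟨b, hbV, hb1, hba⟩ := H19.exists_mem_ne_ne (A := V) (by omega) a
    have haa := ea_sq hV a haV
    have hbb := ea_sq hV b hbV
    have hab := ea_comm hV a haV b hbV
    have hB := H19.isKleinFour_closure_pair ha1 hb1 hba.symm haa hbb hab
    have hBV : closure {a, b} = V := by
      apply eq_of_le_of_card_ge
      · rw [closure_le]
        rintro x (rfl | rfl)
        · exact haV
        · exact hbV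
      · rw [hB.card_four, hV4]
    have h4 := card_cent2 hX E hE hE32 haa hbb hab
    by_contra hc
    push Not at hc
    have h5 : E ⊓ centralizer ({a} : Set X) ⊓ centralizer ({b} : Set X) ≤ V := by
      intro e he
      by_contra heV
      apply hc e he.1.1 heV
      rw [← hBV, ← zpowers_le, ← le_centralizer_iff, closure_le]
      rintro x (rfl | rfl)
      · rw [SetLike.mem_coe, H70.centralizer_zpowers, mem_centralizer_singleton_iff]
        exact (mem_centralizer_singleton_iff.mp he.1.2).symm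
      · rw [SetLike.mem_coe, H70.centralizer_zpowers, mem_centralizer_singleton_iff]
        exact (mem_centralizer_singleton_iff.mp he.2).symm
    have h6 := eq_of_le_of_card_ge h5 (by omega)
    exact hVE (h6 ▸ inf_le_left.trans inf_le_left)

end Cfsg.Agent.S1785
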