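import Mathlib
import Cfsg.Statements.S1786
import Cfsg.Agent.Lib.TI2.MaxC
import Cfsg.Agent.Lib.Comp.FStar
import Cfsg.Agent.Lib.Core.PCore
import Cfsg.Agent.Lib.PGroup.Frattini
-- import your own Cfsg.Agent.* helpers here

set_option autoImplicit false
open Cfsg

namespace Cfsg.Agent.S1786

/-- Let G be a finite group, V an elementary abelian 2-subgroup of G and M the normalizer of V; write Q for the largest normal 2-subgroup of M. Suppose (1) the generalized Fitting subgroup of M equals Q; (2) V is a maximal abelian normal subgroup of M; (3) every conjugate of V equals V or meets V trivially, and for some g ∈ G the conjugate V' = g V g⁻¹ is different from V and contained in Q. Let P be the centralizer of V in Q, W the subgroup generated by V and V', and H the subgroup generated by P and g P g⁻¹. Then: (a) V is contained in g Q g⁻¹; (b) every non-identity element of W lies in exactly one conjugate of V contained in W, H normalizes W, and H modulo the centralizer of W in H is isomorphic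 to the special linear group of dimension 2 over the field with |V| elements; (c) P = Q, and V equals the Frattini subgroup, the centre and the commutator subgroup of Q. -/
theorem result {G : Type*} [Group G] [Finite G] (V : Subgroup G)
    (hV : Cfsg.IsElementaryAbelian 2 V)
    (h1 : (Cfsg.generalizedFittingSubgroup ↥(Subgroup.normalizer (V : Set G))).map (Subgroup.normalizer (V : Set G)).subtype =
      (Cfsg.pCore 2 ↥(Subgroup.normalizer (V : Set G))).map (Subgroup.normalizer (V : Set G)).subtype)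
    (h2 : ∀ A : Subgroup G, V ≤ A → A ≤ Subgroup.normalizer (V : Set G) → IsMulCommutative ↥A →
      (∀ m ∈ Subgroup.normalizer (V : Set G), ∀ a ∈ A, m * a * m⁻¹ ∈ A) → A = V)
    (hti : ∀ x : G, V.map (MulAut.conj x).toMonoidHom = V ∨ V.map (MulAut.conj x).toMonoidHom ⊓ V = ⊥)
    (g : G) (hg : V.map (MulAut.conj g).toMonoidHom ≠ V)
    (hgQ : V.map (MulAut.conj g).toMonoidHom ≤ (Cfsg.pCore 2 ↥(Subgroup.normalizer (V : Set G))).map (Subgroup.normalizer (V : Set G)).subtype) :
    let Q : Subgroup G := (Cfsg.pCore 2 ↥(Subgroup.normalizer (V : Set G))).map (Subgroup.normalizer (V : Set G)).subtype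
    let P : Subgroup G := Q ⊓ Subgroup.centralizer (V : Set G)
    let W : Subgroup G := V ⊔ V.map (MulAut.conj g).toMonoidHom
    let H : Subgroup G := P ⊔ P.map (MulAut.conj g).toMonoidHom
    V ≤ Q.map (MulAut.conj g).toMonoidHom ∧
      (∀ w ∈ W, w ≠ 1 → ∃! U : Subgroup G, (∃ x : G, U = V.map (MulAut.conj x).toMonoidHom) ∧ U ≤ W ∧ w ∈ U) ∧
      H ≤ Subgroup.normalizer (W : Set G) ∧
      (∀ hN : ((Subgroup.centralizer (W : Set G)).subgroupOf H).Normal, ∃ (F : Type) (_ : Field F) (_ : Fintype F), Fintype.card F = Nat.card ↥V ∧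
        Nonempty (↥H ⧸ (Subgroup.centralizer (W : Set G)).subgroupOf H ≃* Matrix.SpecialLinearGroup (Fin 2) F)) ∧
      P = Q ∧ (frattini ↥Q).map Q.subtype = V ∧ (Subgroup.center ↥Q).map Q.subtype = V ∧ (commutator ↥Q).map Q.subtype = V := by
  intro Q P W H
  haveI : Fact (Nat.Prime 2) := ⟨Nat.prime_two⟩
  have hy : H23.TI.Hyp V Q :=
    { vsq := fun a ha => by rw [← pow_two, hV.2 a ha]
      ab := fun a ha b hb => congrArg Subtype.val (hV.1.is_comm.comm ⟨b, hb⟩ ⟨a, ha⟩)
      ti := hti
      two := H69.isPGroup_map_subtype_iff.2 H1.isPGroup_pCore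
      le := Subgroup.map_subtype_le _
      nrm := H69.normal_iff_le_normalizer_map.1 inferInstance
      core := fun N h3 h4 h5 => by
        haveI := (Subgroup.normal_subgroupOf_iff_le_normalizer h3).2 h4
        exact (H69.subgroupOf_le_iff h3).1 (H1.le_pCore (H69.isPGroup_subgroupOf h5 _))
      cen := fun x hx hx' => by
        have := H23.inf_centralizer_map_fStar_le (Subgroup.normalizer (V : Set G))
        rw [h1] at this
        exact this ⟨hx, hx'⟩
      max := fun A h3 h4 h5 h6 => h2 A h3 h4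
        ⟨⟨fun a b => Subtype.ext (h5 b.2 a a.2)⟩⟩
        fun m hm a ha => H69.conj_mem_of_mem_normalizer (h6 hm) ha }
  have pk := hy.pk
  have hA : V.map (MulAut.conj g).toMonoidHom ≤ P :=
    le_inf hgQ (hy.ti.le_cen hy.vsq hy.ab hg (hgQ.trans hy.le))
  have hAV : ¬ V.map (MulAut.conj g).toMonoidHom ≤ V := fun h => hg (H69.cj_eq_of_cj_le h)
  obtain ⟨m, hm, hm'⟩ := hy.exists_not_cen hA hAV (pk.cj g).ab
  rw [H69.cj_cj] at hm'
  have t : H23.TI.Two V P g (m * g) :=
    { toPk := pk
      hA := hA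
      neA := hg
      hU := by rw [← H69.cj_cj]; exact H69.cj_le_of_mem_normalizer hA (pk.nrm hm)
      neU := fun e => hg (by
        rw [← H69.cj_cj, H69.cj_eq_iff, H69.cj_eq_of_mem_normalizer (inv_mem hm)] at e
        exact e)
      nc := hm' }
  obtain ⟨n, hn⟩ := hy.isP.exists_card_eq
  obtain ⟨v, hv, hv1⟩ := t.exists_ne'
  have hVb : V ≠ ⊥ := fun e => hv1 (by rwa [e, Subgroup.mem_bot] at hv)
  have hn0 : n ≠ 0 := by
    rintro rfl
    exact hVb (Subgroup.card_eq_one.1 hn)
  obtain ⟨F, _, _, hF⟩ := H68.Push.exists_field_card 2 hn0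
  obtain ⟨ρ, r1, r2, r3⟩ := t.sl2 F (hF.trans hn.symm)
  have hPQ : P = Q := by
    refine inf_eq_left.2 (Subgroup.le_centralizer_iff.1 fun w hw => ?_)
    obtain ⟨z, hz, hz1, -, hz2⟩ := H5.exists_mem_centralizer_of_normalizes hy.two hy.isP hy.le hVb
    have hz3 : z ≠ 1 := by rintro rfl; simp at hz2
    by_cases hw1 : w = 1
    · rw [hw1]; exact one_mem _
    obtain ⟨x, -, rfl⟩ := r3 z hz hz3 w hw hw1
    exact H69.conj_mem_of_mem_normalizer
      (H69.le_normalizer_centralizer hy.nrm (hy.ti.mem_norm hz hz3 hw)) hz1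
  have hc : ⁅Q, Q⁆ = V := by
    rw [← hPQ]
    refine le_antisymm (Subgroup.commutator_le.2 pk.cm) fun w hw => ?_
    obtain ⟨b, hb, hb1⟩ := t.exists_ne g
    obtain ⟨u, hu, rfl⟩ := t.surj' hb hb1 hw
    exact Subgroup.commutator_mem_commutator (t.hA hb) (t.hU hu)
  refine ⟨le_sup_left.trans (t.W_le_cj hy.nrm inf_le_left), fun w hw hw1 => ?_, t.HW,
    fun hN => ⟨F, inferInstance, inferInstance, by rw [← Nat.card_eq_fintype_card, hF, hn],
      ⟨(QuotientGroup.quotientMulEquivOfEq r2.symm).trans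
        (QuotientGroup.quotientKerEquivOfSurjective ρ r1)⟩⟩, hPQ, ?_, ?_, ?_⟩
  · obtain ⟨x, hx, hwx⟩ := t.cover' hw
    refine ⟨_, ⟨⟨x, rfl⟩, hx, hwx⟩, ?_⟩
    rintro _ ⟨⟨y, rfl⟩, -, hwy⟩
    exact hy.ti.eq_of_mem hwy hwx hw1
  · refine le_antisymm ((H5.map_frattini_le_iff hy.two).2 ⟨hc.le, fun x hx => ?_⟩)
      (hc.ge.trans (H5.commutator_le_map_frattini hy.two))
    rw [pow_two]
    exact pk.sq x (hPQ.ge hx)
  · rw [H69.map_subtype_center, ← hPQ]
    exact le_antisymm (fun z hz => pk.zp z hz.1 hz.2)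
      (le_inf pk.le (Subgroup.le_centralizer_iff.1 pk.cen))
  · rw [Subgroup.map_subtype_commutator, hc]

end Cfsg.Agent.S1786
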