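import Cfsg.Statements.S1850
import Mathlib
import Cfsg.Agent.Lib.EvenChar.Basic

set_option autoImplicit false
open Cfsg

namespace Cfsg.Agent.S1850

/-- Let G be a non-abelian finite simple QTKE-group and T a Sylow 2-subgroup of G. If U is a nontrivial 2-subgroup of G with U ∩ Z(T) ≠ 1, then F*(N_G(U)) = O₂(N_G(U)). -/
theorem result {G : Type*} [Group G] [Finite G] [IsSimpleGroup G]
    (hG : ¬ IsMulCommutative G) (hQ : Cfsg.IsQTKE G) (T : Sylow 2 G) (U : Subgroup G)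
    (hU : IsPGroup 2 ↥U) (hZ : U ⊓ ((T : Subgroup G) ⊓ Subgroup.centralizer ((T : Subgroup G) : Set G)) ≠ ⊥) :
    Subgroup.normalizer (U : Set G) ∈ Cfsg.calHe G := by
  obtain ⟨⟨z, hzU, hzT, hzc⟩, hz⟩ := (Subgroup.ne_bot_iff_exists_ne_one).mp hZ
  have hz1 : z ≠ 1 := fun h => hz (Subtype.ext h)
  exact H20.mem_calHe_iff.mpr (H20.charP_normalizer_of_mem hU hzU
    (H20.charP_centralizer_of_evenChar hQ.2.2 T hz1 hzT hzc))

end Cfsg.Agent.S1850
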