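import Cfsg.Statements.S1851
import Mathlib
import Cfsg.Agent.Lib.EvenChar.ModuleV

set_option autoImplicit false
open Cfsg

namespace Cfsg.Agent.S1851

/-- Let G be a non-abelian finite simple QTKE-group and T a Sylow 2-subgroup of G, and let L be a member of ℒ_f(G, T) (a member of ℒ(G, T) that lies in 𝒳 — L ≠ 1, L = O²(L), F*(L) = O₂(L) — and acts nontrivially on Ω₁(Z(O₂(L)))). Then (1) every member K of ℒ(G, T) containing L is again in ℒ_f(G, T) (a sharper form of (1) also compares the modules [Ω₁(Z(R)), L] and [Ω₁(Z(R')), K] for suitable 2-subgroups R, R'; that comparison is not included); and (2) if L is maximal under inclusion among the members of ℒ_f(G, T), then L is a maximal member of ℒ(G, T), hence a member of ℒ_f*(G, T). -/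
theorem result {G : Type*} [Group G] [Finite G] [IsSimpleGroup G]
    (hG : ¬ IsMulCommutative G) (hQ : Cfsg.IsQTKE G) (T : Sylow 2 G) (L : Subgroup G)
    (hL : L ∈ Cfsg.calLf (T : Subgroup G)) :
    (∀ K ∈ Cfsg.calL (T : Subgroup G), L ≤ K → K ∈ Cfsg.calLf (T : Subgroup G)) ∧
    ((∀ K ∈ Cfsg.calLf (T : Subgroup G), L ≤ K → K = L) → L ∈ Cfsg.calLfMax (T : Subgroup G)) := by
  have main : ∀ K ∈ Cfsg.calL (T : Subgroup G), L ≤ K → K ∈ Cfsg.calLf (T : Subgroup G) := by
    intro K hK hLK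
    obtain ⟨hL0, ⟨_, hLo, _⟩, hLV⟩ := hL
    obtain ⟨_, _, hLs, hL2⟩ := H20.calL_facts hL0
    obtain ⟨hK1, hKp, hKs, hK2⟩ := H20.calL_facts hK
    have hKo := H20.oddGenerated_eq_of_perfect hKp
    have hH : H70.CharP 2 (K ⊔ (T : Subgroup G)) := H20.charP_of_evenChar hQ.2.2 T le_sup_right hK2
    refine ⟨hK, ⟨hK1, hKo, H20.mem_calHe_iff.mpr (hH.of_isSubnormal le_sup_left hKs)⟩, fun hV => hLV ?_⟩
    rw [H20.moduleV_eq_bot_iff] at hV
    refine H20.moduleV_eq_bot_of_odd hLo fun x hx ho => ?_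
    have hx2 : (orderOf x).Coprime 2 := Nat.coprime_two_right.mpr ho
    set R := Cfsg.pCoreOf 2 (L ⊔ (T : Subgroup G)) with hR
    set R' := Cfsg.pCoreOf 2 (K ⊔ (T : Subgroup G)) with hR'
    have hRp : IsPGroup 2 R := H70.isPGroup_pCoreOf _ _
    have hRp' : IsPGroup 2 R' := H70.isPGroup_pCoreOf _ _
    have hRL : R ≤ Subgroup.normalizer (L : Set G) :=
      H20.le_normalizer_of_oddGenerated hRp (H70.pCoreOf_le _ _) (H70.le_normalizer_pCoreOf _ _)
        le_sup_left hLs hLo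
    have hRK : R' ≤ Subgroup.normalizer (K : Set G) :=
      H20.le_normalizer_of_oddGenerated hRp' (H70.pCoreOf_le _ _) (H70.le_normalizer_pCoreOf _ _)
        le_sup_left hKs hKo
    have hLR : L ≤ Subgroup.normalizer (R : Set G) := le_sup_left.trans (H70.le_normalizer_pCoreOf _ _)
    have hKR : K ≤ Subgroup.normalizer (R' : Set G) := le_sup_left.trans (H70.le_normalizer_pCoreOf _ _)
    have hR'T : R' ≤ T := H1.pCoreOf_le_sylow T le_sup_right
    have hRT : R ≤ T := H1.pCoreOf_le_sylow T le_sup_right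
    have hR'R : R' ≤ R :=
      H70.pCoreOf_le_pCoreOf_of_le (sup_le_sup_right hLK _) (hR'T.trans le_sup_right)
    have h1 : H68.oz 2 R' ≤ Subgroup.centralizer {x} :=
      H20.oz_le_centralizer_of_le (H70.pCoreOf_le_pCoreOf_of_isSubnormal le_sup_left hKs) hx2
        (hKR (hLK hx)) (fun r hr => H20.commutator_mem_pCoreOf hRp' hKR hRK hr (hLK hx))
        (hV x (hLK hx))
    have h2 : H68.oz 2 R ≤ H68.oz 2 R' := by
      intro w hw
      obtain ⟨a, b, c⟩ := H68.mem_oz.mp hw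
      have b' : w ∈ Subgroup.centralizer (R' : Set G) :=
        Subgroup.centralizer_le (SetLike.coe_subset_coe.mpr hR'R) b
      exact H68.mem_oz.mpr ⟨hH ⟨Subgroup.mem_sup_right (hRT a), b'⟩, b', c⟩
    exact H20.oz_le_centralizer_of_oz hRp (H70.pCoreOf_le_pCoreOf_of_isSubnormal le_sup_left hLs)
      (hRL.trans (H70.normalizer_le_normalizer_pCoreOf _ _)) hx2 (H70.le_normalizer_pCoreOf _ _ hx)
      (fun r hr => H20.commutator_mem_pCoreOf hRp hLR hRL hr hx) (h2.trans h1)
  exact ⟨main, fun h => ⟨⟨hL.1, fun K hK hLK => h K (main K hK hLK) hLK⟩, hL.2⟩⟩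

end Cfsg.Agent.S1851
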