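import Cfsg.Statements.S1957
import Mathlib
import Cfsg.Agent.Base
import Cfsg.Agent.Lib.Cls.Four
import Cfsg.Agent.Lib.Cls.Basic
import Cfsg.Agent.Lib.Core.CoprimeAbelian
import Cfsg.Agent.Lib.LocEven.CharP
import Cfsg.Agent.Lib.PGroup.Basic
import Cfsg.Agent.Lib.Thompson.Basic

set_option autoImplicit false
open Cfsg

namespace Cfsg.Agent.S1957

open Subgroup
open scoped Pointwise

theorem klein_cases {G : Type*} [Group G] {U : Subgroup G} (hU : IsKleinFour U) {a b x : G}
    (ha : a ∈ U) (hb : b ∈ U) (hx : x ∈ U) (ha1 : a ≠ 1) (hb1 : b ≠ 1) (hab : a ≠ b) :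
    x = 1 ∨ x = a ∨ x = b ∨ x = a * b := by
  by_contra! h
  obtain ⟨h1, h2, h3, h4⟩ := h
  exact h4 (congrArg Subtype.val (IsKleinFour.eq_mul_of_ne_all (x := (⟨a, ha⟩ : U)) (y := ⟨b, hb⟩)
    (z := ⟨x, hx⟩) (fun h => ha1 (congrArg Subtype.val h)) (fun h => hb1 (congrArg Subtype.val h))
    (fun h => hab (congrArg Subtype.val h)) (fun h => h1 (congrArg Subtype.val h))
    (fun h => h2 (congrArg Subtype.val h)) (fun h => h3 (congrArg Subtype.val h))))

theorem le_normalizer_aux {G : Type*} [Group G] [Finite G]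
    (P : Sylow 2 G) (U : Subgroup G) (hUP : U ≤ (P : Subgroup G))
    (hUn : (P : Subgroup G) ≤ Subgroup.normalizer (U : Set G)) (hU4 : IsKleinFour ↥U)
    (hUZ : ¬ IsCyclic ↥((P : Subgroup G) ⊓ Subgroup.centralizer ((P : Subgroup G) : Set G)) →
      U ≤ Subgroup.centralizer ((P : Subgroup G) : Set G)) {u : G} (hu : u ∈ U) (hu1 : u ≠ 1) :
    pCoreOf 2 (centralizer {u}) ≤ normalizer (U : Set G) := by
  set H : Subgroup G := centralizer {u} with hH
  have hHm : ∀ {g : G}, g ∈ H ↔ g * u = u * g := mem_centralizer_singleton_iff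
  by_cases huP : u ∈ centralizer ((P : Subgroup G) : Set G)
  · exact (H1.pCoreOf_le_sylow P fun g hg => hHm.mpr (huP g hg)).trans hUn
  have hcyc : IsCyclic ↥((P : Subgroup G) ⊓ Subgroup.centralizer ((P : Subgroup G) : Set G)) := by
    by_contra h
    exact huP (hUZ h hu)
  obtain ⟨z, hz, hzP, hzo⟩ := H5.exists_mem_centralizer_orderOf_eq P.isPGroup' hUP hUn (by
    rintro rfl
    exact hu1 hu)
  have hz1 : z ≠ 1 := by rintro rfl; simp at hzo
  have huz : u ≠ z := by rintro rfl; exact huP hzP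
  have hzz : z * z = 1 := H19.mul_self_of_isKleinFour hU4 hz
  have huu : u * u = 1 := H19.mul_self_of_isKleinFour hU4 hu
  have hzu : z * u = u * z := H19.mul_comm_of_isKleinFour hU4 hz hu
  set P0 : Subgroup G := (P : Subgroup G) ⊓ H with hP0
  have hconj : ∀ g ∈ (P : Subgroup G), g ∉ H → g * u * g⁻¹ = u * z := by
    intro g hg hgH
    rcases klein_cases hU4 hu hz (H2.conj_mem_of_le_normalizer hUn hg hu) hu1 hz1 huz with
      h | h | h | h
    · exact absurd (by simpa using h) hu1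
    · exact absurd (hHm.mpr (mul_inv_eq_iff_eq_mul.mp h)) hgH
    · exfalso
      apply huz
      calc u = g⁻¹ * (g * u * g⁻¹) * g := by group
        _ = g⁻¹ * (g * z) := by rw [h, hzP g hg, mul_assoc]
        _ = z := by group
    · exact h
  have hidx : P0.relIndex P = 2 := by
    obtain ⟨a, ha, haH⟩ : ∃ a ∈ (P : Subgroup G), a ∉ H := by
      by_contra! h
      exact huP fun g hg => hHm.mp (h g hg)
    rw [relIndex, index_eq_two_iff]
    refine ⟨⟨a, ha⟩, fun b => ?_⟩
    by_cases hb : (b : G) ∈ H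
    · refine Or.inr ⟨⟨b.2, hb⟩, fun h => haH ?_⟩
      simpa using H.mul_mem (H.inv_mem hb) h.2
    · refine Or.inl ⟨⟨(P : Subgroup G).mul_mem b.2 ha, hHm.mpr ?_⟩, fun h => hb h.2⟩
      change (b : G) * a * u = u * (b * a)
      calc (b : G) * a * u = b * (a * u * a⁻¹) * a := by group
        _ = (b * u * (b : G)⁻¹) * (b * z) * a := by rw [hconj a ha haH]; group
        _ = u * (z * z) * (b * a) := by rw [hconj b b.2 hb, hzP b b.2]; group
        _ = u * (b * a) := by rw [hzz, mul_one]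
  set Q := pCoreOf 2 H with hQ
  by_cases hQP : Q ≤ P0
  · exact hQP.trans (inf_le_left.trans hUn)
  have hT : IsPGroup 2 (P0 ⊔ Q : Subgroup G) :=
    IsPGroup.to_sup_of_normal_right' (P.isPGroup'.to_le inf_le_left) (H1.isPGroup_pCoreOf H)
      (inf_le_right.trans (H1.le_normalizer_pCoreOf H))
  obtain ⟨T, hTT⟩ := hT.exists_le_sylow
  have hP0T : P0 ≤ T := le_sup_left.trans hTT
  have hidx' : P0.relIndex T = 2 := by
    have h1 := H1.card_mul_relIndex_of_le hP0T
    have h2 := H1.card_mul_relIndex_of_le (inf_le_left : P0 ≤ P)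
    rw [T.card_eq_multiplicity, ← P.card_eq_multiplicity, ← h2, hidx] at h1
    exact Nat.eq_of_mul_eq_mul_left Nat.card_pos h1
  have hTH : (T : Subgroup G) ≤ H := by
    have h1 := relIndex_mul_relIndex P0 (P0 ⊔ Q) T le_sup_left hTT
    rw [hidx'] at h1
    have h2 : P0.relIndex (P0 ⊔ Q) ≠ 1 := fun h => hQP (le_sup_right.trans (relIndex_eq_one.mp h))
    have h3 : (P0 ⊔ Q).relIndex T = 1 := by
      rcases (Nat.dvd_prime Nat.prime_two).mp (Dvd.intro _ h1) with h | h
      · exact absurd h h2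
      · rw [h] at h1; omega
    exact (relIndex_eq_one.mp h3).trans (sup_le inf_le_right (H1.pCoreOf_le H))
  have hmul : ∀ a ∈ (T : Subgroup G), ∀ b ∈ (T : Subgroup G), a * b ∈ P0 ↔ (a ∈ P0 ↔ b ∈ P0) :=
    fun a ha b hb => mul_mem_iff_of_index_two (H := P0.subgroupOf T) hidx' (a := ⟨a, ha⟩)
      (b := ⟨b, hb⟩)
  have hcycT : IsCyclic ↥((T : Subgroup G) ⊓ Subgroup.centralizer ((T : Subgroup G) : Set G)) := by
    obtain ⟨g, rfl⟩ := MulAction.exists_smul_eq G P T
    rw [Sylow.coe_subgroup_smul, H1.centralizer_conj_smul, ← smul_inf]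
    exact isCyclic_of_surjective _ (Subgroup.equivSMul (MulAut.conj g) _).surjective
  have hzP0 : z ∈ P0 := ⟨hUP hz, hHm.mpr hzu⟩
  have hzc : ∀ s ∈ P0, s * z = z * s := fun s hs => hzP s hs.1
  refine le_trans (le_sup_right.trans hTT) fun t ht => H24.mem_normalizer_of_conj_mem ?_
  have htu : t * u * t⁻¹ = u := by rw [hHm.mp (hTH ht), mul_inv_cancel_right]
  suffices htz : t * z * t⁻¹ ∈ U by
    intro x hx
    rcases klein_cases hU4 hu hz hx hu1 hz1 huz with rfl | rfl | rfl | rfl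
    · simp
    · rwa [htu]
    · exact htz
    · rw [show t * (u * z) * t⁻¹ = t * u * t⁻¹ * (t * z * t⁻¹) by group, htu]
      exact U.mul_mem hu htz
  by_cases htP : t ∈ P0
  · rw [hzc t htP, mul_inv_cancel_right]; exact hz
  have hcj : ∀ s ∈ P0, t⁻¹ * s * t ∈ P0 := fun s hs => by
    rw [hmul _ (mul_mem (inv_mem ht) (hP0T hs)) _ ht, hmul _ (inv_mem ht) _ (hP0T hs), inv_mem_iff]
    tauto
  have htz0 : t * z * t⁻¹ ∈ P0 := by
    rw [hmul _ (mul_mem ht (hP0T hzP0)) _ (inv_mem ht), hmul _ ht _ (hP0T hzP0), inv_mem_iff]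
    tauto
  have htt : t * t ∈ P0 := (hmul t ht t ht).mpr Iff.rfl
  have hw0 : ∀ s ∈ P0, s * (z * (t * z * t⁻¹)) = z * (t * z * t⁻¹) * s := fun s hs => by
    calc s * (z * (t * z * t⁻¹)) = (s * z) * (t * z * t⁻¹) := by group
      _ = z * t * ((t⁻¹ * s * t) * z) * t⁻¹ := by rw [hzc s hs]; group
      _ = z * (t * z * t⁻¹) * s := by rw [hzc _ (hcj s hs)]; group
  have hwt : t * (z * (t * z * t⁻¹)) = z * (t * z * t⁻¹) * t := by
    calc t * (z * (t * z * t⁻¹)) = (t * z * t⁻¹) * ((t * t) * z) * t⁻¹ := by group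
      _ = ((t * z * t⁻¹) * z) * t := by rw [hzc _ htt]; group
      _ = z * (t * z * t⁻¹) * t := by rw [hzc _ htz0]
  have hw : z * (t * z * t⁻¹) ∈ (T : Subgroup G) ⊓ Subgroup.centralizer ((T : Subgroup G) : Set G) := by
    refine ⟨hP0T (mul_mem hzP0 htz0), fun s hs => ?_⟩
    by_cases hsP : s ∈ P0
    · exact hw0 s hsP
    · have h1 : t⁻¹ * s ∈ P0 := by
        rw [hmul _ (inv_mem ht) _ hs, inv_mem_iff]; tauto
      calc s * (z * (t * z * t⁻¹)) = t * ((t⁻¹ * s) * (z * (t * z * t⁻¹))) := by group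
        _ = (t * (z * (t * z * t⁻¹))) * (t⁻¹ * s) := by rw [hw0 _ h1]; group
        _ = z * (t * z * t⁻¹) * s := by rw [hwt]; group
  have hww : (z * (t * z * t⁻¹)) ^ 2 = 1 := by
    calc (z * (t * z * t⁻¹)) ^ 2 = z * ((t * z * t⁻¹) * z) * (t * z * t⁻¹) := by
          rw [pow_two]; group
      _ = (z * z) * (t * (z * z) * t⁻¹) := by rw [hzc _ htz0]; group
      _ = 1 := by rw [hzz]; group
  have hwU : z * (t * z * t⁻¹) ∈ U := by
    by_cases h : z * (t * z * t⁻¹) = 1
    · rw [h]; exact one_mem _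
    · rw [H19.eq_of_mem_isCyclic hcycT hw
        ⟨hP0T ⟨hUP hu, hHm.mpr rfl⟩, fun s hs => hHm.mp (hTH hs)⟩ h hww hu1 (by rw [pow_two, huu])]
      exact hu
  simpa using U.mul_mem (U.inv_mem hz) hwU

/-- Let `G` be a finite non-abelian simple group in which every local subgroup is solvable and which is of characteristic 2 type. Let `P` be a Sylow 2-subgroup of `G` and `U` a normal subgroup of `P` that is a four-group, with `U` central in `P` if the centre of `P` is not cyclic. Then `U` centralizes every subgroup of odd order of `G` that it normalizes. -/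
theorem result {G : Type*} [Group G] [Finite G]
    [IsSimpleGroup G] (hna : ¬ IsMulCommutative G) (hN : Cfsg.IsNGroup G) (h2 : Cfsg.IsCharacteristicTwoType G)
    (P : Sylow 2 G) (U : Subgroup G) (hUP : U ≤ (P : Subgroup G)) (hUn : (P : Subgroup G) ≤ Subgroup.normalizer (U : Set G))
    (hU4 : IsKleinFour ↥U)
    (hUZ : ¬ IsCyclic ↥((P : Subgroup G) ⊓ Subgroup.centralizer ((P : Subgroup G) : Set G)) →
      U ≤ Subgroup.centralizer ((P : Subgroup G) : Set G))
    (K : Subgroup G) (hK : Odd (Nat.card K)) (hUK : U ≤ Subgroup.normalizer (K : Set G)) :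
    U ≤ Subgroup.centralizer (K : Set G) := by
  have hU4' := hU4
  have hcop : (Nat.card U).Coprime (Nat.card K) := by
    rw [hU4.card_four]
    exact (Nat.coprime_two_left.mpr hK).pow_left 2
  rw [le_centralizer_iff]
  refine H2.le_of_forall_centralizer_le IsKleinFour.isMulCommutative IsKleinFour.not_isCyclic hUK
    hcop fun u hu hu1 => ?_
  have huu : u * u = 1 := H19.mul_self_of_isKleinFour hU4 hu
  have hu2 : u ^ 2 ^ 1 = 1 := by rw [pow_one, pow_two, huu]
  set H : Subgroup G := centralizer {u} with hH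
  have hHm : ∀ {g : G}, g ∈ H ↔ g * u = u * g := mem_centralizer_singleton_iff
  have hchar : H70.CharP 2 H := by
    have h1 := H70.charP_iff.mpr (h2.2 (zpowers u) (H70.isPGroup_zpowers hu2) (by simpa using hu1))
    have h3 := h1.inf_centralizer_singleton hu2 (le_normalizer (mem_zpowers u))
    rwa [inf_eq_right.mpr (by
      rw [← H70.centralizer_zpowers]; exact centralizer_le_normalizer _)] at h3
  have hQ := le_normalizer_aux P U hUP hUn hU4 hUZ hu hu1
  set Q := pCoreOf 2 H with hQdef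
  have hQH : Q ≤ H := H1.pCoreOf_le H
  have hmem : ∀ a : G, a ∈ zpowers u ↔ a = 1 ∨ a = u := fun a => by
    constructor
    · rintro ⟨k, rfl⟩
      rcases Int.even_or_odd' k with ⟨m, rfl | rfl⟩
      · left; simp only [zpow_mul, zpow_two, huu, one_zpow]
      · right; simp only [zpow_add, zpow_mul, zpow_two, huu, one_zpow, one_mul, zpow_one]
    · rintro (rfl | rfl)
      exacts [one_mem _, mem_zpowers _]
  have hv : ∀ v ∈ U, ∀ q ∈ Q, q * v * q⁻¹ * v⁻¹ ∈ zpowers u := by
    intro v hv q hq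
    have hqu := hHm.mp (hQH hq)
    by_cases hv1 : v = 1
    · simp [hv1]
    by_cases hvu : u = v
    · rw [← hvu, hqu]; simp
    rcases klein_cases hU4 hu hv (H2.conj_mem_of_le_normalizer hQ hq hv) hu1 hv1 hvu with
      h | h | h | h
    · exact absurd (by simpa using h) hv1
    · exfalso
      apply hvu
      calc u = q⁻¹ * (q * u) := by group
        _ = q⁻¹ * (q * v * q⁻¹) * q := by rw [hqu, h, mul_assoc]
        _ = v := by group
    · rw [h]; simp
    · rw [h]; simp
  rintro x ⟨hxK, hxH⟩ v hvU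
  have hvH : v ∈ H := hHm.mpr (H19.mul_comm_of_isKleinFour hU4 hvU hu)
  have hcK : x * v * x⁻¹ * v⁻¹ ∈ K := by
    rw [show x * v * x⁻¹ * v⁻¹ = x * (v * x⁻¹ * v⁻¹) by group]
    exact K.mul_mem hxK (H2.conj_mem_of_le_normalizer hUK hvU (K.inv_mem hxK))
  have hcH : x * v * x⁻¹ * v⁻¹ ∈ H := mul_mem (mul_mem (mul_mem hxH hvH) (inv_mem hxH)) (inv_mem hvH)
  have hco : (orderOf (x * v * x⁻¹ * v⁻¹)).Coprime 2 :=
    Nat.Coprime.coprime_dvd_left (H1.orderOf_dvd_card_of_mem hcK) (Nat.coprime_two_right.mpr hK)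
  have hHz : ∀ g ∈ H, ∀ a ∈ zpowers u, g * a * g⁻¹ = a := by
    intro g hg a ha
    rcases (hmem a).mp ha with rfl | rfl
    · simp
    · rw [hHm.mp hg, mul_inv_cancel_right]
  have hc1 := hchar.eq_one hcH hco (H70.le_centralizer_of_commutator_mem
    (H70.isPGroup_zpowers hu2) hco (by
      rw [zpowers_le, mem_centralizer_singleton_iff]; exact (hHm.mp hcH).symm) (by
      intro q hq
      have h1 := hv v hvU _ (H2.conj_mem_of_le_normalizer (H1.le_normalizer_pCoreOf H) (inv_mem hxH) hq)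
      have h3 := hv v⁻¹ (inv_mem hvU) q hq
      have h4 := hHz x hxH _ h1
      have h5 := hHz (x * v * x⁻¹) (mul_mem (mul_mem hxH hvH) (inv_mem hxH)) _ h3
      rw [← h4] at h1
      rw [← h5] at h3
      convert mul_mem h1 h3 using 1
      group))
  rw [mul_inv_eq_one, mul_inv_eq_iff_eq_mul] at hc1
  exact hc1.symm

end Cfsg.Agent.S1957
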