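import Cfsg.Statements.S1962
import Mathlib
import Cfsg.Agent.Base
import Cfsg.Agent.Lib.Functor.Local

set_option autoImplicit false
open Cfsg

namespace Cfsg.Agent.S1962

/-- Local-to-global control of transfer through well-placed subgroups. Let p be a prime, G a finite group with Sylow p-subgroup S, and W a conjugacy functor for p on G. If W controls transfer in N_G(T) for every nonidentity subgroup T of S that is well placed in S with respect to W, then W controls transfer in G: S ∩ G' = S ∩ (N_G(W(S)))'. -/
theorem result {G : Type*} [Group G] [Finite G] {p : ℕ} [Fact p.Prime] (S : Sylow p G) (W : Subgroup G → Subgroup G) (hW : Cfsg.IsConjugacyFunctor p W) (hloc : ∀ T : Subgroup G, T ≠ ⊥ → Cfsg.IsWellPlaced p W (S : Subgroup G) T → Cfsg.ControlsTransferIn p W (Subgroup.normalizer ((T : Subgroup G) : Set G))) : Cfsg.ControlsTransferIn p W ⊤ := by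
  open Subgroup H69 H59 in
  rw [controlsTransfer_iff_family]
  refine familyTransfer_of (isSylowIn_top S) ?_
  rw [famFocal_singleton]
  refine le_inf inf_le_left (focal_of_wp hW (isSylowIn_top S) ?_)
  intro T hT hT1
  have := famFocal_of (𝓦 := {W}) (by rintro _ rfl; exact hW) hT.extr.syl (by
    rw [top_inf_eq, ← controlsTransfer_iff_family]
    exact hloc T hT1 ((wp_top_iff hW S.isPGroup').1 hT))
  rw [this, famFocal_singleton]
  exact inf_le_right

end Cfsg.Agent.S1962
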