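import Cfsg.Statements.S1965
import Mathlib
import Cfsg.Agent.Lib.Transfer.Alperin

set_option autoImplicit false
open Cfsg

namespace Cfsg.Agent.S1965

/-- Let p be a prime, G a finite group with Sylow p-subgroup S and 𝓕 a set of subgroups of S. Suppose that every subgroup T of S is G-conjugate to some member U of 𝓕 for which N_S(U) is a Sylow p-subgroup of N_G(U). Then 𝓕 is a conjugation family for S in G. -/
theorem result {G : Type*} [Group G] [Finite G] {p : ℕ} [Fact p.Prime] (S : Sylow p G) (𝓕 : Set (Subgroup G)) (h𝓕 : ∀ U ∈ 𝓕, U ≤ (S : Subgroup G)) (h : ∀ T : Subgroup G, T ≤ (S : Subgroup G) → ∃ U ∈ 𝓕, (∃ g : G, T.map (MulAut.conj g).toMonoidHom = U) ∧ ¬ p ∣ ((S : Subgroup G) ⊓ Subgroup.normalizer ((U : Subgroup G) : Set G)).relIndex (Subgroup.normalizer ((U : Subgroup G) : Set G))) : Cfsg.IsConjugationFamily 𝓕 (S : Subgroup G) := by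
  refine ⟨h𝓕, fun A g _ hA hAg => ?_⟩
  have : H4.Chain (fun (T : Subgroup G) x => T ∈ 𝓕 ∧ x ∈ Subgroup.normalizer (T : Set G)) id A g := by
    refine H4.chain_of_subgroup (P := S) (fun A g hA hg => ?_) hA hAg
    refine H4.alperin_core S (H4.fusionClosed_chain (S : Subgroup G) ?_) (· ∈ 𝓕) ?_ ?_ hA hg
    · rintro T x ⟨h1, h2⟩
      exact ⟨⟨h1, Subgroup.inv_mem _ h2⟩, h2⟩
    · intro T hT
      obtain ⟨U, hU, ⟨g, rfl⟩, h2⟩ := h T hT
      exact ⟨g, h𝓕 _ hU, h2, hU⟩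
    · intro D _ _ hD _ x hx
      exact H4.Chain.single (i := D) ⟨hD, Subgroup.inv_mem _ hx⟩ subset_rfl
  obtain ⟨n, Q, x, h1, h2, h3, h4⟩ := this.exists_fin'
  exact ⟨n, Q, x, h1, fun i => (h2 i).1, fun i => (h2 i).2, h3, h4⟩

end Cfsg.Agent.S1965
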