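import Cfsg.Statements.S1968
import Mathlib
import Cfsg.Agent.Base
import Cfsg.Agent.Lib.Functor.Local

set_option autoImplicit false
open Cfsg

namespace Cfsg.Agent.S1968

/-- Let p be a prime, G a finite group with Sylow p-subgroup S and W a conjugacy functor for p on G with Z(P) ≤ W(P) for every p-subgroup P. Let A be a subgroup of Z(S) normalized by N_G(W(S)) that is not weakly closed in S with respect to G. Then there is a subgroup T of S, well placed in S with respect to W, such that: A ≤ T; N_G(W(N_S(T))) normalizes A; N_S(T) is a Sylow p-subgroup of N_G(T); A ≤ Z(N_S(T)); and A is not weakly closed in N_S(T) with respect to N_G(T), that is, some N_G(T)-conjugate of A other than A lies in N_S(T). -/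
theorem result {G : Type*} [Group G] [Finite G] {p : ℕ} [Fact p.Prime] (S : Sylow p G) (W : Subgroup G → Subgroup G) (hW : Cfsg.IsConjugacyFunctor p W) (hWZ : ∀ P : Subgroup G, IsPGroup p ↥P → P ⊓ Subgroup.centralizer (P : Set G) ≤ W P) (A : Subgroup G) (hAZ : A ≤ (S : Subgroup G) ⊓ Subgroup.centralizer ((S : Subgroup G) : Set G)) (hAN : Subgroup.normalizer ((W (S : Subgroup G) : Subgroup G) : Set G) ≤ Subgroup.normalizer ((A : Subgroup G) : Set G)) (hnwc : ¬ Cfsg.IsWeaklyClosed A (S : Subgroup G)) : ∃ T : Subgroup G, Cfsg.IsWellPlaced p W (S : Subgroup G) T ∧ A ≤ T ∧ Subgroup.normalizer ((W ((S : Subgroup G) ⊓ Subgroup.normalizer ((T : Subgroup G) : Set G)) : Subgroup G) : Set G) ≤ Subgroup.normalizer ((A : Subgroup G) : Set G) ∧ ¬ p ∣ ((S : Subgroup G) ⊓ Subgroup.normalizer ((T : Subgroup G) : Set G)).relIndex (Subgroup.normalizer ((T : Subgroup G) : Set G)) ∧ A ≤ Subgroup.centralizer (((S : Subgroup G) ⊓ Subgroup.normalizer ((T : Subgroup G) : Set G) : Subgroup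 G) : Set G) ∧ ∃ g ∈ Subgroup.normalizer ((T : Subgroup G) : Set G), A.map (MulAut.conj g).toMonoidHom ≤ (S : Subgroup G) ⊓ Subgroup.normalizer ((T : Subgroup G) : Set G) ∧ A.map (MulAut.conj g).toMonoidHom ≠ A := by
  open Subgroup H69 H59 in
  have : ∃ g : G, A ^ᶜ g ≤ (S : Subgroup G) ∧ A ^ᶜ g ≠ A := by
    by_contra hc
    push Not at hc
    exact hnwc ⟨hAZ.trans inf_le_left, hc⟩
  obtain ⟨g, hg, hne⟩ := this
  obtain ⟨T, hT, hAT, h1, h2⟩ := exists_wp_witness hW hWZ (isSylowIn_top S) hAZ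
    (inf_le_right.trans hAN) (mem_top g) hg hne
  rw [top_inf_eq] at h1 h2
  obtain ⟨k, hk, hk'⟩ := SetLike.not_le_iff_exists.1 h2
  have hT' := (wp_top_iff hW S.isPGroup').1 hT
  refine ⟨T, hT', hAT, h1, hT'.2 0, hAZ.trans (inf_le_right.trans (centralizer_anti inf_le_left)),
    k, hk, (cj_le_of_mem_normalizer hAT hk).trans (le_inf hT'.1 le_normalizer), ?_⟩
  rwa [Ne, cj_eq_self_iff]

end Cfsg.Agent.S1968
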