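import Cfsg.Statements.S1969
import Mathlib
import Cfsg.Agent.Base
import Cfsg.Agent.Lib.Functor.SectFus

set_option autoImplicit false
universe u
open Cfsg

namespace Cfsg.Agent.S1969

/-- Let p be a prime, G a finite group and W an isomorphism-invariant p-group functor (W assigns to every group Q a subgroup W(Q), nontrivial whenever Q is a nontrivial finite p-group, and every isomorphism from a finite p-group Q onto a group R carries W(Q) onto W(R)). Suppose that W(S*) is normal in G* whenever G* = K/R is a section of G with C_{G*}(O_p(G*)) ≤ O_p(G*) and S* is a Sylow p-subgroup of G*. Then W controls strong fusion in every section of G: for every section K/R and every Sylow p-subgroup T of K/R, the subgroup W(T) controls strong fusion in K/R. -/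
theorem result {G : Type u} [Group G] [Finite G] {p : ℕ} [Fact p.Prime] (W : ∀ (Q : Type u) [Group Q], Subgroup Q) (hW : Cfsg.IsCharPFunctor.{u} p W) (hloc : ∀ (K R : Subgroup G) [hR : (R.subgroupOf K).Normal], Subgroup.centralizer ((Cfsg.pCore p (↥K ⧸ R.subgroupOf K) : Subgroup (↥K ⧸ R.subgroupOf K)) : Set (↥K ⧸ R.subgroupOf K)) ≤ Cfsg.pCore p (↥K ⧸ R.subgroupOf K) → ∀ T : Sylow p (↥K ⧸ R.subgroupOf K), (Cfsg.inducedFunctor (G := (↥K ⧸ R.subgroupOf K)) W ((T : Subgroup (↥K ⧸ R.subgroupOf K)))).Normal) : ∀ (K R : Subgroup G) [hR : (R.subgroupOf K).Normal], ∀ T : Sylow p (↥K ⧸ R.subgroupOf K), Cfsg.ControlsStrongFusion p (Cfsg.inducedFunctor (G := (↥K ⧸ R.subgroupOf K)) W ((T : Subgroup (↥K ⧸ R.subgroupOf K)))) := by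
  open Subgroup H69 H59 in
  have h𝓦 : ∀ W' ∈ ({W} : Set GF.{u}), IsCharPFunctor.{u} p W' := by
    rintro _ rfl
    exact hW
  have hc : ∀ (Y : Type u) [Group Y] [Finite Y], Involves Y G → Constr p Y →
      FamilyControlsStrongFusionIn p (fam {W} Y) ⊤ := fun Y _ _ hY => by
    refine H57.of_involves (fun X _ => Constr p X → FamilyControlsStrongFusionIn p (fam {W} X) ⊤)
      (fun X Y _ _ _ e h hY => familyFusion_equiv h𝓦 e
        (h (H57.charP_of_equiv e.symm hY))) (fun K R _ hC => ?_) hY
    obtain ⟨T⟩ : Nonempty (Sylow p (K ⧸ R.subgroupOf K)) := inferInstance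
    rw [fam_singleton]
    refine familyFusion_of (isSylowIn_top T) (famFus_singleton_iff.2 fun A h _ _ _ => ?_)
    exact ⟨h, ⟨mem_top _, normal_iff_top_le_normalizer.1 (hloc K R hC T) (mem_top _)⟩,
      Agree.refl _ _⟩
  intro K R hR T
  have h1 := familyFusion_of_constrained (G := K ⧸ R.subgroupOf K) h𝓦
    fun Y _ _ hY => hc Y (H57.involves_trans hY (H57.involves_section K R))
  have h2 := famFus_of (fam_cf h𝓦) (isSylowIn_top T) h1
  rw [fam_singleton, famFus_singleton_iff, fus_iff] at h2
  refine ⟨T, H57.inducedFunctor_le _ _, fun A hA => ⟨hA, fun g hg => ?_⟩⟩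
  obtain ⟨x, hx, hx'⟩ := h2 A g (mem_top _) hA hg
  exact ⟨x, hx.2, fun a ha => (hx' a ha).symm⟩

end Cfsg.Agent.S1969
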