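import Cfsg.Statements.S1989
import Mathlib
import Cfsg.Agent.Base
import Cfsg.Agent.Lib.Functor.Qd2
import Cfsg.Agent.Lib.Functor.QdFree
import Cfsg.Agent.S1987

set_option autoImplicit false
universe u
open Cfsg

namespace Cfsg.Agent.S1989

/-- Let p be an odd prime and G a finite group. Then Qd(p) (the natural semidirect product of an elementary abelian group of order p² by SL₂(p)) is not involved in G if and only if, in every section K/R of G and for every Sylow p-subgroup T of K/R, the lower K-infinity subgroup of T controls strong fusion in K/R. -/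
theorem result {G : Type u} [Group G] [Finite G] {p : ℕ} [Fact p.Prime] (hp : p ≠ 2) : ¬ Cfsg.Involves ↥(Cfsg.qd p) G ↔ ∀ (K R : Subgroup G) [hR : (R.subgroupOf K).Normal], ∀ T : Sylow p (↥K ⧸ R.subgroupOf K), Cfsg.ControlsStrongFusion p (Cfsg.inducedFunctor (G := (↥K ⧸ R.subgroupOf K)) Cfsg.kInfLower (T : Subgroup (↥K ⧸ R.subgroupOf K))) := by
  open Subgroup H69 H59 in
  refine ⟨fun hfree K R _ T => S1987.result hp (fun K' R' _ =>
    isNormalizerPStable_of_not_involves_qd hp fun h => hfree (H57.involves_trans h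
      (H57.involves_trans (H57.involves_section K' R') (H57.involves_section K R)))) T, ?_⟩
  rintro h ⟨K, R, hR, ⟨e⟩⟩
  obtain ⟨T⟩ : Nonempty (Sylow p (K ⧸ R.subgroupOf K)) := inferInstance
  have hW := H57.KInf.isCharPFunctor_kInfLower.{u} p
  have hT : (T : Subgroup (K ⧸ R.subgroupOf K)) ≠ ⊥ := fun h0 => by
    obtain ⟨e, he⟩ := exists_equiv_S0 e T
    exact V_ne_bot (eq_bot_iff.2 (V_le_S0.trans (by rw [← he, h0, Subgroup.map_bot])))
  haveI : (kInfLower (T : Subgroup (K ⧸ R.subgroupOf K))).Characteristic :=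
    characteristic_iff_map_eq.2 fun φ => hW.2 _ _ T.isPGroup' φ
  exact not_controlsStrongFusion_qd e T
    (hW.1 _ T.isPGroup' ((nontrivial_iff_ne_bot _).2 hT)) (h K R T)

end Cfsg.Agent.S1989
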