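import Cfsg.Statements.S1990
import Mathlib
import Cfsg.Agent.Lib.H71.Stab
import Cfsg.Agent.Lib.Functor.Sect
import Cfsg.Agent.Lib.KInf.Transport

set_option autoImplicit false
universe u
open Cfsg

namespace Cfsg.Agent.S1990

/-- Let p be an odd prime, G a finite group with Sylow p-subgroup S, and W an isomorphism-invariant p-group functor (W assigns to every group Q a subgroup W(Q), nontrivial whenever Q is a nontrivial finite p-group, and every isomorphism from a finite p-group Q onto a group R carries W(Q) onto W(R)). Suppose N_G(W(S)) has a normal p-complement, and W(T) controls strong fusion in every section G* = K/R of G all of whose sections are p-stable in the normalizer form, for every Sylow p-subgroup T of G*. Then G has a normal p-complement. -/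
theorem result {G : Type u} [Group G] [Finite G] {p : ℕ} [Fact p.Prime] (hp : p ≠ 2) (W : ∀ (Q : Type u) [Group Q], Subgroup Q) (hW : Cfsg.IsCharPFunctor.{u} p W) (S : Sylow p G) (hN : Cfsg.HasNormalPComplement p ↥(Subgroup.normalizer ((Cfsg.inducedFunctor (G := G) W (S : Subgroup G) : Subgroup G) : Set G))) (hctl : ∀ (K R : Subgroup G) [hR : (R.subgroupOf K).Normal], (∀ (K' R' : Subgroup (↥K ⧸ R.subgroupOf K)) [hR' : (R'.subgroupOf K').Normal], Cfsg.IsNormalizerPStable p (↥K' ⧸ R'.subgroupOf K')) → ∀ T : Sylow p (↥K ⧸ R.subgroupOf K), Cfsg.ControlsStrongFusion p (Cfsg.inducedFunctor (G := (↥K ⧸ R.subgroupOf K)) W (T : Subgroup (↥K ⧸ R.subgroupOf K)))) : Cfsg.HasNormalPComplement p G := by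
  have hS : H71.SecFun.{u} p (fun {X} [Group X] D => Cfsg.inducedFunctor (G := X) W D) :=
    ⟨fun D => H57.inducedFunctor_le W D, fun _ hD h => H57.inducedFunctor_ne_bot hW hD h,
      fun f _ hD h => H59.map_induced_of_disjoint hW f hD (by rwa [inf_comm])⟩
  have hC : H71.SecClass.{u} (fun X [Group X] P D => D = P ∧ Cfsg.Involves X G) :=
    ⟨fun h H R hR _ => ⟨by rw [h.1, inf_eq_right.2 hR],
        H57.involves_trans (H57.involves_subgroup H) h.2⟩,
      fun h N _ => ⟨by rw [h.1], H57.involves_trans (H57.involves_quotient N) h.2⟩⟩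
  refine H71.npc_of_secFun hS hC ?_ G S S ⟨le_rfl, fun _ _ _ h => h⟩ ⟨rfl, H57.involves_self G⟩ hN
  rintro X _ _ P D - ⟨rfl, K, R, hR, ⟨e⟩⟩ - hm hN
  have hm' := hm.of_surjective e.symm.toMonoidHom e.symm.surjective
  have hs : Function.Surjective e.symm.toMonoidHom := e.symm.surjective
  have h1 := hctl K R (fun K' R' _ => ((hm'.of_injective K'.subtype K'.subtype_injective).of_surjective
    _ (QuotientGroup.mk'_surjective _)).normalizerPStable hp)
    (P.mapSurjective hs)
  have h2 := H57.controlsStrongFusion_map_equiv e h1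
  rw [H57.map_inducedFunctor hW _ e.injective _ (Sylow.isPGroup' _), Sylow.coe_mapSurjective,
    Subgroup.map_map] at h2
  have e1 : e.toMonoidHom.comp e.symm.toMonoidHom = MonoidHom.id X := by ext x; simp
  rw [e1, Subgroup.map_id] at h2
  obtain ⟨T, hT, h3⟩ := h2
  have h4 := H71.ctl_of_controlsStrongFusionOf h3
  refine H4.hasNormalPComplement_of_controls_fusion T ?_ hN ?_
  · intro g hg
    obtain ⟨v, hv, h5⟩ := h4 _ g (Subgroup.mem_top g) hT fun a ha =>
      (T : Subgroup X).mul_mem ((T : Subgroup X).mul_mem hg (hT ha)) ((T : Subgroup X).inv_mem hg)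
    rw [H1.mem_normalizer_iff_conj_smul_eq]
    refine Subgroup.eq_of_le_of_card_ge ?_ (by rw [H1.card_conj_smul])
    rw [H4.conj_smul_le_iff]
    intro a ha
    rw [← h5 a ha]
    exact (Subgroup.mem_normalizer_iff.1 hv a).1 ha
  · intro x hx g hg
    obtain ⟨v, hv, h5⟩ := h4 {x} g (Subgroup.mem_top g) (by rintro _ rfl; exact hx)
      (by rintro _ rfl; exact hg)
    exact ⟨v, hv, h5 x rfl⟩

end Cfsg.Agent.S1990
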