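import Mathlib
import Cfsg.Statements.S1992
import Cfsg.Agent.Lib.Core.MinNormal
import Cfsg.Agent.Lib.Core.GrpBasic
import Cfsg.Agent.Lib.Char.BurnsidePQ
import Cfsg.Agent.S1991

set_option autoImplicit false
open Cfsg

namespace Cfsg.Agent.S1992

/-- Let G be a finite group in which, for every prime q dividing the order of G, every Sylow q-subgroup is its own normalizer. Then the order of G is a power of a single prime (G is a q-group for some prime q; for G trivial any prime works). -/
theorem result {G : Type*} [Group G] [Finite G] (h : ∀ q : ℕ, q.Prime → q ∣ Nat.card G → ∀ Q : Sylow q G, Subgroup.normalizer ((Q : Subgroup G) : Set G) = Q) : ∃ q : ℕ, q.Prime ∧ IsPGroup q G := by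
  rcases subsingleton_or_nontrivial G with hG | hG
  · exact ⟨2, Nat.prime_two, fun g => ⟨0, Subsingleton.elim _ _⟩⟩
  have key : ∃ N : Subgroup G, N.Normal ∧ N.index.Prime := by
    by_cases h5 : ∃ p : ℕ, p.Prime ∧ p ∣ Nat.card G ∧ 5 ≤ p
    · obtain ⟨p, hp, hd, h5⟩ := h5
      haveI := Fact.mk hp
      obtain ⟨S⟩ : Nonempty (Sylow p G) := inferInstance
      obtain ⟨N, hN, hi⟩ := Cfsg.Agent.S1991.result h5 S (S.ne_bot_of_dvd_card hd) fun g hg hc => by
        have hgS : g ∈ (S : Subgroup G) := (h p hp hd S).le hg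
        obtain ⟨k, hk⟩ := S.isPGroup' ⟨g, hgS⟩
        have h1 : orderOf g ∣ p ^ k := orderOf_dvd_of_pow_eq_one (congrArg Subtype.val hk)
        rw [orderOf_eq_one_iff.1 (Nat.eq_one_of_dvd_coprimes (hc.pow_right k) dvd_rfl h1)]
        exact Subgroup.one_mem _
      exact ⟨N, hN, hi ▸ hp⟩
    · push Not at h5
      haveI : Group.IsSolvable G := H8.isSolvable_of_two_primes Nat.prime_two Nat.prime_three
        fun r hr hd => by
          have h1 := h5 r hr hd
          have h2 := hr.two_le
          interval_cases r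
          · simp
          · simp
          · exact absurd hr (by norm_num)
      exact H3.exists_normal_prime_index G
  obtain ⟨N, hN, hp⟩ := key
  refine ⟨N.index, hp, ?_⟩
  haveI := Fact.mk hp
  rw [IsPGroup.iff_card]
  refine ⟨_, Nat.eq_prime_pow_of_unique_prime_dvd Nat.card_pos.ne' fun {q} hq hd => ?_⟩
  by_contra hne
  haveI := Fact.mk hq
  obtain ⟨Q⟩ : Nonempty (Sylow q G) := inferInstance
  have hQN : (Q : Subgroup G) ≤ N := H1.le_of_coprime_index (by
    obtain ⟨k, hk⟩ := IsPGroup.iff_card.1 Q.isPGroup'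
    rw [hk]
    exact ((Nat.coprime_primes hq hp).2 hne).pow_left k)
  have h1 := Q.normalizer_sup_eq_top' hQN
  have h2 : N = ⊤ := eq_top_iff.2 (h1.ge.trans (sup_le ((h q hq hd Q).le.trans hQN) le_rfl))
  rw [h2, Subgroup.index_top] at hp
  exact Nat.not_prime_one hp

end Cfsg.Agent.S1992
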