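import Mathlib
import Cfsg.Statements.S1993
import Cfsg.Agent.Lib.KInf.StableIso
import Cfsg.Agent.S1969
import Cfsg.Agent.S1972
import Cfsg.Agent.S1983

set_option autoImplicit false
universe u
open Cfsg

namespace Cfsg.Agent.S1993

/-- Let p be a prime, G a finite group with Sylow p-subgroup S, and K the upper K-infinity subgroup of S. If p ≥ 5 then S ∩ G' = S ∩ (N_G(K))'; and if p is odd and every section of G is p-stable in the normalizer form, then K controls strong fusion in G. -/
theorem result {G : Type u} [Group G] [Finite G] {p : ℕ} [Fact p.Prime] (S : Sylow p G) : (5 ≤ p → (S : Subgroup G) ⊓ commutator G = (S : Subgroup G) ⊓ ⁅Subgroup.normalizer ((Cfsg.inducedFunctor Cfsg.kInfUpper (S : Subgroup G) : Subgroup G) : Set G), Subgroup.normalizer ((Cfsg.inducedFunctor Cfsg.kInfUpper (S : Subgroup G) : Subgroup G) : Set G)⁆) ∧ (p ≠ 2 → (∀ (K R : Subgroup G) [hR : (R.subgroupOf K).Normal], Cfsg.IsNormalizerPStable p (↥K ⧸ R.subgroupOf K)) → Cfsg.ControlsStrongFusion p (Cfsg.inducedFunctor Cfsg.kInfUpper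 (S : Subgroup G))) := by
  have hW := H57.KInf.isCharPFunctor_kInfUpper.{u} p
  refine ⟨fun hp => ?_, fun _ hst => ?_⟩
  · refine H57.transfer_eq_of_controls (H57.isConjugacyFunctor_induced hW) ?_ S
    refine H57.controlsTransferIn_equiv hW (H57.topBotEquiv G) ?_
    refine Cfsg.Agent.S1972.result _ hW ?_ ⊤ ⊥
    intro K R _ _ T hT
    obtain ⟨g, h1, h2, h3, -⟩ := Cfsg.Agent.S1983.result T (Or.inr hT)
    refine ⟨g, h1, h2, fun U V hUV hU => ?_⟩
    have := hUV.2.2.1
    exact H57.iter_le_of_le Subgroup.le_normalizer_of_normal (h3 U V hUV hU) (by omega)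
  · refine H57.controlsStrongFusion_of_sections hW ?_ S
    refine Cfsg.Agent.S1969.result _ hW ?_
    intro K R _ hC T
    by_contra hT
    obtain ⟨g, -, -, -, -, h⟩ := Cfsg.Agent.S1983.result T (Or.inr hT)
    obtain ⟨N, _, hN⟩ := h hC
    exact hN (H57.isNormalizerPStable_of_involves hst
      (H57.involves_trans (H57.involves_quotient N) (H57.involves_section K R)))

end Cfsg.Agent.S1993
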