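import Mathlib
import Cfsg.Statements.S1997
import Cfsg.Agent.S1996
import Cfsg.Agent.Lib.Functor.SectFus
import Cfsg.Agent.Lib.Thompson.Basic

set_option autoImplicit false
universe u
open Cfsg

namespace Cfsg.Agent.S1997

open Subgroup H69 H59 in
theorem lift_fac {G : Type u} [Group G] [Finite G] {p : ℕ} [Fact p.Prime]
    {W : ∀ (Q : Type u) [Group Q], Subgroup Q} (hW : IsCharPFunctor.{u} p W)
    {K S Q Z : Subgroup G} (hS : IsSylowIn p S K) (hQS : Q ≤ S) (hKQ : K ≤ 𝐍(Q))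
    (hC : S ⊓ 𝐂(Q) ≤ Q) (hZQ : Z ≤ Q) (hZ : Z ≤ omegaOne p (S ⊓ 𝐂(S)))
    (hfac : ∀ (N : Subgroup K) [N.Normal], Constr p (K ⧸ N) → ∀ T : Sylow p (K ⧸ N), ∀ x : K ⧸ N,
      ∃ a ∈ 𝐂(omegaOne p ((T : Subgroup (K ⧸ N)) ⊓ 𝐂((T : Subgroup (K ⧸ N))))),
        ∃ b ∈ 𝐍(inducedFunctor W (T : Subgroup (K ⧸ N))), x = a * b) :
    ∀ k ∈ K, ∃ n ∈ 𝐍(inducedFunctor W S), ∃ c ∈ 𝐂(Z), k = n * c := by
  intro k hk
  have hS' := hS.subgroupOf_top
  have hQK : Q ≤ K := hQS.trans hS.le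
  haveI : (Q.subgroupOf K).Normal := (normal_subgroupOf_iff_le_normalizer hQK).2 hKQ
  have hQp : IsPGroup p (Q.subgroupOf K) := isPGroup_subgroupOf (hS.isP.to_le hQS) K
  have hQO : Q.subgroupOf K ≤ pCore p K := H1.le_pCore hQp
  have hc : S.subgroupOf K ⊓ 𝐂(pCore p K) ≤ pCore p K := by
    rintro x ⟨hx, hx'⟩
    refine hQO (hC ⟨hx, fun q hq => ?_⟩)
    exact congrArg Subtype.val (hx' ⟨q, hQK hq⟩ (hQO hq))
  obtain ⟨T, hT⟩ := (isSylowIn_map_top hS' (QuotientGroup.mk'_surjective (pPrimeCore p K))).exists_sylow_top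
  obtain ⟨a, ha, b, hb, e⟩ := hfac _ (constr_quotient hS' hc) T
    (QuotientGroup.mk' (pPrimeCore p K) ⟨k⁻¹, inv_mem hk⟩)
  rw [hT, map_normalizer_induced hW H1.coprime_card_pPrimeCore hS'.isP] at hb
  obtain ⟨b', hb', rfl⟩ := hb
  rw [hT] at ha
  have ea : a = QuotientGroup.mk' (pPrimeCore p K) (⟨k⁻¹, inv_mem hk⟩ * b'⁻¹) := by
    rw [map_mul, map_inv, e, mul_inv_cancel_right]
  refine ⟨(b' : G)⁻¹, inv_mem ?_, b' * k, ?_, by group⟩
  · have h1 : (b' : G) ∈ (𝐍(inducedFunctor W (S.subgroupOf K))).map K.subtype := ⟨b', hb', rfl⟩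
    rw [map_subtype_normalizer, H57.map_inducedFunctor hW _ K.subtype_injective _ hS'.isP,
      subgroupOf_map_subtype, inf_eq_left.2 hS.le] at h1
    exact h1.2
  · rw [← inv_mem_iff, mul_inv_rev]
    intro z hz
    have hzK : z ∈ K := hQK (hZQ hz)
    have h1 : (⟨z, hzK⟩ : K) ∈ omegaOne p (S.subgroupOf K ⊓ 𝐂(S.subgroupOf K)) := by
      have h2 : z ∈ (omegaOne p (S.subgroupOf K ⊓ 𝐂(S.subgroupOf K))).map K.subtype := by
        rw [H24.map_omegaOne K.subtype_injective, H24.map_inf_centralizer K.subtype_injective,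
          subgroupOf_map_subtype, inf_eq_left.2 hS.le]
        exact hZ hz
      obtain ⟨y, hy, rfl⟩ := h2
      exact hy
    have h2 : QuotientGroup.mk' (pPrimeCore p K) ⟨z, hzK⟩ ∈ omegaOne p
        ((S.subgroupOf K).map (QuotientGroup.mk' (pPrimeCore p K)) ⊓
          𝐂((S.subgroupOf K).map (QuotientGroup.mk' (pPrimeCore p K)))) := by
      refine H24.omegaOne_mono ?_ (H24.map_omegaOne_le _ _ ⟨_, h1, rfl⟩)
      rintro _ ⟨y, hy, rfl⟩
      refine ⟨⟨y, hy.1, rfl⟩, ?_⟩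
      rintro _ ⟨s, hs, rfl⟩
      rw [← map_mul, ← map_mul, hy.2 s hs]
    have h3 := ha _ h2
    set c : K := ⟨k⁻¹, inv_mem hk⟩ * b'⁻¹ with hcdef
    have h4 : (⟨z, hzK⟩ : K) * c * (⟨z, hzK⟩ : K)⁻¹ * c⁻¹ ∈ pPrimeCore p K := by
      rw [← QuotientGroup.eq_one_iff]
      change QuotientGroup.mk' (pPrimeCore p K) _ = 1
      rw [map_mul, map_mul, map_mul, map_inv, map_inv, ← ea, h3]; group
    have h5 : (⟨z, hzK⟩ : K) * c * (⟨z, hzK⟩ : K)⁻¹ * c⁻¹ ∈ pCore p K := by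
      have h6 : (⟨z, hzK⟩ : K) ∈ pCore p K := hQO (hZQ hz)
      have h7 := (inferInstance : (pCore p K).Normal).conj_mem _ (inv_mem h6) c
      simpa only [mul_assoc] using mul_mem h6 h7
    have h6 : (⟨z, hzK⟩ : K) * c * (⟨z, hzK⟩ : K)⁻¹ * c⁻¹ = 1 := by
      exact mem_bot.1 ((H1.pCore_inf_pPrimeCore (p := p) (G := K)).le ⟨h5, h4⟩)
    have h7 : (⟨z, hzK⟩ : K) * c = c * ⟨z, hzK⟩ := by
      rw [← mul_inv_eq_one, mul_inv_rev, ← mul_assoc]; exact h6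
    exact congrArg Subtype.val h7

open Subgroup H69 H59 in
theorem ncl_le_ncl {G : Type u} [Group G] [Finite G] {p : ℕ} [Fact p.Prime]
    {W : ∀ (Q : Type u) [Group Q], Subgroup Q} (hW : IsCharPFunctor.{u} p W)
    {S X : Subgroup G} (hS : IsSylowIn p S ⊤) (hXS : X ≤ S) (hSX : S ≤ 𝐍(X))
    (hZ : omegaOne p (S ⊓ 𝐂(S)) ≤ X)
    (hfac : ∀ (K : Subgroup G) (N : Subgroup K) [N.Normal], Constr p (K ⧸ N) →
      ∀ T : Sylow p (K ⧸ N), ∀ x : K ⧸ N,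
      ∃ a ∈ 𝐂(omegaOne p ((T : Subgroup (K ⧸ N)) ⊓ 𝐂((T : Subgroup (K ⧸ N))))),
        ∃ b ∈ 𝐍(inducedFunctor W (T : Subgroup (K ⧸ N))), x = a * b) :
    ncl (omegaOne p (S ⊓ 𝐂(S))) 𝐍(X) ≤ ncl (omegaOne p (S ⊓ 𝐂(S))) 𝐍(inducedFunctor W S) := by
  refine ncl_le_iff.2 fun g hg => ?_
  have hn : 𝐍(X) ≤ 𝐍(𝐍(X) ⊓ 𝐂(X)) :=
    le_normalizer_inf le_normalizer (normalizer_le_normalizer_centralizer X)
  have h1 := (hS.mono hSX le_top).inf_normal inf_le_left hn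
  obtain ⟨m, hm, c, hc, rfl⟩ := h1.frattini' (hn hg)
  have hmX : m ∈ 𝐍(X) := by
    have := mul_mem hg (inv_mem hc.1)
    rwa [mul_inv_cancel_right] at this
  set R := S ⊓ (𝐍(X) ⊓ 𝐂(X)) with hR
  have hSR : S ≤ 𝐍(R) := le_normalizer_inf le_normalizer (hSX.trans hn)
  obtain ⟨n, hn', d, hd, rfl⟩ := lift_fac hW (K := 𝐍(X) ⊓ 𝐍(R)) (Q := X ⊔ R)
    (hS.mono (le_inf hSX hSR) le_top) (sup_le hXS inf_le_left)
    (le_normalizer_sup inf_le_left inf_le_right)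
    (le_trans (le_inf inf_le_left (le_inf (inf_le_left.trans hSX)
      (inf_le_right.trans (centralizer_anti le_sup_left)))) le_sup_right)
    (hZ.trans le_sup_left) le_rfl (hfac _) m ⟨hmX, hm⟩
  rw [← cj_cj, cj_eq_of_mem_centralizer (centralizer_anti hZ hc.2), ← cj_cj,
    cj_eq_of_mem_centralizer hd]
  exact cj_le_ncl _ hn'

/-- Let p be a prime, G a finite group with Sylow p-subgroup S, and W₁, W₂ two isomorphism-invariant p-group functors (W assigns to every group Q a subgroup W(Q), nontrivial whenever Q is a nontrivial finite p-group, and every isomorphism from a finite p-group Q onto a group R carries W(Q) onto W(R)). Suppose that G* = C_{G*}(Ω₁Z(S*)) N_{G*}(W₁(S*)) = C_{G*}(Ω₁Z(S*)) N_{G*}(W₂(S*)) = N_{G*}(W₁(S*)) N_{G*}(W₂(S*)) whenever G* = K/R is a section of G with C_{G*}(O_p(G*)) ≤ O_p(G*) and S* is a Sylow p-subgroup of G*, where Ω₁Z denotes the subgroup generated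 by the elements of order dividing p in the centre. Suppose also Ω₁Z(S) ≤ W₁(S) ∩ W₂(S), and let A be the normal closure of Ω₁Z(S) in N_G(W₁(S)). Then A is an elementary abelian subgroup of S, strongly closed in S with respect to G, and A controls strong fusion in G. -/
theorem result {G : Type u} [Group G] [Finite G] {p : ℕ} [Fact p.Prime] (S : Sylow p G) (W₁ W₂ : ∀ (Q : Type u) [Group Q], Subgroup Q) (hW₁ : Cfsg.IsCharPFunctor.{u} p W₁) (hW₂ : Cfsg.IsCharPFunctor.{u} p W₂) (hfac : ∀ (K R : Subgroup G) [hR : (R.subgroupOf K).Normal], Subgroup.centralizer ((Cfsg.pCore p (↥K ⧸ R.subgroupOf K) : Subgroup (↥K ⧸ R.subgroupOf K)) : Set (↥K ⧸ R.subgroupOf K)) ≤ Cfsg.pCore p (↥K ⧸ R.subgroupOf K) → ∀ T : Sylow p (↥K ⧸ R.subgroupOf K), (∀ x : (↥K ⧸ R.subgroupOf K), ∃ a ∈ Subgroup.centralizer ((Cfsg.omegaOne p ((T : Subgroup (↥K ⧸ R.subgroupOf K)) ⊓ Subgroup.centralizer (((T : Subgroup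 (↥K ⧸ R.subgroupOf K)) : Subgroup (↥K ⧸ R.subgroupOf K)) : Set (↥K ⧸ R.subgroupOf K))) : Subgroup (↥K ⧸ R.subgroupOf K)) : Set (↥K ⧸ R.subgroupOf K)), ∃ b ∈ Subgroup.normalizer ((Cfsg.inducedFunctor (G := (↥K ⧸ R.subgroupOf K)) W₁ (T : Subgroup (↥K ⧸ R.subgroupOf K)) : Subgroup (↥K ⧸ R.subgroupOf K)) : Set (↥K ⧸ R.subgroupOf K)), x = a * b) ∧ (∀ x : (↥K ⧸ R.subgroupOf K), ∃ a ∈ Subgroup.centralizer ((Cfsg.omegaOne p ((T : Subgroup (↥K ⧸ R.subgroupOf K)) ⊓ Subgroup.centralizer (((T : Subgroup (↥K ⧸ R.subgroupOf K)) : Subgroup (↥K ⧸ R.subgroupOf K)) : Set (↥K ⧸ R.subgroupOf K))) : Subgroup (↥K ⧸ R.subgroupOf K)) : Set (↥K ⧸ R.subgroupOf K)), ∃ b ∈ Subgroup.normalizer ((Cfsg.inducedFunctor (G := (↥K ⧸ R.subgroupOf K)) W₂ (T : Subgroup (↥K ⧸ R.subgroupOf K)) : Subgroup (↥K ⧸ R.subgroupOf K)) : Set (↥K ⧸ R.subgroupOf K)), x = a * b) ∧ (∀ x : (↥K ⧸ R.subgroupOf K), ∃ a ∈ Subgroup.normalizer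 ((Cfsg.inducedFunctor (G := (↥K ⧸ R.subgroupOf K)) W₁ (T : Subgroup (↥K ⧸ R.subgroupOf K)) : Subgroup (↥K ⧸ R.subgroupOf K)) : Set (↥K ⧸ R.subgroupOf K)), ∃ b ∈ Subgroup.normalizer ((Cfsg.inducedFunctor (G := (↥K ⧸ R.subgroupOf K)) W₂ (T : Subgroup (↥K ⧸ R.subgroupOf K)) : Subgroup (↥K ⧸ R.subgroupOf K)) : Set (↥K ⧸ R.subgroupOf K)), x = a * b)) (hZ : Cfsg.omegaOne p ((S : Subgroup G) ⊓ Subgroup.centralizer (((S : Subgroup G) : Subgroup G) : Set G)) ≤ Cfsg.inducedFunctor (G := G) W₁ (S : Subgroup G) ⊓ Cfsg.inducedFunctor (G := G) W₂ (S : Subgroup G)) (N₁ : Subgroup G) (hN₁ : N₁ = Subgroup.normalizer ((Cfsg.inducedFunctor (G := G) W₁ (S : Subgroup G) : Subgroup G) : Set G)) (A : Subgroup G) (hA : A = (Subgroup.normalClosure (((Cfsg.omegaOne p ((S : Subgroup G) ⊓ Subgroup.centralizer (((S : Subgroup G) : Subgroup G) : Set G))).subgroupOf N₁ : Subgroup ↥N₁) : Set ↥N₁)).map N₁.subtype)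 : A ≤ (S : Subgroup G) ∧ Cfsg.IsElementaryAbelian p A ∧ Cfsg.IsStronglyClosed A (S : Subgroup G) ∧ Cfsg.ControlsStrongFusion p A := by
  open Subgroup H69 H59 in
  have hS := isSylowIn_top S
  have c1 := H57.isConjugacyFunctor_induced (G := G) hW₁
  have c2 := H57.isConjugacyFunctor_induced (G := G) hW₂
  have n1 := le_normalizer.trans (cf_normalizer c1 hS.isP)
  have n2 := le_normalizer.trans (cf_normalizer c2 hS.isP)
  have hZS := H24.omegaOne_le (p := p) ((S : Subgroup G) ⊓ 𝐂((S : Subgroup G)))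
  set Z := omegaOne p ((S : Subgroup G) ⊓ 𝐂((S : Subgroup G))) with hZdef
  have hA1 : A = ncl Z 𝐍(inducedFunctor W₁ (S : Subgroup G)) := by
    rw [hA, map_normalClosure_subgroupOf (hN₁ ▸ (hZS.trans inf_le_left).trans n1), hN₁]
  have hA2 : A = ncl Z 𝐍(inducedFunctor W₂ (S : Subgroup G)) := by
    rw [hA1]
    refine le_antisymm (ncl_le_ncl hW₂ hS (cf_le c1 hS.isP) n1 (hZ.trans inf_le_left) ?_)
      (ncl_le_ncl hW₁ hS (cf_le c2 hS.isP) n2 (hZ.trans inf_le_right) ?_)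
    · intro K N _ hc T
      obtain ⟨R, rfl⟩ : ∃ R : Subgroup G, N = R.subgroupOf K :=
        ⟨N.map K.subtype, (subgroupOf_map_subtype' N).symm⟩
      exact (hfac K R hc T).2.1
    · intro K N _ hc T
      obtain ⟨R, rfl⟩ : ∃ R : Subgroup G, N = R.subgroupOf K :=
        ⟨N.map K.subtype, (subgroupOf_map_subtype' N).symm⟩
      exact (hfac K R hc T).1
  have hAS : A ≤ S := hA1.le.trans ((ncl_le (hZ.trans inf_le_left) le_rfl).trans (cf_le c1 hS.isP))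
  have hfus := famFus_of (by rintro W (rfl | rfl); exacts [c1, c2]) hS
    (Cfsg.Agent.S1996.result W₁ W₂ hW₁ hW₂ fun K R _ hc T => (hfac K R hc T).2.2)
  have hF : Fus 𝐍(A) ⊤ S := fun B g hB hg hBg => by
    obtain ⟨m, hm, e⟩ := (hfus B g hB hg hBg).exists_agree (M := 𝐍(A)) (by
      rintro n ⟨W, rfl | rfl, -, hn⟩
      · exact hA1 ▸ le_normalizer_ncl _ _ hn
      · exact hA2 ▸ le_normalizer_ncl _ _ hn)
    exact ⟨m, ⟨mem_top _, hm⟩, e⟩
  refine ⟨hAS, ?_, ⟨hAS, fun x hx g hg => ?_⟩, S, hAS, fun B hB => ⟨hB, fun g hg => ?_⟩⟩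
  · have hZe := H24.omegaOne_center_isElementaryAbelian (p := p) (S : Subgroup G)
    have hAZ : A ≤ 𝐂(Z) := hAS.trans (le_centralizer_iff.1 (hZS.trans inf_le_right))
    have hAA : A ≤ 𝐂(A) := by
      conv_lhs => rw [hA1]
      exact ncl_le_centralizer (le_centralizer_iff.1 hAZ) (hA1 ▸ le_normalizer_ncl _ _)
    rw [hA1, ncl_def]
    refine H24.EA.iSup (fun l => H24.EA.map hZe _) fun i j => ?_
    exact ((cj_le_ncl Z i.2).trans hA1.ge).trans (hAA.trans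
      (centralizer_anti ((cj_le_ncl Z j.2).trans hA1.ge)))
  · obtain ⟨m, hm, e⟩ := fus_iff.1 hF {x} g (mem_top g) (Set.singleton_subset_iff.2 (hAS hx))
      (by rw [Set.image_singleton]; exact Set.singleton_subset_iff.2 hg)
    rw [← e x rfl]
    exact conj_mem_of_mem_normalizer hm.2 hx
  · obtain ⟨m, hm, e⟩ := fus_iff.1 hF B g (mem_top g) hB hg
    exact ⟨m, hm.2, fun a ha => (e a ha).symm⟩

end Cfsg.Agent.S1997
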