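import Cfsg.Statements.S2004
import Mathlib
import Cfsg.Agent.Base
import Cfsg.Agent.Lib.Functor.Qd2
import Cfsg.Agent.S2795

set_option autoImplicit false
open Cfsg

namespace Cfsg.Agent.S2004

/-- Let p be an odd prime and G a finite group such that SL₂(p) is not involved in N_G(P) for any nonidentity p-subgroup P of G. Then every section of G is p-stable in the normalizer form: in each section, whenever an element of the normalizer of a p-subgroup Q acts quadratically on Q, its image in N(Q)/C(Q) lies in O_p(N(Q)/C(Q)). -/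
theorem result {G : Type*} [Group G] [Finite G] {p : ℕ} [Fact p.Prime] (hp : p ≠ 2) (h : ∀ P : Subgroup G, IsPGroup p ↥P → P ≠ ⊥ → ¬ Cfsg.Involves (Matrix.SpecialLinearGroup (Fin 2) (ZMod p)) ↥(Subgroup.normalizer ((P : Subgroup G) : Set G))) : ∀ (K R : Subgroup G) [hR : (R.subgroupOf K).Normal], Cfsg.IsNormalizerPStable p (↥K ⧸ R.subgroupOf K) := by
  open Subgroup H69 H59 in
  refine (S2795.result hp).1 fun hq => ?_
  obtain ⟨K, f, hf⟩ := H57.involves_iff.1 hq
  let N : Subgroup K := (H58.Qd.V p).comap f
  obtain ⟨P, hP⟩ := exists_isSylowIn p N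
  have hPV : P.map f = H58.Qd.V p := by
    have h1 := hP.map f
    rw [map_comap_eq_self_of_surjective hf] at h1
    exact (h1.max _ h1.le le_rfl H58.Qd.isPGroup_V).symm
  have hP0 : P.map K.subtype ≠ ⊥ := fun h0 => by
    rw [map_subtype_eq_bot_iff] at h0
    rw [h0, Subgroup.map_bot] at hPV
    exact V_ne_bot hPV.symm
  refine h _ (hP.isP.map K.subtype) hP0 ?_
  have h1 : Involves (Matrix.SpecialLinearGroup (Fin 2) (ZMod p)) 𝐍(P) := by
    refine H57.involves_trans (H57.involves_of_surjective ⊤
      (((linHom p).comp f).comp (𝐍(P).subtype.comp (⊤ : Subgroup 𝐍(P)).subtype)) fun g => ?_)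
      (H57.involves_self _)
    obtain ⟨k, rfl⟩ := (linHom_surjective.comp hf) g
    obtain ⟨a, ha, n, hn, rfl⟩ := hP.frattini' (g := k)
      (normal_iff_top_le_normalizer.1 inferInstance (mem_top k))
    refine ⟨⟨⟨a, ha⟩, mem_top _⟩, ?_⟩
    have : linHom p (f n) = 1 := V_le_ker_linHom hn
    simp [this]
  refine H57.involves_trans h1 ?_
  have hle : 𝐍(P).map K.subtype ≤ 𝐍(P.map K.subtype) := by
    rw [map_subtype_normalizer]; exact inf_le_right
  exact H57.involves_trans (H57.involves_of_equiv
    ((subgroupOfEquivOfLe hle).trans (𝐍(P).equivMapOfInjective _ K.subtype_injective).symm))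
    (H57.involves_subgroup _)

end Cfsg.Agent.S2004
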