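import Cfsg.Statements.S2009
import Mathlib
import Cfsg.Agent.Base


set_option autoImplicit false
open Cfsg

namespace Cfsg.Agent.S2009

/-- Let H be a finite group and z an involution such that every proper normal subgroup of H meets the centralizer of z trivially, and suppose z lies in a Klein four-subgroup E of H all three of whose involutions are conjugate to z in H. Then H is simple. -/
theorem result {H : Type*} [Group H] [Finite H] (z : H) (hz : orderOf z = 2) (hN : ∀ N : Subgroup H, N.Normal → N ≠ ⊤ → N ⊓ Subgroup.centralizer ({z} : Set H) = ⊥) (E : Subgroup H) (hE : IsKleinFour ↥E) (hzE : z ∈ E) (hc : ∀ e ∈ E, e ≠ 1 → IsConj z e) : IsSimpleGroup H := by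
  have hz1 : z ≠ 1 := by rintro rfl; simp at hz
  have : Nontrivial H := ⟨⟨z, 1, hz1⟩⟩
  refine ⟨fun N hNn => or_iff_not_imp_right.mpr fun hne => ?_⟩
  have hfix : ∀ e ∈ E, e ≠ 1 → ∀ x ∈ N, e * x * e⁻¹ = x → x = 1 := by
    intro e he he1 x hx hxe
    obtain ⟨c, rfl⟩ := isConj_iff.mp (hc e he he1)
    have h1 : c⁻¹ * x * c ∈ N ⊓ Subgroup.centralizer ({z} : Set H) := by
      refine ⟨hNn.conj_mem' _ hx _, Subgroup.mem_centralizer_singleton_iff.mpr ?_⟩
      calc c⁻¹ * x * c * z = c⁻¹ * (c * z * c⁻¹ * x * (c * z * c⁻¹)⁻¹) * c * z := by rw [hxe]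
        _ = z * (c⁻¹ * x * c) := by group
    rw [hN N hNn hne, Subgroup.mem_bot] at h1
    calc x = c * (c⁻¹ * x * c) * c⁻¹ := by group
      _ = 1 := by rw [h1]; group
  have hsq : ∀ e ∈ E, e * e = 1 := fun e he => by
    have := hE
    exact congrArg Subtype.val (IsKleinFour.mul_self (⟨e, he⟩ : E))
  have hinv : ∀ e ∈ E, e ≠ 1 → ∀ x ∈ N, e * x * e⁻¹ = x⁻¹ := by
    intro e he he1 x hx
    have hfpf : MonoidHom.FixedPointFree (MulAut.conjNormal (H := N) e) := fun y hy =>
      Subtype.ext (hfix e he he1 y y.2 (congrArg Subtype.val hy))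
    have hi : Function.Involutive (MulAut.conjNormal (H := N) e) := by
      intro y
      apply Subtype.ext
      change e * (e * y * e⁻¹) * e⁻¹ = y
      calc e * (e * y * e⁻¹) * e⁻¹ = (e * e) * y * (e * e)⁻¹ := by group
        _ = y := by rw [hsq e he]; group
    exact congrArg Subtype.val (congrFun (hfpf.coe_eq_inv_of_involutive hi) ⟨x, hx⟩)
  obtain ⟨e, he, he1, hez⟩ : ∃ e ∈ E, e ≠ 1 ∧ e ≠ z := by
    by_contra! h
    have h1 : (E : Set H) ⊆ {1, z} := fun e he => by
      by_cases h1 : e = 1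
      · exact Or.inl h1
      · exact Or.inr (h e he h1)
    have h2 := Set.ncard_le_ncard h1
    have h3 : (E : Set H).ncard = 4 := hE.card_four
    have h4 := Set.ncard_insert_le (1 : H) {z}
    rw [Set.ncard_singleton] at h4
    omega
  rw [eq_bot_iff]
  intro x hx
  refine hfix (z * e) (E.mul_mem hzE he) (fun h => hez ?_) x hx ?_
  · rw [← mul_right_inj z, h, hsq z hzE]
  · calc z * e * x * (z * e)⁻¹ = z * (e * x * e⁻¹) * z⁻¹ := by group
      _ = x := by rw [hinv e he he1 x hx, hinv z hzE hz1 _ (N.inv_mem hx), inv_inv]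

end Cfsg.Agent.S2009
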