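import Cfsg.Statements.S2008
import Mathlib
import Cfsg.Agent.Base
import Cfsg.Agent.S2009

set_option autoImplicit false
open Cfsg

namespace Cfsg.Agent.S2008

/-- Let H be a finite group and z an involution such that every proper normal subgroup of H meets the centralizer of z trivially, and suppose z lies in a Klein four-subgroup E of H all three of whose involutions are conjugate to z in H. Then H has no non-trivial abelian normal subgroup. -/
theorem result {H : Type*} [Group H] [Finite H] (z : H) (hz : orderOf z = 2) (hN : ∀ N : Subgroup H, N.Normal → N ≠ ⊤ → N ⊓ Subgroup.centralizer ({z} : Set H) = ⊥) (E : Subgroup H) (hE : IsKleinFour ↥E) (hzE : z ∈ E) (hc : ∀ e ∈ E, e ≠ 1 → IsConj z e) (N : Subgroup H) [N.Normal] (hab : IsMulCommutative ↥N) : N = ⊥ := by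
  have hs := Cfsg.Agent.S2009.result z hz hN E hE hzE hc
  rcases hs.eq_bot_or_eq_top_of_normal N inferInstance with h | rfl
  · exact h
  · exfalso
    have h1 : (E : Set H) ⊆ {1, z} := fun e he => by
      by_cases h1 : e = 1
      · exact Or.inl h1
      · obtain ⟨c, rfl⟩ := isConj_iff.mp (hc e he h1)
        refine Or.inr ?_
        have : c * z = z * c :=
          congrArg Subtype.val (hab.is_comm.comm ⟨c, trivial⟩ ⟨z, trivial⟩)
        rw [this, mul_inv_cancel_right]; rfl
    have h2 := Set.ncard_le_ncard h1
    have h3 : (E : Set H).ncard = 4 := hE.card_four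
    have h4 := Set.ncard_insert_le (1 : H) {z}
    rw [Set.ncard_singleton] at h4
    omega

end Cfsg.Agent.S2008
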