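import Cfsg.Statements.S2040
import Cfsg.Agent.Lib.Schur.MulJ2

set_option autoImplicit false
open Cfsg

namespace Cfsg.Agent.S2040

/-- The Schur multiplier of the Hall–Janko group J₂ (the icosian reflection group modulo its centre) is cyclic of order 2; here the Schur multiplier is described through stem extensions, as in the definitions: surjective homomorphisms onto the group from a finite group, whose kernel is central in that finite group and contained in that finite group's commutator subgroup. -/
theorem result : Cfsg.HasCyclicSchurMultiplier Cfsg.Spor.J2 2 :=
  H60.hasCyclic_of_bounds H74.J2.card_J2 (ps := [2, 3, 5]) (by decide +kernel) 2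
    (H60.forall_mem_three (.pos 1 (by decide) H60.J2.d2_exp H60.J2.d2_gen) (.zero H60.J2.d3_exp) (.zero H60.J2.d5_exp)) H60.J2.c2_low

end Cfsg.Agent.S2040
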