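import Cfsg.Statements.S2044
import Cfsg.Agent.Lib.Schur.MulCo2x2
import Cfsg.Agent.Lib.Schur.MulCo2x3
import Cfsg.Agent.Lib.Schur.MulCo2x5

set_option autoImplicit false
open Cfsg

namespace Cfsg.Agent.S2044

/-- The Schur multiplier of the Conway group Co₂ (the stabiliser of a minimal vector of the rank-24 lattice) is trivial; here the Schur multiplier is described through stem extensions, as in the definitions: surjective homomorphisms onto the group from a finite group, whose kernel is central in that finite group and contained in that finite group's commutator subgroup. -/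
theorem result : Cfsg.HasCyclicSchurMultiplier ↥Cfsg.Spor.Co2 1 :=
  H60.hasSchur_of_mulEquiv H16.eCo2.symm
    (H60.hasCyclic_of_bounds H16.card_Co2 (ps := [2, 3, 5]) (by decide +kernel) 1
      (H60.forall_mem_three (.zero H60.Co2.d2_exp) (.zero H60.Co2.d3_exp) (.zero H60.Co2.d5_exp)) H60.lowB_one)

end Cfsg.Agent.S2044
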