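import Cfsg.Statements.S2047
import Cfsg.Agent.Lib.Schur.CovMcL

set_option autoImplicit false
open Cfsg

namespace Cfsg.Agent.S2047

/-- The Schur multiplier of the McLaughlin group (as a two-vector stabiliser in the automorphism group of the rank-24 lattice) is cyclic of order 3; here the Schur multiplier is described through stem extensions, as in the definitions: surjective homomorphisms onto the group from a finite group, whose kernel is central in that finite group and contained in that finite group's commutator subgroup. -/
theorem result : Cfsg.HasCyclicSchurMultiplier ↥Cfsg.Spor.McL 3 :=
  H60.hasCyclic_of_bounds H16.card_sMcL (ps := [2, 3, 5]) (by decide +kernel) 3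
    (H60.forall_mem_three (.zero H60.McL.d2_exp) (.pos 1 (by decide) H60.McL.d3_exp H60.McL.d3_gen) (.zero H60.McL.d5_exp)) H60.McL.low3

end Cfsg.Agent.S2047
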