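import Cfsg.Statements.S2087
import Cfsg.Agent.Lib.Schur.Basic
import Cfsg.Agent.S2086
import Cfsg.Agent.S0255

set_option autoImplicit false
open Cfsg

namespace Cfsg.Agent.S2087

/-- Exceptional Schur multiplier: over the field with 2 elements, PSL₃ has Schur multiplier cyclic of order 2 (here the Schur multiplier is described through stem extensions, as in the definitions). -/
theorem result {F : Type*} [Field F] [Fintype F] (hF : Fintype.card F = 2) : Cfsg.HasCyclicSchurMultiplier (Matrix.ProjectiveSpecialLinearGroup (Fin 3) F) 2 := by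
  haveI : Fact (Nat.Prime 7) := ⟨by norm_num⟩
  exact H60.hasSchur_of_mulEquiv (Cfsg.Agent.S0255.result (F := ZMod 7) (K := F) (ZMod.card 7) hF).some
    (Cfsg.Agent.S2086.result (F := ZMod 7) (ZMod.card 7) 2 le_rfl (fun _ => by norm_num) (by simp))

end Cfsg.Agent.S2087
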