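import Mathlib
import Cfsg.Statements.S2091
import Cfsg.Agent.Lib.Cover.SU62
import Cfsg.Agent.Lib.Cover.Quot
import Cfsg.Agent.Lib.Stein.SUM
import Cfsg.Agent.Lib.ClGeo.Heart

set_option autoImplicit false
open Cfsg

namespace Cfsg.Agent.S2091



/-- Exceptional Schur multiplier: PSU₆(2), realised over the field with 4 elements, has Schur multiplier isomorphic to the product of cyclic groups of orders 3, 2 and 2 (order 12, not cyclic; here the Schur multiplier is described through stem extensions, as in the definitions). -/
theorem result {F : Type*} [Field F] [Fintype F] (hF : Fintype.card F = 4) : Cfsg.HasSchurMultiplier (Cfsg.PSU 6 F 2) (Multiplicative (ZMod 3 × ZMod 2 × ZMod 2)) := by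
  have : H11.U.IsSq F 2 := ⟨hF⟩
  have := H63.St.SU.isCyclic_center (F := F) (q := 2) (n := 6) (by norm_num)
  obtain ⟨e⟩ := H30.F4.nonempty_ringEquiv hF
  exact H19.Cov.hasBic_quot_center (H11.U.commutator_SU_eq_top (by norm_num) (by norm_num))
    (H60.hasSchur_of_mulEquiv (H30.suCongr e 6 2).symm H19.Cov.su62_main)
    (H11.U.card_center_SU (by norm_num)) (by norm_num)

end Cfsg.Agent.S2091
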