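import Mathlib
import Cfsg.Statements.S2093
import Cfsg.Agent.Lib.Cover.Sp62
import Cfsg.Agent.Lib.GL.Basic
import Cfsg.Agent.S0246

set_option autoImplicit false
open Cfsg

namespace Cfsg.Agent.S2093



/-- Exceptional Schur multiplier: over the field with 2 elements, PSp₆ has Schur multiplier cyclic of order 2 (here the Schur multiplier is described through stem extensions, as in the definitions). -/
theorem result {F : Type*} [Field F] [Fintype F] (hF : Fintype.card F = 2) : Cfsg.HasCyclicSchurMultiplier (Cfsg.PSp 3 F) 2 := by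
  obtain ⟨e⟩ := H10.nonempty_ringEquiv_zmod (F := F) 2 (by rw [Nat.card_eq_fintype_card, hF])
  have h : Subgroup.center (Matrix.symplecticGroup (Fin 3) F) = ⊥ :=
    Subgroup.card_eq_one.1 (Cfsg.Agent.S0246.result hF 3 (by norm_num))
  exact H60.hasSchur_of_mulEquiv ((H10.spCongr e).symm.trans (H10.quotCenterEquivOfBot h).symm) H19.Cov.sp62_main

end Cfsg.Agent.S2093
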