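import Mathlib
import Cfsg.Statements.S2096
import Cfsg.Agent.Lib.Stein.OrthM
-- import your own Cfsg.Agent.* helpers here

set_option autoImplicit false
open Cfsg

namespace Cfsg.Agent.S2096

/-- Schur multipliers of the even-dimensional orthogonal groups of plus type and odd rank: for odd l ≥ 5 and a field F with q elements, the Schur multiplier of PΩ⁺_2l(F) (for the form Σ xᵢyᵢ) is cyclic of order gcd(4, q^l − 1); here the Schur multiplier is described through stem extensions, as in the definitions. -/
theorem result {F : Type*} [Field F] [Fintype F] {q : ℕ} (hF : Fintype.card F = q) (l : ℕ) (hl : 5 ≤ l) (hodd : Odd l) : Cfsg.HasCyclicSchurMultiplier (Cfsg.POmega F (Cfsg.quadFormPlus l F)) (Nat.gcd 4 (q ^ l - 1)) := by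
  subst hF
  have hQ := H12.nondeg_QPlus (F := F) l
  have hn := H12.finrank_plus (F := F) l
  have hM := H63.St.Orth.mult_plus (F := F) (l := l) (by omega) (by omega)
  have hpos : 1 ≤ Fintype.card F ^ l := Nat.one_le_pow _ _ Fintype.card_pos
  refine H78.Schur.hasSchurMultiplier_of_equiv ?_ (H12.pcommCongr (H12.plusIso F l)).symm
  by_cases h2 : (2 : F) = 0
  · have := H12.pow_mod_two_of_two_eq_zero h2 (l - 1)
    rw [show l - 1 + 1 = l by omega] at this
    rw [H12.gcd_four_of_odd (by omega)]
    exact H63.St.Orth.mult_even hQ (by omega) h2 (hM.2 h2)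
  have h3 := H12.negO_mem_Om_QPlus (H12.odd_card_iff.mpr h2) l
  have := H12.pow_mod_four_of_odd (H12.odd_card_iff.mpr h2) l
  by_cases h4 : Fintype.card F ^ l % 4 = 1
  · rw [Nat.gcd_rec, show (Fintype.card F ^ l - 1) % 4 = 0 by omega]
    exact H63.Spin.multiplier_four hQ (by omega) h2 (hM.1 h2) (h3.2 h4) hn hodd
  · rw [Nat.gcd_rec, show (Fintype.card F ^ l - 1) % 4 = 2 by omega]
    exact H63.Spin.multiplier_two hQ (by omega) (hM.1 h2) (mt h3.1 h4)

end Cfsg.Agent.S2096
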