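import Mathlib
import Cfsg.Statements.S2097
import Cfsg.Agent.Lib.Stein.OrthM
-- import your own Cfsg.Agent.* helpers here

set_option autoImplicit false
open Cfsg

namespace Cfsg.Agent.S2097

/-- Schur multipliers of the even-dimensional orthogonal groups of plus type and even rank: for even l ≥ 4 and a field F with q elements, (l, q) ≠ (4, 2), the Schur multiplier of PΩ⁺_2l(F) (for the form Σ xᵢyᵢ) is the product of two cyclic groups of order gcd(2, q^l − 1) (so trivial for q even and a four-group for q odd; here the Schur multiplier is described through stem extensions, as in the definitions). -/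
theorem result {F : Type*} [Field F] [Fintype F] {q : ℕ} (hF : Fintype.card F = q) (l : ℕ) (hl : 4 ≤ l) (heven : Even l) (hexc : ¬ (l = 4 ∧ q = 2)) : Cfsg.HasSchurMultiplier (Cfsg.POmega F (Cfsg.quadFormPlus l F)) (Multiplicative (ZMod (Nat.gcd 2 (q ^ l - 1)) × ZMod (Nat.gcd 2 (q ^ l - 1)))) := by
  subst hF
  have hQ := H12.nondeg_QPlus (F := F) l
  have hn := H12.finrank_plus (F := F) l
  have hM := H63.St.Orth.mult_plus (F := F) hl (by rw [Nat.card_eq_fintype_card]; omega)
  have hpos : 1 ≤ Fintype.card F ^ l := Nat.one_le_pow _ _ Fintype.card_pos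
  refine H78.Schur.hasSchurMultiplier_of_equiv ?_ (H12.pcommCongr (H12.plusIso F l)).symm
  by_cases h2 : (2 : F) = 0
  · have := H12.pow_mod_two_of_two_eq_zero h2 (l - 1)
    rw [show l - 1 + 1 = l by omega] at this
    rw [Nat.gcd_rec, show (Fintype.card F ^ l - 1) % 2 = 1 by omega, Nat.gcd_one_left]
    have : Unique (Multiplicative (ZMod 1 × ZMod 1)) := uniqueOfSubsingleton 1
    exact H63.St.Orth.mult_even hQ (by omega) h2 (hM.2 h2)
  have h3 := H12.isSquare_neg_one_pow_iff (H12.odd_card_iff.mpr h2) l
  rw [heven.neg_one_pow] at h3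
  have h4 := h3.1 IsSquare.one
  rw [Nat.gcd_rec, show (Fintype.card F ^ l - 1) % 2 = 0 by omega, Nat.gcd_zero_left]
  exact H63.Spin.multiplier_klein hQ (by omega) h2 (hM.1 h2)
    ((H12.negO_mem_Om_QPlus (H12.odd_card_iff.mpr h2) l).2 h4) hn heven

end Cfsg.Agent.S2097
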