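import Mathlib
import Cfsg.Statements.S2099
import Cfsg.Agent.Lib.Stein.OrthM
-- import your own Cfsg.Agent.* helpers here

set_option autoImplicit false
open Cfsg

namespace Cfsg.Agent.S2099

/-- Schur multipliers of the even-dimensional orthogonal groups of minus type: for l ≥ 4 and a field F with q elements, the Schur multiplier of PΩ⁻_2l(F) (for the form Σ_{i<l−1} xᵢyᵢ + z₁² + a z₁z₂ + b z₂² with the binary part anisotropic) is cyclic of order gcd(4, q^l + 1); here the Schur multiplier is described through stem extensions, as in the definitions. -/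
theorem result {F : Type*} [Field F] [Fintype F] {q : ℕ} (hF : Fintype.card F = q) (l : ℕ) (hl : 4 ≤ l) (a b : F) (hab : ∀ z₁ z₂ : F, z₁ ^ 2 + a * z₁ * z₂ + b * z₂ ^ 2 = 0 → z₁ = 0 ∧ z₂ = 0) : Cfsg.HasCyclicSchurMultiplier (Cfsg.POmega F (Cfsg.quadFormMinus (l - 1) F a b)) (Nat.gcd 4 (q ^ l + 1)) := by
  subst hF
  obtain ⟨m, rfl⟩ : ∃ m, l = m + 1 := ⟨l - 1, by omega⟩
  have hQ := H12.nondeg_QMinus (F := F) hab m
  have hn := H12.finrank_minus (F := F) m
  have hM := H63.St.Orth.mult_minus (F := F) hab (l := m) (by omega)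
  refine H78.Schur.hasSchurMultiplier_of_equiv ?_ (H12.pcommCongr (H12.minusIso m a b)).symm
  by_cases h2 : (2 : F) = 0
  · have := H12.pow_mod_two_of_two_eq_zero h2 m
    rw [H12.gcd_four_of_odd (by omega)]
    exact H63.St.Orth.mult_even hQ (by omega) h2 (hM.2 h2)
  have h3 := H12.negO_mem_Om_QMinus (H12.odd_card_iff.mpr h2) hab m
  have := H12.pow_mod_four_of_odd (H12.odd_card_iff.mpr h2) (m + 1)
  by_cases h4 : Fintype.card F ^ (m + 1) % 4 = 3
  · rw [Nat.gcd_rec, show (Fintype.card F ^ (m + 1) + 1) % 4 = 0 by omega]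
    refine H63.Spin.multiplier_four hQ (by omega) h2 (hM.1 h2) (h3.2 h4) (l := m + 1) (by omega)
      (Nat.not_even_iff_odd.1 fun e => ?_)
    have h5 := H12.isSquare_neg_one_pow_iff (H12.odd_card_iff.mpr h2) (m + 1)
    rw [e.neg_one_pow] at h5
    have := h5.1 IsSquare.one
    omega
  · rw [Nat.gcd_rec, show (Fintype.card F ^ (m + 1) + 1) % 4 = 2 by omega]
    exact H63.Spin.multiplier_two hQ (by omega) (hM.1 h2) (mt h3.1 h4)

end Cfsg.Agent.S2099
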