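import Cfsg.Statements.S2100
import Mathlib
import Cfsg.Agent.Lib.Stein3.Mult
-- import your own Cfsg.Agent.* helpers here

set_option autoImplicit false
open Cfsg

namespace Cfsg.Agent.S2100

/-- Schur multipliers of the Chevalley groups of type G₂: over a field with q ≥ 5 elements the Schur multiplier of G₂(q) is trivial (here the Schur multiplier is described through stem extensions, as in the definitions); the cases q = 3 and q = 4 are exceptional and q = 2 gives a non-simple group. -/
theorem result {F : Type*} [Field F] [Fintype F] (hF : 5 ≤ Fintype.card F) : Cfsg.HasCyclicSchurMultiplier ↥(Cfsg.Lie.chevG2.group F) 1 := by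
  exact H6.hasCyclic_one (Or.inl ⟨rfl, H63.St.exists_not_mem_of_lt_card
    (by rw [Nat.card_eq_fintype_card]; omega)⟩) H38.smithG2

end Cfsg.Agent.S2100
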