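import Mathlib
import Cfsg.Statements.S2101
import Cfsg.Agent.Lib.Cover.G23
import Cfsg.Agent.Lib.GL.Basic

set_option autoImplicit false
open Cfsg

namespace Cfsg.Agent.S2101



/-- Exceptional Schur multiplier: over the field with 3 elements the Chevalley group of type G₂ has Schur multiplier cyclic of order 3 (here the Schur multiplier is described through stem extensions, as in the definitions). -/
theorem result {F : Type*} [Field F] [Fintype F] (hF : Fintype.card F = 3) : Cfsg.HasCyclicSchurMultiplier ↥(Cfsg.Lie.chevG2.group F) 3 := by
  haveI := Fact.mk Nat.prime_three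
  obtain ⟨e⟩ := H10.nonempty_ringEquiv_zmod (F := F) 3 (by rw [Nat.card_eq_fintype_card, hF])
  exact H60.hasSchur_of_mulEquiv (H37.tabG2.fieldEquiv e).symm H19.Cov.g23_main

end Cfsg.Agent.S2101
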