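import Mathlib
import Cfsg.Statements.S2104
import Cfsg.Agent.Lib.Cover.F42
import Cfsg.Agent.Lib.GL.Basic

set_option autoImplicit false
open Cfsg

namespace Cfsg.Agent.S2104

theorem cyc_field {D : Lie.ChevalleyDatum} (T : H37.Tab D) {K K' : Type*} [Field K] [Field K'] (e : K ≃+* K') {n : ℕ}
    (h : HasCyclicSchurMultiplier (D.group K') n) : HasCyclicSchurMultiplier (D.group K) n :=
  H60.hasSchur_of_mulEquiv (T.fieldEquiv e).symm h

/-- Exceptional Schur multiplier: over the field with 2 elements the Chevalley group of type F₄ has Schur multiplier cyclic of order 2 (here the Schur multiplier is described through stem extensions, as in the definitions). -/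
theorem result {F : Type*} [Field F] [Fintype F] (hF : Fintype.card F = 2) : Cfsg.HasCyclicSchurMultiplier ↥(Cfsg.Lie.chevF4.group F) 2 := by
  have := Fact.mk Nat.prime_two
  obtain ⟨e⟩ := H10.nonempty_ringEquiv_zmod (F := F) 2 (by rw [Nat.card_eq_fintype_card, hF])
  exact cyc_field H37.tabF4 e H19.Cov.f42_main

end Cfsg.Agent.S2104
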