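import Cfsg.Statements.S2106
import Mathlib
import Cfsg.Agent.Lib.Stein3.Mult
-- import your own Cfsg.Agent.* helpers here

set_option autoImplicit false
open Cfsg

namespace Cfsg.Agent.S2106

/-- Schur multipliers of the (adjoint, simple) Chevalley groups of type E₇: over a field with q elements the Schur multiplier is cyclic of order gcd(2, q − 1) (here the Schur multiplier is described through stem extensions, as in the definitions). -/
theorem result {F : Type*} [Field F] [Fintype F] {q : ℕ} (hF : Fintype.card F = q) : Cfsg.HasCyclicSchurMultiplier ↥(Cfsg.Lie.chevE7.group F) (Nat.gcd 2 (q - 1)) := by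
  rw [← Nat.card_eq_fintype_card] at hF
  subst hF
  obtain ⟨R, E, hE⟩ := H38.exists_isMat (D := Lie.chevE7) (by simp) F
  exact H6.hasCyclic_gcd (Or.inr (Or.inr (Or.inr (Or.inl rfl)))) hE (H38.tor_st_injective_E7 hE)
    H38.smithE7

end Cfsg.Agent.S2106
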