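import Cfsg.Statements.S2140
import Cfsg.Agent.Lib.MinDeg65.Final

set_option autoImplicit false
open Cfsg

namespace Cfsg.Agent.S2140



/-- Minimal index of a proper subgroup of the linear groups: for n ≥ 3 and a field F with q elements, (n, q) ≠ (4, 2), every proper subgroup of PSL_n(F) has index at least (q^n − 1)/(q − 1), and some subgroup has exactly that index (the stabiliser of a point of the projective space). -/
theorem result {F : Type*} [Field F] [Fintype F] {q : ℕ} (hF : Fintype.card F = q) (n : ℕ) (hn : 3 ≤ n) (hexc : ¬ (n = 4 ∧ q = 2)) : (∀ H : Subgroup (Matrix.ProjectiveSpecialLinearGroup (Fin n) F), H ≠ ⊤ → (q ^ n - 1) / (q - 1) ≤ H.index) ∧ (∃ H : Subgroup (Matrix.ProjectiveSpecialLinearGroup (Fin n) F), H.index = (q ^ n - 1) / (q - 1)) := by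
  subst hF
  rw [← Nat.card_eq_fintype_card] at hexc ⊢
  refine ⟨fun H hH => ?_, ?_⟩
  · have h1 := Subgroup.index_comap_of_surjective H
      (QuotientGroup.mk'_surjective (Subgroup.center (Matrix.SpecialLinearGroup (Fin n) F)))
    have h2 : H.comap (QuotientGroup.mk' (Subgroup.center (Matrix.SpecialLinearGroup (Fin n) F))) ≠ ⊤ :=
      fun h => hH (Subgroup.index_eq_one.1 (h1 ▸ Subgroup.index_eq_one.2 h))
    rw [← h1]
    generalize H.comap (QuotientGroup.mk' (Subgroup.center (Matrix.SpecialLinearGroup (Fin n) F))) = K at h2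
    have : Nontrivial (Matrix.SpecialLinearGroup (Fin n) F ⧸ K) :=
      Finite.one_lt_card_iff_nontrivial.1 (Subgroup.one_lt_index_of_ne_top h2)
    exact Nat.div_le_of_le_mul ((H65.MD.le_card (Ω := _ ⧸ K) hn hexc).trans (mul_comm _ _).le)
  · have : Nonempty (Fin n) := ⟨⟨0, by omega⟩⟩
    obtain ⟨x⟩ : Nonempty (Projectivization F (Fin n → F)) := inferInstance
    refine ⟨MulAction.stabilizer _ x, ?_⟩
    rw [MulAction.index_stabilizer_of_transitive, Projectivization.card'', Nat.card_fun,
      Nat.card_eq_fintype_card (α := Fin n), Fintype.card_fin]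

end Cfsg.Agent.S2140
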