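import Cfsg.Statements.S2154
import Cfsg.Agent.Lib.Chev.Main
import Cfsg.Agent.Lib.SplitBN.BorelTits
-- import your own Cfsg.Agent.* helpers here

set_option autoImplicit false
open Cfsg

namespace Cfsg.Agent.S2154
open H64.SBN in

/-- The Borel–Tits property of the finite Chevalley groups of types G₂, B₂, D₄, F₄, E₆, E₇, E₈ over a finite field of characteristic p: for every non-trivial p-subgroup U of the group G there are an element g of G and a proper set J of fundamental roots such that the normaliser of U in G lies in the conjugate by g of the standard parabolic subgroup P_J and U lies in the conjugate by g of its unipotent radical U_J. -/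
theorem result {F : Type*} [Field F] [Fintype F] (p : ℕ) [Fact p.Prime] [CharP F p] (D : Cfsg.Lie.ChevalleyDatum) (hD : D ∈ [Cfsg.Lie.chevG2, Cfsg.Lie.chevB2, Cfsg.Lie.chevD4, Cfsg.Lie.chevF4, Cfsg.Lie.chevE6, Cfsg.Lie.chevE7, Cfsg.Lie.chevE8]) (U : Subgroup (GL D.Idx F)) (hUG : U ≤ D.group F) (hU : IsPGroup p ↥U) (hne : U ≠ ⊥) : ∃ g ∈ D.group F, ∃ J : Set ℕ, (∃ i, i < D.rank ∧ i ∉ J) ∧ Subgroup.normalizer (U : Set (GL D.Idx F)) ⊓ D.group F ≤ (D.parabolicSubgroup F J).map (MulAut.conj g).toMonoidHom ∧ U ≤ (D.unipotentRadical F J).map (MulAut.conj g).toMonoidHom := by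
  obtain ⟨R, E, hE⟩ := H38.exists_isMat hD F
  have hfin : Finite (GL D.Idx F) := inferInstance
  obtain ⟨g0, h0⟩ := exists_conj_mem_U p hE.grp_faith hE.grp_top hE.grp_R3
    (X := U.subgroupOf (D.group F)) (hU.comap_subtype)
  obtain ⟨g, hg, J, h1, h2⟩ := borel_tits hE.faith (X := U) (g0 := g0) (hE.Gp_eq ▸ g0.2)
    (fun x hx => by
      have := h0 ⟨x, hUG hx⟩ hx
      rw [hE.grp_U, Subgroup.mem_subgroupOf, hE.U_eq] at this
      exact this)
  have hJ : H38.nodes D (Fin.val '' J) = J := by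
    ext j; simp [H38.nodes, Fin.val_injective.mem_set_image]
  refine ⟨g⁻¹, hE.Gp_eq ▸ E.Gp.inv_mem hg, Fin.val '' J, ?_, ?_, ?_⟩
  · by_contra h
    push Not at h
    have : J = Set.univ := by
      ext j
      simpa [Fin.val_injective.mem_set_image] using h j j.2
    subst this
    refine hne (eq_bot_iff.mpr fun x hx => ?_)
    have := h2 x hx
    rw [UJ_univ, Subgroup.mem_bot] at this
    simpa using this
  · rintro m ⟨hm, hm'⟩
    rw [hE.P_eq, hJ]
    exact ⟨_, h1 m (hE.Gp_eq ▸ hm') hm, by simp [mul_assoc]⟩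
  · intro x hx
    rw [hE.UJ_eq, hJ]
    exact ⟨_, h2 x hx, by simp [mul_assoc]⟩

end Cfsg.Agent.S2154
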