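import Cfsg.Statements.S2155
import Cfsg.Agent.Lib.Chev.CentMat
import Cfsg.Agent.Lib.Chev.Simple
import Cfsg.Agent.Lib.Comp.FStar

set_option autoImplicit false
open Cfsg

namespace Cfsg.Agent.S2155

open H38 Cfsg.Lie

/-- In a Chevalley group of type G₂, B₂, D₄, F₄, E₆, E₇ or E₈ over a finite field of characteristic p (for types G₂ and B₂ the field is assumed to have at least 3 elements, so that the group is simple), the generalized Fitting subgroup of every proper standard parabolic subgroup P_J is a p-group (P_J is p-constrained with trivial largest normal subgroup of order prime to p). -/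
theorem result {F : Type*} [Field F] [Fintype F] (p : ℕ) [Fact p.Prime] [CharP F p] (D : Cfsg.Lie.ChevalleyDatum) (hD : D ∈ [Cfsg.Lie.chevG2, Cfsg.Lie.chevB2, Cfsg.Lie.chevD4, Cfsg.Lie.chevF4, Cfsg.Lie.chevE6, Cfsg.Lie.chevE7, Cfsg.Lie.chevE8]) (hq : (D = Cfsg.Lie.chevG2 ∨ D = Cfsg.Lie.chevB2) → 3 ≤ Fintype.card F) (J : Set ℕ) (hJ : ∃ i, i < D.rank ∧ i ∉ J) : IsPGroup p ↥(Cfsg.generalizedFittingSubgroup ↥(D.parabolicSubgroup F J)) := by
  obtain ⟨R, E, hE⟩ := exists_isMat hD F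
  obtain ⟨i, hi, hiJ⟩ := hJ
  rw [hE.P_eq, H23.isPGroup_fStar_iff]
  set P := E.P (nodes D J)
  have hn : ((E.UJ (nodes D J)).subgroupOf P).Normal :=
    ⟨fun a ha g => E.P_conj_mem_UJ g.2 ha⟩
  have h1 : (E.UJ (nodes D J)).subgroupOf P ≤ pCore p P :=
    H1.le_pCore ((H64.SBN.isPGroup_UJ p hE.faith _).comap_of_injective _ P.subtype_injective)
  refine (Subgroup.centralizer_le h1).trans (H1.le_pCore ?_)
  refine (((H64.SBN.isPGroup_U p hE.faith).comap_of_injective _ P.subtype_injective)).to_le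
    fun g hg => ?_
  obtain ⟨u, hu, a, ha, e⟩ := hE.faith.mem_of_comm_rad hE.R3 (R.connected hD) (J := nodes D J)
    ⟨⟨i, hi⟩, hiJ⟩ (E.P_le_Gp _ g.2) fun r h1 h2 => by
      have h3 : E.x r 1 ∈ E.UJ (nodes D J) := E.x_mem_XS (S := {r | R.Pos r ∧ ¬ R.InSub _ r}) ⟨h1, h2⟩ 1
      exact (congrArg Subtype.val
        (hg ⟨E.x r 1, E.B_le_P _ (E.U_le_B (E.UJ_le_U _ h3))⟩ h3)).symm
  rw [(hE.tor_eq_one_iff a).mpr ha, mul_one] at e
  exact (e ▸ hu : (g : GL D.Idx F) ∈ E.U)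

end Cfsg.Agent.S2155
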