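import Cfsg.Statements.S2159
import Cfsg.Agent.Lib.ChevAut.FoldMat
import Cfsg.Agent.S1081

set_option autoImplicit false
open Cfsg

namespace Cfsg.Agent.S2159

/-- Structure of the outer automorphism group of the Chevalley group `G` of type G₂, B₂, D₄, F₄, E₆, E₇ or E₈ over a finite field. Let `D̄` be the image in `Out(G)` of the subgroup generated by the diagonal automorphisms and `F̄` the image of the subgroup generated by the field automorphisms. Then `D̄` is a normal abelian subgroup of `Out(G)`, `F̄` is cyclic, `D̄F̄` is a normal subgroup, and the quotient of `Out(G)` by `D̄F̄` is trivial, of order 2, or non-abelian of order 6 (so isomorphic to the symmetric group on three letters): its index is 1 or 2, or it is 6 with the commutator subgroup of `Out(G)` not inside `D̄F̄`. -/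
theorem result {F : Type*} [Field F] [Finite F] (D : Cfsg.Lie.ChevalleyDatum) (hD : D ∈ [Cfsg.Lie.chevG2, Cfsg.Lie.chevB2, Cfsg.Lie.chevD4, Cfsg.Lie.chevF4, Cfsg.Lie.chevE6, Cfsg.Lie.chevE7, Cfsg.Lie.chevE8])
    (Dbar Fbar : Subgroup (Cfsg.Out ↥(D.group F)))
    (hDbar : Dbar = (Subgroup.closure {φ : MulAut ↥(D.group F) | D.IsDiagonalAut φ}).map (QuotientGroup.mk' (Cfsg.Inn ↥(D.group F))))
    (hFbar : Fbar = (Subgroup.closure {φ : MulAut ↥(D.group F) | D.IsFieldAut φ}).map (QuotientGroup.mk' (Cfsg.Inn ↥(D.group F)))) :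
    Dbar.Normal ∧ IsMulCommutative ↥Dbar ∧ IsCyclic ↥Fbar ∧ (Dbar ⊔ Fbar).Normal ∧
      ((Dbar ⊔ Fbar).index = 1 ∨ (Dbar ⊔ Fbar).index = 2 ∨
        ((Dbar ⊔ Fbar).index = 6 ∧ ¬ commutator (Cfsg.Out ↥(D.group F)) ≤ Dbar ⊔ Fbar)) := by
  obtain ⟨R, E, hE⟩ := H38.exists_isMat hD F
  obtain ⟨h1, h2, h3, h4, h5, h6⟩ := H61.out_structure hE hD Dbar Fbar hDbar hFbar
  refine ⟨h1, h2, h3, h4, ?_⟩
  rw [h5]
  have h7 := H61.card_Gr_le hE
  have h8 : 0 < Nat.card (H61.Gr hE) := Nat.card_pos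
  simp only [List.mem_cons, List.not_mem_nil, or_false] at hD
  rcases hD with rfl | rfl | rfl | rfl | rfl | rfl | rfl
  · rw [H61.cands_G2] at h7; omega
  · rw [H61.cands_B2] at h7; omega
  · obtain ⟨α, hα⟩ := S1081.result (F := F) (Lie.chevD4, [2, 1, 3, 0]) (by simp)
    have hπ : ∀ i, (H61.triD4 i : ℕ) = [2, 1, 3, 0].getD i 0 := by decide
    have hp : H61.Pinned hE.grp α H61.triD4 1 fun _ => RingEquiv.refl F :=
      H61.pinned_of_mat hE fun g i t => by rw [hπ]; exact hα g i t i.2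
    obtain ⟨β, hβ⟩ := H61.exists_swapD4 hE
    have a1 := Subgroup.orderOf_dvd_natCard _ (hp.mem_Gr hE)
    have a2 := Subgroup.orderOf_dvd_natCard _ (hβ.mem_Gr hE)
    rw [orderOf_eq_prime (p := 3) (by decide) (by decide)] at a1
    rw [orderOf_eq_prime (p := 2) (by decide) (by decide)] at a2
    rw [H61.cands_D4] at h7
    exact Or.inr (Or.inr ⟨by omega, fun h =>
      absurd (h6 h _ (hp.mem_Gr hE) _ (hβ.mem_Gr hE)) (by decide)⟩)
  · rw [H61.cands_F4] at h7; omega
  · rw [H61.cands_E6] at h7; omega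
  · rw [H61.cands_E7] at h7; omega
  · rw [H61.cands_E8] at h7; omega

end Cfsg.Agent.S2159
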