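import Cfsg.Statements.S2298
import Mathlib
import Cfsg.Agent.Lib.GL2Char.GLTable

set_option autoImplicit false
open Cfsg

namespace Cfsg.Agent.S2298

open H62 H62.GL2

/-- Over a finite field F with q elements, every irreducible complex character of GL₂ has degree 1, q − 1, q or q + 1; and when q ≥ 3 (so that these four numbers are distinct) there are exactly q − 1 irreducible characters of degree 1, exactly q − 1 of degree q, exactly (q − 1)(q − 2)/2 of degree q + 1 and exactly q(q − 1)/2 of degree q − 1. -/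
theorem result {F : Type*} [Field F] [Fintype F] :
    (∀ χ : Matrix.GeneralLinearGroup (Fin 2) F → ℂ, Cfsg.IsIrrCharacter (Matrix.GeneralLinearGroup (Fin 2) F) χ →
      χ 1 = 1 ∨ χ 1 = (Fintype.card F : ℂ) - 1 ∨ χ 1 = (Fintype.card F : ℂ) ∨ χ 1 = (Fintype.card F : ℂ) + 1) ∧
    (3 ≤ Fintype.card F →
      Nat.card {χ : Cfsg.IrrCharacter (Matrix.GeneralLinearGroup (Fin 2) F) // (χ : Matrix.GeneralLinearGroup (Fin 2) F → ℂ) 1 = 1} = Fintype.card F - 1 ∧
      Nat.card {χ : Cfsg.IrrCharacter (Matrix.GeneralLinearGroup (Fin 2) F) // (χ : Matrix.GeneralLinearGroup (Fin 2) F → ℂ) 1 = (Fintype.card F : ℂ)} = Fintype.card F - 1 ∧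
      Nat.card {χ : Cfsg.IrrCharacter (Matrix.GeneralLinearGroup (Fin 2) F) // (χ : Matrix.GeneralLinearGroup (Fin 2) F → ℂ) 1 = (Fintype.card F : ℂ) + 1} = (Fintype.card F - 1) * (Fintype.card F - 2) / 2 ∧
      Nat.card {χ : Cfsg.IrrCharacter (Matrix.GeneralLinearGroup (Fin 2) F) // (χ : Matrix.GeneralLinearGroup (Fin 2) F → ℂ) 1 = (Fintype.card F : ℂ) - 1} = Fintype.card F * (Fintype.card F - 1) / 2) := by
  classical
  obtain ⟨K, _, _, _, _, ⟨ι⟩⟩ := exists_quad F
  constructor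
  · intro χ hχ
    rcases irr_cases ι hχ with ⟨α, rfl⟩ | ⟨α, rfl⟩ | ⟨α, β, h, rfl⟩ | ⟨θ, h, rfl⟩
    · simp [lin_one]
    · simp [st_one]
    · simp [ps_one]
    · simp [cusp_one]
  · intro hq
    have h1 : (Fintype.card F : ℂ) ≠ 1 := by exact_mod_cast (by omega : Fintype.card F ≠ 1)
    have h0 : (Fintype.card F : ℂ) ≠ 0 := q_ne_zero
    have h2 : (Fintype.card F : ℂ) - 1 ≠ 1 := by
      intro h
      have : (Fintype.card F : ℂ) = 2 := by linear_combination h
      have : Fintype.card F = 2 := by exact_mod_cast this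
      omega
    have h3 : (Fintype.card F : ℂ) - 1 ≠ Fintype.card F := by
      intro h
      have : (1 : ℂ) = 0 := by linear_combination -h
      exact one_ne_zero this
    have h4 : (Fintype.card F : ℂ) - 1 ≠ Fintype.card F + 1 := by
      intro h
      have : (2 : ℂ) = 0 := by linear_combination -h
      exact two_ne_zero this
    refine ⟨?_, ?_, ?_, ?_⟩
    · rw [card_irr_subtype (setLin F) (fun χ => χ 1 = 1), card_setLin]
      intro χ
      rw [mem_setLin]
      constructor
      · rintro ⟨α, rfl⟩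
        exact ⟨isIrr_lin α, lin_one α⟩
      · rintro ⟨hχ, hd⟩
        rcases irr_cases ι hχ with ⟨α, rfl⟩ | ⟨α, rfl⟩ | ⟨α, β, h, rfl⟩ | ⟨θ, h, rfl⟩
        · exact ⟨α, rfl⟩
        · simp [st_one, h1] at hd
        · simp [ps_one, h0] at hd
        · simp [cusp_one, h2] at hd
    · rw [card_irr_subtype (setSt F) (fun χ => χ 1 = Fintype.card F), card_setSt]
      intro χ
      rw [mem_setSt]
      constructor
      · rintro ⟨α, rfl⟩
        exact ⟨isIrr_st α, st_one α⟩
      · rintro ⟨hχ, hd⟩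
        rcases irr_cases ι hχ with ⟨α, rfl⟩ | ⟨α, rfl⟩ | ⟨α, β, h, rfl⟩ | ⟨θ, h, rfl⟩
        · simp [lin_one, h1.symm] at hd
        · exact ⟨α, rfl⟩
        · simp [ps_one] at hd
        · simp [cusp_one, h3] at hd
    · rw [card_irr_subtype (setPs F) (fun χ => χ 1 = Fintype.card F + 1), ← card_setPs]
      · omega
      intro χ
      rw [mem_setPs]
      constructor
      · rintro ⟨α, β, h, rfl⟩
        exact ⟨isIrr_ps h, ps_one α β⟩
      · rintro ⟨hχ, hd⟩
        rcases irr_cases ι hχ with ⟨α, rfl⟩ | ⟨α, rfl⟩ | ⟨α, β, h, rfl⟩ | ⟨θ, h, rfl⟩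
        · simp [lin_one, h0] at hd
        · simp [st_one] at hd
        · exact ⟨α, β, h, rfl⟩
        · simp [cusp_one, h4] at hd
    · rw [card_irr_subtype (setCusp ι) (fun χ => χ 1 = Fintype.card F - 1), ← card_setCusp ι]
      · omega
      intro χ
      rw [mem_setCusp]
      constructor
      · rintro ⟨θ, h, rfl⟩
        exact ⟨isIrr_cusp ι h, cusp_one ι θ⟩
      · rintro ⟨hχ, hd⟩
        rcases irr_cases ι hχ with ⟨α, rfl⟩ | ⟨α, rfl⟩ | ⟨α, β, h, rfl⟩ | ⟨θ, h, rfl⟩
        · simp [lin_one, h2.symm] at hd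
        · simp [st_one, h3.symm] at hd
        · simp [ps_one, h4.symm] at hd
        · exact ⟨θ, h, rfl⟩

end Cfsg.Agent.S2298
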