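import Cfsg.Statements.S2300
import Mathlib
import Cfsg.Agent.Lib.GL2Char.SLTable

set_option autoImplicit false
open Cfsg

namespace Cfsg.Agent.S2300

open H62.GL2 in

/-- Over a finite field F with q elements, q even, every irreducible complex character of SL₂ has degree 1, q − 1, q or q + 1; and when q ≥ 4 (so that these four numbers are distinct) there are exactly one irreducible character of degree 1, one of degree q, (q − 2)/2 of degree q + 1 and q/2 of degree q − 1. -/
theorem result {F : Type*} [Field F] [Fintype F] [CharP F 2] :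
    (∀ χ : Matrix.SpecialLinearGroup (Fin 2) F → ℂ, Cfsg.IsIrrCharacter (Matrix.SpecialLinearGroup (Fin 2) F) χ →
      χ 1 = 1 ∨ χ 1 = (Fintype.card F : ℂ) - 1 ∨ χ 1 = (Fintype.card F : ℂ) ∨ χ 1 = (Fintype.card F : ℂ) + 1) ∧
    (4 ≤ Fintype.card F →
      Nat.card {χ : Cfsg.IrrCharacter (Matrix.SpecialLinearGroup (Fin 2) F) // (χ : Matrix.SpecialLinearGroup (Fin 2) F → ℂ) 1 = 1} = 1 ∧
      Nat.card {χ : Cfsg.IrrCharacter (Matrix.SpecialLinearGroup (Fin 2) F) // (χ : Matrix.SpecialLinearGroup (Fin 2) F → ℂ) 1 = (Fintype.card F : ℂ)} = 1 ∧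
      Nat.card {χ : Cfsg.IrrCharacter (Matrix.SpecialLinearGroup (Fin 2) F) // (χ : Matrix.SpecialLinearGroup (Fin 2) F → ℂ) 1 = (Fintype.card F : ℂ) + 1} = (Fintype.card F - 2) / 2 ∧
      Nat.card {χ : Cfsg.IrrCharacter (Matrix.SpecialLinearGroup (Fin 2) F) // (χ : Matrix.SpecialLinearGroup (Fin 2) F → ℂ) 1 = (Fintype.card F : ℂ) - 1} = Fintype.card F / 2) := by
  classical
  obtain ⟨K, _, _, _, _, ⟨ι⟩⟩ := exists_quad F
  have h2 : ringChar F = 2 := ringChar.eq F 2
  have h5 := FiniteField.even_card_of_char_two h2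
  refine ⟨fun χ hχ => ?_, fun hq => ⟨card_irr_deg_one hq, card_irr_deg_q, ?_, ?_⟩⟩
  · rcases irrS_cases ι hχ with h | h | ⟨α, -, h⟩ | ⟨η, -, h⟩ | ⟨α, χ', -, -, h⟩ | ⟨η, χ', -, -, h⟩
    · simp [h]
    · simp [h, stS_one]
    · simp [h, psS_one]
    · simp [h, cuS_one]
    · exact absurd h2 h.ringChar_ne_two
    · exact absurd h2 h.ringChar_ne_two
  · rw [card_irr_deg_q_add_one]
    have h3 := card_setR (F := F)
    rw [show Nat.gcd (Fintype.card F - 1) 2 = 1 from
      (Nat.coprime_two_right).2 (Nat.odd_iff.2 (by omega))] at h3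
    omega
  · rw [card_irr_deg_q_sub_one ι hq]
    have h4 := card_setC ι
    rw [show Nat.gcd (Fintype.card F + 1) 2 = 1 from
      (Nat.coprime_two_right).2 (Nat.odd_iff.2 (by omega))] at h4
    omega

end Cfsg.Agent.S2300
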