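import Cfsg.Statements.S2301
import Mathlib
import Cfsg.Agent.Lib.GL2Char.SLMore

set_option autoImplicit false
open Cfsg

namespace Cfsg.Agent.S2301

open H62.GL2 in

/-- Over a finite field with q elements of odd characteristic p, the elements of order p of SL₂ (the non-identity unipotent elements) fall into exactly two conjugacy classes, each of size (q² − 1)/2; two upper unitriangular matrices with non-zero off-diagonal entries b and b′ are conjugate exactly when bb′ is a square. -/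
theorem result {F : Type*} [Field F] [Fintype F] (p : ℕ) [Fact p.Prime] [CharP F p] (hp : p ≠ 2) :
    Nat.card {C : ConjClasses (Matrix.SpecialLinearGroup (Fin 2) F) // ∃ g : Matrix.SpecialLinearGroup (Fin 2) F, orderOf g = p ∧ ConjClasses.mk g = C} = 2 ∧
    (∀ g : Matrix.SpecialLinearGroup (Fin 2) F, orderOf g = p → Nat.card (ConjClasses.mk g).carrier = (Fintype.card F ^ 2 - 1) / 2) ∧
    ∀ g h : Matrix.SpecialLinearGroup (Fin 2) F, (g : Matrix (Fin 2) (Fin 2) F) 0 0 = 1 → (g : Matrix (Fin 2) (Fin 2) F) 1 1 = 1 → (g : Matrix (Fin 2) (Fin 2) F) 1 0 = 0 → (g : Matrix (Fin 2) (Fin 2) F) 0 1 ≠ 0 →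
      (h : Matrix (Fin 2) (Fin 2) F) 0 0 = 1 → (h : Matrix (Fin 2) (Fin 2) F) 1 1 = 1 → (h : Matrix (Fin 2) (Fin 2) F) 1 0 = 0 → (h : Matrix (Fin 2) (Fin 2) F) 0 1 ≠ 0 →
      (IsConj g h ↔ IsSquare ((g : Matrix (Fin 2) (Fin 2) F) 0 1 * (h : Matrix (Fin 2) (Fin 2) F) 0 1)) := by
  classical
  have h2 : ringChar F ≠ 2 := by rw [ringChar.eq F p]; exact hp
  have h5 := FiniteField.odd_card_of_char_ne_two h2
  have k1 : ∀ g : Matrix.SpecialLinearGroup (Fin 2) F, orderOf g = p → IsConj (tg g) (uu F) :=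
    fun g hg => isConj_uu_of_orderOf (p := p) (by rw [orderOf_injective _ tg_injective, hg])
  refine ⟨?_, fun g hg => ?_, fun g h g1 g2 g3 g4 h1 h2' h3 h4 => ?_⟩
  · obtain ⟨c, hc⟩ := FiniteField.exists_nonsquare h2
    have hc0 : c ≠ 0 := fun h => hc (h ▸ IsSquare.zero)
    rw [Nat.card_eq_two_iff]
    refine ⟨⟨ConjClasses.mk (utS 1 1), _, orderOf_utS_one one_ne_zero, rfl⟩,
      ⟨ConjClasses.mk (utS 1 c), _, orderOf_utS_one hc0, rfl⟩, fun h => ?_, ?_⟩
    · have h6 := congrArg Subtype.val h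
      rw [ConjClasses.mk_eq_mk_iff_isConj, isConj_utS_one_iff one_ne_zero hc0, one_mul] at h6
      exact hc h6
    · rw [Set.eq_univ_iff_forall]
      rintro ⟨_, g, hg, rfl⟩
      obtain ⟨b, hb, h6⟩ := exists_isConj_utS_one (k1 g hg)
      by_cases h7 : IsSquare b
      · left
        apply Subtype.ext
        exact ConjClasses.mk_eq_mk_iff_isConj.2
          (h6.symm.trans ((isConj_utS_one_iff hb one_ne_zero).2 (by rwa [mul_one])))
      · right
        apply Subtype.ext
        exact ConjClasses.mk_eq_mk_iff_isConj.2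
          (h6.symm.trans ((isConj_utS_one_iff hb hc0).2 (isSquare_mul_of_not h7 hc)))
  · have := card_carrier_unipotent (k1 g hg)
    rw [show Nat.gcd (Fintype.card F - 1) 2 = 2 from Nat.gcd_eq_right (by omega)] at this
    omega
  · obtain ⟨a, ha, ha', -⟩ := exists_eq_utS g g3
    obtain ⟨b, hb, hb', -⟩ := exists_eq_utS h h3
    obtain rfl : a = 1 := Units.ext (ha'.trans g1)
    obtain rfl : b = 1 := Units.ext (hb'.trans h1)
    rw [← isConj_utS_one_iff g4 h4, ← ha, ← hb]

end Cfsg.Agent.S2301
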