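import Cfsg.Statements.S2308
import Mathlib
import Cfsg.Agent.Lib.GL2Char.GLTable

set_option autoImplicit false
open Cfsg

namespace Cfsg.Agent.S2308

open H62 H62.GL2

/-- Values of the permutation character of GL₂ over a finite field F with q elements on the cosets of its upper triangular subgroup (equivalently, the number of lines of F² that an element maps to themselves): q + 1 at a scalar matrix, 2 at a diagonal matrix with two different diagonal entries, 0 at an element with no eigenvector in F², and 1 at an upper triangular matrix with equal diagonal entries and non-zero upper right entry. -/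
theorem result {F : Type*} [Field F] [Fintype F] (g : Matrix.GeneralLinearGroup (Fin 2) F) :
    ((∃ a : F, (g : Matrix (Fin 2) (Fin 2) F) = a • (1 : Matrix (Fin 2) (Fin 2) F)) → Cfsg.fixedPointCharacter (Cfsg.upperTriangularGL 2 F) g = Fintype.card F + 1) ∧
    ((g : Matrix (Fin 2) (Fin 2) F) 0 1 = 0 → (g : Matrix (Fin 2) (Fin 2) F) 1 0 = 0 → (g : Matrix (Fin 2) (Fin 2) F) 0 0 ≠ (g : Matrix (Fin 2) (Fin 2) F) 1 1 →
      Cfsg.fixedPointCharacter (Cfsg.upperTriangularGL 2 F) g = 2) ∧
    ((∀ (c : F) (v : Fin 2 → F), v ≠ 0 → (g : Matrix (Fin 2) (Fin 2) F).mulVec v ≠ c • v) → Cfsg.fixedPointCharacter (Cfsg.upperTriangularGL 2 F) g = 0) ∧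
    ((g : Matrix (Fin 2) (Fin 2) F) 1 0 = 0 → (g : Matrix (Fin 2) (Fin 2) F) 0 0 = (g : Matrix (Fin 2) (Fin 2) F) 1 1 → (g : Matrix (Fin 2) (Fin 2) F) 0 1 ≠ 0 →
      Cfsg.fixedPointCharacter (Cfsg.upperTriangularGL 2 F) g = 1) := by
  classical
  have key : Cfsg.fixedPointCharacter (Cfsg.upperTriangularGL 2 F) g = ps 1 1 g := by
    have h1 : Cfsg.fixedPointCharacter (Cfsg.upperTriangularGL 2 F) g =
        indFun (Cfsg.upperTriangularGL 2 F) (fun _ => 1) g :=
      (H7.indFun_one_eq_card_fixedBy _ g).symm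
    rw [h1, ps_def]
    congr 1
    ext b
    obtain ⟨a, d, -, ha, hd⟩ := exists_eq_ut _ ((mem_upperTriangularGL _).1 b.2)
    rw [← ha, ← hd]
    simp
  rw [key]
  refine ⟨fun h => ?_, fun h1 h2 h3 => ?_, fun h => ps_ell _ _ ((isEll_iff _).2 h),
    fun h1 h2 h3 => ?_⟩
  · obtain ⟨a, rfl⟩ := exists_eq_scalar g ((isSc_iff _).2 h)
    rw [ps_scalar]; simp
  · obtain ⟨a, d, h, ha, hd⟩ := exists_eq_ut g h2
    have had : a ≠ d := fun h' => h3 (by rw [← ha, ← hd, h'])
    rw [h, ps_split _ _ _ had]; norm_num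
  · obtain ⟨a, d, h, ha, hd⟩ := exists_eq_ut g h1
    have had : a = d := Units.ext (by rw [ha, hd, h2])
    subst had
    rw [h, ps_par _ _ _ h3]; simp

end Cfsg.Agent.S2308
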