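import Cfsg.Statements.S2309
import Mathlib
import Cfsg.Agent.Lib.GL2Char.GLTable

set_option autoImplicit false
open Cfsg

namespace Cfsg.Agent.S2309

open H62 H62.GL2

/-- Over a finite field F with q elements: every irreducible complex character of GL₂ of degree q − 1 vanishes at every diagonal matrix with two distinct entries, and every irreducible complex character of degree q + 1 vanishes at every element with no eigenvector in F². -/
theorem result {F : Type*} [Field F] [Fintype F] (χ : Matrix.GeneralLinearGroup (Fin 2) F → ℂ) (hχ : Cfsg.IsIrrCharacter (Matrix.GeneralLinearGroup (Fin 2) F) χ) (g : Matrix.GeneralLinearGroup (Fin 2) F) :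
    (χ 1 = (Fintype.card F : ℂ) - 1 → (g : Matrix (Fin 2) (Fin 2) F) 0 1 = 0 → (g : Matrix (Fin 2) (Fin 2) F) 1 0 = 0 → (g : Matrix (Fin 2) (Fin 2) F) 0 0 ≠ (g : Matrix (Fin 2) (Fin 2) F) 1 1 → χ g = 0) ∧
    (χ 1 = (Fintype.card F : ℂ) + 1 → (∀ (c : F) (v : Fin 2 → F), v ≠ 0 → (g : Matrix (Fin 2) (Fin 2) F).mulVec v ≠ c • v) → χ g = 0) := by
  classical
  obtain ⟨K, _, _, _, _, ⟨ι⟩⟩ := exists_quad F
  have h0 : (Fintype.card F : ℂ) ≠ 0 := q_ne_zero
  have h3 : (Fintype.card F : ℂ) - 1 ≠ Fintype.card F := by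
    intro h
    have : (1 : ℂ) = 0 := by linear_combination -h
    exact one_ne_zero this
  have h4 : (Fintype.card F : ℂ) - 1 ≠ Fintype.card F + 1 := by
    intro h
    have : (2 : ℂ) = 0 := by linear_combination -h
    exact two_ne_zero this
  constructor
  · intro hd h1 h2 h5
    obtain ⟨a, d, h, ha, hd'⟩ := exists_eq_ut g h2
    have had : a ≠ d := fun h' => h5 (by rw [← ha, ← hd', h'])
    rcases irr_cases ι hχ with ⟨α, rfl⟩ | ⟨α, rfl⟩ | ⟨α, β, h, rfl⟩ | ⟨θ, hθ, rfl⟩
    · exfalso
      rw [lin_one] at hd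
      have : (Fintype.card F : ℂ) = 2 := by linear_combination -hd
      have h2 : Fintype.card F = 2 := by exact_mod_cast this
      have h7 : Fintype.card Fˣ = 1 := by rw [Fintype.card_units, h2]
      exact had (Fintype.card_le_one_iff.1 h7.le a d)
    · simp [st_one, h3.symm] at hd
    · simp [ps_one, h4.symm] at hd
    · rw [h, cusp_split _ _ _ had]
  · intro hd h
    rcases irr_cases ι hχ with ⟨α, rfl⟩ | ⟨α, rfl⟩ | ⟨α, β, h', rfl⟩ | ⟨θ, hθ, rfl⟩
    · simp [lin_one, h0] at hd
    · simp [st_one] at hd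
    · exact ps_ell _ _ ((isEll_iff _).2 h)
    · simp [cusp_one, h4] at hd

end Cfsg.Agent.S2309
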