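import Cfsg.Statements.S2310
import Mathlib
import Cfsg.Agent.Lib.GL2Char.GLTable

set_option autoImplicit false
open Cfsg

namespace Cfsg.Agent.S2310

open H62 H62.GL2

/-- Over a finite field F with q ≥ 3 elements, let u be the upper unitriangular matrix of GL₂ with off-diagonal entry 1. An irreducible complex character χ of GL₂ takes at u the value 1 if χ has degree 1 or q + 1, the value −1 if χ has degree q − 1, and the value 0 if χ has degree q. -/
theorem result {F : Type*} [Field F] [Fintype F] (hq : 3 ≤ Fintype.card F) (χ : Matrix.GeneralLinearGroup (Fin 2) F → ℂ) (hχ : Cfsg.IsIrrCharacter (Matrix.GeneralLinearGroup (Fin 2) F) χ)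
    (u : Matrix.GeneralLinearGroup (Fin 2) F) (hu : (u : Matrix (Fin 2) (Fin 2) F) = !![1, 1; 0, 1]) :
    (χ 1 = 1 → χ u = 1) ∧ (χ 1 = (Fintype.card F : ℂ) + 1 → χ u = 1) ∧
    (χ 1 = (Fintype.card F : ℂ) - 1 → χ u = -1) ∧ (χ 1 = (Fintype.card F : ℂ) → χ u = 0) := by
  classical
  obtain ⟨K, _, _, _, _, ⟨ι⟩⟩ := exists_quad F
  have hu' : u = uu F := Units.ext hu
  subst hu'
  have h1 : (Fintype.card F : ℂ) ≠ 1 := by exact_mod_cast (by omega : Fintype.card F ≠ 1)
  have h0 : (Fintype.card F : ℂ) ≠ 0 := q_ne_zero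
  have h2 : (Fintype.card F : ℂ) - 1 ≠ 1 := by
    intro h
    have : (Fintype.card F : ℂ) = 2 := by linear_combination h
    have : Fintype.card F = 2 := by exact_mod_cast this
    omega
  have h3 : (Fintype.card F : ℂ) - 1 ≠ Fintype.card F := by
    intro h
    have : (1 : ℂ) = 0 := by linear_combination -h
    exact one_ne_zero this
  have h4 : (Fintype.card F : ℂ) - 1 ≠ Fintype.card F + 1 := by
    intro h
    have : (2 : ℂ) = 0 := by linear_combination -h
    exact two_ne_zero this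
  rcases irr_cases ι hχ with ⟨α, rfl⟩ | ⟨α, rfl⟩ | ⟨α, β, h', rfl⟩ | ⟨θ, hθ, rfl⟩
  · simp [lin_one, lin_uu, h1.symm, h2.symm]
  · simp [st_one, st_uu, h1, h3.symm]
  · simp [ps_one, ps_uu, h4.symm]
  · simp [cusp_one, cusp_uu, h2, h3, h4]

end Cfsg.Agent.S2310
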