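import Cfsg.Statements.S2312
import Mathlib
import Cfsg.Agent.Base
import Cfsg.Agent.Lib.Lang.StVal

set_option autoImplicit false
open Cfsg

namespace Cfsg.Agent.S2312


/-- In a Chevalley group of type G₂, B₂, D₄, F₄, E₆, E₇ or E₈ over a finite field of characteristic p, the value of the Steinberg character at an element g of order prime to p (a semisimple element) is, up to sign, the largest power of p dividing the order of the centralizer of g. -/
theorem result {F : Type*} [Field F] [Fintype F] (p : ℕ) [Fact p.Prime] [CharP F p] (D : Cfsg.Lie.ChevalleyDatum) (hD : D ∈ [Cfsg.Lie.chevG2, Cfsg.Lie.chevB2, Cfsg.Lie.chevD4, Cfsg.Lie.chevF4, Cfsg.Lie.chevE6, Cfsg.Lie.chevE7, Cfsg.Lie.chevE8]) (g : ↥(D.group F)) (hg : ¬ p ∣ orderOf g) :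
    D.steinbergCharacter F g = ((p ^ (Nat.card ↥(Subgroup.centralizer ({g} : Set ↥(D.group F)))).factorization p : ℕ) : ℂ) ∨
      D.steinbergCharacter F g = -((p ^ (Nat.card ↥(Subgroup.centralizer ({g} : Set ↥(D.group F)))).factorization p : ℕ) : ℂ) := by
  obtain ⟨R, E, hE⟩ := H38.exists_isMat hD F
  have : Fintype (D.group F) := Fintype.ofFinite _
  obtain ⟨k, hk⟩ := H37.StV.stein_elts hE.grp_faith hE.grp_top hE.grp_R3 hg
  rw [H62.St.steinberg_eq hE, hk]
  rcases neg_one_pow_eq_or ℂ k with h | h <;> simp [h]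

end Cfsg.Agent.S2312
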