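import Cfsg.Statements.S2313
import Mathlib
import Cfsg.Agent.Lib.StChar.Chev

set_option autoImplicit false
open Cfsg

namespace Cfsg.Agent.S2313

/-- In a Chevalley group of type G₂, B₂, D₄, F₄, E₆, E₇ or E₈ over a finite field, the restriction of the Steinberg character to the subgroup B = UH is the permutation character of B on the cosets of the diagonal subgroup H: at b ∈ B its value is the number of cosets xH, x ∈ B, with bxH = xH. -/
theorem result {F : Type*} [Field F] [Fintype F] (D : Cfsg.Lie.ChevalleyDatum) (hD : D ∈ [Cfsg.Lie.chevG2, Cfsg.Lie.chevB2, Cfsg.Lie.chevD4, Cfsg.Lie.chevF4, Cfsg.Lie.chevE6, Cfsg.Lie.chevE7, Cfsg.Lie.chevE8]) (b : ↥((D.borelSubgroup F).subgroupOf (D.group F))) :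
    D.steinbergCharacter F ((((D.borelSubgroup F).subgroupOf (D.group F)).subtype) b) =
      Cfsg.fixedPointCharacter (((D.diagonalSubgroup F).subgroupOf (D.group F)).subgroupOf ((D.borelSubgroup F).subgroupOf (D.group F))) b := by
  obtain ⟨R, E, hE⟩ := H38.exists_isMat hD F
  have : Fintype (D.group F) := Fintype.ofFinite _
  obtain ⟨p, hp⟩ := CharP.exists F
  have : Fact p.Prime := ⟨CharP.char_is_prime F p⟩
  obtain ⟨n, hn, h⟩ := H62.St.exists_opp hE.grp_faith
  have hS := H62.St.split_elts hE.grp_faith hE.grp_top hE.grp_R3 p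
  have h1 : ∀ b : hE.grp.B, D.steinbergCharacter F b =
      Cfsg.fixedPointCharacter ((hE.grp.B ⊓ hE.grp.N).subgroupOf hE.grp.B) b := by
    rw [H62.St.steinberg_eq hE]
    exact hS.stein_res hn h
  rw [hE.grp_faith.B_inf_N, hE.grp_H, hE.grp_B] at h1
  exact h1 b

end Cfsg.Agent.S2313
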