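import Cfsg.Statements.S2314
import Mathlib
import Cfsg.Agent.Lib.StChar.Chev

set_option autoImplicit false
open Cfsg

namespace Cfsg.Agent.S2314

/-- Steinberg's count of unipotent elements: in a Chevalley group of type G₂, B₂, D₄, F₄, E₆, E₇ or E₈ over a finite field of characteristic p with q elements, the number of elements of p-power order is q^(2N), N the number of positive roots — the square of the order of a Sylow p-subgroup. -/
theorem result {F : Type*} [Field F] [Fintype F] (p : ℕ) [Fact p.Prime] [CharP F p] (D : Cfsg.Lie.ChevalleyDatum) (hD : D ∈ [Cfsg.Lie.chevG2, Cfsg.Lie.chevB2, Cfsg.Lie.chevD4, Cfsg.Lie.chevF4, Cfsg.Lie.chevE6, Cfsg.Lie.chevE7, Cfsg.Lie.chevE8]) :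
    Nat.card {g : ↥(D.group F) // ∃ k : ℕ, orderOf g = p ^ k} = Fintype.card F ^ (2 * (D.nroots / 2)) := by
  obtain ⟨R, E, hE⟩ := H38.exists_isMat hD F
  have : Fintype (D.group F) := Fintype.ofFinite _
  obtain ⟨n, hn, h⟩ := H62.St.exists_opp hE.grp_faith
  have hS := H62.St.split_elts hE.grp_faith hE.grp_top hE.grp_R3 p
  have h1 := hS.card_pElt hn h (H62.St.exists_rad hE.grp_faith hE.grp_top)
  rw [H62.St.card_grp_U hE, ← pow_mul, mul_comm] at h1
  exact h1

end Cfsg.Agent.S2314
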