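import Cfsg.Statements.S2315
import Mathlib
import Cfsg.Agent.Lib.ClChev.Card
import Cfsg.Agent.Lib.GL.Basic

set_option autoImplicit false
open Cfsg

namespace Cfsg.Agent.S2315

/-- Steinberg's count of unipotent elements for the general linear group: over a finite field with q elements of characteristic p, the number of elements of GL_n of p-power order (the unipotent matrices) is q^(n(n−1)). -/
theorem result {F : Type*} [Field F] [Fintype F] (p : ℕ) [Fact p.Prime] [CharP F p] (n : ℕ) :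
    Nat.card {g : Matrix.GeneralLinearGroup (Fin n) F // ∃ k : ℕ, orderOf g = p ^ k} = Fintype.card F ^ (n * (n - 1)) := by
  rcases n with _ | k
  · rw [show Fintype.card F ^ (0 * (0 - 1)) = 1 by simp, Nat.card_eq_one_iff_unique]
    exact ⟨⟨fun a b => Subtype.ext (Units.ext (Subsingleton.elim _ _))⟩, ⟨⟨1, 0, by simp⟩⟩⟩
  let S := H62.LB.sbnElts p (H64.TA.faith (m := k) (K := F)) H64.TA.top H64.TA.r3
  obtain ⟨f, hf, hq⟩ := H62.LB.exists_card_eq F p
  have h := H10.card_SL_fin (F := F) (k + 1) (by omega)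
  rw [Nat.card_eq_fintype_card (α := F), H62.Ar.prod_gl] at h
  have h1 := S.card_pElt
  rw [S.card_U hq h (H62.Ar.cop_sub1 Fact.out hq hf) (Nat.Coprime.prod_right fun i _ =>
    H62.Ar.cop_sub Fact.out hq hf (by omega)), ← pow_mul, mul_comm, H62.Ar.sum_id] at h1
  rw [Nat.add_sub_cancel, mul_comm, ← h1]
  symm
  have hi := Matrix.SpecialLinearGroup.toGL_injective (n := Fin (k + 1)) (R := F)
  refine Nat.card_eq_of_bijective (fun g => ⟨Matrix.SpecialLinearGroup.toGL g.1, by
    rw [orderOf_injective _ hi]; exact g.2⟩) ⟨fun a b e => Subtype.ext (hi (congrArg Subtype.val e)),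
    fun ⟨g, j, hj⟩ => ?_⟩
  have h2 : g.val.det = 1 := by
    have h3 : g.val.det ^ p ^ j = 1 := by
      rw [← Matrix.det_pow, ← Units.val_pow_eq_pow_val, ← hj, pow_orderOf_eq_one]; simp
    simpa using (ExpChar.pow_prime_pow_mul_eq_one_iff p j 1 _).1 (by simpa using h3)
  obtain ⟨a, rfl⟩ : ∃ a, Matrix.SpecialLinearGroup.toGL a = g := ⟨⟨g.val, h2⟩, Units.ext rfl⟩
  exact ⟨⟨a, j, by rw [← orderOf_injective _ hi, hj]⟩, rfl⟩

end Cfsg.Agent.S2315
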