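import Cfsg.Statements.S2316
import Mathlib
import Cfsg.Agent.Lib.ClChev.Card
import Cfsg.Agent.Lib.Sp.Order

set_option autoImplicit false
open Cfsg

namespace Cfsg.Agent.S2316

/-- Steinberg's count of unipotent elements for the symplectic group: over a finite field with q elements of characteristic p, the number of elements of Sp_{2m} of p-power order is q^(2m²). -/
theorem result {F : Type*} [Field F] [Fintype F] (p : ℕ) [Fact p.Prime] [CharP F p] (m : ℕ) :
    Nat.card {g : ↥(Matrix.symplecticGroup (Fin m) F) // ∃ k : ℕ, orderOf g = p ^ k} = Fintype.card F ^ (2 * m ^ 2) := by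
  rcases m with _ | k
  · rw [show Fintype.card F ^ (2 * 0 ^ 2) = 1 by simp, Nat.card_eq_one_iff_unique]
    exact ⟨⟨fun a b => Subtype.ext (Subtype.ext (Subsingleton.elim _ _))⟩, ⟨⟨1, 0, by simp⟩⟩⟩
  obtain ⟨S, -⟩ := (H62.CC.preLie_Sp (F := F) p k).ex
  obtain ⟨f, hf, hq⟩ := H62.LB.exists_card_eq F p
  have h := H11.Sp.card_G (F := F) (m := k + 1)
  rw [Nat.card_eq_fintype_card (α := F), ← one_mul (Nat.card _)] at h
  refine S.card_pElt.trans ?_
  rw [S.card_U hq h (by simp) (Nat.Coprime.prod_right fun i _ =>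
    H62.Ar.cop_sub Fact.out hq hf (by omega)), ← pow_mul, mul_comm]

end Cfsg.Agent.S2316
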