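import Cfsg.Statements.S2317
import Cfsg.Agent.Lib.MatConj.LinSpec

set_option autoImplicit false
open Cfsg

namespace Cfsg.Agent.S2317

open H65 Module


/-- Over a finite field of characteristic p, the conjugacy classes of GL_n consisting of elements of p-power order (the unipotent classes) are as many as the partitions of n. -/
theorem result {F : Type*} [Field F] [Fintype F] (p : ℕ) [Fact p.Prime] [CharP F p] (n : ℕ) :
    Nat.card {C : ConjClasses (Matrix.GeneralLinearGroup (Fin n) F) //
      ∃ g : Matrix.GeneralLinearGroup (Fin n) F, (∃ k : ℕ, orderOf g = p ^ k) ∧ ConjClasses.mk g = C} =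
      Fintype.card (Nat.Partition n) := by
  classical
  have hex : ∀ π : Nat.Partition n, ∃ g : GL (Fin n) F,
      Similar (Matrix.toLin' g.1 - 1) (nilModel F fun x : π.parts => x.1) := fun π => by
    obtain ⟨u, hu⟩ := exists_sl_unipotent (F := F) (n := Fin n) (fun x : π.parts => x.1) (by
      rw [Fintype.card_fin]; exact π.parts.sum_eq_sum_coe.symm.trans π.parts_sum)
    exact ⟨Matrix.SpecialLinearGroup.toGL u, hu⟩
  choose g hg using hex
  have hcount : ∀ (s : Multiset ℕ) (j : ℕ),
      (Finset.univ.filter fun x : s => x.1 = j).card = s.count j := fun s j => by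
    conv_rhs => rw [← Multiset.map_univ_coe s, Multiset.count_map]
    simp only [eq_comm (a := j)]; rfl
  have hord : ∀ x : GL (Fin n) F, (∃ k, orderOf x = p ^ k) ↔ IsNilpotent (x.1 - 1) := fun x => by
    constructor
    · rintro ⟨k, hk⟩
      exact ⟨p ^ k, (pow_char_pow_eq_one_iff (F := F) p _ k).1 (by
        rw [← Units.val_pow_eq_pow_val, ← hk, pow_orderOf_eq_one, Units.val_one])⟩
    · rintro ⟨k, hk⟩
      have h1 : x ^ p ^ k = 1 := Units.ext ((pow_char_pow_eq_one_iff (F := F) p x.1 k).2
        (pow_eq_zero_of_le (Nat.lt_pow_self (Fact.out : p.Prime).one_lt).le hk))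
      obtain ⟨j, -, hj⟩ := (Nat.dvd_prime_pow Fact.out).1 (orderOf_dvd_of_pow_eq_one h1)
      exact ⟨j, hj⟩
  rw [← Nat.card_eq_fintype_card]
  refine (Nat.card_congr (Equiv.ofBijective (fun π => ⟨ConjClasses.mk (g π), g π,
    (hord _).2 (isNilpotent_of_similar_nilModel (hg π)), rfl⟩) ⟨fun π π' h => ?_, ?_⟩)).symm
  · have h1 := (isConj_gl_iff_similar _ _).1
      (ConjClasses.mk_eq_mk_iff_isConj.1 (congrArg Subtype.val h))
    refine Nat.Partition.ext (Multiset.ext.2 fun j => ?_)
    rcases j.eq_zero_or_pos with rfl | hj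
    · rw [Multiset.count_eq_zero.2 fun h => lt_irrefl _ (π.parts_pos h),
        Multiset.count_eq_zero.2 fun h => lt_irrefl _ (π'.parts_pos h)]
    · rw [← hcount, ← hcount]
      exact card_eq_of_similar_nilModel ((hg π).symm.trans (h1.sub_one.trans (hg π'))) j hj
  · rintro ⟨_, x, hx, rfl⟩
    obtain ⟨t, d, hd, h⟩ := exists_nilModel (N := Matrix.toLin' x.1 - 1)
      (by rw [← toLin'_sub_one, isNilpotent_toLin'_iff']; exact (hord x).1 hx)
    have h1 := h.finrank_eq
    rw [finrank_nilModel, finrank_fintype_fun_eq_card, Fintype.card_fin] at h1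
    refine ⟨⟨Finset.univ.val.map d, fun hi => ?_, h1.symm⟩,
      Subtype.ext (ConjClasses.mk_eq_mk_iff_isConj.2 ((isConj_gl_iff_similar _ _).2
        (Similar.of_sub_one ((hg _).trans ((similar_nilModel_of_card_eq _ _ fun j => ?_).trans h.symm)))))⟩
    · obtain ⟨k, -, rfl⟩ := Multiset.mem_map.1 hi
      exact hd k
    · rw [hcount, Multiset.count_map]
      simp only [eq_comm (a := j)]; rfl

end Cfsg.Agent.S2317
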