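import Cfsg.Statements.S2319
import Cfsg.Agent.Lib.HeckeGen.Chev
import Cfsg.Agent.Lib.Weyl.Bridge
-- import your own Cfsg.Agent.* helpers here

set_option autoImplicit false
open Cfsg

namespace Cfsg.Agent.S2319
theorem card_conj_congr {G H : Type*} [Group G] [Group H] (e : G ≃* H) :
    Nat.card (ConjClasses G) = Nat.card (ConjClasses H) :=
  Nat.card_congr (Quotient.congr e.toEquiv fun _ _ =>
    ⟨fun h => e.toMonoidHom.map_isConj h, fun h => by
      have := e.symm.toMonoidHom.map_isConj h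
      change IsConj (e.symm (e _)) (e.symm (e _)) at this
      rwa [e.symm_apply_apply, e.symm_apply_apply] at this⟩)

/-- In a Chevalley group of type G₂, B₂, D₄, F₄, E₆, E₇ or E₈ over a finite field, the number of distinct irreducible constituents of the permutation character on the cosets of B = UH equals the number of conjugacy classes (equivalently, of irreducible characters) of the Weyl group, the Coxeter group of the type with nodes numbered as the fundamental roots. -/
theorem result {F : Type*} [Field F] [Fintype F]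
    (dw : Cfsg.Lie.ChevalleyDatum × (Σ n : ℕ, CoxeterMatrix (Fin n)))
    (hdw : dw ∈ [(Cfsg.Lie.chevG2, ⟨2, CoxeterMatrix.G₂⟩), (Cfsg.Lie.chevB2, ⟨2, CoxeterMatrix.B 2⟩), (Cfsg.Lie.chevD4, ⟨4, Cfsg.Lie.coxeterD4⟩), (Cfsg.Lie.chevF4, ⟨4, CoxeterMatrix.F₄⟩),
      (Cfsg.Lie.chevE6, ⟨6, CoxeterMatrix.E₆⟩), (Cfsg.Lie.chevE7, ⟨7, CoxeterMatrix.E₇⟩), (Cfsg.Lie.chevE8, ⟨8, CoxeterMatrix.E₈⟩)]) :
    Nat.card {χ : Cfsg.IrrCharacter ↥(dw.1.group F) //
      ∃ φ : ↥(dw.1.group F) → ℂ, Cfsg.IsCharacter ↥(dw.1.group F) φ ∧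
        Cfsg.fixedPointCharacter ((dw.1.borelSubgroup F).subgroupOf (dw.1.group F)) = (χ : ↥(dw.1.group F) → ℂ) + φ} =
      Nat.card (ConjClasses dw.2.2.Group) := by
  simp only [List.mem_cons, List.not_mem_nil, or_false] at hdw
  rcases hdw with rfl | rfl | rfl | rfl | rfl | rfl | rfl
  · obtain ⟨R⟩ := H38.nonempty_rootSys (D := Cfsg.Lie.chevG2) (by simp)
    exact (H64.Hk.principal_series (by simp) R F).trans (card_conj_congr
      (H39.coxEquiv R.toRS (H39.cartanForG2 R) CoxeterMatrix.G₂.toCoxeterSystem)).symm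
  · obtain ⟨R⟩ := H38.nonempty_rootSys (D := Cfsg.Lie.chevB2) (by simp)
    exact (H64.Hk.principal_series (by simp) R F).trans (card_conj_congr
      (H39.coxEquiv R.toRS (H39.cartanForB2 R) (CoxeterMatrix.B 2).toCoxeterSystem)).symm
  · obtain ⟨R⟩ := H38.nonempty_rootSys (D := Cfsg.Lie.chevD4) (by simp)
    exact (H64.Hk.principal_series (by simp) R F).trans (card_conj_congr
      (H39.coxEquiv R.toRS (H39.cartanForD4 R) Cfsg.Lie.coxeterD4.toCoxeterSystem)).symm
  · obtain ⟨R⟩ := H38.nonempty_rootSys (D := Cfsg.Lie.chevF4) (by simp)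
    exact (H64.Hk.principal_series (by simp) R F).trans (card_conj_congr
      (H39.coxEquiv R.toRS (H39.cartanForF4 R) CoxeterMatrix.F₄.toCoxeterSystem)).symm
  · obtain ⟨R⟩ := H38.nonempty_rootSys (D := Cfsg.Lie.chevE6) (by simp)
    exact (H64.Hk.principal_series (by simp) R F).trans (card_conj_congr
      (H39.coxEquiv R.toRS (H39.cartanForE6 R) CoxeterMatrix.E₆.toCoxeterSystem)).symm
  · obtain ⟨R⟩ := H38.nonempty_rootSys (D := Cfsg.Lie.chevE7) (by simp)
    exact (H64.Hk.principal_series (by simp) R F).trans (card_conj_congr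
      (H39.coxEquiv R.toRS (H39.cartanForE7 R) CoxeterMatrix.E₇.toCoxeterSystem)).symm
  · obtain ⟨R⟩ := H38.nonempty_rootSys (D := Cfsg.Lie.chevE8) (by simp)
    exact (H64.Hk.principal_series (by simp) R F).trans (card_conj_congr
      (H39.coxEquiv R.toRS (H39.cartanForE8 R) CoxeterMatrix.E₈.toCoxeterSystem)).symm

end Cfsg.Agent.S2319
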