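import Cfsg.Statements.S2320
import Mathlib
import Cfsg.Agent.Lib.GL2Char.GLTable

set_option autoImplicit false
open Cfsg

namespace Cfsg.Agent.S2320

open H62 H62.GL2

/-- Over a finite field F with q elements, every irreducible complex character of GL₂ of degree q takes a value of absolute value 1 at every diagonal matrix with two different diagonal entries and at every element with no eigenvector in F². -/
theorem result {F : Type*} [Field F] [Fintype F] (χ : Matrix.GeneralLinearGroup (Fin 2) F → ℂ) (hχ : Cfsg.IsIrrCharacter (Matrix.GeneralLinearGroup (Fin 2) F) χ) (hdeg : χ 1 = (Fintype.card F : ℂ)) (g : Matrix.GeneralLinearGroup (Fin 2) F) :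
    ((g : Matrix (Fin 2) (Fin 2) F) 0 1 = 0 → (g : Matrix (Fin 2) (Fin 2) F) 1 0 = 0 → (g : Matrix (Fin 2) (Fin 2) F) 0 0 ≠ (g : Matrix (Fin 2) (Fin 2) F) 1 1 → ‖χ g‖ = 1) ∧
    ((∀ (c : F) (v : Fin 2 → F), v ≠ 0 → (g : Matrix (Fin 2) (Fin 2) F).mulVec v ≠ c • v) → ‖χ g‖ = 1) := by
  classical
  obtain ⟨K, _, _, _, _, ⟨ι⟩⟩ := exists_quad F
  have h1 : (Fintype.card F : ℂ) ≠ 1 := by exact_mod_cast (one_lt_q (F := F)).ne'
  have h3 : (Fintype.card F : ℂ) - 1 ≠ Fintype.card F := by
    intro h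
    have : (1 : ℂ) = 0 := by linear_combination -h
    exact one_ne_zero this
  rcases irr_cases ι hχ with ⟨α, rfl⟩ | ⟨α, rfl⟩ | ⟨α, β, h', rfl⟩ | ⟨θ, hθ, rfl⟩
  · simp [lin_one, h1.symm] at hdeg
  · constructor
    · intro h1 h2 h5
      obtain ⟨a, d, h, ha, hd'⟩ := exists_eq_ut g h2
      have had : a ≠ d := fun h' => h5 (by rw [← ha, ← hd', h'])
      rw [h, st_split _ _ had, norm_mul, mulChar_norm, mulChar_norm, mul_one]
    · intro h
      rw [st_ell _ ((isEll_iff _).2 h), norm_neg, norm_lin]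
  · simp [ps_one] at hdeg
  · simp [cusp_one, h3] at hdeg

end Cfsg.Agent.S2320
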