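import Cfsg.Statements.S2321
import Mathlib
import Cfsg.Agent.Lib.GL2Char.SLTable

set_option autoImplicit false
open Cfsg

namespace Cfsg.Agent.S2321

open H62.GL2 in

/-- Over a finite field F with q elements, an irreducible complex character of SL₂ of degree q (the Steinberg character) takes the value 1 at every diagonal matrix whose diagonal entry a has a² ≠ 1, the value −1 at every element with no eigenvector in F², and the value 0 at every upper triangular matrix with equal diagonal entries and non-zero upper right entry. -/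
theorem result {F : Type*} [Field F] [Fintype F] (χ : Matrix.SpecialLinearGroup (Fin 2) F → ℂ) (hχ : Cfsg.IsIrrCharacter (Matrix.SpecialLinearGroup (Fin 2) F) χ) (hdeg : χ 1 = (Fintype.card F : ℂ)) (g : Matrix.SpecialLinearGroup (Fin 2) F) :
    ((g : Matrix (Fin 2) (Fin 2) F) 0 1 = 0 → (g : Matrix (Fin 2) (Fin 2) F) 1 0 = 0 → (g : Matrix (Fin 2) (Fin 2) F) 0 0 ^ 2 ≠ 1 → χ g = 1) ∧
    ((∀ (c : F) (v : Fin 2 → F), v ≠ 0 → (g : Matrix (Fin 2) (Fin 2) F).mulVec v ≠ c • v) → χ g = -1) ∧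
    ((g : Matrix (Fin 2) (Fin 2) F) 1 0 = 0 → (g : Matrix (Fin 2) (Fin 2) F) 0 0 = (g : Matrix (Fin 2) (Fin 2) F) 1 1 → (g : Matrix (Fin 2) (Fin 2) F) 0 1 ≠ 0 → χ g = 0) := by
  classical
  rw [irr_of_deg_q hχ hdeg, stS_apply]
  refine ⟨fun h1 h2 h3 => ?_, fun h => ?_, fun h1 h2 h3 => ?_⟩
  · obtain ⟨a, ha, -, hg⟩ := exists_diag_of_entries h1 h2 h3
    rw [hg, st_split _ _ ha]
    simp only [MulChar.one_apply_coe, mul_one]
  · rw [st_ell _ ((isEll_iff _).2 h), ← res_apply (lin 1), res_lin]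
  · obtain ⟨a, -, hg⟩ := exists_par_of_entries h1 h2
    rw [hg, st_par _ _ h3]

end Cfsg.Agent.S2321
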