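import Cfsg.Statements.S2322
import Mathlib
import Cfsg.Agent.Lib.GL2Char.SLMore

set_option autoImplicit false
open Cfsg

namespace Cfsg.Agent.S2322

open H62.GL2 in

/-- Over a finite field F with q elements, q odd: every irreducible complex character of SL₂ of degree q − 1 or (q − 1)/2 vanishes at every diagonal matrix whose diagonal entry a has a² ≠ 1, and every irreducible complex character of degree q + 1 or (q + 1)/2 vanishes at every element with no eigenvector in F². -/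
theorem result {F : Type*} [Field F] [Fintype F] (hodd : Odd (Fintype.card F)) (χ : Matrix.SpecialLinearGroup (Fin 2) F → ℂ) (hχ : Cfsg.IsIrrCharacter (Matrix.SpecialLinearGroup (Fin 2) F) χ) (g : Matrix.SpecialLinearGroup (Fin 2) F) :
    ((χ 1 = (Fintype.card F : ℂ) - 1 ∨ χ 1 = (((Fintype.card F - 1) / 2 : ℕ) : ℂ)) →
      (g : Matrix (Fin 2) (Fin 2) F) 0 1 = 0 → (g : Matrix (Fin 2) (Fin 2) F) 1 0 = 0 → (g : Matrix (Fin 2) (Fin 2) F) 0 0 ^ 2 ≠ 1 → χ g = 0) ∧
    ((χ 1 = (Fintype.card F : ℂ) + 1 ∨ χ 1 = (((Fintype.card F + 1) / 2 : ℕ) : ℂ)) →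
      (∀ (c : F) (v : Fin 2 → F), v ≠ 0 → (g : Matrix (Fin 2) (Fin 2) F).mulVec v ≠ c • v) → χ g = 0) := by
  classical
  obtain ⟨K, _, _, _, _, ⟨ι⟩⟩ := exists_quad F
  obtain ⟨m, hm⟩ := id hodd
  have hq := one_lt_q (F := F)
  refine ⟨fun h h1 h2 h3 => ?_, fun h h1 => ?_⟩
  · obtain ⟨a, ha, -, hg⟩ := exists_diag_of_entries h1 h2 h3
    have h4 : Fintype.card F ≠ 3 := fun h5 => ha (sq_eq_one_of_card_three h5 a)
    have hcu : ∀ η, cuS ι η g = 0 := fun η => by rw [cuS_apply, hg, cusp_split _ _ _ ha]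
    rcases h with h | h
    · obtain ⟨η, -, rfl⟩ := irr_of_deg_q_sub_one ι (by omega) hχ h
      exact hcu η
    · obtain ⟨η, χ', -, -, hp⟩ := irr_of_deg_half_sub ι (by omega) hχ h
      rw [hp.apply_of_isSemi (by rw [hg]; exact isSemi_diag _ _), hcu, zero_div]
  · have hg := (isEll_iff _).2 h1
    rcases h with h | h
    · obtain ⟨α, -, rfl⟩ := irr_of_deg_q_add_one hχ h
      exact psS_ell α hg
    · rcases irrS_cases_nat ι hχ h with
        ⟨h, -⟩ | ⟨h, -⟩ | ⟨h, -⟩ | ⟨h, η, h2, rfl⟩ | ⟨-, -, α, χ', -, -, hp⟩ | ⟨h, -⟩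
      · omega
      · omega
      · omega
      · exact cuS_ell_of_card_three ι (by omega) h2 hg
      · exact hp.psS_ell hg
      · omega

end Cfsg.Agent.S2322
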