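import Cfsg.Statements.S2324
import Mathlib
import Cfsg.Agent.Lib.GL2Char.SLTable

set_option autoImplicit false
open Cfsg

namespace Cfsg.Agent.S2324

open H62.GL2 in

/-- Over a finite field F with q elements, q odd and q ≥ 5, let u be the upper unitriangular matrix of SL₂ with off-diagonal entry 1 and let δ = (−1)^((q−1)/2). Every irreducible complex character χ of SL₂ of degree (q + 1)/2 satisfies (2χ(u) − 1)² = δq, and every irreducible complex character χ of degree (q − 1)/2 satisfies (2χ(u) + 1)² = δq; that is, χ(u) = (1 ± √(δq))/2 in the first case and χ(u) = (−1 ± √(δq))/2 in the second. Moreover two different irreducible characters of degree (q + 1)/2 take the two different values (their values at u add up to 1), and likewise for degree (q − 1)/2 (values adding up to −1). -/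
theorem result {F : Type*} [Field F] [Fintype F] (hodd : Odd (Fintype.card F)) (hq : 5 ≤ Fintype.card F)
    (u : Matrix.SpecialLinearGroup (Fin 2) F) (hu : (u : Matrix (Fin 2) (Fin 2) F) = !![1, 1; 0, 1]) :
    (∀ χ : Matrix.SpecialLinearGroup (Fin 2) F → ℂ, Cfsg.IsIrrCharacter (Matrix.SpecialLinearGroup (Fin 2) F) χ → χ 1 = (((Fintype.card F + 1) / 2 : ℕ) : ℂ) → (2 * χ u - 1) ^ 2 = (-1 : ℂ) ^ ((Fintype.card F - 1) / 2) * (Fintype.card F : ℂ)) ∧
    (∀ χ : Matrix.SpecialLinearGroup (Fin 2) F → ℂ, Cfsg.IsIrrCharacter (Matrix.SpecialLinearGroup (Fin 2) F) χ → χ 1 = (((Fintype.card F - 1) / 2 : ℕ) : ℂ) → (2 * χ u + 1) ^ 2 = (-1 : ℂ) ^ ((Fintype.card F - 1) / 2) * (Fintype.card F : ℂ)) ∧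
    (∀ χ₁ χ₂ : Matrix.SpecialLinearGroup (Fin 2) F → ℂ, Cfsg.IsIrrCharacter (Matrix.SpecialLinearGroup (Fin 2) F) χ₁ → Cfsg.IsIrrCharacter (Matrix.SpecialLinearGroup (Fin 2) F) χ₂ → χ₁ ≠ χ₂ →
      χ₁ 1 = (((Fintype.card F + 1) / 2 : ℕ) : ℂ) → χ₂ 1 = (((Fintype.card F + 1) / 2 : ℕ) : ℂ) → χ₁ u + χ₂ u = 1) ∧
    (∀ χ₁ χ₂ : Matrix.SpecialLinearGroup (Fin 2) F → ℂ, Cfsg.IsIrrCharacter (Matrix.SpecialLinearGroup (Fin 2) F) χ₁ → Cfsg.IsIrrCharacter (Matrix.SpecialLinearGroup (Fin 2) F) χ₂ → χ₁ ≠ χ₂ →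
      χ₁ 1 = (((Fintype.card F - 1) / 2 : ℕ) : ℂ) → χ₂ 1 = (((Fintype.card F - 1) / 2 : ℕ) : ℂ) → χ₁ u + χ₂ u = -1) := by
  classical
  obtain ⟨K, _, _, _, _, ⟨ι⟩⟩ := exists_quad F
  rw [eq_uS_of_coe hu]
  refine ⟨fun χ hχ h => ?_, fun χ hχ h => ?_, fun χ₁ χ₂ h1 h2 hne d1 d2 => ?_,
    fun χ₁ χ₂ h1 h2 hne d1 d2 => ?_⟩
  · obtain ⟨α, χ', -, -, hp⟩ := irr_of_deg_half_add hq hχ h
    have h3 := congrFun hp.sum (uS F)
    rw [psS_uS, Pi.add_apply] at h3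
    rw [← hp.sub_sq_uS]
    congr 1
    linear_combination -h3
  · obtain ⟨η, χ', -, -, hp⟩ := irr_of_deg_half_sub ι hq hχ h
    have h3 := congrFun hp.sum (uS F)
    rw [cuS_uS, Pi.add_apply] at h3
    rw [← hp.sub_sq_uS]
    congr 1
    linear_combination -h3
  · obtain ⟨α, ψ₁, ψ₂, -, -, hp, hu⟩ := exists_halfPair_add hodd
    obtain ⟨α₁, χ', k1, k2, k3⟩ := irr_of_deg_half_add hq h1 d1
    obtain ⟨α₂, χ'', l1, l2, l3⟩ := irr_of_deg_half_add hq h2 d2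
    have h3 := congrFun hp.sum (uS F)
    rw [psS_uS, Pi.add_apply] at h3
    rcases hu _ _ _ k1 k2 k3 with rfl | rfl <;> rcases hu _ _ _ l1 l2 l3 with rfl | rfl
    · exact absurd rfl hne
    · exact h3.symm
    · rw [add_comm]; exact h3.symm
    · exact absurd rfl hne
  · obtain ⟨α, ψ₁, ψ₂, -, -, hp, hu⟩ := exists_halfPair_sub ι hodd
    obtain ⟨α₁, χ', k1, k2, k3⟩ := irr_of_deg_half_sub ι hq h1 d1
    obtain ⟨α₂, χ'', l1, l2, l3⟩ := irr_of_deg_half_sub ι hq h2 d2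
    have h3 := congrFun hp.sum (uS F)
    rw [cuS_uS, Pi.add_apply] at h3
    rcases hu _ _ _ k1 k2 k3 with rfl | rfl <;> rcases hu _ _ _ l1 l2 l3 with rfl | rfl
    · exact absurd rfl hne
    · exact h3.symm
    · rw [add_comm]; exact h3.symm
    · exact absurd rfl hne

end Cfsg.Agent.S2324
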