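import Cfsg.Statements.S2362
import Cfsg.Agent.Lib.MatConj.OOrb
import Cfsg.Agent.Lib.Zsig.Basic

set_option autoImplicit false
open Cfsg

namespace Cfsg.Agent.S2362

open H65 Module Polynomial


/-- Let F be a finite field of odd order and n ≥ 3. The simple orthogonal group PΩ(2n+1, F) (type B_n) and the projective symplectic group PSp(2n, F) (type C_n), which have the same order, do not have the same set of element orders. -/
theorem result {F : Type*} [Field F] [Fintype F] (hodd : Odd (Fintype.card F)) (n : ℕ) (hn : 3 ≤ n) :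
    Set.range (orderOf : Cfsg.POmega F (Cfsg.quadFormOdd n F) → ℕ) ≠ Set.range (orderOf : Cfsg.PSp n F → ℕ) := by
  classical
  obtain ⟨p, _⟩ := CharP.exists F
  have hp := CharP.char_is_prime F p
  have := Fact.mk hp
  have h2 := H12.two_ne_zero_of_odd hodd
  have : NeZero (2 : F) := ⟨h2⟩
  have hq := Fintype.one_lt_card (α := F)
  obtain ⟨m, rfl⟩ : ∃ m, n = m + 1 := ⟨n - 1, by omega⟩
  have hp3 := (three_le_char (F := F) p).1
  have hc := coprime_char (F := F) p (m := m) (by omega) (Or.inr rfl)
  intro h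
  obtain ⟨t, ht, -⟩ := exists_torus (F := F) (d := m) (by omega) (Or.inr rfl)
  have := nontrivial_adjoinRoot_X_pow (F := F) (e := 2 * 1) two_pos
  have h1 := ((pres_symplectic t).prodMap (pres_cyc_even 1)).mem_range_psp (n := m + 1) (by
    rw [finrank_prod, finrank_adjoinRoot_X_pow]; simp; omega) (by omega)
    (N := (Fintype.card F ^ m + 1) * p) fun k c _ hk => by
      rw [prodMap_pow_eq_smul_iff] at hk
      obtain rfl := unipotent_pow_eq_smul (isNilpotent_cyc_add_one_sub_one _) hk.2
      refine hc.mul_dvd_of_dvd_of_dvd (ht ▸ orderOf_dvd_of_pow_eq_one (by simpa using hk.1)) ?_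
      rw [← pow_one p, ← orderOf_jb_eq (F := F) p (k := 2 * 1) (a := 0) (by simp) (by simpa using hp.two_le)]
      exact orderOf_dvd_of_pow_eq_one (hk.2.trans (one_smul _ _))
  rw [← h, mem_range_pomega_odd_iff (by omega)] at h1
  obtain ⟨B, δ, hd, hB, hN⟩ := h1
  obtain ⟨U, U', _, _, _, _, _, _, f, f', δ₁, δ₂, e, b1, b2, -, b9, b5, b7, b8, b6⟩ :=
    hB.split_neg_one
  obtain ⟨A, hA⟩ := exists_matrix_similar f' (n := Fin (finrank F U')) (by simp)
  simp only [finrank_fintype_fun_eq_card, Fintype.card_sum, Fintype.card_fin,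
    Fintype.card_unique] at b6
  rw [LinearMap.det_toLin', hd, eq_self, true_iff] at b8
  rw [hA.det_eq, LinearMap.det_toLin'] at b7
  replace b2 := b2.of_similar hA
  have h3 : ∀ k, (-f) ^ k = 1 → A ^ k = 1 → (Fintype.card F ^ m + 1) * p ∣ k := fun k h h' => by
    rw [← hN, ← e.orderOf_eq, orderOf_prodMap, hA.orderOf_eq, Nat.lcm_dvd_iff,
      orderOf_dvd_iff_pow_eq_one, orderOf_dvd_iff_pow_eq_one, ← toLin'_pow', toLin'_eq_one_iff]
    exact ⟨h, h'⟩
  obtain ⟨r, hr, r1, r2⟩ := H69.Zsig.zsigmondy hq (n := 2 * m) (by omega)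
    (fun h => by grind) (by omega)
  have r3 : r ∣ Fintype.card F ^ m + 1 := by
    have := Nat.sq_sub_sq (Fintype.card F ^ m) 1
    rw [one_pow, ← pow_mul'] at this
    exact ((Nat.Prime.dvd_mul hr).1 (this ▸ r1)).resolve_right (r2 m (by omega) (by omega))
  have r4 : r ≠ 2 := by
    rintro rfl
    exact r2 1 one_pos (by omega) (by grind)
  have r5 : r ≠ p := by
    rintro rfl
    exact hp.one_lt.ne' (Nat.eq_one_of_dvd_coprimes hc r3 dvd_rfl)
  obtain ⟨a, ha⟩ := exists_orderOf_unipotent p b9
  obtain ⟨α, hα, a0⟩ := exists_ev_of_prime_dvd (AlgebraicClosure F) p b2.pres.det_ne_zero hr r5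
    fun k hk => by
      have := (r3.mul_right p).trans (h3 (2 * p ^ a * k) (by
        rw [pow_mul, (even_two_mul _).neg_pow, mul_comm, pow_mul, ← ha, pow_orderOf_eq_one,
          one_pow, one_pow]) (by rw [mul_comm, pow_mul, hk, one_pow]))
      exact (Nat.Coprime.mul_right ((Nat.coprime_primes hr Nat.prime_two).2 r4)
        (((Nat.coprime_primes hr hp).2 r5).pow_right a)).dvd_of_dvd_mul_left this
  obtain ⟨m', D, O, a1, a2, a3, a4⟩ := b2.pres.exists_orb hα
    (mt orderOf_dvd_iff_pow_eq_one.2 (not_orderOf_dvd_two hr r4 a0))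
  have a5 := a0.trans (orderOf_dvd_of_pow_eq_one a1.pow)
  have a6 := a5.trans a1.dvd
  rw [Fintype.card_fin] at a3
  have a7 := Nat.le_mul_of_pos_right (2 * m') a4
  have a8 : m ≤ m' := by
    by_contra h
    exact r2 _ (by have := a1.pos; omega) (by omega) a6
  obtain rfl : m' = m := by
    by_contra h
    refine r2 2 two_pos (by omega) ?_
    have := Nat.dvd_gcd a6 r1
    rwa [Nat.pow_sub_one_gcd_pow_sub_one, show m' = m + 1 by omega, mul_add, mul_one, add_comm,
      Nat.gcd_comm, Nat.gcd_add_self_right, Nat.gcd_eq_right (dvd_mul_right _ _)] at this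
  obtain rfl : D = Fintype.card F ^ m' + 1 :=
    a1.eq.resolve_left fun h => r2 m' a1.pos (by omega) (h ▸ a5)
  have a9 : (ev _ A).count α = 1 := by nlinarith
  have c1 : (-f) ^ 2 = 1 := by
    rcases b1.pres.pow_eq_zero_of_even h2 b9 b8 with h | h
    · have := pow_eq_zero_of_le (show _ ≤ 1 by grind) h
      rw [pow_one, sub_eq_zero] at this
      simp [this]
    · have := finrank_zero_iff.1 h
      exact Subsingleton.elim _ _
  obtain ⟨β, hβ⟩ := exists_two_le_count_ev (AlgebraicClosure F) p b2.pres.det_ne_zero fun k hk =>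
    (three_le_char (F := F) p).2.coprime_two_right.dvd_of_dvd_mul_left ((dvd_mul_left _ _).trans
      (h3 (2 * k) (by rw [pow_mul, c1, one_pow]) (by rw [mul_comm, pow_mul, hk, one_pow])))
  have c2 : β ∉ O := fun h => by have := a2 β h; omega
  have c3 := Multiset.count_pos.1 (two_pos.trans_le hβ)
  obtain rfl : β = 1 := by
    by_contra h
    obtain ⟨m'', D', O', d1, d2, -⟩ := b2.pres.exists_orb c3 fun e => (sq_eq_one_iff.1 e).elim h
      fun e => neg_one_not_mem_ev (hA.add_one.isUnit_iff.1 b5) (e ▸ c3)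
    have := card_mul_count_add_le a2 d2 (a1.disjoint d1 hq.le c2)
    rw [card_ev, Fintype.card_fin, a1.card, d1.card, a9] at this
    have := d1.pos
    nlinarith
  obtain ⟨T, hT⟩ := Multiset.le_iff_exists_add.1 (nsmul_add_nsmul_le (fun γ h => (a2 γ h).ge)
    (O' := {1}) (c' := 2) (by simpa) (by simpa))
  have c4 := congrArg Multiset.card hT
  have c5 := congrArg Multiset.prod hT
  simp only [card_ev, Fintype.card_fin, a9, one_smul, Multiset.card_add, Finset.card_val, a1.card,
    Multiset.card_nsmul, Finset.card_singleton] at c4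
  obtain ⟨γ, rfl⟩ := Multiset.card_eq_one.1 (show T.card = 1 by grind)
  obtain rfl : 1 = γ := by simpa [prod_ev, b7, a9, a1.prod_eq_one, Multiset.prod_nsmul] using c5
  have := finrank_zero_iff.1 (show finrank F U = 0 by grind)
  have b3 := b1.neg.spin_eq_one odd_one (Subsingleton.elim _ _)
  replace hT : ev _ A = O.val + Multiset.replicate 3 1 := by rw [hT, a9, one_smul, add_assoc]; rfl
  have c6 := b2.of_orb_one a1 hT
  rw [b3, Units.val_one, Int.cast_one, one_mul] at c6
  have c7 := a1.two_dvd hodd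
  have := h3 _ (Subsingleton.elim _ _) (by
    simpa using pow_eq_smul_of_ev (L := AlgebraicClosure F) p (A := A) (J := 1) (c := 1)
      (M := (Fintype.card F ^ m' + 1) / 2) (by omega) (fun γ hγ => by
        rcases Multiset.mem_add.1 (hT ▸ hγ) with h | h
        exacts [by simpa using a1.pow_eq_one c6 h, by simp [Multiset.eq_of_mem_replicate h]])
      fun γ => by
        by_cases h : γ ∈ O
        · rw [a2 γ h, a9]; exact Nat.one_le_pow _ _ hp.pos
        · rw [hT, Multiset.count_add, Multiset.count_eq_zero.2 h, zero_add, pow_one]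
          exact (Multiset.count_le_card _ _).trans hp3)
  have := Nat.le_of_dvd (by omega) (Nat.dvd_of_mul_dvd_mul_right hp.pos this)
  omega

end Cfsg.Agent.S2362
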