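import Cfsg.Statements.S2364
import Cfsg.Agent.Lib.MatConj.PSLChar

set_option autoImplicit false
open Cfsg

namespace Cfsg.Agent.S2364

open H65


/-- Let F be a finite field of characteristic p, n ≥ 4, and let a, b be commuting elements of PSL(n, F) with a of order p. Then every prime divisor of the order of b divides the order of SL(n − 2, F). -/
theorem result {F : Type*} [Field F] [Fintype F] (p : ℕ) [Fact p.Prime] [CharP F p] (n : ℕ) (hn : 4 ≤ n)
    (a b : Matrix.ProjectiveSpecialLinearGroup (Fin n) F) (ha : orderOf a = p) (hab : Commute a b) :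
    (orderOf b).primeFactors ⊆ (Nat.card (Matrix.SpecialLinearGroup (Fin (n - 2)) F)).primeFactors := by
  intro r hr
  have hr' := Nat.prime_of_mem_primeFactors hr
  refine Nat.mem_primeFactors.2 ⟨hr', ?_, Nat.card_pos.ne'⟩
  by_cases hrp : r = p
  · exact hrp ▸ char_dvd_card_sl p (by omega)
  obtain ⟨x, h1, h2⟩ := exists_dvd_orderOf_of_commute Fact.out ha hab.symm
  have h3 := (Nat.dvd_of_mem_primeFactors hr).trans h1
  have h4 := orderOf_add_two_le p hr' hrp h3 h2
  rw [Fintype.card_fin] at h4
  exact ((dvd_pow_sub_one_iff Fintype.card_pos r _).2 dvd_rfl).trans (pow_sub_one_dvd_card_sl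
    (by omega) (exists_dvd_of_dvd_card_psl p hr' hrp (h3.trans (orderOf_dvd_natCard x))).1 (by omega))

end Cfsg.Agent.S2364
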