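import Cfsg.Statements.S2365
import Cfsg.Agent.Lib.MatConj.UEig

set_option autoImplicit false
open Cfsg

namespace Cfsg.Agent.S2365

open H65 H66


/-- Let q be a power of the prime p, F the field with q² elements, m ≥ 4, and let a, b be commuting elements of PSU(m, q) with a of order p. Then every prime divisor of the order of b divides the order of SU(m − 2, q). -/
theorem result {F : Type*} [Field F] [Fintype F] (p : ℕ) [Fact p.Prime] [CharP F p] (m q : ℕ) (hm : 4 ≤ m) (hF : Fintype.card F = q ^ 2)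
    (a b : Cfsg.PSU m F q) (ha : orderOf a = p) (hab : Commute a b) :
    (orderOf b).primeFactors ⊆ (Nat.card ↥(Cfsg.SU (m - 2) F q)).primeFactors := by
  classical
  have hp : p.Prime := Fact.out
  have : H11.U.IsSq F q := ⟨hF⟩
  obtain ⟨p', a', h1, h2, hq, ha'⟩ := H11.U.exists_char_pow F q
  obtain rfl := CharP.eq F h2 ‹CharP F p›
  have hq2 := H11.U.two_le_q F q
  obtain ⟨σ, hσ, -, -⟩ := exists_conjHom hF
  intro r hr
  have hr' := Nat.prime_of_mem_primeFactors hr
  refine Nat.mem_primeFactors.2 ⟨hr', ?_, Nat.card_pos.ne'⟩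
  obtain ⟨m, rfl⟩ := Nat.exists_eq_add_of_le' hm
  rw [show m + 4 - 2 = m + 1 + 1 from rfl, card_SU_succ hF]
  by_cases hrp : r = p'
  · refine (dvd_pow (hrp ▸ hq ▸ dvd_pow_self _ ha'.ne') (Nat.div_pos ?_ two_pos).ne').mul_right _
    nlinarith
  obtain ⟨x, h3, h4⟩ := exists_dvd_orderOf_of_commute hp ha hab.symm
  obtain ⟨x, rfl⟩ := QuotientGroup.mk_surjective x
  have hx := (mem_SU_iff hσ _).1 x.2
  have hdet := det_ne_zero_of_unitary hx
  have h5 : ∀ k, x.1.1 ^ k = 1 → orderOf (x : Cfsg.PSU (m + 4) F q) ∣ k := fun k hk =>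
    orderOf_dvd_of_pow_eq_one (by
      rw [← QuotientGroup.mk_pow, show x ^ k = 1 from Subtype.ext (Subtype.ext hk)]; rfl)
  obtain ⟨α, hα, h6⟩ := exists_ev_of_prime_dvd (AlgebraicClosure F) p' hdet hr' hrp
    fun k hk => ((Nat.dvd_of_mem_primeFactors hr).trans h3).trans (h5 k hk)
  obtain ⟨β, hβ⟩ := exists_two_le_count_ev (AlgebraicClosure F) p' hdet
    fun k hk => h4.trans (h5 k hk)
  obtain ⟨O, a1, -, a3, a4, a5⟩ := exists_uorbit (uf_injective F hq) (ev_unitary hq hσ hx)
    (fun h => ne_zero_of_mem_ev hdet h rfl) (by omega) hα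
  have h7 : r ∣ uu q O.card :=
    h6.trans (orderOf_dvd_of_pow_eq_one (a4 α ((a3 α).2 ⟨0, by simp⟩)))
  have h8 : O.card ≤ m + 2 := by
    have h9 := Multiset.count_pos.2 hα
    by_cases h : β ∈ O
    · have := card_mul_count_le a5
      rw [card_ev, Fintype.card_fin, ← a5 β h] at this
      have := (Nat.mul_le_mul_left O.card hβ).trans this
      omega
    · have := card_mul_count_add_le a5 (O' := {β}) (fun γ hγ => by rw [Finset.mem_singleton.1 hγ])
        (Finset.disjoint_singleton_right.2 h)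
      rw [card_ev, Fintype.card_fin, Finset.card_singleton] at this
      have := Nat.le_mul_of_pos_right O.card h9
      omega
  refine Dvd.dvd.mul_left ?_ _
  rcases (show 1 ≤ O.card from a1).eq_or_lt with h | h
  · rw [← h, uu_one] at h7
    exact (h7.trans (succ_dvd_uu (by omega) _)).trans
      (Finset.dvd_prod_of_mem (fun i => uu q (i + 2)) (Finset.mem_range.2 m.succ_pos))
  · refine h7.trans ?_
    rw [show O.card = O.card - 2 + 2 by omega]
    exact Finset.dvd_prod_of_mem (fun i => uu q (i + 2)) (Finset.mem_range.2 (by omega))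

end Cfsg.Agent.S2365
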