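import Mathlib
import Cfsg.Statements.S2367
-- import your own Cfsg.Agent.* helpers here

set_option autoImplicit false
open Cfsg

namespace Cfsg.Agent.S2367

theorem spor (N a : ℕ) (hN : N ∣ Nat.factorial 71) (ha : 2 ^ a ∣ N)
    (hc : ∀ p < 72, 3 ≤ p → p ^ 3 ∣ N → ¬ p ^ 4 ∣ N → p % 2 = 1 → p % 3 = 0 ∧ p ≠ 3 ∨
      p % 5 = 0 ∧ p ≠ 5 ∨ p ^ 3 < 2 ^ a)
    (p : ℕ) (hp : p.Prime) (hodd : p ≠ 2) (h3 : N.factorization p = 3) :
    p ^ 3 < 2 ^ N.factorization 2 := by
  have hN0 : N ≠ 0 := by rintro rfl; simp at h3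
  have h1 : p ^ 3 ∣ N := (hp.pow_dvd_iff_le_factorization hN0).mpr h3.ge
  have h2 : ¬ p ^ 4 ∣ N := fun h => by
    have := (hp.pow_dvd_iff_le_factorization hN0).mp h; omega
  have h4 : p ≤ 71 := hp.dvd_factorial.mp (((dvd_pow_self p three_ne_zero).trans h1).trans hN)
  have h5 : a ≤ N.factorization 2 := (Nat.prime_two.pow_dvd_iff_le_factorization hN0).mp ha
  have h6 := hp.two_le
  rcases hc p (by omega) (by omega) h1 h2 (hp.eq_two_or_odd.resolve_left hodd) with h | h | h
  · exact absurd ((Nat.prime_dvd_prime_iff_eq Nat.prime_three hp).mp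
      (Nat.dvd_of_mod_eq_zero h.1)).symm h.2
  · exact absurd ((Nat.prime_dvd_prime_iff_eq Nat.prime_five hp).mp
      (Nat.dvd_of_mod_eq_zero h.1)).symm h.2
  · exact h.trans_le (Nat.pow_le_pow_right two_pos h5)

theorem cube_lt (p : ℕ) (hp : 5 ≤ p) : p ^ 3 < 2 ^ (2 * p - 1) := by
  induction p, hp using Nat.le_induction with
  | base => norm_num
  | succ k hk ih =>
    have e : 2 * (k + 1) - 1 = (2 * k - 1) + 2 := by omega
    rw [e, pow_add]
    nlinarith [Nat.mul_le_mul hk hk, Nat.mul_le_mul (Nat.mul_le_mul hk (le_refl k)) (le_refl k)]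

theorem alt (n N : ℕ) (hN : 2 * N = n.factorial)
    (p : ℕ) (hp : p.Prime) (hodd : p ≠ 2) (h3 : N.factorization p = 3) :
    p ^ 3 < 2 ^ N.factorization 2 := by
  have hN0 : N ≠ 0 := by rintro rfl; simp at h3
  have h1 : p ^ 3 ∣ n.factorial :=
    hN ▸ ((hp.pow_dvd_iff_le_factorization hN0).mpr h3.ge).mul_left 2
  have h2 : ¬ p ^ 4 ∣ n.factorial := fun h => by
    rw [← hN] at h
    have hc : Nat.Coprime (p ^ 4) 2 :=
      Nat.Coprime.pow_left _ ((Nat.coprime_primes hp Nat.prime_two).mpr hodd)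
    have := (hp.pow_dvd_iff_le_factorization hN0).mp (hc.dvd_of_dvd_mul_left h); omega
  have h6 := hp.two_le
  have hn : 3 * p ≤ n := by
    by_contra hc
    have hlog : Nat.log p n < 2 := by
      rcases Nat.eq_zero_or_pos n with rfl | hn0
      · simp
      · refine Nat.log_lt_of_lt_pow hn0.ne' ?_
        have : 3 ≤ p := by omega
        nlinarith
    have := (hp.pow_dvd_factorial_iff hlog).mp h1
    simp at this
    have h7 : n / p < 3 := (Nat.div_lt_iff_lt_mul hp.pos).mpr (by omega)
    omega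
  have hp5 : 5 ≤ p := by
    by_contra hc
    have h4 : p ≠ 4 := by rintro rfl; exact absurd hp (by decide)
    have : p = 3 := by omega
    subst this
    exact h2 ((show 3 ^ 4 ∣ Nat.factorial 9 by decide).trans (Nat.factorial_dvd_factorial hn))
  have h8 : 2 ^ (2 * p) ∣ n.factorial := by
    have hlog : Nat.log 2 n < Nat.log 2 n + 4 := by omega
    rw [Nat.prime_two.pow_dvd_factorial_iff hlog]
    refine le_trans ?_ (Finset.sum_le_sum_of_subset (s := {1, 2, 3}) ?_)
    · simp; omega
    · intro x hx; simp at hx ⊢; omega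
  have h9 : 2 ^ (2 * p - 1) ∣ N := by
    rw [← hN, show 2 * p = (2 * p - 1) + 1 by omega, pow_succ'] at h8
    exact Nat.dvd_of_mul_dvd_mul_left two_pos h8
  exact (cube_lt p hp5).trans_le (Nat.pow_le_pow_right two_pos
    ((Nat.prime_two.pow_dvd_iff_le_factorization hN0).mp h9))

set_option synthInstance.maxSize 2000 in
/-- Let G be an alternating group of degree at least 5 or a simple group with the order of one of the 26 sporadic groups, and let p be an odd prime such that p³ is the exact power of p dividing the order of G. Then p³ is less than the 2-part of the order of G. -/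
theorem result {G : Type*} [Group G] [Finite G] (hG : Cfsg.IsAlternating G ∨ Cfsg.IsSporadic G)
    (p : ℕ) (hp : p.Prime) (hodd : p ≠ 2) (h3 : (Nat.card G).factorization p = 3) :
    p ^ 3 < 2 ^ (Nat.card G).factorization 2 := by
  rcases hG with ⟨n, hn, ⟨e⟩⟩ | hG
  · refine alt n _ ?_ p hp hodd h3
    have : Nontrivial (Fin n) := Fin.nontrivial_iff_two_le.mpr (by omega)
    rw [Nat.card_congr e.toEquiv, Nat.card_eq_fintype_card, two_mul_card_alternatingGroup,
      Fintype.card_perm, Fintype.card_fin]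
  rcases hG with ⟨-, h⟩ | ⟨-, h⟩ | ⟨-, h⟩ | ⟨-, h⟩ | ⟨-, h⟩ | ⟨-, h⟩ | ⟨-, h⟩ | ⟨-, h⟩ | ⟨-, h⟩ | ⟨-, h⟩ | ⟨-, h⟩ | ⟨-, h⟩ | ⟨-, h⟩ | ⟨-, h⟩ | ⟨-, h⟩ | ⟨-, h⟩ | ⟨-, h⟩ | ⟨-, h⟩ | ⟨-, h⟩ | ⟨-, h⟩ | ⟨-, h⟩ | ⟨-, h⟩ | ⟨-, h⟩ | ⟨-, h⟩ | ⟨-, h⟩ | ⟨-, h⟩
  · rw [h] at h3 ⊢
    exact spor _ 4 (by decide +kernel) (by decide +kernel) (by decide +kernel) p hp hodd h3
  · rw [h] at h3 ⊢
    exact spor _ 6 (by decide +kernel) (by decide +kernel) (by decide +kernel) p hp hodd h3
  · rw [h] at h3 ⊢
    exact spor _ 7 (by decide +kernel) (by decide +kernel) (by decide +kernel) p hp hodd h3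
  · rw [h] at h3 ⊢
    exact spor _ 7 (by decide +kernel) (by decide +kernel) (by decide +kernel) p hp hodd h3
  · rw [h] at h3 ⊢
    exact spor _ 10 (by decide +kernel) (by decide +kernel) (by decide +kernel) p hp hodd h3
  · rw [h] at h3 ⊢
    exact spor _ 3 (by decide +kernel) (by decide +kernel) (by decide +kernel) p hp hodd h3
  · rw [h] at h3 ⊢
    exact spor _ 7 (by decide +kernel) (by decide +kernel) (by decide +kernel) p hp hodd h3
  · rw [h] at h3 ⊢
    exact spor _ 7 (by decide +kernel) (by decide +kernel) (by decide +kernel) p hp hodd h3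
  · rw [h] at h3 ⊢
    exact spor _ 21 (by decide +kernel) (by decide +kernel) (by decide +kernel) p hp hodd h3
  · rw [h] at h3 ⊢
    exact spor _ 21 (by decide +kernel) (by decide +kernel) (by decide +kernel) p hp hodd h3
  · rw [h] at h3 ⊢
    exact spor _ 18 (by decide +kernel) (by decide +kernel) (by decide +kernel) p hp hodd h3
  · rw [h] at h3 ⊢
    exact spor _ 10 (by decide +kernel) (by decide +kernel) (by decide +kernel) p hp hodd h3
  · rw [h] at h3 ⊢
    exact spor _ 17 (by decide +kernel) (by decide +kernel) (by decide +kernel) p hp hodd h3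
  · rw [h] at h3 ⊢
    exact spor _ 18 (by decide +kernel) (by decide +kernel) (by decide +kernel) p hp hodd h3
  · rw [h] at h3 ⊢
    exact spor _ 21 (by decide +kernel) (by decide +kernel) (by decide +kernel) p hp hodd h3
  · rw [h] at h3 ⊢
    exact spor _ 9 (by decide +kernel) (by decide +kernel) (by decide +kernel) p hp hodd h3
  · rw [h] at h3 ⊢
    exact spor _ 7 (by decide +kernel) (by decide +kernel) (by decide +kernel) p hp hodd h3
  · rw [h] at h3 ⊢
    exact spor _ 10 (by decide +kernel) (by decide +kernel) (by decide +kernel) p hp hodd h3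
  · rw [h] at h3 ⊢
    exact spor _ 14 (by decide +kernel) (by decide +kernel) (by decide +kernel) p hp hodd h3
  · rw [h] at h3 ⊢
    exact spor _ 13 (by decide +kernel) (by decide +kernel) (by decide +kernel) p hp hodd h3
  · rw [h] at h3 ⊢
    exact spor _ 9 (by decide +kernel) (by decide +kernel) (by decide +kernel) p hp hodd h3
  · rw [h] at h3 ⊢
    exact spor _ 14 (by decide +kernel) (by decide +kernel) (by decide +kernel) p hp hodd h3
  · rw [h] at h3 ⊢
    exact spor _ 8 (by decide +kernel) (by decide +kernel) (by decide +kernel) p hp hodd h3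
  · rw [h] at h3 ⊢
    exact spor _ 15 (by decide +kernel) (by decide +kernel) (by decide +kernel) p hp hodd h3
  · rw [h] at h3 ⊢
    exact spor _ 41 (by decide +kernel) (by decide +kernel) (by decide +kernel) p hp hodd h3
  · rw [h] at h3 ⊢
    exact spor _ 46 (by decide +kernel) (by decide +kernel) (by decide +kernel) p hp hodd h3

end Cfsg.Agent.S2367
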