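import Mathlib
import Cfsg.Statements.S2368
import Cfsg.Agent.Lib.Cls63.Unip
import Cfsg.Agent.Lib.MatConj.Jordan
-- import your own Cfsg.Agent.* helpers here

set_option autoImplicit false
open Cfsg

namespace Cfsg.Agent.S2368

/-- Let F be a finite field of characteristic p and m ≥ 1. Every element of GL(m, F) of p-power order has order less than p·m, and GL(m, F) has an element of p-power order at least m; so the largest order of a p-element of GL(m, F) is the least power of p that is at least m. -/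
theorem result {F : Type*} [Field F] [Fintype F] (p : ℕ) [Fact p.Prime] [CharP F p] (m : ℕ) (hm : 1 ≤ m) :
    (∀ g : Matrix.GeneralLinearGroup (Fin m) F, (∃ j : ℕ, orderOf g = p ^ j) → orderOf g < p * m) ∧
      ∃ g : Matrix.GeneralLinearGroup (Fin m) F, (∃ j : ℕ, orderOf g = p ^ j) ∧ m ≤ orderOf g := by
  have hp : p.Prime := Fact.out
  have key : ∀ g : Matrix.GeneralLinearGroup (Fin m) F,
      IsNilpotent ((g : Matrix (Fin m) (Fin m) F) - 1) → g ^ p ^ Nat.clog p m = 1 := fun g hg =>
    Units.ext (by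
      rw [Units.val_pow_eq_pow_val]
      exact H63.Unip.pow_eq_one_of_isNilpotent p hg
        (by simpa using Nat.le_pow_clog hp.one_lt m))
  constructor
  · rintro g ⟨j, hj⟩
    have h1 : (g : Matrix (Fin m) (Fin m) F) ^ p ^ j = 1 := by
      rw [← Units.val_pow_eq_pow_val, ← hj, pow_orderOf_eq_one, Units.val_one]
    have h2 := Nat.le_of_dvd (pow_pos hp.pos _) (orderOf_dvd_of_pow_eq_one
      (key g (H63.Unip.isNilpotent_sub_one_of_pow_eq_one p h1)))
    refine h2.trans_lt ?_
    rcases hm.eq_or_lt with rfl | hm1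
    · simpa using hp.one_lt
    · have h3 := Nat.pow_pred_clog_lt_self hp.one_lt hm1
      have h4 : 0 < Nat.clog p m := Nat.clog_pos hp.one_lt hm1
      obtain ⟨c, hc⟩ : ∃ c, Nat.clog p m = c + 1 := ⟨Nat.clog p m - 1, by omega⟩
      rw [hc] at h3 ⊢
      simp only [Nat.pred_eq_sub_one, Nat.add_sub_cancel] at h3
      rw [pow_succ']
      exact Nat.mul_lt_mul_of_pos_left h3 hp.pos
  · have hnil : IsNilpotent (Cfsg.jordanBlock m F - 1) :=
      ⟨m, (H65.jordanBlock_sub_one_pow_eq_zero_iff m m).mpr le_rfl⟩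
    let g : Matrix.GeneralLinearGroup (Fin m) F := Matrix.GeneralLinearGroup.mkOfDetNeZero
      (Cfsg.jordanBlock m F) (by rw [H65.det_eq_one_of_unipotent hnil]; exact one_ne_zero)
    have hg : (g : Matrix (Fin m) (Fin m) F) = Cfsg.jordanBlock m F := rfl
    obtain ⟨j, -, hj⟩ := (Nat.dvd_prime_pow hp).mp (orderOf_dvd_of_pow_eq_one (key g hnil))
    refine ⟨g, ⟨j, hj⟩, ?_⟩
    rw [hj, ← H65.jordanBlock_sub_one_pow_eq_zero_iff (F := F), H63.Unip.sub_one_pow_char_pow p,
      ← hg, ← Units.val_pow_eq_pow_val, ← hj, pow_orderOf_eq_one, Units.val_one, sub_self]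

end Cfsg.Agent.S2368
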