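import Cfsg.Statements.S2369
import Mathlib
import Cfsg.Agent.Lib.Twist.F4Mat
import Cfsg.Agent.Lib.Twist.BT

set_option autoImplicit false
open Cfsg

namespace Cfsg.Agent.S2369

open H38 H39 in
theorem aux {ι : Type} [Finite ι] {R : RS ι (Fin 4)} {K : Type*} [Field K] [Fintype K]
    {G : Type*} [Group G] [Finite G] {E : Elts R K G} {T : Tw E} {e : ℕ} (h : H39.IsF4 T e) {a b : G}
    (ha : a ∈ T.Γ) (hb : b ∈ T.Γ) (h2 : orderOf a = 2) (hab : Commute a b) :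
    (orderOf b).primeFactors ⊆ (Fintype.card K * (Fintype.card K ^ 4 - 1)).primeFactors := by
  have := h.char
  obtain ⟨γ, hγ, J, hJ, a1, a2⟩ := h.good.borel_tits 2 h.h3 (X := Subgroup.zpowers a)
    (IsPGroup.of_card (n := 1) (by rw [Nat.card_zpowers, h2, pow_one]))
    (by rw [MonoidHom.map_zpowers]; exact congrArg _ (T.mem_Γ.mp ha))
  have hb' : γ * b * γ⁻¹ ∈ E.P J := a2 b (Subgroup.centralizer_le_normalizer _ (by
    rintro _ ⟨k, rfl⟩; exact (hab.zpow_left k).eq))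
  obtain ⟨k, hk⟩ : ∃ k, k ∉ J := by
    by_contra hn
    have := a1 a (Subgroup.mem_zpowers a)
    rw [Set.eq_univ_of_forall (s := J) (by simpa using hn), H64.SBN.UJ_univ, Subgroup.mem_bot,
      mul_inv_eq_one, mul_eq_left] at this
    simp [this] at h2
  have hk' : ∀ j ∈ T.S.orb k, j ∉ J := fun j hj =>
    T.S.orb_induction (P := fun j => j ∉ J) hk (fun j h1 h2 => h1 ((hJ j).mp h2)) hj
  obtain ⟨i, hi, hJi⟩ : ∃ i, (i = 0 ∨ i = 1) ∧ J ⊆ T.S.orb i := by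
    rcases h.orb_cases k with h1 | h1
    · exact ⟨1, Or.inr rfl, fun j hj => (h.orb_cases j).resolve_left fun h2 =>
        hk' j (by rwa [T.S.orb_eq_of_mem h1]) hj⟩
    · exact ⟨0, Or.inl rfl, fun j hj => (h.orb_cases j).resolve_right fun h2 =>
        hk' j (by rwa [T.S.orb_eq_of_mem h1]) hj⟩
  have hd : orderOf b ∣ Nat.card ↥(E.P (T.S.orb i) ⊓ T.Γ) := by
    have := Subgroup.orderOf_dvd_natCard (E.P (T.S.orb i) ⊓ T.Γ)
      ⟨E.P_mono hJi hb', T.Γ.mul_mem (T.Γ.mul_mem hγ hb) (T.Γ.inv_mem hγ)⟩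
    rwa [show orderOf (γ * b * γ⁻¹) = orderOf b from (MulAut.conj γ).orderOf_eq b] at this
  have hfin : Finite ↥(E.XS (T.S.PJ i) ⊓ T.Γ) := inferInstance
  rw [h.good.card_P_orb, T.card_B, h.card_U, h.card_H, Finite.card_option] at hd
  have hc := h.card_PJ i
  obtain ⟨n, hn⟩ : ∃ n, Fintype.card K = n + 1 := ⟨Fintype.card K - 1, by
    have := Fintype.card_pos (α := K); omega⟩
  have hn0 : n ≠ 0 := by have := Fintype.one_lt_card (α := K); omega
  have e4 : (n + 1) ^ 4 - 1 = n * (n + 1 + 1) * ((n + 1) ^ 2 + 1) := Nat.sub_eq_of_eq_add (by ring)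
  have hd' : orderOf b ∣ ((n + 1) * ((n + 1) ^ 4 - 1)) ^ 12 := by
    refine hd.trans ?_
    rw [hn, e4, Nat.add_sub_cancel]
    rcases hi with rfl | rfl
    · rw [h.ln0, Real.sq_sqrt (Nat.cast_nonneg _), Nat.cast_inj] at hc
      rw [hc, hn]
      exact ⟨n ^ 10 * (n + 1 + 1) ^ 11 * ((n + 1) ^ 2 + 1) ^ 12, by ring⟩
    · rw [h.ln1, show ∀ x : ℝ, x ^ 4 = (x ^ 2) ^ 2 from fun x => by ring, Real.sq_sqrt (Nat.cast_nonneg _),
        ← Nat.cast_pow, Nat.cast_inj] at hc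
      rw [hc, hn]
      exact ⟨n ^ 10 * (n + 1 + 1) ^ 12 * ((n + 1) ^ 2 + 1) ^ 11, by ring⟩
  rw [hn, ← Nat.primeFactors_pow ((n + 1) * ((n + 1) ^ 4 - 1)) (k := 12) (by norm_num)]
  exact Nat.primeFactors_mono hd' (by rw [e4]; positivity)

/-- Let q = 2^(2m+1) with m ≥ 1 and let a, b be commuting elements of the large Ree group ²F₄(q) with a an involution. Then every prime divisor of the order of b divides q(q⁴ − 1). -/
theorem result {K : Type*} [Field K] [Fintype K] (m : ℕ) (hm : 1 ≤ m) (hK : Fintype.card K = 2 ^ (2 * m + 1))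
    (a b : ↥(Cfsg.Lie.twistedF4 K (2 ^ m))) (ha : orderOf a = 2) (hab : Commute a b) :
    (orderOf b).primeFactors ⊆ (2 ^ (2 * m + 1) * ((2 ^ (2 * m + 1)) ^ 4 - 1)).primeFactors := by
  obtain ⟨R, E, hE, T, h, hA⟩ := H39.exists_F4 hK
  have : Finite (GL Cfsg.Lie.chevF4.Idx K) := inferInstance
  let f : Cfsg.Lie.twistedF4 K (2 ^ m) →* Cfsg.Lie.chevF4.group K :=
    Subgroup.inclusion (H39.tw_le hA)
  have hf : ∀ x, orderOf (f x) = orderOf x := orderOf_injective _ (Subgroup.inclusion_injective _)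
  rw [← hK, ← hf b]
  exact aux h ((H39.mem_tw hA).mp a.2) ((H39.mem_tw hA).mp b.2) ((hf a).trans ha) (hab.map f)

end Cfsg.Agent.S2369
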