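import Cfsg.Statements.S2370
import Mathlib
import Cfsg.Agent.Lib.Twist.F4Mat
import Cfsg.Agent.Lib.Twist.BT

set_option autoImplicit false
open Cfsg

namespace Cfsg.Agent.S2370

theorem ht_eq {ι : Type} {R : H38.RS ι (Fin 4)} (hA : ∀ i j, R.A i j = H39.matF 4 H39.alF4 j i)
    (r : ι) : R.ht r = 8 * R.wt r 0 + 15 * R.wt r 1 + 21 * R.wt r 2 + 11 * R.wt r 3 := by
  simp only [H38.RS.ht_eq, H38.RS.wt, H38.RS.wtv, hA, Fin.sum_univ_four]
  simp [H39.matF, H39.alF4]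
  ring

/-- Let q = 2^(2m+1) with m ≥ 1. Every element of 2-power order of the large Ree group ²F₄(q) has order at most 32. -/
theorem result {K : Type*} [Field K] [Fintype K] (m : ℕ) (hm : 1 ≤ m) (hK : Fintype.card K = 2 ^ (2 * m + 1))
    (x : ↥(Cfsg.Lie.twistedF4 K (2 ^ m))) (hx : ∃ j : ℕ, orderOf x = 2 ^ j) : orderOf x ≤ 32 := by
  obtain ⟨R, E, hE, T, h, hA⟩ := H39.exists_F4 hK
  have := h.char
  have : Finite (GL Cfsg.Lie.chevF4.Idx K) := inferInstance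
  obtain ⟨j, hj⟩ := hx
  let y : Cfsg.Lie.chevF4.group K := Subgroup.inclusion (H39.tw_le hA) x
  have hy : orderOf y = orderOf x := orderOf_injective _ (Subgroup.inclusion_injective _) x
  obtain ⟨g, hg⟩ := H64.SBN.exists_conj_mem_U 2 hE.grp_faith hE.grp_top hE.grp_R3
    (X := Subgroup.zpowers y) (IsPGroup.of_card (by rw [Nat.card_zpowers, hy, hj]))
  have ht : ∀ r, R.ht r < 2 ^ 5 := fun r => by
    have e : ∀ r : Fin 48, 8 * Cfsg.Lie.chevF4.cartan 0 r + 15 * Cfsg.Lie.chevF4.cartan 1 r +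
      21 * Cfsg.Lie.chevF4.cartan 2 r + 11 * Cfsg.Lie.chevF4.cartan 3 r < 32 := by decide +kernel
    have e' := e r
    rw [show Cfsg.Lie.chevF4.cartan 0 r = _ from R.cartan_eq (0 : Fin 4) r,
      show Cfsg.Lie.chevF4.cartan 1 r = _ from R.cartan_eq (1 : Fin 4) r,
      show Cfsg.Lie.chevF4.cartan 2 r = _ from R.cartan_eq (2 : Fin 4) r,
      show Cfsg.Lie.chevF4.cartan 3 r = _ from R.cartan_eq (3 : Fin 4) r] at e'
    exact (ht_eq h.hA r).trans_lt e'
  have h1 := H39.pow_two_pow_eq_one ht (hg y (Subgroup.mem_zpowers y))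
  rw [conj_pow, mul_inv_eq_one, mul_eq_left] at h1
  rw [← hy]
  exact orderOf_le_of_pow_eq_one (by norm_num) h1

end Cfsg.Agent.S2370
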