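import Cfsg.Statements.S2371
import Mathlib
import Cfsg.Agent.Base
import Cfsg.Agent.Lib.Lang.Poly
import Cfsg.Agent.Lib.Weyl.PoinW

set_option autoImplicit false
open Cfsg

namespace Cfsg.Agent.S2371


/-- The group G₂(q), q ≥ 3, contains a cyclic subgroup of order q² + q + 1 which is its own centralizer. -/
theorem result {F : Type*} [Field F] [Fintype F] (q : ℕ) (hF : Fintype.card F = q) (hq : 3 ≤ q) :
    ∃ H : Subgroup ↥(Cfsg.Lie.chevG2.group F), IsCyclic ↥H ∧ Nat.card ↥H = q ^ 2 + q + 1 ∧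
      Subgroup.centralizer (H : Set ↥(Cfsg.Lie.chevG2.group F)) = H := by
  obtain ⟨T, h1, h2, h3⟩ := H37.P.selfcent_of_chk (D := Lie.chevG2) (by simp) H38.rsG2 H38.smithG2 F
    (H37.tor_st_injective _ _ H38.smithG2) (B := 12) (N := [1, 1, 1]) (eP := [1]) (mP := [1, 1, 1]) (lam := [1, 0])
    (e := 3) (W := 6) (j := 2) (a := [[1, 0], [1, -1]]) (Ψ := []) (S := []) (L := [10, 6])
    (by rw [H39.cardWG2]; decide) (by decide +kernel)
  refine ⟨T, h1, ?_, h3⟩
  rw [pow_zero, one_mul, hF] at h2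
  rw [h2, ← Int.natAbs_natCast (q ^ 2 + q + 1)]
  congr 1
  simp only [H37.P.ev]; push_cast; ring

end Cfsg.Agent.S2371
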