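import Cfsg.Statements.S2372
import Mathlib
import Cfsg.Agent.Base
import Cfsg.Agent.Lib.Lang.Poly
import Cfsg.Agent.Lib.Weyl.PoinW

set_option autoImplicit false
open Cfsg

namespace Cfsg.Agent.S2372


/-- The group F₄(q) contains a cyclic subgroup of order q⁴ + 1 which is its own centralizer. -/
theorem result {F : Type*} [Field F] [Fintype F] (q : ℕ) (hF : Fintype.card F = q) :
    ∃ H : Subgroup ↥(Cfsg.Lie.chevF4.group F), IsCyclic ↥H ∧ Nat.card ↥H = q ^ 4 + 1 ∧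
      Subgroup.centralizer (H : Set ↥(Cfsg.Lie.chevF4.group F)) = H := by
  obtain ⟨T, h1, h2, h3⟩ := H37.P.selfcent_of_chk (D := Lie.chevF4) (by simp) H38.rsF4 H38.smithF4 F
    (H37.tor_st_injective _ _ H38.smithF4) (B := 12) (N := [1, 0, 0, 0, 1]) (eP := [1]) (mP := [1, 0, 0, 0, 1])
    (lam := [1, 0, 0, 0]) (e := 2) (W := 6) (j := 7) (a := [[1, 0, 0, 0], [2, 0, 0, 1], [3, -1, 1, 1], [1, 0, 1, 0]])
    (Ψ := []) (S := []) (L := [31, 35, 26, 32]) (by rw [H39.cardWF4]; decide) (by decide +kernel)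
  refine ⟨T, h1, ?_, h3⟩
  rw [pow_zero, one_mul, hF] at h2
  rw [h2, ← Int.natAbs_natCast (q ^ 4 + 1)]
  congr 1
  simp only [H37.P.ev]; push_cast; ring

end Cfsg.Agent.S2372
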