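import Cfsg.Statements.S2373
import Mathlib
import Cfsg.Agent.Base
import Cfsg.Agent.Lib.Lang.Poly
import Cfsg.Agent.Lib.Weyl.PoinW

set_option autoImplicit false
open Cfsg

namespace Cfsg.Agent.S2373


/-- The group E₆(q) (the simple Chevalley group of type E₆) contains a cyclic subgroup of order (q⁴ − q² + 1)(q² + q + 1)/gcd(3, q − 1) which is its own centralizer. -/
theorem result {F : Type*} [Field F] [Fintype F] (q : ℕ) (hF : Fintype.card F = q) :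
    ∃ H : Subgroup ↥(Cfsg.Lie.chevE6.group F), IsCyclic ↥H ∧ Nat.card ↥H = (q ^ 4 - q ^ 2 + 1) * (q ^ 2 + q + 1) / Nat.gcd 3 (q - 1) ∧
      Subgroup.centralizer (H : Set ↥(Cfsg.Lie.chevE6.group F)) = H := by
  obtain ⟨T, h1, h2, h3⟩ := H37.P.selfcent_of_chk (D := Lie.chevE6) (by simp) H38.rsE6 H38.smithE6 F
    (H38.tor_st_injective_E6 _) (B := 12) (N := [1, 1, 0, -1, 0, 1, 1]) (eP := [1, 1, 1]) (mP := [1, 0, -1, 0, 1])
    (lam := [1, 0, 0, 0, 0, 0]) (e := 1) (W := 30) (j := 7)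
    (a := [[1, 0, 0, 0, 0, 0], [2, 1, -1, -1, 0, 2], [2, 0, 0, -1, 0, 1], [3, 1, -1, -2, 0, 2], [2, 0, -1, -1, 0, 1],
      [0, 0, 0, 0, -1, 0]])
    (Ψ := []) (S := []) (L := [47, 68, 63, 37, 59, 67]) (by rw [H39.cardWE6]; decide) (by decide +kernel)
  refine ⟨T, h1, ?_, h3⟩
  rw [pow_one, hF] at h2
  refine (Nat.div_eq_of_eq_mul_right (Nat.gcd_pos_of_pos_left _ (by norm_num)) ?_).symm
  rw [h2, ← Int.natAbs_natCast (_ * _)]
  congr 1
  have : q ^ 2 ≤ q ^ 4 := Nat.pow_le_pow_right (hF ▸ Fintype.card_pos) (by norm_num)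
  simp only [H37.P.ev]; push_cast [this]; ring

end Cfsg.Agent.S2373
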