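import Cfsg.Statements.S2374
import Mathlib
import Cfsg.Agent.Base
import Cfsg.Agent.Lib.Lang.Poly
import Cfsg.Agent.Lib.Weyl.PoinW

set_option autoImplicit false
open Cfsg

namespace Cfsg.Agent.S2374


/-- The group E₇(q) (the simple Chevalley group of type E₇) contains a cyclic subgroup of order (q⁴ − q² + 1)(q³ + 1)/gcd(2, q − 1) which is its own centralizer. -/
theorem result {F : Type*} [Field F] [Fintype F] (q : ℕ) (hF : Fintype.card F = q) :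
    ∃ H : Subgroup ↥(Cfsg.Lie.chevE7.group F), IsCyclic ↥H ∧ Nat.card ↥H = (q ^ 4 - q ^ 2 + 1) * (q ^ 3 + 1) / Nat.gcd 2 (q - 1) ∧
      Subgroup.centralizer (H : Set ↥(Cfsg.Lie.chevE7.group F)) = H := by
  obtain ⟨T, h1, h2, h3⟩ := H37.P.selfcent_of_chk (D := Lie.chevE7) (by simp) H38.rsE7 H38.smithE7 F
    (H38.tor_st_injective_E7 _) (B := 12) (N := [1, 0, -1, 1, 1, -1, 0, 1]) (eP := [1, 0, 0, 1])
    (mP := [1, 0, -1, 0, 1]) (lam := [0, 0, 0, 0, 0, 0, 1]) (e := 1) (W := 210) (j := 10)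
    (a := [[1, 0, -1, 0, 0, 0, 0], [1, 0, -1, 0, 0, 0, -1], [2, 0, -2, 0, 1, 0, -1], [2, 1, -2, -1, 1, 1, -2],
      [2, 0, -1, 0, 0, 1, -1], [1, 0, 0, -1, 0, 1, -1], [1, 0, 0, 0, 0, 0, 0]])
    (Ψ := [10, 27, 52, 73, 98, 115]) (S := [10, 27, 52]) (L := [101, 70, 100, 104, 81, 114, 98])
    (by rw [H39.cardWE7]; decide) (by decide +kernel)
  refine ⟨T, h1, ?_, h3⟩
  rw [pow_one, hF] at h2
  refine (Nat.div_eq_of_eq_mul_right (Nat.gcd_pos_of_pos_left _ (by norm_num)) ?_).symm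
  rw [h2, ← Int.natAbs_natCast (_ * _)]
  congr 1
  have : q ^ 2 ≤ q ^ 4 := Nat.pow_le_pow_right (hF ▸ Fintype.card_pos) (by norm_num)
  simp only [H37.P.ev]; push_cast [this]; ring

end Cfsg.Agent.S2374
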