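import Cfsg.Statements.S2375
import Mathlib
import Cfsg.Agent.Base
import Cfsg.Agent.Lib.Lang.Poly
import Cfsg.Agent.Lib.Weyl.PoinWE8

set_option autoImplicit false
open Cfsg

namespace Cfsg.Agent.S2375


/-- The group E₈(q) contains a cyclic subgroup of order q⁸ + q⁷ − q⁵ − q⁴ − q³ + q + 1 which is its own centralizer. -/
theorem result {F : Type*} [Field F] [Fintype F] (q : ℕ) (hF : Fintype.card F = q) :
    ∃ H : Subgroup ↥(Cfsg.Lie.chevE8.group F), IsCyclic ↥H ∧ Nat.card ↥H = q ^ 8 + q ^ 7 - q ^ 5 - q ^ 4 - q ^ 3 + q + 1 ∧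
      Subgroup.centralizer (H : Set ↥(Cfsg.Lie.chevE8.group F)) = H := by
  obtain ⟨T, h1, h2, h3⟩ := H37.P.selfcent_of_chk (D := Lie.chevE8) (by simp) H38.rsE8 H38.smithE8 F
    (H37.tor_st_injective _ _ H38.smithE8) (B := 12) (N := [1, 1, 0, -1, -1, -1, 0, 1, 1]) (eP := [1])
    (mP := [1, 1, 0, -1, -1, -1, 0, 1, 1]) (lam := [1, 0, 0, 0, 0, 0, 0, 0]) (e := 1) (W := 210) (j := 14)
    (a := [[1, 0, 0, 0, 0, 0, 0, 0], [1, -1, 1, 1, 0, 0, 0, -1], [-1, -2, 3, 2, 1, 2, -2, -3],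
      [1, -2, 3, 2, 0, 1, -1, -3], [1, 0, 2, 1, 0, 0, -1, -1], [-3, 0, 4, 1, 2, 2, -4, -2],
      [-3, -2, 4, 2, 2, 3, -3, -4], [-2, -3, 3, 2, 1, 3, -1, -4]])
    (Ψ := []) (S := []) (L := [152, 206, 186, 176, 144, 227, 125, 197])
    (by rw [H39.cardWE8]; decide) (by decide +kernel)
  refine ⟨T, h1, ?_, h3⟩
  rw [pow_zero, one_mul, hF] at h2
  rw [h2, ← Int.natAbs_natCast (_ + 1)]
  congr 1
  have h0 : 2 ≤ q := hF ▸ Fintype.one_lt_card
  have h4 : q ^ 5 ≤ q ^ 8 := Nat.pow_le_pow_right (by omega) (by norm_num)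
  have h5 : 2 * q ^ 4 ≤ q ^ 7 := by
    have : q ^ 5 ≤ q ^ 7 := Nat.pow_le_pow_right (by omega) (by norm_num)
    have : 2 * q ^ 4 ≤ q * q ^ 4 := Nat.mul_le_mul_right _ h0
    rw [show q * q ^ 4 = q ^ 5 by ring] at this
    omega
  have h6 : q ^ 3 ≤ q ^ 4 := Nat.pow_le_pow_right (by omega) (by norm_num)
  rw [Nat.cast_add, Nat.cast_add, Nat.cast_sub (by omega), Nat.cast_sub (by omega), Nat.cast_sub (by omega)]
  simp only [H37.P.ev]; push_cast; ring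

end Cfsg.Agent.S2375
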