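import Cfsg.Statements.S2376
import Mathlib
import Cfsg.Agent.Base
import Cfsg.Agent.Lib.Lang.Twist
import Cfsg.Agent.Lib.Weyl.PoinW

set_option autoImplicit false
open Cfsg

namespace Cfsg.Agent.S2376

open H37 H37.P H38 Cfsg.Lie

/-- the cocharacter -/
def aa : List (List ℤ) := [[1, 0, 0, 0], [1, 0, 0, -1], [1, 1, 0, -1], [0, 0, 1, 0]]

/-- the order -/
def NN : List ℤ := [-1, -1, 0, 1, 1]

/-- the action on characters -/
def fD (lam : List ℤ) : List ℤ :=
  dact chevD4 [23] ((List.range chevD4.rank).map fun j => lam.getD ([3, 1, 0, 2].getD j 0) 0)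

/-- the action on the cocharacter -/
def bb : List (List ℤ) := (List.range chevD4.rank).map fun i => (wactP chevD4 [23] aa).getD ([2, 1, 3, 0].getD i 0) []

lemma chk1 : eigChk chevD4.rank NN aa bb = true := by decide +kernel
lemma chk2 : cycChk chevD4.rank fD NN [1, 0, 0, 0] aa = true := by decide +kernel
lemma chk3 : cenChk chevD4 12 NN NN [1] 1 6 aa (List.range 24) [2, 3, 4, 5] = true := by decide +kernel
lemma chk4 : [23].all (· < chevD4.nroots) = true := by decide +kernel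
lemma rho_val (i : Fin chevD4.rank) : (rho4 i : ℕ) = [2, 1, 3, 0].getD i 0 := by revert i; decide
lemma rho_symm_val (i : Fin chevD4.rank) : (rho4.symm i : ℕ) = [3, 1, 0, 2].getD i 0 := by revert i; decide


/-- The group ³D₄(q) contains a cyclic subgroup of order (q³ − 1)(q + 1) which is its own centralizer. -/
theorem result {K : Type*} [Field K] [Fintype K] (q : ℕ) (hq : IsPrimePow q) (hK : Fintype.card K = q ^ 3) :
    ∃ H : Subgroup ↥(Cfsg.Lie.twistedD4 K q), IsCyclic ↥H ∧ Nat.card ↥H = (q ^ 3 - 1) * (q + 1) ∧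
      Subgroup.centralizer (H : Set ↥(Cfsg.Lie.twistedD4 K q)) = H := by
  obtain ⟨p, a, hp, ha, rfl⟩ := (isPrimePow_nat_iff q).mp hq
  have := Fact.mk hp
  have : CharP K p := charP_of_card_eq_prime_pow (hK.trans (pow_mul p a 3).symm)
  let k := AlgebraicClosure K
  have hd := fGood_tw hD4 rsD4 gok_D4a pow_D4a lam_gdD4a three_pos (p := p) ha
  obtain ⟨σ, hσ⟩ := hd.ex k
  obtain ⟨φ, hi, hφ⟩ := exists_emb_3D4 ha hσ hK (algebraMap K k)
  obtain ⟨hp', y, hy, h6⟩ := exists_orderOf (p := p) (q := p ^ a) k (dvd_pow_self p ha.ne') (N := NN) (Or.inr rfl)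
  have h7 := (zpow_eq_one_iff hy).mpr dvd_rfl
  let L := finL chevD4.nroots [23]
  obtain ⟨z, -, hz⟩ := hd.lang hσ isSub_univ (EG hD4 rsD4 k).rep_one (fun _ _ => trivial)
    (g := (nL (EG hD4 rsD4 k) L)⁻¹) (EG_BS_univ hD4 rsD4 k ▸ trivial)
  have hg : σ z = nL (EG hD4 rsD4 k) L * z := by rw [← inv_inv (nL _ L), hz]; group
  have h1 : tw4 (p ^ a) (pv (p ^ a : ℕ) aa y) = wact rsD4.toRS L (pv (p ^ a : ℕ) aa y) := by
    funext j
    obtain ⟨j, rfl⟩ := rho4.surjective j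
    change pv _ aa y (rho4.symm (rho4 j)) ^ _ = _
    rw [Equiv.symm_apply_apply, ← Pi.pow_apply, pv_pow chk1 h7, wact_pv, map_finL chk4, pv, pv, bb, getD_range j.2,
      rho_val]
  have h2 : ∀ c : Fin chevD4.rank → kˣ, tw4 (p ^ a) c = wact rsD4.toRS L c →
      c ∈ Subgroup.zpowers (pv (p ^ a : ℕ) aa y) := fun c hc => by
    obtain ⟨x, hx, rfl⟩ := exists_pv (q := (p ^ a : ℕ)) (c := c) chk2 fun lam => by
      rw [fD, ← map_finL chk4, ← lin_wact rsD4, ← hc, lin_apply, lin_apply, ← Finset.prod_zpow,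
        ← Equiv.prod_comp rho4.symm]
      refine Finset.prod_congr rfl fun j _ => ?_
      rw [getD_range j.2, rho_symm_val, zpow_comm, zpow_natCast]; rfl
    obtain ⟨n, rfl⟩ := h6 x hx
    exact ⟨n, funext fun i => zpow_comm _ _ _⟩
  obtain ⟨T, h3, h4, h5⟩ := exists_selfcent_of hi (g := z⁻¹) (t := Elts.tor (EG_R3 hD4 rsD4 k) (pv (p ^ a : ℕ) aa y))
    ((hφ _).mpr (by rw [map_mul, map_mul, map_inv, map_inv, map_inv, hg, tw4_tor ha hσ, h1, ← nL_tor]; group))
    fun h hh => by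
      obtain ⟨c, hc⟩ := exists_tor (EG_R3 hD4 rsD4 k) (mem_H_of_cenChk (locFin_of_algebraic K k) chk3 (j := 6)
        (by rw [H39.cardWD4]; decide) (Nat.one_lt_pow ha.ne' hp.one_lt) hp' hy _ hh)
      obtain ⟨c', h8, h9⟩ := exists_tw4 ha hσ (L := L) (c := c) (by
        rw [← tw4_tor ha hσ, ← nL_tor, hc, map_mul, map_mul, map_inv, map_inv, (hφ _).mp ⟨h, rfl⟩, hg]; group)
      obtain ⟨n, rfl⟩ := h2 c' h8
      exact ⟨n, by rw [← hc, ← h9]; exact (map_zpow _ _ _).symm⟩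
  refine ⟨T, h3, ?_, h5⟩
  rw [h4]
  have h8 : orderOf (Elts.tor (EG_R3 hD4 rsD4 k) (pv (p ^ a : ℕ) aa y)) = orderOf (pv (l := chevD4.rank) (p ^ a : ℕ) aa y) :=
    Nat.dvd_antisymm (orderOf_map_dvd _ _) (orderOf_dvd_of_pow_eq_one (eq_one_of_tw4 (L := L) ha hσ
      (by rw [map_pow, map_pow, h1]) (by rw [map_pow, pow_orderOf_eq_one])))
  rw [h8, orderOf_pv chk2 h7, hy, ← Int.natAbs_natCast (_ * _)]
  congr 1
  rw [Nat.cast_mul, Nat.cast_sub (Nat.one_le_pow _ _ (pow_pos hp.pos a))]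
  simp only [NN, H37.P.ev]; push_cast; ring

end Cfsg.Agent.S2376
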