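import Cfsg.Statements.S2379
import Cfsg.Agent.Lib.MatConj.Homo

set_option autoImplicit false
open Cfsg

namespace Cfsg.Agent.S2379



/-- Sylow subgroups of `SL_n(q)` for large primes. Let `F` be a field with `q` elements and `r` a prime with `r > n` and `r ∤ q` (so `r` does not divide the order `n!` of the Weyl group). Let `d` be the multiplicative order of `q` modulo `r`, `a` the number of integers `i` with `2 ≤ i ≤ n` divisible by `d` (the degrees of the Weyl group are `2, …, n`), and `m` the `r`-part of the value at `q` of the `d`-th cyclotomic polynomial. Then every Sylow `r`-subgroup of `SL_n(q)` is a direct product of `a` cyclic groups of order `m`. -/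
theorem result {F : Type*} [Field F] [Fintype F] {q : ℕ} (hq : Fintype.card F = q) (n : ℕ)
    (r : ℕ) [Fact r.Prime] (hrn : n < r) (hrq : ¬ r ∣ q) (P : Sylow r (Matrix.SpecialLinearGroup (Fin n) F)) :
    Nonempty (↥(P : Subgroup (Matrix.SpecialLinearGroup (Fin n) F)) ≃*
      (Fin ((Finset.Icc 2 n).filter (fun i => orderOf (q : ZMod r) ∣ i)).card →
        Multiplicative (ZMod (r ^ padicValNat r ((Polynomial.cyclotomic (orderOf (q : ZMod r)) ℤ).eval (q : ℤ)).natAbs)))) := by
  subst hq
  have hr : r.Prime := Fact.out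
  have hq : 2 ≤ Fintype.card F := Fintype.one_lt_card
  have hd := H65.orderOf_zmod_pos hrq
  rw [H65.val_cyclotomic hrq hq]
  obtain ⟨g, hg⟩ := H65.exists_GL_orderOf (F := F) hd (pow_padicValNat_dvd (p := r))
  have h1 := fun a n => H65.emb_pi (fun n => GL (Fin n) F) H65.emb_GL (H65.emb_zmod hg)
    (a := a) (n := n)
  rcases n with _ | n
  · have h4 : ((Finset.Icc 2 0).filter
        fun i => orderOf (Fintype.card F : ZMod r) ∣ i).card = 0 := by simp
    rw [h4]
    exact H65.emb_of_subsingleton.sylow (by simp) P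
  have h2 := H65.val_card_GL (F := F) hrq hrn
  have h0 : Fintype.card F - 1 ≠ 0 := by omega
  rw [← H10.card_units_mul_card_SL, Nat.card_units, Nat.card_eq_fintype_card,
    padicValNat.mul h0 Nat.card_pos.ne'] at h2
  have h3 := H65.val_pow_sub_one (r := r) hq (e := 1) hr.not_dvd_one
  rw [pow_one] at h3
  by_cases h : orderOf (Fintype.card F : ZMod r) = 1
  · have h4 : ((Finset.Icc 2 (n + 1)).filter
        fun i => orderOf (Fintype.card F : ZMod r) ∣ i).card = n := by simp [h]
    rw [h4]
    refine ((h1 n n (by rw [h, mul_one])).trans (H65.emb_GL_SL n)).sylow ?_ P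
    rw [h3, h] at h2
    rw [h]
    simp only [dvd_refl, if_true, Nat.div_one, mul_add, mul_one] at h2
    omega
  · have h4 : ((Finset.Icc 2 (n + 1)).filter fun i => orderOf (Fintype.card F : ZMod r) ∣ i).card =
        (n + 1) / orderOf (Fintype.card F : ZMod r) := by
      rw [← Nat.Ioc_filter_dvd_card_eq_div]
      congr 1
      ext i
      simp only [Finset.mem_filter, Finset.mem_Icc, Finset.mem_Ioc]
      refine ⟨fun h => ⟨⟨by omega, h.1.2⟩, h.2⟩, fun h' => ⟨⟨?_, h'.1.2⟩, h'.2⟩⟩
      have := Nat.le_of_dvd h'.1.1 h'.2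
      omega
    rw [h4]
    rw [h3, if_neg (by simpa using h), zero_add] at h2
    refine (H65.emb_SL_of_emb_GL (h1 _ _ (Nat.div_mul_le_self _ _))
      (m := r ^ padicValNat r (Fintype.card F ^ orderOf (Fintype.card F : ZMod r) - 1))
      (fun x => funext fun i => Multiplicative.toAdd.injective (by simp)) ?_).sylow h2 P
    refine Nat.Coprime.pow_left _ ((Nat.Prime.coprime_iff_not_dvd hr).2 fun h' => h ?_)
    exact Nat.dvd_one.1 ((H65.dvd_pow_sub_one_iff' (by omega)).1 (by rwa [pow_one]))

end Cfsg.Agent.S2379
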