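import Cfsg.Statements.S2381
import Cfsg.Agent.Lib.MatConj.Homo

set_option autoImplicit false
open Cfsg

namespace Cfsg.Agent.S2381



/-- Sylow subgroups of `Sp_{2n}(q)` for large primes. Let `F` be a field with `q` elements and `r` an odd prime with `r > n` and `r ∤ q` (so `r` does not divide the order `2^n n!` of the Weyl group). Let `d` be the multiplicative order of `q` modulo `r`, `a` the number of `i` with `1 ≤ i ≤ n` and `d ∣ 2i` (the degrees being `2, 4, …, 2n`), and `m` the `r`-part of the value at `q` of the `d`-th cyclotomic polynomial. Then every Sylow `r`-subgroup of the symplectic group `Sp_{2n}(q)` is a direct product of `a` cyclic groups of order `m`. -/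
theorem result {F : Type*} [Field F] [Fintype F] {q : ℕ} (hq : Fintype.card F = q) (n : ℕ)
    (r : ℕ) [Fact r.Prime] (hr2 : r ≠ 2) (hrn : n < r) (hrq : ¬ r ∣ q) (P : Sylow r ↥(Matrix.symplecticGroup (Fin n) F)) :
    Nonempty (↥(P : Subgroup ↥(Matrix.symplecticGroup (Fin n) F)) ≃*
      (Fin ((Finset.Icc 1 n).filter (fun i => orderOf (q : ZMod r) ∣ 2 * i)).card →
        Multiplicative (ZMod (r ^ padicValNat r ((Polynomial.cyclotomic (orderOf (q : ZMod r)) ℤ).eval (q : ℤ)).natAbs)))) := by
  subst hq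
  have hr : r.Prime := Fact.out
  have hq : 2 ≤ Fintype.card F := Fintype.one_lt_card
  have hd := H65.orderOf_zmod_pos hrq
  rw [H65.val_cyclotomic hrq hq]
  refine H65.Emb.sylow ?_ ?_ P
  · obtain ⟨η, hη, h1, h2⟩ : ∃ η, 0 < η ∧
        (∀ i, orderOf (Fintype.card F : ZMod r) ∣ 2 * i ↔ η ∣ i) ∧
        (r ^ padicValNat r (Fintype.card F ^ orderOf (Fintype.card F : ZMod r) - 1) ∣
          Fintype.card F ^ η - 1 ∨
        r ^ padicValNat r (Fintype.card F ^ orderOf (Fintype.card F : ZMod r) - 1) ∣
          Fintype.card F ^ η + 1) := by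
      rcases Nat.even_or_odd' (orderOf (Fintype.card F : ZMod r)) with ⟨k, hk | hk⟩
      · refine ⟨k, by omega, fun i => by rw [hk, Nat.mul_dvd_mul_iff_left two_pos], Or.inr ?_⟩
        have h3 : ¬ r ∣ Fintype.card F ^ k - 1 := fun h => by
          have := Nat.le_of_dvd (by omega) ((H65.dvd_pow_sub_one_iff' (by omega)).1 h)
          omega
        refine (Nat.Coprime.pow_left _ ((Nat.Prime.coprime_iff_not_dvd hr).2 h3)).dvd_of_dvd_mul_right
          (pow_padicValNat_dvd.trans (dvd_of_eq ?_))
        rw [hk, pow_mul', ← Nat.sq_sub_sq, one_pow]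
      · refine ⟨_, hd, fun i => ⟨fun h => Nat.Coprime.dvd_of_dvd_mul_left ?_ h,
          fun h => h.mul_left _⟩, Or.inl pow_padicValNat_dvd⟩
        rw [hk]
        simp
    obtain ⟨g, hg⟩ := H65.exists_sp_orderOf (F := F) hη le_rfl h2
    refine H65.emb_pi (fun n => Matrix.symplecticGroup (Fin n) F) H65.emb_Sp (H65.emb_zmod hg) ?_
    simp only [h1]
    rw [show Finset.Icc 1 n = Finset.Ioc 0 n from rfl, Nat.Ioc_filter_dvd_card_eq_div]
    exact Nat.div_mul_le_self _ _
  · have h3 := (Nat.card_pos (α := Matrix.symplecticGroup (Fin n) F)).ne'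
    rw [H11.Sp.card_G, Nat.card_eq_fintype_card] at h3 ⊢
    rw [padicValNat.mul (left_ne_zero_of_mul h3) (right_ne_zero_of_mul h3),
      padicValNat.eq_zero_of_not_dvd fun h => hrq (hr.dvd_of_dvd_pow h), zero_add,
      H65.val_prod hq _ (fun i => 2 * (i + 1)) fun i hi h => ?_]
    · congr 1
      refine Finset.card_bij (fun i _ => i + 1) (fun i hi => ?_) (fun i _ j _ h => by omega)
        fun j hj => ⟨j - 1, ?_, ?_⟩
      · simp only [Finset.mem_filter, Finset.mem_range, Finset.mem_Icc] at hi ⊢
        exact ⟨by omega, hi.2⟩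
      · simp only [Finset.mem_filter, Finset.mem_range, Finset.mem_Icc] at hj ⊢
        exact ⟨by omega, by rw [Nat.sub_add_cancel hj.1.1]; exact hj.2⟩
      · simp only [Finset.mem_filter, Finset.mem_Icc] at hj
        omega
    · rcases (Nat.Prime.dvd_mul hr).1 h with h | h
      · exact hr2 ((Nat.prime_dvd_prime_iff_eq hr Nat.prime_two).1 h)
      · have := Nat.le_of_dvd i.succ_pos h
        have := Finset.mem_range.1 hi
        omega

end Cfsg.Agent.S2381
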