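import Cfsg.Statements.S2383
import Cfsg.Agent.Lib.ModRep.ChevSS
-- import your own Cfsg.Agent.* helpers here

set_option autoImplicit false
open Cfsg

namespace Cfsg.Agent.S2383

/-- Steinberg's count of semisimple classes in characteristic 2 for the types B₂, D₄, E₇, where the finite simply connected group has trivial centre and so coincides with the Chevalley group: for the Chevalley group of type B₂, D₄ or E₇ over a field with `q` elements of characteristic 2, the conjugacy classes of elements of odd order number exactly `q^l`, `l` the rank. -/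
theorem result {F : Type*} [Field F] [Fintype F] {q : ℕ} (hq : Fintype.card F = q) [CharP F 2]
    (D : Cfsg.Lie.ChevalleyDatum) (hD : D ∈ [Cfsg.Lie.chevB2, Cfsg.Lie.chevD4, Cfsg.Lie.chevE7]) :
    Nat.card {c : ConjClasses ↥(D.group F) // ∃ g : ↥(D.group F), ConjClasses.mk g = c ∧ Odd (orderOf g)} = q ^ D.rank := by
  subst hq
  have h2 : Nat.gcd 2 (Fintype.card F - 1) = 1 := by
    obtain ⟨n, -, hn⟩ := FiniteField.card F 2
    have h1 : 2 ∣ Fintype.card F := by rw [hn]; exact dvd_pow_self 2 n.ne_zero
    have h3 : 1 < Fintype.card F := Fintype.one_lt_card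
    refine (Nat.Prime.coprime_iff_not_dvd Nat.prime_two).mpr ?_
    omega
  simp only [← Nat.coprime_two_right]
  simp only [List.mem_cons, List.not_mem_nil, or_false] at hD
  rcases hD with rfl | rfl | rfl
  · exact H64.MR.chev_card_ss (by simp) 2 H38.smithB2 (by simp [h2])
  · exact H64.MR.chev_card_ss (by simp) 2 H38.smithD4 (by simp [h2])
  · exact H64.MR.chev_card_ss (by simp) 2 H38.smithE7 (by simp [h2])
end Cfsg.Agent.S2383
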