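import Mathlib
import Cfsg.Statements.S2391
-- import your own Cfsg.Agent.* helpers here

set_option autoImplicit false
open Cfsg

namespace Cfsg.Agent.S2391

open Matrix

variable {F : Type*} [Field F] {n : ℕ}

/-- the next term of the ascending series of fixed spaces -/
def next (U : Subgroup (Matrix.SpecialLinearGroup (Fin n) F)) (W : Submodule F (Fin n → F)) :
    Submodule F (Fin n → F) where
  carrier := {v | ∀ u ∈ U, (u : Matrix (Fin n) (Fin n) F) *ᵥ v - v ∈ W}
  add_mem' {a b} ha hb u hu := by
    rw [mulVec_add, add_sub_add_comm]; exact W.add_mem (ha u hu) (hb u hu)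
  zero_mem' u _ := by simp
  smul_mem' c v hv u hu := by
    rw [mulVec_smul, ← smul_sub]; exact W.smul_mem c (hv u hu)

/-- the ascending series of fixed spaces -/
def ser (U : Subgroup (Matrix.SpecialLinearGroup (Fin n) F)) (i : ℕ) : Submodule F (Fin n → F) :=
  (next U)^[i] ⊥

theorem ser_zero (U : Subgroup (Matrix.SpecialLinearGroup (Fin n) F)) : ser U 0 = ⊥ := rfl

theorem ser_succ (U : Subgroup (Matrix.SpecialLinearGroup (Fin n) F)) (i : ℕ) :
    ser U (i + 1) = next U (ser U i) := Function.iterate_succ_apply' _ _ _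

theorem mem_ser_succ {U : Subgroup (Matrix.SpecialLinearGroup (Fin n) F)} {i : ℕ} {v : Fin n → F} :
    v ∈ ser U (i + 1) ↔ ∀ u ∈ U, (u : Matrix (Fin n) (Fin n) F) *ᵥ v - v ∈ ser U i := by
  rw [ser_succ]; rfl

theorem ser_inv (U : Subgroup (Matrix.SpecialLinearGroup (Fin n) F)) (i : ℕ) :
    ∀ g ∈ Subgroup.normalizer (U : Set (Matrix.SpecialLinearGroup (Fin n) F)), ∀ v ∈ ser U i,
      (g : Matrix (Fin n) (Fin n) F) *ᵥ v ∈ ser U i := by
  induction i with
  | zero => intro g _ v hv; rw [ser_zero, Submodule.mem_bot] at hv ⊢; simp [hv]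
  | succ i ih =>
    intro g hg v hv
    rw [mem_ser_succ] at hv ⊢
    intro u hu
    have h1 : g⁻¹ * u * g ∈ U := by
      have := (Subgroup.mem_normalizer_iff.mp (inv_mem hg) u).mp hu
      simpa using this
    have h2 := ih g hg _ (hv _ h1)
    rw [mulVec_sub, mulVec_mulVec, ← Matrix.SpecialLinearGroup.coe_mul] at h2
    rw [mulVec_mulVec, ← Matrix.SpecialLinearGroup.coe_mul]
    have : g * (g⁻¹ * u * g) = u * g := by group
    rwa [this] at h2

theorem ser_le_succ (U : Subgroup (Matrix.SpecialLinearGroup (Fin n) F)) (i : ℕ) :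
    ser U i ≤ ser U (i + 1) := fun v hv =>
  mem_ser_succ.mpr fun u hu => (ser U i).sub_mem (ser_inv U i u (Subgroup.le_normalizer hu) v hv) hv

theorem ser_lt_succ [Fintype F] (p : ℕ) [Fact p.Prime] [CharP F p]
    (U : Subgroup (Matrix.SpecialLinearGroup (Fin n) F)) (hU : IsPGroup p U) (i : ℕ)
    (hi : ser U i ≠ ⊤) : ser U i < ser U (i + 1) := by
  classical
  set W := ser U i with hW
  have hinv : ∀ u : U, W ≤ W.comap (Matrix.mulVecLin ((u : Matrix.SpecialLinearGroup (Fin n) F) :
      Matrix (Fin n) (Fin n) F)) := fun u v hv =>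
    ser_inv U i u (Subgroup.le_normalizer u.2) v hv
  let act : MulAction U ((Fin n → F) ⧸ W) :=
    { smul := fun u x => W.mapQ W _ (hinv u) x
      one_smul := fun x => by
        induction x using Submodule.Quotient.induction_on with
        | H v =>
          change W.mapQ W _ (hinv 1) _ = _
          simp
      mul_smul := fun u u' x => by
        induction x using Submodule.Quotient.induction_on with
        | H v =>
          change W.mapQ W _ (hinv (u * u')) _ = W.mapQ W _ (hinv u) (W.mapQ W _ (hinv u') _)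
          simp }
  have hsm : ∀ (u : U) (x : (Fin n → F) ⧸ W), u • x = W.mapQ W _ (hinv u) x := fun _ _ => rfl
  have : Finite ((Fin n → F) ⧸ W) := Finite.of_surjective _ (Submodule.mkQ_surjective W)
  have : Nontrivial ((Fin n → F) ⧸ W) := Submodule.Quotient.nontrivial_iff.mpr hi
  have hdvd : p ∣ Nat.card ((Fin n → F) ⧸ W) := by
    rw [Module.natCard_eq_pow_finrank (K := F)]
    obtain ⟨k, -, hk⟩ := FiniteField.card F p
    refine dvd_pow ?_ Module.finrank_pos.ne'
    rw [Nat.card_eq_fintype_card, hk]
    exact dvd_pow_self p k.ne_zero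
  obtain ⟨b, hb, hb0⟩ := hU.exists_fixed_point_of_prime_dvd_card_of_fixed_point
    ((Fin n → F) ⧸ W) hdvd (a := 0) (fun u => by rw [hsm, map_zero])
  induction b using Submodule.Quotient.induction_on with
  | H v =>
    refine lt_of_le_of_ne (ser_le_succ U i) fun h => hb0 ?_
    symm
    rw [Submodule.Quotient.mk_eq_zero, h, mem_ser_succ]
    intro u hu
    have := hb ⟨u, hu⟩
    rw [hsm, Submodule.mapQ_apply, Submodule.Quotient.eq] at this
    exact this

/-- The Borel–Tits property of `SL_n(q)` in flag form: for a field `F` of characteristic `p` with finitely many elements and a non-trivial `p`-subgroup `U` of `SL_n(F)`, there is a flag `0 = V₀ < V₁ < ⋯ < V_{k+1} = F^n` with at least one proper non-zero member such that every element of the normaliser of `U` maps each `V_i` onto itself and every element of `U` acts trivially on each quotient `V_{i+1}/V_i` (so the normaliser lies in the parabolic subgroup of the flag and `U` in its unipotent radical). -/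
theorem result {F : Type*} [Field F] [Fintype F] (p : ℕ) [Fact p.Prime] [CharP F p] (n : ℕ)
    (U : Subgroup (Matrix.SpecialLinearGroup (Fin n) F)) (hU : IsPGroup p ↥U) (hne : U ≠ ⊥) :
    ∃ (k : ℕ) (V : Fin (k + 2) → Submodule F (Fin n → F)), 1 ≤ k ∧ StrictMono V ∧ V 0 = ⊥ ∧ V (Fin.last (k + 1)) = ⊤ ∧
      (∀ g ∈ Subgroup.normalizer (U : Set (Matrix.SpecialLinearGroup (Fin n) F)), ∀ i, (V i).map (Matrix.mulVecLin (g : Matrix (Fin n) (Fin n) F)) = V i) ∧
      (∀ u ∈ U, ∀ i : Fin (k + 1), ∀ v ∈ V i.succ, (u : Matrix (Fin n) (Fin n) F).mulVec v - v ∈ V (Fin.castSucc i)) := by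
  classical
  have hex : ∃ i, ser U i = ⊤ := by
    by_contra h
    push Not at h
    have hs : StrictMono (ser U) := strictMono_nat_of_lt_succ fun i => ser_lt_succ p U hU i (h i)
    exact not_strictMono_of_wellFoundedGT _ hs
  have h1 : ser U 1 ≠ ⊤ := fun h => hne (by
    rw [eq_bot_iff]
    intro u hu
    rw [Subgroup.mem_bot]
    apply Subtype.ext
    apply Matrix.toLin'.injective
    ext1 i
    apply LinearMap.ext
    intro c
    have : (Pi.single i c : Fin n → F) ∈ ser U (0 + 1) := by rw [zero_add, h]; trivial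
    have := mem_ser_succ.mp this u hu
    rw [ser_zero, Submodule.mem_bot, sub_eq_zero] at this
    simpa using this)
  have h0 : ser U 0 ≠ ⊤ := fun h => h1 (top_le_iff.mp (h ▸ ser_le_succ U 0))
  have hk : 2 ≤ Nat.find hex := by
    rw [Nat.le_find_iff]
    intro m hm
    interval_cases m
    · exact h0
    · exact h1
  obtain ⟨k, hk'⟩ : ∃ k, Nat.find hex = k + 1 := ⟨Nat.find hex - 1, by omega⟩
  refine ⟨k, fun i => ser U i, by omega, ?_, rfl, ?_, ?_, ?_⟩
  · rw [Fin.strictMono_iff_lt_succ]
    intro i
    exact ser_lt_succ p U hU i (Nat.find_min hex (by have := i.2; omega))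
  · have := Nat.find_spec hex
    rw [hk'] at this
    exact this
  · intro g hg i
    apply le_antisymm
    · rintro _ ⟨v, hv, rfl⟩
      exact ser_inv U i g hg v hv
    · intro v hv
      refine ⟨_, ser_inv U i g⁻¹ (inv_mem hg) v hv, ?_⟩
      rw [mulVecLin_apply, mulVec_mulVec, ← Matrix.SpecialLinearGroup.coe_mul, mul_inv_cancel]
      simp
  · intro u hu i v hv
    exact mem_ser_succ.mp hv u hu

end Cfsg.Agent.S2391
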