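import Mathlib
import Cfsg.Statements.S2392
import Cfsg.Agent.Lib.CrossChar.Weights
import Cfsg.Agent.Lib.ClGeo.Transv
import Cfsg.Agent.Lib.GL.Basic
import Cfsg.Agent.Lib.Cls63.Embed
-- import your own Cfsg.Agent.* helpers here

set_option autoImplicit false
open scoped MatrixGroups
open Cfsg

namespace Cfsg.Agent.S2392

open Matrix

theorem aux {F : Type*} [Field F] [Fintype F] {ι : Type*} [Fintype ι] [DecidableEq ι]
    (hι : 2 ≤ Fintype.card ι) {K : Type*} [Field K] (hK : ringChar K ≠ ringChar F) {d : ℕ}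
    (ρ : Matrix.SpecialLinearGroup (ι ⊕ Unit) F →* Matrix (Fin d) (Fin d) K)
    (hker : ∀ g, ρ g = 1 → g ∈ Subgroup.center (Matrix.SpecialLinearGroup (ι ⊕ Unit) F)) :
    Fintype.card F ^ Fintype.card ι - 1 ≤ d := by
  classical
  obtain ⟨x, hx⟩ : ∃ x : (ι → F) → Matrix.SpecialLinearGroup (ι ⊕ Unit) F, ∀ a,
      (x a : Matrix (ι ⊕ Unit) (ι ⊕ Unit) F) = fromBlocks 1 0 (replicateRow Unit a) 1 :=
    ⟨fun a => ⟨fromBlocks 1 0 (replicateRow Unit a) 1, by simp⟩, fun _ => rfl⟩
  have : Nonempty ι := Fintype.card_pos_iff.mp (by omega)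
  obtain ⟨i⟩ := this
  obtain ⟨Φ, h1, ⟨φ, hφ, hφ0⟩, h3⟩ := H63.CrossChar.exists_functionals (F := F) hK ρ x
    (fun a b => Subtype.ext (by
      rw [Matrix.SpecialLinearGroup.coe_mul, hx, hx, hx, fromBlocks_multiply]
      simp [replicateRow_add]))
    ⟨Pi.single i 1, fun h => by
      obtain ⟨r, -, hr⟩ := Matrix.SpecialLinearGroup.mem_center_iff.mp (hker _ h)
      have := congrFun (congrFun hr (Sum.inr ())) (Sum.inl i)
      rw [hx] at this
      simp at this⟩
  obtain ⟨b, rfl⟩ := (dotProductEquiv F ι).surjective φ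
  have hb : b ≠ 0 := fun h => hφ0 (by rw [h, map_zero])
  have hsub : (Finset.univ.erase (0 : ι → F)).map (dotProductEquiv F ι).toEquiv.toEmbedding ⊆ Φ := by
    intro ψ hψ
    obtain ⟨c, hc, rfl⟩ := Finset.mem_map.mp hψ
    obtain ⟨h, hh⟩ := H30.exists_SL_mulVec_eq hι hb (Finset.ne_of_mem_erase hc)
    have := h3 (H63.Emb.slBlock (Equiv.refl _) h) (h : Matrix ι ι F).vecMulLinear (fun a =>
      Subtype.ext (by
        rw [Matrix.SpecialLinearGroup.coe_mul, Matrix.SpecialLinearGroup.coe_mul, hx, hx,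
          H63.Emb.coe_slBlock, H63.Emb.blockHom_apply]
        simp [fromBlocks_multiply, replicateRow_vecMul])) _ hφ
    convert this using 1
    apply LinearMap.ext
    intro a
    change c ⬝ᵥ a = b ⬝ᵥ (a ᵥ* (h : Matrix ι ι F))
    rw [dotProduct_comm b, ← dotProduct_mulVec, hh, dotProduct_comm]
  have := Finset.card_le_card hsub
  rw [Finset.card_map, Finset.card_erase_of_mem (Finset.mem_univ _), Finset.card_univ,
    Fintype.card_fun] at this
  omega

/-- A lower bound for representations in cross characteristic: for `n ≥ 3` and a field `F` with `q` elements, every homomorphism from `SL_n(F)` to `GL_d(K)`, `K` a field of characteristic different from that of `F`, whose kernel is central has `d ≥ q^(n-1) - 1`. -/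
theorem result {F : Type*} [Field F] [Fintype F] {q : ℕ} (hq : Fintype.card F = q) (n : ℕ) (hn : 3 ≤ n)
    {K : Type*} [Field K] (hK : ringChar K ≠ ringChar F) {d : ℕ}
    (ρ : Matrix.SpecialLinearGroup (Fin n) F →* GL (Fin d) K) (hker : ρ.ker ≤ Subgroup.center (Matrix.SpecialLinearGroup (Fin n) F)) :
    q ^ (n - 1) - 1 ≤ d := by
  let e : Fin (n - 1) ⊕ Unit ≃ Fin n := Fintype.equivFinOfCardEq (by simp; omega)
  have := aux (F := F) (ι := Fin (n - 1)) (by simp; omega) hK
    (((Units.coeHom _).comp ρ).comp (H10.slReindex F e).toMonoidHom) (fun g hg => by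
      have h1 : H10.slReindex F e g ∈ Subgroup.center _ := hker (Units.ext hg)
      rw [Subgroup.mem_center_iff] at h1 ⊢
      intro y
      apply (H10.slReindex F e).injective
      rw [map_mul, map_mul, h1])
  simpa [hq] using this

end Cfsg.Agent.S2392
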