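import Mathlib
import Cfsg.Statements.S2393
import Cfsg.Agent.Lib.CrossChar.Sp
import Cfsg.Agent.Lib.Sp.Order
-- import your own Cfsg.Agent.* helpers here

set_option autoImplicit false
open scoped MatrixGroups
open Cfsg

namespace Cfsg.Agent.S2393

/-- A lower bound for representations in cross characteristic: for `n ≥ 2` and a field `F` with `q` elements, `q` odd, every homomorphism from the symplectic group `Sp_{2n}(F)` to `GL_d(K)`, `K` a field of characteristic different from that of `F`, whose kernel is central has `d ≥ q^(n-1)(q-1)/2`. -/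
theorem result {F : Type*} [Field F] [Fintype F] {q : ℕ} (hq : Fintype.card F = q) (hodd : Odd q) (n : ℕ) (hn : 2 ≤ n)
    {K : Type*} [Field K] (hK : ringChar K ≠ ringChar F) {d : ℕ}
    (ρ : ↥(Matrix.symplecticGroup (Fin n) F) →* GL (Fin d) K) (hker : ρ.ker ≤ Subgroup.center ↥(Matrix.symplecticGroup (Fin n) F)) :
    q ^ (n - 1) * (q - 1) / 2 ≤ d := by
  classical
  have h2 : (2 : F) ≠ 0 := by
    intro h
    have h3 : ringChar F = 2 := CharP.ringChar_of_prime_eq_zero Nat.prime_two (by exact_mod_cast h)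
    have := FiniteField.even_card_of_char_two h3
    rw [hq] at this
    rcases hodd with ⟨k, hk⟩
    omega
  have := H63.CrossChar.sp_bound (ι := Fin n) h2 (by simpa using hn) hK ((Units.coeHom _).comp ρ)
    ⟨⟨1, Matrix.transpose_one⟩, fun h => by
      obtain ⟨a, ha⟩ := H11.Sp.mem_center_iff.mp (hker (Units.ext h))
      have := congrFun (congrFun ha (Sum.inl ⟨0, by omega⟩)) (Sum.inr ⟨0, by omega⟩)
      rw [H63.CrossChar.coe_siegel] at this
      simp at this⟩
  rw [hq, Fintype.card_fin] at this
  obtain ⟨k, rfl⟩ : ∃ k, n = k + 1 := ⟨n - 1, by omega⟩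
  have hq0 : 0 < q := hq ▸ Fintype.card_pos
  have h1 : 1 ≤ q ^ k := Nat.one_le_pow _ _ hq0
  rw [Nat.add_sub_cancel, Nat.mul_sub, mul_one, ← pow_succ]
  omega

end Cfsg.Agent.S2393
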