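import Mathlib
import Cfsg.Agent.S0245
import Cfsg.Agent.Lib.Zsig.Basic
import Cfsg.Statements.S2394

set_option autoImplicit false
open scoped MatrixGroups
open Cfsg

namespace Cfsg.Agent.S2394

/-- The smallest degree of a faithful representation of the symplectic group `Sp_{2n}(q)` over its own field `F_q` is `2n`: every injective homomorphism from `Sp_{2n}(F)` to `GL_d(F)`, `F` the field with `q` elements, has `d ≥ 2n`. -/
theorem result {F : Type*} [Field F] [Fintype F] (n : ℕ) {d : ℕ}
    (ρ : ↥(Matrix.symplecticGroup (Fin n) F) →* GL (Fin d) F) (hρ : Function.Injective ρ) : 2 * n ≤ d := by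
  by_contra hlt
  push Not at hlt
  have h1 := Subgroup.card_dvd_of_injective ρ hρ
  rw [Cfsg.Agent.S0245.result rfl, Matrix.card_GL_field] at h1
  have hq : 1 < Fintype.card F := Fintype.one_lt_card
  generalize Fintype.card F = q at h1 hq
  by_cases h6 : q = 2 ∧ 2 * n = 6
  · obtain ⟨rfl, h6⟩ := h6
    obtain rfl : n = 3 := by omega
    interval_cases d <;> exact absurd h1 (by decide +kernel)
  by_cases h2 : n = 1
  · subst h2
    have h3 : q ^ 2 - 1 = (q + 1) * (q - 1) := by simpa using Nat.sq_sub_sq q 1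
    interval_cases d
    · simp at h1; omega
    · simp only [Finset.Icc_self, Finset.prod_singleton, Finset.univ_unique, pow_one, one_pow,
        mul_one, Fin.default_eq_zero, Fin.val_zero, pow_zero] at h1
      have := Nat.le_of_dvd (by omega) ((Dvd.intro _ rfl).trans h1)
      omega
  obtain ⟨r, hr, h3, h4⟩ := H69.Zsig.zsigmondy (n := 2 * n) hq (by omega) h6 fun h => h2 (by omega)
  have h5 : r ∣ ∏ i : Fin d, (q ^ d - q ^ (i : ℕ)) := by
    obtain ⟨m, rfl⟩ : ∃ m, n = m + 1 := ⟨n - 1, by omega⟩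
    exact (h3.trans ((Finset.dvd_prod_of_mem (fun i => q ^ (2 * (i + 1)) - 1)
      (Finset.self_mem_range_succ m)).mul_left _)).trans h1
  obtain ⟨i, -, hi⟩ := (hr.prime.dvd_finsetProd_iff _).1 h5
  rw [show q ^ d - q ^ (i : ℕ) = q ^ (i : ℕ) * (q ^ (d - i) - 1) by
    rw [Nat.mul_sub_one, ← pow_add, Nat.add_sub_cancel' i.2.le], hr.dvd_mul] at hi
  rcases hi with hi | hi
  · have h7 := (Nat.dvd_sub (dvd_pow (hr.dvd_of_dvd_pow hi) (show 2 * n ≠ 0 by omega)) h3)
    rw [Nat.sub_sub_self (Nat.one_le_pow _ _ (by omega))] at h7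
    exact hr.not_dvd_one h7
  · exact h4 _ (by have := i.2; omega) (by omega) hi

end Cfsg.Agent.S2394
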