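import Cfsg.Statements.S2399
import Mathlib
import Cfsg.Agent.Lib.Stein3.Mult
-- import your own Cfsg.Agent.* helpers here

set_option autoImplicit false
open scoped MatrixGroups
open Cfsg

namespace Cfsg.Agent.S2399

/-- Projective representations in the natural characteristic lift: for each of the types G₂, B₂, D₄, F₄, E₆, E₇, E₈ over any field `K` (for types B₂ and G₂ the field must have more than two elements — the cases where the Chevalley group is not simple are set aside), every homomorphism from the Chevalley group to `PGL_n(L) = GL_n(L)/Z`, `L` a field of the same characteristic as `K`, lifts uniquely to a homomorphism from the group Δ presented by (R1), (R2) to `GL_n(L)`, compatibly with the projection Δ → Chevalley group sending x̄_r(t) to x_r(t). -/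
theorem result {K : Type*} [Field K] (D : Cfsg.Lie.ChevalleyDatum) (hD : D ∈ [Cfsg.Lie.chevG2, Cfsg.Lie.chevB2, Cfsg.Lie.chevD4, Cfsg.Lie.chevF4, Cfsg.Lie.chevE6, Cfsg.Lie.chevE7, Cfsg.Lie.chevE8]) (hK : D ∈ [Cfsg.Lie.chevB2, Cfsg.Lie.chevG2] → ∃ x : K, x ≠ 0 ∧ x ≠ 1)
    (θ : D.SteinbergCover K →* ↥(D.group K))
    (hθ : ∀ (r : ℕ) (t : K), r < D.nroots → ((θ (D.scGen K r t) : GL D.Idx K) : Matrix D.Idx D.Idx K) = D.x K r t)
    {L : Type*} [Field L] (hL : ringChar L = ringChar K) {n : ℕ}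
    (φ : ↥(D.group K) →* GL (Fin n) L ⧸ Subgroup.center (GL (Fin n) L)) :
    ∃! ψ : D.SteinbergCover K →* GL (Fin n) L, (QuotientGroup.mk' (Subgroup.center (GL (Fin n) L))).comp ψ = φ.comp θ := by
  have h2 : D = Lie.chevG2 ∨ D = Lie.chevB2 → ∃ a : K, a ≠ 0 ∧ a ≠ 1 := fun h =>
    hK (by rcases h with h | h <;> simp [h])
  have hc : H63.St.CE (QuotientGroup.mk' (Subgroup.center (GL (Fin n) L))) :=
    ⟨QuotientGroup.mk'_surjective _, by rw [QuotientGroup.ker_mk']⟩
  suffices h : ∃ ψ : D.SteinbergCover K →* GL (Fin n) L,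
      (QuotientGroup.mk' (Subgroup.center (GL (Fin n) L))).comp ψ = φ.comp θ by
    obtain ⟨τ, hτ⟩ := h
    exact ⟨τ, hτ, fun τ' h => H6.lift_unique hc.cen (H6.sc_perfect hD h2) (h.trans hτ.symm)⟩
  by_cases h4 : ∀ s : Finset K, s.card ≤ 4 → ∃ a, a ∉ s
  · exact H6.exists_hom_lift (H6.ok_of_card hD h4) hc _
  push Not at h4
  obtain ⟨s, -, hs⟩ := h4
  have : Finite K := Finite.of_surjective (fun a : s => (a : K)) fun a => ⟨⟨a, hs a⟩, rfl⟩
  have : Fact (ringChar K).Prime := ⟨CharP.char_is_prime K _⟩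
  have : CharP L (ringChar K) := hL ▸ ringChar.charP L
  refine H6.exists_hom_lift_of_noTorsion hD (p := ringChar K) h2 hc (fun z hz e => ?_) _
  rw [← MonoidHom.mem_ker, QuotientGroup.ker_mk',
    Matrix.GeneralLinearGroup.mem_center_iff_val_mem_range_scalar] at hz
  obtain ⟨a, ha⟩ := hz
  ext i j
  have h1 := congrArg (fun g : GL (Fin n) L => (g : Matrix (Fin n) (Fin n) L) i i) e
  simp only [Units.val_pow_eq_pow_val, ← ha, ← map_pow, Units.val_one] at h1
  have h3 : a = 1 := by
    have : (a - 1) ^ ringChar K = 0 := by rw [sub_pow_char]; simpa [sub_eq_zero] using h1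
    exact sub_eq_zero.1 (eq_zero_of_pow_eq_zero this)
  rw [← ha, h3, map_one, Units.val_one]

end Cfsg.Agent.S2399
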