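import Cfsg.Statements.S2402
import Mathlib
import Cfsg.Agent.Lib.Pres.TwoGen

set_option autoImplicit false
open Cfsg

namespace Cfsg.Agent.S2402

/-- Explicit two-element generation of `PSL_{n+1}(K)` for a finite field `K` with more than three elements: let `k` generate the multiplicative group of `K`, `h = diag(k, k⁻¹, 1, …, 1)`, `x = 1 + E₁₂` (the elementary transvection) and `w` the monomial matrix with entries `1` in positions `(i, i+1)` and `(−1)^n` in position `(n+1, 1)`. Then `h` and `x·w` generate `SL_{n+1}(K)` modulo its centre: the subgroup they generate together with the centre is everything. -/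
theorem result {K : Type*} [Field K] [Fintype K] (hK : 3 < Fintype.card K) (n : ℕ) (hn : 1 ≤ n)
    (k : Kˣ) (hk : ∀ u : Kˣ, u ∈ Subgroup.zpowers k)
    (h x w : Matrix.SpecialLinearGroup (Fin (n + 1)) K)
    (hh : (h : Matrix (Fin (n + 1)) (Fin (n + 1)) K) =
      Matrix.diagonal (fun i => if i.val = 0 then (k : K) else if i.val = 1 then ((k⁻¹ : Kˣ) : K) else 1))
    (hx : (x : Matrix (Fin (n + 1)) (Fin (n + 1)) K) = Matrix.transvection (0 : Fin (n + 1)) (1 : Fin (n + 1)) 1)
    (hw : (w : Matrix (Fin (n + 1)) (Fin (n + 1)) K) =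
      Matrix.of (fun i j => if j.val = i.val + 1 then 1 else if i.val = n ∧ j.val = 0 then (-1) ^ n else 0)) :
    Subgroup.closure ({h, x * w} : Set (Matrix.SpecialLinearGroup (Fin (n + 1)) K)) ⊔
      Subgroup.center (Matrix.SpecialLinearGroup (Fin (n + 1)) K) = ⊤ := by
  obtain ⟨n, rfl⟩ : ∃ m, n = m + 1 := ⟨n - 1, by omega⟩
  have o : (0 : Fin (n + 2)) ≠ 1 := by simp
  have hk' : ∀ a : K, a ≠ 0 → ∃ m : ℕ, (k : K) ^ m = a := fun a ha => by
    obtain ⟨m, hm⟩ := mem_powers_iff_mem_zpowers.2 (hk (Units.mk0 a ha))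
    exact ⟨m, by simpa using congrArg Units.val hm⟩
  have hk2 : (k : K) ^ 2 ≠ 1 := fun e => by
    have h1 := orderOf_eq_card_of_forall_mem_zpowers hk
    rw [Nat.card_units, Nat.card_eq_fintype_card] at h1
    have := Nat.le_of_dvd two_pos (orderOf_dvd_of_pow_eq_one (x := k) (n := 2)
      (Units.ext (by simpa using e)))
    omega
  have e1 : h = H77.Pres.hd k.ne_zero 0 1 := by
    refine Subtype.ext ?_
    rw [H77.Pres.coe_hd]
    refine hh.trans ?_
    congr 1; ext i
    by_cases h0 : i = 0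
    · subst h0; simp [H77.Pres.ep]
    by_cases h1 : i = 1
    · subst h1; simp [H77.Pres.ep]
    have h0' : i.val ≠ 0 := fun e => h0 (Fin.ext e)
    have h1' : i.val ≠ 1 := fun e => h1 (Fin.ext e)
    simp [H77.Pres.ep, h0, h1, h1']
  have e2 : x = H63.St.SL.tv 0 1 1 := by
    refine Subtype.ext ?_
    rw [H63.St.SL.coe_tv o, one_smul]; exact hx
  rw [H77.Pres.top_of_hw hw k.ne_zero hk' hk2 (Subgroup.closure {h, x * w})
    (e1 ▸ Subgroup.subset_closure (by simp)) (e2 ▸ Subgroup.subset_closure (by simp)), top_sup_eq]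

end Cfsg.Agent.S2402
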