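import Cfsg.Statements.S2403
import Mathlib
import Cfsg.Agent.Lib.Pres.TwoGen

set_option autoImplicit false
open Cfsg

namespace Cfsg.Agent.S2403

/-- Explicit two-element generation of `PSL_{n+1}(K)` over the fields with two or three elements: with `x = 1 + E₁₂` and `w` the monomial matrix with entries `1` in positions `(i, i+1)` and `(−1)^n` in position `(n+1, 1)`, the elements `x` and `w` generate `SL_{n+1}(K)` modulo its centre. -/
theorem result {K : Type*} [Field K] [Fintype K] (hK : Fintype.card K ≤ 3) (n : ℕ) (hn : 1 ≤ n)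
    (x w : Matrix.SpecialLinearGroup (Fin (n + 1)) K)
    (hx : (x : Matrix (Fin (n + 1)) (Fin (n + 1)) K) = Matrix.transvection (0 : Fin (n + 1)) (1 : Fin (n + 1)) 1)
    (hw : (w : Matrix (Fin (n + 1)) (Fin (n + 1)) K) =
      Matrix.of (fun i j => if j.val = i.val + 1 then 1 else if i.val = n ∧ j.val = 0 then (-1) ^ n else 0)) :
    Subgroup.closure ({x, w} : Set (Matrix.SpecialLinearGroup (Fin (n + 1)) K)) ⊔
      Subgroup.center (Matrix.SpecialLinearGroup (Fin (n + 1)) K) = ⊤ := by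
  obtain ⟨n, rfl⟩ : ∃ m, n = m + 1 := ⟨n - 1, by omega⟩
  have o : (0 : Fin (n + 2)) ≠ 1 := by simp
  have e2 : x = H63.St.SL.tv 0 1 1 := by
    refine Subtype.ext ?_
    rw [H63.St.SL.coe_tv o, one_smul]; exact hx
  have hA := H77.Pres.tv_isAdd (F := K) o
  have hx1 : H63.St.SL.tv 0 1 1 ∈ Subgroup.closure {x, w} := e2 ▸ Subgroup.subset_closure (by simp)
  rw [H77.Pres.top_of_w hw (Subgroup.closure {x, w}) (Subgroup.subset_closure (by simp))
    (fun t => ?_), top_sup_eq]
  by_cases h0 : t = 0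
  · rw [h0, hA.zero]; exact one_mem _
  obtain ⟨k, -, hk, ho⟩ := H77.Pres.exists_prim K
  obtain ⟨m, rfl⟩ := hk t h0
  have h1 : 1 < Nat.card K := Finite.one_lt_card
  rw [Nat.card_eq_fintype_card] at ho h1
  have h2 : k ^ 2 = 1 := by
    rw [← orderOf_dvd_iff_pow_eq_one, ho]
    have : Fintype.card K = 2 ∨ Fintype.card K = 3 := by omega
    rcases this with e | e <;> simp [e]
  have h3 : k ^ m * k ^ m = 1 := by rw [← sq, ← pow_mul, mul_comm, pow_mul, h2, one_pow]
  rcases mul_self_eq_one_iff.1 h3 with e | e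
  · rw [e]; exact hx1
  · rw [e, hA.neg]; exact inv_mem hx1

end Cfsg.Agent.S2403
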