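import Cfsg.Statements.S2405
import Mathlib
import Cfsg.Agent.Base
import Cfsg.Agent.Lib.Lang.Gen2
import Cfsg.Agent.Lib.Chev.Main
import Cfsg.Agent.Lib.Weyl.Bridge

set_option autoImplicit false
open Cfsg

namespace Cfsg.Agent.S2405

open H38 H39 H37.Gen in
lemma tab {D : Cfsg.Lie.ChevalleyDatum} (R : RootSys D) {AL : List (List ℤ)} (h1 : AL.length = D.rank)
    (h2 : ∀ r ∈ AL, r.length = D.rank)
    (e : ∀ i j : Fin D.rank, D.cartan i (D.simple j) = matF D.rank AL j i) : Tab R.toRS AL :=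
  ⟨h1, h2, fun i j => (RootSys_A_eq R i j).trans (e i j)⟩

open H38 H39 H37.Gen in
lemma l12 {ι : Type} {R : RS ι (Fin 6)} (hT : Tab R alE6) : L12 R := by
  have hl : ∀ i, R.len (R.sim i) = R.len (R.sim 3) := by
    have a := R.A_symm 0 2
    have b := R.A_symm 2 3
    have c := R.A_symm 1 3
    have d := R.A_symm 3 4
    have e := R.A_symm 4 5
    simp only [hT.hA] at a b c d e
    simp [matF, alE6] at a b c d e
    intro i
    fin_cases i <;> simp <;> omega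
  refine L12.of_sim fun i j => ?_
  have := R.len_pos (R.sim 3)
  rw [hl, hl j]; omega

/-- Each Chevalley group of type G₂, B₂, D₄, F₄, E₆, E₇ or E₈ over a finite field is generated by two of its elements (types B₂ and G₂ over the field with two elements, where the group is not simple, excepted). -/
theorem result {F : Type*} [Field F] [Finite F] (D : Cfsg.Lie.ChevalleyDatum) (hD : D ∈ [Cfsg.Lie.chevG2, Cfsg.Lie.chevB2, Cfsg.Lie.chevD4, Cfsg.Lie.chevF4, Cfsg.Lie.chevE6, Cfsg.Lie.chevE7, Cfsg.Lie.chevE8])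
    (hF : D ∈ [Cfsg.Lie.chevB2, Cfsg.Lie.chevG2] → ∃ x : F, x ≠ 0 ∧ x ≠ 1) :
    ∃ a b : ↥(D.group F), Subgroup.closure ({a, b} : Set ↥(D.group F)) = ⊤ := by
  obtain ⟨R, E, hE⟩ := H38.exists_isMat hD F
  have h2 : (¬ ∃ x : F, x ≠ 0 ∧ x ≠ 1) → ∀ t : F, t = 0 ∨ t = 1 := fun h t => by
    by_contra h'
    exact h ⟨t, not_or.mp h'⟩
  simp only [List.mem_cons, List.not_mem_nil, or_false] at hD
  rcases hD with rfl | rfl | rfl | rfl | rfl | rfl | rfl
  · exact (tab R H39.alG2_len H39.alG2_rows (by decide +kernel)).gen_two (n := 2) (hF (by simp))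
      hE.grp_R3 hE.grp_top [1, 0] 1 0 [1, 2] 1 [.act 1 [0, 0, 0], .act 1 [0, 0, 0]]
      (by decide +kernel) (by decide +kernel) (by decide +kernel) (by decide +kernel)
      (by decide +kernel)
  · exact (tab R H39.alB2_len H39.alB2_rows (by decide +kernel)).gen_two (n := 2) (hF (by simp))
      hE.grp_R3 hE.grp_top [0, 1] 0 1 [1, 1] 1 [.act 0 [0, 0], .act 2 [0, 0]]
      (by decide +kernel) (by decide +kernel) (by decide +kernel) (by decide +kernel)
      (by decide +kernel)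
  · have hT := tab R H39.alD4_len H39.alD4_rows (by decide +kernel)
    by_cases h : ∃ x : F, x ≠ 0 ∧ x ≠ 1
    · exact hT.gen_two (n := 4) h hE.grp_R3 hE.grp_top [0, 1, 2, 3] 2 1 [2, 1, 0, 0] 1
        [.act 1 [0, 0, 0], .refl [] 1, .act 2 [2], .act 2 [1, 0], .act 4 [2, 0], .act 4 [1, 1, 1],
          .act 5 [2, 2, 0]] (by decide +kernel) (by decide +kernel) (by decide +kernel)
        (by decide +kernel) (by decide +kernel)
    · exact H37.Gen.gen_D4 (h2 h) hE.grp_faith hE.grp_top hT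
  · have hT := tab R H39.alF4_len H39.alF4_rows (by decide +kernel)
    by_cases h : ∃ x : F, x ≠ 0 ∧ x ≠ 1
    · exact hT.gen_two (n := 4) h hE.grp_R3 hE.grp_top [0, 1, 2, 3] 0 2 [0, 1, 1, 0] 1
        [.act 0 [0], .act 2 [0], .act 2 [0, 0, 0, 0, 0, 0], .act 3 [1, 1, 1, 1, 1],
          .act 5 [0, 0, 0, 0, 0, 0], .act 6 [1, 1, 1, 1, 1]] (by decide +kernel) (by decide +kernel)
        (by decide +kernel) (by decide +kernel) (by decide +kernel)
    · exact H37.Gen.gen_F4 (h2 h) hE.grp_faith hE.grp_top hT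
  · have hT := tab R H39.alE6_len H39.alE6_rows (by decide +kernel)
    exact hT.gen_one (n := 6) hE.grp_R3 hE.grp_top (sl := true)
      (fun _ => l12 hT) [0, 1, 2, 3, 4, 5] 3 [0, 0, 0, 0, 0, 1] 1
      [.act 0 [1, 1, 1, 1], .sum [] 3 [] 2, .act 0 [1, 1, 1, 1], .refl [] 3, .act 1 [2, 0],
        .act 2 [0, 1, 0], .act 5 [1], .act 6 [1, 1], .act 5 [1, 1, 1], .act 8 [0, 2, 2, 2, 0],
        .act 7 [1, 1, 1, 1], .act 10 [1, 0], .act 9 [2, 2]]
      (by decide +kernel) (by decide +kernel) (by decide +kernel)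
  · exact (tab R H39.alE7_len H39.alE7_rows (by decide +kernel)).gen_one (n := 7)
      hE.grp_R3 hE.grp_top (sl := false) (by simp) [0, 1, 2, 3, 4, 5, 6] 3 [0, 0, 0, 0, 0, 0, 1] 2
      [.act 0 [0, 0, 0, 0, 0, 0, 0, 0, 0], .refl [] 3, .act 1 [2, 0, 2, 2, 2, 2],
        .act 2 [0, 1, 0, 2, 2, 2, 2], .act 3 [0, 2, 2, 2, 2], .act 4 [1], .act 5 [1, 1],
        .act 6 [1, 1, 1], .act 7 [2, 0, 2, 2, 2, 2, 0], .act 8 [0, 1, 0, 2, 2, 2, 2, 0],
        .act 9 [0, 2, 2, 2, 2, 0], .act 10 [1, 0], .act 11 [1, 1, 0], .act 12 [1, 1, 1, 0]]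
      (by decide +kernel) (by decide +kernel) (by decide +kernel)
  · exact (tab R H39.alE8_len H39.alE8_rows (by decide +kernel)).gen_one (n := 8)
      hE.grp_R3 hE.grp_top (sl := false) (by simp) [0, 1, 2, 3, 4, 5, 6, 7] 3
      [0, 0, 0, 0, 0, 0, 0, 1] 3
      [.act 0 [0, 0, 0, 0, 0, 0, 0, 0, 0, 0, 0, 0, 0, 0, 0], .refl [] 3,
        .act 1 [2, 0, 1, 1, 1, 1, 1, 1, 0], .act 2 [0, 1, 0, 1, 1, 1, 1, 1, 1, 0],
        .act 3 [0, 1, 1, 1, 1, 1, 1, 0], .act 4 [1], .act 5 [1, 1], .act 6 [1, 1, 1],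
        .act 7 [1, 1, 1, 1], .act 8 [2, 0, 1, 1, 1, 1, 1, 1], .act 9 [0, 1, 0, 1, 1, 1, 1, 1, 1],
        .act 10 [0, 1, 1, 1, 1, 1, 1], .act 11 [1, 0], .act 12 [1, 1, 0], .act 13 [1, 1, 1, 0],
        .act 14 [1, 1, 1, 1, 0]]
      (by decide +kernel) (by decide +kernel) (by decide +kernel)

end Cfsg.Agent.S2405
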