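import Cfsg.Statements.S2408
import Mathlib
import Cfsg.Agent.Base
import Cfsg.Agent.Lib.Lang.Gen2Tw
import Cfsg.Agent.Lib.Twist.F4Mat

set_option autoImplicit false
open Cfsg

namespace Cfsg.Agent.S2408


/-- The large Ree group ²F₄(2^(2m+1)) with `m ≥ 1` is generated by two of its elements. -/
theorem result {K : Type*} [Field K] [Fintype K] {m : ℕ} (hm : 1 ≤ m) (hK : Fintype.card K = 2 ^ (2 * m + 1)) :
    ∃ a b : ↥(Cfsg.Lie.twistedF4 K (2 ^ m)), Subgroup.closure ({a, b} : Set ↥(Cfsg.Lie.twistedF4 K (2 ^ m))) = ⊤ := by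
  obtain ⟨R, E, hE, T, h, e⟩ := H39.exists_F4 hK
  obtain ⟨a, ha, b, hb, h1⟩ := H37.Gen.gen_2F4 h
    (by rw [hK]; exact Nat.pow_le_pow_right (n := 2) (i := 2) (by norm_num) (by omega))
  exact H37.Gen.closure_map _ e ha hb h1

end Cfsg.Agent.S2408
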