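import Cfsg.Statements.S2413
import Mathlib
import Cfsg.Agent.Base
import Cfsg.Agent.Lib.Lang.GenCl
import Cfsg.Agent.Lib.Stein.OrthM

set_option autoImplicit false
open Cfsg

namespace Cfsg.Agent.S2413

open H12 H63.St in

/-- The simple orthogonal group `PΩ_{2m+1}(q)` (commutator subgroup of the orthogonal group of `x₀² + Σ x_i y_i` modulo its centre) with `m ≥ 2` and `q` odd is generated by two of its elements. -/
theorem result {F : Type*} [Field F] [Fintype F] (hodd : Odd (Fintype.card F)) (m : ℕ) (hm : 2 ≤ m) :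
    ∃ a b : Cfsg.POmega F (Cfsg.quadFormOdd m F), Subgroup.closure ({a, b} : Set (Cfsg.POmega F (Cfsg.quadFormOdd m F))) = ⊤ := by
  obtain ⟨m, rfl⟩ : ∃ k, m = k + 1 := ⟨m - 1, by omega⟩
  have h2 : (2 : F) ≠ 0 := Ring.two_ne_zero fun h => by
    have := FiniteField.even_card_of_char_two h
    rw [Nat.odd_iff] at hodd
    omega
  have hQ := nondeg_sq h2
  have hn := Orth.finrank_hyp (F := F) (W := F) (m + 1)
  have hG := good_of_finrank_ne (hQ.hypN (m + 1)) (by rw [hn]; simp; omega)
  have ha : ∀ v : F, QuadraticMap.sq (R := F) v = 0 → v = 0 := fun v hv => by simpa using hv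
  refine H37.GenCl.two_gen_map (QuotientGroup.mk' _) (QuotientGroup.mk'_surjective _) ?_
  have e := commCongr ((isoEquiv _ (QOdd_apply (F := F) (m + 1))).trans
    (congrO (oddEquiv F (m + 1)) (hypN_oddEquiv (m + 1))))
  refine H37.GenCl.two_gen_map e.symm.toMonoidHom e.symm.surjective ?_
  refine H37.GenCl.gen_odd (E := Orth.E hQ ha hG) (v0 := (0, 0, 1)) ((Orth.mem_V0 _ _ _).2 rfl) ?_
    (fun v hv => ⟨v.2.2, ?_⟩) (fun c hc => ⟨0, ?_⟩) (Orth.gen _ _ _ (by simp)) (by omega)
    ⟨-1, by simp, fun h => h2 (by linear_combination -h)⟩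
  · refine ne_of_eq_of_ne (Orth.polar_hypN _ _ _) ?_
    simp only [QuadraticMap.polar, QuadraticMap.sq_apply]
    simp only [Pi.zero_apply, mul_zero, add_zero, Finset.sum_const_zero, zero_add]
    exact fun h => h2 (by linear_combination h)
  · rw [(Orth.mem_V0 _ _ _).1 hv]; simp
  · simpa using (hc.symm.trans (map_zero _))

end Cfsg.Agent.S2413
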