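import Cfsg.Statements.S2414
import Mathlib
import Cfsg.Agent.Base
import Cfsg.Agent.Lib.Lang.GenCl
import Cfsg.Agent.Lib.Stein.OrthM

set_option autoImplicit false
open Cfsg

namespace Cfsg.Agent.S2414

open H12 H63.St in

/-- The simple orthogonal group `PΩ⁺_{2m}(q)` (commutator subgroup of the orthogonal group of `Σ x_i y_i` modulo its centre) with `m ≥ 4` is generated by two of its elements. -/
theorem result {F : Type*} [Field F] [Fintype F] (m : ℕ) (hm : 4 ≤ m) :
    ∃ a b : Cfsg.POmega F (Cfsg.quadFormPlus m F), Subgroup.closure ({a, b} : Set (Cfsg.POmega F (Cfsg.quadFormPlus m F))) = ⊤ := by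
  obtain ⟨m, rfl⟩ : ∃ k, m = k + 1 := ⟨m - 1, by omega⟩
  have hQ : Nondeg (0 : QuadraticForm F (Fin 0 → F)) := fun _ _ => Subsingleton.elim _ _
  have hn := Orth.finrank_hyp (F := F) (W := Fin 0 → F) (m + 1)
  have hG := good_of_finrank_ne (hQ.hypN (m + 1)) (by omega)
  have ha : ∀ v : Fin 0 → F, (0 : QuadraticForm F (Fin 0 → F)) v = 0 → v = 0 :=
    fun _ _ => Subsingleton.elim _ _
  refine H37.GenCl.two_gen_map (QuotientGroup.mk' _) (QuotientGroup.mk'_surjective _) ?_
  have e := commCongr ((isoEquiv _ (QPlus_apply (F := F) (m + 1))).trans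
    (congrO (plusEquiv F (m + 1)) (hypN_plusEquiv (m + 1))))
  refine H37.GenCl.two_gen_map e.symm.toMonoidHom e.symm.surjective ?_
  refine H37.GenCl.gen_plus (E := Orth.E hQ ha hG) (Orth.gen _ _ _ (by omega)) (by omega)
    fun v c hv => ?_
  have h1 : v = 0 := by
    rw [(Orth.mem_V0 _ _ _).1 hv.1, Subsingleton.elim v.2.2 0]; rfl
  subst h1
  exact hv.2.symm.trans (map_zero _)

end Cfsg.Agent.S2414
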