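import Cfsg.Statements.S2415
import Mathlib
import Cfsg.Agent.Base
import Cfsg.Agent.Lib.Lang.GenCl
import Cfsg.Agent.Lib.Stein.OrthM

set_option autoImplicit false
open Cfsg

namespace Cfsg.Agent.S2415

open H12 H63.St in

/-- The simple orthogonal group `PΩ⁻_{2m}(q)` with `m ≥ 4` (commutator subgroup, modulo its centre, of the orthogonal group of `Σ_{i<m−1} x_i y_i + z₁² + a z₁z₂ + b z₂²` with the binary part anisotropic) is generated by two of its elements. -/
theorem result {F : Type*} [Field F] [Fintype F] (m : ℕ) (hm : 4 ≤ m) (a b : F)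
    (hab : ∀ z₁ z₂ : F, z₁ ^ 2 + a * z₁ * z₂ + b * z₂ ^ 2 = 0 → z₁ = 0 ∧ z₂ = 0) :
    ∃ g h : Cfsg.POmega F (Cfsg.quadFormMinus (m - 1) F a b),
      Subgroup.closure ({g, h} : Set (Cfsg.POmega F (Cfsg.quadFormMinus (m - 1) F a b))) = ⊤ := by
  obtain ⟨m, rfl⟩ : ∃ k, m = k + 2 := ⟨m - 2, by omega⟩
  have hab' : Aniso a b := hab
  have hQ := hab'.nondeg
  have hn := Orth.finrank_hyp (F := F) (W := Fin 2 → F) (m + 1)
  have hG := good_of_finrank_ne (hQ.hypN (m + 1)) (by omega)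
  refine H37.GenCl.two_gen_map (QuotientGroup.mk' _) (QuotientGroup.mk'_surjective _) ?_
  have e := commCongr ((isoEquiv _ (QMinus_apply (F := F) (m + 1) a b)).trans
    (congrO (minusEquiv F (m + 1)) (hypN_minusEquiv (m + 1) a b)))
  refine H37.GenCl.two_gen_map e.symm.toMonoidHom e.symm.surjective ?_
  obtain ⟨s, hs⟩ : ∃ s : F, 2 * s + a ≠ 0 := by
    by_cases h : a = 0
    · exact ⟨1, fun h1 => hab'.disc_ne_zero (by rw [h] at h1 ⊢; linear_combination 2 * b * h1)⟩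
    · exact ⟨0, by simpa using h⟩
  refine H37.GenCl.gen_minus (E := Orth.E hQ hab'.eq_zero hG) (Orth.gen _ _ _ (by omega)) (by omega)
    (fun c hc => hc.symm.trans (map_zero _)) (v := (0, 0, ![1, 0])) (w := (0, 0, ![s, 1]))
    ((Orth.mem_V0 _ _ _).2 rfl) ((Orth.mem_V0 _ _ _).2 rfl) ?_
    fun u hu => ⟨u.2.2 0 - s * u.2.2 1, u.2.2 1, ?_⟩
  · refine ne_of_eq_of_ne (Orth.polar_hypN _ _ _) ?_
    simpa [polar_binForm] using hs
  · rw [(Orth.mem_V0 _ _ _).1 hu]
    refine Prod.ext (by simp) (Prod.ext (by simp) (funext fun i => ?_))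
    fin_cases i <;> simp
    ring

end Cfsg.Agent.S2415
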