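import Cfsg.Statements.S2416
import Cfsg.Agent.Lib.Chev.GenN

set_option autoImplicit false
open scoped MatrixGroups
open Cfsg

namespace Cfsg.Agent.S2416

open H38 Cfsg.Lie

lemma cast_ne {K : Type*} [Field K] {p : ℕ} (hp : p.Prime) (h : ringChar K ≠ p) :
    ((-(p : ℤ) : ℤ) : K) ≠ 0 := by
  rw [Int.cast_neg, Int.cast_natCast, neg_ne_zero]
  exact fun e => h (CharP.ringChar_of_prime_eq_zero hp e)

/-- A Chevalley group of type G₂, B₂, D₄, F₄, E₆, E₇ or E₈ over a finite field lies in (indeed equals) the subgroup generated by its monomial subgroup `N` and a single fundamental root subgroup `X_p`, where `p` is a short fundamental root if there are two root lengths (any fundamental root otherwise), provided the characteristic is not 2 for types B₂, F₄ and not 3 for type G₂ (and the field has more than two elements for B₂, G₂). -/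
theorem result {K : Type*} [Field K] [Finite K] (D : Cfsg.Lie.ChevalleyDatum) (hD : D ∈ [Cfsg.Lie.chevG2, Cfsg.Lie.chevB2, Cfsg.Lie.chevD4, Cfsg.Lie.chevF4, Cfsg.Lie.chevE6, Cfsg.Lie.chevE7, Cfsg.Lie.chevE8])
    (hK : D ∈ [Cfsg.Lie.chevB2, Cfsg.Lie.chevG2] → ∃ x : K, x ≠ 0 ∧ x ≠ 1)
    (h2 : D ∈ [Cfsg.Lie.chevB2, Cfsg.Lie.chevF4] → ringChar K ≠ 2) (h3 : D = Cfsg.Lie.chevG2 → ringChar K ≠ 3)
    (i : ℕ) (hi : i < D.rank) (hshort : D.isLong (D.simple i) = false) :
    D.group K ≤ D.monomialSubgroup K ⊔ D.rootSubgroup K (D.simple i) := by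
  obtain ⟨R, E, hE⟩ := exists_isMat hD K
  have h1 : ∀ j ∈ [i], D.rootSubgroup K (D.simple j) ≤
      D.monomialSubgroup K ⊔ D.rootSubgroup K (D.simple i) := by simp
  have hM : D.monomialSubgroup K ≤ D.monomialSubgroup K ⊔ D.rootSubgroup K (D.simple i) :=
    le_sup_left
  generalize D.monomialSubgroup K ⊔ D.rootSubgroup K (D.simple i) = M at h1 hM ⊢
  simp only [List.mem_cons, List.not_mem_nil, or_false] at hD
  rcases hD with rfl | rfl | rfl | rfl | rfl | rfl | rfl
  · have a := hE.le_of_iterate hM h1 0 0 (by clear h1; revert i; decide +kernel)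
    have b := hE.le_of_commTerms (r := chevG2.reflectRoot 0 (chevG2.simple 0))
      (s := chevG2.reflectRoot 1 (chevG2.simple 0)) (k := chevG2.simple 1) (by decide +kernel)
      (by decide +kernel) (by decide +kernel) (by decide +kernel) (by decide +kernel)
      (by decide +kernel) (cast_ne Nat.prime_three (h3 rfl))
      (hE.le_reflect hM (by decide +kernel) (by decide +kernel) a)
      (hE.le_reflect hM (by decide +kernel) (by decide +kernel) a)
    exact hE.group_le hM (L := [0, 1]) (by simp [a, b]) 0 (by decide +kernel)
  · have a := hE.le_of_iterate hM h1 0 0 (by clear h1; revert i; decide +kernel)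
    have b := hE.le_of_commTerms (r := chevB2.reflectRoot 0 (chevB2.simple 0))
      (s := chevB2.reflectRoot 1 (chevB2.simple 0)) (k := chevB2.simple 1) (by decide +kernel)
      (by decide +kernel) (by decide +kernel) (by decide +kernel) (by decide +kernel)
      (by decide +kernel) (cast_ne Nat.prime_two (h2 (by simp)))
      (hE.le_reflect hM (by decide +kernel) (by decide +kernel) a)
      (hE.le_reflect hM (by decide +kernel) (by decide +kernel) a)
    exact hE.group_le hM (L := [0, 1]) (by simp [a, b]) 0 (by decide +kernel)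
  · exact hE.group_le hM h1 2 (by clear h1 hshort; revert i; decide +kernel)
  · have a := hE.le_of_iterate hM h1 1 1 (by clear h1; revert i; decide +kernel)
    have b := hE.le_of_commTerms (r := chevF4.reflectRoot 1 (chevF4.simple 1))
      (s := chevF4.reflectRoot 2 (chevF4.simple 1)) (k := chevF4.simple 2) (by decide +kernel)
      (by decide +kernel) (by decide +kernel) (by decide +kernel) (by decide +kernel)
      (by decide +kernel) (cast_ne Nat.prime_two (h2 (by simp)))
      (hE.le_reflect hM (by decide +kernel) (by decide +kernel) a)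
      (hE.le_reflect hM (by decide +kernel) (by decide +kernel) a)
    exact hE.group_le hM (L := [1, 2]) (by simp [a, b]) 1 (by decide +kernel)
  · exact hE.group_le hM h1 4 (by clear h1 hshort; revert i; decide +kernel)
  · exact hE.group_le hM h1 5 (by clear h1 hshort; revert i; decide +kernel)
  · exact hE.group_le hM h1 6 (by clear h1 hshort; revert i; decide +kernel)

end Cfsg.Agent.S2416
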