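import Cfsg.Statements.S2417
import Cfsg.Agent.Lib.Chev.GenN

set_option autoImplicit false
open scoped MatrixGroups
open Cfsg

namespace Cfsg.Agent.S2417

open H38 Cfsg.Lie

lemma aux {K : Type*} [Field K] {D : ChevalleyDatum}
    (hD : D ∈ [chevG2, chevB2, chevD4, chevF4, chevE6, chevE7, chevE8])
    (h : ∀ i < D.rank, ∀ j < D.rank, D.isLong (D.simple i) = false → D.isLong (D.simple j) = true →
      (bondStep D)^[1] [i, j] = List.range D.rank) {i j : ℕ} (hi : i < D.rank) (hj : j < D.rank)
    (h1 : D.isLong (D.simple i) = false) (h2 : D.isLong (D.simple j) = true) :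
    D.group K ≤ D.monomialSubgroup K ⊔ D.rootSubgroup K (D.simple i) ⊔
      D.rootSubgroup K (D.simple j) := by
  obtain ⟨R, E, hE⟩ := exists_isMat hD K
  refine hE.group_le (le_sup_left.trans le_sup_left) ?_ 1 (h i hi j hj h1 h2)
  simp only [List.mem_cons, List.not_mem_nil, or_false, forall_eq_or_imp, forall_eq]
  exact ⟨le_sup_right.trans le_sup_left, le_sup_right⟩

/-- In the characteristics with an exceptional graph symmetry — type B₂ or F₄ in characteristic 2 (field of more than two elements for B₂) and type G₂ in characteristic 3 — the Chevalley group lies in the subgroup generated by its monomial subgroup `N` and the two fundamental root subgroups `X_a`, `X_b` of a short root `a` and a long root `b` joined in the Dynkin diagram. -/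
theorem result {K : Type*} [Field K] [Finite K] (e : Cfsg.Lie.ChevalleyDatum × ℕ)
    (he : e ∈ [(Cfsg.Lie.chevB2, 2), (Cfsg.Lie.chevF4, 2), (Cfsg.Lie.chevG2, 3)]) [CharP K e.2]
    (hK : e.1 = Cfsg.Lie.chevB2 → ∃ x : K, x ≠ 0 ∧ x ≠ 1)
    (i j : ℕ) (hi : i < e.1.rank) (hj : j < e.1.rank) (hshort : e.1.isLong (e.1.simple i) = false)
    (hlong : e.1.isLong (e.1.simple j) = true) (hbond : e.1.bonds i j ≠ 0) :
    e.1.group K ≤ e.1.monomialSubgroup K ⊔ e.1.rootSubgroup K (e.1.simple i) ⊔ e.1.rootSubgroup K (e.1.simple j) := by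
  simp only [List.mem_cons, List.not_mem_nil, or_false] at he
  rcases he with rfl | rfl | rfl <;> exact aux (by simp) (by decide +kernel) hi hj hshort hlong

end Cfsg.Agent.S2417
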