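import Cfsg.Statements.S2418
import Mathlib
import Cfsg.Agent.Base
import Cfsg.Agent.Lib.Lang.CoxGen

set_option autoImplicit false
open Cfsg

namespace Cfsg.Agent.S2418


/-- For the Coxeter groups of types B₂, G₂, D₄, F₄, E₇, E₈ the centre has order 2 (the element acting as −1 on the root system) and is generated by a power of the Coxeter element `s₁ s₂ ⋯ s_l`; the Coxeter group of type E₆ has trivial centre. -/
theorem result (c : (Σ n : ℕ, CoxeterMatrix (Fin n)) × ℕ)
    (hc : c ∈ [(⟨2, CoxeterMatrix.B 2⟩, 2), (⟨2, CoxeterMatrix.G₂⟩, 2), (⟨4, Cfsg.Lie.coxeterD4⟩, 2), (⟨4, CoxeterMatrix.F₄⟩, 2),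
      (⟨6, CoxeterMatrix.E₆⟩, 1), (⟨7, CoxeterMatrix.E₇⟩, 2), (⟨8, CoxeterMatrix.E₈⟩, 2)]) :
    Nat.card (Subgroup.center c.1.2.Group) = c.2 ∧
      Subgroup.center c.1.2.Group ≤ Subgroup.zpowers ((List.finRange c.1.1).map c.1.2.simple).prod := by
  simp only [List.mem_cons, List.not_mem_nil, or_false] at hc
  rcases hc with rfl | rfl | rfl | rfl | rfl | rfl | rfl
  · exact H37.CG.center_two H39.alB2_len H39.alB2_rows H39.cartanB2 0 [(0, 1)] (by decide +kernel) 2
      (by decide +kernel) (by decide +kernel)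
  · exact H37.CG.center_two H39.alG2_len H39.alG2_rows H39.cartanG2 0 [(0, 1)] (by decide +kernel) 3
      (by decide +kernel) (by decide +kernel)
  · exact H37.CG.center_two H39.alD4_len H39.alD4_rows H39.cartanD4 0 [(0, 1), (1, 2), (1, 3)]
      (by decide +kernel) 3 (by decide +kernel) (by decide +kernel)
  · exact H37.CG.center_two H39.alF4_len H39.alF4_rows H39.cartanF4 0 [(0, 1), (1, 2), (2, 3)]
      (by decide +kernel) 6 (by decide +kernel) (by decide +kernel)
  · exact H37.CG.center_one H39.alE6_len H39.alE6_rows H39.cartanE6 0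
      [(0, 2), (2, 3), (3, 1), (3, 4), (4, 5)] (by decide +kernel)
      [0, 2, 3, 4, 5, 1, 3, 4, 2, 3, 0, 2, 1, 3, 4, 5, 1, 3, 4, 2, 3, 0, 2, 1, 3, 4, 2, 3, 0, 2, 1,
        3, 0, 2, 1, 0] (by decide +kernel) 0 (by decide +kernel)
  · exact H37.CG.center_two H39.alE7_len H39.alE7_rows H39.cartanE7 0
      [(0, 2), (2, 3), (3, 1), (3, 4), (4, 5), (5, 6)]
      (by decide +kernel) 9 (by decide +kernel) (by decide +kernel)
  · exact H37.CG.center_two H39.alE8_len H39.alE8_rows H39.cartanE8 0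
      [(0, 2), (2, 3), (3, 1), (3, 4), (4, 5), (5, 6), (6, 7)]
      (by decide +kernel) 15 (by decide +kernel) (by decide +kernel)

end Cfsg.Agent.S2418
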