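import Cfsg.Statements.S2425
import Cfsg.Agent.Lib.MatConj.Mob
import Cfsg.Agent.Lib.GLChar.Unip

set_option autoImplicit false
open scoped MatrixGroups
open Cfsg

namespace Cfsg.Agent.S2425

open Finset Matrix Module Polynomial H64.GC H65.St

theorem exists_indep {F V : Type*} [Field F] [AddCommGroup V] [Module F V] [FiniteDimensional F V]
    {m : ℕ} (C : Fin m → Submodule F V) (h : ∀ i : Fin m, i < finrank F (C i)) :
    ∃ b : Fin m → V, LinearIndependent F b ∧ ∀ i, b i ∈ C i := by
  induction m with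
  | zero => exact ⟨Fin.elim0, linearIndependent_empty_type, fun i => i.elim0⟩
  | succ m ih =>
    obtain ⟨b, h1, h2⟩ := ih (fun i => C i.castSucc) fun i => h i.castSucc
    obtain ⟨v, h3, h4⟩ := SetLike.not_le_iff_exists.1 fun e : C (.last m) ≤ .span F (Set.range b) =>
      (h (.last m)).not_ge ((Submodule.finrank_mono e).trans_eq
        ((finrank_span_eq_card h1).trans (Fintype.card_fin m)))
    refine ⟨Fin.snoc b v, linearIndependent_finSnoc.2 ⟨h1, h4⟩, fun i => ?_⟩
    cases i using Fin.lastCases <;> simp [*]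

variable {F : Type*} [Field F] {n : ℕ} (μ : Fin n → ℕ)

/-- the standard descending flag of row vectors -/
def T (j : Fin n) : Submodule F (Fin n → F) where
  carrier := {v | ∀ i, compLabel μ i ≤ j → v i = 0}
  add_mem' ha hb i h := by rw [Pi.add_apply, ha i h, hb i h, add_zero]
  zero_mem' _ _ := rfl
  smul_mem' c v hv i h := by rw [Pi.smul_apply, hv i h, smul_zero]

/-- the flag attached to an invertible matrix -/
def fl (g : GL (Fin n) F) (j : Fin n) : Submodule F (Fin n → F) := (T μ j).comap g.1.vecMulLinear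

variable {μ} (hμ : ∑ i, μ i = n)
include hμ

theorem mem_par {g : GL (Fin n) F} :
    g ∈ parabolicGL n F μ ↔ ∀ j, ∀ v ∈ T μ j, v ᵥ* g.1 ∈ T μ j := by
  refine ⟨fun h j v hv k hk => ?_, fun h i k e => ?_⟩
  · refine sum_eq_zero (s := univ) (f := fun i => v i * g.1 i k) fun i _ => ?_
    by_cases e : compLabel μ i ≤ j
    · rw [hv i e, zero_mul]
    · exact mul_eq_zero_of_right _ (h (hk.trans_lt (not_le.1 e)))
  · simpa using h (lab hμ k) (Pi.single i 1) (fun l hl => Pi.single_eq_of_ne
      (fun a => (a ▸ e).not_ge hl) _) k le_rfl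

theorem finrank_fl (g : GL (Fin n) F) (j : Fin n) :
    finrank F (fl μ g j) + ∑ k with k ≤ j, μ k = n := by
  let f := LinearMap.funLeft F F (Subtype.val : {i // compLabel μ i ≤ j} → Fin n)
  have h1 : T μ j = LinearMap.ker f := by
    ext v
    exact ⟨fun h => funext fun i => h i.1 i.2, fun h i hi => congrFun h ⟨i, hi⟩⟩
  have h2 := f.finrank_range_add_finrank_ker
  rw [LinearMap.range_eq_top.2 (LinearMap.funLeft_surjective_of_injective F F _
    Subtype.val_injective), finrank_top, finrank_fintype_fun_eq_card, finrank_fin_fun,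
    Fintype.card_subtype, card_eq_sum_card_fiberwise (f := lab hμ) (t := univ.filter (· ≤ j))
      (s := univ.filter fun i => compLabel μ i ≤ j)
      fun i hi => mem_filter.2 ⟨mem_univ _, (mem_filter.1 hi).2⟩, ← h1, add_comm] at h2
  refine Eq.trans (congrArg₂ _ (LinearEquiv.ofSubmodule'
    (toLinearEquivRight'OfInv g.inv_mul g.mul_inv) _).finrank_eq
    (sum_congr rfl fun a ha => ?_)) h2
  rw [← card_lab hμ, filter_filter]
  exact congrArg _ (filter_congr fun i _ =>
    ⟨fun h => ⟨(h.trans_le (mem_filter.1 ha).2 : lab hμ i ≤ j), h⟩, fun h => h.2⟩)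

theorem fl_le_iff {g h : GL (Fin n) F} :
    (∀ j, fl μ g j ≤ fl μ h j) ↔ g⁻¹ * h ∈ parabolicGL n F μ := by
  rw [mem_par hμ]
  refine forall_congr' fun j => ⟨fun e v hv => ?_, fun e v hv => ?_⟩
  · simpa [fl] using e (x := v ᵥ* (g⁻¹).1) (by simpa [fl] using hv)
  · simpa [fl] using e _ hv

theorem exists_fl (c : Fin n → Submodule F (Fin n → F)) (h1 : ∀ i j, i ≤ j → c j ≤ c i)
    (h2 : ∀ j, finrank F (c j) + ∑ k with k ≤ j, μ k = n) : ∃ g, fl μ g = c := by
  obtain ⟨b, h3, h4⟩ := exists_indep (fun i : Fin n => ⨅ j : Fin n, ⨅ _ : j < compLabel μ i.rev, c j)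
    fun i => by
      rcases h : compLabel μ i.rev with _ | l
      · rw [show (⨅ j : Fin n, ⨅ _ : (j : ℕ) < 0, c j) = ⊤ by simp]
        simp
      have h3 : l < n := by have := compLabel_lt hμ i.rev; omega
      have h4 := (lt_compLabel μ i.rev ⟨l, h3⟩).1 (by simp [h])
      have h5 := h2 ⟨l, h3⟩
      refine lt_of_lt_of_le ?_ (Submodule.finrank_mono (s := c ⟨l, h3⟩)
        (le_iInf₂ fun j hj => h1 _ _ (Nat.le_of_lt_succ hj)))
      rw [Fin.val_rev] at h4
      omega
  obtain ⟨g, hg⟩ := (linearIndependent_rows_iff_isUnit (A := of fun i => b i.rev)).1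
    (h3.comp _ Fin.rev_injective)
  refine ⟨g⁻¹, funext fun j => Submodule.eq_of_le_of_finrank_eq (fun v hv => ?_)
    (by have := h2 j; have := finrank_fl hμ g⁻¹ j; omega)⟩
  rw [show v = v ᵥ* (g⁻¹).1 ᵥ* g.1 by simp, vecMul_eq_sum, hg]
  refine Submodule.sum_mem _ fun i _ => ?_
  by_cases e : compLabel μ i ≤ j
  · rw [show (v ᵥ* (g⁻¹).1) i = 0 from hv i e, zero_smul]
    exact zero_mem _
  · exact Submodule.smul_mem _ _ ((Submodule.mem_iInf _).1 ((Submodule.mem_iInf _).1
      (h4 i.rev) j) (by rw [Fin.rev_rev]; omega))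

theorem fixed_eq (x : GL (Fin n) F) : fixedPointCharacter (parabolicGL n F μ) x =
    Fl (fun U : (Algebra.lsmul F F (Fin n → F) x.1.vecMulLinear).invtSubmodule => finrank F U.1)
      μ ⊤ := by
  have h0 := (finrank_top F (Fin n → F)).trans (finrank_fin_fun F)
  have h1 : ∀ g : GL (Fin n) F, (g : _ ⧸ parabolicGL n F μ) ∈ MulAction.fixedBy _ x ↔
      ∀ j, fl μ g j ∈ (Algebra.lsmul F F (Fin n → F) x.1.vecMulLinear).invtSubmodule := fun g => by
    rw [MulAction.mem_fixedBy, eq_comm, MulAction.Quotient.smul_coe, QuotientGroup.eq,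
      ← fl_le_iff hμ]
    refine forall_congr' fun j => forall_congr' fun v => ?_
    simp [fl]
  refine congrArg _ (Nat.card_eq_of_bijective (fun q => ⟨fun j => ⟨fl μ q.1.out j,
    (h1 _).1 (by rw [QuotientGroup.out_eq']; exact q.2) j⟩, fun i j e v hv k hk => hv k (hk.trans e),
    fun _ => le_top, fun j => (finrank_fl hμ _ j).trans h0.symm⟩) ⟨fun q r e => ?_, fun c => ?_⟩)
  · rw [Subtype.ext_iff, ← q.1.out_eq', ← r.1.out_eq', QuotientGroup.eq, ← fl_le_iff hμ]
    exact fun j => (congrArg (fun c => (c.1 j).1) e).le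
  · obtain ⟨g, hg⟩ := exists_fl hμ (fun j => (c.1 j).1) c.2.1 fun j => (c.2.2.2 j).trans h0
    refine ⟨⟨g, (h1 g).2 fun j => hg ▸ (c.1 j).2⟩, Subtype.ext (funext fun j => Subtype.ext ?_)⟩
    have h2 := QuotientGroup.eq.1 (g : _ ⧸ parabolicGL n F μ).out_eq'
    exact (le_antisymm ((fl_le_iff hμ).2 h2 j)
      ((fl_le_iff hμ).2 (by simpa using inv_mem h2) j)).trans (congrFun hg j)

omit hμ


/-- Values of the Steinberg character of `GL_n(q)` (the partition-indexed character for `ν = (1,…,1)`, of degree `q^(n(n−1)/2)`) at elements of order prime to the characteristic: if the characteristic polynomial of such an element is `∏ f^(m_f)` over distinct monic irreducible `f`, the value is `∏_f (−1)^((deg f − 1) m_f) q^(deg f · m_f (m_f − 1)/2)`. (At elements of order divisible by the characteristic the value is 0; that is not part of this statement.) -/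
theorem result {F : Type*} [Field F] [Fintype F] [DecidableEq F] {q : ℕ} (hq : Fintype.card F = q) (p : ℕ) [Fact p.Prime] [CharP F p]
    {n : ℕ} (x : GL (Fin n) F) (hx : (orderOf x).Coprime p) :
    Cfsg.unipotentCharacterGL n F (fun _ => 1) x =
      ∏ f ∈ (UniqueFactorizationMonoid.normalizedFactors (x : Matrix (Fin n) (Fin n) F).charpoly).toFinset,
        (-1 : ℂ) ^ ((f.natDegree - 1) * (UniqueFactorizationMonoid.normalizedFactors (x : Matrix (Fin n) (Fin n) F).charpoly).count f) *
          (q : ℂ) ^ (f.natDegree * (UniqueFactorizationMonoid.normalizedFactors (x : Matrix (Fin n) (Fin n) F).charpoly).count f *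
            ((UniqueFactorizationMonoid.normalizedFactors (x : Matrix (Fin n) (Fin n) F).charpoly).count f - 1) / 2) := by
  classical
  subst hq
  let φ : End F (Fin n → F) := x.1.vecMulLinear
  have hφ : φ = toLin' x.1ᵀ := LinearMap.ext fun v => (mulVec_transpose x.1 v).symm
  have hs : φ.IsSemisimple := End.isSemisimple_of_squarefree_aeval_eq_zero
    (p := X ^ orderOf x - C 1) (separable_X_pow_sub_C 1 (fun e => ((Fact.out : p.Prime).coprime_iff_not_dvd.1
      hx.symm) ((CharP.cast_eq_zero_iff F p _).1 e)) one_ne_zero).squarefree (by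
      rw [map_sub, map_pow, aeval_X, aeval_C, map_one, hφ, ← toLin'_pow, ← transpose_pow,
        ← Units.val_pow_eq_pow_val, pow_orderOf_eq_one, Units.val_one, transpose_one, toLin'_one]
      exact sub_self _)
  have : IsSemisimpleModule F[X] (AEval' φ) := hs
  have : Finite (AEval' φ) := .of_equiv _ (AEval'.of φ).toEquiv
  have := Fintype.ofFinite (Submodule F[X] (AEval' φ))
  let e := AEval.mapSubmodule F (Fin n → F) φ
  have := Fintype.ofEquiv _ e.toEquiv.symm
  have h1 := E_eq (fun U : (Algebra.lsmul F F (Fin n → F) φ).invtSubmodule => finrank F U.1)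
    (fun U W h => Submodule.finrank_lt_finrank_of_lt h) (finrank_bot F _)
    (fun U => Phi (chi F (e U))) (by rw [e.map_bot, chi_one]; simp [Phi, psi]) (fun W hW => by
      rw [← sum_le (F := F) (e W) fun h => hW (e.injective (h.trans e.map_bot.symm))]
      exact sum_equiv e.toEquiv (by simp) fun _ _ => rfl) n ⊤
      ((finrank_top F (Fin n → F)).trans (finrank_fin_fun F))
  have h2 : chi F (AEval' φ) = x.1.charpoly := by
    rw [← charpoly_transpose, ← charpoly_toLin', ← hφ, ← (AEval'.of φ).charpoly_conj, chi]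
    congr 1
    exact LinearMap.ext fun v => AEval'.X_smul_of φ v
  rw [e.map_top, chi_congr Submodule.topEquiv, h2, Phi, charpoly_natDegree_eq_dim, Fintype.card_fin,
    ← mul_assoc, ← mul_pow, neg_one_mul, neg_neg, one_pow, one_mul] at h1
  refine Eq.trans (sum_congr rfl fun κ _ => ?_) h1
  split_ifs with h
  · simp only [ite_self, add_zero]
    rw [fixed_eq (sum_sub_eq (by simp) h)]
  · rfl

end Cfsg.Agent.S2425
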