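import Cfsg.Statements.S2428
import Cfsg.Agent.Lib.SL2Elt.Order
-- import your own Cfsg.Agent.* helpers here

set_option autoImplicit false
open Cfsg

namespace Cfsg.Agent.S2428

/-- Let F be a finite field with q elements, q odd, and let d be a diagonal element of SL₂ over F whose diagonal entry a has a² ≠ 1 (such d exist exactly when q > 3). Then the centraliser of d is precisely the diagonal subgroup T; the normaliser of T has order 2(q − 1) and exactly (q + 5)/2 conjugacy classes; and every element of that normaliser outside T has square equal to −1. -/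
theorem result {F : Type*} [Field F] [Fintype F] (hodd : Odd (Fintype.card F))
    (d : Matrix.SpecialLinearGroup (Fin 2) F) (hd01 : (d : Matrix (Fin 2) (Fin 2) F) 0 1 = 0) (hd10 : (d : Matrix (Fin 2) (Fin 2) F) 1 0 = 0) (hda : (d : Matrix (Fin 2) (Fin 2) F) 0 0 ^ 2 ≠ 1) :
    (∀ g : Matrix.SpecialLinearGroup (Fin 2) F, g ∈ Subgroup.centralizer ({d} : Set (Matrix.SpecialLinearGroup (Fin 2) F)) ↔ ((g : Matrix (Fin 2) (Fin 2) F) 0 1 = 0 ∧ (g : Matrix (Fin 2) (Fin 2) F) 1 0 = 0)) ∧
    Nat.card (Subgroup.normalizer ((Subgroup.centralizer ({d} : Set (Matrix.SpecialLinearGroup (Fin 2) F))) : Set (Matrix.SpecialLinearGroup (Fin 2) F))) = 2 * (Fintype.card F - 1) ∧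
    Nat.card (ConjClasses (Subgroup.normalizer ((Subgroup.centralizer ({d} : Set (Matrix.SpecialLinearGroup (Fin 2) F))) : Set (Matrix.SpecialLinearGroup (Fin 2) F)))) = (Fintype.card F + 5) / 2 ∧
    ∀ g : Matrix.SpecialLinearGroup (Fin 2) F, g ∈ Subgroup.normalizer ((Subgroup.centralizer ({d} : Set (Matrix.SpecialLinearGroup (Fin 2) F))) : Set (Matrix.SpecialLinearGroup (Fin 2) F)) →
      g ∉ Subgroup.centralizer ({d} : Set (Matrix.SpecialLinearGroup (Fin 2) F)) → ((g * g) : Matrix (Fin 2) (Fin 2) F) = -1 := by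
  have h2 := H64.SL2.two_ne_zero_of_odd hodd
  have ht := H64.SL2.tr_sq_ne_four_of_diag hd10 hda
  have hc := H64.SL2.card_centralizer_of_split ht (H64.SL2.split_of_10_eq_zero hd10)
  rw [Nat.card_eq_fintype_card (α := F)] at hc
  refine ⟨fun g => ?_, ?_, ?_, fun g h1 h3 => ?_⟩
  · rw [H64.SL2.centralizer_diag hd01 hd10 hda, H64.SL2.mem_range_diagHom]
  · rw [H64.SL2.card_normalizer_centralizer ht, hc]
  · have := H64.SL2.two_mul_card_conjClasses_normalizer h2 ht
    rw [hc] at this
    have h1 : 1 < Fintype.card F := Fintype.one_lt_card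
    omega
  · exact congrArg Subtype.val (H64.SL2.mul_self_eq_neg_one_of_mem_normalizer ht h1 h3)

end Cfsg.Agent.S2428
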