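import Cfsg.Statements.S2429
import Cfsg.Agent.Lib.SL2Elt.Nonsplit
-- import your own Cfsg.Agent.* helpers here

set_option autoImplicit false
open Cfsg

namespace Cfsg.Agent.S2429

/-- Let F be a finite field with q elements, q odd. Then SL₂ over F contains a cyclic subgroup T′ of order q + 1 (a non-split torus) with the following properties: T′ is its own centraliser, and indeed the centraliser of each element of T′ other than 1 and −1 is exactly T′; every element of SL₂ having no eigenvector in F² is conjugate to an element of T′; the normaliser of T′ has order 2(q + 1) and exactly (q + 7)/2 conjugacy classes; and every element of that normaliser outside T′ has square −1. -/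
theorem result {F : Type*} [Field F] [Fintype F] (hodd : Odd (Fintype.card F)) :
    ∃ T' : Subgroup (Matrix.SpecialLinearGroup (Fin 2) F), IsCyclic T' ∧ Nat.card T' = Fintype.card F + 1 ∧
      Subgroup.centralizer ((T' : Set (Matrix.SpecialLinearGroup (Fin 2) F))) = T' ∧
      (∀ g : Matrix.SpecialLinearGroup (Fin 2) F, g ∈ T' → (g : Matrix (Fin 2) (Fin 2) F) ≠ 1 → (g : Matrix (Fin 2) (Fin 2) F) ≠ -1 → Subgroup.centralizer ({g} : Set (Matrix.SpecialLinearGroup (Fin 2) F)) = T') ∧
      (∀ g : Matrix.SpecialLinearGroup (Fin 2) F, (∀ (c : F) (v : Fin 2 → F), v ≠ 0 → (g : Matrix (Fin 2) (Fin 2) F).mulVec v ≠ c • v) → ∃ h : Matrix.SpecialLinearGroup (Fin 2) F, h * g * h⁻¹ ∈ T') ∧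
      Nat.card (Subgroup.normalizer (T' : Set (Matrix.SpecialLinearGroup (Fin 2) F))) = 2 * (Fintype.card F + 1) ∧
      Nat.card (ConjClasses (Subgroup.normalizer (T' : Set (Matrix.SpecialLinearGroup (Fin 2) F)))) = (Fintype.card F + 7) / 2 ∧
      ∀ g : Matrix.SpecialLinearGroup (Fin 2) F, g ∈ Subgroup.normalizer (T' : Set (Matrix.SpecialLinearGroup (Fin 2) F)) → g ∉ T' → ((g * g) : Matrix (Fin 2) (Fin 2) F) = -1 := by
  classical
  have h2 := H64.SL2.two_ne_zero_of_odd hodd
  obtain ⟨g0, hg0⟩ := H64.SL2.exists_not_split (F := F)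
  have ht := H64.SL2.tr_sq_ne_four_of_not_split hg0
  have hz := H64.SL2.not_mem_center_of_tr ht
  have hc := H64.SL2.card_centralizer_of_not_split hg0
  have hcyc := H64.SL2.isCyclic_centralizer ht
  rw [Nat.card_eq_fintype_card (α := F)] at hc
  refine ⟨Subgroup.centralizer {g0}, hcyc, hc, H64.SL2.centralizer_centralizer hz, ?_, ?_, ?_, ?_,
    fun g h1 h3 => ?_⟩
  · intro g hg h1 h3
    refine H64.SL2.centralizer_eq_of_mem hz hg fun h => ?_
    rcases H64.SL2.mem_center_iff'.1 h with h | h
    · exact h1 (congrArg Subtype.val h)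
    · exact h3 (congrArg Subtype.val h)
  · intro g hg
    have hs := H64.SL2.not_split_iff_no_eigenvector.2 hg
    have htg := H64.SL2.tr_sq_ne_four_of_not_split hs
    -- both centralisers are cyclic of order `q + 1`; compare traces by counting
    suffices h : ∃ t ∈ Subgroup.centralizer ({g0} : Set (Matrix.SpecialLinearGroup (Fin 2) F)),
        H64.SL2.tr t = H64.SL2.tr g by
      obtain ⟨t, h1, h3⟩ := h
      obtain ⟨c, hc⟩ := isConj_iff.1 (H64.SL2.isConj_of_tr_eq htg h3.symm)
      exact ⟨c, hc ▸ h1⟩
    exact H64.SL2.exists_mem_centralizer_tr_eq hg0 hs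
  · rw [H64.SL2.card_normalizer_centralizer ht, hc]
  · have := H64.SL2.two_mul_card_conjClasses_normalizer h2 ht
    rw [hc] at this
    omega
  · exact congrArg Subtype.val (H64.SL2.mul_self_eq_neg_one_of_mem_normalizer ht h1 h3)

end Cfsg.Agent.S2429
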