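import Cfsg.Statements.S2430
import Cfsg.Agent.Lib.SL2Elt.Sylow
-- import your own Cfsg.Agent.* helpers here

set_option autoImplicit false
open Cfsg

namespace Cfsg.Agent.S2430

/-- Let F be a finite field with q elements, q odd, ℓ an odd prime, and P a Sylow ℓ-subgroup of SL₂ over F. If ℓ divides q − 1, the centraliser of P is cyclic of order q − 1 (a split torus) and the normaliser of P has order 2(q − 1); if ℓ divides q + 1, the centraliser of P is cyclic of order q + 1 (a non-split torus) and the normaliser of P has order 2(q + 1). -/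
theorem result {F : Type*} [Field F] [Fintype F] (hodd : Odd (Fintype.card F)) (ℓ : ℕ) [Fact ℓ.Prime] (hℓ : ℓ ≠ 2)
    (P : Sylow ℓ (Matrix.SpecialLinearGroup (Fin 2) F)) :
    (ℓ ∣ Fintype.card F - 1 →
      Nat.card (Subgroup.centralizer ((P : Subgroup (Matrix.SpecialLinearGroup (Fin 2) F)) : Set (Matrix.SpecialLinearGroup (Fin 2) F))) = Fintype.card F - 1 ∧
      IsCyclic (Subgroup.centralizer ((P : Subgroup (Matrix.SpecialLinearGroup (Fin 2) F)) : Set (Matrix.SpecialLinearGroup (Fin 2) F))) ∧
      Nat.card (Subgroup.normalizer ((P : Subgroup (Matrix.SpecialLinearGroup (Fin 2) F)) : Set (Matrix.SpecialLinearGroup (Fin 2) F))) = 2 * (Fintype.card F - 1)) ∧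
    (ℓ ∣ Fintype.card F + 1 →
      Nat.card (Subgroup.centralizer ((P : Subgroup (Matrix.SpecialLinearGroup (Fin 2) F)) : Set (Matrix.SpecialLinearGroup (Fin 2) F))) = Fintype.card F + 1 ∧
      IsCyclic (Subgroup.centralizer ((P : Subgroup (Matrix.SpecialLinearGroup (Fin 2) F)) : Set (Matrix.SpecialLinearGroup (Fin 2) F))) ∧
      Nat.card (Subgroup.normalizer ((P : Subgroup (Matrix.SpecialLinearGroup (Fin 2) F)) : Set (Matrix.SpecialLinearGroup (Fin 2) F))) = 2 * (Fintype.card F + 1)) := by
  have hl : ℓ.Prime := Fact.out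
  have h1 : 1 < Fintype.card F := Fintype.one_lt_card
  obtain ⟨a, ha⟩ := H64.SL2.exists_orderOf_eq_card_sub_one (F := F)
  obtain ⟨b, hb⟩ := H64.SL2.exists_orderOf_eq_card_add_one (F := F)
  rw [Nat.card_eq_fintype_card] at ha hb
  have hboth : ℓ ∣ Fintype.card F - 1 → ℓ ∣ Fintype.card F + 1 → False := by
    intro h2 h3
    have h4 := Nat.dvd_sub h3 h2
    rw [show Fintype.card F + 1 - (Fintype.card F - 1) = 2 by omega] at h4
    exact hℓ ((Nat.prime_dvd_prime_iff_eq hl Nat.prime_two).1 h4)
  have hord : ∀ g : Matrix.SpecialLinearGroup (Fin 2) F, orderOf g ∣ Nat.card (Subgroup.centralizer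
      ({g} : Set (Matrix.SpecialLinearGroup (Fin 2) F))) :=
    fun g => orderOf_dvd_of_pow_eq_one (H64.SL2.pow_card_centralizer g)
  constructor
  · intro h
    have hq : ¬ ℓ ∣ Fintype.card F := by
      intro h2
      have h4 := Nat.dvd_sub h2 h
      rw [Nat.sub_sub_self (by omega)] at h4
      exact hl.one_lt.ne' (Nat.dvd_one.1 h4)
    obtain ⟨g, hgP, ht, hg, hle⟩ := H64.SL2.exists_sylow_le_torus hℓ hq P
      ((ha ▸ h).trans (orderOf_dvd_natCard a))
    have hz := H64.SL2.not_mem_center_of_tr ht
    have hs : H64.SL2.Split g := by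
      by_contra hs
      have := hord g
      rw [hg, H64.SL2.card_centralizer_of_not_split hs, Nat.card_eq_fintype_card] at this
      exact hboth h this
    have hc := H64.SL2.card_centralizer_of_split ht hs
    rw [Nat.card_eq_fintype_card (α := F)] at hc
    rw [H64.SL2.centralizer_eq_of_le hz hle hgP, H64.SL2.normalizer_eq_of_le ht hle hgP,
      H64.SL2.card_normalizer_centralizer ht, hc]
    exact ⟨rfl, H64.SL2.isCyclic_centralizer ht, rfl⟩
  · intro h
    have hq : ¬ ℓ ∣ Fintype.card F := fun h2 =>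
      hl.one_lt.ne' (Nat.dvd_one.1 ((Nat.dvd_add_right h2).1 h))
    obtain ⟨g, hgP, ht, hg, hle⟩ := H64.SL2.exists_sylow_le_torus hℓ hq P
      ((hb ▸ h).trans (orderOf_dvd_natCard b))
    have hz := H64.SL2.not_mem_center_of_tr ht
    have hs : ¬ H64.SL2.Split g := by
      intro hs
      have := hord g
      rw [hg, H64.SL2.card_centralizer_of_split ht hs, Nat.card_eq_fintype_card] at this
      exact hboth this h
    have hc := H64.SL2.card_centralizer_of_not_split hs
    rw [Nat.card_eq_fintype_card (α := F)] at hc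
    rw [H64.SL2.centralizer_eq_of_le hz hle hgP, H64.SL2.normalizer_eq_of_le ht hle hgP,
      H64.SL2.card_normalizer_centralizer ht, hc]
    exact ⟨rfl, H64.SL2.isCyclic_centralizer ht, rfl⟩

end Cfsg.Agent.S2430
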