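import Cfsg.Statements.S2431
import Cfsg.Agent.Lib.SL2Elt.Sylow
-- import your own Cfsg.Agent.* helpers here

set_option autoImplicit false
open Cfsg

namespace Cfsg.Agent.S2431

/-- Let F be a finite field with q elements, q odd, and S a Sylow 2-subgroup of SL₂ over F. The centraliser of S is the centre of SL₂ (of order 2); S is its own normaliser when q ≡ ±1 mod 8, and has index 3 in its normaliser when q ≡ ±3 mod 8. -/
theorem result {F : Type*} [Field F] [Fintype F] (hodd : Odd (Fintype.card F)) (S : Sylow 2 (Matrix.SpecialLinearGroup (Fin 2) F)) :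
    Subgroup.centralizer ((S : Subgroup (Matrix.SpecialLinearGroup (Fin 2) F)) : Set (Matrix.SpecialLinearGroup (Fin 2) F)) = Subgroup.center (Matrix.SpecialLinearGroup (Fin 2) F) ∧
    ((Fintype.card F % 8 = 1 ∨ Fintype.card F % 8 = 7) →
      Subgroup.normalizer ((S : Subgroup (Matrix.SpecialLinearGroup (Fin 2) F)) : Set (Matrix.SpecialLinearGroup (Fin 2) F)) = (S : Subgroup (Matrix.SpecialLinearGroup (Fin 2) F))) ∧
    ((Fintype.card F % 8 = 3 ∨ Fintype.card F % 8 = 5) →
      Nat.card (Subgroup.normalizer ((S : Subgroup (Matrix.SpecialLinearGroup (Fin 2) F)) : Set (Matrix.SpecialLinearGroup (Fin 2) F))) = 3 * Nat.card S) := by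
  have h2 := H64.SL2.two_ne_zero_of_odd hodd
  obtain ⟨g, hgS, w, hwS, ht0, ht, hwi, hwT, hSN, hT, hN⟩ := H64.SL2.exists_sylow_two_data h2 S
  have hz := H64.SL2.not_mem_center_of_tr ht
  have hg2 := H64.SL2.mul_self_eq_neg_one_of_tr ht0
  have hneg := H64.SL2.neg_one_ne_one h2
  have hq1 : 1 < Fintype.card F := Fintype.one_lt_card
  have hcard : Nat.card (Subgroup.centralizer ({g} : Set (Matrix.SpecialLinearGroup (Fin 2) F))) =
      Fintype.card F - 1 ∨ Nat.card (Subgroup.centralizer
        ({g} : Set (Matrix.SpecialLinearGroup (Fin 2) F))) = Fintype.card F + 1 := by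
    rw [← Nat.card_eq_fintype_card]
    by_cases hs : H64.SL2.Split g
    · exact Or.inl (H64.SL2.card_centralizer_of_split ht hs)
    · exact Or.inr (H64.SL2.card_centralizer_of_not_split hs)
  have h4 : 4 ∣ Nat.card (Subgroup.centralizer
      ({g} : Set (Matrix.SpecialLinearGroup (Fin 2) F))) := by
    have : orderOf g = 2 ^ 2 := by
      apply orderOf_eq_prime_pow (n := 1)
      · rw [pow_one, pow_two, hg2]; exact hneg
      · rw [show 2 ^ (1 + 1) = 2 * 2 from rfl, pow_mul, pow_two g, hg2]; simp
    have h := orderOf_dvd_of_pow_eq_one (H64.SL2.pow_card_centralizer g)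
    rwa [this] at h
  refine ⟨?_, fun hq => ?_, fun hq => ?_⟩
  · apply le_antisymm
    · intro x hx
      rw [Subgroup.mem_centralizer_iff] at hx
      have h1 : x ∈ Subgroup.centralizer ({g} : Set (Matrix.SpecialLinearGroup (Fin 2) F)) :=
        Subgroup.mem_centralizer_singleton_iff.2 (hx g hgS).symm
      have h3 := H64.SL2.inverts_of_inverts hz hwi h1
      rw [hx w hwS, mul_inv_cancel_right] at h3
      exact H64.SL2.mem_center_of_mul_self_eq_one h2 (mul_eq_one_iff_eq_inv.2 h3)
    · exact Subgroup.center_le_centralizer _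
  · apply le_antisymm _ Subgroup.le_normalizer
    intro n hn
    have h8 : 8 ∣ Nat.card (Subgroup.centralizer
        ({g} : Set (Matrix.SpecialLinearGroup (Fin 2) F))) := by omega
    have := H64.SL2.isCyclic_centralizer ht
    obtain ⟨a, ha⟩ := IsCyclic.exists_ofOrder_eq_natCard
      (α := Subgroup.centralizer ({g} : Set (Matrix.SpecialLinearGroup (Fin 2) F)))
    obtain ⟨⟨h, hhT⟩, hh⟩ := H64.SL2.exists_orderOf_eq_of_dvd a (ha ▸ h8)
    rw [← Subgroup.orderOf_coe] at hh
    change orderOf h = 8 at hh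
    have hhS := hT h hhT 3 (by rw [show 2 ^ 3 = 8 from rfl, ← hh]; exact pow_orderOf_eq_one h)
    have hh4 : h * h ∉ Subgroup.center (Matrix.SpecialLinearGroup (Fin 2) F) := by
      intro e
      have : h ^ 4 = 1 := by
        have e2 : h ^ 4 = (h * h) * (h * h) := by
          simp only [pow_succ, pow_zero, one_mul, mul_assoc]
        rw [e2]
        rcases H64.SL2.mem_center_iff'.1 e with e | e <;> rw [e] <;> simp
      have := orderOf_dvd_of_pow_eq_one this
      rw [hh] at this
      omega
    have hhz : h ∉ Subgroup.center (Matrix.SpecialLinearGroup (Fin 2) F) :=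
      fun e => hh4 (Subgroup.mul_mem _ e e)
    have hth := H64.SL2.tr_sq_ne_four_of_mem_centralizer ht hhT hhz
    have hc := H64.SL2.centralizer_eq_of_mem hz hhT hhz
    apply hN n hn
    rw [← hc]
    apply H64.SL2.mem_normalizer_of_conj_mem hth
    rw [hc]
    by_contra hcon
    have h5 := H64.SL2.mul_self_eq_neg_one_of_mem_normalizer ht
      (hSN ((Subgroup.mem_normalizer_iff.1 hn h).1 hhS)) hcon
    apply hh4
    have : h * h = n⁻¹ * (n * h * n⁻¹ * (n * h * n⁻¹)) * n := by group
    rw [this, h5]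
    simpa using H64.SL2.neg_one_mem_center
  · have h8 : ¬ 8 ∣ Nat.card (Subgroup.centralizer
        ({g} : Set (Matrix.SpecialLinearGroup (Fin 2) F))) := by omega
    have hginv : g⁻¹ = -g := by
      rw [inv_eq_iff_mul_eq_one, mul_neg, hg2, neg_neg]
    have hST : ∀ t ∈ (S : Subgroup (Matrix.SpecialLinearGroup (Fin 2) F)),
        t ∈ Subgroup.centralizer ({g} : Set (Matrix.SpecialLinearGroup (Fin 2) F)) →
          t = 1 ∨ t = -1 ∨ t = g ∨ t = -g := by
      intro t htS htT
      obtain ⟨k, hk⟩ := IsPGroup.iff_orderOf.1 S.isPGroup' ⟨t, htS⟩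
      rw [← Subgroup.orderOf_coe] at hk
      change orderOf t = _ at hk
      have hd : orderOf t ∣ Nat.card (Subgroup.centralizer
          ({g} : Set (Matrix.SpecialLinearGroup (Fin 2) F))) := Subgroup.orderOf_dvd_natCard _ htT
      have hk2 : k ≤ 2 := by
        by_contra hk2
        exact h8 ((pow_dvd_pow 2 (show 3 ≤ k by omega)).trans (hk ▸ hd))
      have h5 : t ^ 4 = 1 := orderOf_dvd_iff_pow_eq_one.1 (hk ▸ pow_dvd_pow 2 hk2)
      have h6 : t * t ∈ Subgroup.center (Matrix.SpecialLinearGroup (Fin 2) F) := by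
        apply H64.SL2.mem_center_of_mul_self_eq_one h2
        rw [← h5]
        simp only [pow_succ, pow_zero, one_mul, mul_assoc]
      rcases H64.SL2.mem_center_or_tr_eq_zero_of_sq h6 with h | h
      · rcases H64.SL2.mem_center_iff'.1 h with h | h
        · exact Or.inl h
        · exact Or.inr (Or.inl h)
      · rcases H64.SL2.eq_or_eq_inv_of_tr_eq ht htT (h.trans ht0.symm) with h | h
        · exact Or.inr (Or.inr (Or.inl h))
        · exact Or.inr (Or.inr (Or.inr (h.trans hginv)))
    have hw0 := H64.SL2.tr_eq_zero_of_inverts ht hwi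
    have hw2 := H64.SL2.mul_self_eq_neg_one_of_tr hw0
    have hwinv : w⁻¹ = -w := by
      rw [inv_eq_iff_mul_eq_one, mul_neg, hw2, neg_neg]
    have hSall : ∀ s ∈ (S : Subgroup (Matrix.SpecialLinearGroup (Fin 2) F)),
        s = 1 ∨ s = -1 ∨ s = g ∨ s = -g ∨ s = w ∨ s = -w ∨ s = g * w ∨ s = -(g * w) := by
      intro s hs
      by_cases hsT : s ∈ Subgroup.centralizer ({g} : Set (Matrix.SpecialLinearGroup (Fin 2) F))
      · rcases hST s hs hsT with h | h | h | h <;> simp [h]
      · have h1 := H64.SL2.inverts_of_mem_normalizer ht (hSN hs) hsT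
        have h3 : s * w⁻¹ ∈ Subgroup.centralizer
            ({g} : Set (Matrix.SpecialLinearGroup (Fin 2) F)) := by
          rw [Subgroup.mem_centralizer_singleton_iff, ← mul_inv_eq_iff_eq_mul]
          have h7 : w⁻¹ * g * w = g⁻¹ := by
            have : w * g⁻¹ * w⁻¹ = g := by
              calc w * g⁻¹ * w⁻¹ = (w * g * w⁻¹)⁻¹ := by group
                _ = g := by rw [hwi, inv_inv]
            conv_lhs => rw [← this]
            group
          calc s * w⁻¹ * g * (s * w⁻¹)⁻¹ = s * (w⁻¹ * g * w) * s⁻¹ := by group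
            _ = (s * g * s⁻¹)⁻¹ := by rw [h7]; group
            _ = g := by rw [h1, inv_inv]
        rcases hST _ (Subgroup.mul_mem _ hs (Subgroup.inv_mem _ hwS)) h3 with h | h | h | h <;>
          rw [mul_inv_eq_iff_eq_mul] at h <;> simp [h]
    have hgw0 : H64.SL2.tr (g * w) = 0 := by
      apply H64.SL2.tr_eq_zero_of_inverts ht
      calc g * w * g * (g * w)⁻¹ = g * (w * g * w⁻¹) * g⁻¹ := by group
        _ = g⁻¹ := by rw [hwi]; group
    obtain ⟨h, hh1, hh2, hh3⟩ := H64.SL2.exists_order_three_perm h2 ht0 hw0 hgw0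
    have hh4 : h * (g * w) * h⁻¹ = g := by
      calc h * (g * w) * h⁻¹ = (h * g * h⁻¹) * (h * w * h⁻¹) := by group
        _ = (w * g * w⁻¹) * (w * w) := by rw [hh1, hh2]; group
        _ = g := by rw [hwi, hw2, hginv]; simp
    have hm1 : (-1 : Matrix.SpecialLinearGroup (Fin 2) F) ∈
        (S : Subgroup (Matrix.SpecialLinearGroup (Fin 2) F)) := hg2 ▸ Subgroup.mul_mem _ hgS hgS
    have hnegS : ∀ s ∈ (S : Subgroup (Matrix.SpecialLinearGroup (Fin 2) F)),
        -s ∈ (S : Subgroup (Matrix.SpecialLinearGroup (Fin 2) F)) := by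
      intro s hs
      simpa using Subgroup.mul_mem _ hm1 hs
    have hgwS := Subgroup.mul_mem _ hgS hwS
    have hhN : h ∈ Subgroup.normalizer ((S : Subgroup (Matrix.SpecialLinearGroup (Fin 2) F)) :
        Set (Matrix.SpecialLinearGroup (Fin 2) F)) := by
      apply Subgroup.mem_normalizer_fintype
      intro s hs
      rcases hSall s hs with e | e | e | e | e | e | e | e <;> subst e <;>
        simp only [mul_neg, neg_mul, hh1, hh2, hh4, mul_one, mul_inv_cancel, SetLike.mem_coe]
      · exact Subgroup.one_mem _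
      · exact hm1
      · exact hwS
      · exact hnegS _ hwS
      · exact hgwS
      · exact hnegS _ hgwS
      · exact hgS
      · exact hnegS _ hgS
    have hmem : ∀ n ∈ Subgroup.normalizer ((S : Subgroup (Matrix.SpecialLinearGroup (Fin 2) F)) :
        Set (Matrix.SpecialLinearGroup (Fin 2) F)), (n * g * n⁻¹ = g ∨ n * g * n⁻¹ = -g) →
        n ∈ (S : Subgroup (Matrix.SpecialLinearGroup (Fin 2) F)) := by
      intro n hn e
      apply hN n hn
      apply H64.SL2.mem_normalizer_of_conj_mem ht
      rw [Subgroup.mem_centralizer_singleton_iff]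
      rcases e with e | e <;> rw [e]
      simp
    set N := Subgroup.normalizer ((S : Subgroup (Matrix.SpecialLinearGroup (Fin 2) F)) :
        Set (Matrix.SpecialLinearGroup (Fin 2) F)) with hNdef
    set K := (S : Subgroup (Matrix.SpecialLinearGroup (Fin 2) F)).subgroupOf N with hK
    have hcK : Nat.card K = Nat.card S :=
      Nat.card_congr (Subgroup.subgroupOfEquivOfLe Subgroup.le_normalizer).toEquiv
    have hle : K.index ≤ 3 := by
      have : Function.Surjective fun i : Fin 3 => ((⟨h, hhN⟩ ^ (i : ℕ) : N) : N ⧸ K) := by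
        intro x
        obtain ⟨n, rfl⟩ := QuotientGroup.mk_surjective x
        have hn := (Subgroup.mem_normalizer_iff.1 n.2 g).1 hgS
        have hnz : (n : Matrix.SpecialLinearGroup (Fin 2) F) * g * (n : Matrix.SpecialLinearGroup (Fin 2) F)⁻¹ ∉
            Subgroup.center (Matrix.SpecialLinearGroup (Fin 2) F) := by
          apply H64.SL2.not_mem_center_of_tr
          rwa [H64.SL2.tr_conj]
        have aux : ∀ i : Fin 3, ∀ y, h ^ (i : ℕ) * g * (h ^ (i : ℕ))⁻¹ = y →
            ((n : Matrix.SpecialLinearGroup (Fin 2) F) * g * (n : Matrix.SpecialLinearGroup (Fin 2) F)⁻¹ = y ∨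
              (n : Matrix.SpecialLinearGroup (Fin 2) F) * g * (n : Matrix.SpecialLinearGroup (Fin 2) F)⁻¹ = -y) →
            ((⟨h, hhN⟩ ^ (i : ℕ) : N) : N ⧸ K) = (n : N ⧸ K) := by
          intro i y hy e
          rw [QuotientGroup.eq, hK, Subgroup.mem_subgroupOf]
          apply hmem _ (Subtype.mem _)
          change ((h ^ (i : ℕ))⁻¹ * n * g * ((h ^ (i : ℕ))⁻¹ * n)⁻¹ = g ∨
            (h ^ (i : ℕ))⁻¹ * n * g * ((h ^ (i : ℕ))⁻¹ * n)⁻¹ = -g)
          have e3 : (h ^ (i : ℕ))⁻¹ * n * g * ((h ^ (i : ℕ))⁻¹ * n)⁻¹ =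
              (h ^ (i : ℕ))⁻¹ * (n * g * (n : Matrix.SpecialLinearGroup (Fin 2) F)⁻¹) * h ^ (i : ℕ) := by
            group
          rw [e3]
          rcases e with e | e <;> rw [e, ← hy]
          · left; group
          · right; simp only [mul_neg, neg_mul]; group
        have a2 : h ^ 2 * g * (h ^ 2)⁻¹ = g * w := by
          rw [← hh2, ← hh1, pow_two]; group
        rcases hSall _ hn with e | e | e | e | e | e | e | e
        · exact absurd (e ▸ Subgroup.one_mem _) hnz
        · exact absurd (e ▸ H64.SL2.neg_one_mem_center) hnz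
        · exact ⟨0, aux 0 g (by simp) (Or.inl e)⟩
        · exact ⟨0, aux 0 g (by simp) (Or.inr e)⟩
        · exact ⟨1, aux 1 w (by simpa using hh1) (Or.inl e)⟩
        · exact ⟨1, aux 1 w (by simpa using hh1) (Or.inr e)⟩
        · exact ⟨2, aux 2 _ a2 (Or.inl e)⟩
        · exact ⟨2, aux 2 _ a2 (Or.inr e)⟩
      simpa [Subgroup.index] using Nat.card_le_card_of_surjective _ this
    have h3 : 3 ∣ Nat.card N := by
      have : orderOf (h * h) = 3 := by
        have := Fact.mk Nat.prime_three
        apply orderOf_eq_prime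
        · calc (h * h) ^ 3 = (h * h * h) * (h * h * h) := by
                simp only [pow_succ, pow_zero, one_mul, mul_assoc]
            _ = 1 := by rw [hh3]; simp
        · intro e
          rw [e, one_mul] at hh3
          apply hwT
          rw [← hh1, hh3]
          simp [Subgroup.mem_centralizer_singleton_iff]
      rw [← this]
      exact Subgroup.orderOf_dvd_natCard _ (Subgroup.mul_mem _ hhN hhN)
    have h5 := K.index_mul_card
    obtain ⟨k, hk⟩ := IsPGroup.iff_card.1 S.isPGroup'
    change Nat.card S = _ at hk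
    rw [hcK] at h5
    rw [← h5, hk] at h3
    have h6 : 3 ∣ K.index := by
      refine (Nat.Coprime.dvd_mul_right ?_).1 h3
      exact Nat.Coprime.pow_right k (by norm_num)
    have h7 : K.index ≠ 0 := Subgroup.index_ne_zero_of_finite
    rw [← h5, show K.index = 3 by omega]

end Cfsg.Agent.S2431
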