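import Cfsg.Statements.S2433
import Mathlib
import Cfsg.Agent.Lib.GL2Char.SLBase

set_option autoImplicit false
open Cfsg

namespace Cfsg.Agent.S2433

open H62.GL2 in

/-- Let F be a finite field with q elements, q odd, α a multiplicative character of F, and R(α) the function on SL₂ induced from the linear character b ↦ α(b₁₁) of the upper triangular subgroup. Then R(α) takes the value α(a) + α(a⁻¹) at a diagonal element with entries a, a⁻¹, a² ≠ 1; the value 0 at every element with no eigenvector in F²; the value α(ε) at an upper triangular element with both diagonal entries ε and non-zero upper right entry; and the value (q + 1)α(ε) at the scalar element ε (ε = ±1). -/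
theorem result {F : Type*} [Field F] [Fintype F] [DecidableEq F] (hodd : Odd (Fintype.card F)) (α : MulChar F ℂ) (g : Matrix.SpecialLinearGroup (Fin 2) F) :
    ((g : Matrix (Fin 2) (Fin 2) F) 0 1 = 0 → (g : Matrix (Fin 2) (Fin 2) F) 1 0 = 0 → (g : Matrix (Fin 2) (Fin 2) F) 0 0 ^ 2 ≠ 1 →
      (Cfsg.indFun ((Cfsg.upperTriangularGL 2 F).comap Matrix.SpecialLinearGroup.toGL) (fun b => α (((b : Matrix.SpecialLinearGroup (Fin 2) F) : Matrix (Fin 2) (Fin 2) F) 0 0))) g = α ((g : Matrix (Fin 2) (Fin 2) F) 0 0) + α ((g : Matrix (Fin 2) (Fin 2) F) 1 1)) ∧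
    ((∀ (c : F) (v : Fin 2 → F), v ≠ 0 → (g : Matrix (Fin 2) (Fin 2) F).mulVec v ≠ c • v) → (Cfsg.indFun ((Cfsg.upperTriangularGL 2 F).comap Matrix.SpecialLinearGroup.toGL) (fun b => α (((b : Matrix.SpecialLinearGroup (Fin 2) F) : Matrix (Fin 2) (Fin 2) F) 0 0))) g = 0) ∧
    ((g : Matrix (Fin 2) (Fin 2) F) 1 0 = 0 → (g : Matrix (Fin 2) (Fin 2) F) 0 0 = (g : Matrix (Fin 2) (Fin 2) F) 1 1 → (g : Matrix (Fin 2) (Fin 2) F) 0 1 ≠ 0 →
      (Cfsg.indFun ((Cfsg.upperTriangularGL 2 F).comap Matrix.SpecialLinearGroup.toGL) (fun b => α (((b : Matrix.SpecialLinearGroup (Fin 2) F) : Matrix (Fin 2) (Fin 2) F) 0 0))) g = α ((g : Matrix (Fin 2) (Fin 2) F) 0 0)) ∧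
    ((g : Matrix (Fin 2) (Fin 2) F) 0 1 = 0 → (g : Matrix (Fin 2) (Fin 2) F) 1 0 = 0 → (g : Matrix (Fin 2) (Fin 2) F) 0 0 = (g : Matrix (Fin 2) (Fin 2) F) 1 1 →
      (Cfsg.indFun ((Cfsg.upperTriangularGL 2 F).comap Matrix.SpecialLinearGroup.toGL) (fun b => α (((b : Matrix.SpecialLinearGroup (Fin 2) F) : Matrix (Fin 2) (Fin 2) F) 0 0))) g = ((Fintype.card F : ℂ) + 1) * α ((g : Matrix (Fin 2) (Fin 2) F) 0 0)) := by
  rw [← psS_def, psS_eq_res, res_apply]
  refine ⟨fun h1 h2 h3 => ?_, fun h => ps_ell _ _ ((isEll_iff _).2 h), fun h1 h2 h3 => ?_,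
    fun h1 h2 h3 => ?_⟩
  · obtain ⟨a, hg, ha, ha'⟩ := exists_eq_utS g h2
    have hne : a ≠ a⁻¹ := by
      intro h
      apply h3
      rw [← ha, sq]
      nth_rewrite 2 [h]
      simp
    rw [← ha, ← ha']
    conv_lhs => rw [hg]
    rw [tg_utS, ps_split _ _ _ hne]
    simp only [MulChar.one_apply_coe, mul_one]
  · obtain ⟨a, hg, ha, ha'⟩ := exists_eq_utS g h1
    have he : a⁻¹ = a := Units.ext (by rw [ha, ha', h2])
    rw [← ha]
    conv_lhs => rw [hg]
    rw [tg_utS, he, ps_par _ _ _ h3]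
    simp only [MulChar.one_apply_coe, mul_one]
  · obtain ⟨a, hg, ha, ha'⟩ := exists_eq_utS g h2
    have he : a⁻¹ = a := Units.ext (by rw [ha, ha', h3])
    rw [← ha]
    conv_lhs => rw [hg]
    rw [tg_utS, he, h1, ps_scalar]
    simp only [MulChar.one_apply_coe, mul_one]

end Cfsg.Agent.S2433
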