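import Cfsg.Statements.S2434
import Mathlib
import Cfsg.Agent.Lib.GL2Char.SLMore

set_option autoImplicit false
open Cfsg

namespace Cfsg.Agent.S2434

open H62.GL2 in

/-- Let F be a finite field with q elements, q odd, and C a cyclic subgroup of order q + 1 of SL₂ over F (a non-split torus; it contains the centre). For every homomorphism θ from C to the non-zero complex numbers with θ² ≠ 1 there is an irreducible complex character χ of degree q − 1 such that χ(c) = −θ(c) − θ(c)⁻¹ for every non-central c in C, χ(zg) = θ(z)χ(g) for central z in C, χ vanishes at diagonal elements with entry a, a² ≠ 1, and χ takes the value −1 at every upper unitriangular element other than 1. Conversely every irreducible character of degree q − 1 has, for some such θ, the values −θ(c) − θ(c)⁻¹ at the non-central elements c of C (for q ≥ 5 these are exactly the cuspidal characters of degree q − 1). -/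
theorem result {F : Type*} [Field F] [Fintype F] (hodd : Odd (Fintype.card F))
    (C : Subgroup (Matrix.SpecialLinearGroup (Fin 2) F)) (hC : IsCyclic C) (hcard : Nat.card C = Fintype.card F + 1) :
    (∀ θ : C →* ℂˣ, (∃ c : C, θ c ^ 2 ≠ 1) →
      ∃ χ : Matrix.SpecialLinearGroup (Fin 2) F → ℂ, Cfsg.IsIrrCharacter (Matrix.SpecialLinearGroup (Fin 2) F) χ ∧ χ 1 = (Fintype.card F : ℂ) - 1 ∧
        (∀ c : C, (c : Matrix.SpecialLinearGroup (Fin 2) F) ∉ Subgroup.center (Matrix.SpecialLinearGroup (Fin 2) F) → χ c = -((θ c).val + (θ c)⁻¹.val)) ∧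
        (∀ c : C, (c : Matrix.SpecialLinearGroup (Fin 2) F) ∈ Subgroup.center (Matrix.SpecialLinearGroup (Fin 2) F) → ∀ g : Matrix.SpecialLinearGroup (Fin 2) F, χ ((c : Matrix.SpecialLinearGroup (Fin 2) F) * g) = (θ c).val * χ g) ∧
        (∀ g : Matrix.SpecialLinearGroup (Fin 2) F, (g : Matrix (Fin 2) (Fin 2) F) 0 1 = 0 → (g : Matrix (Fin 2) (Fin 2) F) 1 0 = 0 → (g : Matrix (Fin 2) (Fin 2) F) 0 0 ^ 2 ≠ 1 → χ g = 0) ∧
        (∀ g : Matrix.SpecialLinearGroup (Fin 2) F, (g : Matrix (Fin 2) (Fin 2) F) 1 0 = 0 → (g : Matrix (Fin 2) (Fin 2) F) 0 0 = 1 → (g : Matrix (Fin 2) (Fin 2) F) 1 1 = 1 → (g : Matrix (Fin 2) (Fin 2) F) 0 1 ≠ 0 → χ g = -1)) ∧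
    (∀ χ : Matrix.SpecialLinearGroup (Fin 2) F → ℂ, Cfsg.IsIrrCharacter (Matrix.SpecialLinearGroup (Fin 2) F) χ → χ 1 = (Fintype.card F : ℂ) - 1 →
      ∃ θ : C →* ℂˣ, (∃ c : C, θ c ^ 2 ≠ 1) ∧
        ∀ c : C, (c : Matrix.SpecialLinearGroup (Fin 2) F) ∉ Subgroup.center (Matrix.SpecialLinearGroup (Fin 2) F) → χ c = -((θ c).val + (θ c)⁻¹.val)) := by
  classical
  obtain ⟨K, _, _, _, _, ⟨ι⟩⟩ := exists_quad F
  obtain ⟨m, hm⟩ := id hodd
  have hq := one_lt_q (F := F)
  obtain ⟨c, hc⟩ := IsCyclic.exists_generator (α := C)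
  have hord : orderOf (c : Matrix.SpecialLinearGroup (Fin 2) F) = Fintype.card F + 1 := by
    rw [Subgroup.orderOf_coe, orderOf_eq_card_of_forall_mem_zpowers hc, hcard]
  have hCz : C = Subgroup.zpowers (c : Matrix.SpecialLinearGroup (Fin 2) F) := by
    symm
    apply Subgroup.eq_of_le_of_card_ge (by simp)
    rw [Nat.card_zpowers, hord, hcard]
  -- the generator is elliptic
  have hell : IsEll (c : Matrix.SpecialLinearGroup (Fin 2) F).1 := by
    by_contra hn
    obtain ⟨a, b, d, h⟩ := exists_isConj_ut (g := tg c.1) hn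
    have h1 : orderOf (ut a b d) = Fintype.card F + 1 := by
      rw [← hord, ← orderOf_injective _ tg_injective]
      obtain ⟨x, hx⟩ := isConj_iff.1 h
      rw [← hx]
      exact (MulAut.conj x).orderOf_eq _
    have hd : d = a⁻¹ := by
      apply eq_inv_of_mul_eq_one_right
      rw [← glDet_ut a b]
      exact Units.ext ((det_eq_of_isConj h).symm.trans c.1.2)
    subst hd
    by_cases had : a = a⁻¹
    · obtain ⟨p, hp, k, hpp, hk⟩ := FiniteField.card' F
      have h2 : (ut a b a⁻¹) ^ (2 * p) = 1 := by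
        have h3 : ut a b a⁻¹ ^ 2 = tg (utS 1 (a * b + b * a⁻¹)) := by
          rw [sq, ut_mul, tg_utS, ut_inj]
          refine ⟨?_, by simp, ?_⟩
          · nth_rewrite 2 [had]; simp
          · nth_rewrite 1 [← had]; simp
        rw [pow_mul, h3, ← map_pow, utS_one_pow, CharP.cast_eq_zero, zero_mul, utS_one_zero,
          map_one]
      have h4 := orderOf_dvd_of_pow_eq_one h2
      rw [h1] at h4
      have h5 : Nat.Coprime (Fintype.card F + 1) p := by
        rw [Nat.coprime_comm, hpp.coprime_iff_not_dvd]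
        intro h6
        have hpq : p ∣ Fintype.card F := by rw [hk]; exact dvd_pow_self p k.ne_zero
        exact hpp.one_lt.ne' (Nat.dvd_one.1 ((Nat.dvd_add_right hpq).1 h6))
      have := Nat.le_of_dvd two_pos (h5.dvd_of_dvd_mul_right h4)
      omega
    · have h2 : IsConj (ut a b a⁻¹) (ut a 0 a⁻¹) := isConj_ut_ut.2 (by simp [had])
      have h3 : orderOf (ut a 0 a⁻¹) = Fintype.card F + 1 := by
        rw [← h1]
        obtain ⟨x, hx⟩ := isConj_iff.1 h2
        rw [← hx]
        exact (MulAut.conj x).orderOf_eq _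
      have h4 : ∀ n : ℕ, ut a 0 a⁻¹ ^ n = ut (a ^ n) 0 (a⁻¹ ^ n) := by
        intro n
        induction n with
        | zero => simp [ut_one]
        | succ n ih => rw [pow_succ, ih, ut_mul]; simp [pow_succ]
      have h5 : ut a 0 a⁻¹ ^ (Fintype.card F - 1) = 1 := by
        rw [h4, ← Fintype.card_units, pow_card_eq_one, pow_card_eq_one, ut_one]
      have h6 := orderOf_dvd_of_pow_eq_one h5
      rw [h3] at h6
      have := Nat.le_of_dvd (by omega) h6
      omega
  obtain ⟨x, y, -, hxy⟩ := exists_cj_elS ι hell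
  let ψ : normOne F K →* Matrix.SpecialLinearGroup (Fin 2) F := (cj y).toMonoidHom.comp (elS ι)
  have hψ : Function.Injective ψ := (cj y).injective.comp (elS_injective ι)
  have hr : ψ.range = C := by
    symm
    apply Subgroup.eq_of_le_of_card_ge
    · rw [hCz, Subgroup.zpowers_le]
      exact ⟨x, hxy.symm⟩
    · rw [hcard, ← Nat.card_congr (MonoidHom.ofInjective hψ).toEquiv, card_normOne]
  let e : normOne F K ≃* C := (MonoidHom.ofInjective hψ).trans (MulEquiv.subgroupCongr hr)
  have he : ∀ x, (e x : Matrix.SpecialLinearGroup (Fin 2) F) = cj y (elS ι x) := fun x => rfl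
  have hval : ∀ (η : normOne F K →* ℂˣ) (x : normOne F K),
      (e x : Matrix.SpecialLinearGroup (Fin 2) F) ∉ Subgroup.center _ →
      cuS ι η (e x) = -((η x : ℂ) + ((η x)⁻¹ : ℂˣ)) := by
    intro η x hx
    rw [he, cuS_cj, cuS_elS]
    intro h1
    apply hx
    have h2 : ((x : Kˣ) : K) ^ 2 = 1 := by
      have := congrArg (fun z : normOne F K => ((z : Kˣ) : K)) h1
      simpa using this
    rw [mem_center_iff_neg, he]
    rcases sq_eq_one_iff.1 h2 with h3 | h3
    · left
      rw [show x = 1 from Subtype.ext (Units.ext h3), map_one, map_one]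
    · right
      apply tg_injective
      have h4 : (x : Kˣ) = up K (-1 : Fˣ) := Units.ext (by rw [h3, coe_up]; simp)
      rw [tg_cj, tg_elS, h4, el_up, ← ut_scalar_comm, mul_inv_cancel_right, tg_neg_one]
  have hne : ∀ θ : C →* ℂˣ, (∃ c : C, θ c ^ 2 ≠ 1) ↔
      θ.comp e.toMonoidHom ≠ (θ.comp e.toMonoidHom)⁻¹ := by
    intro θ
    constructor
    · rintro ⟨c, hc⟩ h
      obtain ⟨x, rfl⟩ := e.surjective c
      apply hc
      rw [sq, mul_eq_one_iff_eq_inv]
      exact DFunLike.congr_fun h x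
    · intro h
      by_contra hn
      push Not at hn
      apply h
      refine MonoidHom.ext fun x => ?_
      have := hn (e x)
      rw [sq, mul_eq_one_iff_eq_inv] at this
      exact this
  constructor
  · intro θ hθ
    have h1 := (hne θ).1 hθ
    refine ⟨cuS ι (θ.comp e.toMonoidHom), isIrr_cuS ι h1, cuS_one ι _, fun c hc => ?_,
      fun c hc g => ?_, fun g g1 g2 g3 => ?_, fun g g1 g2 g3 g4 => ?_⟩
    · obtain ⟨x, rfl⟩ := e.surjective c
      exact hval _ x hc
    · rw [H62.irr_mul_center (isIrr_cuS ι h1) (Subgroup.mem_center_iff.1 hc)]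
      congr 1
      rw [cuS_one, div_eq_iff q_sub_one_ne_zero]
      rcases mem_center_iff_neg.1 hc with h2 | h2
      · rw [h2, cuS_one, show c = 1 from Subtype.ext h2]
        simp
      · rw [h2, cuS_neg_one, mul_comm]
        congr 2
        change θ (e _) = θ c
        congr 1
        apply Subtype.ext
        rw [he, h2]
        apply tg_injective
        rw [tg_cj, tg_elS, el_up, ← ut_scalar_comm, mul_inv_cancel_right, tg_neg_one]
    · obtain ⟨a, ha, -, hg⟩ := exists_diag_of_entries g1 g2 g3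
      rw [cuS_apply, hg, cusp_split _ _ _ ha]
    · obtain ⟨a, ha, hg⟩ := exists_par_of_entries g1 (g2.trans g3.symm)
      rw [cuS_apply, hg, cusp_par _ _ _ g4, ha, g2, map_one, map_one]
  · intro χ hχ hd
    have key : ∀ η : normOne F K →* ℂˣ, η ≠ η⁻¹ → (∀ c : C,
        (c : Matrix.SpecialLinearGroup (Fin 2) F) ∉ Subgroup.center _ → χ c = cuS ι η c) →
        ∃ θ : C →* ℂˣ, (∃ c : C, θ c ^ 2 ≠ 1) ∧ ∀ c : C,
          (c : Matrix.SpecialLinearGroup (Fin 2) F) ∉ Subgroup.center _ →
          χ c = -((θ c).val + (θ c)⁻¹.val) := by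
      intro η h1 h2
      have h3 : (η.comp e.symm.toMonoidHom).comp e.toMonoidHom = η := by ext x; simp
      refine ⟨η.comp e.symm.toMonoidHom, (hne _).2 (by rwa [h3]), fun c hc => ?_⟩
      obtain ⟨x, rfl⟩ := e.surjective c
      rw [h2 _ hc, hval η x hc]
      simp
    rcases irrS_cases_nat ι hχ (n := Fintype.card F - 1) (by rwa [cast_q_sub]) with
      ⟨h, -⟩ | ⟨h, -⟩ | ⟨h, -⟩ | ⟨h, η, h2, rfl⟩ | ⟨h, -, α, χ', -, -, hp⟩ | ⟨h, -⟩
    · omega
    · omega
    · omega
    · exact key η h2 fun _ _ => rfl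
    · have h3 : Fintype.card F = 3 := by omega
      obtain ⟨η, hη⟩ := H62.exists_hom_ne_inv (normOne F K) (by rw [card_normOne, h3]; norm_num)
      refine key η hη fun c hc => ?_
      obtain ⟨x, rfl⟩ := e.surjective c
      have h4 : IsEll (e x : Matrix.SpecialLinearGroup (Fin 2) F).1 := by
        have h5 : IsConj (el ι x) (tg (e x)) := isConj_iff.2 ⟨y, by rw [he, tg_cj, tg_elS]⟩
        refine (isEll_iff_of_isConj h5).1 (isEll_el ι fun h6 => hc ?_)
        obtain ⟨a, ha⟩ := (units_frob_eq_self_iff _).1 h6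
        rw [Subgroup.mem_center_iff]
        intro g
        apply tg_injective
        rw [map_mul, map_mul, he, tg_cj, tg_elS, ← ha, el_up, ← ut_scalar_comm,
          mul_inv_cancel_right, ut_scalar_comm]
      rw [hp.psS_ell h4, cuS_ell_of_card_three ι h3 hη h4]
    · omega

end Cfsg.Agent.S2434
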