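import Cfsg.Statements.S2435
import Mathlib
import Cfsg.Agent.Lib.GL2Char.SLTable

set_option autoImplicit false
open Cfsg

namespace Cfsg.Agent.S2435

open H62.GL2 in

/-- Let F be a finite field with q elements, q odd and q ≥ 5, and χ an irreducible complex character of SL₂ over F. If χ has degree (q + 1)/2, then at a diagonal element with entry a, a² ≠ 1, χ takes the value 1 when a is a square in F and −1 otherwise. If χ has degree (q − 1)/2, then at an element g with no eigenvector in F² (so g has order dividing q + 1), χ takes the value −1 when g raised to the power (q + 1)/2 is the identity and the value 1 otherwise. -/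
theorem result {F : Type*} [Field F] [Fintype F] (hodd : Odd (Fintype.card F)) (hq : 5 ≤ Fintype.card F)
    (χ : Matrix.SpecialLinearGroup (Fin 2) F → ℂ) (hχ : Cfsg.IsIrrCharacter (Matrix.SpecialLinearGroup (Fin 2) F) χ) (g : Matrix.SpecialLinearGroup (Fin 2) F) :
    (χ 1 = (((Fintype.card F + 1) / 2 : ℕ) : ℂ) → (g : Matrix (Fin 2) (Fin 2) F) 0 1 = 0 → (g : Matrix (Fin 2) (Fin 2) F) 1 0 = 0 → (g : Matrix (Fin 2) (Fin 2) F) 0 0 ^ 2 ≠ 1 →
      (IsSquare ((g : Matrix (Fin 2) (Fin 2) F) 0 0) → χ g = 1) ∧ (¬ IsSquare ((g : Matrix (Fin 2) (Fin 2) F) 0 0) → χ g = -1)) ∧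
    (χ 1 = (((Fintype.card F - 1) / 2 : ℕ) : ℂ) → (∀ (c : F) (v : Fin 2 → F), v ≠ 0 → (g : Matrix (Fin 2) (Fin 2) F).mulVec v ≠ c • v) →
      (((g ^ ((Fintype.card F + 1) / 2)) : Matrix (Fin 2) (Fin 2) F) = 1 → χ g = -1) ∧ (((g ^ ((Fintype.card F + 1) / 2)) : Matrix (Fin 2) (Fin 2) F) ≠ 1 → χ g = 1)) := by
  classical
  obtain ⟨K, _, _, _, _, ⟨ι⟩⟩ := exists_quad F
  refine ⟨fun h h1 h2 h3 => ?_, fun h h1 => ?_⟩
  · obtain ⟨α, χ', k1, k2, hp⟩ := irr_of_deg_half_add hq hχ h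
    obtain ⟨a, ha, ha', hg⟩ := exists_diag_of_entries h1 h2 h3
    have h4 : α⁻¹ = α := inv_eq_of_mul_eq_one_right (by rwa [← sq])
    rw [hp.apply_of_isSemi (by rw [hg]; exact isSemi_diag _ _), psS_eq_res, res_apply, hg,
      ps_split _ _ _ ha, mulChar_inv_apply α, h4, ← ha']
    simp only [MulChar.one_apply_coe, mul_one]
    refine ⟨fun h5 => ?_, fun h5 => ?_⟩
    · rw [(mulChar_order_two_apply k1 k2 a).1 h5]; norm_num
    · rw [(mulChar_order_two_apply k1 k2 a).2 h5]; norm_num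
  · obtain ⟨η, χ', k1, k2, hp⟩ := irr_of_deg_half_sub ι hq hχ h
    have hg := (isEll_iff _).2 h1
    rw [hp.apply_of_isSemi (isSemi_of_isEll ι hg)]
    obtain ⟨x, y, hx, rfl⟩ := exists_cj_elS ι hg
    rw [cuS_cj, cuS_elS _ _ _ hx]
    have h2 : Nat.card (normOne F K) = 2 * ((Fintype.card F + 1) / 2) := by
      rw [card_normOne]
      obtain ⟨m, hm⟩ := hodd
      omega
    have h3 : ((cj y (elS ι x)).1 ^ ((Fintype.card F + 1) / 2) = 1) ↔
        x ^ ((Fintype.card F + 1) / 2) = 1 := by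
      rw [← Matrix.SpecialLinearGroup.coe_pow, ← map_pow, ← map_pow,
        ← (elS_injective ι).eq_iff, ← (cj y).injective.eq_iff, map_one, map_one]
      exact ⟨fun h => Subtype.ext h, fun h => congrArg Subtype.val h⟩
    refine ⟨fun h5 => ?_, fun h5 => ?_⟩
    · rw [(H62.hom_order_two_apply h2 k1 k2 x).1 (h3.1 h5)]; norm_num
    · rw [(H62.hom_order_two_apply h2 k1 k2 x).2 (fun h6 => h5 (h3.2 h6))]; norm_num

end Cfsg.Agent.S2435
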