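import Cfsg.Statements.S2437
import Cfsg.Agent.Lib.SL2Elt.Order
-- import your own Cfsg.Agent.* helpers here

set_option autoImplicit false
open Cfsg

namespace Cfsg.Agent.S2437

open Matrix MatrixGroups in
theorem mem_borel {F : Type*} [Field F] (g : SL(2, F)) :
    g ∈ (Cfsg.upperTriangularGL 2 F).comap Matrix.SpecialLinearGroup.toGL ↔ g 1 0 = 0 := by
  change (g : Matrix (Fin 2) (Fin 2) F).BlockTriangular id ↔ _
  constructor
  · intro h; exact h (show (id 0 : Fin 2) < id 1 by decide)
  · intro h i j hij
    fin_cases i <;> fin_cases j <;> simp_all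

open Matrix MatrixGroups in
/-- Coordinates on the Borel subgroup. -/
noncomputable def borelEquiv (F : Type*) [Field F] :
    Fˣ × F ≃ (Cfsg.upperTriangularGL 2 F).comap Matrix.SpecialLinearGroup.toGL :=
  Equiv.ofBijective (fun p => ⟨H64.SL2.mk (p.1 : F) p.2 0 ((p.1⁻¹ : Fˣ) : F) (by simp),
    (mem_borel _).2 rfl⟩) (by
    constructor
    · rintro ⟨a, x⟩ ⟨b, y⟩ e
      have := congrArg Subtype.val e
      simp only [H64.SL2.ent] at this
      exact Prod.ext (Units.ext this.1) this.2.1
    · rintro ⟨g, hg⟩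
      have h := (mem_borel g).1 hg
      have dg := H64.SL2.det_eq g
      rw [h] at dg
      have : g 0 0 * g 1 1 = 1 := by linear_combination dg
      exact ⟨(Units.mkOfMulEqOne _ _ this, g 0 1), Subtype.ext (H64.SL2.ext' rfl rfl h.symm rfl)⟩)

theorem coe_borelEquiv {F : Type*} [Field F] (p : Fˣ × F) :
    (borelEquiv F p : Matrix.SpecialLinearGroup (Fin 2) F) =
      H64.SL2.mk (p.1 : F) p.2 0 ((p.1⁻¹ : Fˣ) : F) (by simp) := rfl

theorem commute_iff {F : Type*} [Field F] (p r : Fˣ × F) :
    Commute (borelEquiv F p) (borelEquiv F r) ↔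
      r.2 * ((p.1 : F) - (p.1⁻¹ : Fˣ)) = p.2 * ((r.1 : F) - (r.1⁻¹ : Fˣ)) := by
  rw [Commute, SemiconjBy, Subtype.ext_iff, Subgroup.coe_mul, Subgroup.coe_mul]
  simp only [coe_borelEquiv, H64.SL2.ent]
  constructor
  · rintro ⟨-, h, -, -⟩
    linear_combination h
  · intro h
    exact ⟨by ring, by linear_combination h, by ring, by ring⟩

open Classical in
theorem card_line {F : Type*} [Field F] [Fintype F] (α γ : F) :
    (Finset.univ.filter fun p : F × F => p.2 * α = p.1 * γ).card =
      Fintype.card F + if α = 0 ∧ γ = 0 then Fintype.card F * (Fintype.card F - 1) else 0 := by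
  have h1 : 1 < Fintype.card F := Fintype.one_lt_card
  by_cases h : α = 0 ∧ γ = 0
  · rw [if_pos h, h.1, h.2]
    simp only [mul_zero, Finset.filter_true, Finset.card_univ, Fintype.card_prod]
    obtain ⟨k, hk⟩ : ∃ k, Fintype.card F = k + 1 := ⟨Fintype.card F - 1, by omega⟩
    rw [hk]; simp; ring
  · rw [if_neg h, add_zero, ← Finset.card_univ]
    symm
    apply Finset.card_bij (fun t _ => (t * α, t * γ))
    · intro t _; simp; ring
    · intro s _ t _ e
      simp only [Prod.mk.injEq] at e
      by_cases h2 : α = 0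
      · exact mul_right_cancel₀ (fun h3 => h ⟨h2, h3⟩) e.2
      · exact mul_right_cancel₀ h2 e.1
    · rintro ⟨x, y⟩ hxy
      simp only [Finset.mem_filter, Finset.mem_univ, true_and] at hxy
      by_cases h2 : α = 0
      · have h3 : γ ≠ 0 := fun h3 => h ⟨h2, h3⟩
        refine ⟨y / γ, Finset.mem_univ _, ?_⟩
        rw [h2] at hxy ⊢
        have : x = 0 := by
          apply mul_right_cancel₀ h3; linear_combination -hxy
        simp [this, h3]
      · refine ⟨x / α, Finset.mem_univ _, ?_⟩
        simp only [Prod.mk.injEq]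
        constructor
        · field_simp
        · field_simp; linear_combination -hxy

/-- Over a finite field F with q elements, q odd, the upper triangular subgroup of SL₂ (a Borel subgroup, of order q(q − 1)) has exactly q + 3 conjugacy classes. -/
theorem result {F : Type*} [Field F] [Fintype F] (hodd : Odd (Fintype.card F)) :
    Nat.card (ConjClasses ((Cfsg.upperTriangularGL 2 F).comap Matrix.SpecialLinearGroup.toGL)) = Fintype.card F + 3 := by
  classical
  have h2 := H64.SL2.two_ne_zero_of_odd hodd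
  have h1 : 1 < Fintype.card F := Fintype.one_lt_card
  have key := card_comm_eq_card_conjClasses_mul_card
    ((Cfsg.upperTriangularGL 2 F).comap Matrix.SpecialLinearGroup.toGL)
  rw [← Nat.card_congr (borelEquiv F), Nat.card_prod, Nat.card_units,
    Nat.card_eq_fintype_card (α := F)] at key
  have e : {p : ((Cfsg.upperTriangularGL 2 F).comap Matrix.SpecialLinearGroup.toGL) ×
      ((Cfsg.upperTriangularGL 2 F).comap Matrix.SpecialLinearGroup.toGL) // Commute p.1 p.2} ≃
      Σ a : Fˣ × Fˣ, {p : F × F //
        p.2 * ((a.1 : F) - (a.1⁻¹ : Fˣ)) = p.1 * ((a.2 : F) - (a.2⁻¹ : Fˣ))} :=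
    { toFun := fun p => ⟨(((borelEquiv F).symm p.1.1).1, ((borelEquiv F).symm p.1.2).1),
        ⟨(((borelEquiv F).symm p.1.1).2, ((borelEquiv F).symm p.1.2).2),
          (commute_iff _ _).1 (by simpa using p.2)⟩⟩
      invFun := fun p => ⟨(borelEquiv F (p.1.1, p.2.1.1), borelEquiv F (p.1.2, p.2.1.2)),
        (commute_iff _ _).2 p.2.2⟩
      left_inv := fun p => by simp
      right_inv := by
        rintro ⟨⟨a, b⟩, ⟨⟨x, y⟩, h⟩⟩
        refine Sigma.subtype_ext (by simp) (by simp) }
  rw [Nat.card_congr e, Nat.card_sigma] at key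
  simp only [Nat.card_eq_fintype_card, Fintype.card_subtype, card_line, Finset.sum_add_distrib,
    ← Finset.sum_filter, Finset.sum_const, Finset.card_univ, Fintype.card_prod, Fintype.card_units,
    smul_eq_mul] at key
  have hs : (Finset.univ.filter fun a : Fˣ => (a : F) - (a⁻¹ : Fˣ) = 0) = {1, -1} := by
    ext a
    simp only [Finset.mem_filter, Finset.mem_univ, true_and, Finset.mem_insert,
      Finset.mem_singleton]
    constructor
    · intro h
      have : ((a : F) - 1) * ((a : F) + 1) = 0 := by
        have := a.mul_inv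
        linear_combination (a : F) * h + this
      rcases mul_eq_zero.1 this with h | h
      · left; exact Units.ext (sub_eq_zero.1 h)
      · right; exact Units.ext (eq_neg_of_add_eq_zero_left h)
    · rintro (rfl | rfl) <;> simp
  have hne : (1 : Fˣ) ≠ -1 := by
    intro h
    have := congrArg Units.val h
    simp only [Units.val_one, Units.val_neg] at this
    exact h2 (by linear_combination this)
  have h4 : (Finset.univ.filter fun a : Fˣ × Fˣ =>
      (a.1 : F) - (a.1⁻¹ : Fˣ) = 0 ∧ (a.2 : F) - (a.2⁻¹ : Fˣ) = 0).card = 4 := by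
    rw [← Finset.univ_product_univ,
      Finset.filter_product (fun a : Fˣ => (a : F) - (a⁻¹ : Fˣ) = 0)
        (fun a : Fˣ => (a : F) - (a⁻¹ : Fˣ) = 0), hs, Finset.card_product, Finset.card_pair hne]
  rw [h4] at key
  rw [Nat.card_eq_fintype_card]
  obtain ⟨k, hk⟩ : ∃ k, Fintype.card F = k + 1 := ⟨Fintype.card F - 1, by omega⟩
  rw [hk] at key h1 ⊢
  simp only [Nat.add_sub_cancel] at key
  apply Nat.eq_of_mul_eq_mul_right (show 0 < k * (k + 1) from Nat.mul_pos (by omega) (by omega))
  rw [← key]
  ring

end Cfsg.Agent.S2437
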