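import Cfsg.Statements.S2436
import Cfsg.Agent.Lib.MatConj.Sol2
import Cfsg.Agent.S2299
import Cfsg.Agent.S2437
import Cfsg.Agent.S2431
import Cfsg.Agent.Lib.GL2Char.SLMore
import Cfsg.Agent.Lib.Char.DegreeP
import Cfsg.Agent.Lib.GL.Two

set_option autoImplicit false
open Cfsg

namespace Cfsg.Agent.S2436

open H64.SL2 MatrixGroups Subgroup Finset H62.GL2
open scoped commutatorElement

/-- number of irreducible characters of degree prime to `l` -/
noncomputable abbrev cnt (l : ℕ) (X : Type*) [Group X] : ℕ :=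
  Nat.card {χ : IrrCharacter X // ¬ l ∣ charDegree (χ : X → ℂ)}

section
variable {X Y : Type*} [Group X] [Group Y]

theorem cnt_congr (l : ℕ) (e : X ≃* Y) : cnt l X = cnt l Y :=
  Nat.card_congr
    { toFun χ := ⟨⟨_, H6.isIrrCharacter_comp_equiv e.symm χ.1.2⟩, by
        simpa [charDegree] using χ.2⟩
      invFun χ := ⟨⟨_, H6.isIrrCharacter_comp_equiv e χ.1.2⟩, by simpa [charDegree] using χ.2⟩
      left_inv χ := by ext; simp
      right_inv χ := by ext; simp }

variable [Finite X]

theorem cnt_of_comm {l : ℕ} [Fact l.Prime] (S : Sylow l X) (h : ∀ a ∈ S.1, ∀ b ∈ S.1, a * b = b * a) :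
    cnt l (normalizer (S.1 : Set X)) = Nat.card (ConjClasses (normalizer (S.1 : Set X))) := by
  rw [← H6.card_irr_eq_card_conjClasses]
  refine Nat.card_congr (Equiv.subtypeUnivEquiv fun χ e => (S.subtype le_normalizer).not_dvd_index
    (e.trans (H31.degree_dvd_index_of_comm (S.1.subgroupOf _)
      (fun a ha b hb => Subtype.ext (h _ ha _ hb)) χ.2 (cast_charDegree χ.2))))

theorem sum_sq : ∑ χ : IrrCharacter X, charDegree χ.1 ^ 2 = Nat.card X := by
  have := H6.sum_irr_one_sq (G := X)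
  rw [sum_congr rfl fun χ _ => by rw [cast_charDegree χ.2]] at this
  exact_mod_cast this

theorem cnt_eq (l : ℕ) : cnt l X = ∑ χ : IrrCharacter X, if l ∣ charDegree χ.1 then 0 else 1 := by
  classical
  rw [cnt, Nat.card_eq_fintype_card, Fintype.card_subtype, card_filter]
  simp only [ite_not]

theorem card_deg (d : ℕ) : Nat.card {χ : IrrCharacter X // χ.1 1 = d} =
    ∑ χ : IrrCharacter X, if charDegree χ.1 = d then 1 else 0 := by
  classical
  rw [Nat.card_eq_fintype_card, Fintype.card_subtype, card_filter]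
  exact sum_congr rfl fun χ _ => by simp only [cast_charDegree χ.2, Nat.cast_inj]

theorem cnt_two (A : Subgroup X) (hA : A.index = 2) (h : ∀ a ∈ A, ∀ b ∈ A, a * b = b * a)
    (hk : 2 * Nat.card (ConjClasses X) = Nat.card A + 6) : cnt 2 X = 4 := by
  have := normal_of_index_eq_two hA
  have h1 : ∑ χ : IrrCharacter X, (charDegree χ.1 ^ 2 + 3 * if 2 ∣ charDegree χ.1 then 0 else 1) =
      ∑ _ : IrrCharacter X, 4 := sum_congr rfl fun χ _ => by
    rcases (Nat.dvd_prime Nat.prime_two).1 (hA ▸ H31.degree_dvd_index_of_comm A h χ.2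
      (cast_charDegree χ.2)) with e | e <;> simp [e]
  rw [sum_add_distrib, ← mul_sum, sum_sq, ← cnt_eq, sum_const, card_univ,
    ← Nat.card_eq_fintype_card, H6.card_irr_eq_card_conjClasses, ← A.card_mul_index, hA,
    smul_eq_mul] at h1
  omega

theorem cnt_24 (h : Nat.card X = 24) (h3 : (_root_.commutator X).index = 3) : cnt 2 X = 4 := by
  have h0 : ∀ χ : IrrCharacter X, ∃ d ∈ [1, 2, 3, 4, 6, 8, 12, 24], charDegree χ.1 = d := fun χ => by
    obtain ⟨n, -, h1, h2⟩ := H6.irr_one_dvd_card χ.2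
    rw [charDegree_eq h1, exists_eq_right']
    rw [h] at h2
    have := Nat.le_of_dvd (by decide) h2
    interval_cases n <;> simp_all
  have h1 : ∑ χ : IrrCharacter X, (charDegree χ.1 ^ 2 + 8 * if charDegree χ.1 = 1 then 1 else 0) =
      ∑ χ : IrrCharacter X, (9 * (if 2 ∣ charDegree χ.1 then 0 else 1) +
        4 * if 2 ∣ charDegree χ.1 then (charDegree χ.1 / 2) ^ 2 else 0) :=
    sum_congr rfl fun χ _ => by
      obtain ⟨d, hd, e⟩ := h0 χ
      rw [e]
      clear e
      revert d
      decide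
  have h2 : ∑ χ : IrrCharacter X, (if charDegree χ.1 = 1 then 1 else 0) ≤ cnt 2 X :=
    cnt_eq (X := X) 2 ▸ sum_le_sum fun χ _ => by split_ifs <;> omega
  rw [sum_add_distrib, sum_add_distrib, ← mul_sum, ← mul_sum, ← mul_sum, sum_sq, ← cnt_eq, h] at h1
  rw [← card_deg, Nat.cast_one, H6.card_linear_irr, h3] at h1 h2
  omega

end

variable {F : Type*} [Field F] [Fintype F]

theorem cnt_SL (hodd : Odd (Fintype.card F)) (h5 : 5 ≤ Fintype.card F) (l : ℕ) :
    cnt l SL(2, F) = (if l ∣ 1 then 0 else 1) + (if l ∣ Fintype.card F then 0 else 1) +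
      (if l ∣ Fintype.card F + 1 then 0 else (Fintype.card F - 3) / 2) +
      (if l ∣ Fintype.card F - 1 then 0 else (Fintype.card F - 1) / 2) +
      (if l ∣ (Fintype.card F + 1) / 2 then 0 else 2) +
      (if l ∣ (Fintype.card F - 1) / 2 then 0 else 2) := by
  classical
  obtain ⟨h1, h2, h3, h4, h6, h7⟩ := (Cfsg.Agent.S2299.result hodd).2 h5
  rw [← Nat.cast_one (R := ℂ), card_deg] at h1
  rw [← Nat.cast_succ, card_deg] at h3
  rw [← cast_q_sub, card_deg] at h4
  rw [card_deg] at h2 h6 h7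
  let c : ℕ → ℕ := fun d =>
    if l ∣ d then 0 else ∑ χ : IrrCharacter SL(2, F), if charDegree χ.1 = d then 1 else 0
  have key : ∀ d, c d =
      ∑ χ : IrrCharacter SL(2, F), if charDegree χ.1 = d then if l ∣ d then 0 else 1 else 0 :=
    fun d => by simp only [c]; split_ifs <;> simp
  suffices h : cnt l SL(2, F) = c 1 + c (Fintype.card F) + c (Fintype.card F + 1) +
      c (Fintype.card F - 1) + c ((Fintype.card F + 1) / 2) + c ((Fintype.card F - 1) / 2) by
    simpa only [c, h1, h2, h3, h4, h6, h7] using h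
  simp only [key, ← sum_add_distrib, cnt_eq]
  refine sum_congr rfl fun χ _ => ?_
  have := Nat.odd_iff.1 hodd
  rcases charDegrees_SL_cases ⟨χ, rfl⟩ with h | h | h | h | ⟨-, h | h⟩ <;> rw [h, if_pos rfl] <;>
    (repeat rw [if_neg (c := _ = _) (by omega)]) <;> simp only [add_zero, zero_add]

theorem cnt_char (hodd : Odd (Fintype.card F)) (p : ℕ) [hp : Fact p.Prime] [CharP F p] :
    cnt p SL(2, F) = Fintype.card F + 3 := by
  classical
  have h1 := card_irr_SL_odd hodd
  have h2 := card_irr_deg_q (F := F)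
  have h3 := char_dvd_card (F := F) p
  have h4 := Nat.odd_iff.1 hodd
  have h5 : ¬ p ∣ Fintype.card F + 1 := fun e => hp.out.not_dvd_one ((Nat.dvd_add_right h3).1 e)
  have h6 : ¬ p ∣ Fintype.card F - 1 := fun e => hp.out.not_dvd_one (by
    have := Nat.dvd_sub h3 e
    rwa [Nat.sub_sub_self (by omega)] at this)
  rw [card_deg] at h2
  rw [Nat.card_eq_fintype_card, ← card_univ, card_eq_sum_ones] at h1
  refine Nat.add_right_cancel (m := 1) (Eq.trans ?_ h1)
  refine (congrArg _ h2.symm).trans ?_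
  rw [cnt_eq, ← sum_add_distrib]
  refine sum_congr rfl fun χ _ => ?_
  by_cases h : charDegree χ.1 = Fintype.card F
  · rw [if_pos h, if_pos (h ▸ h3)]
  rw [if_neg h, if_neg]
  rcases charDegrees_SL_cases ⟨χ, rfl⟩ with e | e | e | e | ⟨-, e | e⟩ <;> rw [e]
  exacts [hp.out.not_dvd_one, absurd e h, h5, h6,
    fun a => h5 (a.trans (Nat.div_dvd_of_dvd (by omega))),
    fun a => h6 (a.trans (Nat.div_dvd_of_dvd (by omega)))]


/-- Let F be a finite field with q elements, q odd, ℓ any prime and S a Sylow ℓ-subgroup of SL₂ over F with normaliser N. Then SL₂ and N have the same number of irreducible complex characters of degree not divisible by ℓ (the McKay equality holds for SL₂ over F at every prime). -/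
theorem result {F : Type*} [Field F] [Fintype F] (hodd : Odd (Fintype.card F)) (ℓ : ℕ) [Fact ℓ.Prime] (S : Sylow ℓ (Matrix.SpecialLinearGroup (Fin 2) F)) :
    Nat.card {χ : Cfsg.IrrCharacter (Matrix.SpecialLinearGroup (Fin 2) F) // ¬ ℓ ∣ Cfsg.charDegree (χ : Matrix.SpecialLinearGroup (Fin 2) F → ℂ)} =
      Nat.card {ψ : Cfsg.IrrCharacter (Subgroup.normalizer ((S : Subgroup (Matrix.SpecialLinearGroup (Fin 2) F)) : Set (Matrix.SpecialLinearGroup (Fin 2) F))) //
        ¬ ℓ ∣ Cfsg.charDegree (ψ : Subgroup.normalizer ((S : Subgroup (Matrix.SpecialLinearGroup (Fin 2) F)) : Set (Matrix.SpecialLinearGroup (Fin 2) F)) → ℂ)} := by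
  classical
  change cnt ℓ _ = cnt ℓ (normalizer (S.1 : Set SL(2, F)))
  have hl : ℓ.Prime := Fact.out
  have h2 := two_ne_zero_of_odd hodd
  have ho := Nat.odd_iff.1 hodd
  have hq := Fintype.one_lt_card (α := F)
  have hG := H10.card_SL_two (F := F)
  rw [Nat.card_eq_fintype_card (α := F)] at hG
  have htop : normalizer (S.1 : Set SL(2, F)) = ⊤ →
      cnt ℓ SL(2, F) = cnt ℓ (normalizer (S.1 : Set SL(2, F))) := fun h =>
    h ▸ cnt_congr ℓ topEquiv.symm
  by_cases h0 : ¬ ℓ ∣ Nat.card SL(2, F)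
  · refine htop ?_
    rw [card_eq_one.1 (S.card_eq_multiplicity.trans (by
      rw [Nat.factorization_eq_zero_of_not_dvd h0, pow_zero])), normalizer_eq_top]
  rw [not_not] at h0
  by_cases hp : ℓ ∣ Fintype.card F
  · obtain ⟨p, _⟩ := CharP.exists F
    obtain ⟨n, hp', hn⟩ := FiniteField.card F p
    obtain rfl := (Nat.prime_dvd_prime_iff_eq hl hp').1 (hl.dvd_of_dvd_pow (hn ▸ hp))
    obtain ⟨g, rfl⟩ := MulAction.exists_smul_eq SL(2, F) (H10.unitriSylowSL (Fin 2) F ℓ) S
    refine Eq.trans ?_ (cnt_congr ℓ (((MulAut.conj g).subgroupMap _).trans (MulEquiv.subgroupCongr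
      (map_equiv_normalizer_eq (H10.unitriSylowSL (Fin 2) F ℓ).1 _))))
    rw [cnt_char hodd, cnt_of_comm, H10.coe_unitriSylowSL, H10.normalizer_unitriSL_two]
    · exact (Cfsg.Agent.S2437.result hodd).symm
    · intro a ha b hb
      obtain ⟨a1, a2, a3⟩ := H10.mem_unitriSL_two.1 ha
      obtain ⟨b1, b2, b3⟩ := H10.mem_unitriSL_two.1 hb
      simp [ent, *, add_comm]
  by_cases hl2 : ℓ ≠ 2
  · obtain ⟨g, h1, h3, h4, h5⟩ := exists_sylow_le_torus hl2 hp S h0
    have h6 := two_mul_card_conjClasses_normalizer h2 h3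
    have h7 : ℓ ∣ Nat.card (centralizer {g}) :=
      h4 ▸ orderOf_dvd_natCard _ (mem_centralizer_singleton_iff.2 rfl)
    have h8 : ¬ (ℓ ∣ Fintype.card F - 1 ∧ ℓ ∣ Fintype.card F + 1) := fun e =>
      hl2 ((Nat.prime_dvd_prime_iff_eq hl Nat.prime_two).1 (H65.dvd_two_of_dvd e.1 e.2))
    have h9 : ∀ m, 2 ∣ m → (ℓ ∣ m / 2 ↔ ℓ ∣ m) := by
      rintro _ ⟨m, rfl⟩
      rw [Nat.mul_div_cancel_left _ two_pos,
        ((Nat.coprime_primes hl Nat.prime_two).2 hl2).dvd_mul_left]
    have := hl.two_le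
    have a1 := h9 (Fintype.card F + 1) (by omega)
    have a2 := h9 (Fintype.card F - 1) (by omega)
    rw [cnt_of_comm S fun a ha b hb => commute_of_mem_centralizer (not_mem_center_of_tr h3)
      (h5 ha) (h5 hb), normalizer_eq_of_le h3 h5 h1]
    by_cases hs : Split g
    · rw [card_centralizer_of_split h3 hs, Nat.card_eq_fintype_card (α := F)] at h6 h7
      have := Nat.le_of_dvd (by omega) h7
      rw [cnt_SL hodd (by omega)]
      simp only [h7, not_and.1 h8 h7, if_true, if_false, a1, a2, hl.not_dvd_one, hp]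
      omega
    · rw [card_centralizer_of_not_split hs, Nat.card_eq_fintype_card (α := F)] at h6 h7
      have : Fintype.card F ≠ 3 := fun e => hl2 ((Nat.prime_dvd_prime_iff_eq hl Nat.prime_two).1
        (hl.dvd_of_dvd_pow (n := 2) (e ▸ h7 :)))
      rw [cnt_SL hodd (by omega)]
      simp only [h7, not_and'.1 h8 h7, if_true, if_false, a1, a2, hl.not_dvd_one, hp]
      omega
  obtain rfl := not_not.1 hl2
  obtain ⟨g, hgS, w, hwS, ht0, ht, hwi, hwT, hSN, -⟩ := exists_sylow_two_data h2 S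
  obtain ⟨-, h3, h4⟩ := Cfsg.Agent.S2431.result hodd S
  have hG4 : 5 ≤ Fintype.card F → cnt 2 SL(2, F) = 4 := fun h => by
    rw [cnt_SL hodd h]
    split_ifs <;> omega
  have hz := not_mem_center_of_tr ht
  by_cases h8 : Fintype.card F % 8 = 1 ∨ Fintype.card F % 8 = 7
  · rw [hG4 (by omega), h3 h8]
    have h5 : ((centralizer {g}).subgroupOf S.1).index = 2 := by
      have := (relIndex_le_of_le_right hSN index_ne_zero_of_finite).trans_eq
        (index_centralizer_subgroupOf_normalizer ht)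
      have a1 : (centralizer {g}).relIndex S.1 ≠ 1 := fun e => hwT (relIndex_eq_one.1 e hwS)
      have a2 : (centralizer {g}).relIndex S.1 ≠ 0 := index_ne_zero_of_finite
      exact (by omega : (centralizer {g}).relIndex S.1 = 2)
    have h6 : ∀ a ∈ (centralizer {g}).subgroupOf S.1, ∀ b ∈ (centralizer {g}).subgroupOf S.1,
        a * b = b * a := fun a ha b hb => Subtype.ext (commute_of_mem_centralizer hz ha hb)
    refine (cnt_two _ h5 h6 ((H64.two_mul_card_conjClasses_of_inverted _ h5 h6 fun v hv t h =>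
      Subtype.ext (inverts_of_inverts hz (inverts_of_mem_normalizer ht (hSN v.2) hv) h)).trans
        (congrArg (_ + 3 * ·) (Nat.card_eq_two_iff.2 ?_)))).symm
    have h7 := mul_self_eq_neg_one_of_tr ht0
    refine ⟨⟨1, one_mem _, mul_one _⟩, ⟨⟨-1, h7 ▸ mul_mem hgS hgS⟩,
      center_le_centralizer _ neg_one_mem_center, Subtype.ext (by simp)⟩,
      fun e => neg_one_ne_one h2 (congrArg (·.1.1) e).symm, Set.eq_univ_of_forall fun t => ?_⟩
    exact (mem_center_iff'.1 (mem_center_of_mul_self_eq_one h2 (congrArg (·.1) t.2.2))).imp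
      (fun e => Subtype.ext (Subtype.ext e)) fun e => Subtype.ext (Subtype.ext e)
  have hw0 := tr_eq_zero_of_inverts ht hwi
  have h5 : orderOf g = 2 ^ 2 := orderOf_eq_prime_pow (n := 1)
    (by rw [pow_one, sq, mul_self_eq_neg_one_of_tr ht0]; exact neg_one_ne_one h2)
    (by rw [pow_succ, pow_mul, pow_one, sq g, mul_self_eq_neg_one_of_tr ht0]; simp)
  have h6 : Nat.card (zpowers g ⊔ zpowers w : Subgroup _) = 8 := by
    rw [H5.card_sup_zpowers Nat.prime_two (H65.mem_normalizer_zpowers hwi)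
      (fun e => hwT (zpowers_le.2 (mem_centralizer_singleton_iff.2 rfl) e))
      (by rw [sq, mul_self_eq_neg_one_of_tr hw0, ← mul_self_eq_neg_one_of_tr ht0]
          exact mul_mem (mem_zpowers g) (mem_zpowers g)), Nat.card_zpowers, h5]
    rfl
  have h7 : Nat.card S.1 ≤ 8 := by
    obtain ⟨k, hk⟩ := IsPGroup.iff_card.1 S.2
    rw [hk]
    refine Nat.pow_le_pow_right (n := 2) (j := 3) two_pos (not_lt.1 fun e => ?_)
    have := (pow_dvd_pow 2 e).trans (hk ▸ hG ▸ card_subgroup_dvd_card S.1)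
    rw [mul_assoc, (Nat.Coprime.pow_left _ (Nat.coprime_two_left.2 hodd)).dvd_mul_left] at this
    replace this : 16 ∣ _ := this
    obtain ⟨m, hm⟩ : ∃ m, Fintype.card F = 8 * m + 3 ∨ Fintype.card F = 8 * m + 5 :=
      ⟨Fintype.card F / 8, by omega⟩
    rcases hm with hm | hm <;> rw [hm] at this
    · rw [show (8 * m + 3 - 1) * (8 * m + 3 + 1) = 16 * (4 * m * m + 3 * m) + 8 by
        rw [Nat.add_succ_sub_one]; ring] at this
      omega
    · rw [show (8 * m + 5 - 1) * (8 * m + 5 + 1) = 16 * (4 * m * m + 5 * m + 1) + 8 by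
        rw [Nat.add_succ_sub_one]; ring] at this
      omega
  have h9 : zpowers g ⊔ zpowers w = S.1 :=
    eq_of_le_of_card_ge (sup_le (zpowers_le.2 hgS) (zpowers_le.2 hwS)) (h6 ▸ h7)
  have h10 := h4 (by omega)
  rw [← h9, h6, h9] at h10
  by_cases h3 : Fintype.card F = 3
  · exact htop (eq_top_of_card_eq _ (by rw [h10, hG, h3]))
  obtain ⟨h, a1, a2, -⟩ := exists_order_three_perm h2 ht0 hw0 (tr_eq_zero_of_inverts ht (by
    rw [mul_inv_rev, mul_assoc g, mul_assoc g, ← mul_assoc _ w⁻¹, hwi, mul_inv_cancel_left]))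
  have hN : h ∈ normalizer (S.1 : Set SL(2, F)) := mem_normalizer_fintype fun x hx => by
    have : S.1 ≤ S.1.comap (MulAut.conj h).toMonoidHom := h9.ge.trans (sup_le
      (zpowers_le.2 (show h * g * h⁻¹ ∈ S.1 from a1 ▸ hwS))
      (zpowers_le.2 (show h * w * h⁻¹ ∈ S.1 from a2 ▸ mul_mem hgS hwS)))
    exact this hx
  have h12 : (S.1.subgroupOf (normalizer (S.1 : Set SL(2, F)))).index = 3 := by
    have := card_mul_index (S.1.subgroupOf (normalizer (S.1 : Set SL(2, F))))
    rw [Nat.card_congr (subgroupOfEquivOfLe le_normalizer).toEquiv, h10, ← h9, h6, h9] at this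
    omega
  rw [hG4 (by omega), cnt_24 h10 (h12 ▸ congrArg index (le_antisymm ?_ ?_))]
  · have := isCyclic_of_prime_card (p := 3) h12
    exact Subgroup.Normal.quotient_commutative_iff_commutator_le.1 inferInstance
  · have b := fun x (hx : x ∈ S.1) => commutator_mem_commutator hN (le_normalizer hx)
    have b1 := b w hwS
    have b2 := b g hgS
    rw [commutatorElement_def, a2, mul_inv_cancel_right] at b1
    rw [commutatorElement_def, a1] at b2
    rw [← map_subtype_le_map_subtype, map_subtype_commutator, subgroupOf_map_subtype]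
    exact inf_le_left.trans (h9.ge.trans (sup_le (zpowers_le.2 b1)
      (zpowers_le.2 (by simpa using mul_mem b2 b1))))

end Cfsg.Agent.S2436
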