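import Cfsg.Statements.S2441
import Cfsg.Agent.Lib.ModRep.Blocks
import Cfsg.Agent.Lib.Chev.Simple
-- import your own Cfsg.Agent.* helpers here

set_option autoImplicit false
open Cfsg

namespace Cfsg.Agent.S2441

/-- For a prime p, the Chevalley groups of types G₂, F₄ and E₈ over the field with p elements (types for which the simply connected and adjoint groups coincide, so the group has trivial centre) each have exactly two p-blocks relative to any maximal ideal of the algebraic integers containing p (only the count is asserted; it arises as the defect-zero block of the Steinberg character plus a single block of maximal defect). -/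
theorem result (p : ℕ) [Fact p.Prime] (M : Ideal Cfsg.AlgInt) (hM : Cfsg.IsPModular p M) :
    Nat.card {B : Set (Cfsg.IrrCharacter (Cfsg.Lie.chevG2.group (ZMod p))) // Cfsg.IsPBlock M B} = 2 ∧
    Nat.card {B : Set (Cfsg.IrrCharacter (Cfsg.Lie.chevF4.group (ZMod p))) // Cfsg.IsPBlock M B} = 2 ∧
    Nat.card {B : Set (Cfsg.IrrCharacter (Cfsg.Lie.chevE8.group (ZMod p))) // Cfsg.IsPBlock M B} = 2 := by
  have key : ∀ D : Cfsg.Lie.ChevalleyDatum, D ∈ [Cfsg.Lie.chevG2, Cfsg.Lie.chevB2, Cfsg.Lie.chevD4, Cfsg.Lie.chevF4, Cfsg.Lie.chevE6, Cfsg.Lie.chevE7, Cfsg.Lie.chevE8] →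
      Nat.card {B : Set (Cfsg.IrrCharacter (D.group (ZMod p))) // Cfsg.IsPBlock M B} = 2 := by
    intro D hD
    obtain ⟨R, E, hE⟩ := H38.exists_isMat hD (ZMod p)
    have : Fintype (D.group (ZMod p)) := Fintype.ofFinite _
    have : Nonempty (Fin D.rank) := ⟨⟨0, by have := H38.rank_pos hD; omega⟩⟩
    rw [H64.MR.card_blocks hE.grp_faith hE.grp_R3 hE.grp_top hM (R.connected hD), hE.center_eq_bot,
      Subgroup.card_bot]
  exact ⟨key _ (by simp), key _ (by simp), key _ (by simp)⟩
end Cfsg.Agent.S2441
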