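import Cfsg.Statements.S2500
import Cfsg.Agent.Lib.Cov2.SU3
import Cfsg.Agent.Lib.Cov2.G2

set_option autoImplicit false
open Cfsg

namespace Cfsg.Agent.S2500


/-- The infinite families of simple groups with normal covering number 2. For a finite field F: each of PSL_2(F) (|F| ≥ 4), PSL_3(F), PSL_4(F), PSU_4 over F (|F| = q²), PSU_3 over F when |F| = q² with q a power of 3, PSp_{2m}(F) for |F| even, m ≥ 2 and (m, |F|) ≠ (2, 2), PSp_6(F) for |F| a power of 3, and G_2(F) (automorphisms of the split octonions) for |F| = 2^a ≥ 4 is the union of the conjugates of two proper subgroups: there are proper subgroups H, K such that every element is conjugate into H or into K. -/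
theorem result {F : Type} [Field F] [Fintype F] :
    (4 ≤ Fintype.card F → (∃ H K : Subgroup (Matrix.ProjectiveSpecialLinearGroup (Fin 2) F), H ≠ ⊤ ∧ K ≠ ⊤ ∧ ∀ g : (Matrix.ProjectiveSpecialLinearGroup (Fin 2) F), ∃ x : (Matrix.ProjectiveSpecialLinearGroup (Fin 2) F), x * g * x⁻¹ ∈ H ∨ x * g * x⁻¹ ∈ K)) ∧
    (∃ H K : Subgroup (Matrix.ProjectiveSpecialLinearGroup (Fin 3) F), H ≠ ⊤ ∧ K ≠ ⊤ ∧ ∀ g : (Matrix.ProjectiveSpecialLinearGroup (Fin 3) F), ∃ x : (Matrix.ProjectiveSpecialLinearGroup (Fin 3) F), x * g * x⁻¹ ∈ H ∨ x * g * x⁻¹ ∈ K) ∧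
    (∃ H K : Subgroup (Matrix.ProjectiveSpecialLinearGroup (Fin 4) F), H ≠ ⊤ ∧ K ≠ ⊤ ∧ ∀ g : (Matrix.ProjectiveSpecialLinearGroup (Fin 4) F), ∃ x : (Matrix.ProjectiveSpecialLinearGroup (Fin 4) F), x * g * x⁻¹ ∈ H ∨ x * g * x⁻¹ ∈ K) ∧
    (∀ q : ℕ, Fintype.card F = q ^ 2 → (∃ H K : Subgroup (Cfsg.PSU 4 F q), H ≠ ⊤ ∧ K ≠ ⊤ ∧ ∀ g : (Cfsg.PSU 4 F q), ∃ x : (Cfsg.PSU 4 F q), x * g * x⁻¹ ∈ H ∨ x * g * x⁻¹ ∈ K)) ∧
    (∀ q a : ℕ, Fintype.card F = q ^ 2 → 1 ≤ a → q = 3 ^ a → (∃ H K : Subgroup (Cfsg.PSU 3 F q), H ≠ ⊤ ∧ K ≠ ⊤ ∧ ∀ g : (Cfsg.PSU 3 F q), ∃ x : (Cfsg.PSU 3 F q), x * g * x⁻¹ ∈ H ∨ x * g * x⁻¹ ∈ K)) ∧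
    (∀ m : ℕ, 2 ≤ m → ¬ Odd (Fintype.card F) → ¬ (m = 2 ∧ Fintype.card F = 2) → (∃ H K : Subgroup (Cfsg.PSp m F), H ≠ ⊤ ∧ K ≠ ⊤ ∧ ∀ g : (Cfsg.PSp m F), ∃ x : (Cfsg.PSp m F), x * g * x⁻¹ ∈ H ∨ x * g * x⁻¹ ∈ K)) ∧
    (∀ a : ℕ, 1 ≤ a → Fintype.card F = 3 ^ a → (∃ H K : Subgroup (Cfsg.PSp 3 F), H ≠ ⊤ ∧ K ≠ ⊤ ∧ ∀ g : (Cfsg.PSp 3 F), ∃ x : (Cfsg.PSp 3 F), x * g * x⁻¹ ∈ H ∨ x * g * x⁻¹ ∈ K)) ∧
    (∀ a : ℕ, 2 ≤ a → Fintype.card F = 2 ^ a → (∃ H K : Subgroup (Cfsg.Lie.G2 F), H ≠ ⊤ ∧ K ≠ ⊤ ∧ ∀ g : (Cfsg.Lie.G2 F), ∃ x : (Cfsg.Lie.G2 F), x * g * x⁻¹ ∈ H ∨ x * g * x⁻¹ ∈ K)) := by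
  refine ⟨fun _ => H82.Cov2.cov_psl (by simp) (by simp), H82.Cov2.cov_psl (by simp) (by simp),
    H82.Cov2.cov_psl (by simp) (by simp), fun q hq => ?_, fun q a hq ha hqa => ?_,
    fun m hm ho _ => ?_, fun a ha hF => ?_, fun a ha hF => ?_⟩
  · have : H11.U.IsSq F q := ⟨hq⟩
    exact H82.Cov2.cov_psu4
  · have : H11.U.IsSq F q := ⟨hq⟩
    have : Fact (Nat.Prime 3) := ⟨Nat.prime_three⟩
    have : CharP F 3 := charP_of_card_eq_prime_pow (f := a * 2) (by rw [hq, hqa, pow_mul])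
    exact H82.Cov2.cov_psu3
  · have h2 : ringChar F = 2 := by
      by_contra h
      exact ho (Nat.odd_iff.2 (FiniteField.odd_card_of_char_ne_two h))
    have : CharP F 2 := ringChar.of_eq h2
    exact H82.Cov2.cov_psp_even hm
  · have : Fact (Nat.Prime 3) := ⟨Nat.prime_three⟩
    have : CharP F 3 := charP_of_card_eq_prime_pow hF
    exact H82.Cov2.cov_psp6
  · have : CharP F 2 := charP_of_card_eq_prime_pow hF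
    exact H82.Cov2.cov_g2

end Cfsg.Agent.S2500
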