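import Cfsg.Statements.S2531
import Cfsg.Agent.Base

set_option autoImplicit false
open Cfsg

namespace Cfsg.Agent.S2531

section
variable {F V : Type*} [Field F] [AddCommGroup V] [Module F V]

theorem mk_le_iff {v : V} (hv : v ≠ 0) (W : Submodule F V) :
    (Projectivization.mk F v hv).submodule ≤ W ↔ v ∈ W := by
  rw [Projectivization.submodule_mk, Submodule.span_singleton_le_iff_mem]

theorem cast_card_proj [Finite F] [Finite V] [Nontrivial V] :
    ((Nat.card (Projectivization F V) : ℕ) : F) = 1 := by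
  have := Fintype.ofFinite F
  have h := Projectivization.card' F V
  have hq : ((Nat.card F : ℕ) : F) = 0 := by
    rw [Nat.card_eq_fintype_card]; exact FiniteField.cast_card_eq_zero F
  have hV : ((Nat.card V : ℕ) : F) = 0 := by
    rw [Module.natCard_eq_pow_finrank (K := F) (V := V), Nat.cast_pow, hq,
      zero_pow Module.finrank_pos.ne']
  rw [h, Nat.cast_add, Nat.cast_mul, Nat.cast_sub Finite.card_pos, hq] at hV
  push_cast at hV
  linear_combination -hV

theorem cast_card_pts [Finite F] [Finite V] (W : Submodule F V) (hW : W ≠ ⊥) :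
    ((Nat.card {x : Projectivization F V // x.submodule ≤ W} : ℕ) : F) = 1 := by
  have : Nontrivial W := Submodule.nontrivial_iff_ne_bot.2 hW
  rw [← cast_card_proj (F := F) (V := W)]
  congr 1
  symm
  refine Nat.card_congr (Equiv.ofBijective (fun y => ⟨Projectivization.map W.subtype
    W.injective_subtype y, ?_⟩) ⟨fun a b h => ?_, ?_⟩)
  · induction y using Projectivization.ind with
    | h v hv => rw [Projectivization.map_mk, mk_le_iff]; exact v.2
  · exact Projectivization.map_injective (τ := RingHom.id F) _ W.injective_subtype (congrArg Subtype.val h)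
  · rintro ⟨x, hx⟩
    induction x using Projectivization.ind with
    | h v hv =>
      rw [mk_le_iff] at hx
      exact ⟨Projectivization.mk F ⟨v, hx⟩ (fun h => hv (congrArg Subtype.val h)), rfl⟩
end


/-- Let `F` be a finite field and `n ≥ 3`. No set of permutations of the points of the projective space of `Fⁿ`, each induced by an invertible semilinear transformation of `Fⁿ` (so a subset of the full projective semilinear group), is sharply 2-transitive on the points: it is impossible that for all pairs of distinct points `(a, b)` and `(c, d)` exactly one member of the set sends `a` to `c` and `b` to `d`. -/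
theorem result {F : Type*} [Field F] [Finite F]
    (n : ℕ) (hn : 3 ≤ n) (S : Set (Equiv.Perm (Projectivization F (Fin n → F))))
    (hS : ∀ s ∈ S, ∃ (σ : F ≃+* F) (f : (Fin n → F) →ₛₗ[(σ : F →+* F)] (Fin n → F)) (hf : Function.Injective f),
      ∀ x, s x = Projectivization.map f hf x) :
    ¬ (∀ a b c d : Projectivization F (Fin n → F), a ≠ b → c ≠ d →
        ∃! s, s ∈ S ∧ s a = c ∧ s b = d) := by
  classical
  intro h
  obtain ⟨k, rfl⟩ := Nat.exists_eq_add_of_le' hn
  let W : Submodule F (Fin (k + 3) → F) := LinearMap.ker (LinearMap.proj 0)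
  have hW : ∀ v, v ∈ W ↔ v 0 = 0 := fun v => Iff.rfl
  have he : ∀ i : Fin (k + 3), (Pi.single i 1 : Fin (k + 3) → F) ≠ 0 := fun i h => by
    simpa using congrFun h i
  let ω := Projectivization.mk F _ (he 0)
  have hω : ¬ ω.submodule ≤ W := by rw [mk_le_iff, hW]; simp
  let B := {x : Projectivization F (Fin (k + 3) → F) // x.submodule ≤ W}
  have hBω : ∀ b : B, ω ≠ b.1 := fun b hb => hω (hb ▸ b.2)
  let b₀ : B := ⟨Projectivization.mk F _ (he 1), by rw [mk_le_iff, hW]; simp⟩
  let T := {s : Equiv.Perm (Projectivization F (Fin (k + 3) → F)) // s ∈ S ∧ s ω = ω}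
  have hB : ((Nat.card B : ℕ) : F) = 1 := cast_card_pts W fun h0 => by
    have := b₀.2.trans h0.le
    rw [mk_le_iff] at this
    exact he 1 this
  have hT : ((Nat.card T : ℕ) : F) = 0 := by
    have h1 : Nat.card T = Nat.card {c : Projectivization F (Fin (k + 3) → F) // ¬ c = ω} := by
      refine Nat.card_congr (Equiv.ofBijective (fun s => ⟨s.1 b₀.1, fun hc => hBω b₀
        (s.1.injective (s.2.2.trans hc.symm))⟩) ⟨fun s t hst => ?_, fun c => ?_⟩)
      · have hst' : s.1 b₀.1 = t.1 b₀.1 := congrArg Subtype.val hst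
        exact Subtype.ext ((h ω b₀.1 ω (t.1 b₀.1) (hBω b₀) fun hc => hBω b₀
          (t.1.injective (t.2.2.trans hc))).unique ⟨s.2.1, s.2.2, hst'⟩ ⟨t.2.1, t.2.2, rfl⟩)
      · obtain ⟨s, hs, -⟩ := h ω b₀.1 ω c.1 (hBω b₀) (Ne.symm c.2)
        exact ⟨⟨s, hs.1, hs.2.1⟩, Subtype.ext hs.2.2⟩
    have := Fintype.ofFinite (Projectivization F (Fin (k + 3) → F))
    rw [h1, Nat.card_eq_fintype_card, Fintype.card_subtype_compl, Fintype.card_subtype_eq,
      Nat.cast_sub Fintype.card_pos, ← Nat.card_eq_fintype_card, cast_card_proj]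
    simp
  have hfib : ∀ s : T, ((Nat.card {b : B // (s.1 b.1).submodule ≤ W} : ℕ) : F) = 1 := by
    intro s
    obtain ⟨σ, f, hf, hs⟩ := hS s.1 s.2.1
    rw [← cast_card_pts (W ⊓ W.comap f) ?_]
    · congr 1
      refine Nat.card_congr ((Equiv.subtypeSubtypeEquivSubtypeInter _
        (fun x => (s.1 x).submodule ≤ W)).trans (Equiv.subtypeEquivRight fun x => ?_))
      induction x using Projectivization.ind with
      | h v hv =>
        rw [hs, Projectivization.map_mk, mk_le_iff, mk_le_iff, mk_le_iff]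
        rfl
    · intro h0
      have hinj : Function.Injective (fun v : Fin (k + 3) → F => (v 0, f v 0)) := by
        intro u v huv
        rw [← sub_eq_zero, ← Submodule.mem_bot F, ← h0]
        simp only [Prod.mk.injEq] at huv
        refine ⟨?_, ?_⟩
        · change (u - v) 0 = 0
          rw [Pi.sub_apply, huv.1, sub_self]
        · change f (u - v) 0 = 0
          rw [map_sub, Pi.sub_apply, huv.2, sub_self]
      have := Nat.card_le_card_of_injective _ hinj
      rw [Nat.card_fun, Nat.card_prod, Nat.card_eq_fintype_card (α := Fin _), Fintype.card_fin,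
        ← sq, Nat.pow_le_pow_iff_right Finite.one_lt_card] at this
      omega
  have hcount : Nat.card (Σ s : T, {b : B // (s.1 b.1).submodule ≤ W}) = Nat.card (B × B) := by
    refine Nat.card_congr (Equiv.ofBijective (fun x => (x.2.1, ⟨_, x.2.2⟩)) ⟨?_, ?_⟩)
    · rintro ⟨s, b, hb⟩ ⟨t, c, hc⟩ hst
      simp only [Prod.mk.injEq] at hst
      obtain ⟨rfl, h2⟩ := hst
      have h3 : s.1 b.1 = t.1 b.1 := congrArg Subtype.val h2
      obtain rfl : s = t := Subtype.ext ((h ω b.1 ω (t.1 b.1) (hBω b) (hBω ⟨_, hc⟩)).unique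
        ⟨s.2.1, s.2.2, h3⟩ ⟨t.2.1, t.2.2, rfl⟩)
      rfl
    · rintro ⟨b, c⟩
      obtain ⟨s, hs, -⟩ := h ω b.1 ω c.1 (hBω b) (hBω c)
      exact ⟨⟨⟨s, hs.1, hs.2.1⟩, b, by rw [hs.2.2]; exact c.2⟩, Prod.ext rfl (Subtype.ext hs.2.2)⟩
  have := Fintype.ofFinite T
  have h2 := congrArg (Nat.cast : ℕ → F) hcount
  rw [Nat.card_sigma, Nat.card_prod, Nat.cast_sum, Nat.cast_mul, hB] at h2
  simp only [hfib, Finset.sum_const, Finset.card_univ, ← Nat.card_eq_fintype_card, nsmul_eq_mul,
    hT] at h2
  simp at h2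

end Cfsg.Agent.S2531
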