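import Cfsg.Statements.S2532
import Cfsg.Agent.Base

set_option autoImplicit false
open Cfsg

namespace Cfsg.Agent.S2532

open MulAction in
theorem exists_embedding {H X : Type*} [Group H] [Finite H] [Finite X] [MulAction H X] (r : ℕ)
    (h : Nat.card H * (2 ^ Nat.card H * r) < Nat.card X) :
    ∃ (K : Subgroup H) (ι : (H ⧸ K) × Fin r ↪ X), ∀ (g : H) q i, ι (g • q, i) = g • ι (q, i) := by
  classical
  have hsurj : Function.Surjective fun x : H × orbitRel.Quotient H X => x.1 • x.2.out := by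
    intro y
    obtain ⟨g, hg⟩ : y ∈ orbit H (Quotient.mk (orbitRel H X) y).out :=
      orbitRel_apply.1 (Quotient.exact (Quotient.out_eq (Quotient.mk (orbitRel H X) y)).symm)
    exact ⟨(g, _), hg⟩
  have h1 := Nat.card_le_card_of_surjective _ hsurj
  rw [Nat.card_prod] at h1
  have h2 : Nat.card (Subgroup H) ≤ 2 ^ Nat.card H := by
    have := Nat.card_le_card_of_injective (fun K : Subgroup H => (K : Set H)) SetLike.coe_injective
    have := Fintype.ofFinite H
    rwa [Nat.card_eq_fintype_card (α := Set H), Fintype.card_set, ← Nat.card_eq_fintype_card] at *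
  have h3 : Nat.card (Subgroup H) * r < Nat.card (orbitRel.Quotient H X) :=
    (Nat.mul_le_mul_right r h2).trans_lt (Nat.lt_of_mul_lt_mul_left (h.trans_le h1))
  have := Fintype.ofFinite (Subgroup H)
  have := Fintype.ofFinite (orbitRel.Quotient H X)
  rw [Nat.card_eq_fintype_card, Nat.card_eq_fintype_card] at h3
  obtain ⟨K, hK⟩ := Fintype.exists_lt_card_fiber_of_mul_lt_card
    (fun ω : orbitRel.Quotient H X => stabilizer H ω.out) h3
  obtain ⟨x, hx⟩ := Function.Embedding.exists_of_card_le_finset (α := Fin r)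
    (by rw [Fintype.card_fin]; exact hK.le)
  have hxK : ∀ i, stabilizer H (x i).out = K := fun i =>
    (Finset.mem_filter.1 (hx ⟨i, rfl⟩)).2
  have key : ∀ (a b : H) i, (a : H ⧸ K) = b ↔ a • (x i).out = b • (x i).out := fun a b i => by
    rw [QuotientGroup.eq, ← hxK i, mem_stabilizer_iff, mul_smul, inv_smul_eq_iff, eq_comm]
  refine ⟨K, ⟨fun y => y.1.out • (x y.2).out, ?_⟩, fun g q i => ?_⟩
  · rintro ⟨a, i⟩ ⟨b, j⟩ hab
    dsimp only at hab
    obtain rfl : i = j := by
      apply x.injective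
      rw [← Quotient.out_eq (x i), ← Quotient.out_eq (x j)]
      apply Quotient.sound
      exact ⟨a.out⁻¹ * b.out, by simp only [mul_smul, ← hab, inv_smul_smul]⟩
    rw [← key, QuotientGroup.out_eq', QuotientGroup.out_eq'] at hab
    rw [hab]
  · change (g • q).out • (x i).out = g • q.out • (x i).out
    rw [← mul_smul, ← key, QuotientGroup.out_eq', ← smul_eq_mul, ← Quotient.smul_coe,
      QuotientGroup.out_eq']


/-- There is a function `f` of two natural-number arguments such that, whenever `m ≥ f(n, r)`, every subgroup of order `n` of the alternating group of degree `m` centralizes some subgroup of that alternating group isomorphic to the alternating group of degree `r`. -/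
theorem result :
    ∃ f : ℕ → ℕ → ℕ, ∀ (m r : ℕ) (H : Subgroup ↥(alternatingGroup (Fin m))), f (Nat.card H) r ≤ m →
      ∃ K : Subgroup ↥(alternatingGroup (Fin m)), Nonempty (↥K ≃* ↥(alternatingGroup (Fin r))) ∧
        K ≤ Subgroup.centralizer (H : Set ↥(alternatingGroup (Fin m))) := by
  classical
  refine ⟨fun n r => n * (2 ^ n * r) + 1, fun m r H hm => ?_⟩
  obtain ⟨K, ι, hι⟩ := exists_embedding (H := H) (X := Fin m) r (by simpa using hm)
  have := Fintype.ofFinite (H ⧸ K)
  let ρ : Equiv.Perm (Fin r) →* Equiv.Perm ((H ⧸ K) × Fin r) :=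
    MonoidHom.mk' (fun σ => Equiv.prodCongrRight fun _ => σ) fun a b => rfl
  let φ : Equiv.Perm (Fin r) →* Equiv.Perm (Fin m) := (Equiv.Perm.viaEmbeddingHom ι).comp ρ
  have hφ : ∀ σ q i, φ σ (ι (q, i)) = ι (q, σ i) := fun σ q i =>
    Equiv.Perm.viaEmbedding_apply (ρ σ) ι (q, i)
  have hφ' : ∀ σ y, y ∉ Set.range ι → φ σ y = y := fun σ y hy =>
    Equiv.Perm.viaEmbedding_apply_of_notMem (ρ σ) ι y hy
  have hsign : ∀ σ : alternatingGroup (Fin r), φ σ ∈ alternatingGroup (Fin m) := fun σ => by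
    rw [Equiv.Perm.mem_alternatingGroup]
    have h1 : φ σ = (ρ σ).viaFintypeEmbedding ι := by
      ext y
      by_cases hy : y ∈ Set.range ι
      · obtain ⟨⟨q, i⟩, rfl⟩ := hy
        rw [hφ, Equiv.Perm.viaFintypeEmbedding_apply_image]; rfl
      · rw [hφ' _ _ hy, Equiv.Perm.viaFintypeEmbedding_apply_notMem_range _ _ hy]
    rw [h1, Equiv.Perm.viaFintypeEmbedding_sign]
    refine (Equiv.Perm.sign_prodCongrRight fun _ : H ⧸ K => (σ : Equiv.Perm (Fin r))).trans ?_
    simp [Equiv.Perm.mem_alternatingGroup.1 σ.2]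
  let ψ : alternatingGroup (Fin r) →* alternatingGroup (Fin m) :=
    (φ.comp (alternatingGroup (Fin r)).subtype).codRestrict _ hsign
  have hψ : Function.Injective ψ := by
    intro a b hab
    have h1 : φ a = φ b := congrArg Subtype.val hab
    ext i
    have h2 := hφ a (1 : H) i
    rw [h1, hφ] at h2
    exact congrArg Fin.val (Prod.ext_iff.1 (ι.injective h2)).2.symm
  refine ⟨ψ.range, ⟨(MonoidHom.ofInjective hψ).symm⟩, ?_⟩
  rintro _ ⟨σ, rfl⟩
  rw [Subgroup.mem_centralizer_iff]
  intro h hh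
  ext y
  congr 1
  change (⟨h, hh⟩ : H) • φ σ y = φ σ ((⟨h, hh⟩ : H) • y)
  by_cases hy : y ∈ Set.range ι
  · obtain ⟨⟨q, i⟩, rfl⟩ := hy
    rw [hφ, ← hι, ← hι, hφ]
  · rw [hφ' _ _ hy, hφ']
    rintro ⟨⟨q, i⟩, hq⟩
    exact hy ⟨((⟨h, hh⟩ : H)⁻¹ • q, i), by rw [hι, hq, inv_smul_smul]⟩

end Cfsg.Agent.S2532
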