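import Cfsg.Statements.S2533
import Cfsg.Agent.Lib.GL.Basic

set_option autoImplicit false
open Cfsg

namespace Cfsg.Agent.S2533

open Matrix

/-- the group `p³ : 2` -/
def HH (p : ℕ) : Type := (Fin 3 → ZMod p) × ℤˣ

instance instMulHH (p : ℕ) : Mul (HH p) := ⟨fun x y => (y.2 • x.1 + y.1, x.2 * y.2)⟩
instance instOneHH (p : ℕ) : One (HH p) := ⟨(0, 1)⟩
instance instInvHH (p : ℕ) : Inv (HH p) := ⟨fun x => (-(x.2 • x.1), x.2)⟩
instance instGroupHH (p : ℕ) : Group (HH p) := Group.ofLeftAxioms
  (fun x y z => Prod.ext (by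
    change z.2 • (y.2 • x.1 + y.1) + z.1 = (y.2 * z.2) • x.1 + (z.2 • y.1 + z.1)
    rw [smul_add, mul_comm, mul_smul, add_assoc]) (mul_assoc _ _ _))
  (fun x => Prod.ext (by change x.2 • (0 : Fin 3 → ZMod p) + x.1 = x.1; simp) (one_mul _))
  (fun x => Prod.ext (by
    change x.2 • -(x.2 • x.1) + x.1 = 0
    rw [smul_neg, ← mul_smul, Int.units_mul_self, one_smul, neg_add_cancel])
    (Int.units_mul_self _))

section
variable {p : ℕ} [Fact p.Prime]

/-- multiplication by `a₀ + a₁ X + a₂ X²` -/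
def M (n : ℕ) (a : Fin 3 → ZMod p) : Matrix (Fin (n + 2)) (Fin n) (ZMod p) :=
  Matrix.of fun i j => ∑ k : Fin 3, if i.val = j.val + k.val then a k else 0

theorem M_add (n : ℕ) (a b : Fin 3 → ZMod p) : M n (a + b) = M n a + M n b := by
  ext i j
  simp only [M, of_apply, Matrix.add_apply, ← Finset.sum_add_distrib]
  exact Finset.sum_congr rfl fun k _ => by split_ifs <;> simp

theorem M_smul (n : ℕ) (e : ℤˣ) (a : Fin 3 → ZMod p) : M n (e • a) = e • M n a := by
  ext i j
  simp only [M, of_apply, Matrix.smul_apply, Finset.smul_sum]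
  exact Finset.sum_congr rfl fun k _ => by split_ifs <;> simp

theorem M_single (n : ℕ) (k : Fin 3) (i : Fin (n + 2)) (j : Fin n) :
    M (p := p) n (Pi.single k 1) i j = if i.val = j.val + k.val then 1 else 0 := by
  rw [M, of_apply, Finset.sum_eq_single k]
  · simp
  · intro l _ hl; simp [hl]
  · simp

/-- the representation -/
def ψ (n : ℕ) (hn : Even n) : HH p →* SpecialLinearGroup (Fin n ⊕ Fin (n + 2)) (ZMod p) :=
  MonoidHom.mk' (fun x => ⟨fromBlocks (x.2 • 1) 0 (M n x.1) 1, by
    rw [det_fromBlocks_zero₁₂, det_one, mul_one]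
    rcases Int.units_eq_one_or x.2 with h | h
    · simp [h]
    · simp [h, det_neg, hn.neg_one_pow]⟩) fun x y => Subtype.ext (by
      change fromBlocks ((x.2 * y.2) • 1) 0 (M n (y.2 • x.1 + y.1)) 1 = fromBlocks _ _ _ _ * fromBlocks _ _ _ _
      rw [fromBlocks_multiply, M_add, M_smul]
      simp [mul_smul, smul_comm x.2 y.2])

theorem ψ_val (n : ℕ) (hn : Even n) (x : HH p) :
    (ψ n hn x).1 = fromBlocks (x.2 • 1) 0 (M n x.1) 1 := rfl

theorem trace_ψ (n : ℕ) (hn : Even n) (x : HH p) :
    (ψ n hn x).1.trace = ((x.2 : ℤ) : ZMod p) * n + (n + 2) := by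
  rw [ψ_val, trace]
  rcases Int.units_eq_one_or x.2 with h | h <;> simp [h, Fintype.sum_sum_type]

theorem scalar_of_commute (hp : p ≠ 2) (n : ℕ) (hn : Even (n + 1))
    (g : Matrix (Fin (n + 1) ⊕ Fin (n + 1 + 2)) (Fin (n + 1) ⊕ Fin (n + 1 + 2)) (ZMod p))
    (h : ∀ x : HH p, (ψ _ hn x).1 * g = g * (ψ _ hn x).1) : ∃ c, g = scalar _ c := by
  have h2 : (2 : ZMod p) ≠ 0 := fun h => hp ((Nat.prime_dvd_prime_iff_eq Fact.out Nat.prime_two).1
    ((ZMod.natCast_eq_zero_iff 2 p).1 h))
  obtain ⟨A, B, C, D, rfl⟩ : ∃ A B C D, g = fromBlocks A B C D := ⟨_, _, _, _, (fromBlocks_toBlocks g).symm⟩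
  have hM0 : M (p := p) (n + 1) 0 = 0 := by ext; simp [M]
  have h1 := h (0, -1)
  rw [ψ_val _ hn (0, -1), fromBlocks_multiply, fromBlocks_multiply, fromBlocks_inj] at h1
  simp only [hM0, Units.neg_smul, one_smul, Matrix.neg_mul, Matrix.one_mul, Matrix.zero_mul, add_zero,
    Matrix.mul_neg, Matrix.mul_one, Matrix.mul_zero, zero_add] at h1
  have hB : B = 0 := by
    ext i j
    have := congrFun₂ h1.2.1 i j
    rw [neg_apply] at this
    exact (mul_eq_zero.1 (by linear_combination -this : 2 * B i j = 0)).resolve_left h2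
  have hC : C = 0 := by
    ext i j
    have := congrFun₂ h1.2.2.1 i j
    rw [neg_apply] at this
    exact (mul_eq_zero.1 (by linear_combination this : 2 * C i j = 0)).resolve_left h2
  subst hB hC
  have h3 : ∀ (k : Fin 3) (i : Fin (n + 1 + 2)) (j : Fin (n + 1)),
      D i ⟨j + k, by omega⟩ = ∑ l : Fin (n + 1), if i.val = l.val + k.val then A l j else 0 := by
    intro k i j
    have h4 := h (Pi.single k 1, 1)
    rw [ψ_val _ hn (Pi.single k 1, 1), fromBlocks_multiply, fromBlocks_multiply, fromBlocks_inj] at h4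
    have h5 := congrFun₂ h4.2.2.1 i j
    simp only [Matrix.mul_zero, add_zero, Matrix.zero_mul, zero_add, mul_apply, M_single, ite_mul,
      one_mul, zero_mul, mul_ite, mul_one, mul_zero] at h5
    rw [h5, Finset.sum_eq_single ⟨j + k, by omega⟩]
    · simp
    · intro l _ hl
      rw [if_neg fun h => hl (Fin.ext h)]
    · simp
  have h3' : ∀ (k : Fin 3) (i : Fin (n + 1 + 2)) (j : Fin (n + 1)),
      D i ⟨j + k, by omega⟩ = if h : k.val ≤ i.val ∧ i.val - k.val < n + 1 then A ⟨_, h.2⟩ j else 0 := by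
    intro k i j
    rw [h3]
    split_ifs with h
    · rw [Finset.sum_eq_single ⟨_, h.2⟩, if_pos (by simp; omega)]
      · intro l _ hl
        rw [if_neg fun h' => hl (Fin.ext (by simp; omega))]
      · simp
    · exact Finset.sum_eq_zero fun l _ => if_neg (by omega)
  -- `D` is a Toeplitz matrix
  let d : ℕ → ℕ → ZMod p := fun i j => if h : i < n + 1 + 2 ∧ j < n + 1 + 2 then D ⟨i, h.1⟩ ⟨j, h.2⟩ else 0
  let a : ℕ → ℕ → ZMod p := fun i j => if h : i < n + 1 ∧ j < n + 1 then A ⟨i, h.1⟩ ⟨j, h.2⟩ else 0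
  have hd : ∀ i j : Fin (n + 1 + 2), D i j = d i j := fun i j => by simp only [d, dif_pos (And.intro i.2 j.2)]
  have ha : ∀ i j : Fin (n + 1), A i j = a i j := fun i j => by simp only [a, dif_pos (And.intro i.2 j.2)]
  have hR : ∀ k < 3, ∀ i < n + 1 + 2, ∀ j < n + 1, d i (j + k) = if k ≤ i then a (i - k) j else 0 := by
    intro k hk i hi j hj
    have := h3' ⟨k, hk⟩ ⟨i, hi⟩ ⟨j, hj⟩
    rw [hd] at this
    rw [this]
    by_cases h1 : k ≤ i
    · by_cases h2 : i - k < n + 1
      · rw [dif_pos ⟨h1, h2⟩, if_pos h1, ha]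
      · rw [dif_neg fun h => h2 h.2, if_pos h1]
        simp only [a, h2, false_and, dif_neg, not_false_eq_true]
    · rw [dif_neg fun h => h1 h.1, if_neg h1]
  have hT : ∀ i < n + 2, ∀ j < n + 2, d (i + 1) (j + 1) = d i j := fun i hi j hj => by
    by_cases h1 : j < n + 1
    · rw [hR 1 (by omega) _ (by omega) j h1, ← add_zero j, hR 0 (by omega) i (by omega) j h1]
      simp
    · obtain rfl : j = n + 1 := by omega
      rw [hR 2 (by omega) _ (by omega) n (by omega), hR 1 (by omega) i (by omega) n (by omega)]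
      simp
  have hT' : ∀ s i j, i + s < n + 3 → j + s < n + 3 → d (i + s) (j + s) = d i j := by
    intro s
    induction s with
    | zero => intros; rfl
    | succ s ih =>
      intro i j hi hj
      rw [← add_assoc, ← add_assoc, hT _ (by omega) _ (by omega), ih i j (by omega) (by omega)]
  have hdd : ∀ i < n + 3, ∀ j < n + 3, d i j = if i = j then d 0 0 else 0 := fun i hi j hj => by
    rcases lt_trichotomy i j with h | rfl | h
    · obtain ⟨s, rfl⟩ := Nat.exists_eq_add_of_lt h
      rw [if_neg h.ne, show i + s + 1 = s + 1 + i by ring]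
      nth_rewrite 1 [← zero_add i]
      rw [hT' i 0 (s + 1) (by omega) (by omega)]
      by_cases h1 : s < n + 1
      · rw [hR 1 (by omega) 0 (by omega) s h1]; simp
      · obtain rfl : s = n + 1 := by omega
        rw [hR 2 (by omega) 0 (by omega) n (by omega)]; simp
    · rw [if_pos rfl, ← hT' i 0 0 (by omega) (by omega), zero_add]
    · obtain ⟨s, rfl⟩ := Nat.exists_eq_add_of_lt h
      rw [if_neg h.ne', show j + s + 1 = s + 1 + j by ring]
      nth_rewrite 2 [← zero_add j]
      rw [hT' j (s + 1) 0 (by omega) (by omega)]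
      by_cases h1 : s < n + 1
      · rw [← hT' (n - s) (s + 1) 0 (by omega) (by omega), ← add_zero (0 + (n - s)),
          hR 0 (by omega) _ (by omega) _ (by omega)]
        simp only [zero_le, if_true, a]
        rw [dif_neg (by omega)]
      · rw [← add_zero 0, hR 0 (by omega) _ (by omega) 0 (by omega)]
        simp only [zero_le, if_true, a]
        rw [dif_neg (by omega)]
  refine ⟨d 0 0, ?_⟩
  ext (i | i) (j | j)
  · have := hR 0 (by omega) i (by omega) j j.2
    rw [add_zero, hdd _ (by omega) _ (by omega)] at this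
    simp only [zero_le, if_true, tsub_zero, ← ha] at this
    simp [← this, diagonal_apply, Fin.ext_iff]
  · simp
  · simp
  · simp [hd, hdd _ i.2 _ j.2, diagonal_apply, Fin.ext_iff]
end


/-- For every odd prime `p` there is a finite group `H` of order `2p³` which, for infinitely many `n`, embeds in the projective special linear group `PSL(n, p)` as a subgroup with trivial centralizer. -/
theorem result
    (p : ℕ) [Fact p.Prime] (hp : p ≠ 2) :
    ∃ (H : Type) (_ : Group H) (_ : Finite H), Nat.card H = 2 * p ^ 3 ∧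
      ∀ N : ℕ, ∃ n, N ≤ n ∧ ∃ φ : H →* Matrix.ProjectiveSpecialLinearGroup (Fin n) (ZMod p),
        Function.Injective φ ∧ Subgroup.centralizer (φ.range : Set (Matrix.ProjectiveSpecialLinearGroup (Fin n) (ZMod p))) = ⊥ := by
  refine ⟨HH p, inferInstance, inferInstanceAs (Finite ((Fin 3 → ZMod p) × ℤˣ)), ?_, fun N => ?_⟩
  · change Nat.card ((Fin 3 → ZMod p) × ℤˣ) = _
    simp [mul_comm]
  have h2 : (2 : ZMod p) ≠ 0 := fun h => hp ((Nat.prime_dvd_prime_iff_eq Fact.out Nat.prime_two).1
    ((ZMod.natCast_eq_zero_iff 2 p).1 h))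
  have hn : Even (2 * N + 1 + 1) := ⟨N + 1, by ring⟩
  let e := H10.pslReindex (ZMod p) (finSumFinEquiv (m := 2 * N + 1 + 1) (n := 2 * N + 1 + 1 + 2))
  let φ := (QuotientGroup.mk' (Subgroup.center _)).comp (ψ (p := p) _ hn)
  refine ⟨_, by omega, e.toMonoidHom.comp φ, e.injective.comp ?_, ?_⟩
  · rw [injective_iff_map_eq_one]
    intro x hx
    obtain ⟨c, -, hc⟩ := Matrix.SpecialLinearGroup.mem_center_iff.1
      ((QuotientGroup.eq_one_iff (ψ _ hn x)).1 hx)
    rw [ψ_val] at hc
    have h1 := congrFun₂ hc (.inr 0) (.inr 0)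
    have h3 := congrFun₂ hc (.inl 0) (.inl 0)
    simp at h1 h3
    refine Prod.ext (funext fun k => ?_) ?_
    · have h4 := congrFun₂ hc (.inr ⟨k, by omega⟩) (.inl 0)
      simp [M, Fin.val_inj] at h4
      exact h4.symm
    · refine (Int.units_eq_one_or x.2).resolve_right fun h => h2 ?_
      rw [h, h1] at h3
      simp at h3
      linear_combination h3
  · rw [eq_bot_iff]
    intro y hy
    obtain ⟨y, rfl⟩ := e.surjective y
    obtain ⟨g, rfl⟩ := QuotientGroup.mk_surjective y
    rw [Subgroup.mem_bot, MulEquiv.map_eq_one_iff, QuotientGroup.eq_one_iff]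
    have h1 : ∀ x : HH p, ∃ c : ZMod p, (ψ _ hn x).1 * g.1 = c • (g.1 * (ψ _ hn x).1) := fun x => by
      have h3 : φ x * g = g * φ x := e.injective (by
        rw [map_mul, map_mul]; exact hy _ ⟨x, rfl⟩)
      have h4 : ψ _ hn x * g * (g * ψ _ hn x)⁻¹ ∈ Subgroup.center _ := by
        rw [← QuotientGroup.eq_one_iff, QuotientGroup.mk_mul, QuotientGroup.mk_inv, mul_inv_eq_one]
        exact h3
      obtain ⟨c, -, hc⟩ := Matrix.SpecialLinearGroup.mem_center_iff.1 h4
      refine ⟨c, ?_⟩
      rw [← Matrix.SpecialLinearGroup.coe_mul, ← Matrix.SpecialLinearGroup.coe_mul, smul_eq_diagonal_mul,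
        ← scalar_apply, hc, ← Matrix.SpecialLinearGroup.coe_mul, inv_mul_cancel_right]
    have h3 : ∀ x : HH p, x.2 = -1 → Commute (ψ _ hn x) g := fun x hx => by
      obtain ⟨c, hc⟩ := h1 x
      have h4 : (ψ _ hn x).1 = c • (g.1 * (ψ _ hn x).1 * (g⁻¹).1) := by
        rw [← Matrix.smul_mul, ← hc, ← Matrix.SpecialLinearGroup.coe_mul,
          ← Matrix.SpecialLinearGroup.coe_mul, mul_inv_cancel_right]
      have h5 := congrArg trace h4
      rw [trace_smul, trace_mul_cycle, ← Matrix.SpecialLinearGroup.coe_mul, inv_mul_cancel,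
        Matrix.SpecialLinearGroup.coe_one, Matrix.one_mul, trace_ψ, hx] at h5
      obtain rfl : c = 1 := by
        apply mul_right_cancel₀ h2
        push_cast at h5
        rw [smul_eq_mul] at h5
        linear_combination -h5
      exact Subtype.ext (hc.trans (one_smul _ _))
    have h4 : ∀ x : HH p, Commute (ψ _ hn x) g := fun x => by
      rcases Int.units_eq_one_or x.2 with h | h
      · let t : HH p := (0, -1)
        have := (h3 (x * t) (by change x.2 * -1 = -1; rw [h, one_mul])).mul_left (h3 t rfl).inv_left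
        rwa [map_mul, mul_inv_cancel_right] at this
      · exact h3 x h
    obtain ⟨c, hc⟩ := scalar_of_commute hp _ hn g.1 fun x => congrArg Subtype.val (h4 x)
    rw [Subgroup.mem_center_iff]
    intro b
    refine Subtype.ext (?_ : b.1 * g.1 = g.1 * b.1)
    rw [hc]
    exact (scalar_commute c (Commute.all c) _).symm

end Cfsg.Agent.S2533
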