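import Mathlib
import Cfsg.Statements.S2536
import Cfsg.Agent.Lib.SN.Hall2

set_option autoImplicit false
open Cfsg

namespace Cfsg.Agent.S2536

/-- Let `π` be a set of primes and `n` a natural number such that at least two primes of `π` divide `n!` but not every prime dividing `n!` lies in `π`. Then the symmetric group of degree `n` has a Hall `π`-subgroup if and only if either `n` is prime and the primes of `π` dividing `n!` are exactly the primes smaller than `n` (a point stabilizer is then such a subgroup), or `n ∈ {7, 8}` and the primes of `π` dividing `n!` are exactly 2 and 3. -/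
theorem result (n : ℕ) (π : Set ℕ)
    (h2 : ∃ r s : ℕ, r.Prime ∧ s.Prime ∧ r ≠ s ∧ r ∈ π ∧ s ∈ π ∧ r ≤ n ∧ s ≤ n)
    (hns : ∃ r : ℕ, r.Prime ∧ r ≤ n ∧ r ∉ π) :
    Cfsg.IsEPiGroup π (Equiv.Perm (Fin n)) ↔
      ((n.Prime ∧ ∀ r : ℕ, r.Prime → r ≤ n → (r ∈ π ↔ r < n)) ∨
       ((n = 7 ∨ n = 8) ∧ ∀ r : ℕ, r.Prime → r ≤ n → (r ∈ π ↔ (r = 2 ∨ r = 3)))) := by
  constructor
  · rintro ⟨M, hM⟩
    obtain ⟨D, -, -, h⟩ := H5.SN.outcome_of_hallOf le_top (H3.isPiHallOf_top_iff.mpr hM)
      (by simpa using h2) (by simpa using hns)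
    rw [Fintype.card_fin] at h
    exact h.imp (fun h => ⟨h.1, h.2.2⟩) (fun h => ⟨h.1, h.2.2⟩)
  · rintro (h | h)
    · exact H5.SN.isE_of_prime (by simpa using h.1) (by simpa using h.2)
    · exact H5.SN.isE_of_seven_eight (by simpa using h.1) (by simpa using h.2)

end Cfsg.Agent.S2536
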