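import Cfsg.Statements.S2537
import Cfsg.Agent.Lib.MatConj.Sol2
import Cfsg.Agent.S0802
import Cfsg.Agent.S0803
import Cfsg.Agent.Lib.PGroup.Basic

set_option autoImplicit false
open Cfsg

namespace Cfsg.Agent.S2537

open H64.SL2 MatrixGroups

theorem isPiHall_iff {G : Type*} [Group G] [Finite G] (H : Subgroup G) :
    Cfsg.IsPiHall ({2, 3} : Set ℕ) H ↔
      Nat.card H = 2 ^ (Nat.card G).factorization 2 * 3 ^ (Nat.card G).factorization 3 := by
  have h1 := H.card_mul_index
  have h2 : Nat.card H ≠ 0 := Nat.card_pos.ne'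
  have h3 : H.index ≠ 0 := H.index_ne_zero_of_finite
  have h4 : ∀ r, (Nat.card G).factorization r =
      (Nat.card H).factorization r + H.index.factorization r := fun r => by
    rw [← h1, Nat.factorization_mul h2 h3, Finsupp.add_apply]
  have h5 : ∀ a b r, (2 ^ a * 3 ^ b).factorization r =
      (if 2 = r then a else 0) + if 3 = r then b else 0 := fun a b r => by
    rw [Nat.factorization_mul (by positivity) (by positivity), Nat.prime_two.factorization_pow,
      Nat.prime_three.factorization_pow, Finsupp.add_apply, Finsupp.single_apply,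
      Finsupp.single_apply]
  constructor
  · rintro ⟨h6, h7⟩
    refine Nat.eq_of_factorization_eq h2 (by positivity) fun r => ?_
    rw [h5, h4, h4, Nat.factorization_eq_zero_of_not_dvd (h7 2 Nat.prime_two (by simp)),
      Nat.factorization_eq_zero_of_not_dvd (h7 3 Nat.prime_three (by simp))]
    split_ifs with e1 e2 e2
    · omega
    · subst e1; rfl
    · subst e2; simp
    · by_cases hr : r.Prime
      · exact Nat.factorization_eq_zero_of_not_dvd fun h => by
          rcases h6 r hr h with rfl | rfl <;> simp at *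
      · exact Nat.factorization_eq_zero_of_not_prime _ hr
  · intro h
    refine ⟨fun r hr h6 => ?_, fun r hr h6 h7 => ?_⟩
    · rw [h] at h6
      exact ((Nat.Prime.dvd_mul hr).1 h6).imp
        (fun e => (Nat.prime_dvd_prime_iff_eq hr Nat.prime_two).1 (hr.dvd_of_dvd_pow e))
        fun e => (Nat.prime_dvd_prime_iff_eq hr Nat.prime_three).1 (hr.dvd_of_dvd_pow e)
    · have h8 := hr.factorization_pos_of_dvd h3 h7
      have h9 := h4 r
      rw [h, h5] at h9
      rcases h6 with rfl | rfl <;> simp at h9 <;> omega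

/-- dihedral subgroups -/
theorem exists_card_eq {F : Type*} [Field F] [Fintype F] (h2 : (2 : F) ≠ 0) {k : ℕ} (hk : 2 ≤ k)
    (h : 2 * k ∣ Fintype.card F - 1 ∨ 2 * k ∣ Fintype.card F + 1) :
    ∃ H : Subgroup PSL(2, F), Nat.card H = 2 * k := by
  obtain ⟨g, hg⟩ : ∃ g : SL(2, F), orderOf g = 2 * k := by
    rw [← Nat.card_eq_fintype_card] at h
    rcases h with h | h
    · obtain ⟨g, hg⟩ := exists_orderOf_eq_card_sub_one (F := F)
      exact exists_orderOf_eq_of_dvd g (hg ▸ h)
    · obtain ⟨g, hg⟩ := exists_orderOf_eq_card_add_one (F := F)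
      exact exists_orderOf_eq_of_dvd g (hg ▸ h)
  have h1 := orderOf_proj_of_orderOf_eq_two_mul h2 hg
  have h3 : tr g ^ 2 ≠ 4 := fun e => by
    obtain ⟨p, hp⟩ := CharP.exists F
    have := Fact.mk (CharP.char_is_prime F p)
    have h4 := orderOf_proj_dvd_iff.2 (pow_char_mem_center p e)
    rw [h1] at h4
    have h5 := ((Nat.dvd_prime this.out).1 h4).resolve_left (by omega) ▸ char_dvd_card (F := F) p
    have := Fintype.card_pos (α := F)
    refine absurd (Nat.dvd_one.1 ?_) (show k ≠ 1 by omega)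
    rcases h with h | h
    · have := Nat.dvd_sub h5 ((dvd_mul_left _ _).trans h)
      rwa [Nat.sub_sub_self (by omega)] at this
    · exact (Nat.dvd_add_right h5).1 ((dvd_mul_left _ _).trans h)
  obtain ⟨w, hw⟩ := exists_inverts h3
  have h4 : w ∉ Subgroup.centralizer {g} := fun e => ne_inv_of_tr h3 (by
    rw [← hw, Subgroup.mem_centralizer_singleton_iff.1 e, mul_inv_cancel_right])
  have h5 : proj w ∉ Subgroup.zpowers (proj g) := by
    rintro ⟨j, hj⟩
    refine h4 (Subgroup.mem_centralizer_singleton_iff.2 ?_)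
    rcases proj_eq_iff.1 ((map_zpow proj g j).trans hj) with e | e
    · exact e ▸ (Commute.zpow_self g j).eq
    · rw [← neg_inj, ← neg_mul, ← mul_neg, ← e]
      exact (Commute.zpow_self g j).eq
  refine ⟨Subgroup.zpowers (proj g) ⊔ Subgroup.zpowers (proj w), ?_⟩
  rw [H5.card_sup_zpowers Nat.prime_two (H65.mem_normalizer_zpowers (by
    rw [← map_mul, ← map_inv, ← map_mul, hw, map_inv])) h5
    (H65.proj_sq (tr_eq_zero_of_inverts h3 hw) ▸ one_mem _), Nat.card_zpowers, h1, mul_comm]


/-- Let `F` be a finite field with `q` elements of characteristic `p ≥ 5`, and `ε = 1` if `q ≡ 1 (mod 4)`, `ε = -1` otherwise. Then `PSL(2, F)` has a Hall `{2, 3}`-subgroup if and only if `3` divides `q − ε`, or the `{2,3}`-part of `q² − 1` is 24, or the `{2,3}`-part of `q² − 1` is 48 (the `{2,3}`-part of `m` being the largest divisor of `m` with no prime factor other than 2 and 3). -/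
theorem result {F : Type*} [Field F] [Fintype F] {p : ℕ} [Fact p.Prime] [CharP F p]
    (hp : 5 ≤ p) (q : ℕ) (hq : Fintype.card F = q) :
    (∃ H : Subgroup (Matrix.ProjectiveSpecialLinearGroup (Fin 2) F), Cfsg.IsPiHall ({2, 3} : Set ℕ) H) ↔
      (3 ∣ q - 1 ∧ q % 4 = 1) ∨ (3 ∣ q + 1 ∧ q % 4 = 3) ∨
        2 ^ (q ^ 2 - 1).factorization 2 * 3 ^ (q ^ 2 - 1).factorization 3 = 24 ∨
        2 ^ (q ^ 2 - 1).factorization 2 * 3 ^ (q ^ 2 - 1).factorization 3 = 48 := by
  classical
  subst hq
  have hp' : p.Prime := Fact.out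
  have h2 : (2 : F) ≠ 0 := two_ne_zero_of_char p (by omega)
  have ho := odd_card_of_two_ne_zero h2
  have h3 : ¬ 3 ∣ Fintype.card F := fun h => by
    obtain ⟨n, -, hn⟩ := FiniteField.card F p
    have := (Nat.prime_dvd_prime_iff_eq Nat.prime_three hp').1
      (Nat.prime_three.dvd_of_dvd_pow (hn ▸ h))
    omega
  have hq1 := Fintype.one_lt_card (α := F)
  have hG := H10.card_PSL_two (F := F)
  rw [Nat.card_eq_fintype_card (α := F), Nat.gcd_eq_left (by omega)] at hG
  have hsq : Fintype.card F ^ 2 - 1 = (Fintype.card F - 1) * (Fintype.card F + 1) := by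
    rw [mul_comm, ← Nat.sq_sub_sq, one_pow]
  have hf : ∀ r, ¬ r ∣ Fintype.card F → (Fintype.card F ^ 2 - 1).factorization r =
      (Nat.factorization 2) r + (Nat.card PSL(2, F)).factorization r := fun r hr => by
    rw [← Finsupp.add_apply, ← Nat.factorization_mul two_ne_zero Nat.card_pos.ne', hG, mul_assoc,
      ← hsq, Nat.factorization_mul (by omega) (by rw [hsq]; exact mul_ne_zero (by omega) (by omega)),
      Finsupp.add_apply, Nat.factorization_eq_zero_of_not_dvd hr, zero_add]
  simp only [isPiHall_iff]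
  rw [hf 2 (by omega), hf 3 h3, Nat.prime_two.factorization, Finsupp.single_eq_same,
    Finsupp.single_eq_of_ne (by decide), zero_add, pow_add, pow_one, mul_assoc]
  have ha : ∀ j, 2 ^ (j + 1) ∣ (Fintype.card F - 1) * (Fintype.card F + 1) ↔
      j ≤ (Nat.card PSL(2, F)).factorization 2 := fun j => by
    rw [← hsq, Nat.prime_two.pow_dvd_iff_le_factorization (by
      rw [hsq]; exact mul_ne_zero (by omega) (by omega)), hf 2 (by omega),
      Nat.prime_two.factorization, Finsupp.single_eq_same, add_comm, Nat.add_le_add_iff_left]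
  have hb : ∀ j, 3 ^ j ∣ (Fintype.card F - 1) * (Fintype.card F + 1) ↔
      j ≤ (Nat.card PSL(2, F)).factorization 3 := fun j => by
    rw [← hsq, Nat.prime_three.pow_dvd_iff_le_factorization (by
      rw [hsq]; exact mul_ne_zero (by omega) (by omega)), hf 3 h3,
      Nat.prime_two.factorization, Finsupp.single_eq_of_ne (by decide), zero_add]
  have ha2 := (ha 2).1 (by
    obtain ⟨k, hk⟩ : ∃ k, Fintype.card F = 2 * k + 1 := ⟨_, (Nat.div_add_mod _ 2).symm.trans (by rw [ho])⟩
    obtain ⟨j, hj⟩ := Nat.even_mul_succ_self k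
    exact ⟨j, by rw [hk, Nat.add_sub_cancel]; linear_combination 4 * hj⟩)
  have hb1 := (hb 1).1 (by
    rw [pow_one, Nat.prime_three.dvd_mul]
    have : Fintype.card F % 3 = 1 ∨ Fintype.card F % 3 = 2 := by omega
    clear hG hsq hf ha hb
    omega)
  have ha0 := (ha _).2 le_rfl
  have hb0 := (hb _).2 le_rfl
  generalize (Nat.card PSL(2, F)).factorization 2 = a at *
  generalize (Nat.card PSL(2, F)).factorization 3 = b at *
  obtain ⟨a, rfl⟩ := Nat.exists_eq_add_of_le' ha2
  obtain ⟨b, rfl⟩ := Nat.exists_eq_add_of_le' hb1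
  have h12 : 2 ^ (a + 2) * 3 ^ (b + 1) = 12 * (2 ^ a * 3 ^ b) := by ring
  constructor
  · rintro ⟨H, hH⟩
    have hL : CharP (AlgebraicClosure F) p := (Algebra.charP_iff F _ p).1 inferInstance
    let e := H.equivMapOfInjective _ (H29.iota_injective F)
    have hfin : Finite (H.map (H29.iota F)) := Finite.of_equiv _ e.toEquiv
    have hr : ∀ r, r.Prime → 5 ≤ r → ¬ r ∣ Nat.card H := fun r hr h5 h => by
      rcases (Nat.Prime.dvd_mul hr).1 (hH ▸ h) with h | h <;>
        have := Nat.le_of_dvd (by decide) (hr.dvd_of_dvd_pow h) <;> omega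
    have hord : ∀ r : H, 2 * orderOf r ∣ Fintype.card F - 1 ∨ 2 * orderOf r ∣ Fintype.card F + 1 :=
      fun r => by
        have := H29.orderOf_psl_dvd p r.1 fun h => hr p hp' hp
          (h.trans (Subgroup.orderOf_coe r ▸ orderOf_dvd_natCard r))
        rw [Nat.card_eq_fintype_card, Nat.gcd_eq_left (by omega), Subgroup.orderOf_coe,
          Nat.dvd_div_iff_mul_dvd (by omega), Nat.dvd_div_iff_mul_dvd (by omega)] at this
        exact this.symm
    rcases H29.dickson_tame p (H.map (H29.iota F)) (Nat.card_congr e.toEquiv ▸ hr p hp' hp) with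
      h | ⟨k, -, ⟨r, h⟩, ⟨e'⟩⟩ | ⟨⟨e'⟩⟩ | ⟨⟨e'⟩⟩ | ⟨⟨e'⟩⟩
    · obtain ⟨r, h⟩ := (isCyclic_of_surjective e.symm e.symm.surjective).exists_ofOrder_eq_natCard
      refine absurd ((ha (a + 3)).1 ?_) (by omega)
      have h5 : 2 ^ (a + 3) ∣ 2 * orderOf r := by rw [h, hH]; exact ⟨3 ^ (b + 1), by ring⟩
      rw [pow_succ]
      rcases hord r with h6 | h6
      · exact mul_dvd_mul (h5.trans h6) (by omega)
      · rw [mul_comm (_ - 1)]; exact mul_dvd_mul (h5.trans h6) (by omega)
    · have h5 := hord (e.symm r)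
      rw [MulEquiv.orderOf_eq, h, ← DihedralGroup.nat_card, ← Nat.card_congr (e.trans e').toEquiv,
        hH, h12] at h5
      rcases h5 with h5 | h5 <;> have := (dvd_mul_right _ _).trans h5 <;> omega
    · rw [← hH, Nat.card_congr (e.trans e').toEquiv, H29.card_alt_four]; simp
    · rw [← hH, Nat.card_congr (e.trans e').toEquiv, H29.card_perm_four]; simp
    · exact absurd (by rw [Nat.card_congr (e.trans e').toEquiv, H29.card_alt_five]; decide)
        (hr 5 Nat.prime_five le_rfl)
  have key : ∀ m n, 2 ^ (a + 2 + 1) ∣ m * n → 3 ^ (b + 1) ∣ m * n → n % 4 = 2 → ¬ 3 ∣ n →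
      2 * (6 * (2 ^ a * 3 ^ b)) ∣ m := fun m n h5 h6 h7 h8 => by
    rw [← mul_assoc, show 2 * 6 = 12 from rfl, ← h12]
    refine Nat.Coprime.mul_dvd_of_dvd_of_dvd (Nat.Coprime.pow _ _ (by decide)) ?_
      ((Nat.Coprime.pow_left _ ((Nat.Prime.coprime_iff_not_dvd Nat.prime_three).2 h8)
        ).dvd_of_dvd_mul_right h6)
    obtain ⟨t, rfl⟩ : 2 ∣ n := by omega
    rw [pow_succ, mul_comm 2, ← mul_assoc, Nat.mul_dvd_mul_iff_right two_pos] at h5
    exact (Nat.Coprime.pow_left _ ((Nat.Prime.coprime_iff_not_dvd Nat.prime_two).2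
      (by omega))).dvd_of_dvd_mul_right h5
  have h0 : 0 < 2 ^ a * 3 ^ b := by positivity
  rintro (h | h | h | h)
  · rw [h12, show 12 = 2 * 6 from rfl, mul_assoc]
    exact exists_card_eq h2 (by omega) (Or.inl (key _ _ ha0 hb0 (by omega) (by omega)))
  · rw [h12, show 12 = 2 * 6 from rfl, mul_assoc]
    exact exists_card_eq h2 (by omega) (Or.inr (key _ _ (mul_comm _ (_ + 1) ▸ ha0)
      (mul_comm _ (_ + 1) ▸ hb0) (by omega) (by omega)))
  · obtain ⟨n, -, hn⟩ := FiniteField.card F p
    obtain ⟨H, ⟨e⟩⟩ := (Cfsg.Agent.S0802.result p n hn).2 (by omega)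
    exact ⟨H, by rw [Nat.card_congr e.toEquiv, H29.card_alt_four]; omega⟩
  · obtain ⟨H, ⟨e⟩⟩ := (Cfsg.Agent.S0803.result (F := F) rfl).2 (by
      obtain rfl : a = 1 := by
        have h5 : 2 ^ a * 3 ^ b = 2 := by omega
        have h6 : 2 ^ a ≤ 2 := Nat.le_of_dvd two_pos ⟨_, h5.symm⟩
        rcases a with _ | _ | a
        · have : 2 ∣ 3 ^ b := ⟨1, by omega⟩
          exact absurd (Nat.prime_two.dvd_of_dvd_pow this) (by decide)
        · rfl
        · rw [pow_add, pow_add] at h6
          have := Nat.one_le_pow a 2 two_pos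
          omega
      rw [← hsq] at ha0
      have := Nat.one_le_pow 2 (Fintype.card F) (by omega)
      omega)
    exact ⟨H, by rw [Nat.card_congr e.toEquiv, H29.card_perm_four]; omega⟩

end Cfsg.Agent.S2537
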