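import Mathlib
import Cfsg.Statements.S2538
import Cfsg.Agent.Lib.SN.Hall2

set_option autoImplicit false
open Cfsg

namespace Cfsg.Agent.S2538

/-- For every `n` and every set of primes `π`, a subgroup of the alternating group of degree `n` is a Hall `π`-subgroup of it if and only if it is the intersection with the alternating group of some Hall `π`-subgroup of the symmetric group of degree `n`. -/
theorem result (n : ℕ) (π : Set ℕ)
    (M : Subgroup ↥(alternatingGroup (Fin n))) :
    Cfsg.IsPiHall π M ↔ ∃ M₀ : Subgroup (Equiv.Perm (Fin n)), Cfsg.IsPiHall π M₀ ∧ M = M₀.subgroupOf (alternatingGroup (Fin n)) := by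
  constructor
  · intro hM
    obtain ⟨M₀, h0⟩ := H5.SN.isE_perm_iff_alt.mpr ⟨M, hM⟩
    obtain ⟨g, rfl⟩ := (H5.SN.isC_alt_of_isE ⟨M, hM⟩).2 _ M (H5.SN.isPiHall_subgroupOf_alt h0) hM
    refine ⟨M₀.map (MulAut.conj g.1).toMonoidHom,
      H3.isPiHall_map h0 (MulAut.conj g.1).surjective, ?_⟩
    ext x
    rw [Subgroup.mem_subgroupOf, Subgroup.mem_map_equiv, Subgroup.mem_map_equiv,
      Subgroup.mem_subgroupOf]
    rfl
  · rintro ⟨M₀, h0, rfl⟩
    exact H5.SN.isPiHall_subgroupOf_alt h0

end Cfsg.Agent.S2538
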