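import Cfsg.Statements.S2540
import Cfsg.Agent.Lib.GL.Simple

set_option autoImplicit false
open Cfsg

namespace Cfsg.Agent.S2540

theorem normal_le_center_or {G : Type*} [Group G] (hs : IsSimpleGroup (G ⧸ Subgroup.center G))
    (hp : commutator G = ⊤) (D : Subgroup G) [hD : D.Normal] : D ≤ Subgroup.center G ∨ D = ⊤ := by
  rcases (hD.map _ (QuotientGroup.mk'_surjective (Subgroup.center G))).eq_bot_or_eq_top with h | h
  · left
    rwa [Subgroup.map_eq_bot_iff, QuotientGroup.ker_mk'] at h
  · right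
    rw [eq_top_iff, ← hp, commutator, Subgroup.commutator_le]
    intro x _ y _
    obtain ⟨a, ha, hax⟩ : (QuotientGroup.mk' (Subgroup.center G)) x ∈ D.map _ := h ▸ Subgroup.mem_top _
    rw [QuotientGroup.mk'_apply, QuotientGroup.mk'_apply, QuotientGroup.eq] at hax
    have hx : x = a * (a⁻¹ * x) := by group
    generalize a⁻¹ * x = z at hax hx
    subst hx
    have hz := Subgroup.mem_center_iff.1 hax
    have : a * z * y * (a * z)⁻¹ * y⁻¹ = a * (y * a⁻¹ * y⁻¹) := by
      rw [mul_assoc a z y, ← hz y]; group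
    rw [commutatorElement_def, this]
    exact D.mul_mem ha (hD.conj_mem _ (D.inv_mem ha) y)


/-- Let F be a finite field and n ≥ 1, excluding the case n = 2 with #F ≤ 3. A subgroup of GL_n(F) that is normalized by every element of SL_n(F) either consists of scalar matrices or contains SL_n(F). -/
theorem result {F : Type*} [Field F] [Fintype F] (n : ℕ) (hn : 1 ≤ n) (hex : ¬ (n = 2 ∧ Fintype.card F ≤ 3)) (G : Subgroup (Matrix.GeneralLinearGroup (Fin n) F)) (hG : ∀ s : Matrix.SpecialLinearGroup (Fin n) F, ∀ g ∈ G, (Matrix.SpecialLinearGroup.toGL s) * g * (Matrix.SpecialLinearGroup.toGL s)⁻¹ ∈ G) : (∀ g ∈ G, ∃ c : F, (g : Matrix (Fin n) (Fin n) F) = c • (1 : Matrix (Fin n) (Fin n) F)) ∨ (Matrix.SpecialLinearGroup.toGL : Matrix.SpecialLinearGroup (Fin n) F →* _).range ≤ G := by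
  rcases hn.eq_or_lt with rfl | hn2
  · left
    intro g _
    refine ⟨(g : Matrix (Fin 1) (Fin 1) F) 0 0, ?_⟩
    ext i j
    rw [Subsingleton.elim i 0, Subsingleton.elim j 0]
    simp
  have h4 : n = 2 → 4 ≤ Nat.card F := fun h => by
    rw [Nat.card_eq_fintype_card]; by_contra h'; exact hex ⟨h, by omega⟩
  have hperf := H10.commutator_SL_fin_eq_top (F := F) n h4
  have hD : (G.comap Matrix.SpecialLinearGroup.toGL).Normal := ⟨fun d hd s => by
    rw [Subgroup.mem_comap, map_mul, map_mul, map_inv]; exact hG s _ hd⟩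
  rcases normal_le_center_or (H10.isSimpleGroup_PSL_fin (F := F) n hn2 h4) hperf
    (G.comap Matrix.SpecialLinearGroup.toGL) with h | h
  swap
  · right
    rintro _ ⟨s, rfl⟩
    exact (h ▸ Subgroup.mem_top s : s ∈ G.comap Matrix.SpecialLinearGroup.toGL)
  left
  intro g hg
  -- conjugation by `g` on `SL`
  have hdet : ∀ s : Matrix.SpecialLinearGroup (Fin n) F,
      ((g * Matrix.SpecialLinearGroup.toGL s * g⁻¹ : GL (Fin n) F) : Matrix (Fin n) (Fin n) F).det = 1 := by
    intro s
    rw [Units.val_mul, Units.val_mul, Matrix.det_units_conj]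
    exact s.2
  let c : Matrix.SpecialLinearGroup (Fin n) F →* Matrix.SpecialLinearGroup (Fin n) F :=
    MonoidHom.mk' (fun s => ⟨_, hdet s⟩) fun a b => by
      apply Subtype.ext
      have : g * Matrix.SpecialLinearGroup.toGL (a * b) * g⁻¹ =
          (g * Matrix.SpecialLinearGroup.toGL a * g⁻¹) * (g * Matrix.SpecialLinearGroup.toGL b * g⁻¹) := by
        rw [map_mul]; group
      exact congrArg Units.val this
  have hc : ∀ s, Matrix.SpecialLinearGroup.toGL (c s) = g * Matrix.SpecialLinearGroup.toGL s * g⁻¹ :=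
    fun s => Units.ext rfl
  have hz : ∀ s, s * (c s)⁻¹ ∈ Subgroup.center (Matrix.SpecialLinearGroup (Fin n) F) := fun s => by
    apply h
    rw [Subgroup.mem_comap, map_mul, map_inv, hc]
    have := G.mul_mem (hG s g hg) (G.inv_mem hg)
    convert this using 1
    group
  let ψ : Matrix.SpecialLinearGroup (Fin n) F →*
      Subgroup.center (Matrix.SpecialLinearGroup (Fin n) F) :=
    MonoidHom.mk' (fun s => ⟨_, hz s⟩) fun a b => by
      apply Subtype.ext
      change a * b * (c (a * b))⁻¹ = a * (c a)⁻¹ * (b * (c b)⁻¹)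
      rw [map_mul, mul_inv_rev, mul_assoc a (c a)⁻¹, Subgroup.mem_center_iff.1 (hz b) (c a)⁻¹]
      group
  have hψ : ψ.ker = ⊤ := by
    rw [eq_top_iff, ← hperf, commutator, Subgroup.commutator_le]
    intro x _ y _
    rw [MonoidHom.mem_ker, map_commutatorElement, commutatorElement_eq_one_iff_mul_comm]
    exact Subtype.ext (Subgroup.mem_center_iff.1 (ψ y).2 _)
  have hcomm : ∀ s : Matrix.SpecialLinearGroup (Fin n) F,
      Commute (s : Matrix (Fin n) (Fin n) F) (g : Matrix (Fin n) (Fin n) F) := fun s => by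
    have h1 : ψ s = 1 := (hψ ▸ Subgroup.mem_top s : s ∈ ψ.ker)
    have h2 : s = c s := mul_inv_eq_one.1 (congrArg Subtype.val h1)
    have h3 := hc s
    rw [← h2, eq_mul_inv_iff_mul_eq] at h3
    exact congrArg Units.val h3
  obtain ⟨r, hr⟩ := Matrix.mem_range_scalar_of_commute_transvectionStruct
    (M := (g : Matrix (Fin n) (Fin n) F)) fun t => hcomm ⟨t.toMatrix, by simp⟩
  exact ⟨r, by rw [← hr, Matrix.scalar_apply, Matrix.smul_one_eq_diagonal]⟩

end Cfsg.Agent.S2540
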