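import Cfsg.Statements.S2541
import Cfsg.Agent.Lib.MatConj.Invol

set_option autoImplicit false
open Cfsg

namespace Cfsg.Agent.S2541

open H65

theorem perm_pow (σ : Equiv.Perm (Fin 6)) : σ ^ 60 = 1 := by
  apply orderOf_dvd_iff_pow_eq_one.mp
  rw [← Equiv.Perm.lcm_cycleType, Multiset.lcm_dvd]
  intro a ha
  have h1 := Equiv.Perm.two_le_of_mem_cycleType ha
  have h2 := (Equiv.Perm.le_card_support_of_mem_cycleType ha).trans (Finset.card_le_univ _)
  rw [Fintype.card_fin] at h2
  interval_cases a <;> decide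


/-- Let F be a field with 9 elements. The symmetric group S_6 is not isomorphic to PGL_2(F) (although both have index-2 subgroups isomorphic to A_6). -/
theorem result {F : Type*} [Field F] [Fintype F] (hF : Fintype.card F = 9) : ¬ Nonempty (Equiv.Perm (Fin 6) ≃* Matrix.ProjGenLinGroup (Fin 2) F) := by
  rintro ⟨e⟩
  obtain ⟨g, hg⟩ := IsCyclic.exists_ofOrder_eq_natCard (α := Fˣ)
  rw [Nat.card_units, Nat.card_eq_fintype_card, hF] at hg
  let x : GL (Fin 2) F := Matrix.GeneralLinearGroup.mkOfDetNeZero (Matrix.diagonal ![(g : F), 1])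
    (by simp [Matrix.det_diagonal])
  have h1 : (QuotientGroup.mk x : GL (Fin 2) F ⧸ Subgroup.center (GL (Fin 2) F)) ^ 60 = 1 := by
    obtain ⟨σ, hσ⟩ := e.surjective (QuotientGroup.mk x)
    have := congrArg e (perm_pow σ)
    rwa [map_pow, map_one, hσ] at this
  rw [← QuotientGroup.mk_pow, QuotientGroup.eq_one_iff, mem_center_gl_iff] at h1
  obtain ⟨c, -, hc⟩ := h1
  rw [Units.val_pow_eq_pow_val] at hc
  change Matrix.diagonal ![(g : F), 1] ^ 60 = _ at hc
  rw [Matrix.diagonal_pow] at hc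
  have h2 := congrFun (congrFun hc 0) 0
  have h3 := congrFun (congrFun hc 1) 1
  simp at h2 h3
  have h4 : g ^ 60 = 1 := Units.ext (by simp [h2, ← h3])
  have := orderOf_dvd_of_pow_eq_one h4
  rw [hg] at this
  omega

end Cfsg.Agent.S2541
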