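import Cfsg.Statements.S2542
import Cfsg.Agent.S0675
import Cfsg.Agent.S0804
import Cfsg.Agent.Lib.GL.Simple

set_option autoImplicit false
open Cfsg

namespace Cfsg.Agent.S2542



/-- Let F be a field with 11 elements. PSL_2(F) has a subgroup H of index 11 isomorphic to the alternating group A_5, and the action of PSL_2(F) on the cosets of H is 2-transitive (of degree 11). -/
theorem result {F : Type*} [Field F] [Fintype F] (hF : Fintype.card F = 11) : ∃ H : Subgroup (Matrix.ProjectiveSpecialLinearGroup (Fin 2) F), H.index = 11 ∧ Nonempty (H ≃* alternatingGroup (Fin 5)) ∧ MulAction.IsMultiplyPretransitive (Matrix.ProjectiveSpecialLinearGroup (Fin 2) F) ((Matrix.ProjectiveSpecialLinearGroup (Fin 2) F) ⧸ H) 2 := by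
  have hq : Nat.card F = 11 := by rw [Nat.card_eq_fintype_card, hF]
  obtain ⟨H, ⟨e⟩⟩ := (Cfsg.Agent.S0804.result hF).2 (by norm_num)
  have hG := H10.card_PSL_two (F := F)
  rw [hq] at hG
  have hH : Nat.card H = 60 := by
    rw [Nat.card_congr e.toEquiv, nat_card_alternatingGroup]; simp [Nat.factorial]
  have hi : H.index = 11 := by
    have := H.index_mul_card
    rw [hH] at this
    norm_num at hG
    omega
  refine ⟨H, hi, ⟨e⟩, ?_⟩
  classical
  have := Fintype.ofFinite (Matrix.ProjectiveSpecialLinearGroup (Fin 2) F ⧸ H)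
  let φ := MulAction.toPermHom (Matrix.ProjectiveSpecialLinearGroup (Fin 2) F)
    (Matrix.ProjectiveSpecialLinearGroup (Fin 2) F ⧸ H)
  have : MulAction.IsPretransitive φ.range (Matrix.ProjectiveSpecialLinearGroup (Fin 2) F ⧸ H) :=
    ⟨fun a b => by
      obtain ⟨g, hg⟩ := MulAction.exists_smul_eq (Matrix.ProjectiveSpecialLinearGroup (Fin 2) F) a b
      exact ⟨⟨_, g, rfl⟩, hg⟩⟩
  have hc : Fintype.card (Matrix.ProjectiveSpecialLinearGroup (Fin 2) F ⧸ H) = 11 := by
    rw [← Nat.card_eq_fintype_card]; exact hi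
  rcases Cfsg.Agent.S0675.result (by rw [hc]; norm_num) φ.range with h | h
  · exfalso
    have hs := H10.isSimpleGroup_PSL_fin (F := F) 2 le_rfl fun _ => by omega
    have hker : φ.ker = ⊥ := by
      refine φ.normal_ker.eq_bot_or_eq_top.resolve_right fun hk => ?_
      rw [← Subgroup.normalCore_eq_ker] at hk
      have : H = ⊤ := top_le_iff.1 (hk ▸ H.normalCore_le)
      rw [this, Subgroup.index_top] at hi
      omega
    have h1 : Function.Injective ((φ.rangeRestrict.comp H.subtype).comp e.symm.toMonoidHom) :=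
      ((MonoidHom.ofInjective (φ.ker_eq_bot_iff.1 hker)).injective.comp H.subtype_injective).comp
        e.symm.injective
    have h2 := solvable_of_solvable_injective h1
    have h3 := IsSimpleGroup.comm_iff_isSolvable.2 h2
    revert h3
    decide +kernel
  · rw [MulAction.is_two_pretransitive_iff] at h ⊢
    intro a b c d hab hcd
    obtain ⟨⟨_, g, rfl⟩, hg⟩ := h hab hcd
    exact ⟨g, hg⟩

end Cfsg.Agent.S2542
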