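import Cfsg.Statements.S2543
import Cfsg.Agent.Lib.SL2.Invol
import Cfsg.Agent.Lib.SL2.Triangle
import Cfsg.Agent.Lib.GL.Simple
import Cfsg.Agent.Lib.Core.GrpBasic

set_option autoImplicit false
open scoped Pointwise
open Cfsg

namespace Cfsg.Agent.S2543

open Matrix
open scoped MatrixGroups Pointwise

/-- `(2,3,5)` pairs -/
def Tri {G : Type*} [Group G] (x y : G) : Prop := x ≠ 1 ∧ x ^ 2 = 1 ∧ y ^ 3 = 1 ∧ (x * y) ^ 5 = 1

theorem Tri.map {G H : Type*} [Group G] [Group H] (f : G →* H) (hf : Function.Injective f) {x y : G} :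
    Tri (f x) (f y) ↔ Tri x y := by
  simp only [Tri, ← map_mul, ← map_pow, map_eq_one_iff f hf, ne_eq]

theorem card_tri_congr {G H : Type*} [Group G] [Group H] (e : G ≃* H) :
    Nat.card {p : G × G // Tri p.1 p.2} = Nat.card {p : H × H // Tri p.1 p.2} :=
  Nat.card_congr ((e.toEquiv.prodCongr e.toEquiv).subtypeEquiv fun _ =>
    (Tri.map e.toMonoidHom e.injective).symm)

theorem card_tri_eq {G : Type*} [Group G] [Finite G] (j : G) (hj : j ≠ 1 ∧ j ^ 2 = 1)
    (h : ∀ x : G, x ≠ 1 → x ^ 2 = 1 → ∃ c, c * j * c⁻¹ = x) :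
    Nat.card {p : G × G // Tri p.1 p.2} = Nat.card {x : G // x ≠ 1 ∧ x ^ 2 = 1} *
      Nat.card {y : G // y ^ 3 = 1 ∧ (j * y) ^ 5 = 1} := by
  choose c hc using h
  rw [← Nat.card_prod]
  symm
  refine Nat.card_congr (Equiv.ofBijective (fun p => ⟨(p.1.1, MulAut.conj (c p.1.1 p.1.2.1 p.1.2.2) p.2.1),
    ?_⟩) ⟨?_, ?_⟩)
  · have := (Tri.map (MulAut.conj (c p.1.1 p.1.2.1 p.1.2.2)).toMonoidHom (MulEquiv.injective _)
      (x := j) (y := p.2.1)).2 ⟨hj.1, hj.2, p.2.2⟩
    rwa [MulEquiv.coe_toMonoidHom, MulAut.conj_apply, hc] at this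
  · rintro ⟨⟨x, hx⟩, y⟩ ⟨⟨x', hx'⟩, y'⟩ hp
    simp only [Subtype.mk.injEq, Prod.mk.injEq] at hp
    obtain ⟨rfl, h2⟩ := hp
    rw [Subtype.ext (MulEquiv.injective _ h2) (a1 := y) (a2 := y')]
  · rintro ⟨⟨x, y⟩, hp⟩
    have := (Tri.map (MulAut.conj (c x hp.1 hp.2.1)).toMonoidHom (MulEquiv.injective _)
      (x := j) (y := (MulAut.conj (c x hp.1 hp.2.1)).symm y)).1 (by
        rwa [MulEquiv.coe_toMonoidHom, MulAut.conj_apply, hc, MulEquiv.apply_symm_apply])
    exact ⟨⟨⟨x, hp.1, hp.2.1⟩, ⟨_, this.2.2⟩⟩, Subtype.ext (Prod.ext rfl (MulEquiv.apply_symm_apply _ _))⟩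

theorem card_alt : Nat.card (alternatingGroup (Fin 5)) = 60 := by
  rw [nat_card_alternatingGroup]; simp [Nat.factorial]

theorem Tri.closure {G : Type*} [Group G] {x y : G} (h : Tri x y) :
    Nonempty (Subgroup.closure ({x, y} : Set G) ≃* alternatingGroup (Fin 5)) := by
  obtain ⟨f, hf, ha, hb⟩ := H29.Tri.exists_inj5 h.2.1 h.2.2.1 h.2.2.2 h.1
  have : f.range = Subgroup.closure {x, y} := by
    rw [MonoidHom.range_eq_map, ← H29.Tri.closure5, MonoidHom.map_closure, Set.image_pair, ha, hb]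
  exact ⟨(MulEquiv.subgroupCongr this).symm.trans (MonoidHom.ofInjective hf).symm⟩

theorem card_tri_eq_mul {G : Type*} [Group G] [Finite G] :
    Nat.card {p : G × G // Tri p.1 p.2} =
      Nat.card {H : Subgroup G // Nonempty (H ≃* alternatingGroup (Fin 5))} *
        Nat.card {p : alternatingGroup (Fin 5) × alternatingGroup (Fin 5) // Tri p.1 p.2} := by
  have := Fintype.ofFinite {H : Subgroup G // Nonempty (H ≃* alternatingGroup (Fin 5))}
  have h1 : Nat.card {p : G × G // Tri p.1 p.2} =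
      Nat.card (Σ H : {H : Subgroup G // Nonempty (H ≃* alternatingGroup (Fin 5))},
        {p : H.1 × H.1 // Tri p.1 p.2}) := by
    symm
    have key : ∀ (H : {H : Subgroup G // Nonempty (H ≃* alternatingGroup (Fin 5))}) (x y : G),
        x ∈ H.1 → y ∈ H.1 → Tri x y → H.1 = Subgroup.closure {x, y} := fun H x y hx hy h => by
      symm
      refine Subgroup.eq_of_le_of_card_ge ((Subgroup.closure_le _).2 (Set.pair_subset hx hy)) ?_
      rw [Nat.card_congr H.2.some.toEquiv, Nat.card_congr h.closure.some.toEquiv]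
    refine Nat.card_congr (Equiv.ofBijective (fun p => ⟨(p.2.1.1, p.2.1.2),
      (Tri.map p.1.1.subtype p.1.1.subtype_injective).2 p.2.2⟩) ⟨?_, ?_⟩)
    · rintro ⟨H, ⟨⟨x, hx⟩, y, hy⟩, h⟩ ⟨K, ⟨⟨x', hx'⟩, y', hy'⟩, h'⟩ hp
      obtain ⟨rfl, rfl⟩ : x = x' ∧ y = y' := Prod.mk.inj (congrArg Subtype.val hp)
      have h2 := (Tri.map H.1.subtype H.1.subtype_injective).2 h
      obtain rfl : H = K := Subtype.ext ((key H x y hx hy h2).trans (key K x y hx' hy' h2).symm)
      rfl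
    · rintro ⟨⟨x, y⟩, h⟩
      exact ⟨⟨⟨_, h.closure⟩, (⟨x, Subgroup.subset_closure (by simp)⟩,
        ⟨y, Subgroup.subset_closure (by simp)⟩),
        (Tri.map (Subgroup.subtype _) (Subgroup.subtype_injective _)).1 h⟩, rfl⟩
  rw [h1, Nat.card_sigma, Finset.sum_congr rfl fun H _ => card_tri_congr H.2.some,
    Finset.sum_const, Finset.card_univ, smul_eq_mul, ← Nat.card_eq_fintype_card]

theorem perm_count : ∑ x ∈ (Finset.univ.filter fun x : Equiv.Perm (Fin 5) => x ≠ 1 ∧ x ^ 2 = 1),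
    ((Finset.univ.filter fun y : Equiv.Perm (Fin 5) => y ^ 3 = 1).filter
      fun y => (x * y) ^ 5 = 1).card = 120 := by decide +kernel

theorem card_tri_alt :
    Nat.card {p : alternatingGroup (Fin 5) × alternatingGroup (Fin 5) // Tri p.1 p.2} = 120 := by
  classical
  have hodd : ∀ (y : Equiv.Perm (Fin 5)) (k : ℕ), Odd k → y ^ k = 1 → y ∈ alternatingGroup (Fin 5) :=
    fun y k hk h => by
      have := congrArg Equiv.Perm.sign h
      rw [map_pow, map_one] at this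
      rw [Equiv.Perm.mem_alternatingGroup]
      refine (Int.units_eq_one_or _).resolve_right fun h' => ?_
      rw [h', hk.neg_one_pow] at this
      exact absurd this (by decide)
  rw [← perm_count, ← Finset.card_sigma, ← Nat.card_eq_finsetCard]
  refine Nat.card_congr (Equiv.ofBijective (fun p => ⟨⟨p.1.1.1, p.1.2.1⟩, ?_⟩) ⟨?_, ?_⟩)
  · have := (Tri.map (alternatingGroup (Fin 5)).subtype (Subgroup.subtype_injective _)).2 p.2
    simpa [Tri, and_assoc] using this
  · rintro ⟨⟨x, y⟩, h⟩ ⟨⟨x', y'⟩, h'⟩ hp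
    simp only [Subtype.mk.injEq, Sigma.mk.injEq, heq_eq_eq] at hp
    exact Subtype.ext (Prod.ext (Subtype.ext hp.1) (Subtype.ext hp.2))
  · rintro ⟨⟨x, y⟩, h⟩
    simp only [Finset.mem_sigma, Finset.mem_filter, Finset.mem_univ, true_and] at h
    have hy := hodd y 3 (by decide) h.2.1
    have hx : x ∈ alternatingGroup (Fin 5) :=
      (Subgroup.mul_mem_cancel_right _ hy).1 (hodd _ 5 (by decide) h.2.2)
    exact ⟨⟨(⟨x, hx⟩, ⟨y, hy⟩), (Tri.map (alternatingGroup (Fin 5)).subtype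
      (Subgroup.subtype_injective _)).1 ⟨h.1.1, h.1.2, h.2⟩⟩, rfl⟩

abbrev Z := ZMod 11
abbrev T4 := Z × Z × Z × Z
def mu (s t : T4) : T4 := (s.1 * t.1 + s.2.1 * t.2.2.1, s.1 * t.2.1 + s.2.1 * t.2.2.2,
  s.2.2.1 * t.1 + s.2.2.2 * t.2.2.1, s.2.2.1 * t.2.1 + s.2.2.2 * t.2.2.2)
def dt (s : T4) : Z := s.1 * s.2.2.2 - s.2.1 * s.2.2.1
def pm (s : T4) : Prop := s = (1, 0, 0, 1) ∨ s = (-1, 0, 0, -1)
instance decPm : DecidablePred pm := fun s => by unfold pm; infer_instance
def p5 (u : T4) : T4 := mu (mu (mu (mu u u) u) u) u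
theorem c1 : (Finset.univ.filter fun s => dt s = 1 ∧ ¬ pm s ∧ pm (mu s s)).card = 110 := by
  decide +kernel
theorem c2 : (Finset.univ.filter fun s => dt s = 1 ∧ pm (mu (mu s s) s) ∧
    pm (p5 (mu (0, -1, 1, 0) s))).card = 96 := by decide +kernel

instance fact11 : Fact (Nat.Prime 11) := ⟨by norm_num⟩

def toT (g : SL(2, Z)) : T4 := (g.1 0 0, g.1 0 1, g.1 1 0, g.1 1 1)

theorem toT_mul (g h : SL(2, Z)) : toT (g * h) = mu (toT g) (toT h) := by
  simp only [toT, mu, H29.sl_mul_apply]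

theorem pm_toT (g : SL(2, Z)) : pm (toT g) ↔ (g : PSL(2, Z)) = 1 := by
  rw [H29.psl_mk_eq_one_iff', H29.sl_ext_iff, H29.sl_ext_iff]
  simp [pm, toT]

theorem card_psl_eq (P : PSL(2, Z) → Prop) (Q : T4 → Prop) [DecidablePred Q]
    (h : ∀ g : SL(2, Z), P g ↔ Q (toT g)) :
    2 * Nat.card {x // P x} = (Finset.univ.filter fun s => dt s = 1 ∧ Q s).card := by
  have h1 := QuotientGroup.card_preimage_mk (Subgroup.center SL(2, Z)) {x | P x}
  rw [H10.card_center_SL, Nat.card_zmod] at h1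
  refine h1.symm.trans ?_
  rw [← Nat.card_eq_finsetCard]
  refine Nat.card_congr (Equiv.ofBijective (fun g => ⟨toT g.1, ?_⟩) ⟨?_, ?_⟩)
  · rw [Finset.mem_filter]
    refine ⟨Finset.mem_univ _, ?_, (h _).1 g.2⟩
    have := g.1.2
    rwa [Matrix.det_fin_two] at this
  · intro a b hab
    simp only [toT, Subtype.mk.injEq, Prod.mk.injEq] at hab
    exact Subtype.ext (H29.sl_ext_iff.2 hab)
  · rintro ⟨⟨a, b, c, d⟩, hs⟩
    rw [Finset.mem_filter] at hs
    exact ⟨⟨⟨!![a, b; c, d], by rw [Matrix.det_fin_two_of]; exact hs.2.1⟩, (h _).2 hs.2.2⟩, rfl⟩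

theorem card_tri_psl : Nat.card {p : PSL(2, Z) × PSL(2, Z) // Tri p.1 p.2} = 2640 := by
  have h2 : (2 : Z) ≠ 0 := by decide
  rw [card_tri_eq (H29.matJ Z : PSL(2, Z)) ⟨H29.mk_ne_one_of_trace h2 H29.trace_matJ,
    by rw [sq]; exact H29.psl_mul_self_of_trace H29.trace_matJ⟩ ?_]
  · have h3 := card_psl_eq (fun x => x ≠ 1 ∧ x ^ 2 = 1) (fun s => ¬ pm s ∧ pm (mu s s)) fun g => by
      simp only [← toT_mul, pm_toT, QuotientGroup.mk_mul, sq]
    have h4 := card_psl_eq (fun y => y ^ 3 = 1 ∧ ((H29.matJ Z : PSL(2, Z)) * y) ^ 5 = 1)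
      (fun s => pm (mu (mu s s) s) ∧ pm (p5 (mu (toT (H29.matJ Z)) s))) fun g => by
      simp only [p5, ← toT_mul, pm_toT, QuotientGroup.mk_mul, pow_succ, pow_zero, one_mul]
    rw [c1] at h3
    rw [show toT (H29.matJ Z) = (0, -1, 1, 0) from rfl, c2] at h4
    rw [show Nat.card {x : PSL(2, Z) // x ≠ 1 ∧ x ^ 2 = 1} = 55 by omega,
      show Nat.card {y : PSL(2, Z) // y ^ 3 = 1 ∧ ((H29.matJ Z : PSL(2, Z)) * y) ^ 5 = 1} = 48 by omega]
  · intro x hx hx2
    obtain ⟨g, rfl⟩ := QuotientGroup.mk_surjective x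
    obtain ⟨c, hc⟩ := H29.exists_conj_matJ h2 (H29.trace_of_psl_mul_self (by rwa [← sq]) hx)
    exact ⟨c, by rw [← hc]; rfl⟩

theorem ncard_orbit {G : Type*} [Group G] [Finite G] [IsSimpleGroup G] (hG : Nat.card G = 660)
    (H : Subgroup G) (hH : Nat.card H = 60) :
    (Set.range fun g : G => MulAut.conj g • H).ncard = 11 := by
  have hi : H.index = 11 := by
    have := H.index_mul_card
    rw [hH, hG] at this
    omega
  have h1 : (Subgroup.normalizer (H : Set G)).index ∣ 11 :=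
    hi ▸ Subgroup.index_dvd_of_le H.le_normalizer
  have h2 : (Subgroup.normalizer (H : Set G)).index = 11 := by
    refine ((Nat.dvd_prime (by norm_num)).1 h1).resolve_left fun h => ?_
    rw [Subgroup.index_eq_one, Subgroup.normalizer_eq_top_iff] at h
    rcases h.eq_bot_or_eq_top with h | h
    · rw [h, Subgroup.card_bot] at hH; omega
    · rw [h, Subgroup.index_top] at hi; omega
  let := MulAction.compHom (Subgroup G) (MulAut.conj (G := G))
  have h3 : MulAction.stabilizer G H = Subgroup.normalizer (H : Set G) := by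
    ext g
    exact (H1.mem_normalizer_iff_conj_smul_eq).symm
  rw [← h2, ← h3, MulAction.index_stabilizer]
  rfl


/-- Let F be a field with 11 elements. PSL_2(F) has exactly 22 subgroups isomorphic to the alternating group A_5, and they form two conjugacy classes: there are two such subgroups that are not conjugate, and every such subgroup is conjugate to one of these two. -/
theorem result {F : Type*} [Field F] [Fintype F] (hF : Fintype.card F = 11) : Nat.card {H : Subgroup (Matrix.ProjectiveSpecialLinearGroup (Fin 2) F) // Nonempty (H ≃* alternatingGroup (Fin 5))} = 22 ∧ ∃ H K : Subgroup (Matrix.ProjectiveSpecialLinearGroup (Fin 2) F), Nonempty (H ≃* alternatingGroup (Fin 5)) ∧ Nonempty (K ≃* alternatingGroup (Fin 5)) ∧ (∀ g : Matrix.ProjectiveSpecialLinearGroup (Fin 2) F, MulAut.conj g • H ≠ K) ∧ ∀ L : Subgroup (Matrix.ProjectiveSpecialLinearGroup (Fin 2) F), Nonempty (L ≃* alternatingGroup (Fin 5)) → ∃ g : Matrix.ProjectiveSpecialLinearGroup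 (Fin 2) F, MulAut.conj g • L = H ∨ MulAut.conj g • L = K := by
  have hq : Nat.card F = 11 := by rw [Nat.card_eq_fintype_card, hF]
  obtain ⟨e⟩ := H10.nonempty_ringEquiv_zmod 11 hq
  have h1 := card_tri_eq_mul (G := PSL(2, F))
  rw [card_tri_congr (H10.pslCongr e), card_tri_psl, card_tri_alt] at h1
  have h22 : Nat.card {H : Subgroup PSL(2, F) // Nonempty (H ≃* alternatingGroup (Fin 5))} = 22 := by
    omega
  refine ⟨h22, ?_⟩
  have hG : Nat.card PSL(2, F) = 660 := by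
    have hG := H10.card_PSL_two (F := F)
    rw [hq] at hG
    norm_num at hG
    omega
  have hs := H10.isSimpleGroup_PSL_fin (F := F) 2 le_rfl fun _ => by omega
  set A : Set (Subgroup PSL(2, F)) := {H | Nonempty (H ≃* alternatingGroup (Fin 5))} with hA
  have hA22 : A.ncard = 22 := h22
  have hcl : ∀ H ∈ A, (Set.range fun g : PSL(2, F) => MulAut.conj g • H).ncard = 11 := fun H hH =>
    ncard_orbit hG H (by rw [Nat.card_congr hH.some.toEquiv, card_alt])
  have hsub : ∀ H ∈ A, (Set.range fun g : PSL(2, F) => MulAut.conj g • H) ⊆ A := by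
    rintro H hH _ ⟨g, rfl⟩
    exact ⟨(Subgroup.equivSMul (MulAut.conj g) H).symm.trans hH.some⟩
  obtain ⟨H, hH⟩ := Set.nonempty_of_ncard_ne_zero (s := A) (by omega)
  obtain ⟨K, hK, hKH⟩ := Set.exists_mem_notMem_of_ncard_lt_ncard
    (s := Set.range fun g : PSL(2, F) => MulAut.conj g • H) (t := A) (by rw [hcl H hH]; omega)
  refine ⟨H, K, hH, hK, fun g hg => hKH ⟨g, hg⟩, fun L hL => ?_⟩
  have hdis : Disjoint (Set.range fun g : PSL(2, F) => MulAut.conj g • H)
      (Set.range fun g : PSL(2, F) => MulAut.conj g • K) := by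
    rw [Set.disjoint_left]
    rintro _ ⟨g, rfl⟩ ⟨k, hk⟩
    refine hKH ⟨k⁻¹ * g, ?_⟩
    dsimp only at hk ⊢
    rw [map_mul, mul_smul, ← hk, map_inv, inv_smul_smul]
  have hun := Set.eq_of_subset_of_ncard_le (Set.union_subset (hsub H hH) (hsub K hK))
    (by rw [Set.ncard_union_eq hdis, hcl H hH, hcl K hK, hA22])
  have hL' : L ∈ A := hL
  rw [← hun] at hL'
  rcases hL' with ⟨g, rfl⟩ | ⟨g, rfl⟩
  · exact ⟨g⁻¹, Or.inl (by rw [map_inv, inv_smul_smul])⟩
  · exact ⟨g⁻¹, Or.inr (by rw [map_inv, inv_smul_smul])⟩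

end Cfsg.Agent.S2543
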