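import Cfsg.Statements.S2551
import Cfsg.Agent.S0256

set_option autoImplicit false
open Cfsg

namespace Cfsg.Agent.S2551

open MulAction

section
variable {F : Type*} [Field F] [Fintype F]

theorem eq_one_of_ne_zero (hF : Fintype.card F = 2) {a : F} (ha : a ≠ 0) : a = 1 := by
  have := FiniteField.pow_card_sub_one_eq_one a ha
  rwa [hF, pow_one] at this

/-- pairs of distinct nonzero vectors -/
def Pr (F : Type*) [Field F] : Set ((Fin 4 → F) × (Fin 4 → F)) :=
  {x | x.1 ≠ 0 ∧ x.2 ≠ 0 ∧ x.1 ≠ x.2}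

theorem ncard_Pr (hF : Fintype.card F = 2) : (Pr F).ncard = 210 := by
  classical
  have : Pr F = ((Finset.univ.erase (0 : Fin 4 → F)).offDiag : Finset _) := by
    ext x; simp [Pr]
  rw [this, Set.ncard_coe_finset, Finset.offDiag_card, Finset.card_erase_of_mem (Finset.mem_univ _),
    Finset.card_univ, Fintype.card_fun, hF, Fintype.card_fin]
  norm_num

omit [Fintype F] in
theorem smul_mem_Pr (g : GL (Fin 4) F) {x : (Fin 4 → F) × (Fin 4 → F)} (hx : x ∈ Pr F) :
    g • x ∈ Pr F :=
  ⟨(smul_ne_zero_iff_ne g).2 hx.1, (smul_ne_zero_iff_ne g).2 hx.2.1,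
    fun h => hx.2.2 (smul_left_cancel g h)⟩

theorem orbit_eq_Pr (hF : Fintype.card F = 2) {x : (Fin 4 → F) × (Fin 4 → F)} (hx : x ∈ Pr F) :
    orbit (GL (Fin 4) F) x = Pr F := by
  have hmk : ∀ {v w : Fin 4 → F} (hv : v ≠ 0) (hw : w ≠ 0),
      Projectivization.mk F v hv = Projectivization.mk F w hw → v = w := fun hv hw h => by
    obtain ⟨a, ha⟩ := (Projectivization.mk_eq_mk_iff F _ _ hv hw).1 h
    rw [← ha, Units.smul_def, eq_one_of_ne_zero hF a.ne_zero, one_smul]
  refine Set.Subset.antisymm ?_ fun y hy => ?_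
  · rintro _ ⟨g, rfl⟩; exact smul_mem_Pr g hx
  · obtain ⟨g, h1, h2⟩ := @(is_two_pretransitive_iff (G := Matrix.SpecialLinearGroup (Fin 4) F)
      (α := Projectivization F (Fin 4 → F))).1
      inferInstance (Projectivization.mk F _ hx.1) (Projectivization.mk F _ hx.2.1)
      (Projectivization.mk F _ hy.1) (Projectivization.mk F _ hy.2.1)
      (fun h => hx.2.2 (hmk _ _ h)) (fun h => hy.2.2 (hmk _ _ h))
    rw [Projectivization.smul_mk] at h1 h2
    exact ⟨Matrix.SpecialLinearGroup.toGL g, Prod.ext (hmk _ _ h1) (hmk _ _ h2)⟩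

theorem card_GL (hF : Fintype.card F = 2) : Nat.card (GL (Fin 4) F) = 20160 := by
  rw [H10.card_GL_fin, Nat.card_eq_fintype_card, hF]; decide

theorem le_ncard_orbit (hF : Fintype.card F = 2) (H : Subgroup (GL (Fin 4) F))
    (hH : Nat.card H = 2520) {x : (Fin 4 → F) × (Fin 4 → F)} (hx : x ∈ Pr F) :
    105 ≤ (orbit H x).ncard := by
  have h1 := (stabilizer (GL (Fin 4) F) x).index_mul_card
  rw [index_stabilizer, orbit_eq_Pr hF hx, ncard_Pr hF, card_GL hF] at h1
  have h2 := (stabilizer H x).index_mul_card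
  rw [index_stabilizer, hH] at h2
  have h3 : Nat.card (stabilizer H x) ∣ Nat.card (stabilizer (GL (Fin 4) F) x) :=
    Subgroup.card_dvd_of_injective
      ((H.subtype.comp (stabilizer H x).subtype).codRestrict (stabilizer (GL (Fin 4) F) x)
        fun g => g.2) fun a b h => Subtype.ext (Subtype.ext (congrArg (fun z : stabilizer (GL (Fin 4) F) x => z.1) h))
  rw [show Nat.card (stabilizer (GL (Fin 4) F) x) = 96 by omega] at h3
  have h4 : Nat.card (stabilizer H x) ∣ Nat.gcd 96 2520 := Nat.dvd_gcd h3 (Dvd.intro_left _ h2)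
  have h5 : Nat.card (stabilizer H x) ≤ 24 := Nat.le_of_dvd (by norm_num) h4
  by_contra h6
  nlinarith

theorem orbit_sub_eq_Pr (hF : Fintype.card F = 2) (H : Subgroup (GL (Fin 4) F))
    (hH : Nat.card H = 2520) {x : (Fin 4 → F) × (Fin 4 → F)} (hx : x ∈ Pr F) :
    orbit H x = Pr F := by
  classical
  have hsub : ∀ y ∈ Pr F, orbit H y ⊆ Pr F := by
    rintro y hy _ ⟨g, rfl⟩; exact smul_mem_Pr g hy
  obtain ⟨t, ht⟩ := exists_prime_orderOf_dvd_card' (G := H) 2 (by rw [hH]; norm_num)
  have ht2 : t * t = 1 := by rw [← sq, ← ht, pow_orderOf_eq_one]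
  obtain ⟨v, hv⟩ : ∃ v : Fin 4 → F, t • v ≠ v := by
    by_contra h
    push Not at h
    have : t = 1 := Subtype.ext (Units.ext (Matrix.toLin'.injective (LinearMap.ext fun v => by
      rw [Matrix.toLin'_apply, Matrix.toLin'_apply]
      exact (h v).trans (Matrix.one_mulVec v).symm)))
    rw [this, orderOf_one] at ht
    omega
  have hv0 : v ≠ 0 := fun h => hv (by rw [h, smul_zero])
  have hy : (v, t • v) ∈ Pr F := ⟨hv0, (smul_ne_zero_iff_ne t).2 hv0, hv.symm⟩
  suffices h : orbit H (v, t • v) = Pr F by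
    rw [← h] at hx ⊢
    exact orbit_eq_iff.2 hx
  by_contra hne
  obtain ⟨z, hz, hz'⟩ := Set.exists_of_ssubset (Set.ssubset_iff_subset_ne.2 ⟨hsub _ hy, hne⟩)
  have hdis : Disjoint (orbit H (v, t • v)) (orbit H z) := by
    rw [Set.disjoint_left]
    intro a ha ha'
    apply hz'
    rw [← orbit_eq_iff.2 ha, orbit_eq_iff.2 ha']
    exact mem_orbit_self z
  have h1 := Set.ncard_le_ncard (Set.union_subset (hsub _ hy) (hsub _ hz))
  rw [Set.ncard_union_eq hdis, ncard_Pr hF] at h1
  have h2 := le_ncard_orbit hF H hH hy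
  have h3 := le_ncard_orbit hF H hH hz
  have h4 : (orbit H (v, t • v)).ncard = 105 := by omega
  have h5 := Finset.sum_involution (s := (orbit H (v, t • v)).toFinite.toFinset)
    (f := fun _ => (1 : ZMod 2)) (fun a _ => a.swap) (fun _ _ => rfl)
    (fun a ha _ h => (hsub _ hy (by simpa using ha)).2.2 (congrArg Prod.snd h))
    (fun a ha => by
      rw [Set.Finite.mem_toFinset] at ha ⊢
      obtain ⟨g, rfl⟩ := ha
      exact ⟨g * t, Prod.ext (mul_smul g t v) (by
        change (g * t) • t • v = g • v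
        rw [← mul_smul, mul_assoc, ht2, mul_one])⟩) (fun _ _ => rfl)
  rw [Finset.sum_const, ← Set.ncard_eq_toFinset_card, h4] at h5
  revert h5; decide +kernel
end


/-- Let F be the field with 2 elements. GL_4(F) (≅ A_8) has a subgroup isomorphic to the alternating group A_7, and every such subgroup acts 2-transitively on the 15 non-zero vectors of F⁴: any ordered pair of distinct non-zero vectors is carried to any other by some element of the subgroup. -/
theorem result {F : Type*} [Field F] [Fintype F] (hF : Fintype.card F = 2) : (∃ H : Subgroup (Matrix.GeneralLinearGroup (Fin 4) F), Nonempty (H ≃* alternatingGroup (Fin 7))) ∧ ∀ H : Subgroup (Matrix.GeneralLinearGroup (Fin 4) F), Nonempty (H ≃* alternatingGroup (Fin 7)) → ∀ v w v' w' : Fin 4 → F, v ≠ 0 → w ≠ 0 → v ≠ w → v' ≠ 0 → w' ≠ 0 → v' ≠ w' → ∃ g ∈ H, (g : Matrix (Fin 4) (Fin 4) F).mulVec v = v' ∧ (g : Matrix (Fin 4) (Fin 4) F).mulVec w = w' := by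
  constructor
  · obtain ⟨e⟩ := Cfsg.Agent.S0256.result hF
    have hq : Nat.card F = 2 := by rw [Nat.card_eq_fintype_card, hF]
    have hZ : Subgroup.center (Matrix.SpecialLinearGroup (Fin 4) F) = ⊥ := by
      rw [← Subgroup.card_eq_one, H10.card_center_SL, hq]; rfl
    let φ : alternatingGroup (Fin 7) →* alternatingGroup (Fin 8) :=
      ((Equiv.Perm.viaEmbeddingHom Fin.castSuccEmb).comp (alternatingGroup (Fin 7)).subtype).codRestrict
        _ fun σ => by
          have h1 : Equiv.Perm.viaEmbeddingHom Fin.castSuccEmb (σ : Equiv.Perm (Fin 7)) =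
              (σ : Equiv.Perm (Fin 7)).viaFintypeEmbedding Fin.castSuccEmb := by
            ext y
            by_cases hy : y ∈ Set.range (Fin.castSuccEmb : Fin 7 ↪ Fin 8)
            · obtain ⟨i, rfl⟩ := hy
              rw [Equiv.Perm.viaEmbeddingHom_apply, Equiv.Perm.viaEmbedding_apply,
                Equiv.Perm.viaFintypeEmbedding_apply_image]
            · rw [Equiv.Perm.viaEmbeddingHom_apply, Equiv.Perm.viaEmbedding_apply_of_notMem _ _ _ hy,
                Equiv.Perm.viaFintypeEmbedding_apply_notMem_range _ _ hy]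
          rw [Equiv.Perm.mem_alternatingGroup, MonoidHom.comp_apply, Subgroup.coe_subtype, h1,
            Equiv.Perm.viaFintypeEmbedding_sign]
          exact σ.2
    have hφ : Function.Injective φ := fun a b h =>
      Subtype.ext (Equiv.Perm.viaEmbeddingHom_injective _ (congrArg Subtype.val h))
    let ψ := (Matrix.SpecialLinearGroup.toGL.comp
      (e.symm.trans (H10.quotCenterEquivOfBot hZ)).toMonoidHom).comp φ
    have hψ : Function.Injective ψ := (Matrix.SpecialLinearGroup.toGL_injective.comp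
      (e.symm.trans (H10.quotCenterEquivOfBot hZ)).injective).comp hφ
    exact ⟨ψ.range, ⟨(MonoidHom.ofInjective hψ).symm⟩⟩
  · rintro H ⟨e⟩ v w v' w' hv hw hvw hv' hw' hvw'
    have hH : Nat.card H = 2520 := by
      have := H10.card_alternatingGroup_fin 7 (by norm_num)
      rw [show Nat.factorial 7 = 5040 from rfl] at this
      rw [Nat.card_congr e.toEquiv]; omega
    have h := orbit_sub_eq_Pr hF H hH (x := (v, w)) ⟨hv, hw, hvw⟩
    obtain ⟨g, hg⟩ : (v', w') ∈ orbit H (v, w) := h ▸ ⟨hv', hw', hvw'⟩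
    exact ⟨g, g.2, congrArg Prod.fst hg, congrArg Prod.snd hg⟩

end Cfsg.Agent.S2551
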