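import Cfsg.Statements.S2561
import Cfsg.Agent.Lib.MatConj.QuadTwo

set_option autoImplicit false
open Cfsg

namespace Cfsg.Agent.S2561



/-- Fix the non-singular alternating form on the 2m-dimensional space over the field of two elements obtained by polarizing the plus-type form Σ xᵢyᵢ (m ≥ 1). The functions q on the space with q(u + v) = q(u) + q(v) + f(u, v) (the quadratic forms polarizing to f) number 2^(2m); each is equivalent under an invertible linear map either to the plus-type form or to the minus-type form Σ xᵢyᵢ + (z₁² + z₁z₂ + z₂²); and those of plus type number 2^(2m−1) + 2^(m−1), those of minus type 2^(2m−1) − 2^(m−1). -/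
theorem result (m : ℕ) (hm : 1 ≤ m) :
    Nat.card {q : (Fin m ⊕ Fin m → ZMod 2) → ZMod 2 // (∀ u v : (Fin m ⊕ Fin m → ZMod 2), q (u + v) = q u + q v + (Cfsg.quadFormPlus m (ZMod 2) (u + v) - Cfsg.quadFormPlus m (ZMod 2) u - Cfsg.quadFormPlus m (ZMod 2) v))} = 2 ^ (2 * m) ∧
    (∀ q : (Fin m ⊕ Fin m → ZMod 2) → ZMod 2, (∀ u v : (Fin m ⊕ Fin m → ZMod 2), q (u + v) = q u + q v + (Cfsg.quadFormPlus m (ZMod 2) (u + v) - Cfsg.quadFormPlus m (ZMod 2) u - Cfsg.quadFormPlus m (ZMod 2) v)) →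
      (∃ g : (Fin m ⊕ Fin m → ZMod 2) ≃ₗ[ZMod 2] (Fin m ⊕ Fin m → ZMod 2), ∀ v, q v = Cfsg.quadFormPlus m (ZMod 2) (g v)) ∨
      (∃ g : (Fin m ⊕ Fin m → ZMod 2) ≃ₗ[ZMod 2] ((Fin (m - 1) ⊕ Fin (m - 1)) ⊕ Fin 2 → ZMod 2), ∀ v, q v = Cfsg.quadFormMinus (m - 1) (ZMod 2) 1 1 (g v))) ∧
    Nat.card {q : (Fin m ⊕ Fin m → ZMod 2) → ZMod 2 // (∀ u v : (Fin m ⊕ Fin m → ZMod 2), q (u + v) = q u + q v + (Cfsg.quadFormPlus m (ZMod 2) (u + v) - Cfsg.quadFormPlus m (ZMod 2) u - Cfsg.quadFormPlus m (ZMod 2) v)) ∧ ∃ g : (Fin m ⊕ Fin m → ZMod 2) ≃ₗ[ZMod 2] (Fin m ⊕ Fin m → ZMod 2), ∀ v, q v = Cfsg.quadFormPlus m (ZMod 2) (g v)} = 2 ^ (2 * m - 1) + 2 ^ (m - 1) ∧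
    Nat.card {q : (Fin m ⊕ Fin m → ZMod 2) → ZMod 2 // (∀ u v : (Fin m ⊕ Fin m → ZMod 2), q (u + v) = q u + q v + (Cfsg.quadFormPlus m (ZMod 2) (u + v) - Cfsg.quadFormPlus m (ZMod 2) u - Cfsg.quadFormPlus m (ZMod 2) v)) ∧ ∃ g : (Fin m ⊕ Fin m → ZMod 2) ≃ₗ[ZMod 2] ((Fin (m - 1) ⊕ Fin (m - 1)) ⊕ Fin 2 → ZMod 2), ∀ v, q v = Cfsg.quadFormMinus (m - 1) (ZMod 2) 1 1 (g v)} = 2 ^ (2 * m - 1) - 2 ^ (m - 1) := by
  have hnd := H66.qPlus_nd (F := ZMod 2) m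
  have hfr : Module.finrank (ZMod 2) (Fin m ⊕ Fin m → ZMod 2) = 2 * m := by simp [two_mul]
  have hcard : Nat.card (Fin m ⊕ Fin m → ZMod 2) = 2 ^ (2 * m) := by simp [two_mul]
  have hdich : ∀ q : (Fin m ⊕ Fin m → ZMod 2) → ZMod 2, (∀ u v : (Fin m ⊕ Fin m → ZMod 2), q (u + v) = q u + q v + (Cfsg.quadFormPlus m (ZMod 2) (u + v) - Cfsg.quadFormPlus m (ZMod 2) u - Cfsg.quadFormPlus m (ZMod 2) v)) →
      (∃ g : (Fin m ⊕ Fin m → ZMod 2) ≃ₗ[ZMod 2] (Fin m ⊕ Fin m → ZMod 2), ∀ v, q v = Cfsg.quadFormPlus m (ZMod 2) (g v)) ∨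
      (∃ g : (Fin m ⊕ Fin m → ZMod 2) ≃ₗ[ZMod 2] ((Fin (m - 1) ⊕ Fin (m - 1)) ⊕ Fin 2 → ZMod 2), ∀ v, q v = Cfsg.quadFormMinus (m - 1) (ZMod 2) 1 1 (g v)) := by
    intro q hq
    obtain ⟨Q, rfl, hQ⟩ := H65.exists_quad_of_polar (H66.qPlus m (ZMod 2)) q
      (by simpa only [H66.qPlus_apply] using hq)
    rcases H66.exists_equiv_plus_or_minus (H65.nd_of_polar_eq hnd hQ) hfr H95.aniso_one_one with
      ⟨Φ, hΦ⟩ | ⟨-, Φ, hΦ⟩
    · exact Or.inl ⟨Φ.symm, fun v => by rw [← hΦ, LinearEquiv.apply_symm_apply]⟩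
    · exact Or.inr ⟨Φ.symm, fun v => by rw [← hΦ, LinearEquiv.apply_symm_apply]⟩
  have hz : Nat.card {w : Fin m ⊕ Fin m → ZMod 2 // H66.qPlus m (ZMod 2) w = 0} =
      2 ^ (2 * m - 1) + 2 ^ (m - 1) := by
    have h := H95.two_mul_card_eq (H66.qPlus m (ZMod 2))
    rw [hcard, H66.coe_qPlus, H95.gauss_plus, ← H66.coe_qPlus] at h
    obtain ⟨k, rfl⟩ := Nat.exists_eq_add_of_le' hm
    have h2 : 2 * (k + 1) - 1 = 2 * k + 1 := by omega
    rw [h2, Nat.add_sub_cancel]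
    zify
    push_cast at h
    have h3 : (2 : ℤ) ^ (2 * (k + 1)) = 2 * 2 ^ (2 * k + 1) := by ring
    have h4 : (2 : ℤ) ^ (k + 1) = 2 * 2 ^ k := by ring
    linarith
  have hplus := fun w => H65.translate_equiv_iff hnd w
  refine ⟨?_, hdich, ?_, ?_⟩
  · have := H65.natCard_polar_subtype hnd (fun _ => True)
    simp only [and_true, H66.qPlus_apply] at this
    rw [this, ← hcard]
    exact Nat.card_congr (Equiv.subtypeUnivEquiv fun _ => trivial)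
  · have := H65.natCard_polar_subtype hnd (fun q => ∃ g : (Fin m ⊕ Fin m → ZMod 2) ≃ₗ[ZMod 2] (Fin m ⊕ Fin m → ZMod 2), ∀ v, q v = Cfsg.quadFormPlus m (ZMod 2) (g v))
    simp only [← H66.qPlus_apply] at this ⊢
    rw [this, ← hz]
    exact Nat.card_congr (Equiv.subtypeEquivRight fun w => hplus w)
  · have := H65.natCard_polar_subtype hnd (fun q => ∃ g : (Fin m ⊕ Fin m → ZMod 2) ≃ₗ[ZMod 2] ((Fin (m - 1) ⊕ Fin (m - 1)) ⊕ Fin 2 → ZMod 2), ∀ v, q v = Cfsg.quadFormMinus (m - 1) (ZMod 2) 1 1 (g v))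
    simp only [← H66.qPlus_apply] at this ⊢
    rw [this]
    have h1 : Nat.card {w : Fin m ⊕ Fin m → ZMod 2 // ¬ H66.qPlus m (ZMod 2) w = 0} =
        2 ^ (2 * m - 1) - 2 ^ (m - 1) := by
      classical
      rw [Nat.card_eq_fintype_card, Fintype.card_subtype_compl, ← Nat.card_eq_fintype_card,
        ← Nat.card_eq_fintype_card, hz, hcard]
      have : 2 ^ (2 * m) = 2 * 2 ^ (2 * m - 1) := by
        rw [← pow_succ']; congr 1; omega
      omega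
    rw [← h1]
    refine Nat.card_congr (Equiv.subtypeEquivRight fun w => ⟨?_, fun hw => ?_⟩)
    · rintro ⟨g, hg⟩ hw
      obtain ⟨g', hg'⟩ := (hplus w).2 hw
      refine H66.not_equiv_plus_minus (m := m) (k := m - 1) (by omega) H95.aniso_one_one
        (g'.symm.trans g).toLinearMap fun v => ?_
      rw [LinearEquiv.coe_coe, LinearEquiv.trans_apply, ← hg, hg', LinearEquiv.apply_symm_apply,
        H66.qPlus_apply]
    · refine (hdich _ ?_).resolve_left ?_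
      · simpa only [← H66.qPlus_apply] using H65.translate_polar (H66.qPlus m (ZMod 2)) w
      · rintro ⟨g, hg⟩
        exact hw ((hplus w).1 ⟨g, fun v => by rw [hg, H66.qPlus_apply]⟩)

end Cfsg.Agent.S2561
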