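import Cfsg.Statements.S2562
import Cfsg.Agent.Lib.MatConj.QuadTwo

set_option autoImplicit false
open Cfsg

namespace Cfsg.Agent.S2562



/-- Witt indices over the field of two elements, m ≥ 1: for the plus-type form Σ xᵢyᵢ in dimension 2m some m-dimensional subspace is totally singular and no totally singular subspace has larger dimension; for the minus-type form Σ xᵢyᵢ + (z₁² + z₁z₂ + z₂²) in dimension 2m the maximal dimension of a totally singular subspace is m − 1. -/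
theorem result (m : ℕ) (hm : 1 ≤ m) :
    (∃ U : Submodule (ZMod 2) (Fin m ⊕ Fin m → ZMod 2), (∀ u ∈ U, Cfsg.quadFormPlus m (ZMod 2) u = 0) ∧ Module.finrank (ZMod 2) ↥U = m) ∧
    (∀ U : Submodule (ZMod 2) (Fin m ⊕ Fin m → ZMod 2), (∀ u ∈ U, Cfsg.quadFormPlus m (ZMod 2) u = 0) → Module.finrank (ZMod 2) ↥U ≤ m) ∧
    (∃ U : Submodule (ZMod 2) ((Fin (m - 1) ⊕ Fin (m - 1)) ⊕ Fin 2 → ZMod 2), (∀ u ∈ U, Cfsg.quadFormMinus (m - 1) (ZMod 2) 1 1 u = 0) ∧ Module.finrank (ZMod 2) ↥U = m - 1) ∧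
    (∀ U : Submodule (ZMod 2) ((Fin (m - 1) ⊕ Fin (m - 1)) ⊕ Fin 2 → ZMod 2), (∀ u ∈ U, Cfsg.quadFormMinus (m - 1) (ZMod 2) 1 1 u = 0) → Module.finrank (ZMod 2) ↥U ≤ m - 1) := by
  refine ⟨⟨H66.stdU m _, fun u hu => H66.quadFormPlus_stdU hu, H66.finrank_stdU m⟩, fun U hU => ?_,
    ?_, fun U hU => H66.finrank_le_of_singular_minus H95.aniso_one_one U hU⟩
  · have := H66.two_mul_finrank_le_of_singular (H66.qPlus_nd m) U
      (fun u hu => by rw [H66.qPlus_apply, hU u hu])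
    simp at this
    omega
  · let ι : (Fin (m - 1) ⊕ Fin (m - 1) → ZMod 2) →ₗ[ZMod 2]
        ((Fin (m - 1) ⊕ Fin (m - 1)) ⊕ Fin 2 → ZMod 2) :=
      { toFun := fun v => Sum.elim v 0
        map_add' := fun u v => by ext (i | i) <;> simp
        map_smul' := fun a v => by ext (i | i) <;> simp }
    have hι : Function.Injective ι := fun u v h => funext fun i => congrFun h (.inl i)
    refine ⟨(H66.stdU (m - 1) _).map ι, ?_, ?_⟩
    · rintro _ ⟨v, hv, rfl⟩
      have := H66.quadFormPlus_stdU hv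
      simpa [Cfsg.quadFormMinus, Cfsg.quadFormPlus, ι] using this
    · rw [← LinearEquiv.finrank_eq (Submodule.equivMapOfInjective ι hι _), H66.finrank_stdU]

end Cfsg.Agent.S2562
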