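import Cfsg.Statements.S2565
import Cfsg.Agent.S2563
import Cfsg.Agent.S0287

set_option autoImplicit false
open Cfsg

namespace Cfsg.Agent.S2565



/-- The commutator subgroup of the full orthogonal group of the plus-type form Σ xᵢyᵢ in dimension 6 over the field of two elements (the group Ω⁺₆(2), of index 2) is isomorphic to the alternating group of degree 8. -/
theorem result :
    (Cfsg.Omega (ZMod 2) (Cfsg.quadFormPlus 3 (ZMod 2))).index = 2 ∧
    Nonempty (↥(Cfsg.Omega (ZMod 2) (Cfsg.quadFormPlus 3 (ZMod 2))) ≃* alternatingGroup (Fin 8)) := by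
  obtain ⟨φ, hφ⟩ := (Cfsg.Agent.S2563.result 1 le_rfl).1 odd_one
  have hc := Cfsg.Agent.S0287.result (F := ZMod 2) (ZMod.card 2) 3 (by norm_num)
  have hc' : Nat.card (Equiv.Perm (Fin (4 * 1 + 4))) =
      Nat.card (Cfsg.isometryGroup (ZMod 2) (Cfsg.quadFormPlus (2 * 1 + 1) (ZMod 2))) := by
    rw [Nat.card_perm, Nat.card_eq_fintype_card, Fintype.card_fin]
    exact Eq.trans (by decide) hc.symm
  let e : Equiv.Perm (Fin 8) ≃* Cfsg.isometryGroup (ZMod 2) (Cfsg.quadFormPlus 3 (ZMod 2)) :=
    MulEquiv.ofBijective φ ((Nat.bijective_iff_injective_and_card φ).2 ⟨hφ, hc'⟩)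
  clear_value e
  have h : Cfsg.Omega (ZMod 2) (Cfsg.quadFormPlus 3 (ZMod 2)) =
      (alternatingGroup (Fin 8)).map e.toMonoidHom := by
    rw [← alternatingGroup.commutator_perm_eq (by simp), commutator, Subgroup.map_commutator,
      Subgroup.map_top_of_surjective e.toMonoidHom e.surjective]
    rfl
  rw [h]
  refine ⟨?_, ⟨(e.subgroupMap _).symm⟩⟩
  rw [Subgroup.index_map_of_bijective (f := e.toMonoidHom) e.bijective, alternatingGroup.index_eq_two]

end Cfsg.Agent.S2565
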