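import Cfsg.Statements.S2566
import Cfsg.Agent.S0287

set_option autoImplicit false
open Cfsg

namespace Cfsg.Agent.S2566

abbrev M4 := Matrix (Fin 2 ⊕ Fin 2) (Fin 2 ⊕ Fin 2) (ZMod 2)
def P : M4 := Matrix.fromBlocks !![1, 0; 0, 1] !![0, 1; 1, 1] !![1, 1; 0, 1] !![0, 1; 1, 0]
def Q : M4 := Matrix.fromBlocks !![1, 1; 1, 0] !![0, 1; 1, 0] !![1, 0; 0, 1] !![1, 1; 0, 1]
def S : M4 := Matrix.fromBlocks !![0, 0; 0, 0] !![0, 1; 1, 0] !![0, 1; 1, 0] !![0, 0; 0, 0]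
def c : Fin 3 → Fin 2 → ZMod 2 := ![![1, 0], ![0, 1], ![1, 1]]
def R (σ : Equiv.Perm (Fin 3)) : Matrix (Fin 2) (Fin 2) (ZMod 2) :=
  Matrix.of fun i j => c (σ j.castSucc) i
def ψ (x : Equiv.Perm (Fin 3) × Equiv.Perm (Fin 3)) : M4 :=
  P * Matrix.fromBlocks (R x.1) 0 0 (R x.2) * Q

theorem R_mul : ∀ a b, R (a * b) = R a * R b := by decide +kernel
theorem QP : Q * P = 1 := by decide +kernel
theorem ψ_one : ψ 1 = 1 := by decide +kernel
theorem ψ_mul (a b) : ψ (a * b) = ψ a * ψ b := by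
  simp only [ψ, Prod.fst_mul, Prod.snd_mul, R_mul, Matrix.mul_assoc]
  rw [← Matrix.mul_assoc Q P, QP, Matrix.one_mul, ← Matrix.mul_assoc (Matrix.fromBlocks (R a.1) _ _ _),
    Matrix.fromBlocks_multiply]
  simp
theorem ψ_pres : ∀ a v, Cfsg.quadFormPlus 2 (ZMod 2) ((ψ a).mulVec v) = Cfsg.quadFormPlus 2 (ZMod 2) v := by
  decide +kernel
theorem ψ_inj : ∀ a, ψ a = 1 → a = 1 := by decide +kernel
theorem S_sq : S * S = 1 := by decide +kernel
theorem S_pres : ∀ v, Cfsg.quadFormPlus 2 (ZMod 2) (S.mulVec v) = Cfsg.quadFormPlus 2 (ZMod 2) v := by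
  decide +kernel
theorem S_conj : ∀ a, S * ψ (a, 1) * S = ψ (1, a) := by decide +kernel

/-- the embedding of `S₃ × S₃` -/
def φ : Equiv.Perm (Fin 3) × Equiv.Perm (Fin 3) →*
    Cfsg.isometryGroup (ZMod 2) (Cfsg.quadFormPlus 2 (ZMod 2)) :=
  (MonoidHom.toHomUnits ⟨⟨ψ, ψ_one⟩, ψ_mul⟩).codRestrict _ fun a v _ => ψ_pres a v

theorem φ_inj : Function.Injective φ := (injective_iff_map_eq_one φ).2 fun a h =>
  ψ_inj a (congrArg (fun x : Cfsg.isometryGroup (ZMod 2) (Cfsg.quadFormPlus 2 (ZMod 2)) =>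
    ((x : GL (Fin 2 ⊕ Fin 2) (ZMod 2)) : M4)) h)


/-- The full orthogonal group of the plus-type form x₁y₁ + x₂y₂ in dimension 4 over the field of two elements has order 72 and is isomorphic to the wreath product of the symmetric group of degree 3 by a group of order 2: it has a normal subgroup isomorphic to the direct product of two symmetric groups of degree 3, of index 2, whose two direct factors are interchanged by conjugation by some element. -/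
theorem result :
    Nat.card ↥(Cfsg.isometryGroup (ZMod 2) (Cfsg.quadFormPlus 2 (ZMod 2))) = 72 ∧
    ∃ (A B : Subgroup ↥(Cfsg.isometryGroup (ZMod 2) (Cfsg.quadFormPlus 2 (ZMod 2)))),
      Nonempty (↥A ≃* Equiv.Perm (Fin 3)) ∧ Nonempty (↥B ≃* Equiv.Perm (Fin 3)) ∧ A ⊓ B = ⊥ ∧ (∀ a ∈ A, ∀ b ∈ B, a * b = b * a) ∧
      (A ⊔ B).index = 2 ∧ ∃ g : ↥(Cfsg.isometryGroup (ZMod 2) (Cfsg.quadFormPlus 2 (ZMod 2))), A.map (MulAut.conj g).toMonoidHom = B := by
  have hc : Nat.card ↥(Cfsg.isometryGroup (ZMod 2) (Cfsg.quadFormPlus 2 (ZMod 2))) = 72 :=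
    (Cfsg.Agent.S0287.result (F := ZMod 2) (ZMod.card 2) 2 (by norm_num)).trans (by decide)
  have h1 : Function.Injective (φ.comp (MonoidHom.inl _ _)) :=
    φ_inj.comp fun a b h => congrArg Prod.fst h
  have h2 : Function.Injective (φ.comp (MonoidHom.inr _ _)) :=
    φ_inj.comp fun a b h => congrArg Prod.snd h
  refine ⟨hc, (φ.comp (MonoidHom.inl _ _)).range, (φ.comp (MonoidHom.inr _ _)).range,
    ⟨(MonoidHom.ofInjective h1).symm⟩, ⟨(MonoidHom.ofInjective h2).symm⟩, ?_, ?_, ?_,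
    ⟨⟨S, S, S_sq, S_sq⟩, fun v _ => S_pres v⟩, ?_⟩
  · rw [eq_bot_iff]
    rintro _ ⟨⟨a, rfl⟩, b, hb⟩
    have := congrArg Prod.fst (φ_inj hb)
    rw [Subgroup.mem_bot, show a = 1 from this.symm, map_one]
  · rintro _ ⟨a, rfl⟩ _ ⟨b, rfl⟩
    simp only [MonoidHom.comp_apply, ← map_mul]
    simp
  · have h3 : (φ.comp (MonoidHom.inl _ _)).range ⊔ (φ.comp (MonoidHom.inr _ _)).range = φ.range := by
      refine le_antisymm (sup_le ?_ ?_) ?_
      · rintro _ ⟨a, rfl⟩; exact ⟨_, rfl⟩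
      · rintro _ ⟨a, rfl⟩; exact ⟨_, rfl⟩
      · rintro _ ⟨⟨a, b⟩, rfl⟩
        rw [show (a, b) = (a, 1) * (1, b) by simp, map_mul]
        exact Subgroup.mul_mem_sup ⟨a, rfl⟩ ⟨b, rfl⟩
    have h4 := φ.range.index_mul_card
    rw [hc, ← Nat.card_congr (MonoidHom.ofInjective φ_inj).toEquiv, Nat.card_prod, Nat.card_perm,
      Nat.card_eq_fintype_card, Fintype.card_fin, show Nat.factorial 3 = 6 from rfl] at h4
    rw [h3]; omega
  · rw [MonoidHom.map_range]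
    refine congrArg MonoidHom.range (MonoidHom.ext fun a => Subtype.ext (Units.ext ?_))
    exact S_conj a

end Cfsg.Agent.S2566
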