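import Cfsg.Statements.S2567
import Cfsg.Agent.Lib.MatConj.Invol

set_option autoImplicit false
open Cfsg

namespace Cfsg.Agent.S2567

open H65


/-- Lifting elements of prime order from PGL to GL: let F be a finite field with q elements, r a prime not dividing q − 1, and x an element of order r in GL_n(F) modulo its centre (the scalar matrices). Then x has exactly one preimage in GL_n(F) of order r. -/
theorem result {F : Type*} [Field F] [Fintype F] {q n r : ℕ} (hF : Fintype.card F = q) (hr : r.Prime) (hdiv : ¬ r ∣ q - 1) (x : GL (Fin n) F ⧸ Subgroup.center (GL (Fin n) F)) (hx : orderOf x = r) : ∃! g : GL (Fin n) F, (QuotientGroup.mk g : GL (Fin n) F ⧸ Subgroup.center (GL (Fin n) F)) = x ∧ orderOf g = r := by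
  subst hF
  obtain ⟨g, rfl⟩ := QuotientGroup.mk_surjective x
  have := Fact.mk hr
  have hc : (Fintype.card F - 1).Coprime r := ((Nat.Prime.coprime_iff_not_dvd hr).mpr hdiv).symm
  have hZ : ∀ z ∈ Subgroup.center (GL (Fin n) F), z ^ (Fintype.card F - 1) = 1 := by
    intro z hz
    obtain ⟨c, hc, hz⟩ := (mem_center_gl_iff z).mp hz
    apply Units.ext
    rw [Units.val_pow_eq_pow_val, hz, _root_.smul_pow, FiniteField.pow_card_sub_one_eq_one c hc]
    simp
  have h1 : g ^ r ∈ Subgroup.center (GL (Fin n) F) := by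
    rw [← QuotientGroup.eq_one_iff, QuotientGroup.mk_pow, ← hx, pow_orderOf_eq_one]
  obtain ⟨m, hm⟩ := exists_pow_eq_self_of_coprime (x := g ^ r)
    (Nat.Coprime.coprime_dvd_right (orderOf_dvd_of_pow_eq_one (hZ _ h1)) hc.symm)
  have h2 : (QuotientGroup.mk (g * ((g ^ r) ^ m)⁻¹) :
      GL (Fin n) F ⧸ Subgroup.center (GL (Fin n) F)) = QuotientGroup.mk g := by
    rw [QuotientGroup.mk_mul, (QuotientGroup.eq_one_iff _).mpr
      (Subgroup.inv_mem _ (Subgroup.pow_mem _ h1 m)), mul_one]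
  have h3 : (g * ((g ^ r) ^ m)⁻¹) ^ r = 1 := by
    rw [Commute.mul_pow (((Commute.self_pow g r).pow_right m).inv_right), inv_pow, ← pow_mul,
      mul_comm m r, pow_mul, hm, mul_inv_cancel]
  refine ⟨g * ((g ^ r) ^ m)⁻¹, ⟨h2, orderOf_eq_prime h3 fun h => ?_⟩, ?_⟩
  · rw [← h2, h, QuotientGroup.mk_one, orderOf_one] at hx
    exact hr.ne_one hx.symm
  · rintro g' ⟨h4, h5⟩
    rw [← h2, QuotientGroup.eq] at h4
    have h6 : (g'⁻¹ * (g * ((g ^ r) ^ m)⁻¹)) ^ r = 1 := by
      have h7 : Commute g' (g'⁻¹ * (g * ((g ^ r) ^ m)⁻¹)) := Subgroup.mem_center_iff.mp h4 g'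
      have h8 := h7.mul_pow r
      rw [mul_inv_cancel_left, h3, ← h5, pow_orderOf_eq_one, one_mul, h5] at h8
      exact h8.symm
    have h7 := (pow_gcd_eq_one.mpr ⟨hZ _ h4, h6⟩)
    rw [hc, pow_one, inv_mul_eq_one] at h7
    exact h7

end Cfsg.Agent.S2567
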