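import Cfsg.Statements.S2569
import Cfsg.Agent.Lib.MatConj.Centralizer

set_option autoImplicit false
open Cfsg

namespace Cfsg.Agent.S2569

open H65 Polynomial Module

theorem exists_commute_det {F : Type*} [Field F] [Fintype F] {p : ℕ} [Fact p.Prime] [CharP F p]
    {n : ℕ} (hn : 0 < n) (x : GL (Fin n) F) (hx : (orderOf x).Coprime p) (c : F) (hc : c ≠ 0) :
    ∃ z : Matrix (Fin n) (Fin n) F, Commute (x : Matrix (Fin n) (Fin n) F) z ∧ z.det = c := by
  classical
  have h1 : ((orderOf x : ℕ) : F) ≠ 0 := by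
    rw [Ne, CharP.cast_eq_zero_iff F p]
    exact (Nat.Prime.coprime_iff_not_dvd Fact.out).mp hx.symm
  obtain ⟨t, π, hπ, hm, -, h⟩ := exists_model_of_squarefree
    (f := Matrix.toLin' (x : Matrix (Fin n) (Fin n) F)) (squarefree_X_pow_sub_one h1) (by
      rw [aeval_toLin', map_sub, map_pow, aeval_X, map_one, ← Units.val_pow_eq_pow_val,
        pow_orderOf_eq_one, Units.val_one, sub_self, map_zero])
  have h2 := h.finrank_eq_sum fun i => (hπ i).ne_zero
  have ht : 0 < t := by
    rcases t with _ | t
    · simp at h2; omega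
    · omega
  let i₀ : Fin t := ⟨0, ht⟩
  have := fun i => Fact.mk (hπ i)
  have := fun i => (hm i).finite_adjoinRoot
  have : Finite (AdjoinRoot (π i₀)) := Module.finite_of_finite F
  obtain ⟨a, ha⟩ := FiniteField.norm_surjective F (AdjoinRoot (π i₀)) c
  let w : ∀ i, AdjoinRoot (π i) := Function.update 1 i₀ a
  obtain ⟨Z, hZ, hZ'⟩ := h.exists_commute_matrix
    (z := piEnd fun i => Algebra.lmul F (AdjoinRoot (π i)) (w i)) (by
      refine LinearMap.ext fun v => funext fun i => ?_
      simp [model_apply, mul_left_comm])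
  refine ⟨Z, hZ, ?_⟩
  rw [← LinearMap.det_toLin', hZ'.det_eq, det_piEnd, Finset.prod_eq_single i₀]
  · simp only [w, Function.update_self]
    exact ha
  · intro i _ hi
    simp only [w, Function.update_of_ne hi, Pi.one_apply, map_one]
  · simp


/-- In GL_n over a finite field of characteristic p, the conjugacy class of a semisimple element (an element of order prime to p) under the special linear group is its whole GL-conjugacy class: for every such x and every invertible g there is h of determinant one with h x h⁻¹ = g x g⁻¹. -/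
theorem result {F : Type*} [Field F] [Fintype F] {p : ℕ} [Fact p.Prime] [CharP F p] {n : ℕ} (x g : GL (Fin n) F) (hx : (orderOf x).Coprime p) : ∃ h : GL (Fin n) F, (h : Matrix (Fin n) (Fin n) F).det = 1 ∧ h * x * h⁻¹ = g * x * g⁻¹ := by
  rcases Nat.eq_zero_or_pos n with rfl | hn
  · exact ⟨g, by simp, rfl⟩
  obtain ⟨z, hz, hz'⟩ := exists_commute_det hn x hx ((g : Matrix (Fin n) (Fin n) F).det)⁻¹
    (inv_ne_zero (Matrix.GeneralLinearGroup.det_ne_zero g))
  have h1 : IsUnit z := by
    rw [Matrix.isUnit_iff_isUnit_det, hz', isUnit_iff_ne_zero]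
    exact inv_ne_zero (Matrix.GeneralLinearGroup.det_ne_zero g)
  obtain ⟨z, rfl⟩ := h1
  have h2 : z * x = x * z := Units.ext hz.eq.symm
  refine ⟨g * z, ?_, ?_⟩
  · rw [Units.val_mul, Matrix.det_mul, hz',
      mul_inv_cancel₀ (Matrix.GeneralLinearGroup.det_ne_zero g)]
  · rw [mul_assoc g z x, h2]; group

end Cfsg.Agent.S2569
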