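import Cfsg.Statements.S2571
import Cfsg.Agent.Lib.MatConj.Centralizer

set_option autoImplicit false
open Cfsg

namespace Cfsg.Agent.S2571

open H65


/-- Centraliser of a regular unipotent element in GL_n(q): if u is an invertible n × n matrix over the field with q elements, n ≥ 1, with (u − 1)^n = 0 and rank(u − 1) = n − 1 (a single unipotent Jordan block), then its centraliser in GL_n(q) has order (q − 1) q^(n−1). -/
theorem result {F : Type*} [Field F] [Fintype F] {q n : ℕ} (hF : Fintype.card F = q) (hn : 1 ≤ n) (u : GL (Fin n) F) (hnil : ((u : Matrix (Fin n) (Fin n) F) - 1) ^ n = 0) (hreg : ((u : Matrix (Fin n) (Fin n) F) - 1).rank = n - 1) : Nat.card ↥(Subgroup.centralizer ({u} : Set (GL (Fin n) F))) = (q - 1) * q ^ (n - 1) := by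
  subst hF
  have h1 := similar_cyc_of_regular (N := (u : Matrix (Fin n) (Fin n) F) - 1) ⟨n, hnil⟩
    (by simp; omega)
  rw [toLin'_sub_one, Fintype.card_fin] at h1
  have h := card_gl_commute_unipotent (F := F) (d := fun _ : Unit => n)
    (h1.trans (similar_cyc_model _)) (fun _ => hn) {n} (by simp)
  have h2 : (Finset.univ.filter fun _ : Unit => n = n).card = 1 := by simp
  rw [← card_centralizer_gl_eq, Finset.sum_singleton, Finset.prod_singleton, h2] at h
  simp at h
  obtain ⟨m, rfl⟩ : ∃ m, n = m + 1 := ⟨n - 1, by omega⟩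
  apply Nat.eq_of_mul_eq_mul_right (Fintype.card_pos (α := F))
  rw [h, Nat.add_sub_cancel]
  ring

end Cfsg.Agent.S2571
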