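import Cfsg.Statements.S2572
import Cfsg.Agent.Lib.MatConj.Centralizer

set_option autoImplicit false
open Cfsg

namespace Cfsg.Agent.S2572

open H65


/-- Centraliser of a transvection in GL_n(q), n ≥ 2: if t − 1 has rank one and square zero, the centraliser of t in GL_n(q) has order q^(2n−3) (q − 1) |GL_(n−2)(q)| (a group of order q^(2n−3) extended by GL_1(q) × GL_(n−2)(q)). -/
theorem result {F : Type*} [Field F] [Fintype F] {q n : ℕ} (hF : Fintype.card F = q) (hn : 2 ≤ n) (t : GL (Fin n) F) (ht : Cfsg.IsTransvection (t : Matrix (Fin n) (Fin n) F)) : Nat.card ↥(Subgroup.centralizer ({t} : Set (GL (Fin n) F))) = q ^ (2 * n - 3) * (q - 1) * ∏ i : Fin (n - 2), (q ^ (n - 2) - q ^ (i : ℕ)) := by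
  subst hF
  obtain ⟨m, rfl⟩ : ∃ m, n = m + 2 := ⟨n - 2, by omega⟩
  let d : Option (Fin m) → ℕ := fun k => k.elim 2 fun _ => 1
  have h0 : ((t : Matrix (Fin (m + 2)) (Fin (m + 2)) F) - 1) ^ 2 = 0 := by rw [sq, ht.2]
  have h1 : Similar (Matrix.toLin' (t : Matrix (Fin (m + 2)) (Fin (m + 2)) F) - 1)
      (nilModel F d) := by
    rw [← toLin'_sub_one]
    refine similar_of_isNilpotent ((isNilpotent_toLin'_iff' _).mpr ⟨2, h0⟩)
      (isNilpotent_nilModel d) fun j => ?_
    rw [finrank_ker_nilModel_pow, ← toLin'_pow']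
    have h2 := rank_add_finrank_ker (((t : Matrix (Fin (m + 2)) (Fin (m + 2)) F) - 1) ^ j)
    rcases j with _ | _ | j
    · simp at h2 ⊢
    · rw [zero_add, pow_one] at h2 ⊢
      rw [ht.1] at h2
      simp [d] at h2 ⊢
      omega
    · rw [pow_eq_zero_of_le (by omega) h0, map_zero, LinearMap.ker_zero]
      simp [d]
      omega
  have h := card_gl_commute_unipotent h1 (fun k => by cases k <;> simp [d]) {1, 2}
    (fun k => by cases k <;> simp [d])
  have h2 : (Finset.univ.filter fun k => d k = 1).card = m := by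
    rw [Finset.card_filter, Fintype.sum_option]; simp [d]
  have h3 : (Finset.univ.filter fun k => d k = 2).card = 1 := by
    rw [Finset.card_filter, Fintype.sum_option]; simp [d]
  rw [← card_centralizer_gl_eq, Finset.sum_pair (by decide), Finset.prod_pair (by decide),
    h2, h3] at h
  simp [d] at h
  apply Nat.eq_of_mul_eq_mul_right (pow_pos (Fintype.card_pos (α := F)) (m ^ 2 + 1))
  rw [h, Nat.add_sub_cancel, show 2 * (m + 2) - 3 = 2 * m + 1 by omega]
  ring

end Cfsg.Agent.S2572
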