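import Cfsg.Statements.S2574
import Cfsg.Agent.Lib.MatConj.Centralizer
import Cfsg.Agent.Lib.Sp.Basic

set_option autoImplicit false
open Cfsg

namespace Cfsg.Agent.S2574

open H65


/-- A regular unipotent element of the symplectic group has totally isotropic small invariant subspaces: over a finite field, if u ∈ Sp_2m(F) satisfies (u − 1)^(2m) = 0 and rank(u − 1) = 2m − 1, and W is a u-invariant subspace with 2 dim W ≤ 2m, then the alternating form vanishes identically on W. -/
theorem result {F : Type*} [Field F] [Finite F] {m : ℕ} (u : Matrix.symplecticGroup (Fin m) F) (hnil : ((u : Matrix (Fin m ⊕ Fin m) (Fin m ⊕ Fin m) F) - 1) ^ (2 * m) = 0) (hreg : ((u : Matrix (Fin m ⊕ Fin m) (Fin m ⊕ Fin m) F) - 1).rank = 2 * m - 1) (W : Submodule F (Fin m ⊕ Fin m → F)) (hW : ∀ v ∈ W, (u : Matrix (Fin m ⊕ Fin m) (Fin m ⊕ Fin m) F).mulVec v ∈ W) (hdim : 2 * Module.finrank F W ≤ 2 * m) : ∀ v ∈ W, ∀ w ∈ W, Cfsg.sympForm m F v w = 0 := by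
  set U := (u : Matrix (Fin m ⊕ Fin m) (Fin m ⊕ Fin m) F) with hU
  have hN : IsNilpotent (Matrix.toLin' U - 1) := by
    rw [← toLin'_sub_one]
    exact (isNilpotent_toLin'_iff' _).mpr ⟨_, hnil⟩
  have h1 := rank_add_finrank_ker (U - 1)
  rw [toLin'_sub_one, Fintype.card_sum, Fintype.card_fin] at h1
  have h2 := eq_ker_pow_of_regular hN (by omega) W fun v hv => W.sub_mem (hW v hv) hv
  have h3 := ker_pow_eq_range_pow_of_regular hN (by omega) (i := Module.finrank F W)
    (j := 2 * m - Module.finrank F W) (by simp; omega)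
  intro v hv w hw
  rw [h2, h3] at hv
  obtain ⟨x, rfl⟩ := hv
  have h4 := form_sub_one_pow (H11.Sp.bilin m F) (u := Matrix.toLin' U) (u' := Matrix.toLin' U)
    (fun x y => H11.Sp.form_apply u x y) (2 * m - Module.finrank F W) x w
  have h5 : ((Matrix.toLin' U - 1) ^ (2 * m - Module.finrank F W)) w = 0 := by
    rw [h2] at hw
    exact Module.End.pow_map_zero_of_le (by omega) hw
  rw [h5, map_zero, mul_zero] at h4
  exact h4

end Cfsg.Agent.S2574
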