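import Cfsg.Statements.S2575
import Cfsg.Agent.Lib.MatConj.CycPow

set_option autoImplicit false
open Cfsg

namespace Cfsg.Agent.S2575

open H65


/-- Which diagonal involutions of PGL_n(q) lie in PSL_n(q), q odd: for the diagonal matrix t with i entries −1 and n − i entries 1, some non-zero scalar multiple of t has determinant one if and only if i is even or the 2-part of q − 1 exceeds the 2-part of n (that is, −1 is an n-th power in the field exactly in the latter case). -/
theorem result {F : Type*} [Field F] [Fintype F] {q : ℕ} (hF : Fintype.card F = q) (hq : Odd q) {n : ℕ} (hn : 1 ≤ n) (i : ℕ) (hi : i ≤ n) : (∃ c : F, c ≠ 0 ∧ (c • Matrix.diagonal (fun j : Fin n => if (j : ℕ) < i then (-1 : F) else 1)).det = 1) ↔ (Even i ∨ padicValNat 2 n < padicValNat 2 (q - 1)) := by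
  subst hF
  have h2 := two_ne_zero_of_odd_card hq
  have h1 : 1 < Fintype.card F := Fintype.one_lt_card
  have hN : Fintype.card F - 1 ≠ 0 := by omega
  have h3 : (Matrix.diagonal (fun j : Fin n => if (j : ℕ) < i then (-1 : F) else 1)).det =
      (-1) ^ i := by
    rw [Matrix.det_diagonal, Finset.prod_ite, Finset.prod_const, Finset.prod_const_one, mul_one,
      Fin.card_filter_val_lt, min_eq_right hi]
  simp only [Matrix.det_smul, h3, Fintype.card_fin]
  have h4 : (-1 : F) ≠ 1 := fun h => h2 (by linear_combination -h)
  rw [exists_pow_mul_eq_one_iff n (by simp), ← pow_mul, neg_one_pow_eq_one_iff_even h4,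
    Nat.even_mul, even_iff_two_dvd (a := _ / _), dvd_iff_padicValNat_ne_zero (div_gcd_ne_zero hN n),
    padicValNat_div_gcd 2 hN (by omega)]
  refine or_congr_right ?_
  omega

end Cfsg.Agent.S2575
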