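import Cfsg.Statements.S2576
import Cfsg.Agent.Lib.MatConj.CycPow

set_option autoImplicit false
open Cfsg

namespace Cfsg.Agent.S2576

open H65


/-- Which involutions of PGL_2m(q) coming from a scalar of the quadratic extension field lie in PSL_2m(q), q odd: let μ generate the Sylow 2-subgroup of the multiplicative group of the field with q elements (μ has order the 2-part of q − 1) and let t be the block-diagonal matrix with m diagonal blocks [[0, 1], [μ, 0]] (so t² is the scalar μ and t is an involution modulo scalars). Then some non-zero scalar multiple of t has determinant one if and only if q ≡ 3 (mod 4) or the 2-part of q − 1 is less than the 2-part of 2m. -/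
theorem result {F : Type*} [Field F] [Fintype F] {q : ℕ} (hF : Fintype.card F = q) (hq : Odd q) {m : ℕ} (hm : 1 ≤ m) (μ : F) (hμ : orderOf μ = 2 ^ padicValNat 2 (q - 1)) : (∃ c : F, c ≠ 0 ∧ (c • Matrix.blockDiagonal (fun _ : Fin m => !![(0 : F), 1; μ, 0])).det = 1) ↔ (q % 4 = 3 ∨ padicValNat 2 (q - 1) < padicValNat 2 (2 * m)) := by
  subst hF
  have h2 := two_ne_zero_of_odd_card hq
  have h1 : 1 < Fintype.card F := Fintype.one_lt_card
  have hN : Fintype.card F - 1 ≠ 0 := by omega
  have hμ0 : μ ≠ 0 := by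
    rintro rfl
    rw [orderOf_zero] at hμ
    exact (pow_pos two_pos _).ne hμ
  have h3 : (Matrix.blockDiagonal (fun _ : Fin m => !![(0 : F), 1; μ, 0])).det = (-μ) ^ m := by
    simp [Matrix.det_blockDiagonal, Matrix.det_fin_two]
  simp only [Matrix.det_smul, h3, Fintype.card_prod, Fintype.card_fin]
  have h4 : (-1 : F) ≠ 1 := fun h => h2 (by linear_combination -h)
  have h5 : padicValNat 2 (Fintype.card F - 1) ≠ 0 := by
    rw [← dvd_iff_padicValNat_ne_zero hN]
    obtain ⟨k, hk⟩ := hq
    omega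
  obtain ⟨a, ha⟩ : ∃ a, padicValNat 2 (Fintype.card F - 1) = a + 1 :=
    Nat.exists_eq_add_one_of_ne_zero h5
  have h6 : μ ^ 2 ^ a = -1 := by
    have h7 : (μ ^ 2 ^ a) ^ 2 = 1 := by rw [← pow_mul, ← pow_succ, ← ha, ← hμ, pow_orderOf_eq_one]
    refine (sq_eq_one_iff.mp h7).resolve_left fun h => ?_
    have := orderOf_dvd_of_pow_eq_one h
    rw [hμ, ha, Nat.pow_dvd_pow_iff_le_right one_lt_two] at this
    omega
  have h7 : 4 ∣ Fintype.card F - 1 ↔ 1 ≤ a := by
    rw [show 4 = 2 ^ 2 by rfl, padicValNat_dvd_iff_le hN, ha]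
    omega
  rw [exists_pow_mul_eq_one_iff _ (by simp [hμ0]), ← pow_mul]
  rcases a with _ | a
  · have h8 : -μ = 1 := by simpa [neg_eq_iff_eq_neg] using h6
    obtain ⟨k, hk⟩ := hq
    rw [h8, one_pow]
    exact iff_of_true rfl (Or.inl (by omega))
  · have h8 : orderOf (-μ) = 2 ^ (a + 1 + 1) := by
      have h9 : -μ = μ ^ (2 ^ (a + 1) + 1) := by rw [pow_succ, h6]; ring
      rw [h9, Nat.Coprime.orderOf_pow, hμ, ha]
      rw [hμ]
      apply Nat.Coprime.pow_left
      rw [Nat.coprime_two_left, pow_succ]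
      exact ⟨2 ^ a, by ring⟩
    rw [← orderOf_dvd_iff_pow_eq_one, h8,
      padicValNat_dvd_iff_le (mul_ne_zero (by omega) (div_gcd_ne_zero hN _)),
      padicValNat.mul (by omega) (div_gcd_ne_zero hN _), padicValNat_div_gcd 2 hN (by omega), ha,
      padicValNat.mul two_ne_zero (by omega), padicValNat_self]
    omega

end Cfsg.Agent.S2576
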