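import Cfsg.Statements.S2577
import Cfsg.Agent.Lib.MatConj.Invol

set_option autoImplicit false
open Cfsg

namespace Cfsg.Agent.S2577

open H65 Polynomial Module


/-- Number of conjugacy classes of involutions in PGL_n(q) for q odd and n ≥ 2: there are ⌊n/2⌋ classes represented by diagonal matrices with i entries −1 (1 ≤ i ≤ n/2) and, when n is even, one more class represented by a block-diagonal matrix of 2 × 2 blocks [[0, 1], [μ, 0]] with μ a non-square (a matrix squaring to a scalar but having no eigenvalue in the field); in all ⌊n/2⌋ + 1 classes if n is even and ⌊n/2⌋ if n is odd. -/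
theorem result {F : Type*} [Field F] [Fintype F] {q : ℕ} (hF : Fintype.card F = q) (hq : Odd q) {n : ℕ} (hn : 2 ≤ n) : Nat.card {C : ConjClasses (GL (Fin n) F ⧸ Subgroup.center (GL (Fin n) F)) // ∃ g : GL (Fin n) F ⧸ Subgroup.center (GL (Fin n) F), ConjClasses.mk g = C ∧ orderOf g = 2} = n / 2 + (if Even n then 1 else 0) := by
  classical
  subst hF
  have h2 := two_ne_zero_of_odd_card hq
  have : Nonempty (Fin n) := ⟨⟨0, by omega⟩⟩
  obtain ⟨μ, hμ⟩ := FiniteField.exists_nonsquare (F := F) fun h => h2 (by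
    have := ringChar.Nat.cast_ringChar (R := F)
    rw [h] at this
    exact_mod_cast this)
  have hμ0 : μ ≠ 0 := by rintro rfl; exact hμ IsSquare.zero
  have hex : ∀ i : Finset.Icc 1 (n / 2) ⊕ {_u : Unit // Even n}, ∃ y : GL (Fin n) F,
      i.elim (fun i : Finset.Icc 1 (n / 2) => Matrix.toLin' (y : Matrix (Fin n) (Fin n) F) ^ 2 = 1 ∧
        finrank F (LinearMap.ker (Matrix.toLin' (y : Matrix (Fin n) (Fin n) F) + 1)) = i)
        fun _ => Matrix.toLin' (y : Matrix (Fin n) (Fin n) F) ^ 2 = μ • 1 := by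
    rintro (i | u)
    · have := Finset.mem_Icc.mp i.2
      exact exists_gl_sq_eq_one h2 (by simp; omega)
    · exact exists_gl_sq_eq_smul hμ0 (by simpa using u.2)
  choose y hy using hex
  have hsm : ∀ {a b : F}, a • (1 : End F (Fin n → F)) = b • 1 → a = b := fun h => by
    simpa using congrFun (LinearMap.congr_fun h 1) (Classical.arbitrary _)
  have hsq : ∀ {f g : End F (Fin n → F)} {a b c : F}, f ^ 2 = a • 1 → g ^ 2 = b • 1 →
      Similar f (c • g) → a = c ^ 2 * b := by
    intro f g a b c hf hg h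
    have := ((h.pow 2).eq_smul_one_iff a).mp hf
    rw [_root_.smul_pow, hg, smul_smul] at this
    exact (hsm this).symm
  have hk0 : finrank F (LinearMap.ker ((1 : End F (Fin n → F)) + 1)) = 0 := by
    rw [← two_smul F, LinearMap.ker_smul _ _ h2, End.one_eq_id, LinearMap.ker_id, finrank_bot]
  have hneg : ∀ f : End F (Fin n → F), LinearMap.ker ((-1 : F) • f + 1) = LinearMap.ker (f - 1) := by
    intro f
    ext v
    simp [neg_add_eq_zero, sub_eq_zero]
  have hcard : Nat.card (Finset.Icc 1 (n / 2) ⊕ {_u : Unit // Even n}) =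
      n / 2 + (if Even n then 1 else 0) := by
    rw [Nat.card_sum, Nat.card_eq_fintype_card, Nat.card_eq_fintype_card]
    split_ifs with h <;> simp [h]
  have := Fact.mk Nat.prime_two
  rw [← hcard]
  symm
  refine Nat.card_congr (Equiv.ofBijective
    (fun i => ⟨ConjClasses.mk (QuotientGroup.mk (y i)), _, rfl, ?_⟩) ⟨?_, ?_⟩)
  · refine orderOf_eq_prime ((pgl_mk_pow_eq_one_iff _ _).mpr ?_) fun h => ?_
    · rcases i with i | u
      · exact ⟨1, one_ne_zero, by simpa using (hy (Sum.inl i)).1⟩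
      · exact ⟨μ, hμ0, hy (Sum.inr u)⟩
    · obtain ⟨c, hc, h⟩ := (pgl_mk_eq_one_iff _).mp h
      rcases i with i | u
      · obtain ⟨h3, h4⟩ := hy (Sum.inl i)
        have h5 := Finset.mem_Icc.mp i.2
        rw [h] at h3 h4
        rw [_root_.smul_pow, one_pow] at h3
        rcases sq_eq_one_iff.mp (hsm (h3.trans (one_smul F _).symm)) with rfl | rfl
        · rw [one_smul, hk0] at h4; omega
        · rw [hneg, sub_self, LinearMap.ker_zero] at h4
          simp at h4; omega
      · have h3 : _ = _ := hy (Sum.inr u)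
        rw [h, _root_.smul_pow, one_pow] at h3
        exact hμ ⟨c, by rw [← hsm h3, sq]⟩
  · intro i j h
    obtain ⟨c, hc, h⟩ := (isConj_pgl_iff _ _).mp
      (ConjClasses.mk_eq_mk_iff_isConj.mp (congrArg Subtype.val h))
    rcases i with i | u <;> rcases j with j | u'
    · obtain ⟨h3, h4⟩ := hy (Sum.inl i)
      obtain ⟨h5, h6⟩ := hy (Sum.inl j)
      have h7 := hsq (h3.trans (one_smul F _).symm) (h5.trans (one_smul F _).symm) h
      rw [mul_one] at h7
      have h8 := h.add_one.finrank_ker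
      have h9 := Finset.mem_Icc.mp i.2
      have h10 := Finset.mem_Icc.mp j.2
      congr 1
      apply Subtype.ext
      rcases sq_eq_one_iff.mp h7.symm with rfl | rfl
      · rwa [one_smul, h4, h6] at h8
      · have h11 := finrank_ker_add_of_sq_eq_one h2 h5
        rw [hneg, h4] at h8
        rw [h6, ← h8, finrank_fin_fun] at h11
        omega
    · have h7 := hsq ((hy (Sum.inl i)).1.trans (one_smul F _).symm) (hy (Sum.inr u')) h
      exact (hμ ⟨c⁻¹, by field_simp; linear_combination -h7⟩).elim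
    · have h7 := hsq (hy (Sum.inr u)) ((hy (Sum.inl j)).1.trans (one_smul F _).symm) h
      exact (hμ ⟨c, by rw [h7]; ring⟩).elim
    · exact congrArg _ (Subsingleton.elim _ _)
  · rintro ⟨C, g, rfl, hg⟩
    obtain ⟨g, rfl⟩ := QuotientGroup.mk_surjective g
    obtain ⟨c, hc, h⟩ := (pgl_mk_pow_eq_one_iff g 2).mp (hg ▸ pow_orderOf_eq_one _)
    have hg1 : ∀ c : F, c ≠ 0 → c • Matrix.toLin' (g : Matrix (Fin n) (Fin n) F) ≠ 1 := by
      intro c hc h
      rw [(pgl_mk_eq_one_iff g).mpr ⟨c⁻¹, inv_ne_zero hc, by rw [← h, inv_smul_smul₀ hc]⟩,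
        orderOf_one] at hg
      omega
    have key : ∀ s : F, s ≠ 0 → (s • Matrix.toLin' (g : Matrix (Fin n) (Fin n) F)) ^ 2 = 1 →
        finrank F (LinearMap.ker (s • Matrix.toLin' (g : Matrix (Fin n) (Fin n) F) + 1)) ≤ n / 2 →
        ∃ i, IsConj (QuotientGroup.mk (y i) : GL (Fin n) F ⧸ Subgroup.center (GL (Fin n) F))
          (QuotientGroup.mk g) := by
      intro s hs h3 h4
      have h5 : 1 ≤ finrank F (LinearMap.ker
          (s • Matrix.toLin' (g : Matrix (Fin n) (Fin n) F) + 1)) := by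
        by_contra h5
        have h6 := finrank_ker_add_of_sq_eq_one h2 h3
        rw [show finrank F (LinearMap.ker (s • Matrix.toLin' (g : Matrix (Fin n) (Fin n) F) + 1))
          = 0 by omega, add_zero] at h6
        exact hg1 s hs (sub_eq_zero.mp (LinearMap.ker_eq_top.mp (Submodule.eq_top_of_finrank_eq h6)))
      obtain ⟨h6, h7⟩ := hy (Sum.inl ⟨_, Finset.mem_Icc.mpr ⟨h5, h4⟩⟩)
      exact ⟨_, (isConj_pgl_iff _ _).mpr ⟨s, hs, similar_of_sq_eq_one h2 h6 h3 rfl h7⟩⟩
    suffices H : ∃ i, IsConj (QuotientGroup.mk (y i) : GL (Fin n) F ⧸ Subgroup.center (GL (Fin n) F))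
        (QuotientGroup.mk g) by
      obtain ⟨i, hi⟩ := H
      exact ⟨i, Subtype.ext (ConjClasses.mk_eq_mk_iff_isConj.mpr hi)⟩
    by_cases hcs : IsSquare c
    · obtain ⟨s, rfl⟩ := hcs
      have hs : s ≠ 0 := left_ne_zero_of_mul hc
      have h3 : (s⁻¹ • Matrix.toLin' (g : Matrix (Fin n) (Fin n) F)) ^ 2 = 1 := by
        rw [_root_.smul_pow, h, smul_smul, show s⁻¹ ^ 2 * (s * s) = 1 by field_simp, one_smul]
      by_cases h4 : finrank F (LinearMap.ker
        (s⁻¹ • Matrix.toLin' (g : Matrix (Fin n) (Fin n) F) + 1)) ≤ n / 2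
      · exact key _ (inv_ne_zero hs) h3 h4
      · refine key (-1 * s⁻¹) (by simpa using hs) (by
          rw [mul_smul, _root_.smul_pow, h3, neg_one_sq, one_smul]) ?_
        have h6 := finrank_ker_add_of_sq_eq_one h2 h3
        rw [mul_smul, hneg]
        rw [finrank_fin_fun] at h6
        omega
    · obtain ⟨s, hs⟩ := isSquare_mul_of_not_isSquare hμ hcs
      have hs0 : s ≠ 0 := left_ne_zero_of_mul (hs ▸ mul_ne_zero hμ0 hc)
      have h3 : ((s / c) • Matrix.toLin' (g : Matrix (Fin n) (Fin n) F)) ^ 2 = μ • 1 := by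
        rw [_root_.smul_pow, h, smul_smul]
        congr 1
        field_simp
        linear_combination -hs
      have h4 := (similar_ssModel_of_sq_eq_smul hμ h3).1
      rw [finrank_fin_fun] at h4
      exact ⟨Sum.inr ⟨(), h4⟩, (isConj_pgl_iff _ _).mpr ⟨s / c, div_ne_zero hs0 hc,
        similar_of_sq_eq_smul hμ (hy (Sum.inr ⟨(), h4⟩)) h3 rfl⟩⟩

end Cfsg.Agent.S2577
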