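import Cfsg.Statements.S2578
import Cfsg.Agent.Lib.MatConj.Centralizer
import Cfsg.Agent.Lib.GL.Basic

set_option autoImplicit false
open Cfsg

namespace Cfsg.Agent.S2578

open H65 Polynomial Module

theorem det_commute_regular {F : Type*} [Field F] {n : ℕ} (hn : 0 < n)
    {u g : Matrix (Fin n) (Fin n) F} (h : Similar (Matrix.toLin' u - 1) (nilModel F fun _ : Unit => n))
    (hg : g * u = u * g) : ∃ a : F, g.det = a ^ n := by
  obtain ⟨b, hb⟩ := h.exists_isJordanBasis
  have key : Matrix.toLin' g * (Matrix.toLin' u - 1) = (Matrix.toLin' u - 1) * Matrix.toLin' g := by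
    rw [mul_sub, sub_mul, mul_one, one_mul, sub_left_inj, End.mul_eq_comp, End.mul_eq_comp,
      ← Matrix.toLin'_mul, ← Matrix.toLin'_mul, hg]
  let a := headMatrix b (fun _ => hn) (Matrix.toLin' g) () ()
  refine ⟨a, ?_⟩
  have h1 : IsNilpotent (Matrix.toLin' g - a • 1) := by
    have h2 : Commute (Matrix.toLin' g - a • 1) (Matrix.toLin' u - 1) :=
      Commute.sub_left key ((Commute.one_left _).smul_left a)
    have h3 : ∀ w, (Matrix.toLin' g - a • 1 : End F (Fin n → F)) w ∈
        LinearMap.range (Matrix.toLin' u - 1) := by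
      intro w
      have h4 := hb.sub_sum_mem_range (fun _ => hn) ((Matrix.toLin' g - a • 1 : End F (Fin n → F)) w)
      have h5 := congrFun (hb.headMatrix_mulVec (fun _ => hn) key w) ()
      have h6 : b.repr ((Matrix.toLin' g - a • 1 : End F (Fin n → F)) w) ⟨(), ⟨0, hn⟩⟩ = 0 := by
        rw [LinearMap.sub_apply, map_sub, Finsupp.sub_apply, ← h5]
        simp [Matrix.mulVec, dotProduct, a]
      simpa only [Finset.univ_unique, Finset.sum_singleton, PUnit.default_eq_unit, h6, zero_smul,
        sub_zero] using h4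
    have h4 : ∀ k w, ((Matrix.toLin' g - a • 1 : End F (Fin n → F)) ^ k) w ∈
        LinearMap.range ((Matrix.toLin' u - 1) ^ k) := by
      intro k
      induction k with
      | zero => exact fun w => ⟨w, rfl⟩
      | succ k ih =>
        intro w
        obtain ⟨x, hx⟩ := h3 w
        obtain ⟨y, hy⟩ := ih x
        refine ⟨y, ?_⟩
        rw [pow_succ', pow_succ, End.mul_apply, End.mul_apply, ← hx, hy, ← End.mul_apply,
          ← End.mul_apply, ← (h2.pow_left k).eq, End.mul_apply]
    obtain ⟨k, hk⟩ := hb.isNilpotent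
    refine ⟨k, LinearMap.ext fun w => ?_⟩
    obtain ⟨y, hy⟩ := h4 k w
    rw [← hy, hk]
    rfl
  have h2 : IsNilpotent (a • (1 : Matrix (Fin n) (Fin n) F) - g) := by
    rw [← neg_sub, isNilpotent_neg_iff, ← isNilpotent_toLin'_iff', map_sub, map_smul,
      Matrix.toLin'_one]
    exact h1
  have h3 := Matrix.isNilpotent_charpoly_sub_pow_of_isNilpotent h2
  have h4 : (a • (1 : Matrix (Fin n) (Fin n) F) - g).charpoly = X ^ Fintype.card (Fin n) :=
    sub_eq_zero.mp h3.eq_zero
  have h5 := Matrix.eval_charpoly (a • (1 : Matrix (Fin n) (Fin n) F) - g) a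
  rw [h4] at h5
  simpa [Matrix.scalar_apply, Matrix.smul_one_eq_diagonal] using h5.symm


/-- Regular unipotent classes of SL_n(q): for n ≥ 2 over the field with q elements, the matrices u of determinant one with (u − 1)^n = 0 and rank(u − 1) = n − 1 form a single GL_n(q)-class which splits into exactly gcd(n, q − 1) conjugacy classes of SL_n(q). -/
theorem result {F : Type*} [Field F] [Fintype F] {q : ℕ} (hF : Fintype.card F = q) {n : ℕ} (hn : 2 ≤ n) : Nat.card {C : ConjClasses (Matrix.SpecialLinearGroup (Fin n) F) // ∃ u : Matrix.SpecialLinearGroup (Fin n) F, ConjClasses.mk u = C ∧ ((u : Matrix (Fin n) (Fin n) F) - 1) ^ n = 0 ∧ ((u : Matrix (Fin n) (Fin n) F) - 1).rank = n - 1} = Nat.gcd n (q - 1) := by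
  subst hF
  have : Nonempty (Fin n) := ⟨⟨0, by omega⟩⟩
  obtain ⟨x, hx⟩ := exists_sl_unipotent (F := F) (n := Fin n) (fun _ : Unit => n) (by simp)
  have h := card_conjClasses_split (Matrix.SpecialLinearGroup.toGL (n := Fin n) (R := F))
    Matrix.SpecialLinearGroup.toGL_injective Matrix.GeneralLinearGroup.det
    Matrix.GeneralLinearGroup.det_surjective H10.range_toGL x
  have h1 : (Subgroup.centralizer {Matrix.SpecialLinearGroup.toGL x}).map
      Matrix.GeneralLinearGroup.det = (powMonoidHom n : Fˣ →* Fˣ).range := by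
    ext c
    constructor
    · rintro ⟨g, hg, rfl⟩
      rw [SetLike.mem_coe, Subgroup.mem_centralizer_singleton_iff] at hg
      obtain ⟨a, ha⟩ := det_commute_regular (by omega) hx (congrArg Units.val hg)
      have h2 : a ≠ 0 := by
        rintro rfl
        rw [zero_pow (by omega)] at ha
        exact Matrix.GeneralLinearGroup.det_ne_zero g ha
      exact ⟨Units.mk0 a h2, Units.ext ha.symm⟩
    · rintro ⟨a, rfl⟩
      refine ⟨Matrix.GeneralLinearGroup.scalar (Fin n) a, ?_, ?_⟩
      · rw [SetLike.mem_coe, Subgroup.mem_centralizer_singleton_iff]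
        exact Units.ext (Matrix.scalar_commute _ (fun _ => Commute.all _ _) _).eq
      · ext; simp
  rw [h1, IsCyclic.index_powMonoidHom_range, Nat.card_units, Nat.card_eq_fintype_card (α := F),
    Nat.gcd_comm] at h
  rw [← h]
  refine Nat.card_congr (Equiv.subtypeEquivRight fun C => exists_congr fun u =>
    and_congr_right fun _ => ?_)
  rw [isConj_gl_iff_similar]
  constructor
  · rintro ⟨h2, h3⟩
    have h4 := similar_cyc_of_regular (N := (u : Matrix (Fin n) (Fin n) F) - 1) ⟨n, h2⟩
      (by simp; omega)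
    rw [toLin'_sub_one, Fintype.card_fin] at h4
    exact (hx.trans (h4.trans (similar_cyc_model _)).symm).of_sub_one
  · intro h2
    have h3 : Similar (Matrix.toLin' (u : Matrix (Fin n) (Fin n) F) - 1)
      (nilModel F fun _ : Unit => n) := h2.sub_one.symm.trans hx
    refine ⟨(sub_one_pow_eq_zero_iff_of_similar_nilModel h3 n).mpr fun _ => le_rfl, ?_⟩
    have h4 := rank_add_finrank_ker ((u : Matrix (Fin n) (Fin n) F) - 1)
    have h5 := finrank_ker_nilModel_pow (F := F) (fun _ : Unit => n) 1
    rw [pow_one, ← h3.finrank_ker] at h5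
    rw [toLin'_sub_one] at h4
    rw [Fintype.card_fin, h5, Finset.univ_unique, Finset.sum_singleton] at h4
    omega

end Cfsg.Agent.S2578
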