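import Cfsg.Statements.S2581
import Cfsg.Agent.Lib.MatConj.Centralizer

set_option autoImplicit false
open Cfsg

namespace Cfsg.Agent.S2581

open H65

theorem sum_min_eq {t : ℕ} (d : Fin t → ℕ) (s : Finset ℕ) (hs : ∀ k, d k ∈ s) :
    ∑ k, ∑ j, min (d j) (d k) = ∑ a ∈ s, ∑ b ∈ s, min a b *
      ((Finset.univ.filter fun k => d k = a).card * (Finset.univ.filter fun k => d k = b).card) := by
  rw [← Finset.sum_fiberwise_of_maps_to (s := Finset.univ) (t := s) (g := d) fun k _ => hs k]
  refine Finset.sum_congr rfl fun a _ => ?_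
  rw [Finset.sum_congr rfl (g := fun _ => ∑ b ∈ s, min a b *
    (Finset.univ.filter fun k => d k = b).card)]
  · rw [Finset.sum_const, smul_eq_mul, Finset.mul_sum]
    exact Finset.sum_congr rfl fun b _ => by ring
  · intro k hk
    rw [(Finset.mem_filter.mp hk).2,
      ← Finset.sum_fiberwise_of_maps_to (s := Finset.univ) (t := s) (g := d) fun k _ => hs k]
    refine Finset.sum_congr rfl fun b _ => ?_
    rw [Finset.sum_congr rfl (g := fun _ => min a b) fun j hj => by
      rw [(Finset.mem_filter.mp hj).2, min_comm], Finset.sum_const, smul_eq_mul, mul_comm]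

theorem sum_min_split (s : Finset ℕ) (c : ℕ → ℕ) (h0 : c 0 = 0) :
    ∑ a ∈ s, ∑ b ∈ s, min a b * (c a * c b) =
      2 * (∑ i ∈ s, ∑ j ∈ s, if i < j then i * c i * c j else 0) + ∑ i ∈ s, (i - 1) * c i ^ 2 +
        ∑ a ∈ s, c a ^ 2 := by
  have h1 : ∑ i ∈ s, (i - 1) * c i ^ 2 + ∑ a ∈ s, c a ^ 2 =
      ∑ i ∈ s, ∑ j ∈ s, if i = j then i * c i * c j else 0 := by
    rw [← Finset.sum_add_distrib]
    refine Finset.sum_congr rfl fun i hi => ?_
    rw [Finset.sum_ite_eq, if_pos hi]
    rcases i with _ | i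
    · simp [h0]
    · simp only [Nat.add_sub_cancel]; ring
  rw [add_assoc, h1, two_mul]
  conv_rhs => rw [Finset.sum_comm (s := s) (t := s) (f := fun i j => if i = j then i * c i * c j else 0)]
  nth_rewrite 2 [Finset.sum_comm (s := s) (t := s) (f := fun i j => if i < j then i * c i * c j else 0)]
  simp only [← Finset.sum_add_distrib]
  refine Finset.sum_congr rfl fun a _ => Finset.sum_congr rfl fun b _ => ?_
  rcases lt_trichotomy a b with h | h | h
  · rw [if_pos h, if_neg h.not_gt, if_neg h.ne', min_eq_left h.le]; ring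
  · subst h; simp; ring
  · rw [if_neg h.not_gt, if_pos h, if_neg h.ne, min_eq_right h.le]; ring


/-- Order of the centraliser in GL of a unipotent matrix of given Jordan type over the field with q elements: if the type has a_i blocks of size i (all block sizes at least 1), the invertible matrices commuting with it number q^γ · Π_i |GL_(a_i)(q)| with γ = 2 Σ_(i<j) i a_i a_j + Σ_i (i − 1) a_i² (a group of order q^γ extended by Π GL_(a_i)(q)). -/
theorem result {F : Type*} [Field F] [Fintype F] {q : ℕ} (hF : Fintype.card F = q) {t : ℕ} (d : Fin t → ℕ) (hd : ∀ k, 1 ≤ d k) : Nat.card {g : GL ((k : Fin t) × Fin (d k)) F // (g : Matrix ((k : Fin t) × Fin (d k)) ((k : Fin t) × Fin (d k)) F) * Cfsg.jordanTypeMatrix d F = Cfsg.jordanTypeMatrix d F * (g : Matrix ((k : Fin t) × Fin (d k)) ((k : Fin t) × Fin (d k)) F)} = q ^ (2 * (∑ i ∈ Finset.range (Finset.univ.sup d + 1), ∑ j ∈ Finset.range (Finset.univ.sup d + 1), if i < j then i * (Finset.univ.filter (fun k : Fin t => d k = i)).card * (Finset.univ.filter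 (fun k : Fin t => d k = j)).card else 0) + ∑ i ∈ Finset.range (Finset.univ.sup d + 1), (i - 1) * (Finset.univ.filter (fun k : Fin t => d k = i)).card ^ 2) * ∏ i ∈ Finset.range (Finset.univ.sup d + 1), ∏ j : Fin ((Finset.univ.filter (fun k : Fin t => d k = i)).card), (q ^ (Finset.univ.filter (fun k : Fin t => d k = i)).card - q ^ (j : ℕ)) := by
  subst hF
  have hs : ∀ k, d k ∈ Finset.range (Finset.univ.sup d + 1) := fun k =>
    Finset.mem_range.mpr (Nat.lt_succ_of_le (Finset.le_sup (Finset.mem_univ k)))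
  have h := card_gl_commute_unipotent (F := F) (u := Cfsg.jordanTypeMatrix d F)
    (by rw [← toLin'_sub_one]; exact similar_jordanTypeMatrix d) hd _ hs
  rw [sum_min_eq d _ hs, sum_min_split _ (fun a => (Finset.univ.filter fun k => d k = a).card)
    (by simpa using fun k => (Nat.pos_iff_ne_zero.mp (hd k))), pow_add, mul_right_comm] at h
  exact Nat.eq_of_mul_eq_mul_right (pow_pos Fintype.card_pos _) h

end Cfsg.Agent.S2581
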