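import Cfsg.Statements.S2584
import Cfsg.Agent.Lib.MatConj.InvQuad

set_option autoImplicit false
open Cfsg

namespace Cfsg.Agent.S2584

open H65


/-- Which unipotent Jordan types occur in a finite orthogonal group in characteristic two: over a finite field of characteristic 2 and in even dimension 2m, a unipotent matrix with Jordan block sizes d_1, …, d_t (sum 2m, all at least 1) is similar to an isometry of some quadratic form on F^(2m) with non-degenerate polar form if and only if every odd block size occurs an even number of times (the same condition as for the symplectic group, which contains these orthogonal groups). -/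
theorem result {F : Type*} [Field F] [Fintype F] [CharP F 2] {m t : ℕ} (d : Fin t → ℕ) (hd : ∀ k, 1 ≤ d k) (hsum : ∑ k, d k = 2 * m) : (∃ Q : QuadraticForm F (Fin (2 * m) → F), (QuadraticMap.polarBilin Q).Nondegenerate ∧ ∃ e : ((k : Fin t) × Fin (d k)) ≃ Fin (2 * m), ∃ A : ↥(Cfsg.isometryGroup F ⇑Q), IsConj (Matrix.reindex e e (Cfsg.jordanTypeMatrix d F)) ((A : Matrix.GeneralLinearGroup (Fin (2 * m)) F) : Matrix (Fin (2 * m)) (Fin (2 * m)) F)) ↔ ∀ j : ℕ, Odd j → Even (Finset.univ.filter (fun k : Fin t => d k = j)).card := by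
  constructor
  · rintro ⟨Q, hQ, e, A, hA⟩ j hj
    exact (pres_true_of_quad hQ ((H66.mem_isometryGroup_iff _ _).mp A.2)).even_card_of_odd
      ((isConj_jordanTypeMatrix_iff d e _).mp hA) hd hj
  · intro h
    obtain ⟨A, hA⟩ := exists_matrix_similar (nilModel F d + 1) (n := Fin (2 * m))
      (by rw [finrank_nilModel, hsum, Fintype.card_fin])
    have h1 := (pres_true_nilModel d h).of_similar hA
    obtain ⟨Q, hQ, hQ'⟩ := h1.exists_quad_of_true
    refine ⟨Q, hQ, Fintype.equivOfCardEq (by simp [hsum]),
      ⟨h1.isUnit_matrix.unit, (H66.mem_isometryGroup_iff _ _).mpr hQ'⟩,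
      (isConj_jordanTypeMatrix_iff d _ _).mpr ?_⟩
    simpa using hA.symm.sub_one

end Cfsg.Agent.S2584
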