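import Mathlib
import Cfsg.Statements.S2586
import Cfsg.Agent.S2580
-- import your own Cfsg.Agent.* helpers here

set_option autoImplicit false
open Cfsg

namespace Cfsg.Agent.S2586

/-- Over a finite field, every element of the symplectic group Sp_2m(F) is conjugate by an invertible matrix to its inverse. -/
theorem result {F : Type*} [Field F] [Finite F] {m : ℕ} (A : Matrix.symplecticGroup (Fin m) F) : IsConj (A : Matrix (Fin m ⊕ Fin m) (Fin m ⊕ Fin m) F) ((A⁻¹ : Matrix.symplecticGroup (Fin m) F) : Matrix (Fin m ⊕ Fin m) (Fin m ⊕ Fin m) F) := by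
  classical
  have := Fintype.ofFinite F
  have hJ : IsUnit (Matrix.J (Fin m) F) :=
    IsUnit.of_mul_eq_one (-Matrix.J (Fin m) F) (by rw [mul_neg, Matrix.J_squared, neg_neg])
  have h1 : IsConj (A : Matrix (Fin m ⊕ Fin m) (Fin m ⊕ Fin m) F)
      (A : Matrix (Fin m ⊕ Fin m) (Fin m ⊕ Fin m) F).transpose := by
    let e := Matrix.reindexAlgEquiv F F (finSumFinEquiv : Fin m ⊕ Fin m ≃ Fin (m + m))
    have h := e.symm.toMonoidHom.map_isConj
      (Cfsg.Agent.S2580.result (e (A : Matrix (Fin m ⊕ Fin m) (Fin m ⊕ Fin m) F)))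
    have h2 : (e (A : Matrix (Fin m ⊕ Fin m) (Fin m ⊕ Fin m) F)).transpose =
        e (A : Matrix (Fin m ⊕ Fin m) (Fin m ⊕ Fin m) F).transpose := rfl
    rw [h2] at h
    simpa using h
  refine h1.trans (IsConj.symm ⟨hJ.unit, ?_⟩)
  change _ * _ = _ * _
  rw [hJ.unit_spec, SymplecticGroup.coe_inv, ← mul_assoc, ← mul_assoc, mul_neg, Matrix.J_squared,
    neg_neg, one_mul]

end Cfsg.Agent.S2586
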