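import Mathlib
import Cfsg.Statements.S2590
import Cfsg.Agent.Lib.StarAlg.OConj
-- import your own Cfsg.Agent.* helpers here

set_option autoImplicit false
open Cfsg

namespace Cfsg.Agent.S2590

/-- Two semisimple elements of odd order of a finite orthogonal group (isometry group of a quadratic form on F^n with non-degenerate polar form, F finite of characteristic p; the elements have odd order prime to p) are conjugate in the orthogonal group if and only if they are conjugate in GL_n(F). -/
theorem result {F : Type*} [Field F] [Fintype F] {p : ℕ} [Fact p.Prime] [CharP F p] {n : ℕ} (Q : QuadraticForm F (Fin n → F)) (hQ : (QuadraticMap.polarBilin Q).Nondegenerate) (A B : ↥(Cfsg.isometryGroup F ⇑Q)) (hodd : Odd (orderOf A)) (hA : (orderOf A).Coprime p) : IsConj A B ↔ IsConj ((A : Matrix.GeneralLinearGroup (Fin n) F) : Matrix (Fin n) (Fin n) F) ((B : Matrix.GeneralLinearGroup (Fin n) F) : Matrix (Fin n) (Fin n) F) := by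
  constructor
  · intro h
    exact ((Units.coeHom _).comp (Cfsg.isometryGroup F ⇑Q).subtype).map_isConj h
  · rintro ⟨g, hg⟩
    have hN : ((orderOf A : ℕ) : F) ≠ 0 := by
      rw [Ne, CharP.cast_eq_zero_iff F p]
      exact (Nat.Prime.coprime_iff_not_dvd Fact.out).mp hA.symm
    have hpow : ((A : Matrix.GeneralLinearGroup (Fin n) F) : Matrix (Fin n) (Fin n) F) ^ orderOf A
        = 1 := by
      rw [← Units.val_pow_eq_pow_val, ← Subgroup.coe_pow, pow_orderOf_eq_one]; rfl
    let e := Matrix.toLinAlgEquiv' (R := F) (n := Fin n)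
    obtain ⟨h, hh, hAB⟩ := H66.exists_isometry_conj_quad Q hQ
      (e (A : Matrix.GeneralLinearGroup (Fin n) F)) (e (B : Matrix.GeneralLinearGroup (Fin n) F))
      _ hN hodd (by rw [← map_pow, hpow, map_one])
      ((H66.mem_isometryGroup_iff _ _).mp A.2) ((H66.mem_isometryGroup_iff _ _).mp B.2)
      (e g) (g.isUnit.map e) (by rw [← map_mul, ← map_mul, hg.eq])
    have hu : IsUnit h := by
      rw [LinearMap.isUnit_iff_ker_eq_bot, LinearMap.ker_eq_bot']
      intro u hu
      apply hQ.1
      intro v
      have := H66.polar_map_of_isometry h hh u v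
      rw [hu, QuadraticMap.polar_zero_left] at this
      exact this.symm
    obtain ⟨H, rfl⟩ := e.surjective h
    have hu' : IsUnit H := by simpa using hu.map e.symm
    refine isConj_iff.mpr ⟨⟨hu'.unit, (H66.mem_isometryGroup_iff _ _).mpr hh⟩, ?_⟩
    rw [mul_inv_eq_iff_eq_mul]
    apply Subtype.ext
    apply Units.ext
    apply e.injective
    rw [← map_mul, ← map_mul] at hAB
    exact hAB

end Cfsg.Agent.S2590
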