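import Mathlib
import Cfsg.Statements.S2591
import Cfsg.Agent.Lib.Reg66.Symp
import Cfsg.Agent.Lib.Inv2.Basic
import Cfsg.Agent.Lib.MatConj.InvForm
-- import your own Cfsg.Agent.* helpers here

set_option autoImplicit false
open Cfsg

namespace Cfsg.Agent.S2591

/-- Over a finite field of odd order and for m ≥ 1, the regular unipotent elements of Sp_2m(F) (u − 1 nilpotent of rank 2m − 1, a single Jordan block) form exactly two conjugacy classes of Sp_2m(F) (one class under the similarity group, which splits in two). -/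
theorem result {F : Type*} [Field F] [Fintype F] {q : ℕ} (hF : Fintype.card F = q) (hq : Odd q) {m : ℕ} (hm : 1 ≤ m) : Nat.card {C : ConjClasses ↥(Matrix.symplecticGroup (Fin m) F) // ∃ u : Matrix.symplecticGroup (Fin m) F, ConjClasses.mk u = C ∧ ((u : Matrix (Fin m ⊕ Fin m) (Fin m ⊕ Fin m) F) - 1) ^ (2 * m) = 0 ∧ ((u : Matrix (Fin m ⊕ Fin m) (Fin m ⊕ Fin m) F) - 1).rank = 2 * m - 1} = 2 := by
  subst hF
  have h2 := H66.two_ne_zero_of_odd_card hq
  have hB := H66.sympBilin_nondegenerate (F := F) m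
  have hA := H66.sympBilin_isAlt (F := F) m
  have hV : 0 < Module.finrank F (Fin m ⊕ Fin m → F) := by rw [H66.finrank_sp]; omega
  let e := Matrix.toLinAlgEquiv' (R := F) (n := Fin m ⊕ Fin m)
  simp only [← H66.regU_iff hm]
  rw [H66.card_classes_of_invariant _
    (fun u : Matrix.symplecticGroup (Fin m) F =>
      ∃ v, H66.topQ (H66.sympBilin m F) (Matrix.toLin' u.1) v = 1) Set.univ
    (fun g h hg hh => ?_) (fun _ _ => trivial) (fun P _ => ?_)]
  · simp
  · rw [eq_iff_iff]
    constructor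
    · have key : ∀ g h : Matrix.symplecticGroup (Fin m) F, IsConj g h →
          (∃ v, H66.topQ (H66.sympBilin m F) (Matrix.toLin' g.1) v = 1) →
          ∃ v, H66.topQ (H66.sympBilin m F) (Matrix.toLin' h.1) v = 1 := by
        rintro g h ⟨k, hk⟩ ⟨v, hv⟩
        refine ⟨e k.1.1 v, ?_⟩
        have hk' : e k.1.1 * e g.1 = e h.1 * e k.1.1 := by
          rw [← map_mul, ← map_mul]; exact congrArg (fun x => e x.1) hk.eq
        rw [H66.topQ_conj (u := Matrix.toLin' g.1) (e k.1.1) (fun w => by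
          rw [LinearMap.sub_apply, LinearMap.sub_apply, map_sub]
          exact congrArg (· - _) (LinearMap.congr_fun hk' w))]
        exact ((H66.mem_symplecticGroup_iff _).mp k.1.2 _ _).trans hv
      exact fun hc => ⟨key _ _ hc, key _ _ hc.symm⟩
    · intro hi
      obtain ⟨k, hk, hkg⟩ := hg.exists_conj h2 hB hA hV hh hi
      obtain ⟨K, rfl⟩ := e.surjective k
      refine isConj_iff.mpr ⟨⟨K, (H66.mem_symplecticGroup_iff _).mpr hk⟩, ?_⟩
      rw [mul_inv_eq_iff_eq_mul]
      refine Subtype.ext (e.injective ?_)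
      exact (map_mul e _ _).trans (hkg.trans (map_mul e _ _).symm)
  · obtain ⟨u, hu⟩ := (H65.pres_cyc_even (F := F) m).exists_symplectic
      (H65.finrank_adjoinRoot_X_pow _)
    have hr : H66.RegU (H66.sympBilin m F) (Matrix.toLin' u.1) :=
      ⟨(H66.mem_symplecticGroup_iff _).mp u.2, by
        have := hu.symm.sub_one
        rwa [add_sub_cancel_right, ← H66.finrank_sp (F := F)] at this⟩
    obtain ⟨c, hc, hct⟩ := hr.exists_top hB hV
    obtain ⟨a, ha, haP⟩ : ∃ a : F, a ≠ 0 ∧ (IsSquare (a * c) ↔ P) := by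
      by_cases hP : P
      · exact ⟨c, hc, iff_of_true ⟨c, rfl⟩ hP⟩
      · obtain ⟨b, hb⟩ := FiniteField.exists_nonsquare (F := F) (fun h => h2 (by
          have := ringChar.of_eq h
          exact CharTwo.two_eq_zero))
        refine ⟨b * c⁻¹, mul_ne_zero (by rintro rfl; exact hb ⟨0, by simp⟩) (inv_ne_zero hc),
          iff_of_false (by rwa [inv_mul_cancel_right₀ hc]) hP⟩
    obtain ⟨u', hu', hval⟩ := hr.exists_scale hB hA ha
    obtain ⟨U, rfl⟩ := e.surjective u'
    refine ⟨⟨U, (H66.mem_symplecticGroup_iff _).mpr hu'.iso⟩, hu', ?_⟩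
    rw [eq_iff_iff, ← haP, ← H66.exists_mul_mul_eq_one_iff (mul_ne_zero ha hc)]
    refine (hval 1).trans ⟨?_, ?_⟩
    · rintro ⟨v, hv⟩
      obtain ⟨x, hx⟩ := (hct _).mp ⟨v, rfl⟩
      exact ⟨x, by rw [← hv, ← hx]; ring⟩
    · rintro ⟨x, hx⟩
      obtain ⟨v, hv⟩ := (hct _).mpr ⟨x, rfl⟩
      exact ⟨v, by rw [hv, ← hx]; ring⟩
end Cfsg.Agent.S2591
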