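import Mathlib
import Cfsg.Statements.S2592
import Cfsg.Agent.Lib.Reg66.Symp
-- import your own Cfsg.Agent.* helpers here

set_option autoImplicit false
open Cfsg

namespace Cfsg.Agent.S2592

/-- Over a finite field with q elements, q odd, the centraliser in Sp_2m(F) (m ≥ 1) of a regular unipotent element (u − 1 nilpotent of rank 2m − 1) has order 2 q^m. -/
theorem result {F : Type*} [Field F] [Fintype F] {q : ℕ} (hF : Fintype.card F = q) (hq : Odd q) {m : ℕ} (hm : 1 ≤ m) (u : Matrix.symplecticGroup (Fin m) F) (hnil : ((u : Matrix (Fin m ⊕ Fin m) (Fin m ⊕ Fin m) F) - 1) ^ (2 * m) = 0) (hreg : ((u : Matrix (Fin m ⊕ Fin m) (Fin m ⊕ Fin m) F) - 1).rank = 2 * m - 1) : Nat.card ↥(Subgroup.centralizer ({u} : Set ↥(Matrix.symplecticGroup (Fin m) F))) = 2 * q ^ m := by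
  subst hF
  have h := (H66.regU_iff hm u).mpr ⟨hnil, hreg⟩
  have h5 := H65.finrank_ker_cyc_X_pow (F := F) (Module.finrank F (Fin m ⊕ Fin m → F)) 1
  rw [pow_one, ← h.sim.finrank_ker] at h5
  rw [← H66.card_centralizer_regular (H66.two_ne_zero_of_odd_card hq)
    (H66.sympBilin_nondegenerate m) (H66.sympBilin_isAlt m) hm (H66.finrank_sp m) h.iso
    ⟨_, (h.pow_eq_zero_iff _).mpr le_rfl⟩ (h5.le.trans (min_le_right _ _))]
  let e := Matrix.toLinAlgEquiv' (R := F) (n := Fin m ⊕ Fin m)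
  refine Nat.card_congr (Equiv.ofBijective (fun g => ⟨e g.1.1, ?_,
    (H66.mem_symplecticGroup_iff _).mp g.1.2⟩) ⟨?_, ?_⟩)
  · have := congrArg Subtype.val (Subgroup.mem_centralizer_singleton_iff.mp g.2)
    exact Commute.map this e
  · exact fun a b h => Subtype.ext (Subtype.ext (e.injective (congrArg Subtype.val h)))
  · rintro ⟨c, hc1, hc2⟩
    obtain ⟨C, rfl⟩ := e.surjective c
    refine ⟨⟨⟨C, (H66.mem_symplecticGroup_iff _).mpr hc2⟩, ?_⟩, rfl⟩
    rw [Subgroup.mem_centralizer_singleton_iff]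
    refine Subtype.ext (e.injective ?_)
    exact (map_mul e _ _).trans (hc1.eq.trans (map_mul e _ _).symm)
end Cfsg.Agent.S2592
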