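import Mathlib
import Cfsg.Statements.S2594
import Cfsg.Agent.Lib.Sp.Order
import Cfsg.Agent.Lib.ClGeo.Transv
import Cfsg.Agent.Lib.QF.Orthonormal
-- import your own Cfsg.Agent.* helpers here

set_option autoImplicit false
open Cfsg

namespace Cfsg.Agent.S2594

open H11.Sp Matrix

theorem exists_eq_tv {F : Type*} [Field F] {m : ℕ} (t : G m F) (ht : (t.1 - 1).rank = 1) :
    ∃ (v : V m F) (c : F), v ≠ 0 ∧ c ≠ 0 ∧ t = tv v c := by
  obtain ⟨u, w, huw⟩ := H30.exists_vecMulVec_of_rank_le_one ht.le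
  have hu0 : u ≠ 0 := by rintro rfl; rw [huw] at ht; simp at ht
  have hw0 : w ≠ 0 := by rintro rfl; rw [huw] at ht; simp at ht
  have happ : ∀ x, t.1 *ᵥ x = x + (w ⬝ᵥ x) • u := fun x => by
    rw [sub_eq_iff_eq_add'.mp huw, add_mulVec, one_mulVec, vecMulVec_mulVec]; simp
  obtain ⟨y, hy⟩ := H30.exists_dot_eq_one hw0
  rw [dotProduct_comm] at hy
  have key : ∀ x, sympForm m F x u = -(sympForm m F u y) * (w ⬝ᵥ x) := fun x => by
    have := form_apply t x y
    rw [happ, happ, hy, one_smul, form_add_left, form_add_right, form_add_right, form_smul_left,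
      form_smul_left, form_self] at this
    linear_combination this
  have hk : -(sympForm m F u y) ≠ 0 := by
    intro h0
    obtain ⟨v, hv⟩ := exists_form_ne_zero hu0
    exact hv (by rw [form_swap, key v, h0, zero_mul, neg_zero])
  refine ⟨u, (-(sympForm m F u y))⁻¹, hu0, inv_ne_zero hk, ext_mulVec fun x => ?_⟩
  rw [happ, tv_mulVec, key x, ← mul_assoc, inv_mul_cancel₀ hk, one_mul]


/-- Over a finite field with q elements, q even, an element t of Sp_2m(F) with rank(t − 1) = 1 (a symplectic transvection) has centraliser in Sp_2m(F) of order q^(2m−1) · |Sp_(2m−2)(q)| = q^(2m−1) · q^((m−1)²) · Π_(i=1)^(m−1) (q^(2i) − 1). -/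
theorem result {F : Type*} [Field F] [Fintype F] [CharP F 2] {q : ℕ} (hF : Fintype.card F = q) {m : ℕ} (hm : 1 ≤ m) (t : Matrix.symplecticGroup (Fin m) F) (ht : ((t : Matrix (Fin m ⊕ Fin m) (Fin m ⊕ Fin m) F) - 1).rank = 1) : Nat.card ↥(Subgroup.centralizer ({t} : Set ↥(Matrix.symplecticGroup (Fin m) F))) = q ^ (2 * m - 1) * (q ^ ((m - 1) ^ 2) * ∏ i : Fin (m - 1), (q ^ (2 * ((i : ℕ) + 1)) - 1)) := by
  obtain ⟨v, c, hv0, hc0, rfl⟩ := exists_eq_tv t ht
  obtain ⟨a, rfl⟩ := H66.exists_sq_eq_char_two c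
  have ha : a ≠ 0 := by rintro rfl; simp at hc0
  rw [← mul_one (a ^ 2), ← tv_smul]
  set w := a • v with hw
  have hw0 : w ≠ 0 := smul_ne_zero ha hv0
  have hmem : ∀ g : G m F, g ∈ Subgroup.centralizer ({tv w 1} : Set (G m F)) ↔ g.1 *ᵥ w = w := by
    intro g
    rw [Subgroup.mem_centralizer_singleton_iff, ← mul_inv_eq_iff_eq_mul, conj_tv]
    refine ⟨fun h => ?_, fun h => by rw [h]⟩
    have h1 : ∀ x, sympForm m F x (g.1 *ᵥ w) • g.1 *ᵥ w = sympForm m F x w • w := fun x => by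
      have := congrArg (fun k : G m F => k.1 *ᵥ x) h
      simpa [tv_mulVec] using this
    obtain ⟨y, hy⟩ := exists_form_ne_zero (mulVec_ne_zero g hw0)
    rw [form_swap, neg_ne_zero] at hy
    obtain ⟨b, hb⟩ : ∃ b : F, g.1 *ᵥ w = b • w :=
      ⟨(sympForm m F y (g.1 *ᵥ w))⁻¹ * sympForm m F y w, by
        rw [mul_smul, ← h1, smul_smul, inv_mul_cancel₀ hy, one_smul]⟩
    obtain ⟨z, hz⟩ := exists_form_ne_zero hw0
    rw [form_swap, neg_ne_zero] at hz
    have h2 := h1 z
    rw [hb, form_smul_right, smul_smul] at h2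
    have h3 := smul_left_injective F hw0 h2
    have h4 : b ^ 2 = 1 ^ 2 := by
      apply mul_right_cancel₀ hz
      linear_combination h3
    rw [hb, show b = 1 from frobenius_inj F 2 h4, one_smul]
  have h1 := H11.card_eq_card_image_mul ⊤ (Subgroup.centralizer ({tv w 1} : Set (G m F))) le_top
    (fun g => g.1 *ᵥ w) (fun g _ k _ => by
      rw [hmem, coe_mul_mulVec]
      constructor
      · intro h; rw [← h, inv_mulVec_mulVec]
      · intro h
        have := congrArg (fun x => g.1 *ᵥ x) h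
        simp only [mulVec_inv_mulVec] at this
        exact this.symm) {x | x ≠ 0} (fun x => by
      constructor
      · intro hx
        obtain ⟨g, hg⟩ := exists_mulVec_eq hw0 hx
        exact ⟨g, trivial, hg⟩
      · rintro ⟨g, -, rfl⟩
        exact mulVec_ne_zero g hw0)
  have h2 : Nat.card ({x | x ≠ 0} : Set (V m F)) = q ^ (2 * m) - 1 := by
    rw [show ({x | x ≠ 0} : Set (V m F)) = {0}ᶜ from rfl, Nat.card_coe_set_eq,
      Set.ncard_compl, Set.ncard_singleton, Nat.card_eq_fintype_card]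
    simp [hF, two_mul]
  obtain ⟨k, rfl⟩ : ∃ k, m = k + 1 := ⟨m - 1, by omega⟩
  rw [Subgroup.card_top, card_G, h2, Nat.card_eq_fintype_card, hF, Finset.prod_range_succ] at h1
  have hq : 1 < q := hF ▸ Fintype.one_lt_card
  have h3 : 0 < q ^ (2 * (k + 1)) - 1 := Nat.sub_pos_of_lt (Nat.one_lt_pow (by omega) hq)
  apply Nat.eq_of_mul_eq_mul_left h3
  rw [← h1, Nat.add_sub_cancel, Fin.prod_univ_eq_prod_range (fun i => q ^ (2 * (i + 1)) - 1) k,
    show (k + 1) ^ 2 = (2 * (k + 1) - 1) + k ^ 2 by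
      rw [show 2 * (k + 1) - 1 = 2 * k + 1 by omega]; ring, pow_add]
  ring

end Cfsg.Agent.S2594
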