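import Mathlib
import Cfsg.Statements.S2599
import Cfsg.Agent.Lib.QF.OmegaGeom
-- import your own Cfsg.Agent.* helpers here

set_option autoImplicit false
open Cfsg

namespace Cfsg.Agent.S2599

/-- An irreducible invariant subspace of a semisimple isometry is non-degenerate or totally singular: let Q be a quadratic form on F^n (F finite of characteristic p) with non-degenerate polar form f, x an isometry of Q of order prime to p, and U a non-zero x-invariant subspace containing no x-invariant subspace other than 0 and U. Then U meets its f-orthogonal trivially, or Q vanishes on U, or p = 2, U is a line spanned by a non-singular vector and x fixes U pointwise. -/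
theorem result {F : Type*} [Field F] [Fintype F] {p : ℕ} [Fact p.Prime] [CharP F p] {n : ℕ} (Q : QuadraticForm F (Fin n → F)) (hQ : (QuadraticMap.polarBilin Q).Nondegenerate) (x : ↥(Cfsg.isometryGroup F ⇑Q)) (hx : (orderOf x).Coprime p) (U : Submodule F (Fin n → F)) (hU0 : U ≠ ⊥) (hUx : ∀ u ∈ U, ((x : Matrix.GeneralLinearGroup (Fin n) F) : Matrix (Fin n) (Fin n) F).mulVec u ∈ U) (hirr : ∀ W : Submodule F (Fin n → F), W ≤ U → (∀ w ∈ W, ((x : Matrix.GeneralLinearGroup (Fin n) F) : Matrix (Fin n) (Fin n) F).mulVec w ∈ W) → W = ⊥ ∨ W = U) : U ⊓ LinearMap.BilinForm.orthogonal (QuadraticMap.polarBilin Q) U = ⊥ ∨ (∀ u ∈ U, Q u = 0) ∨ (p = 2 ∧ Module.finrank F U = 1 ∧ (∃ u ∈ U, Q u ≠ 0) ∧ ∀ u ∈ U, ((x : Matrix.GeneralLinearGroup (Fin n) F) : Matrix (Fin n) (Fin n) F).mulVec u = u) := by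
  let g := H12.isoEquiv Q (q := ⇑Q) (fun _ => rfl) x
  have hg : g ∈ H66.stabO Q U := H66.mem_stabO_of_le hUx
  have hg' : ∀ u ∈ U, (g⁻¹).1 u ∈ U := fun u hu => by
    rw [← H66.mem_stabO.mp ((H66.stabO Q U).inv_mem hg)]
    exact ⟨u, hu, rfl⟩
  rcases hirr (U ⊓ H30.qperp Q U) inf_le_left (fun w hw => ⟨hUx w hw.1, H30.mem_qperp.mpr
    fun u hu => by
      change QuadraticMap.polar Q u (g.1 w) = 0
      rw [H12.O.B_apply_right]
      exact H30.mem_qperp.mp hw.2 _ (hg' u hu)⟩) with h | h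
  · exact Or.inl h
  right
  have hB : ∀ u ∈ U, ∀ w ∈ U, QuadraticMap.polar Q u w = 0 := fun u hu w hw => by
    rw [← h] at hw
    exact H30.mem_qperp.mp hw.2 u hu
  let U0 : Submodule F (Fin n → F) :=
    { carrier := {u | u ∈ U ∧ Q u = 0}
      add_mem' := fun {a b} ha hb => ⟨U.add_mem ha.1 hb.1, by
        rw [H12.Q_add, ha.2, hb.2, hB a ha.1 b hb.1]; simp⟩
      zero_mem' := ⟨U.zero_mem, by simp⟩
      smul_mem' := fun c a ha => ⟨U.smul_mem c ha.1, by rw [H12.Q_smul, ha.2, mul_zero]⟩ }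
  rcases hirr U0 (fun u hu => hu.1) (fun w hw => ⟨hUx w hw.1, (H12.O.map_Q g w).trans hw.2⟩)
    with h0 | h0
  swap
  · left
    intro u hu
    rw [← h0] at hu
    exact hu.2
  right
  have han : ∀ u ∈ U, Q u = 0 → u = 0 := fun u hu hq => by
    have : u ∈ U0 := ⟨hu, hq⟩
    rwa [h0] at this
  obtain ⟨u, hu, hu0⟩ := Submodule.exists_mem_ne_zero_of_ne_bot hU0
  have hQu : Q u ≠ 0 := fun hq => hu0 (han u hu hq)
  have h2 : (2 : F) = 0 := by
    have := hB u hu u hu
    rw [H12.B_self] at this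
    exact (mul_eq_zero.mp this).resolve_right hQu
  have hfix : ∀ w ∈ U, ((x : Matrix.GeneralLinearGroup (Fin n) F) :
      Matrix (Fin n) (Fin n) F).mulVec w = w := fun w hw => by
    rw [← sub_eq_zero]
    refine han _ (U.sub_mem (hUx w hw) hw) ?_
    rw [H12.Q_sub, hB _ (hUx w hw) w hw]
    change Q (g.1 w) + _ - _ = _
    rw [H12.O.map_Q]
    linear_combination Q w * h2
  refine ⟨?_, ?_, ⟨u, hu, hQu⟩, hfix⟩
  · have : p ∣ 2 := (CharP.cast_eq_zero_iff F p 2).mp (by exact_mod_cast h2)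
    exact (Nat.prime_dvd_prime_iff_eq Fact.out Nat.prime_two).mp this
  · have hle : Submodule.span F {u} ≤ U := (Submodule.span_singleton_le_iff_mem _ _).mpr hu
    rcases hirr _ hle (fun w hw => by rw [hfix w (hle hw)]; exact hw) with h1 | h1
    · exact absurd (Submodule.span_singleton_eq_bot.mp h1) hu0
    · rw [← h1, finrank_span_singleton hu0]

end Cfsg.Agent.S2599
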