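import Mathlib
import Cfsg.Statements.S2610
import Cfsg.Agent.Lib.QF.OmegaLevi
import Cfsg.Agent.Lib.QF.Disc
-- import your own Cfsg.Agent.* helpers here

set_option autoImplicit false
open Cfsg

namespace Cfsg.Agent.S2610

/-- For a quadratic form Q on F^n with non-degenerate polar form, F finite of odd order and n ≥ 2 even, the isometry −1 lies in Ω (the commutator subgroup of the orthogonal group) if and only if the discriminant of Q (the determinant of the Gram matrix of its polar form) is a square. -/
theorem result {F : Type*} [Field F] [Fintype F] (h2 : (2 : F) ≠ 0) {n : ℕ} (hn : 2 ≤ n) (he : Even n) (Q : QuadraticForm F (Fin n → F)) (hQ : (QuadraticMap.polarBilin Q).Nondegenerate) : (∃ g : ↥(Cfsg.isometryGroup F ⇑Q), g ∈ Cfsg.Omega F ⇑Q ∧ ((g : Matrix.GeneralLinearGroup (Fin n) F) : Matrix (Fin n) (Fin n) F) = -1) ↔ IsSquare (Matrix.of (fun i j : Fin n => QuadraticMap.polar ⇑Q (Pi.single i 1) (Pi.single j 1))).det := by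
  have hN := H12.nondeg_iff.mpr hQ
  rw [H12.exists_neg_one_mem_Omega_iff Q (fun _ => rfl),
    H12.negO_mem_Om_iff hN h2 (Pi.basisFun F (Fin n)) (by simpa using he)
      (H66.gramDet_ne_zero hQ _)]
  simp

end Cfsg.Agent.S2610
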