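import Mathlib
import Cfsg.Statements.S2611
import Cfsg.Agent.Lib.QF.OmegaLevi
-- import your own Cfsg.Agent.* helpers here

set_option autoImplicit false
open Cfsg

namespace Cfsg.Agent.S2611

/-- For the hyperbolic quadratic form Σ x_i y_i on F^(2m) (F finite, m ≥ 1, excluding m = 2 over the field of two elements) and an invertible m × m matrix A, the block-diagonal isometry diag(A, (A⁻¹)ᵀ), which stabilises the two maximal totally singular subspaces x = 0 and y = 0, lies in Ω⁺_2m(F) (the commutator subgroup of the orthogonal group) if and only if det A is a square in F. -/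
theorem result {F : Type*} [Field F] [Fintype F] {m : ℕ} (hm : 1 ≤ m) (h : Fintype.card F ≠ 2 ∨ m ≠ 2) (A : GL (Fin m) F) : (∃ g : ↥(Cfsg.isometryGroup F (Cfsg.quadFormPlus m F)), g ∈ Cfsg.Omega F (Cfsg.quadFormPlus m F) ∧ ((g : Matrix.GeneralLinearGroup (Fin m ⊕ Fin m) F) : Matrix (Fin m ⊕ Fin m) (Fin m ⊕ Fin m) F) = Matrix.fromBlocks (A : Matrix (Fin m) (Fin m) F) 0 0 ((A : Matrix (Fin m) (Fin m) F)⁻¹).transpose) ↔ IsSquare (A : Matrix (Fin m) (Fin m) F).det := by
  have hN : H12.Nondeg (H12.hypN m (0 : QuadraticForm F (Fin 0 → F))) :=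
    H12.Nondeg.hypN (fun v _ => Subsingleton.elim _ _) m
  refine H66.exists_Omega_levi_iff (H12.QPlus F m) (H12.QPlus_apply m) (H12.plusEquiv F m)
    (H12.hypN_plusEquiv m) hN (H12.good_of_card hN ?_) A fun v => ?_
  · refine h.imp id fun h => ?_
    simp; omega
  · rw [Matrix.fromBlocks_mulVec, Matrix.coe_units_inv]
    simp only [Matrix.zero_mulVec, add_zero, zero_add]
    exact Prod.ext rfl (Prod.ext rfl (Subsingleton.elim _ _))

end Cfsg.Agent.S2611
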