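import Mathlib
import Cfsg.Statements.S2612
import Cfsg.Agent.Lib.QF.OmegaLevi
import Cfsg.Agent.Lib.QF.Classify
-- import your own Cfsg.Agent.* helpers here

set_option autoImplicit false
open Cfsg

namespace Cfsg.Agent.S2612

/-- For the hyperbolic quadratic form Σ x_i y_i on F^(2m) (F finite, m ≥ 1, excluding m = 2 over the field of two elements), Ω⁺_2m(F) (the commutator subgroup of the orthogonal group) contains an element interchanging the two complementary maximal totally singular subspaces {y = 0} and {x = 0} if and only if m is even (dimension divisible by 4). -/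
theorem result {F : Type*} [Field F] [Fintype F] {m : ℕ} (hm : 1 ≤ m) (h : Fintype.card F ≠ 2 ∨ m ≠ 2) : (∃ g : ↥(Cfsg.isometryGroup F (Cfsg.quadFormPlus m F)), g ∈ Cfsg.Omega F (Cfsg.quadFormPlus m F) ∧ (∀ v : Fin m ⊕ Fin m → F, (∀ i, v (Sum.inr i) = 0) → ∀ i, (((g : Matrix.GeneralLinearGroup (Fin m ⊕ Fin m) F) : Matrix (Fin m ⊕ Fin m) (Fin m ⊕ Fin m) F).mulVec v) (Sum.inl i) = 0) ∧ (∀ v : Fin m ⊕ Fin m → F, (∀ i, v (Sum.inl i) = 0) → ∀ i, (((g : Matrix.GeneralLinearGroup (Fin m ⊕ Fin m) F) : Matrix (Fin m ⊕ Fin m) (Fin m ⊕ Fin m) F).mulVec v) (Sum.inr i) = 0)) ↔ Even m := by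
  classical
  have hN := H12.nondeg_QPlus (F := F) m
  have hU : H30.IsTS (H12.QPlus F m) m (H66.stdU m F) :=
    ⟨H66.finrank_stdU m, fun u hu => by
      rw [H12.QPlus_apply]; exact H66.quadFormPlus_stdU hu⟩
  have hG : H12.Good (H12.QPlus F m) :=
    H12.good_of_card hN (h.imp id fun h => by rw [H12.finrank_plus]; omega)
  have key : ∀ k : H12.O (H12.QPlus F m),
      (∀ v : Fin m ⊕ Fin m → F, (∀ i, v (.inr i) = 0) → ∀ i, k.1 v (.inl i) = 0) →
      (H12.dk hN hG k = 1 ↔ Even m) := by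
    intro k hk
    have : H66.stdU m F ⊓ H66.mapO k (H66.stdU m F) = ⊥ := by
      rw [eq_bot_iff]
      rintro x ⟨hx, v, hv, rfl⟩
      rw [Submodule.mem_bot]
      ext (i | i)
      · exact hk v (H66.mem_stdU.mp hv) i
      · exact H66.mem_stdU.mp hx i
    rw [H66.dk_eq_one_iff_even hN hG (H12.finrank_plus m) hU, this, finrank_bot, Nat.sub_zero]
  constructor
  · rintro ⟨g, hg, h1, -⟩
    rw [H66.mem_Omega_iff (H12.QPlus F m) (H12.QPlus_apply m), H12.mem_Om_iff hN hG] at hg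
    exact (key _ h1).mp hg.1
  · intro he
    let s : H12.O (H12.QPlus F m) :=
      ⟨LinearEquiv.funCongrLeft F F (Equiv.sumComm (Fin m) (Fin m)), fun v => by
        rw [H12.QPlus_apply, H12.QPlus_apply]
        exact Finset.sum_congr rfl fun i _ => mul_comm _ _⟩
    let U' : Submodule F (Fin m ⊕ Fin m → F) :=
      LinearMap.ker (LinearMap.funLeft F F (Sum.inl : Fin m → Fin m ⊕ Fin m))
    have hU' : ∀ v, v ∈ U' ↔ ∀ i, v (.inl i) = 0 := fun v => by
      rw [LinearMap.mem_ker, funext_iff]; rfl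
    let i0 : Fin m := ⟨0, hm⟩
    have hef : H12.IsHyp (H12.QPlus F m) (Pi.single (.inl i0) 1) (Pi.single (.inr i0) 1) :=
      ⟨by simp [H12.QPlus_apply, Cfsg.quadFormPlus], by simp [H12.QPlus_apply, Cfsg.quadFormPlus],
        by simp [H12.polar_QPlus, Pi.single_apply]⟩
    obtain ⟨k, hk, hsk⟩ := H66.exists_mul_mem_Om_of_dk hN hG
      (H66.stabO _ (H66.stdU m F) ⊓ H66.stabO _ U') (g := s) (fun h2 => by
        obtain ⟨c, hc, h⟩ := H66.exists_tor_spin hN hG hef h2
        refine ⟨_, ⟨H66.tor_mem_stabO hef hc (H66.mem_stdU.mpr fun i => by simp) fun u hu => ?_,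
          H66.tor_mem_stabO' hef hc ((hU' _).mpr fun i => by simp) fun u hu => ?_⟩, h⟩
        · simp [H12.polar_QPlus, H66.mem_stdU.mp hu]
        · simp [H12.polar_QPlus, (hU' u).mp hu])
      ((key s fun v hv i => hv i).mpr he)
    refine ⟨(H12.isoEquiv (H12.QPlus F m) (H12.QPlus_apply m)).symm (s * k), ?_, ?_, ?_⟩
    · rw [H66.mem_Omega_iff (H12.QPlus F m) (H12.QPlus_apply m), MulEquiv.apply_symm_apply]
      exact hsk
    · intro v hv i
      rw [← H12.isoEquiv_apply (H12.QPlus F m) (H12.QPlus_apply m), MulEquiv.apply_symm_apply]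
      have : k.1 v ∈ H66.stdU m F := by
        rw [← H66.mem_stabO.mp hk.1]
        exact ⟨v, H66.mem_stdU.mpr hv, rfl⟩
      exact H66.mem_stdU.mp this i
    · intro v hv i
      rw [← H12.isoEquiv_apply (H12.QPlus F m) (H12.QPlus_apply m), MulEquiv.apply_symm_apply]
      have : k.1 v ∈ U' := by
        rw [← H66.mem_stabO.mp hk.2]
        exact ⟨v, (hU' v).mpr hv, rfl⟩
      exact (hU' _).mp this i

end Cfsg.Agent.S2612
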