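import Mathlib
import Cfsg.Statements.S2614
import Cfsg.Agent.Lib.QF.OmegaLevi
-- import your own Cfsg.Agent.* helpers here

set_option autoImplicit false
open Cfsg

namespace Cfsg.Agent.S2614

/-- For the form x_0² + Σ x_j y_j on F^(2m+1), F finite with q elements, q odd, and 1 ≤ i ≤ m: the involution of determinant one negating the first i hyperbolic pairs (and fixing x_0 and the other pairs) lies in Ω_(2m+1)(q) (commutator subgroup of the orthogonal group) if and only if q^i ≡ 1 (mod 4); its (−1)-eigenspace is a hyperbolic 2i-space. -/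
theorem result {F : Type*} [Field F] [Fintype F] {q : ℕ} (hF : Fintype.card F = q) (hq : Odd q) {m : ℕ} (i : ℕ) (hi : 1 ≤ i) (him : i ≤ m) : (∃ g : ↥(Cfsg.isometryGroup F (Cfsg.quadFormOdd m F)), g ∈ Cfsg.Omega F (Cfsg.quadFormOdd m F) ∧ ((g : Matrix.GeneralLinearGroup (Unit ⊕ (Fin m ⊕ Fin m)) F) : Matrix (Unit ⊕ (Fin m ⊕ Fin m)) (Unit ⊕ (Fin m ⊕ Fin m)) F) = Matrix.diagonal (fun k : Unit ⊕ (Fin m ⊕ Fin m) => if (Sum.elim (fun _ : Unit => i) (Sum.elim (fun j : Fin m => (j : ℕ)) (fun j : Fin m => (j : ℕ))) k) < i then (-1 : F) else 1)) ↔ q ^ i % 4 = 1 := by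
  subst hF
  have h2 := H12.two_ne_zero_of_odd hq
  have hN : H12.Nondeg (H12.hypN m (QuadraticMap.sq : QuadraticForm F F)) :=
    H12.Nondeg.hypN (H12.nondeg_sq h2) m
  rw [← H12.isSquare_neg_one_pow_iff hq, ← H66.det_negDiag him]
  refine H66.exists_Omega_levi_iff (H12.QOdd F m) (H12.QOdd_apply m) (H12.oddEquiv F m)
    (H12.hypN_oddEquiv m) hN (H12.good_of_two_ne_zero hN h2) _ fun v => ?_
  rw [H66.negDiag_inv_val, H66.negDiag_val, Matrix.diagonal_transpose]
  refine Prod.ext ?_ (Prod.ext ?_ ?_)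
  · ext j; dsimp only; rw [Matrix.mulVec_diagonal]; exact Matrix.mulVec_diagonal _ v (.inr (.inl j))
  · ext j; dsimp only; rw [Matrix.mulVec_diagonal]; exact Matrix.mulVec_diagonal _ v (.inr (.inr j))
  · refine (Matrix.mulVec_diagonal _ v (.inl ())).trans ?_
    simp only [Sum.elim_inl, lt_irrefl, if_false, one_mul]
    rfl

end Cfsg.Agent.S2614
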