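import Mathlib
import Cfsg.Statements.S2615
import Cfsg.Agent.Lib.QF.OmegaLevi
-- import your own Cfsg.Agent.* helpers here

set_option autoImplicit false
open Cfsg

namespace Cfsg.Agent.S2615

/-- For an elliptic form Σ_(j<m−1) x_j y_j + (z₁² + a z₁z₂ + b z₂²) (anisotropic binary part) on F^(2m), F finite with q elements, q odd, and 1 ≤ i ≤ m − 1: the involution negating the first i hyperbolic pairs and fixing the rest lies in Ω⁻_2m(q) (commutator subgroup of the orthogonal group) if and only if q^i ≡ 1 (mod 4). -/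
theorem result {F : Type*} [Field F] [Fintype F] {q : ℕ} (hF : Fintype.card F = q) (hq : Odd q) {m : ℕ} (a b : F) (hab : ∀ z₁ z₂ : F, z₁ ^ 2 + a * z₁ * z₂ + b * z₂ ^ 2 = 0 → z₁ = 0 ∧ z₂ = 0) (i : ℕ) (hi : 1 ≤ i) (him : i + 1 ≤ m) : (∃ g : ↥(Cfsg.isometryGroup F (Cfsg.quadFormMinus (m - 1) F a b)), g ∈ Cfsg.Omega F (Cfsg.quadFormMinus (m - 1) F a b) ∧ ((g : Matrix.GeneralLinearGroup ((Fin (m - 1) ⊕ Fin (m - 1)) ⊕ Fin 2) F) : Matrix ((Fin (m - 1) ⊕ Fin (m - 1)) ⊕ Fin 2) ((Fin (m - 1) ⊕ Fin (m - 1)) ⊕ Fin 2) F) = Matrix.diagonal (fun k : (Fin (m - 1) ⊕ Fin (m - 1)) ⊕ Fin 2 => if (Sum.elim (Sum.elim (fun j : Fin (m - 1) => (j : ℕ)) (fun j : Fin (m - 1) => (j : ℕ))) (fun _ : Fin 2 => i) k) < i then (-1 : F) else 1)) ↔ q ^ i % 4 = 1 := by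
  subst hF
  have h2 := H12.two_ne_zero_of_odd hq
  have hN : H12.Nondeg (H12.hypN (m - 1) (H12.binForm a b)) :=
    H12.Nondeg.hypN (H12.Aniso.nondeg hab) (m - 1)
  rw [← H12.isSquare_neg_one_pow_iff hq, ← H66.det_negDiag (show i ≤ m - 1 by omega)]
  refine H66.exists_Omega_levi_iff (H12.QMinus (m - 1) a b) (H12.QMinus_apply (m - 1) a b)
    (H12.minusEquiv F (m - 1))
    (H12.hypN_minusEquiv (m - 1) a b) hN (H12.good_of_two_ne_zero hN h2) _ fun v => ?_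
  rw [H66.negDiag_inv_val, H66.negDiag_val, Matrix.diagonal_transpose]
  refine Prod.ext ?_ (Prod.ext ?_ ?_)
  · ext j; dsimp only; rw [Matrix.mulVec_diagonal]; exact Matrix.mulVec_diagonal _ v (.inl (.inl j))
  · ext j; dsimp only; rw [Matrix.mulVec_diagonal]; exact Matrix.mulVec_diagonal _ v (.inl (.inr j))
  · ext j
    refine (Matrix.mulVec_diagonal _ v (.inr j)).trans ?_
    simp only [Sum.elim_inr, lt_irrefl, if_false, one_mul]
    rfl

end Cfsg.Agent.S2615
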