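import Mathlib
import Cfsg.Statements.S2619
-- import your own Cfsg.Agent.* helpers here

set_option autoImplicit false
open Cfsg

namespace Cfsg.Agent.S2619

theorem uniq_aux {F V ι : Type*} [Field F] [AddCommGroup V] [Module F V] [LinearOrder ι]
    (b : Module.Basis ι F V) (Q Q' : QuadraticForm F V)
    (h1 : QuadraticMap.polarBilin Q = QuadraticMap.polarBilin Q') (h2 : ∀ i, Q (b i) = Q' (b i)) :
    Q = Q' := by
  have : Q.toBilin b = Q'.toBilin b := by
    refine LinearMap.BilinForm.ext_basis b fun i j => ?_
    have h3 : QuadraticMap.polar Q (b i) (b j) = QuadraticMap.polar Q' (b i) (b j) := by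
      rw [← QuadraticMap.polarBilin_apply_apply, h1, QuadraticMap.polarBilin_apply_apply]
    rw [QuadraticMap.toBilin_apply, QuadraticMap.toBilin_apply, h2, h3]
  rw [← Q.toQuadraticMap_toBilin b, this, Q'.toQuadraticMap_toBilin b]

theorem exi_aux {F V ι : Type*} [Field F] [CharP F 2] [AddCommGroup V] [Module F V] [LinearOrder ι]
    (b : Module.Basis ι F V) (B : LinearMap.BilinForm F V) (hB : B.IsAlt) (c : ι → F) :
    ∃ Q : QuadraticForm F V, QuadraticMap.polarBilin Q = B ∧ ∀ i, Q (b i) = c i := by
  obtain ⟨T, hT⟩ : ∃ T : LinearMap.BilinForm F V, ∀ i j, T (b i) (b j) =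
      if i = j then c i else if i < j then B (b i) (b j) else 0 :=
    ⟨b.constr F fun i => b.constr F fun j =>
      if i = j then c i else if i < j then B (b i) (b j) else 0, fun i j => by
        simp only [Module.Basis.constr_basis]⟩
  refine ⟨LinearMap.BilinMap.toQuadraticMap T, ?_, fun i => by simp [hT]⟩
  rw [LinearMap.BilinMap.polarBilin_toQuadraticMap]
  refine LinearMap.BilinForm.ext_basis b fun i j => ?_
  simp only [LinearMap.add_apply, LinearMap.flip_apply, hT]
  rcases lt_trichotomy i j with h | rfl | h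
  · simp [h, h.ne, h.ne', h.not_gt]
  · simp [hB.self_eq_zero, CharTwo.add_self_eq_zero]
  · simp only [h, h.ne, h.ne', h.not_gt, if_true, if_false, zero_add]
    rw [← hB.neg_eq, CharTwo.neg_eq]


/-- Over a finite field of characteristic two, given an alternating bilinear form B on a finite-dimensional space, a basis (v_i) and scalars (λ_i), there is exactly one quadratic form whose polar form is B and whose value at each v_i is λ_i. -/
theorem result {F V ι : Type*} [Field F] [Finite F] [CharP F 2] [AddCommGroup V] [Module F V] [Fintype ι] (b : Module.Basis ι F V) (B : LinearMap.BilinForm F V) (hB : B.IsAlt) (c : ι → F) : ∃! Q : QuadraticForm F V, QuadraticMap.polarBilin Q = B ∧ ∀ i, Q (b i) = c i := by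
  letI : LinearOrder ι := LinearOrder.lift' (Fintype.equivFin ι) (Fintype.equivFin ι).injective
  obtain ⟨Q, h1, h2⟩ := exi_aux b B hB c
  refine ⟨Q, ⟨h1, h2⟩, ?_⟩
  rintro Q' ⟨h3, h4⟩
  exact uniq_aux b Q' Q (h3.trans h1.symm) fun i => (h4 i).trans (h2 i).symm

end Cfsg.Agent.S2619
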