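import Mathlib
import Cfsg.Statements.S2625
import Cfsg.Agent.Lib.QF.Disc
-- import your own Cfsg.Agent.* helpers here

set_option autoImplicit false
open Cfsg

namespace Cfsg.Agent.S2625

/-- For a quadratic form Q on F^n with non-degenerate polar form, F finite and n odd (so |F| is odd), the multiplier of any similarity is a square: if g is an invertible linear map with Q(g v) = c·Q(v) for all v then c is a square. -/
theorem result {F : Type*} [Field F] [Fintype F] {n : ℕ} (hn : Odd n) (Q : QuadraticForm F (Fin n → F)) (hQ : (QuadraticMap.polarBilin Q).Nondegenerate) (g : (Fin n → F) ≃ₗ[F] (Fin n → F)) (c : F) (hg : ∀ v, Q (g v) = c * Q v) : IsSquare c := by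
  obtain ⟨t, ht, h⟩ := H66.gramDet_of_equiv (Q := c • Q) g hg (Pi.basisFun F _) (Pi.basisFun F _)
  have h0 := H66.gramDet_ne_zero hQ (Pi.basisFun F _)
  have h1 : H66.gramDet (c • Q) (Pi.basisFun F _) = c ^ n * H66.gramDet Q (Pi.basisFun F _) := by
    rw [H66.gramDet, H66.gramDet]
    have := Matrix.det_smul (Matrix.of fun i j => QuadraticMap.polar Q (Pi.basisFun F (Fin n) i)
      (Pi.basisFun F (Fin n) j)) c
    rw [Fintype.card_fin] at this
    rw [← this]
    congr 1
    ext i j
    simp [QuadraticMap.coeFn_smul, QuadraticMap.polar_smul]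
  rw [h1, ← mul_assoc] at h
  obtain ⟨k, rfl⟩ := hn
  have h2 : t ^ 2 * c ^ (2 * k + 1) = 1 := by
    apply mul_right_cancel₀ h0
    rw [← h, one_mul]
  exact ⟨t * c ^ (k + 1), by linear_combination (-c) * h2⟩

end Cfsg.Agent.S2625
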