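import Mathlib
import Cfsg.Statements.S2629
import Cfsg.Agent.Lib.QF.OmegaLevi
import Cfsg.Agent.Lib.QF.Classify
-- import your own Cfsg.Agent.* helpers here

set_option autoImplicit false
open Cfsg

namespace Cfsg.Agent.S2629

/-- For the hyperbolic form Σ x_i y_i on F^(2m) over a finite field of odd order (m ≥ 1), an isometry g preserves the class of the maximal totally singular subspace U₀ = {y = 0} (that is, m − dim(U₀ ∩ gU₀) is even) if and only if det g = 1: the stabiliser of each of the two classes of maximal totally singular subspaces is SO. -/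
theorem result {F : Type*} [Field F] [Fintype F] (h2 : (2 : F) ≠ 0) {m : ℕ} (hm : 1 ≤ m) (g : ↥(Cfsg.isometryGroup F (Cfsg.quadFormPlus m F))) : Even (m - Module.finrank F ↥(LinearMap.ker (LinearMap.funLeft F F (Sum.inr : Fin m → Fin m ⊕ Fin m)) ⊓ (LinearMap.ker (LinearMap.funLeft F F (Sum.inr : Fin m → Fin m ⊕ Fin m))).map (Matrix.mulVecLin ((g : Matrix.GeneralLinearGroup (Fin m ⊕ Fin m) F) : Matrix (Fin m ⊕ Fin m) (Fin m ⊕ Fin m) F)))) ↔ ((g : Matrix.GeneralLinearGroup (Fin m ⊕ Fin m) F) : Matrix (Fin m ⊕ Fin m) (Fin m ⊕ Fin m) F).det = 1 := by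
  have hN := H12.nondeg_QPlus (F := F) m
  have hU : H30.IsTS (H12.QPlus F m) m (H66.stdU m F) :=
    ⟨H66.finrank_stdU m, fun u hu => by
      rw [H12.QPlus_apply]; exact H66.quadFormPlus_stdU hu⟩
  have hG := H12.good_of_two_ne_zero hN h2
  rw [← H12.det_isoEquiv (H12.QPlus F m) (H12.QPlus_apply m) g, ← H12.detO_apply,
    H12.detO_eq_one_iff hN hG h2, H66.dk_eq_one_iff_even hN hG (H12.finrank_plus m) hU]
  rfl

end Cfsg.Agent.S2629
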