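import Mathlib
import Cfsg.Statements.S2635
import Cfsg.Agent.Lib.QF.OmegaLevi
-- import your own Cfsg.Agent.* helpers here

set_option autoImplicit false
open Cfsg

namespace Cfsg.Agent.S2635

/-- Over a finite field of characteristic two, for a quadratic form Q on F^n with non-degenerate polar form, n ≥ 2, other than dimension 4 over the field of two elements, Ω (the commutator subgroup of the orthogonal group) is exactly the subgroup generated by the products of two reflections (orthogonal transvections) x ↦ x − Q(v)⁻¹ f(x, v) v, Q(v) ≠ 0: the products of an even number of reflections. -/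
theorem result {F : Type*} [Field F] [Fintype F] [CharP F 2] {n : ℕ} (hn : 2 ≤ n) (h : Fintype.card F ≠ 2 ∨ n ≠ 4) (Q : QuadraticForm F (Fin n → F)) (hQ : (QuadraticMap.polarBilin Q).Nondegenerate) : Cfsg.Omega F ⇑Q = Subgroup.closure {g : ↥(Cfsg.isometryGroup F ⇑Q) | ∃ u v : Fin n → F, Q u ≠ 0 ∧ Q v ≠ 0 ∧ ((g : Matrix.GeneralLinearGroup (Fin n) F) : Matrix (Fin n) (Fin n) F) = Cfsg.reflectionMatrix ⇑Q u * Cfsg.reflectionMatrix ⇑Q v} := by
  have hN := H12.nondeg_iff.mpr hQ
  have hG : H12.Good Q := H12.good_of_card hN (h.imp id fun h => by simpa using h)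
  classical
  have h1 := H12.Om_eq_ker_dk hN hG CharTwo.two_eq_zero
  rw [H66.ker_dk_eq_closure hN hG] at h1
  let φ := H12.isoEquiv Q (q := ⇑Q) (fun _ => rfl)
  have h2 : Cfsg.Omega F ⇑Q = (H12.Om Q).comap φ.toMonoidHom := by
    ext g; exact H66.mem_Omega_iff Q _ g
  have h3 : {g : ↥(Cfsg.isometryGroup F ⇑Q) | ∃ u v : Fin n → F, Q u ≠ 0 ∧ Q v ≠ 0 ∧
      ((g : Matrix.GeneralLinearGroup (Fin n) F) : Matrix (Fin n) (Fin n) F) =
        Cfsg.reflectionMatrix ⇑Q u * Cfsg.reflectionMatrix ⇑Q v} = φ.symm ''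
      {g : H12.O Q | ∃ u v, Q u ≠ 0 ∧ Q v ≠ 0 ∧ g = H12.refl Q u * H12.refl Q v} := by
    ext g
    rw [show (φ.symm '' _ : Set ↥(Cfsg.isometryGroup F ⇑Q)) = φ ⁻¹' _ from
      φ.toEquiv.image_symm_eq_preimage _, Set.mem_preimage, Set.mem_setOf_eq, Set.mem_setOf_eq]
    refine exists_congr fun u => exists_congr fun v => and_congr_right fun _ =>
      and_congr_right fun _ => H12.isoEquiv_eq_iff Q _ g _ fun x => ?_
    rw [← Matrix.mulVec_mulVec, H12.reflectionMatrix_mulVec, H12.reflectionMatrix_mulVec,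
      H12.O.mul_apply]
  rw [h2, h1, h3, Subgroup.comap_equiv_eq_map_symm']
  exact MonoidHom.map_closure φ.symm.toMonoidHom _

end Cfsg.Agent.S2635
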