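import Mathlib
import Cfsg.Statements.S2636
import Cfsg.Agent.Lib.AutCl.Galois
import Cfsg.Agent.Lib.Classical.Count
import Cfsg.Agent.Lib.MatConj.Centralizer
-- import your own Cfsg.Agent.* helpers here

set_option autoImplicit false
open Cfsg

namespace Cfsg.Agent.S2636

open H67 Matrix


/-- Centraliser of a field automorphism in PGL_n: let F be the field with q = q₀^r elements, σ a field automorphism of F of prime order r (so its fixed field has q₀ elements) and n ≥ 1. The invertible matrices g whose entrywise image under σ is a scalar multiple of g — those whose coset modulo scalars is fixed by σ — number (q − 1)/(q₀ − 1) · |GL_n(q₀)|; equivalently the centraliser in PGL_n(q) of the induced automorphism has the order of PGL_n(q₀). -/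
theorem result {F : Type*} [Field F] [Fintype F] {q₀ r n : ℕ} (hr : r.Prime) (hn : 1 ≤ n) (hF : Fintype.card F = q₀ ^ r) (σ : F ≃+* F) (hσ : orderOf σ = r) : Nat.card {g : GL (Fin n) F // ∃ c : F, c ≠ 0 ∧ (g : Matrix (Fin n) (Fin n) F).map σ = c • (g : Matrix (Fin n) (Fin n) F)} = (q₀ ^ r - 1) / (q₀ - 1) * ∏ i : Fin n, (q₀ ^ n - q₀ ^ (i : ℕ)) := by
  classical
  have : Nonempty (Fin n) := ⟨⟨0, hn⟩⟩
  let τ := glField (Fin n) σ
  let sc : Fˣ →* GL (Fin n) F := GeneralLinearGroup.scalar (Fin n)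
  have hsc : ∀ (c : Fˣ) (g : GL (Fin n) F), g * sc c = sc c * g := fun c g => by
    apply Units.ext
    simp [sc, ← smul_eq_diagonal_mul, ← smul_eq_mul_diagonal]
  let K : Subgroup (GL (Fin n) F) :=
    { carrier := {g | ∃ c : Fˣ, τ g = sc c * g}
      mul_mem' := by
        rintro a b ⟨c, hc⟩ ⟨d, hd⟩
        refine ⟨c * d, ?_⟩
        rw [map_mul, hc, hd, map_mul, mul_assoc, ← mul_assoc a, hsc d a]
        simp only [mul_assoc]
      one_mem' := ⟨1, by simp⟩
      inv_mem' := by
        rintro a ⟨c, hc⟩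
        exact ⟨c⁻¹, by rw [map_inv, hc, _root_.mul_inv_rev, ← map_inv, hsc]⟩ }
  let M : Subgroup (GL (Fin n) F) := τ.toMonoidHom.eqLocus (MonoidHom.id _)
  have hM : ∀ g, g ∈ M ↔ τ g = g := fun g => Iff.rfl
  have h1 := H11.card_eq_card_image_mul K M (fun g hg => ⟨1, by rw [(hM g).mp hg]; simp⟩)
    (fun g => g * (τ g)⁻¹) (by
      rintro a ⟨c, hc⟩ b ⟨d, hd⟩
      simp only [hM, map_mul, map_inv, hc, hd, _root_.mul_inv_rev, mul_inv_cancel_left, _root_.inv_inj,
        mul_assoc, mul_right_inj]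
      rw [← mul_assoc, mul_eq_right, inv_mul_eq_one])
    (sc '' (cobHom (unitsAut F σ)).range) (fun x => by
      constructor
      · rintro ⟨_, ⟨a, rfl⟩, rfl⟩
        refine ⟨sc a, ⟨unitsAut F σ a * a⁻¹, ?_⟩, ?_⟩
        · rw [← map_mul, inv_mul_cancel_right]; exact glField_scalar σ a
        · rw [show τ (sc a) = sc (unitsAut F σ a) from glField_scalar σ a, ← map_inv, ← map_mul]
          rfl
      · rintro ⟨g, ⟨c, hc⟩, rfl⟩
        have h1 : sc c⁻¹ = g * (τ g)⁻¹ := by rw [map_inv, hc]; simp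
        refine ⟨c⁻¹, ?_, h1⟩
        rw [range_cob_units]
        apply scalar_inj (ι := Fin n)
        change sc (tnorm (unitsAut F σ) c⁻¹ _) = _
        rw [map_tnorm sc (τ' := τ) (fun a => (glField_scalar σ a).symm), h1, tnorm_cob,
          ← map_pow, pow_orderOf_eq_one, map_one]
        simp)
  have hq : Nat.card (fixF σ) = q₀ := by
    have := card_fixF_pow σ
    rw [hσ, Nat.card_eq_fintype_card (α := F), hF] at this
    exact Nat.pow_left_injective hr.ne_zero this
  have h2 : Nat.card M = ∏ i : Fin n, (q₀ ^ n - q₀ ^ (i : ℕ)) := by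
    have : Fintype (fixF σ) := Fintype.ofFinite _
    rw [← hq, Nat.card_eq_fintype_card (α := fixF σ),
      ← H65.natCard_GL (F := fixF σ) (Fin n) (Fintype.card_fin n)]
    symm
    refine Nat.card_congr (Equiv.ofBijective (fun g => ⟨GeneralLinearGroup.map (fixF σ).subtype g,
      Units.ext (Matrix.ext fun i j => mem_fixF.mp (g.val i j).2)⟩) ⟨fun a b h => ?_, fun g => ?_⟩)
    · have := congrArg (fun x : M => x.1.val) h
      exact Units.ext (Matrix.ext fun i j => Subtype.ext (congrFun (congrFun this i) j))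
    · let A : Matrix (Fin n) (Fin n) (fixF σ) := Matrix.of fun i j =>
        ⟨g.1.val i j, mem_fixF.mpr (congrArg (fun x : GL (Fin n) F => x.val i j) g.2)⟩
      have hA : (fixF σ).subtype.mapMatrix A = g.1.val := rfl
      have hd : A.det ≠ 0 := fun h0 => g.1.det_ne_zero (by
        rw [← hA, ← RingHom.map_det, h0, map_zero])
      exact ⟨GeneralLinearGroup.mkOfDetNeZero A hd, Subtype.ext (Units.ext hA)⟩
  have h3 : Nat.card (sc '' (cobHom (unitsAut F σ)).range) = (q₀ ^ r - 1) / (q₀ - 1) := by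
    rw [Nat.card_image_of_injective scalar_inj, SetLike.coe_sort_coe,
      ← Subgroup.index_ker, ← hF, ← hq, ← card_ker_cob_units, ← Nat.card_eq_fintype_card,
      ← Nat.card_units, ← Subgroup.card_mul_index (cobHom (unitsAut F σ)).ker,
      Nat.mul_div_cancel_left _ Nat.card_pos]
  rw [← h2, ← h3, ← h1]
  refine Nat.card_congr (Equiv.subtypeEquivRight fun g => ?_)
  constructor
  · rintro ⟨c, hc, h⟩
    exact ⟨Units.mk0 c hc, Units.ext (by simpa [sc, τ, ← smul_eq_diagonal_mul] using h)⟩
  · rintro ⟨c, h⟩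
    exact ⟨c, c.ne_zero, by simpa [sc, τ, ← smul_eq_diagonal_mul] using congrArg Units.val h⟩

end Cfsg.Agent.S2636
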