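import Mathlib
import Cfsg.Statements.S2638
import Cfsg.Agent.Lib.MatConj.Semisimple
import Cfsg.Agent.Lib.MatConj.Orders
-- import your own Cfsg.Agent.* helpers here

set_option autoImplicit false
open Cfsg

namespace Cfsg.Agent.S2638

open Polynomial Module UniqueFactorizationMonoid Matrix

theorem exists_eq_of_commute {F K : Type*} [Field F] [Field K] [Algebra F K] {n : ℕ} (hn : 1 ≤ n)
    (hK : finrank F K = n) (φ : K →ₐ[F] Matrix (Fin n) (Fin n) F) (g : Matrix (Fin n) (Fin n) F)
    (hg : ∀ k, g * φ k = φ k * g) : ∃ k, φ k = g := by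
  have : FiniteDimensional F K := Module.finite_of_finrank_pos (by omega)
  let v : Fin n → F := Pi.single ⟨0, hn⟩ 1
  have hv : v ≠ 0 := by simp [v]
  let ψ : K →ₗ[F] (Fin n → F) :=
    { toFun := fun k => φ k *ᵥ v
      map_add' := fun a b => by rw [map_add, add_mulVec]
      map_smul' := fun c a => by rw [map_smul, smul_mulVec, RingHom.id_apply] }
  have hinj : Function.Injective ψ := by
    rw [injective_iff_map_eq_zero]
    intro k hk
    by_contra h0
    apply hv
    have : φ k⁻¹ *ᵥ (φ k *ᵥ v) = v := by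
      rw [mulVec_mulVec, ← map_mul, inv_mul_cancel₀ h0, map_one, one_mulVec]
    rw [← this, show φ k *ᵥ v = 0 from hk, mulVec_zero]
  have hsurj : Function.Surjective ψ :=
    (LinearMap.injective_iff_surjective_of_finrank_eq_finrank (by simp [hK])).mp hinj
  obtain ⟨k, hk⟩ := hsurj (g *ᵥ v)
  refine ⟨k, Matrix.toLin'.injective (LinearMap.ext fun w => ?_)⟩
  obtain ⟨k', rfl⟩ := hsurj w
  change φ k *ᵥ (φ k' *ᵥ v) = g *ᵥ (φ k' *ᵥ v)
  rw [mulVec_mulVec, mulVec_mulVec, hg, ← map_mul, mul_comm, map_mul, ← mulVec_mulVec,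
    ← mulVec_mulVec, show φ k *ᵥ v = g *ᵥ v from hk]


/-- If an element x of GL_n(q), n ≥ 1, has prime order r and the multiplicative order of q modulo r is n (r is a primitive prime divisor of q^n − 1, so x acts irreducibly), then the centraliser of x in GL_n(q) is cyclic of order q^n − 1 (the multiplicative group of the field with q^n elements, a Singer cycle). -/
theorem result {F : Type*} [Field F] [Fintype F] {p q : ℕ} [Fact p.Prime] [CharP F p] (hF : Fintype.card F = q) {n r : ℕ} (hn : 1 ≤ n) (hr : r.Prime) (hrp : r ≠ p) (hi : orderOf (q : ZMod r) = n) (x : GL (Fin n) F) (hx : orderOf x = r) : IsCyclic ↥(Subgroup.centralizer ({x} : Set (GL (Fin n) F))) ∧ Nat.card ↥(Subgroup.centralizer ({x} : Set (GL (Fin n) F))) = q ^ n - 1 := by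
  classical
  subst hF
  have := Fact.mk hr
  obtain ⟨f, -, hf⟩ := FiniteField.card F p
  have hpr : p.Coprime r := (Nat.coprime_primes Fact.out hr).mpr hrp.symm
  have hrF : (r : F) ≠ 0 := by
    rw [Ne, CharP.cast_eq_zero_iff F p]
    exact (Nat.Prime.coprime_iff_not_dvd Fact.out).mp hpr
  have hi' : orderOf (ZMod.unitOfCoprime _ (hpr.pow_left f)) = n := by
    rw [← hi, ← orderOf_units, ZMod.coe_unitOfCoprime, hf]
  have hcyc : cyclotomic r F * (X - 1) = X ^ r - 1 := cyclotomic_prime_mul_X_sub_one F r
  have hxr : x.val ^ r = 1 := by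
    rw [← Units.val_pow_eq_pow_val, ← hx, pow_orderOf_eq_one, Units.val_one]
  have hx1 : x.val ≠ 1 := fun h => hr.one_lt.ne' (by
    rw [← hx, orderOf_eq_one_iff]; exact Units.ext h)
  have hint : IsIntegral F x.val := Matrix.isIntegral _
  set μ := minpoly F x.val with hμ
  have hμdvd : μ ∣ cyclotomic r F * (X - 1) := by
    rw [hcyc]; exact minpoly.dvd F _ (by simp [hxr])
  have hμ0 : μ ≠ 0 := minpoly.ne_zero hint
  have hμdeg : μ.natDegree ≤ n := by
    simpa using natDegree_le_of_dvd (Matrix.minpoly_dvd_charpoly x.val)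
      (Matrix.charpoly_monic _).ne_zero
  have hex : ∃ π, Irreducible π ∧ π.Monic ∧ π ∣ μ ∧ π ∣ cyclotomic r F := by
    by_contra hcon
    push Not at hcon
    have hco : IsCoprime μ (cyclotomic r F) := by
      refine (isRelPrime_iff_isCoprime.mp ?_)
      refine (UniqueFactorizationMonoid.isRelPrime_iff_no_prime_factors hμ0).mpr ?_
      intro d hd1 hd2 hd
      refine hcon (normalize d) ((associated_normalize d).irreducible hd.irreducible)
        (Polynomial.monic_normalize hd.ne_zero) ?_ ?_
      · exact normalize_dvd_iff.mpr hd1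
      · exact normalize_dvd_iff.mpr hd2
    obtain ⟨c, hc⟩ := hco.dvd_of_dvd_mul_left hμdvd
    apply hx1
    have := congrArg (aeval x.val) hc
    rw [map_mul, minpoly.aeval, zero_mul, map_sub, aeval_X, map_one, sub_eq_zero] at this
    exact this
  obtain ⟨π, hπ, hπm, hπμ, hπc⟩ := hex
  have hπdeg : π.natDegree = n := by
    rw [← hi']
    exact natDegree_of_mem_normalizedFactors_cyclotomic hf hpr
      ((Polynomial.mem_normalizedFactors_iff (cyclotomic_ne_zero r F)).mpr ⟨hπ, hπm, hπc⟩)
  have hπeq : μ = π := eq_of_monic_of_dvd_of_natDegree_le hπm (minpoly.monic hint) hπμ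
    (by omega)
  have := Fact.mk hπ
  have hroot : aeval x.val π = 0 := hπeq ▸ minpoly.aeval F x.val
  let φ : AdjoinRoot π →ₐ[F] Matrix (Fin n) (Fin n) F :=
    Ideal.Quotient.liftₐ (Ideal.span {π}) (aeval x.val) (fun a ha => by
      obtain ⟨c, rfl⟩ := Ideal.mem_span_singleton.mp ha
      rw [map_mul, hroot, zero_mul])
  have hφ : ∀ g, φ (AdjoinRoot.mk π g) = aeval x.val g := fun g => rfl
  have hφx : φ (AdjoinRoot.mk π X) = x.val := by rw [hφ, aeval_X]
  have : Nonempty (Fin n) := ⟨⟨0, hn⟩⟩
  have hinj : Function.Injective φ := φ.toRingHom.injective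
  let ψ : (AdjoinRoot π)ˣ →* GL (Fin n) F := Units.map φ.toRingHom.toMonoidHom
  have hψ : Function.Injective ψ := Units.map_injective hinj
  have hrange : ψ.range = Subgroup.centralizer {x} := by
    ext g
    rw [Subgroup.mem_centralizer_singleton_iff]
    constructor
    · rintro ⟨k, rfl⟩
      apply Units.ext
      change φ k * x.val = x.val * φ k
      rw [← hφx, ← map_mul, mul_comm, map_mul]
    · intro hg
      obtain ⟨k, hk⟩ := exists_eq_of_commute hn ((H65.finrank_adjoinRoot π).trans hπdeg) φ g.val
        (fun k => by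
          obtain ⟨c, rfl⟩ := AdjoinRoot.mk_surjective k
          rw [hφ]
          have hc : Commute g.val x.val := congrArg Units.val hg
          induction c using Polynomial.induction_on' with
          | add a b ha hb => rw [map_add, mul_add, add_mul, ha, hb]
          | monomial j a =>
            rw [aeval_monomial]
            exact ((Algebra.commute_algebraMap_right a g.val).mul_right (hc.pow_right j)).eq)
      have hk0 : k ≠ 0 := by
        rintro rfl
        exact g.ne_zero (by rw [← hk, map_zero])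
      exact ⟨Units.mk0 k hk0, Units.ext hk⟩
  have hcard := H65.natCard_adjoinRoot π hπ.ne_zero
  have : Finite (AdjoinRoot π) := Nat.finite_of_card_ne_zero (by rw [hcard]; positivity)
  rw [← hrange]
  refine ⟨isCyclic_of_surjective ψ.rangeRestrict ψ.rangeRestrict_surjective, ?_⟩
  rw [← Nat.card_congr (MonoidHom.ofInjective hψ).toEquiv, Nat.card_units, hcard, hπdeg]
end Cfsg.Agent.S2638
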