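import Mathlib
import Cfsg.Statements.S2639
import Cfsg.Agent.Lib.Reg66.RestrScal
-- import your own Cfsg.Agent.* helpers here

set_option autoImplicit false
open Cfsg

namespace Cfsg.Agent.S2639

/-- The unitary group embeds in the symplectic group of twice the dimension over the subfield: for a field K with q² elements and a field F with q elements (isomorphic to the subfield of K of order q), there is an injective homomorphism GU_m(q) → Sp_2m(F). -/
theorem result {K F : Type*} [Field K] [Fintype K] [Field F] [Fintype F] {q : ℕ} (hK : Fintype.card K = q ^ 2) (hF : Fintype.card F = q) (m : ℕ) : ∃ φ : ↥(Cfsg.GU m K q) →* ↥(Matrix.symplecticGroup (Fin m) F), Function.Injective φ := by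
  have : H11.U.IsSq K q := ⟨hK⟩
  obtain ⟨ι, hι⟩ := H11.U.exists_embedding K q F hF
  letI : Algebra F K := ι.toAlgebra
  obtain ⟨R⟩ := H66.nonempty_retr (F := F) (K := K) (q := q) hι
  obtain ⟨d, Φ, -, hΦ⟩ := H66.exists_sp_coords hF R m
  exact ⟨_, H66.guToSp_injective R Φ hΦ⟩
end Cfsg.Agent.S2639
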