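import Mathlib
import Cfsg.Statements.S2641
import Cfsg.Agent.Lib.Reg66.RestrScal
import Cfsg.Agent.S0289
-- import your own Cfsg.Agent.* helpers here

set_option autoImplicit false
open Cfsg

namespace Cfsg.Agent.S2641

/-- For m odd, the unitary group GU_m(q) (over the field with q² elements) embeds in the orthogonal group O⁻_2m(q) of an elliptic form (Σ_(i<m−1) x_i y_i plus an anisotropic binary form) over the field with q elements (there is an injective homomorphism). -/
theorem result {K F : Type*} [Field K] [Fintype K] [Field F] [Fintype F] {q : ℕ} (hK : Fintype.card K = q ^ 2) (hF : Fintype.card F = q) (m : ℕ) (hm : Odd m) (a b : F) (hab : ∀ z₁ z₂ : F, z₁ ^ 2 + a * z₁ * z₂ + b * z₂ ^ 2 = 0 → z₁ = 0 ∧ z₂ = 0) : ∃ φ : ↥(Cfsg.GU m K q) →* ↥(Cfsg.isometryGroup F (Cfsg.quadFormMinus (m - 1) F a b)), Function.Injective φ := by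
  have : H11.U.IsSq K q := ⟨hK⟩
  obtain ⟨ι, hι⟩ := H11.U.exists_embedding K q F hF
  letI : Algebra F K := ι.toAlgebra
  obtain ⟨R⟩ := H66.nonempty_retr (F := F) (K := K) (q := q) hι
  obtain ⟨Q, hQ, hQ'⟩ := R.exists_quad m
  rcases H66.exists_equiv_plus_or_minus hQ (H66.finrank_res hK hF m) hab with
    ⟨Φ, hΦ⟩ | ⟨h1, Φ, hΦ⟩
  · exfalso
    have h := H66.card_zero_eq_card_isotropic hQ' Φ.toEquiv hΦ
    rw [Cfsg.Agent.S0289.result hF m hm.pos, H11.U.card_isotropic,
      if_neg (Nat.not_even_iff_odd.mpr hm)] at h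
    obtain ⟨k, rfl⟩ : ∃ k, m = k + 1 := ⟨m - 1, by have := hm.pos; omega⟩
    have hq := H11.U.two_le_q K q
    have h2 : 1 ≤ q ^ k := Nat.one_le_pow _ _ (by omega)
    rw [show 2 * (k + 1) - 1 = k + k + 1 by omega, Nat.add_sub_cancel, pow_succ, pow_succ,
      pow_add] at h
    generalize q ^ k = x at *
    have h4 : 2 * x ≤ x * q := by nlinarith
    zify [show x ≤ x * x * q + x * q by omega, h2] at h
    zify at h2 h4
    nlinarith
  · exact H66.exists_gu_hom_isometry hQ' Φ hΦ
end Cfsg.Agent.S2641
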