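import Mathlib
import Cfsg.Statements.S2642
import Cfsg.Agent.Lib.Reg66.Basic
import Cfsg.Agent.Lib.MatConj.SUSpec
import Cfsg.Agent.S2570
import Cfsg.Agent.S2587
-- import your own Cfsg.Agent.* helpers here

set_option autoImplicit false
open Cfsg

namespace Cfsg.Agent.S2642

/-- Number of conjugacy classes of elements of order p in the general unitary group GU_n(q), q a power of p: every unipotent Jordan type occurs and the classes correspond to the partitions of n with all parts at most p other than the all-ones partition, exactly as in GL_n; so there are (number of partitions of n with parts ≤ p) − 1 classes. -/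
theorem result {K : Type*} [Field K] [Fintype K] {p q n : ℕ} [Fact p.Prime] [CharP K p] (hK : Fintype.card K = q ^ 2) : Nat.card {C : ConjClasses ↥(Cfsg.GU n K q) // ∃ g : ↥(Cfsg.GU n K q), ConjClasses.mk g = C ∧ orderOf g = p} = (Finset.univ.filter (fun μ : Nat.Partition n => ∀ a ∈ μ.parts, a ≤ p)).card - 1 := by
  rw [← Cfsg.Agent.S2570.result (F := K) n]
  obtain ⟨σ, hσ, hσσ, hne⟩ := H66.exists_conjHom hK
  refine H66.card_classes_of_hom (Cfsg.GU n K q).subtype _ _
    (fun g g' _ _ h => (Cfsg.Agent.S2587.result hK g g').mpr h)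
    (fun g hg => (Subgroup.orderOf_coe g).trans hg) fun x hx => ?_
  have hpow : ((x : Matrix (Fin n) (Fin n) K) - 1) ^ p = 0 := by
    have := H65.pow_char_pow_eq_one_iff (F := K) p (x : Matrix (Fin n) (Fin n) K) 1
    rw [pow_one] at this
    rw [← this, ← Units.val_pow_eq_pow_val, ← hx, pow_orderOf_eq_one, Units.val_one]
  obtain ⟨t, d, -, h⟩ := H65.exists_nilModel ((H65.isNilpotent_toLin'_iff' _).mpr ⟨p, hpow⟩)
  have h1 := h.finrank_eq
  rw [H65.finrank_nilModel, Module.finrank_fin_fun] at h1
  obtain ⟨u, hu, hs⟩ := H65.exists_unitary_unipotent (n := Fin n) hσσ hne d (by simp [h1])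
  obtain ⟨g, rfl⟩ := H66.exists_GU_of_cstar_mul hσ u hu
  rw [H65.toLin'_sub_one] at h
  have hc : IsConj (g : GL (Fin n) K) x :=
    (H65.isConj_gl_iff_similar _ _).mpr (hs.trans h.symm).of_sub_one
  refine ⟨g, ?_, hc⟩
  obtain ⟨c, hc⟩ := hc
  rw [← Subgroup.orderOf_coe, ← hx]
  exact hc.orderOf_eq
end Cfsg.Agent.S2642
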