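import Mathlib
import Cfsg.Statements.S2643
import Cfsg.Agent.Lib.Reg66.Basic
import Cfsg.Agent.Lib.MatConj.SUSpec
import Cfsg.Agent.Lib.MatConj.Centralizer
import Cfsg.Agent.Lib.Unitary.Order
import Cfsg.Agent.S2587
-- import your own Cfsg.Agent.* helpers here

set_option autoImplicit false
open Cfsg

namespace Cfsg.Agent.S2643

open H65 H11.U


/-- Regular unipotent classes of SU_n(q), n ≥ 2: the elements u of the special unitary group (isometries of Σ u_i v_i^q of determinant one over the field with q² elements) with (u − 1)^n = 0 and rank(u − 1) = n − 1 form exactly gcd(n, q + 1) conjugacy classes of SU_n(q). -/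
theorem result {K : Type*} [Field K] [Fintype K] {q n : ℕ} (hK : Fintype.card K = q ^ 2) (hn : 2 ≤ n) : Nat.card {C : ConjClasses ↥(Cfsg.SU n K q) // ∃ u : ↥(Cfsg.SU n K q), ConjClasses.mk u = C ∧ (((u : GL (Fin n) K) : Matrix (Fin n) (Fin n) K) - 1) ^ n = 0 ∧ (((u : GL (Fin n) K) : Matrix (Fin n) (Fin n) K) - 1).rank = n - 1} = Nat.gcd n (q + 1) := by
  have : IsSq K q := ⟨hK⟩
  have : Nonempty (Fin n) := ⟨⟨0, by omega⟩⟩
  obtain ⟨u, hu, hs⟩ := exists_unitary_unipotent (n := Fin n) (σ := cj q) cj_cj (exists_cj_ne K q)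
    (fun _ : Unit => n) (by simp)
  have hGU : ∀ g : GL (Fin n) K, g ∈ Cfsg.GU n K q ↔ H66.cstar (cj q) g.val * g.val = 1 :=
    H66.mem_GU_iff fun _ => rfl
  have hnil := isNilpotent_of_similar_nilModel hs
  have hreg : ∀ v : Matrix (Fin n) (Fin n) K,
      Similar (Matrix.toLin' v - 1) (nilModel K fun _ : Unit => n) → (v - 1).rank = n - 1 := by
    intro v h3
    have h4 := rank_add_finrank_ker (v - 1)
    have h5 := finrank_ker_nilModel_pow (F := K) (fun _ : Unit => n) 1
    rw [pow_one, ← h3.finrank_ker] at h5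
    rw [toLin'_sub_one, Fintype.card_fin, h5, Finset.univ_unique, Finset.sum_singleton] at h4
    omega
  let x : Cfsg.SU n K q := ⟨⟨u, det_eq_one_of_unipotent hnil⟩,
    (H66.mem_SU_iff (σ := cj q) (fun _ => rfl) _).mpr hu⟩
  let φ : Cfsg.GU n K q →* rootsOfUnity (q + 1) K :=
    (Matrix.GeneralLinearGroup.det.comp (Cfsg.GU n K q).subtype).codRestrict _ fun g => by
      rw [mem_rootsOfUnity', ← mul_cj]
      exact IsIso.det_mul_cj (q := q) g.2
  have hφ : ∀ g, ((φ g : Kˣ) : K) = g.1.1.det := fun g => rfl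
  have hroot : ∀ a : rootsOfUnity (q + 1) K, ((a : Kˣ) : K) * cj q ((a : Kˣ) : K) = 1 :=
    fun a => by rw [mul_cj]; exact (mem_rootsOfUnity' _ _).mp a.2
  have hsurj : Function.Surjective φ := fun a => by
    obtain ⟨g, hg, -⟩ := exists_gu_det_eq (q := q) (w := Pi.single (⟨0, by omega⟩ : Fin n) 1)
      (by simp [form_single_single]) (hroot a)
    exact ⟨g, Subtype.ext (Units.ext hg)⟩
  have h := card_conjClasses_split (suToGU n K q) suToGU_injective φ hsurj (by
    ext g
    rw [mem_range_suToGU, MonoidHom.mem_ker, Subtype.ext_iff, Units.ext_iff, hφ]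
    rfl) x
  have h1 : (Subgroup.centralizer {suToGU n K q x}).map φ =
      (powMonoidHom n : rootsOfUnity (q + 1) K →* rootsOfUnity (q + 1) K).range := by
    ext c
    constructor
    · rintro ⟨g, hg, rfl⟩
      rw [SetLike.mem_coe, Subgroup.mem_centralizer_singleton_iff] at hg
      have hc : Commute g.1.1 u := congrArg (fun y : Cfsg.GU n K q => y.1.1) hg
      obtain ⟨a, ha⟩ := H66.exists_isNilpotent_of_commute_regular hnil
        (by rw [hreg u hs]; simp; omega) (hc.sub_right (Commute.one_right _))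
      have hg1 := (hGU _).mp g.2
      have hg2 := mul_eq_one_comm.mp hg1
      have ha' : IsNilpotent (H66.cstar (cj q) g.1.1 - cj q a • 1) := by
        obtain ⟨k, hk⟩ := ha
        refine ⟨k, ?_⟩
        rw [← H66.cstar_one (cj q), ← H66.cstar_smul, ← map_sub, ← cstar_pow, hk, map_zero]
      have hcomm : Commute g.1.1 (H66.cstar (cj q) g.1.1) := hg2.trans hg1.symm
      have hc1 : Commute (H66.cstar (cj q) g.1.1 - cj q a • 1) g.1.1 :=
        hcomm.symm.sub_left (H66.commute_smul_one _ _)
      have hn2 : IsNilpotent ((1 - a * cj q a) • (1 : Matrix (Fin n) (Fin n) K)) := by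
        have : (1 - a * cj q a) • (1 : Matrix (Fin n) (Fin n) K) =
            (H66.cstar (cj q) g.1.1 - cj q a • 1) * g.1.1 + cj q a • (g.1.1 - a • 1) := by
          rw [sub_mul, hg1, smul_sub, smul_mul_assoc, one_mul, smul_smul, sub_smul, one_smul,
            mul_comm a]
          abel
        rw [this]
        refine Commute.isNilpotent_add ?_ (hc1.isNilpotent_mul_right ha') (ha.smul _)
        exact ((hc1.sub_right (H66.commute_smul_one _ _).symm).mul_left
          ((Commute.refl _).sub_right (H66.commute_smul_one _ _).symm)).smul_right _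
      have ha1 : a * cj q a = 1 := (sub_eq_zero.mp (H66.eq_zero_of_isNilpotent_smul_one hn2)).symm
      refine ⟨⟨Units.mk0 a (left_ne_zero_of_mul_eq_one ha1), ?_⟩, Subtype.ext (Units.ext ?_)⟩
      · rw [mem_rootsOfUnity', ← mul_cj]; exact ha1
      · rw [hφ, H66.det_eq_pow_of_isNilpotent ha, Fintype.card_fin]; rfl
    · rintro ⟨a, rfl⟩
      refine ⟨toGU _ (isIso_smul_one (hroot a)), ?_, Subtype.ext (Units.ext ?_)⟩
      · rw [SetLike.mem_coe, Subgroup.mem_centralizer_singleton_iff]
        exact Subtype.ext (Units.ext (H66.commute_smul_one _ _).eq)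
      · rw [hφ, toGU_val]; simp
  have hcard : Nat.card (rootsOfUnity (q + 1) K) = q + 1 := by
    refine Eq.trans ?_ (card_norm_eq (F := K) (q := q) one_ne_zero (map_one _))
    exact Nat.card_congr
      { toFun := fun a => ⟨_, hroot a⟩
        invFun := fun a => ⟨Units.mk0 a.1 (left_ne_zero_of_mul_eq_one a.2), by
          rw [mem_rootsOfUnity', ← mul_cj]; exact a.2⟩
        left_inv := fun a => Subtype.ext (Units.ext rfl)
        right_inv := fun a => rfl }
  rw [h1, IsCyclic.index_powMonoidHom_range, hcard, Nat.gcd_comm] at h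
  rw [← h]
  refine Nat.card_congr (Equiv.subtypeEquivRight fun C => exists_congr fun v =>
    and_congr_right fun _ => ?_)
  rw [Cfsg.Agent.S2587.result hK, isConj_gl_iff]
  change (v.1.1 - 1) ^ n = 0 ∧ (v.1.1 - 1).rank = n - 1 ↔ IsConj u v.1.1
  constructor
  · rintro ⟨h2, h3⟩
    exact isConj_of_regular_unipotent hnil ⟨n, h2⟩ (by rw [hreg u hs]; simp; omega)
      (by rw [h3]; simp; omega)
  · intro h2
    have h3 := ((isConj_iff_similar _ _).mp h2).sub_one.symm.trans hs
    exact ⟨(sub_one_pow_eq_zero_iff_of_similar_nilModel h3 n).mpr fun _ => le_rfl, hreg _ h3⟩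
end Cfsg.Agent.S2643
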