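import Mathlib
import Cfsg.Statements.S2645
import Cfsg.Agent.Lib.Reg66.SSClass
import Cfsg.Agent.S2589
-- import your own Cfsg.Agent.* helpers here

set_option autoImplicit false
open Cfsg

namespace Cfsg.Agent.S2645

/-- Number of conjugacy classes of elements of odd prime order r, r different from the characteristic, in the symplectic group Sp_2m(q): let i be the multiplicative order of q modulo r and t = (r − 1)/i. If i is odd the eigenvalue orbits pair off (Λ ≠ Λ⁻¹) and the classes correspond to the non-zero (t/2)-tuples (a_j) with 2i Σ a_j ≤ 2m, giving C(⌊m/i⌋ + t/2, t/2) − 1 classes; if i is even (Λ = Λ⁻¹) they correspond to the non-zero t-tuples with i Σ a_j ≤ 2m, giving C(⌊2m/i⌋ + t, t) − 1 classes. -/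
theorem result {F : Type*} [Field F] [Fintype F] {p q : ℕ} [Fact p.Prime] [CharP F p] (hF : Fintype.card F = q) (m r i t : ℕ) (hr : r.Prime) (hr2 : r ≠ 2) (hrp : r ≠ p) (hi : i = orderOf (q : ZMod r)) (ht : t * i = r - 1) : Nat.card {C : ConjClasses ↥(Matrix.symplecticGroup (Fin m) F) // ∃ g : Matrix.symplecticGroup (Fin m) F, ConjClasses.mk g = C ∧ orderOf g = r} = if Odd i then Nat.choose (m / i + t / 2) (t / 2) - 1 else Nat.choose (2 * m / i + t) t - 1 := by
  classical
  subst hF
  have := Fact.mk hr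
  obtain ⟨hrF, u, hu⟩ := H66.exists_unit_card (F := F) hrp
  obtain ⟨χ, hχ⟩ := H66.exists_chi F r hrF
  obtain ⟨w, hw, hw'⟩ := H66.exists_unit_inv_iff hr2 u
  have hi' : orderOf u = i := by rw [hi, ← hu, orderOf_units]
  have hi0 : 0 < i := hi' ▸ orderOf_pos u
  rw [hi'] at hw
  rw [H65.card_classes_orderOf_prime hr, H66.card_classes_fm hχ hrF
    (Matrix.symplecticGroup (Fin m) F).subtype (fun g h hg hc =>
      (Cfsg.Agent.S2589.result (p := p) g h (Nat.Coprime.coprime_dvd_left
        (orderOf_dvd_of_pow_eq_one hg) ((Nat.coprime_primes hr Fact.out).mpr hrp))).mpr hc) _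
    (H66.exists_symplectic_fm_iff hχ hrF hr2 u hu m)]
  simp only [hw']
  split_ifs at hw ⊢ with h
  · rw [H66.card_invariant w hw (H66.half_mul_eq hr2 ht h), Nat.mul_div_mul_left _ _ two_pos]
  · rw [H66.card_invariant w hw ht]
end Cfsg.Agent.S2645
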