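import Mathlib
import Cfsg.Statements.S2646
import Cfsg.Agent.Lib.Reg66.GUCent
import Cfsg.Agent.S2581
-- import your own Cfsg.Agent.* helpers here

set_option autoImplicit false
open Cfsg

namespace Cfsg.Agent.S2646

/-- Order of the centraliser in the general unitary group GU_n(q) of a unipotent element of given Jordan type: if u ∈ GU_n(q) (isometries of Σ u_i v_i^q over the field with q² elements) is similar to the unipotent matrix with a_i Jordan blocks of size i (all sizes at least 1), then its centraliser in GU_n(q) has order q^γ · Π_i |GU_(a_i)(q)| with γ = 2 Σ_(i<j) i a_i a_j + Σ_i (i − 1) a_i², the same exponent as in GL_n(q), where |GU_a(q)| = q^(a(a−1)/2) Π_(k=1)^a (q^k − (−1)^k). -/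
theorem result {K : Type*} [Field K] [Fintype K] {q n t : ℕ} (hK : Fintype.card K = q ^ 2) (d : Fin t → ℕ) (hd : ∀ k, 1 ≤ d k) (e : ((k : Fin t) × Fin (d k)) ≃ Fin n) (u : ↥(Cfsg.GU n K q)) (hu : IsConj (Matrix.reindex e e (Cfsg.jordanTypeMatrix d K)) ((u : GL (Fin n) K) : Matrix (Fin n) (Fin n) K)) : (Nat.card ↥(Subgroup.centralizer ({u} : Set ↥(Cfsg.GU n K q))) : ℤ) = (q : ℤ) ^ (2 * (∑ i ∈ Finset.range (Finset.univ.sup d + 1), ∑ j ∈ Finset.range (Finset.univ.sup d + 1), if i < j then i * (Finset.univ.filter (fun k : Fin t => d k = i)).card * (Finset.univ.filter (fun k : Fin t => d k = j)).card else 0) + ∑ i ∈ Finset.range (Finset.univ.sup d + 1), (i - 1) * (Finset.univ.filter (fun k : Fin t => d k = i)).card ^ 2) * ∏ i ∈ Finset.range (Finset.univ.sup d + 1), ((q : ℤ) ^ ((Finset.univ.filter (fun k : Fin t => d k = i)).card * ((Finset.univ.filter (fun k : Fin t => d k = i)).card - 1) / 2) * ∏ j : Fin (Finset.univ.filter (fun k : Fin t => d k = i)).card, ((q : ℤ) ^ ((j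 : ℕ) + 1) - (-1) ^ ((j : ℕ) + 1))) := by
  have : H11.U.IsSq K q := ⟨hK⟩
  have hq := H11.U.two_le_q K q
  have hs : ∀ k, d k ∈ Finset.range (Finset.univ.sup d + 1) := fun k =>
    Finset.mem_range.mpr (Nat.lt_succ_of_le (Finset.le_sup (Finset.mem_univ k)))
  have hGU : ∀ g : GL (Fin n) K, g ∈ Cfsg.GU n K q ↔
      H66.cstar (H11.U.cj q) g.val * g.val = 1 := H66.mem_GU_iff fun _ => rfl
  have h := H66.card_gu_centralizer (q := q) u.1.1 ((hGU _).mp u.2)
    ((H65.isConj_jordanTypeMatrix_iff d e _).mp hu) hd _ hs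
  rw [Cfsg.Agent.S2581.sum_min_eq d _ hs, Cfsg.Agent.S2581.sum_min_split _
    (fun a => (Finset.univ.filter fun k => d k = a).card)
    (by simpa using fun k => (Nat.pos_iff_ne_zero.mp (hd k))), pow_add, mul_right_comm] at h
  have h1 : Nat.card (Subgroup.centralizer {u}) = Nat.card {g : Matrix (Fin n) (Fin n) K //
      Commute u.1.1 g ∧ H66.cstar (H11.U.cj q) g * g = 1} := by
    refine Nat.card_congr (Equiv.ofBijective (fun g => ⟨g.1.1.1, ?_, (hGU _).mp g.1.2⟩) ⟨?_, ?_⟩)
    · exact (congrArg (fun x : Cfsg.GU n K q => x.1.1)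
        (Subgroup.mem_centralizer_singleton_iff.mp g.2)).symm
    · exact fun a b h => Subtype.ext (Subtype.ext (Units.ext (congrArg Subtype.val h)))
    · rintro ⟨g, h1, h2⟩
      obtain ⟨g, rfl⟩ := H66.exists_GU_of_cstar_mul (σ := H11.U.cj q) (fun _ => rfl) g h2
      exact ⟨⟨g, Subgroup.mem_centralizer_singleton_iff.mpr (Subtype.ext (Units.ext h1.eq.symm))⟩,
        rfl⟩
  rw [h1, Nat.eq_of_mul_eq_mul_right (pow_pos (by omega) _) h]
  push_cast
  congr 1
  refine Finset.prod_congr rfl fun a _ => ?_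
  rw [H11.U.card_GU, Finset.prod_range]
  push_cast
  congr 1
  refine Finset.prod_congr rfl fun i _ => ?_
  split_ifs with h
  · rw [h.add_one.neg_one_pow]; ring
  · rw [(Nat.not_even_iff_odd.mp h).add_one.neg_one_pow, Nat.cast_sub (Nat.one_le_pow _ _ (by omega))]
    push_cast; ring
end Cfsg.Agent.S2646
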