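import Cfsg.Statements.S2653
import Cfsg.Agent.Lib.AltGL.Main

set_option autoImplicit false
open scoped MatrixGroups
open Cfsg

namespace Cfsg.Agent.S2653


/-- Alternating sections of finite linear groups. Let `F` be a finite field of characteristic `p` and `n` a natural number, and suppose some subgroup `H` of GL_n(F) has a normal subgroup `K` with `H ⧸ K` isomorphic to the alternating group of degree `r ≥ 9`. Then `n ≥ r - 2` when `p` divides `r`, and `n ≥ r - 1` otherwise (the smallest degree of a nontrivial projective representation of that alternating group in characteristic `p`). The same bound follows for every classical group with natural module of dimension `n` over `F`, since each is a section of a subgroup of GL_n(F). -/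
theorem result {F : Type*} [Field F] [Fintype F] (p : ℕ) [Fact p.Prime] [CharP F p]
    (n : ℕ) (r : ℕ) (H : Subgroup (GL (Fin n) F)) (K : Subgroup ↥H) [K.Normal]
    (h : Nonempty (↥H ⧸ K ≃* ↥(alternatingGroup (Fin r)))) (hr : 9 ≤ r) :
    r - 1 - (if p ∣ r then 1 else 0) ≤ n := by
  obtain ⟨e⟩ := h
  letI := ZMod.algebra F p
  let f : F →ₐ[ZMod p] AlgebraicClosure (ZMod p) := IsAlgClosed.lift
  let π : H →* Equiv.Perm (Fin r) :=
    (alternatingGroup (Fin r)).subtype.comp (e.toMonoidHom.comp (QuotientGroup.mk' K))
  have := H82.AG.bd_mat (π := π) p f.toRingHom (H82.AG.bd n)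
    (fun h => Equiv.Perm.mem_alternatingGroup.1 (e h).2) (fun σ hσ => by
      obtain ⟨x, hx⟩ := e.surjective ⟨σ, Equiv.Perm.mem_alternatingGroup.2 hσ⟩
      obtain ⟨h, rfl⟩ := QuotientGroup.mk_surjective x
      exact ⟨h, congrArg Subtype.val hx⟩) (by simpa using hr)
    ((Units.coeHom _).comp H.subtype) (fun h hh => by
      rw [show h = 1 from Subtype.ext (Units.ext hh), map_one])
  simpa using this

end Cfsg.Agent.S2653
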