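import Mathlib
import Cfsg.Statements.S2657
import Cfsg.Agent.Lib.AltSec.Chev
import Cfsg.Agent.Lib.AltSec.WF4

set_option autoImplicit false
open scoped MatrixGroups
open Cfsg

namespace Cfsg.Agent.S2657

/-- Alternating sections of the groups of type F₄. Let `F` be a finite field of characteristic `p` and let `G` be the Chevalley group of type F₄ over `F`. If some subgroup of `G` has a quotient isomorphic to the alternating group of degree `r`, then `r` is at most 10, or 11 in characteristic 11. (Only an upper bound is asserted.) -/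
theorem result {F : Type*} [Field F] [Fintype F] (p : ℕ) [Fact p.Prime] [CharP F p]
    (r : ℕ) (H : Subgroup ↥(Cfsg.Lie.chevF4.group F)) (K : Subgroup ↥H) [K.Normal]
    (h : Nonempty (↥H ⧸ K ≃* ↥(alternatingGroup (Fin r)))) :
    r ≤ 10 + (if p = 11 then 1 else 0) := by
  by_contra hr
  have h0 := H5.AltSec.of_quot H K h
  by_cases hp : p = 11
  · subst hp
    obtain ⟨K, _, _, R, E, -, hT, hi, Y, φ, hφ⟩ := H5.exists_split (D := Lie.chevF4) (by simp) 11
      (M := 35) (m := 12) (by decide) (by decide) (h0.mono (by simp at hr; omega))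
    rw [H39.cardWF4] at hi
    have h5 : Fact (Nat.Prime 5) := ⟨by decide⟩
    have h7 : Fact (Nat.Prime 7) := ⟨by decide⟩
    obtain ⟨w, hw, h⟩ := hT.double (s := 5) (t := 7)
      (fun h => absurd ((hi.dvd_iff (by decide)).1 h) (by decide))
      (fun h => absurd ((hi.dvd_iff (by decide)).1 h) (by decide))
      (by rw [H39.cardWF4]; decide) Y.subtype Y.subtype_injective (fun _ => Subgroup.mem_top _) φ
      (x := c[0, 1, 2, 3, 4]) (z := c[5, 6, 7, 8, 9, 10, 11])
      (y := c[1, 2, 4, 3] * c[6, 8, 7, 11, 9, 10])
      (by rw [hφ, Equiv.Perm.mem_alternatingGroup]; decide +kernel)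
      (by rw [hφ, Equiv.Perm.mem_alternatingGroup]; decide +kernel)
      (by rw [hφ, Equiv.Perm.mem_alternatingGroup]; decide +kernel)
      (orderOf_eq_prime (by decide +kernel) (by decide +kernel))
      (orderOf_eq_prime (by decide +kernel) (by decide +kernel)) (by decide +kernel)
      (a := 2) (b := 3) (by decide +kernel) (by decide +kernel)
    rcases H5.WF4.orders R hw with e | e | e
    · exact absurd ((h 8).1 e).2 (by decide +kernel)
    · exact absurd ((h 6).1 e).1 (by decide +kernel)
    · exact absurd ((h 6).2 e) (by decide +kernel)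
  · have : Fact (Nat.Prime 11) := ⟨by decide⟩
    obtain ⟨R, w, hw, h⟩ := H5.chev_single (D := Lie.chevF4) (by simp) p hp (m := 11)
      (fun R => by rw [H39.cardWF4]; decide) (h0.mono (by simp [hp] at hr; omega))
      (x := c[0, 1, 2, 3, 4, 5, 6, 7, 8, 9, 10]) (y := c[1, 3, 9, 5, 4] * c[2, 6, 7, 10, 8])
      (by decide +kernel) (by decide +kernel)
      (orderOf_eq_prime (by decide +kernel) (by decide +kernel)) (a := 3) (by decide +kernel)
    have h24 : w ^ 24 = 1 := by
      rcases H5.WF4.orders R hw with e | e | e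
      · rw [show 24 = 8 * 3 from rfl, pow_mul, e, one_pow]
      · rw [show 24 = 6 * 4 from rfl, pow_mul, e, one_pow]
      · have : (w ^ 6) ^ 2 = 1 := Equiv.ext fun r => by
          rw [pow_two, Equiv.Perm.mul_apply, e, e, R.neg_neg]; rfl
        rw [show 24 = 6 * 2 * 2 from rfl, pow_mul, pow_mul, this, one_pow]
    exact absurd (h 24 h24) (by decide +kernel)

end Cfsg.Agent.S2657
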