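import Mathlib
import Cfsg.Statements.S2658
import Cfsg.Agent.Lib.AltSec.Chev

set_option autoImplicit false
open scoped MatrixGroups
open Cfsg

namespace Cfsg.Agent.S2658

/-- Alternating sections of the groups of type G₂. Let `F` be a finite field of characteristic `p` and let `G` be the Chevalley group of type G₂ over `F`. If some subgroup of `G` has a quotient isomorphic to the alternating group of degree `r`, then `r` is at most 6, or 7 in characteristic 5. (Only an upper bound is asserted.) -/
theorem result {F : Type*} [Field F] [Fintype F] (p : ℕ) [Fact p.Prime] [CharP F p]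
    (r : ℕ) (H : Subgroup ↥(Cfsg.Lie.chevG2.group F)) (K : Subgroup ↥H) [K.Normal]
    (h : Nonempty (↥H ⧸ K ≃* ↥(alternatingGroup (Fin r)))) :
    r ≤ 6 + (if p = 5 then 1 else 0) := by
  by_contra hr
  have h0 := H5.AltSec.of_quot H K h
  by_cases hp : p = 5
  · subst hp
    obtain ⟨K, _, _, R, E, -, hT, hi, Y, φ, hφ⟩ := H5.exists_split (D := Lie.chevG2) (by simp) 5
      (M := 8) (m := 8) (by decide) (by decide) (h0.mono (by simp at hr; omega))
    rw [H39.cardWG2] at hi
    refine hT.not_alt_eight (fun h => absurd ((hi.dvd_iff dvd_rfl).1 h) (by decide))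
      (H39.cardWG2 R) (H38.Elts.tor hT.r3) (by rw [H38.Elts.tor_range]; exact inf_le_left)
      (H5.card_sq_le_four (Pi.evalMonoidHom _ (0 : Fin 2)) (Pi.evalMonoidHom _ (1 : Fin 2)) ?_)
      Y.subtype Y.subtype_injective (fun _ => Subgroup.mem_top _) φ hφ
    intro a h1 h2
    funext i
    fin_cases i
    exacts [h1, h2]
  · have : Fact (Nat.Prime 5) := ⟨by decide⟩
    obtain ⟨R, w, hw, h⟩ := H5.chev_single (D := Lie.chevG2) (by simp) p hp (m := 7)
      (fun R => by rw [H39.cardWG2]; decide) (h0.mono (by simp [hp] at hr; omega))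
      (x := c[0, 1, 2, 3, 4]) (y := c[1, 2, 4, 3] * c[5, 6]) (by decide) (by decide)
      (orderOf_eq_prime (by decide +kernel) (by decide)) (a := 2) (by decide +kernel)
    exact absurd (h 6 (congrArg Subtype.val
      (H5.pow_six_G2 (H39.weylCS R.toRS (H39.cartanForG2 R)) ⟨w, hw⟩))) (by decide +kernel)

end Cfsg.Agent.S2658
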