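import Mathlib
import Cfsg.Statements.S2659
import Cfsg.Agent.Lib.AltE6.Main

set_option autoImplicit false
open scoped MatrixGroups
open Cfsg

namespace Cfsg.Agent.S2659

theorem le_group (D : Lie.ChevalleyDatum) (F : Type*) [Field F] (S : Set (List (ℕ × F))) :
    D.genSubgroup F S ≤ D.group F := by
  refine (Subgroup.closure_le _).2 ?_
  rintro g ⟨l, -, hg⟩
  induction l generalizing g with
  | nil => exact (Units.ext hg : g = 1) ▸ one_mem _
  | cons a l ih =>
    have h1 : (g : Matrix D.Idx D.Idx F) = D.x F a.1 a.2 * D.wordMat F l := hg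
    obtain ⟨u, hu⟩ := isUnit_of_mul_isUnit_left (h1 ▸ g.isUnit)
    obtain ⟨v, hv⟩ := isUnit_of_mul_isUnit_right (h1 ▸ g.isUnit)
    rw [show g = u * v from Units.ext (by rw [h1, Units.val_mul, hu, hv])]
    refine mul_mem ?_ (ih hv)
    rw [Lie.ChevalleyDatum.x] at hu
    split_ifs at hu with h
    · exact Subgroup.subset_closure ⟨_, _, hu⟩
    · exact (Units.ext hu : u = 1) ▸ one_mem _


/-- Alternating sections of the twisted groups of type ²E₆. Let `q = p^a` be a prime power and `K` a field with `q²` elements, and let `G` be the twisted group ²E₆(q) realised over `K`. If some subgroup of `G` has a quotient isomorphic to the alternating group of degree `r`, then `r ≤ 12`, and `r ≤ 11` unless the characteristic is 2, 3 or 5. (Only an upper bound is asserted; characteristic 3 is admitted among the exceptions to match the statement for the untwisted groups of type E₆, so for these twisted groups the bound may be weaker than the truth.) -/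
theorem result {K : Type*} [Field K] [Fintype K] (p a : ℕ) [Fact p.Prime] [CharP K p]
    (ha : 1 ≤ a) (hK : Fintype.card K = (p ^ a) ^ 2) (r : ℕ) (H : Subgroup ↥(Cfsg.Lie.twistedE6 K (p ^ a))) (N : Subgroup ↥H) [N.Normal]
    (h : Nonempty (↥H ⧸ N ≃* ↥(alternatingGroup (Fin r)))) :
    r ≤ 11 + (if p = 2 ∨ p = 3 ∨ p = 5 then 1 else 0) := by
  exact H5.AE.alt_le p ((H5.AltSec.of_quot H N h).map (Subgroup.inclusion (le_group _ _ _))
    (Subgroup.inclusion_injective _))

end Cfsg.Agent.S2659
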