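import Mathlib
import Cfsg.Statements.S2660
import Cfsg.Agent.Lib.AltSec.Tw
import Cfsg.Agent.Lib.Twist.D4Mat
import Cfsg.Agent.S1092

set_option autoImplicit false
open scoped MatrixGroups
open Cfsg

namespace Cfsg.Agent.S2660

/-- Alternating sections of the triality-twisted groups ³D₄. Let `q = p^a` be a prime power and `K` a field with `q³` elements, and let `G` be the twisted group ³D₄(q) realised over `K`. If some subgroup of `G` has a quotient isomorphic to the alternating group of degree `r`, then `r` is at most 6, or 7 in characteristic 5. (Only an upper bound is asserted.) -/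
theorem result {K : Type*} [Field K] [Fintype K] (p a : ℕ) [Fact p.Prime] [CharP K p]
    (ha : 1 ≤ a) (hK : Fintype.card K = (p ^ a) ^ 3) (r : ℕ) (H : Subgroup ↥(Cfsg.Lie.twistedD4 K (p ^ a))) (N : Subgroup ↥H) [N.Normal]
    (h : Nonempty (↥H ⧸ N ≃* ↥(alternatingGroup (Fin r)))) :
    r ≤ 6 + (if p = 5 then 1 else 0) := by
  by_contra hr
  have h0 := H5.AltSec.of_quot H N h
  have hpp : p.Prime := Fact.out
  by_cases hp : p = 5
  · subst hp
    obtain ⟨Y, φ, hφ⟩ := h0.mono (m := 8) (by simp at hr; omega)
    obtain ⟨R, E, hE, T, hT, e⟩ := H39.exists_D4 (hpp.isPrimePow.pow (by omega)) hK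
    exact H5.not_alt_eight_D4 hT
      (by simpa using (show 5 ≡ 1 [MOD 4] by decide).pow a)
      (Cfsg.Agent.S1092.result (⟨2, CoxeterMatrix.G₂⟩, 12) (by simp))
      ((Subgroup.inclusion (H39.tw_le e)).comp Y.subtype)
      ((Subgroup.inclusion_injective (H39.tw_le e)).comp Y.subtype_injective)
      (fun y => (H39.mem_tw e).1 y.1.2) φ hφ
  · have h7 := h0.mono (m := 7) (by simp [hp] at hr; omega)
    have hq1 : IsPrimePow (p ^ a) := hpp.isPrimePow.pow (by omega)
    have hq5 : (p ^ a).Coprime 5 := ((Nat.coprime_primes hpp (by decide)).2 hp).pow_left a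
    clear h h0 hr
    generalize p ^ a = q at *
    obtain ⟨Y, φ, hφ⟩ := h7
    let L := FiniteField.Extension K p 4
    let : Fintype L := Fintype.ofFinite L
    have hL : Fintype.card L = (q ^ 4) ^ 3 := by
      rw [← Nat.card_eq_fintype_card, FiniteField.natCard_extension, Nat.card_eq_fintype_card, hK]
      ring
    obtain ⟨R, E, hE, T, hT, e⟩ := H39.exists_D4 (K := L)
      (hq1.pow (by omega)) hL
    let f : K →+* L := algebraMap K L
    have hf : ∀ g ∈ Lie.twistedD4 K q, Matrix.GeneralLinearGroup.map f g ∈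
        Lie.twistedD4 L (q ^ 4) := by
      have h3 : ∀ t : K, t ^ q ^ 3 = t := fun t => by rw [← hK, FiniteField.pow_card]
      have h4 : ∀ t : K, f t ^ q ^ 4 = f (t ^ q) := fun t => by
        rw [← map_pow, pow_succ, pow_mul, h3]
      have hw : ∀ w : List (ℕ × K), (Lie.chevD4.wordMat K w).map f =
          Lie.chevD4.wordMat L (w.map fun x => (x.1, f x.2)) := fun w => by
        induction w with
        | nil => simp [Lie.ChevalleyDatum.wordMat]
        | cons x w ih =>
          simp only [Lie.ChevalleyDatum.wordMat, List.map_cons, List.prod_cons] at ih ⊢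
          rw [Matrix.map_mul, ih, H37.tabD4.x_map]
      intro g hg
      change g ∈ (Lie.twistedD4 L (q ^ 4)).comap (Matrix.GeneralLinearGroup.map f)
      refine (Subgroup.closure_le _).2 ?_ hg
      rintro g ⟨w, hw', hg⟩
      refine Subgroup.subset_closure ⟨w.map fun x => (x.1, f x.2), ?_, ?_⟩
      · rcases hw' with ⟨t, ht, r, hr, rfl⟩ | ⟨t, rs, hr, rfl⟩
        · exact Or.inl ⟨f t, by rw [h4, ht], r, hr, rfl⟩
        · refine Or.inr ⟨f t, rs, hr, ?_⟩
          simp only [List.map_cons, List.map_nil]
          rw [h4, pow_two (q ^ 4), pow_mul (f t), h4, h4, ← pow_mul t, ← pow_two]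
      · rw [← hw, ← hg]; rfl
    let j0 : Lie.twistedD4 K q →* Lie.twistedD4 L (q ^ 4) :=
      ((Matrix.GeneralLinearGroup.map f).comp (Lie.twistedD4 K q).subtype).codRestrict _
        fun g => hf g g.2
    have hj0 : Function.Injective j0 := fun a b hab => by
      have h1 := congrArg (fun x : Lie.twistedD4 L (q ^ 4) => x.1.1) hab
      exact Subtype.ext (Units.ext (Matrix.map_injective f.injective h1))
    exact H5.not_alt_seven_D4 hT
      (Nat.ModEq.pow_totient (n := 5) hq5)
      ((Subgroup.inclusion (H39.tw_le e)).comp (j0.comp Y.subtype))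
      ((Subgroup.inclusion_injective (H39.tw_le e)).comp (hj0.comp Y.subtype_injective))
      (fun y => (H39.mem_tw e).1 (j0 y).2) φ hφ

end Cfsg.Agent.S2660
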