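import Mathlib
import Cfsg.Statements.S2669
import Cfsg.Agent.Lib.AutCl.Shintani
-- import your own Cfsg.Agent.* helpers here

set_option autoImplicit false
set_option linter.unusedVariables false
open Cfsg

namespace Cfsg.Agent.S2669

/-- fibre counting: a right `Y ⊓ K`-stable subset of `K` is a union of cosets -/
theorem card_eq {X : Type*} [Group X] (K Y : Subgroup X) (P : X → Prop)
    (hP : ∀ k y, P k → y ∈ Y → P (k * y)) :
    Nat.card {k : K // P k} =
      Nat.card {c : X ⧸ Y // ∃ k ∈ K, P k ∧ (k : X ⧸ Y) = c} * Nat.card ↥(Y ⊓ K) := by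
  classical
  rw [← Nat.card_prod]
  have ch : ∀ c : {c : X ⧸ Y // ∃ k ∈ K, P k ∧ (k : X ⧸ Y) = c}, ∃ k ∈ K, P k ∧ (k : X ⧸ Y) = c.1 :=
    fun c => c.2
  choose r hrK hrP hrc using ch
  symm
  refine Nat.card_eq_of_bijective
    (fun z => (⟨⟨r z.1 * (z.2 : X), K.mul_mem (hrK _) z.2.2.2⟩, hP _ _ (hrP _) z.2.2.1⟩ :
      {k : K // P k})) ⟨?_, ?_⟩
  · rintro ⟨c, y⟩ ⟨c', y'⟩ h
    have h1 : r c * (y : X) = r c' * (y' : X) := congrArg (fun z : {k : K // P k} => (z.1 : X)) h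
    have h2 : c = c' := by
      apply Subtype.ext
      rw [← hrc c, ← hrc c', ← QuotientGroup.mk_mul_of_mem (r c) y.2.1, h1,
        QuotientGroup.mk_mul_of_mem (r c') y'.2.1]
    subst h2
    have h3 : y = y' := Subtype.ext (mul_left_cancel h1)
    rw [h3]
  · rintro ⟨⟨k, hk⟩, hPk⟩
    let c : {c : X ⧸ Y // ∃ k ∈ K, P k ∧ (k : X ⧸ Y) = c} := ⟨(k : X ⧸ Y), k, hk, hPk, rfl⟩
    have h1 : (r c)⁻¹ * k ∈ Y := QuotientGroup.eq.mp (hrc c)
    refine ⟨⟨c, ⟨(r c)⁻¹ * k, h1, K.mul_mem (K.inv_mem (hrK c)) hk⟩⟩, ?_⟩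
    apply Subtype.ext; apply Subtype.ext
    simp


/-- Shintani descent preserves numbers of fixed points on coset spaces (abstract form). Let `σ` be an automorphism of a group `X` and `e ≥ 1`; write `G` for the fixed points of `σᵉ` and `H` for the fixed points of `σ`, and assume `G` is finite. Let `Y` be a `σ`-stable subgroup of `X` on which the maps `a ↦ a σ(a)⁻¹` and `a ↦ a σᵉ(a)⁻¹` are surjective (as for a closed connected `σ`-stable subgroup of an algebraic group). Let `g ∈ G`, let `a ∈ X` satisfy `g = a σ(a)⁻¹` and put `x = σᵉ(a)⁻¹ a` (the Shintani image, an element of `H`). The element `g σ` of the semidirect product acts on the cosets of `Y ∩ G` in `G` by `k (Y ∩ G) ↦ g σ(k) (Y ∩ G)`, fixing that coset exactly when `k⁻¹ g σ(k) ∈ Y`; and `x` fixes the coset `h (Y ∩ H)` of `H` exactly when `h⁻¹ x h ∈ Y`. Then the two numbers of fixed cosets agree; in cross-multiplied form, `#{k ∈ G : k⁻¹ g σ(k) ∈ Y} · |Y ∩ H| = #{h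 ∈ H : h⁻¹ x h ∈ Y} · |Y ∩ G|`. -/
theorem result {X : Type*} [Group X] (σ : MulAut X) (e : ℕ) (he : 1 ≤ e)
    [Finite ↥((MulEquiv.toMonoidHom (σ ^ e)).eqLocus (MonoidHom.id X))]
    (Y : Subgroup X) (hY : ∀ y : X, y ∈ Y ↔ σ y ∈ Y)
    (hYL : ∀ y ∈ Y, ∃ a ∈ Y, y = a * (σ a)⁻¹) (hYLe : ∀ y ∈ Y, ∃ a ∈ Y, y = a * ((σ ^ e) a)⁻¹)
    (g : X) (hg : g ∈ (MulEquiv.toMonoidHom (σ ^ e)).eqLocus (MonoidHom.id X)) (a : X) (ha : g = a * (σ a)⁻¹) :
    Nat.card {k : ↥((MulEquiv.toMonoidHom (σ ^ e)).eqLocus (MonoidHom.id X)) // (k : X)⁻¹ * g * σ k ∈ Y} *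
        Nat.card ↥(Y ⊓ (MulEquiv.toMonoidHom σ).eqLocus (MonoidHom.id X)) =
      Nat.card {h : ↥((MulEquiv.toMonoidHom σ).eqLocus (MonoidHom.id X)) // (h : X)⁻¹ * (((σ ^ e) a)⁻¹ * a) * h ∈ Y} *
        Nat.card ↥(Y ⊓ (MulEquiv.toMonoidHom (σ ^ e)).eqLocus (MonoidHom.id X)) := by
  open H67.Shintani in
  rw [mem_fix] at hg
  have hx := image_fixed σ e g a hg ha
  set x := ((σ ^ e) a)⁻¹ * a with hxdef
  have hYe : ∀ (n : ℕ) (y : X), y ∈ Y → (σ ^ n) y ∈ Y := by
    intro n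
    induction n with
    | zero => simp
    | succ n ih => intro y hy; rw [pow_succ_apply]; exact ih _ ((hY y).1 hy)
  rw [card_eq ((MulEquiv.toMonoidHom (σ ^ e)).eqLocus (MonoidHom.id X)) Y
      (fun k => k⁻¹ * g * σ k ∈ Y),
    card_eq ((MulEquiv.toMonoidHom σ).eqLocus (MonoidHom.id X)) Y
      (fun h => h⁻¹ * x * h ∈ Y)]
  · have key : Nat.card {c : X ⧸ Y // ∃ k ∈ (MulEquiv.toMonoidHom (σ ^ e)).eqLocus (MonoidHom.id X),
          k⁻¹ * g * σ k ∈ Y ∧ (k : X ⧸ Y) = c} =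
        Nat.card {c : X ⧸ Y // ∃ k ∈ (MulEquiv.toMonoidHom σ).eqLocus (MonoidHom.id X),
          k⁻¹ * x * k ∈ Y ∧ (k : X ⧸ Y) = c} := by
      symm
      refine Nat.card_congr (Equiv.subtypeEquiv (MulAction.toPerm a) ?_)
      intro c
      simp only [mem_fix, MulAction.toPerm_apply]
      have h2 : (σ ^ e) a = a * x⁻¹ := by rw [hxdef]; group
      constructor
      · rintro ⟨h, hh, hhY, rfl⟩
        have h1 : (a * h)⁻¹ * (σ ^ e) (a * h) ∈ Y := by
          rw [map_mul, pow_fixed σ h hh, h2]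
          have := Y.inv_mem hhY
          convert this using 1; group
        obtain ⟨y, hy, hyy⟩ := hYLe _ h1
        refine ⟨a * h * y, ?_, ?_, ?_⟩
        · rw [map_mul]
          calc (σ ^ e) (a * h) * (σ ^ e) y
              = (a * h) * ((a * h)⁻¹ * (σ ^ e) (a * h)) * (σ ^ e) y := by group
            _ = _ := by rw [hyy]; group
        · rw [map_mul, map_mul, hh, ha]
          have := Y.mul_mem (Y.inv_mem hy) ((hY y).1 hy)
          convert this using 1; group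
        · rw [QuotientGroup.mk_mul_of_mem _ hy]; rfl
      · rintro ⟨k, hk, hkY, hkc⟩
        have h1 : (a⁻¹ * k)⁻¹ * σ (a⁻¹ * k) ∈ Y := by
          rw [map_mul, map_inv]
          rw [ha] at hkY
          convert hkY using 1; group
        obtain ⟨y, hy, hyy⟩ := hYL _ h1
        have h3 : σ (a⁻¹ * k * y) = a⁻¹ * k * y := by
          rw [map_mul]
          calc σ (a⁻¹ * k) * σ y
              = (a⁻¹ * k) * ((a⁻¹ * k)⁻¹ * σ (a⁻¹ * k)) * σ y := by group
            _ = _ := by rw [hyy]; group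
        refine ⟨a⁻¹ * k * y, h3, ?_, ?_⟩
        · have h4 := pow_fixed σ _ h3 e
          rw [map_mul, map_mul, map_inv, hk, h2] at h4
          have h5 : (a⁻¹ * k * y)⁻¹ * x * (a⁻¹ * k * y) = ((σ ^ e) y)⁻¹ * y := by
            conv_lhs => rw [← h4]
            conv_lhs => rw [h4]
            calc (a⁻¹ * k * y)⁻¹ * x * (a⁻¹ * k * y)
                = ((a * x⁻¹)⁻¹ * k * (σ ^ e) y)⁻¹ * x * (a⁻¹ * k * y) := by rw [h4]
              _ = _ := by group
          rw [h5]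
          exact Y.mul_mem (Y.inv_mem (hYe e y hy)) hy
        · rw [QuotientGroup.mk_mul_of_mem _ hy]
          have : c = a⁻¹ • (a • c) := by simp
          rw [this, ← hkc]; rfl
    rw [key]; ring
  · intro k y hk hy
    have := Y.mul_mem (Y.mul_mem (Y.inv_mem hy) hk) hy
    convert this using 1; group
  · intro k y hk hy
    have := Y.mul_mem (Y.mul_mem (Y.inv_mem hy) hk) ((hY y).1 hy)
    rw [map_mul]
    convert this using 1; group

end Cfsg.Agent.S2669
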