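import Mathlib
import Cfsg.Statements.S2670
import Cfsg.Agent.Lib.Reg66.Proj
import Cfsg.Agent.Lib.MatConj.Invol
-- import your own Cfsg.Agent.* helpers here

set_option autoImplicit false
open Cfsg

namespace Cfsg.Agent.S2670

/-- Number of conjugacy classes of elements of prime order r in PGL_n(q) = GL_n(q)/scalars when r divides q − 1 (n ≥ 2): the classes of elements with a diagonalisable lift correspond to the orbits of the cyclic rotation on the r-tuples of eigenvalue multiplicities (a_0, …, a_(r−1)) summing to n with every a_j < n, and when r divides n there are r − 1 further classes (lifts acting irreducibly on blocks of size r); in all (C(n+r−1, r−1) − r − [r ∣ n])/r + r·[r ∣ n] classes. -/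
theorem result {F : Type*} [Field F] [Fintype F] {q : ℕ} (hF : Fintype.card F = q) {n r : ℕ} (hn : 2 ≤ n) (hr : r.Prime) (hrq : r ∣ q - 1) : Nat.card {C : ConjClasses (GL (Fin n) F ⧸ Subgroup.center (GL (Fin n) F)) // ∃ g : GL (Fin n) F ⧸ Subgroup.center (GL (Fin n) F), ConjClasses.mk g = C ∧ orderOf g = r} = (Nat.choose (n + r - 1) (r - 1) - r - (if r ∣ n then 1 else 0)) / r + r * (if r ∣ n then 1 else 0) := by
  have := Fact.mk hr
  subst hF
  have : Nonempty (Fin n) := ⟨⟨0, by omega⟩⟩
  obtain ⟨ζ, hζ⟩ := H66.exists_primitiveRoot_card F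
  have hN : 0 < Fintype.card F - 1 := Nat.sub_pos_of_lt Fintype.one_lt_card
  have : NeZero (Fintype.card F - 1) := ⟨hN.ne'⟩
  have hζ0 := hζ.ne_zero hN.ne'
  have h := H66.card_classes_proj (r := r) (Units.coeHom (Matrix (Fin n) (Fin n) F))
    Units.val_injective (fun g h => (H65.isConj_gl_iff g h).mpr)
    (z := Matrix.GeneralLinearGroup.scalar _ (Units.mk0 ζ hζ0)) hN hζ hrq
    (by simp [Matrix.smul_one_eq_diagonal]) (fun g => by
      rw [H65.mem_center_gl_iff]
      refine ⟨fun ⟨c, hc, h⟩ => ?_, fun ⟨i, h⟩ => ⟨_, pow_ne_zero i hζ0, h⟩⟩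
      obtain ⟨i, -, rfl⟩ := hζ.eq_pow_of_pow_eq_one (FiniteField.pow_card_sub_one_eq_one c hc)
      exact ⟨i, h⟩)
    (H66.dvd_of_pow_eq_pow hζ hrq (mul_one _).symm hr.not_dvd_one)
    (fun χ hχ _ m hm => by
      obtain ⟨A, hA, hc⟩ := H66.exists_matrix_fm (F := F) hχ 1 (by
        rw [← Nat.sub_add_cancel Fintype.card_pos, Nat.cast_add,
          (ZMod.natCast_eq_zero_iff _ _).mpr hrq]; simp) (m := m) (by simp) hm
      exact ⟨(IsUnit.of_pow_eq_one hA hr.ne_zero).unit, Units.ext hA, by simpa using hc⟩)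
    (fun hn j _ => by
      obtain ⟨A, hA⟩ := H66.exists_matrix_pow_eq_smul hn (ζ ^ j)
      have : IsUnit (A ^ r) := by
        rw [hA, ← Algebra.algebraMap_eq_smul_one]; exact (pow_ne_zero j hζ0).isUnit.map _
      exact ⟨((isUnit_pow_iff hr.ne_zero).mp this).unit, hA⟩)
  simpa only [Fintype.card_fin] using h
end Cfsg.Agent.S2670
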