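import Mathlib
import Cfsg.Statements.S2671
import Cfsg.Agent.Lib.Reg66.GUClass
-- import your own Cfsg.Agent.* helpers here

set_option autoImplicit false
open Cfsg

namespace Cfsg.Agent.S2671

/-- Number of conjugacy classes of elements of odd prime order r in the general unitary group GU_n(q), for r not dividing q(q + 1): let i be the multiplicative order of q modulo r, b = i if i is odd and b = i/2 if i is even, and s = (r − 1)/b. If i ≢ 2 (mod 4) the eigenvalue orbits pair off into dual pairs of totally isotropic blocks and there are C(⌊n/(2b)⌋ + s/2, s/2) − 1 classes; if i ≡ 2 (mod 4) each orbit gives a non-degenerate block of dimension i/2 and there are C(⌊2n/i⌋ + s, s) − 1 classes. -/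
theorem result {K : Type*} [Field K] [Fintype K] {p q n r i b s : ℕ} [Fact p.Prime] [CharP K p] (hK : Fintype.card K = q ^ 2) (hr : r.Prime) (hr2 : r ≠ 2) (hrp : r ≠ p) (hi : i = orderOf (q : ZMod r)) (hi2 : i ≠ 2) (hb : b = if Odd i then i else i / 2) (hs : s * b = r - 1) : Nat.card {C : ConjClasses ↥(Cfsg.GU n K q) // ∃ g : ↥(Cfsg.GU n K q), ConjClasses.mk g = C ∧ orderOf g = r} = if i % 4 = 2 then Nat.choose (2 * n / i + s) s - 1 else Nat.choose (n / (2 * b) + s / 2) (s / 2) - 1 := by
  have := Fact.mk hr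
  have : H11.U.IsSq K q := ⟨hK⟩
  obtain ⟨hrF, u2, hu2⟩ := H66.exists_unit_card (F := K) hrp
  have hq0 : (q : ZMod r) ≠ 0 := fun h => u2.ne_zero (by rw [hu2, hK]; simp [h])
  let u : (ZMod r)ˣ := Units.mk0 _ hq0
  obtain ⟨χ, hχ⟩ := H66.exists_chi K r hrF
  have hi' : orderOf u = i := by rw [hi, ← orderOf_units]; rfl
  have hi0 : 0 < i := hi' ▸ orderOf_pos u
  rw [H65.card_classes_orderOf_prime hr, H66.card_classes_GU hχ hrF u rfl]
  by_cases h : Odd i
  · rw [if_pos h] at hb
    subst hb
    rw [if_neg (by rw [Nat.odd_iff] at h; omega), H66.card_invariant (-u)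
      ((H66.orderOf_neg_of_odd hr2 (hi' ▸ h)).trans (by rw [hi'])) (H66.half_mul_eq hr2 hs h)]
  · rw [if_neg h] at hb
    have h1 : i = 2 * b := by rw [Nat.odd_iff] at h; omega
    have h2 := H66.orderOf_neg_of_even (hi'.trans h1)
    by_cases h3 : Odd b
    · rw [if_pos h3] at h2
      rw [if_pos (by rw [Nat.odd_iff] at h3; omega), H66.card_invariant (-u) h2 hs, h1,
        Nat.mul_div_mul_left _ _ two_pos]
    · rw [if_neg h3] at h2
      obtain ⟨c, hc⟩ : 2 * b ∣ r - 1 := by
        rw [← h2, ← ZMod.card_units r]; exact orderOf_dvd_card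
      have h4 : s = 2 * c := Nat.eq_of_mul_eq_mul_right (m := b) (by omega) (by rw [hs, hc]; ring)
      rw [if_neg (by rw [Nat.odd_iff] at h3; omega), H66.card_invariant (-u) h2 (t := s / 2)
        (by rw [hc, h4, Nat.mul_div_cancel_left _ two_pos, mul_comm])]
end Cfsg.Agent.S2671
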