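import Mathlib
import Cfsg.Statements.S2672
import Cfsg.Agent.Lib.Reg66.Proj
import Cfsg.Agent.Lib.Reg66.GUClass
-- import your own Cfsg.Agent.* helpers here

set_option autoImplicit false
open Cfsg

namespace Cfsg.Agent.S2672

/-- Number of conjugacy classes of elements of odd prime order r in PGU_n(q) = GU_n(q)/scalars (n ≥ 3) when r divides q + 1: as in the linear case with q − 1 replaced by q + 1, the classes correspond to the rotation orbits on r-tuples of eigenvalue multiplicities summing to n with every entry < n, plus r − 1 further classes when r divides n; in all (C(n+r−1, r−1) − r − [r ∣ n])/r + r·[r ∣ n]. -/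
theorem result {K : Type*} [Field K] [Fintype K] {q n r : ℕ} (hK : Fintype.card K = q ^ 2) (hn : 3 ≤ n) (hr : r.Prime) (hr2 : r ≠ 2) (hrq : r ∣ q + 1) : Nat.card {C : ConjClasses (↥(Cfsg.GU n K q) ⧸ Subgroup.center ↥(Cfsg.GU n K q)) // ∃ g : ↥(Cfsg.GU n K q) ⧸ Subgroup.center ↥(Cfsg.GU n K q), ConjClasses.mk g = C ∧ orderOf g = r} = (Nat.choose (n + r - 1) (r - 1) - r - (if r ∣ n then 1 else 0)) / r + r * (if r ∣ n then 1 else 0) := by
  have := Fact.mk hr
  have : H11.U.IsSq K q := ⟨hK⟩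
  have hq := H11.U.two_le_q K q
  have : Nonempty (Fin n) := ⟨⟨0, by omega⟩⟩
  obtain ⟨ζ₀, hζ₀⟩ := H66.exists_primitiveRoot_card K
  have hc : Fintype.card K - 1 = (q + 1) * (q - 1) := by rw [hK, ← Nat.sq_sub_sq]
  have hζ := hζ₀.pow (Nat.sub_pos_of_lt Fintype.one_lt_card) (hc.trans (mul_comm _ _))
  generalize ζ₀ ^ (q - 1) = ζ at hζ
  have hζ0 := hζ.ne_zero q.succ_ne_zero
  have hrt : ¬ r ∣ q - 1 := fun h => hr2 ((Nat.prime_dvd_prime_iff_eq hr Nat.prime_two).mp (by
    have := Nat.dvd_sub hrq h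
    rwa [show q + 1 - (q - 1) = 2 by omega] at this))
  have hirr := H66.dvd_of_pow_eq_pow hζ hrq hc hrt
  have h := H66.card_classes_proj (r := r) ((Units.coeHom _).comp (Cfsg.GU n K q).subtype)
    (Units.val_injective.comp Subtype.val_injective)
    (fun g h hc => (Cfsg.Agent.S2587.result hK g h).mpr ((H65.isConj_gl_iff _ _).mpr hc))
    (z := H11.U.toGU _ (H11.U.isIso_smul_one (by rw [H11.U.mul_cj, hζ.pow_eq_one])))
    q.succ_pos hζ hrq rfl (fun g => by
      rw [H11.U.mem_center_GU_iff (by omega)]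
      refine ⟨fun ⟨c, h⟩ => ?_, fun ⟨i, h⟩ => ⟨_, h⟩⟩
      have h1 := g.2 (Pi.single (Classical.arbitrary _) 1) (Pi.single (Classical.arbitrary _) 1)
      change Cfsg.hermForm n K q (g.1.1.mulVec _) (g.1.1.mulVec _) = Cfsg.hermForm n K q _ _ at h1
      rw [h, Matrix.smul_mulVec, Matrix.one_mulVec, H11.U.form_smul_left, H11.U.form_smul_right,
        H11.U.form_single_single, if_pos rfl, mul_one, H11.U.mul_cj] at h1
      obtain ⟨i, -, rfl⟩ := hζ.eq_pow_of_pow_eq_one h1
      exact ⟨i, h⟩) hirr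
    (fun χ hχ hr0 m hm => by
      obtain ⟨g, hg, hc⟩ := (H66.exists_GU_fm_iff (K := K) (q := q) hχ hr0 (-1) (by
        rw [Units.val_neg, Units.val_one, neg_eq_iff_add_eq_zero, add_comm, ← Nat.cast_succ,
          ZMod.natCast_eq_zero_iff]; exact hrq) n m).mp ⟨by simp, by simpa using hm⟩
      exact ⟨g, hg, by simpa using hc⟩)
    (fun hn j hj => by
      obtain ⟨A, hA⟩ := H66.exists_matrix_pow_eq_smul hn (ζ ^ j)
      have : IsUnit (A ^ r) := by
        rw [hA, ← Algebra.algebraMap_eq_smul_one]; exact (pow_ne_zero j hζ0).isUnit.map _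
      have hA' := (isUnit_pow_iff hr.ne_zero).mp this
      obtain ⟨B, hB⟩ := (Cfsg.Agent.S2588.result hK hA'.unit).mpr
        (H66.isConj_of_pow_eq_smul (fun b hb => hj (hirr j b hb)) hA (by
          change ((A.map (H11.U.cj q)).transpose)⁻¹ ^ r = _
          rw [Matrix.inv_pow', ← Matrix.transpose_pow, ← Matrix.map_pow, hA]
          refine Matrix.inv_eq_left_inv ?_
          rw [Matrix.map_smul' _ _ _ (map_mul _), Matrix.map_one _ (map_zero _) (map_one _),
            Matrix.transpose_smul, Matrix.transpose_one, smul_mul_smul_comm, mul_one, H11.U.mul_cj,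
            ← pow_mul, mul_comm, pow_mul, hζ.pow_eq_one, one_pow, one_smul]))
      obtain ⟨u, hu⟩ := ((H65.isConj_gl_iff _ _).mp hB).pow r
      rw [IsUnit.unit_spec, hA] at hu
      exact ⟨B, u.isUnit.mul_right_cancel (hu.eq.symm.trans (by simp))⟩)
  simpa only [Fintype.card_fin] using h
end Cfsg.Agent.S2672
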