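import Mathlib
import Cfsg.Statements.S2673
import Cfsg.Agent.Lib.Reg66.SSClass
import Cfsg.Agent.Lib.Reg66.Symp
-- import your own Cfsg.Agent.* helpers here

set_option autoImplicit false
open Cfsg

namespace Cfsg.Agent.S2673

/-- Number of conjugacy classes of elements of odd prime order r ≠ p in the orthogonal group O_(2m+1)(q) of x_0² + Σ x_j y_j, q odd: with i the multiplicative order of q mod r and t = (r − 1)/i, there are C(⌊m/i⌋ + t/2, t/2) − 1 classes if i is odd (dual pairs of totally singular i-blocks) and C(⌊(2m+1)/i⌋ + t, t) − 1 if i is even (elliptic i-blocks). -/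
theorem result {F : Type*} [Field F] [Fintype F] {p q : ℕ} [Fact p.Prime] [CharP F p] (hF : Fintype.card F = q) (hq : Odd q) (m r i t : ℕ) (hr : r.Prime) (hr2 : r ≠ 2) (hrp : r ≠ p) (hi : i = orderOf (q : ZMod r)) (ht : t * i = r - 1) : Nat.card {C : ConjClasses ↥(Cfsg.isometryGroup F (Cfsg.quadFormOdd m F)) // ∃ g : ↥(Cfsg.isometryGroup F (Cfsg.quadFormOdd m F)), ConjClasses.mk g = C ∧ orderOf g = r} = if Odd i then Nat.choose (m / i + t / 2) (t / 2) - 1 else Nat.choose ((2 * m + 1) / i + t) t - 1 := by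
  classical
  subst hF
  have := Fact.mk hr
  obtain ⟨hrF, u, hu⟩ := H66.exists_unit_card (F := F) hrp
  obtain ⟨χ, hχ⟩ := H66.exists_chi F r hrF
  obtain ⟨w, hw, hw'⟩ := H66.exists_unit_inv_iff hr2 u
  have hi' : orderOf u = i := by rw [hi, ← hu, orderOf_units]
  have hi0 : 0 < i := hi' ▸ orderOf_pos u
  rw [hi'] at hw
  have h2 := H66.two_ne_zero_of_odd_card hq
  rw [H65.card_classes_orderOf_prime hr, ← H66.coe_qOdd, H66.card_classes_orth hχ hrF hr2
    (H66.qOdd_nd m h2 one_ne_zero) _ (H66.exists_orth_odd_fm_iff h2 hχ hrF hr2 u hu m)]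
  simp only [hw']
  split_ifs at hw ⊢ with h
  · rw [H66.card_invariant w hw (H66.half_mul_eq hr2 ht h), ← Nat.div_div_eq_div_mul,
      show (2 * m + 1) / 2 = m by omega]
  · rw [H66.card_invariant w hw ht]
end Cfsg.Agent.S2673
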