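import Mathlib
import Cfsg.Statements.S2675
import Cfsg.Agent.Lib.Reg66.SSClass
-- import your own Cfsg.Agent.* helpers here

set_option autoImplicit false
open Cfsg

namespace Cfsg.Agent.S2675

/-- Number of conjugacy classes of elements of odd prime order r ≠ p in the orthogonal group O⁻_2m(q) of an elliptic form Σ_(j<m−1) x_j y_j + z₁² + a z₁z₂ + c z₂² (binary part anisotropic, m ≥ 1): with i the multiplicative order of q mod r and t = (r − 1)/i — if i is odd, C(⌊m/i⌋ + t/2, t/2) − 1 minus, when i divides m, the C(m/i + t/2 − 1, t/2 − 1) tuples filling the whole space (dual pairs of totally singular blocks fill a hyperbolic space); if i is even, C(⌊2m/i⌋ + t, t) − 1 minus, when i divides 2m with even quotient, the C(2m/i + t − 1, t − 1) tuples filling the whole space with an even number of elliptic blocks. -/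
theorem result {F : Type*} [Field F] [Fintype F] {p q : ℕ} [Fact p.Prime] [CharP F p] (hF : Fintype.card F = q) (m r i t : ℕ) (hm : 1 ≤ m) (a c : F) (hac : ∀ z₁ z₂ : F, z₁ ^ 2 + a * z₁ * z₂ + c * z₂ ^ 2 = 0 → z₁ = 0 ∧ z₂ = 0) (hr : r.Prime) (hr2 : r ≠ 2) (hrp : r ≠ p) (hi : i = orderOf (q : ZMod r)) (ht : t * i = r - 1) : Nat.card {C : ConjClasses ↥(Cfsg.isometryGroup F (Cfsg.quadFormMinus (m - 1) F a c)) // ∃ g : ↥(Cfsg.isometryGroup F (Cfsg.quadFormMinus (m - 1) F a c)), ConjClasses.mk g = C ∧ orderOf g = r} = if Odd i then Nat.choose (m / i + t / 2) (t / 2) - 1 - (if i ∣ m then Nat.choose (m / i + t / 2 - 1) (t / 2 - 1) else 0) else Nat.choose (2 * m / i + t) t - 1 - (if i ∣ 2 * m ∧ Even (2 * m / i) then Nat.choose (2 * m / i + t - 1) (t - 1) else 0) := by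
  classical
  subst hF
  have := Fact.mk hr
  obtain ⟨hrF, u, hu⟩ := H66.exists_unit_card (F := F) hrp
  obtain ⟨χ, hχ⟩ := H66.exists_chi F r hrF
  obtain ⟨w, hw, hw'⟩ := H66.exists_unit_inv_iff hr2 u
  have hi' : orderOf u = i := by rw [hi, ← hu, orderOf_units]
  have hi0 : 0 < i := hi' ▸ orderOf_pos u
  rw [hi'] at hw
  have hnd := H66.qMinus_nd (m - 1) (H66.Aniso.disc_ne_zero hac)
  rw [H65.card_classes_orderOf_prime hr, ← H66.coe_qMinus, H66.card_classes_orth hχ hrF hr2
    hnd _ (H66.exists_orth_even_fm_iff hχ hrF hr2 u hu hnd (by simp; omega) hm)]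
  simp only [hw', H66.not_isPlusType_qMinus _ hac, false_iff, ← orderOf_dvd_iff_pow_eq_one, hi']
  have := H66.finite_sum_eq (fun m : ZMod r → ℕ => ∀ a, m (w * a) = m a) (2 * m)
  rw [H66.card_and_imp]
  by_cases h : Odd i
  · rw [if_pos h] at hw ⊢
    rw [H66.card_invariant w hw (H66.half_mul_eq hr2 ht h), Nat.mul_div_mul_left _ _ two_pos,
      H66.card_invariant_zero w hw (H66.half_mul_eq hr2 ht h), Nat.sub_right_comm,
      Nat.mul_div_mul_left _ _ two_pos]
    by_cases h1 : i ∣ m <;> simp [Nat.mul_dvd_mul_iff_left two_pos, h1]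
  · rw [if_neg h] at hw ⊢
    rw [H66.card_invariant w hw ht, H66.card_invariant_zero w hw ht, Nat.sub_right_comm]
    congr 1
    by_cases h1 : i ∣ 2 * m
    · obtain ⟨k, hk⟩ := h1
      have h3 : i ∣ m ↔ Even k := by
        constructor
        · rintro ⟨l, rfl⟩
          exact ⟨l, Nat.eq_of_mul_eq_mul_left hi0 (by linear_combination -hk)⟩
        · rintro ⟨l, rfl⟩
          exact ⟨l, by linarith⟩
      rcases Nat.even_or_odd k with h4 | h4 <;>
        simp [hk, h3, Nat.mul_div_cancel_left _ hi0, h4, ← Nat.not_even_iff_odd]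
      all_goals simp [Nat.not_even_iff_odd.mpr h4]
    · simp [h1]
end Cfsg.Agent.S2675
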