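import Mathlib
import Cfsg.Statements.S2677
import Cfsg.Agent.Lib.AutCl.ClSU
-- import your own Cfsg.Agent.* helpers here

set_option autoImplicit false
set_option linter.unusedVariables false
open Cfsg

namespace Cfsg.Agent.S2677

/-- Centraliser of a field automorphism of odd prime order in PGU_n(q): let q = q₀^r with r an odd prime, K the field with q² elements and σ a field automorphism of K of order r (fixed field of order q₀²). The elements g of GU_n(q) whose entrywise image under σ is a scalar multiple of g — those whose coset modulo the q + 1 unitary scalars is fixed by σ — number (q + 1)/(q₀ + 1) · |GU_n(q₀)|; equivalently the centraliser in PGU_n(q) of the induced automorphism has the order of PGU_n(q₀). -/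
theorem result {K : Type*} [Field K] [Fintype K] {q₀ q r n : ℕ} (hr : r.Prime) (hr2 : r ≠ 2) (hn : 1 ≤ n) (hq : q = q₀ ^ r) (hK : Fintype.card K = q ^ 2) (σ : K ≃+* K) (hσ : orderOf σ = r) : (Nat.card {g : ↥(Cfsg.GU n K q) // ∃ c : K, c ≠ 0 ∧ ((g : GL (Fin n) K) : Matrix (Fin n) (Fin n) K).map σ = c • ((g : GL (Fin n) K) : Matrix (Fin n) (Fin n) K)} : ℤ) = ((q + 1) / (q₀ + 1) : ℕ) * ((q₀ : ℤ) ^ (n * (n - 1) / 2) * ∏ i : Fin n, ((q₀ : ℤ) ^ ((i : ℕ) + 1) - (-1) ^ ((i : ℕ) + 1))) := by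
  have : H11.U.IsSq K q := ⟨hK⟩
  have ho : Odd r := hr.odd_of_ne_two hr2
  obtain ⟨q₁, h1, h2⟩ := H67.exists_sub_sq (q := q) (α := σ) (hσ ▸ ho)
  rw [hσ, hq] at h2
  obtain rfl : q₀ = q₁ := Nat.pow_left_injective hr.ne_zero h2
  let := Fintype.ofFinite (H67.fixF σ)
  have : H11.U.IsSq (H67.fixF σ) q₀ := ⟨by rw [← h1, Nat.card_eq_fintype_card]⟩
  have he : ∀ x, x ∈ (H67.fixF σ).subtype.range ↔ σ x = x := fun x => by simp [H67.mem_fixF]
  have hc := H67.cj_emb ho hq (H67.fixF σ).subtype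
  set M := (H67.guMap n hc).range
  set Z := (Subgroup.center (GL (Fin n) K)).subgroupOf (GU n K q)
  have h3 : ∀ g : GU n K q, (∃ c : K, c ≠ 0 ∧ g.1.val.map σ = c • g.1.val) ↔ g ∈ Z ⊔ M := by
    intro g
    rw [← SetLike.mem_coe, Subgroup.normal_mul]
    constructor
    · rintro ⟨c, hc0, h⟩
      obtain ⟨g₀, hg₀, z, hz, h4⟩ := H67.gu_fixed_mod hn he hc g (by
        have : H67.glField (Fin n) σ g =
            Matrix.GeneralLinearGroup.scalar _ (Units.mk0 c hc0) * g.1 :=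
          Units.ext (by rw [H67.scalar_mul_coe]; exact h)
        rw [this, mul_inv_cancel_right]
        exact H67.scalar_mem_center _)
      refine ⟨g * g₀⁻¹, ?_, g₀, hg₀, by simp⟩
      change (g : GL (Fin n) K) * (g₀ : GL (Fin n) K)⁻¹ ∈ Subgroup.center _
      rw [h4, mul_inv_rev, mul_inv_cancel_left]
      exact inv_mem hz
    · rintro ⟨⟨z, hz'⟩, hz, _, ⟨g₀, rfl⟩, rfl⟩
      replace hz : z ∈ Subgroup.center (GL (Fin n) K) := hz
      rw [Matrix.GeneralLinearGroup.center_eq_range_scalar] at hz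
      obtain ⟨c, rfl⟩ := hz
      have h5 := congrArg Units.val ((H67.mem_range_glMap he).1 ⟨(g₀ : GL (Fin n) _), rfl⟩)
      refine ⟨σ c / c, by simp, ?_⟩
      change (Matrix.GeneralLinearGroup.scalar _ c * Matrix.GeneralLinearGroup.map _ g₀.1).val.map σ =
        _ • (Matrix.GeneralLinearGroup.scalar _ c * Matrix.GeneralLinearGroup.map _ g₀.1).val
      rw [H67.scalar_mul_coe, smul_smul, div_mul_cancel₀ _ c.ne_zero]
      conv_rhs => rw [← h5]
      ext; simp
  have hinj : Function.Injective (H67.guMap n hc) := fun a b h =>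
    Subtype.ext (H67.glMap_injective _ (congrArg Subtype.val h))
  have h4 : Nat.card ↥(Z ⊓ M) = q₀ + 1 := by
    rw [← H67.card_center_subgroupOf_GU (F := H67.fixF σ) hn, ← Subgroup.card_map_of_injective hinj]
    congr 2
    ext g
    constructor
    · rintro ⟨hz, g₀, rfl⟩
      exact ⟨g₀, (H67.glMap_mem_center _).1 hz, rfl⟩
    · rintro ⟨g₀, hz, rfl⟩
      exact ⟨(H67.glMap_mem_center _).2 hz, g₀, rfl⟩
  have h5 : Nat.card ↥(Z ⊔ M) * (q₀ + 1) = (q + 1) * Nat.card (GU n (H67.fixF σ) q₀) := by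
    rw [H67.card_eq_relIndex_mul (le_sup_left : Z ≤ Z ⊔ M), Subgroup.relIndex_sup_left,
      H67.card_center_subgroupOf_GU hn, Nat.card_congr (MonoidHom.ofInjective hinj).toEquiv,
      H67.card_eq_relIndex_mul (inf_le_right : Z ⊓ M ≤ M), h4, Subgroup.inf_relIndex_right]
    ring
  obtain ⟨k, hk⟩ : q₀ + 1 ∣ q + 1 := by simpa [hq] using ho.nat_add_dvd_pow_add_pow q₀ 1
  rw [Nat.card_congr (Equiv.subtypeEquivRight h3), hk, Nat.mul_div_cancel_left _ (by omega)]
  rw [hk, mul_comm, mul_assoc] at h5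
  rw [Nat.eq_of_mul_eq_mul_left (by omega) h5, H11.U.card_GU, Nat.cast_mul, Nat.cast_mul,
    Nat.cast_prod, ← Fin.prod_univ_eq_prod_range fun i =>
      (((if Even i then q₀ ^ (i + 1) + 1 else q₀ ^ (i + 1) - 1 : ℕ)) : ℤ)]
  rw [Nat.cast_pow]
  congr 2
  refine Finset.prod_congr rfl fun i _ => ?_
  have h0 : 1 ≤ q₀ ^ ((i : ℕ) + 1) :=
    Nat.one_le_pow _ _ (by have := H11.U.two_le_q (H67.fixF σ) q₀; omega)
  split_ifs with h
  · rw [h.add_one.neg_one_pow]; simp
  · rw [(Nat.not_even_iff_odd.1 h).add_one.neg_one_pow, Nat.cast_sub h0]; simp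

end Cfsg.Agent.S2677
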