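import Mathlib
import Cfsg.Statements.S2678
import Cfsg.Agent.Lib.Reg66.RestrScal
-- import your own Cfsg.Agent.* helpers here

set_option autoImplicit false
open Cfsg

namespace Cfsg.Agent.S2678

/-- Field-extension embedding of symplectic groups: for a field K with q² elements and a field F with q elements there is an injective homomorphism Sp_2a(K) → Sp_4a(F). -/
theorem result {K F : Type*} [Field K] [Fintype K] [Field F] [Fintype F] {q : ℕ} (hK : Fintype.card K = q ^ 2) (hF : Fintype.card F = q) (a : ℕ) : ∃ φ : ↥(Matrix.symplecticGroup (Fin a) K) →* ↥(Matrix.symplecticGroup (Fin (2 * a)) F), Function.Injective φ := by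
  have : H11.U.IsSq K q := ⟨hK⟩
  obtain ⟨ι, hι⟩ := H11.U.exists_embedding K q F hF
  letI : Algebra F K := ι.toAlgebra
  obtain ⟨μ, hμ⟩ := (Algebra.linearMap F K).exists_leftInverse_of_injective
    (LinearMap.ker_eq_bot.mpr (algebraMap F K).injective)
  have hμ1 : μ 1 = 1 := by simpa using LinearMap.congr_fun hμ 1
  let B : LinearMap.BilinForm F (Fin a ⊕ Fin a → K) :=
    LinearMap.mk₂ F (fun u v => μ (H66.sympBilin a K u v))
      (fun u u' v => by rw [map_add, LinearMap.add_apply, map_add])
      (fun c u v => by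
        rw [← algebraMap_smul K c u, map_smul, LinearMap.smul_apply, algebraMap_smul, map_smul])
      (fun u v v' => by rw [map_add, map_add])
      (fun c u v => by rw [← algebraMap_smul K c v, map_smul, algebraMap_smul, map_smul])
  have hB : ∀ u v, B u v = μ (H66.sympBilin a K u v) := fun _ _ => rfl
  have hA : B.IsAlt := fun u => by rw [hB, H66.sympBilin_isAlt, map_zero]
  have hN : B.Nondegenerate := by
    refine (LinearMap.IsRefl.nondegenerate_iff_separatingLeft hA.isRefl).mpr fun u hu => ?_
    refine (H66.sympBilin_nondegenerate (F := K) a).1 u fun v => ?_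
    by_contra h
    have := hu ((H66.sympBilin a K u v)⁻¹ • v)
    rw [hB, map_smul, smul_eq_mul, inv_mul_cancel₀ h, hμ1] at this
    exact one_ne_zero this
  obtain ⟨Φ, hΦ⟩ := H66.exists_equiv_alt B (H66.sympBilin (2 * a) F) hN
    (H66.sympBilin_nondegenerate _) hA (H66.sympBilin_isAlt _) (by
      simp [Module.finrank_pi_fintype, H66.finrank_eq_two hK hF]; ring)
  refine ⟨((H66.resMat Φ).comp (Matrix.symplecticGroup (Fin a) K).subtype).codRestrict _
    fun g => (H66.mem_symplecticGroup_iff _).mpr fun u v => ?_,
    fun x y h => Subtype.ext (H66.resMat_injective Φ (congrArg Subtype.val h))⟩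
  change H66.sympBilin _ F ((H66.resMat Φ g.1).mulVec u) ((H66.resMat Φ g.1).mulVec v) = _
  rw [← hΦ, ← hΦ, H66.resMat_mulVec, H66.resMat_mulVec, hB, hB,
    (H66.mem_symplecticGroup_iff _).mp g.2]
end Cfsg.Agent.S2678
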