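import Mathlib
import Cfsg.Statements.S2679
import Cfsg.Agent.Lib.Reg66.RestrScal
-- import your own Cfsg.Agent.* helpers here

set_option autoImplicit false
open Cfsg

namespace Cfsg.Agent.S2679

open Polynomial in
theorem exists_root {F K : Type*} [Field F] [Field K] [Finite F] [Finite K] [Algebra F K]
    (h : Module.finrank F K = 2) (a c : F) :
    ∃ t : K, t ^ 2 + algebraMap F K a * t + algebraMap F K c = 0 := by
  let p : F[X] := C 1 * X ^ 2 + C a * X + C c
  have hp : p.natDegree = 2 := natDegree_quadratic one_ne_zero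
  suffices ∃ t : K, aeval t p = 0 by
    obtain ⟨t, ht⟩ := this
    exact ⟨t, by simpa [p] using ht⟩
  by_cases hr : ∃ x, IsRoot p x
  · obtain ⟨x, hx⟩ := hr
    exact ⟨algebraMap F K x, by rw [aeval_algebraMap_apply, coe_aeval_eq_eval, hx, map_zero]⟩
  · push Not at hr
    have : Fact (Irreducible p) :=
      ⟨irreducible_of_degree_le_three_of_not_isRoot (by rw [hp]; decide) hr⟩
    obtain ⟨φ⟩ := FiniteField.nonempty_algHom_of_finrank_dvd (F := F) (K := AdjoinRoot p) (L := K)
      (by rw [h, (AdjoinRoot.powerBasis this.out.ne_zero).finrank, AdjoinRoot.powerBasis_dim, hp])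
    exact ⟨φ (AdjoinRoot.root p), by rw [aeval_algHom_apply, AdjoinRoot.aeval_eq,
      AdjoinRoot.mk_self, map_zero]⟩

theorem exists_plus {K : Type*} [Field K] (k : ℕ) {a c t : K} (hd : a ^ 2 - 4 * c ≠ 0)
    (ht : t ^ 2 + a * t + c = 0) :
    ∃ Φ : (Fin (k + 1) ⊕ Fin (k + 1) → K) ≃ₗ[K] ((Fin k ⊕ Fin k) ⊕ Fin 2 → K),
      ∀ x, Cfsg.quadFormMinus k K a c (Φ x) = Cfsg.quadFormPlus (k + 1) K x := by
  let L : (Fin k ⊕ Unit → K) →ₗ[K] ((Fin k ⊕ Fin k) ⊕ Fin 2 → K) :=
    LinearMap.pi (Sum.elim (Sum.elim (fun i => LinearMap.proj (.inl i)) fun _ => 0)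
      ![t • LinearMap.proj (.inr ()), LinearMap.proj (.inr ())])
  have hL : Function.Injective L := by
    refine (injective_iff_map_eq_zero L).mpr fun x hx => funext ?_
    rintro (i | ⟨⟩)
    · exact congrFun hx (.inl (.inl i))
    · exact congrFun hx (.inr 1)
  obtain ⟨Φ, hΦ⟩ := H66.exists_equiv_plus_of_singular (H66.qMinus_nd k hd) (m := k + 1)
    (by simp; ring) (LinearMap.range L) (by
      rintro _ ⟨x, rfl⟩
      rw [H66.qMinus_apply]
      simp only [Cfsg.quadFormMinus, L]
      simp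
      linear_combination x (.inr ()) ^ 2 * ht)
    (by rw [LinearMap.finrank_range_of_inj hL]; simp)
  exact ⟨Φ, fun x => by rw [← hΦ, H66.qMinus_apply]⟩

theorem map_isometry {F K : Type*} [Field F] [Field K] [Algebra F K] (k : ℕ) (a c : F)
    (g : Matrix ((Fin k ⊕ Fin k) ⊕ Fin 2) ((Fin k ⊕ Fin k) ⊕ Fin 2) F)
    (hg : ∀ v, Cfsg.quadFormMinus k F a c (g.mulVec v) = Cfsg.quadFormMinus k F a c v)
    (v : (Fin k ⊕ Fin k) ⊕ Fin 2 → K) :
    Cfsg.quadFormMinus k K (algebraMap F K a) (algebraMap F K c)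
      ((g.map (algebraMap F K)).mulVec v) =
      Cfsg.quadFormMinus k K (algebraMap F K a) (algebraMap F K c) v := by
  have h1 : ∀ w, Cfsg.quadFormMinus k K (algebraMap F K a) (algebraMap F K c)
      (algebraMap F K ∘ w) = algebraMap F K (Cfsg.quadFormMinus k F a c w) := fun w => by
    simp [Cfsg.quadFormMinus]
  let Q := H66.qMinus k K (algebraMap F K a) (algebraMap F K c)
  let Q' := Q.comp (Matrix.toLin' (g.map (algebraMap F K))) - Q
  have h2 : ∀ w, Q' (algebraMap F K ∘ w) = 0 := fun w => by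
    simp only [Q', Q, QuadraticMap.sub_apply, QuadraticMap.comp_apply, Matrix.toLin'_apply,
      H66.qMinus_apply]
    rw [show (g.map (algebraMap F K)).mulVec (algebraMap F K ∘ w) = algebraMap F K ∘ g.mulVec w from
      funext fun i => (RingHom.map_mulVec _ _ _ i).symm, h1, h1, hg, sub_self]
  have h3 : Q' v = 0 := by
    refine H66.quad_eq_zero_of_mem_span (S := Set.range fun w => algebraMap F K ∘ w) ?_ ?_ ?_
    · rintro _ ⟨w, rfl⟩; exact h2 w
    · rintro _ ⟨w, rfl⟩ _ ⟨w', rfl⟩
      have : (algebraMap F K ∘ w) + (algebraMap F K ∘ w') = algebraMap F K ∘ (w + w') := by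
        ext; simp
      rw [QuadraticMap.polar, this, h2, h2, h2]; simp
    · rw [pi_eq_sum_univ' v]
      refine Submodule.sum_mem _ fun i _ => Submodule.smul_mem _ _ (Submodule.subset_span
        ⟨Pi.single i 1, ?_⟩)
      ext j
      simp [Pi.single_apply]
  simpa only [Q', Q, QuadraticMap.sub_apply, QuadraticMap.comp_apply, Matrix.toLin'_apply,
    H66.qMinus_apply, sub_eq_zero] using h3


/-- An elliptic orthogonal group embeds in the hyperbolic orthogonal group of the same dimension over the quadratic extension: for a field F with q elements and a field K with q² elements there is an injective homomorphism from O⁻_2m(F) (isometries of Σ_(j<m−1) x_j y_j + z₁² + a z₁z₂ + c z₂², binary part anisotropic) to O⁺_2m(K) (isometries of Σ_(j<m) x_j y_j over K). -/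
theorem result {F K : Type*} [Field F] [Fintype F] [Field K] [Fintype K] {q : ℕ} (hF : Fintype.card F = q) (hK : Fintype.card K = q ^ 2) {m : ℕ} (hm : 1 ≤ m) (a c : F) (hac : ∀ z₁ z₂ : F, z₁ ^ 2 + a * z₁ * z₂ + c * z₂ ^ 2 = 0 → z₁ = 0 ∧ z₂ = 0) : ∃ φ : ↥(Cfsg.isometryGroup F (Cfsg.quadFormMinus (m - 1) F a c)) →* ↥(Cfsg.isometryGroup K (Cfsg.quadFormPlus m K)), Function.Injective φ := by
  have : H11.U.IsSq K q := ⟨hK⟩
  obtain ⟨ι, -⟩ := H11.U.exists_embedding K q F hF
  letI : Algebra F K := ι.toAlgebra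
  obtain ⟨k, rfl⟩ : ∃ k, m = k + 1 := ⟨m - 1, by omega⟩
  obtain ⟨t, ht⟩ := exists_root (H66.finrank_eq_two hK hF) a c
  have hd : algebraMap F K a ^ 2 - 4 * algebraMap F K c ≠ 0 := by
    have := (map_ne_zero (algebraMap F K)).mpr (H66.Aniso.disc_ne_zero (a := a) (b := c) hac)
    simpa [map_ofNat] using this
  obtain ⟨Φ, hΦ⟩ := exists_plus k hd ht
  refine ⟨((Units.map (H66.resMat Φ)).comp ((Units.map
    (algebraMap F K).mapMatrix.toMonoidHom).comp (Subgroup.subtype _))).codRestrict _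
      fun g u _ => ?_, fun x y h => Subtype.ext (Units.map_injective ?_
        (Units.map_injective (H66.resMat_injective Φ) (congrArg Subtype.val h)))⟩
  · change Cfsg.quadFormPlus _ K ((H66.resMat Φ (g.1.1.map (algebraMap F K))).mulVec u) =
      Cfsg.quadFormPlus _ K u
    rw [← hΦ, ← hΦ, H66.resMat_mulVec]
    exact map_isometry k a c g.1.1 (fun v => g.2 v v) _
  · exact Matrix.map_injective (algebraMap F K).injective
end Cfsg.Agent.S2679
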