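import Mathlib
import Cfsg.Statements.S2684
import Cfsg.Agent.Lib.Inv2.Cent
-- import your own Cfsg.Agent.* helpers here

set_option autoImplicit false
open Cfsg

namespace Cfsg.Agent.S2684

/-- For the hyperbolic form Q = Σ x_j y_j on F^(2m) over a finite field with q elements, q even (excluding m = 2 over the field of two elements), and an involution x ≠ 1 of the orthogonal group with s = rank(x − 1) even and Q vanishing on the image of x − 1 (equivalently f(v, xv) = 0 for all v, where f(u, w) = Q(u + w) − Q(u) − Q(w) is the bilinear form of Q; type a_s, which lies in Ω): its centraliser in Ω (the commutator subgroup of the orthogonal group) has order q^(2ms − (3s² + s)/2) · |Sp_s(q)| · |Ω⁺_(2m−2s)(q)|, where |Ω⁺_2k(q)| = q^(k(k−1)) (q^k − 1) Π_(i=1)^(k−1) (q^(2i) − 1) for k ≥ 1 and the last factor is 1 when s = m. -/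
theorem result {F : Type*} [Field F] [Fintype F] [CharP F 2] {q : ℕ} (hF : Fintype.card F = q) {m s : ℕ} (h : Fintype.card F ≠ 2 ∨ m ≠ 2) (x : ↥(Cfsg.isometryGroup F (Cfsg.quadFormPlus m F))) (hx : x ^ 2 = 1) (hx1 : x ≠ 1) (hs : (((x : Matrix.GeneralLinearGroup (Fin m ⊕ Fin m) F) : Matrix (Fin m ⊕ Fin m) (Fin m ⊕ Fin m) F) - 1).rank = s) (heven : Even s) (halt : ∀ v : Fin m ⊕ Fin m → F, Cfsg.quadFormPlus m F ((((x : Matrix.GeneralLinearGroup (Fin m ⊕ Fin m) F) : Matrix (Fin m ⊕ Fin m) (Fin m ⊕ Fin m) F) - 1).mulVec v) = 0) : Nat.card {g : ↥(Cfsg.Omega F (Cfsg.quadFormPlus m F)) // (g : ↥(Cfsg.isometryGroup F (Cfsg.quadFormPlus m F))) * x = x * (g : ↥(Cfsg.isometryGroup F (Cfsg.quadFormPlus m F)))} = q ^ (2 * m * s - (3 * s ^ 2 + s) / 2) * ((q : ℕ) ^ ((s / 2) ^ 2) * ∏ i : Fin (s / 2), (q ^ (2 * ((i : ℕ) + 1)) - 1)) * (if s = m then 1 else q ^ ((m - s) * (m - s - 1)) * (q ^ (m - s) - 1) * ∏ i : Fin (m - s - 1), (q ^ (2 * ((i : ℕ) + 1)) - 1)) :=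 by
  have hN := H12.nondeg_QPlus (F := F) m
  have hG : H12.Good (H12.QPlus F m) :=
    H12.good_of_card hN (h.imp id fun h => by rw [H12.finrank_plus]; omega)
  have hp : H66.IsPlusType (H12.QPlus F m) := (H66.isPlusType_qPlus m).of_equiv
    (LinearEquiv.refl F _) fun v hv => by rw [H12.QPlus_apply, ← H66.qPlus_apply]; exact hv
  rw [H66.card_Omega_comm _ (H12.QPlus_apply m)]
  rw [← H66.rkO_isoEquiv _ (H12.QPlus_apply m)] at hs
  have ha : H66.altO (H12.isoEquiv _ (H12.QPlus_apply m) x) ↔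
      ∀ v, Cfsg.quadFormPlus m F ((x.1.1 - 1).mulVec v) = 0 := forall_congr' fun v => by
    rw [← H66.Q_nO, H66.nO_isoEquiv, H12.QPlus_apply, Matrix.toLin'_apply]
  have ht : H12.isoEquiv _ (H12.QPlus_apply m) x * H12.isoEquiv _ (H12.QPlus_apply m) x = 1 := by
    rw [← map_mul, ← pow_two, hx, map_one]
  have hq : q ≠ 0 := hF ▸ Fintype.card_ne_zero
  obtain ⟨k, rfl⟩ := heven.two_dvd
  have h1 := H66.card_cent_O_alt hN hp (H12.finrank_plus m) ht hs (ha.mpr halt)
  have hm : 2 * k ≤ m := by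
    have := (H66.sqZ_nO ht).two_mul_finrank_le
    rw [H66.rkO] at hs; rw [H12.finrank_plus] at this; omega
  rw [Nat.card_eq_fintype_card (α := F), hF] at h1
  rw [← H66.spN_eq, Nat.mul_div_cancel_left _ two_pos]
  generalize 2 * k = s at *
  obtain ⟨j, rfl⟩ := Nat.exists_eq_add_of_le hm
  have e1 := H66.two_mul_tri s
  have e2 : 2 * (s + j) * s = 2 * s ^ 2 + 2 * j * s := by ring
  rw [show 2 * (s + j) - 2 * s = 2 * j by omega, Nat.add_sub_cancel_left] at h1
  rw [show 2 * (s + j) * s - (3 * s ^ 2 + s) / 2 = 2 * j * s + s * (s - 1) / 2 by omega,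
    Nat.add_sub_cancel_left]
  rcases j with _ | j
  · have : Subsingleton (H12.O (H12.QPlus F 0)) := ⟨fun a b => H12.O.ext fun v => Subsingleton.elim _ _⟩
    rw [H66.card_cent_Om_eq hN hG (H12.finrank_plus _) hs (ha.mpr halt), h1, if_pos (add_zero s).symm,
      Nat.card_unique]
    ring
  · rw [← H66.card_cent_Om_mul hN hG ht (by rw [H12.finrank_plus]; omega)] at h1
    have h2 := H12.card_O_QPlus (F := F) j
    have hq1 : 1 ≤ q := by omega
    rw [Nat.card_eq_fintype_card (α := F), hF, ← H12.cast_prod_pow_sub_one hq1] at h2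
    rw [if_neg (by omega), Nat.add_sub_cancel, ← Finset.prod_range fun i => q ^ (2 * (i + 1)) - 1]
    zify [Nat.one_le_pow _ _ hq1] at h1 h2 ⊢
    rw [h2] at h1
    exact mul_left_cancel₀ two_ne_zero (by linear_combination h1)
end Cfsg.Agent.S2684
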