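import Mathlib
import Cfsg.Statements.S2685
import Cfsg.Agent.Lib.Inv2.Cent
-- import your own Cfsg.Agent.* helpers here

set_option autoImplicit false
open Cfsg

namespace Cfsg.Agent.S2685

/-- For the hyperbolic form Q = Σ x_j y_j on F^(2m) over a finite field with q elements, q even (excluding m = 2 over the field of two elements), and an involution x of the orthogonal group with s = rank(x − 1) even and Q not vanishing on the image of x − 1 (f(v, xv) ≠ 0 for some v, where f(u, w) = Q(u + w) − Q(u) − Q(w) is the bilinear form of Q; type c_s, which lies in Ω): its centraliser in Ω (the commutator subgroup of the orthogonal group) has order q^(2m(s−1) − (3s² − 5s)/2 − 1) · |Sp_(s−2)(q)| · |Sp_(2m−2s)(q)|. -/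
theorem result {F : Type*} [Field F] [Fintype F] [CharP F 2] {q : ℕ} (hF : Fintype.card F = q) {m s : ℕ} (h : Fintype.card F ≠ 2 ∨ m ≠ 2) (x : ↥(Cfsg.isometryGroup F (Cfsg.quadFormPlus m F))) (hx : x ^ 2 = 1) (hs : (((x : Matrix.GeneralLinearGroup (Fin m ⊕ Fin m) F) : Matrix (Fin m ⊕ Fin m) (Fin m ⊕ Fin m) F) - 1).rank = s) (heven : Even s) (hna : ∃ v : Fin m ⊕ Fin m → F, Cfsg.quadFormPlus m F ((((x : Matrix.GeneralLinearGroup (Fin m ⊕ Fin m) F) : Matrix (Fin m ⊕ Fin m) (Fin m ⊕ Fin m) F) - 1).mulVec v) ≠ 0) : Nat.card {g : ↥(Cfsg.Omega F (Cfsg.quadFormPlus m F)) // (g : ↥(Cfsg.isometryGroup F (Cfsg.quadFormPlus m F))) * x = x * (g : ↥(Cfsg.isometryGroup F (Cfsg.quadFormPlus m F)))} = q ^ (2 * m * (s - 1) - (3 * s ^ 2 - 5 * s) / 2 - 1) * ((q : ℕ) ^ (((s - 2) / 2) ^ 2) * ∏ i : Fin ((s - 2) / 2), (q ^ (2 * ((i : ℕ) + 1)) - 1)) * ((q : ℕ) ^ ((m - s) ^ 2) * ∏ i : Fin (m - s), (q ^ (2 * ((i : ℕ) + 1)) - 1)) := by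
  have hN := H12.nondeg_QPlus (F := F) m
  have hG : H12.Good (H12.QPlus F m) :=
    H12.good_of_card hN (h.imp id fun h => by rw [H12.finrank_plus]; omega)
  have hp : H66.IsPlusType (H12.QPlus F m) := (H66.isPlusType_qPlus m).of_equiv
    (LinearEquiv.refl F _) fun v hv => by rw [H12.QPlus_apply, ← H66.qPlus_apply]; exact hv
  rw [H66.card_Omega_comm _ (H12.QPlus_apply m)]
  rw [← H66.rkO_isoEquiv _ (H12.QPlus_apply m)] at hs
  have ha : H66.altO (H12.isoEquiv _ (H12.QPlus_apply m) x) ↔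
      ∀ v, Cfsg.quadFormPlus m F ((x.1.1 - 1).mulVec v) = 0 := forall_congr' fun v => by
    rw [← H66.Q_nO, H66.nO_isoEquiv, H12.QPlus_apply, Matrix.toLin'_apply]
  have ht : H12.isoEquiv _ (H12.QPlus_apply m) x * H12.isoEquiv _ (H12.QPlus_apply m) x = 1 := by
    rw [← map_mul, ← pow_two, hx, map_one]
  have hq : q ≠ 0 := hF ▸ Fintype.card_ne_zero
  have hna' : ¬ H66.altO (H12.isoEquiv _ (H12.QPlus_apply m) x) := by rw [ha]; simpa using hna
  obtain ⟨k, rfl⟩ : ∃ k, s = k + 1 := ⟨s - 1, by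
    have := H66.rkO_pos (t := H12.isoEquiv _ (H12.QPlus_apply m) x) fun h => hna' (by
      rw [h]; intro v; rw [(H66.nO_eq_zero_iff _).mpr rfl]; simp)
    omega⟩
  obtain ⟨hm, ω, h1, h2, h3, h4⟩ := H66.card_cent_Om_nonalt hN hG hp (H12.finrank_plus m) ht hs hna'
  obtain ⟨i, hi, h6⟩ := H66.card_isoB_even h1 h2 h3 (hs ▸ heven :)
  have hk : 2 * i + 1 = k := by rw [H66.rkO] at hs; omega
  rw [h6, Nat.card_eq_fintype_card (α := F), hF, hk] at h4
  rw [← H66.spN_eq, ← H66.spN_eq, show (k + 1 - 2) / 2 = i by omega, Nat.add_sub_cancel,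
    ← Nat.sub_sub]
  refine mul_right_cancel₀ (pow_ne_zero k hq) (h4.trans ?_)
  obtain ⟨j, rfl⟩ := Nat.exists_eq_add_of_le hm
  have e1 := H66.two_mul_tri k
  have e2 : 2 * (k + 1 + j) * k = 2 * k ^ 2 + 2 * k + 2 * j * k := by ring
  have e3 : (k + 1) ^ 2 = k ^ 2 + 2 * k + 1 := by ring
  have e4 : (2 * j + 2) * k = 2 * j * k + 2 * k := by ring
  rw [show 2 * (k + 1 + j) - 2 * k = 2 * j + 2 by omega, show (2 * j + 2) * k + k * (k - 1) / 2 =
    2 * (k + 1 + j) * k - (3 * (k + 1) ^ 2 - 5 * (k + 1)) / 2 - 1 by omega]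
  ring
end Cfsg.Agent.S2685
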