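import Mathlib
import Cfsg.Statements.S2698
import Cfsg.Agent.Lib.AutCl.PSLLang
-- import your own Cfsg.Agent.* helpers here

set_option autoImplicit false
set_option linter.unusedVariables false
open Cfsg

namespace Cfsg.Agent.S2698

/-- Let T = PSL_n(F) be simple over the field F with p^f elements (n ≥ 2; p^f ≥ 4 when n = 2), G = Inndiag(T) the image of PGL_n(F) in Aut(T), and x a field automorphism of T of prime order r. Then r divides f; the centralizer C_G(x) is isomorphic to PGL_n(F₀) for the subfield size |F₀| = p^(f/r); and the G-class of x is the union of exactly gcd(n, (p^f − 1)/(p^(f/r) − 1)) classes under conjugation by T (the inner automorphism group). -/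
theorem result {F : Type*} [Field F] [Fintype F] {p f : ℕ} [Fact p.Prime] (hF : Fintype.card F = p ^ f) (hf : 1 ≤ f) {n : ℕ} (hn : 2 ≤ n) (hs : n = 2 → 4 ≤ Fintype.card F) (x : MulAut (Matrix.ProjectiveSpecialLinearGroup (Fin n) F)) (hx : Cfsg.IsFieldAutClassPSL x) {r : ℕ} (hr : r.Prime) (hxr : orderOf x = r) (F₀ : Type*) [Field F₀] [Fintype F₀] (hF₀ : Fintype.card F₀ = p ^ (f / r)) :
    r ∣ f ∧ Nonempty (↥(Cfsg.inndiagPSL n F ⊓ Subgroup.centralizer {x}) ≃* Matrix.ProjGenLinGroup (Fin n) F₀) ∧ Cfsg.splitClassCount (Cfsg.inndiagPSL n F) (Cfsg.Inn (Matrix.ProjectiveSpecialLinearGroup (Fin n) F)) x = Nat.gcd n ((p ^ f - 1) / (p ^ (f / r) - 1)) := by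
  have hF' : Nat.card F = p ^ f := by rw [Nat.card_eq_fintype_card, hF]
  have h2 : 2 ≤ Fintype.card (Fin n) := by simpa using hn
  have := H67.normal_range_pslInn (F := F) h2
  rw [H67.inndiagPSL_eq]
  obtain ⟨α, σ, -, h⟩ := hx
  rw [H67.isStdFieldAutPSL_iff] at h
  have h1 : orderOf σ = r := by rw [← H67.orderOf_pslField h2, ← h, H67.orderOf_conj', hxr]
  have hc := H67.card_fixF hF' σ
  rw [h1] at hc
  refine ⟨h1 ▸ H67.orderOf_ringAut_dvd hF' σ, ?_, ?_⟩
  · obtain ⟨e, he⟩ := H67.exists_emb_fixF σ F₀ (by rw [hc, Nat.card_eq_fintype_card, hF₀])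
    refine ⟨(H67.centConj _ α x).trans ((MulEquiv.subgroupCongr ?_).trans
      (H67.mapRangeEquivQuot (H67.pslInn _ F) (Matrix.GeneralLinearGroup.map e) _ fun g => ?_))⟩
    · rw [h, H67.psl_field_cent h2 σ he]
    · rw [H67.pslInn_eq_one_iff h2, H67.glMap_mem_center]
  · rw [← H67.splitClassCount_conj _ _ (H67.inn_psl_eq.le.trans (Subgroup.map_le_range _ _)) α, h,
      H67.psl_field_split h2, hc, hF', Fintype.card_fin]

end Cfsg.Agent.S2698
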