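import Cfsg.Statements.S2703
import Mathlib
import Cfsg.Agent.Lib.AutCl30.GraphPSL

set_option autoImplicit false
open Cfsg

namespace Cfsg.Agent.S2703

/-- Let T = PSL_n(F) over the field with q elements, q odd, n = 2m ≥ 4 even, and ι the inverse-transpose automorphism. Its centralizer in G = Inndiag(T) (the image of PGL_n(F)) is isomorphic to the projective conformal orthogonal group of the plus-type form Σ xᵢ yᵢ in dimension n when n(q − 1)/4 is even, and to that of a minus-type form (Σ xᵢ yᵢ + z₁² + a z₁ z₂ + b z₂² with anisotropic binary part) when n(q − 1)/4 is odd. -/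
theorem result {F : Type*} [Field F] [Fintype F] (hodd : Odd (Fintype.card F)) {n m : ℕ} (hm : 2 ≤ m) (hnm : n = 2 * m) (ι : MulAut (Matrix.ProjectiveSpecialLinearGroup (Fin n) F)) (hι : Cfsg.IsInverseTransposeAutPSL ι) :
    (Even (n * (Fintype.card F - 1) / 4) → Nonempty (↥(Cfsg.inndiagPSL n F ⊓ Subgroup.centralizer {ι}) ≃* Cfsg.PGO F (Cfsg.quadFormPlus m F))) ∧ (¬ Even (n * (Fintype.card F - 1) / 4) → ∃ a b : F, (∀ z₁ z₂ : F, z₁ ^ 2 + a * z₁ * z₂ + b * z₂ ^ 2 = 0 → z₁ = 0 ∧ z₂ = 0) ∧ Nonempty (↥(Cfsg.inndiagPSL n F ⊓ Subgroup.centralizer {ι}) ≃* Cfsg.PGO F (Cfsg.quadFormMinus (m - 1) F a b))) := by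
  have h2 := H12.two_ne_zero_of_odd hodd
  obtain rfl := (H67.isInverseTransposeAutPSL_iff ι).1 hι
  obtain ⟨e⟩ := (H30.Gr.famL (F := F) (n := n) (by omega)).cent (M := 1) (γ := H67.pslDual _ F)
    ⟨by simp, Or.inl (by simp)⟩ ⟨1, rfl, by simp⟩
  have hc : Fintype.card (Fin n) = 2 * m := by simpa using hnm
  have key := (H30.Gr.plus_one_iff h2 hc).trans (H66.isSquare_neg_one_pow_iff' rfl hodd m)
  have e4 : n * (Fintype.card F - 1) / 4 = m * (Fintype.card F - 1) / 2 := by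
    rw [hnm, mul_assoc, show 4 = 2 * 2 from rfl, Nat.mul_div_mul_left _ _ two_pos]
  rw [e4, ← key]
  refine ⟨fun h => ?_, fun h => ?_⟩
  · obtain ⟨e'⟩ := (H30.Gr.cg_plus h2 (by simp) (by simp) hc h).pgo h2
    rw [H12.coe_QPlus] at e'
    exact ⟨e.trans e'⟩
  · obtain ⟨ζ, hζ⟩ := H66.exists_aniso (F := F)
    obtain ⟨e'⟩ := (H30.Gr.cg_minus h2 (by simp) (by simp) hc h hζ).pgo h2
    rw [H12.coe_QMinus] at e'
    exact ⟨1, ζ, hζ, ⟨e.trans e'⟩⟩

end Cfsg.Agent.S2703
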