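import Mathlib
import Cfsg.Statements.S2704
import Cfsg.Agent.Lib.AutCl.PSLLang
-- import your own Cfsg.Agent.* helpers here

set_option autoImplicit false
set_option linter.unusedVariables false
open Cfsg

namespace Cfsg.Agent.S2704

/-- Let T = PSL_n(F) over the field F with p^f elements, n ≥ 3, and G = Inndiag(T) the image of PGL_n(F). If x is an involutory graph-field automorphism of T then f is even; x is G-conjugate to every other involutory graph-field automorphism; C_G(x) is isomorphic to the projective general unitary group PGU_n(q₀) with q₀² = p^f, realised over F itself through the Hermitian form Σ uᵢ vᵢ^{q₀}; and the G-class of x is the union of exactly gcd(n, q₀ − 1) T-classes. -/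
theorem result {F : Type*} [Field F] [Fintype F] {p f : ℕ} [Fact p.Prime] (hF : Fintype.card F = p ^ f) (hf : 1 ≤ f) {n : ℕ} (hn : 3 ≤ n) (x : MulAut (Matrix.ProjectiveSpecialLinearGroup (Fin n) F)) (hx : Cfsg.IsGraphFieldAutClassPSL x) (hx2 : orderOf x = 2) :
    Even f ∧ (∀ y : MulAut (Matrix.ProjectiveSpecialLinearGroup (Fin n) F), Cfsg.IsGraphFieldAutClassPSL y → orderOf y = 2 → Cfsg.IsConjUnder (Cfsg.inndiagPSL n F) x y) ∧ Nonempty (↥(Cfsg.inndiagPSL n F ⊓ Subgroup.centralizer {x}) ≃* Cfsg.PGU n F (p ^ (f / 2))) ∧ Cfsg.splitClassCount (Cfsg.inndiagPSL n F) (Cfsg.Inn (Matrix.ProjectiveSpecialLinearGroup (Fin n) F)) x = Nat.gcd n (p ^ (f / 2) - 1) := by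
  have hF' : Nat.card F = p ^ f := by rw [Nat.card_eq_fintype_card, hF]
  have h2 : 2 ≤ Fintype.card (Fin n) := by simp; omega
  have h3 : 3 ≤ Fintype.card (Fin n) := by simpa using hn
  have := H67.normal_range_pslInn (F := F) h2
  rw [H67.inndiagPSL_eq]
  have key : ∀ y : MulAut (Matrix.ProjectiveSpecialLinearGroup (Fin n) F),
      Cfsg.IsGraphFieldAutClassPSL y → orderOf y = 2 → ∃ α, ∃ σ : RingAut F, orderOf σ = 2 ∧
        α * y * α⁻¹ = H67.pslField _ F σ * H67.pslDual _ F := by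
    rintro y ⟨-, α, φ, γ, σ, hσ, hφ, hγ, h⟩ hy
    rw [H67.isStdFieldAutPSL_iff] at hφ
    rw [H67.isInverseTransposeAutPSL_iff] at hγ
    subst hφ hγ
    exact ⟨α, σ, (H67.orderOf_pslFieldDual h3 hσ Nat.prime_two
      (by rw [← h, H67.orderOf_conj', hy])).1, h⟩
  have key2 : ∀ y : MulAut (Matrix.ProjectiveSpecialLinearGroup (Fin n) F),
      Cfsg.IsGraphFieldAutClassPSL y → orderOf y = 2 → ∃ σ : RingAut F, orderOf σ = 2 ∧
        Cfsg.IsConjUnder (H67.pslInn _ F).range (H67.pslField _ F σ * H67.pslDual _ F) y := by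
    intro y hy hy2
    obtain ⟨α, σ, hσ, h⟩ := key y hy hy2
    obtain ⟨d, hd, r, hr⟩ := H67.psl_aut_outer h2 α⁻¹
    refine ⟨σ, hσ, d, hd, ?_⟩
    have h1 : H67.pslOuter _ F r * (H67.pslField _ F σ * H67.pslDual (Fin n) F) =
        (H67.pslField _ F σ * H67.pslDual _ F) * H67.pslOuter _ F r := by
      rw [← H67.pslOuter_dual, ← map_mul, ← map_mul]
      congr 1
      exact Prod.ext (H67.ringAut_comm _ _) (mul_comm _ _)
    calc y = α⁻¹ * (α * y * α⁻¹) * α⁻¹⁻¹ := by group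
      _ = d * (H67.pslOuter _ F r * (H67.pslField _ F σ * H67.pslDual (Fin n) F) *
          (H67.pslOuter _ F r)⁻¹) * d⁻¹ := by rw [h, hr]; group
      _ = _ := by rw [h1]; group
  obtain ⟨α, σ, hσ, h⟩ := key x hx hx2
  have hev : 2 ∣ f := hσ ▸ H67.orderOf_ringAut_dvd hF' σ
  have : H11.U.IsSq F (p ^ (f / 2)) := ⟨by rw [hF, ← pow_mul, Nat.div_mul_cancel hev]⟩
  obtain rfl := H67.eq_of_orderOf_two hσ (H67.orderOf_cjAut (q := p ^ (f / 2)))
  refine ⟨even_iff_two_dvd.2 hev, fun y hy hy2 => ?_, ?_, ?_⟩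
  · obtain ⟨σ₁, hσ₁, h4⟩ := key2 x hx hx2
    obtain ⟨σ₂, hσ₂, h5⟩ := key2 y hy hy2
    obtain rfl := H67.eq_of_orderOf_two hσ₁ hσ₂
    exact H67.isConjUnder_trans (H67.isConjUnder_symm h4) h5
  · refine ⟨(H67.centConj _ α x).trans ((MulEquiv.subgroupCongr ?_).trans
      (H67.mapEquivQuot (H67.pslInn _ F) (Cfsg.GU n F (p ^ (f / 2))) _ fun g => ?_))⟩
    · rw [h, H67.psl_uni_cent (by omega)]
    · rw [H67.pslInn_eq_one_iff h2, Subgroup.mem_subgroupOf, H67.scalars_eq_center]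
  · rw [← H67.splitClassCount_conj _ _ (H67.inn_psl_eq.le.trans (Subgroup.map_le_range _ _)) α, h,
      H67.psl_uni_split (by omega)]

end Cfsg.Agent.S2704
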