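import Mathlib
import Cfsg.Statements.S2705
import Cfsg.Agent.Lib.AutCl.ClSU
-- import your own Cfsg.Agent.* helpers here

set_option autoImplicit false
set_option linter.unusedVariables false
open Cfsg

namespace Cfsg.Agent.S2705

/-- Let T = PSU_n(q) be simple (n ≥ 3, (n, q) ≠ (3, 2), q = p^f), realised over the field F with q² elements, G = Inndiag(T) the image of PGU_n(q) in Aut(T), and x a field automorphism of T (conjugate to a standard field automorphism of odd order) of odd prime order r. Then r divides f; C_G(x) is isomorphic to PGU_n(q₀) with q₀ = p^(f/r), realised over a field F₀ with q₀² elements; and the G-class of x is the union of exactly gcd(n, (q + 1)/(q₀ + 1)) T-classes. -/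
theorem result {F : Type*} [Field F] [Fintype F] {p f q : ℕ} [Fact p.Prime] (hq : q = p ^ f) (hf : 1 ≤ f) (hF : Fintype.card F = q ^ 2) {n : ℕ} (hn : 3 ≤ n) (hs : ¬ (n = 3 ∧ q = 2)) (x : MulAut (Cfsg.PSU n F q)) (hx : Cfsg.IsFieldAutClassPSU x) {r : ℕ} (hr : r.Prime) (hro : Odd r) (hxr : orderOf x = r) (F₀ : Type*) [Field F₀] [Fintype F₀] (hF₀ : Fintype.card F₀ = p ^ (2 * (f / r))) :
    r ∣ f ∧ Nonempty (↥(Cfsg.inndiagPSU n F q ⊓ Subgroup.centralizer {x}) ≃* Cfsg.PGU n F₀ (p ^ (f / r))) ∧ Cfsg.splitClassCount (Cfsg.inndiagPSU n F q) (Cfsg.Inn (Cfsg.PSU n F q)) x = Nat.gcd n ((q + 1) / (p ^ (f / r) + 1)) := by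
  have : H11.U.IsSq F q := ⟨hF⟩
  have hF' : Nat.card F = p ^ (2 * f) := by
    rw [Nat.card_eq_fintype_card, hF, hq, ← pow_mul, mul_comm]
  have := H67.normal_range_psuInn (F := F) hn hs
  rw [H67.inndiagPSU_eq]
  obtain ⟨α, φ, σ, -, ho, hφ, h⟩ := hx
  rw [H67.isFieldAutPSUOf_iff] at hφ
  subst hφ
  have h1 : orderOf σ = r := by
    rw [← H67.orderOf_psuField (q := q) hn, ← h, H67.orderOf_conj', hxr]
  have hd : r ∣ f := (Nat.coprime_two_right.2 hro).dvd_of_dvd_mul_left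
    (h1 ▸ H67.orderOf_ringAut_dvd hF' σ)
  have hc := H67.card_fixF hF' σ
  rw [h1, Nat.mul_div_assoc _ hd] at hc
  have : H11.U.IsSq F₀ (p ^ (f / r)) := ⟨by rw [hF₀, ← pow_mul, mul_comm]⟩
  obtain ⟨e, he⟩ := H67.exists_emb_fixF σ F₀ (by rw [hc, Nat.card_eq_fintype_card, hF₀])
  have hcj := H67.cj_emb (q := q) (q₀ := p ^ (f / r)) hro
    (by rw [← pow_mul, Nat.div_mul_cancel hd, hq]) e
  refine ⟨hd, ?_, ?_⟩
  · refine ⟨(H67.centConj _ α x).trans ((MulEquiv.subgroupCongr ?_).trans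
      (H67.mapRangeEquivQuot (H67.psuInn n F q) (H67.guMap n hcj) _ fun g => ?_))⟩
    · rw [h, H67.psu_field_cent hn he hcj]
    · rw [H67.psuInn_eq_one_iff hn, Subgroup.mem_subgroupOf, H67.scalars_eq_center]
      exact (H67.glMap_mem_center e).symm
  · rw [← H67.splitClassCount_conj _ _ (H67.inn_psu_eq.le.trans (Subgroup.map_le_range _ _)) α, h,
      H67.psu_field_split hn he hcj]

end Cfsg.Agent.S2705
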