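import Cfsg.Statements.S2710
import Mathlib
import Cfsg.Agent.Lib.AutCl30.GraphPSU
import Cfsg.Agent.Lib.AutCl.ClOOut

set_option autoImplicit false
open Cfsg

namespace Cfsg.Agent.S2710

/-- Let T = PSU_n(q) with n ≥ 4 divisible by 4 (n = 2m) and q odd, realised over the field F with q² elements, G = Inndiag(T) the image of PGU_n(q), and φ the standard field automorphism of T attached to the q-th power map of F (it induces inverse-transpose on the unitary matrices and is a graph automorphism). Its centralizer in G is isomorphic to the projective conformal orthogonal group of the plus-type form Σ xᵢ yᵢ in dimension n over a field F₀ with q elements. (Dimensions n ≡ 2 (mod 4) are not covered.) -/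
theorem result {F : Type*} [Field F] [Fintype F] {q : ℕ} (hodd : Odd q) (hF : Fintype.card F = q ^ 2) {n m : ℕ} (hm : 2 ≤ m) (hnm : n = 2 * m) (h4 : 4 ∣ n) (F₀ : Type*) [Field F₀] [Fintype F₀] (hF₀ : Fintype.card F₀ = q) (σ : F ≃+* F) (hσ : ∀ a : F, σ a = a ^ q) (φ : MulAut (Cfsg.PSU n F q)) (hφ : Cfsg.IsFieldAutPSUOf σ φ) :
    Nonempty (↥(Cfsg.inndiagPSU n F q ⊓ Subgroup.centralizer {φ}) ≃* Cfsg.PGO F₀ (Cfsg.quadFormPlus m F₀)) := by
  have : H11.U.IsSq F q := ⟨hF⟩
  obtain ⟨e, he⟩ := H30.Gr.exists_emb (F := F) F₀ hF₀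
  have h2 : (2 : F₀) ≠ 0 := H12.two_ne_zero_of_odd (hF₀ ▸ hodd)
  obtain rfl : σ = H67.cjAut q := RingEquiv.ext hσ
  obtain rfl := (H67.isFieldAutPSUOf_iff _ φ).1 hφ
  obtain ⟨e1⟩ := (H30.Gr.famU (n := n) (by omega) he).cent (M := 1)
    (γ := H67.psuField n F q (H67.cjAut q)) ⟨by simp, Or.inl (by simp)⟩
    ⟨1, 1, 1, 1, by simp [H30.Gr.hs_one], by simp, by simp⟩
  have hc : Fintype.card (Fin n) = 2 * m := by simpa using hnm
  have hp := (H30.Gr.plus_one_iff h2 hc).2 (by
    rw [Even.neg_one_pow (show Even m by rw [Nat.even_iff]; omega)]; exact IsSquare.one)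
  obtain ⟨e'⟩ := (H30.Gr.cg_plus h2 (by simp) (by simp) hc hp).pgo h2
  rw [H12.coe_QPlus] at e'
  exact ⟨e1.trans e'⟩

end Cfsg.Agent.S2710
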