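import Mathlib
import Cfsg.Statements.S2712
import Cfsg.Agent.Lib.AutCl.ClSp
-- import your own Cfsg.Agent.* helpers here

set_option autoImplicit false
set_option linter.unusedVariables false
open Cfsg

namespace Cfsg.Agent.S2712

theorem gcd_two_geom {q r : ℕ} (hq : 2 ≤ q) (hr : 0 < r) :
    Nat.gcd 2 ((q ^ r - 1) / (q - 1)) = Nat.gcd (Nat.gcd 2 (q ^ r - 1)) r := by
  rw [← Nat.geomSum_eq hq]
  have h0 : 0 < q ^ r := by positivity
  rcases Nat.even_or_odd q with h | h
  · have h1 : Odd (q ^ r - 1) := by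
      have := (Nat.even_pow' hr.ne').2 h
      rw [Nat.odd_iff]; rw [Nat.even_iff] at this; omega
    rw [Nat.coprime_two_left.2 h1, Nat.gcd_one_left]
    refine Nat.coprime_two_left.2 ?_
    obtain ⟨k, rfl⟩ : ∃ k, r = k + 1 := ⟨r - 1, by omega⟩
    rw [Finset.sum_range_succ', pow_zero]
    exact Even.add_one (Finset.even_sum _ fun i _ => (Nat.even_pow' (by omega)).2 h)
  · have h1 : 2 ∣ q ^ r - 1 := by
      have : Odd (q ^ r) := h.pow
      rw [Nat.odd_iff] at this; omega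
    rw [Nat.gcd_eq_left h1, Nat.gcd_rec, Nat.gcd_rec 2 r, Finset.sum_nat_mod]
    simp only [Nat.odd_iff.1 h.pow]
    simp


/-- Let T = PSp_{2m}(F) be simple over the field F with p^f elements (m ≥ 2, (2m, |F|) ≠ (4, 2)), G = Inndiag(T) the image of the projective conformal symplectic group PGSp_{2m}(F), and x a field automorphism of T of prime order r. Then r divides f; C_G(x) is isomorphic to PGSp_{2m}(F₀) for a field F₀ with p^(f/r) elements; and the G-class of x is the union of exactly gcd(gcd(2, p^f − 1), r) T-classes. -/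
theorem result {F : Type*} [Field F] [Fintype F] {p f : ℕ} [Fact p.Prime] (hF : Fintype.card F = p ^ f) (hf : 1 ≤ f) {m : ℕ} (hm : 2 ≤ m) (hs : m = 2 → 3 ≤ Fintype.card F) (x : MulAut (Cfsg.PSp m F)) (hx : Cfsg.IsFieldAutClassPSp x) {r : ℕ} (hr : r.Prime) (hxr : orderOf x = r) (F₀ : Type*) [Field F₀] [Fintype F₀] (hF₀ : Fintype.card F₀ = p ^ (f / r)) :
    r ∣ f ∧ Nonempty (↥(Cfsg.inndiagPSp m F ⊓ Subgroup.centralizer {x}) ≃* Cfsg.PGSp m F₀) ∧ Cfsg.splitClassCount (Cfsg.inndiagPSp m F) (Cfsg.Inn (Cfsg.PSp m F)) x = Nat.gcd (Nat.gcd 2 (p ^ f - 1)) r := by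
  have hF' : Nat.card F = p ^ f := by rw [Nat.card_eq_fintype_card, hF]
  have := H67.normal_range_pspInn (F := F) hm
  rw [H67.inndiagPSp_eq]
  obtain ⟨α, σ, -, h⟩ := hx
  rw [H67.isStdFieldAutPSp_iff] at h
  have h1 : orderOf σ = r := by rw [← H67.orderOf_pspField hm, ← h, H67.orderOf_conj', hxr]
  have hc := H67.card_fixF hF' σ
  rw [h1] at hc
  have hd : r ∣ f := h1 ▸ H67.orderOf_ringAut_dvd hF' σ
  refine ⟨hd, ?_, ?_⟩
  · obtain ⟨e, he⟩ := H67.exists_emb_fixF σ F₀ (by rw [hc, Nat.card_eq_fintype_card, hF₀])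
    refine ⟨(H67.centConj _ α x).trans ((MulEquiv.subgroupCongr ?_).trans
      (H67.mapRangeEquivQuot (H67.pspInn m F) (H67.gspMap (by omega) e) _ fun g => ?_))⟩
    · rw [h, H67.psp_field_cent hm σ he]
    · rw [H67.pspInn_eq_one_iff hm, Subgroup.mem_subgroupOf, H67.scalars_eq_center]
      exact (H67.glMap_mem_center e).symm
  · rw [← H67.splitClassCount_conj _ _ ((H67.inn_psp_eq (by omega)).le.trans
      (Subgroup.map_le_range _ _)) α, h, H67.psp_field_split hm, hc, hF']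
    have h2 : 2 ≤ p ^ (f / r) := hF₀ ▸ Fintype.one_lt_card
    have h3 : p ^ f = (p ^ (f / r)) ^ r := by rw [← pow_mul, Nat.div_mul_cancel hd]
    rw [h3]
    exact gcd_two_geom h2 hr.pos

end Cfsg.Agent.S2712
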