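import Cfsg.Statements.S2734
import Cfsg.Agent.Lib.ChevAut.FoldMat

set_option autoImplicit false
open Cfsg

namespace Cfsg.Agent.S2734

/-- In the Chevalley group of type D₄ over a finite field F (the matrix group generated by the root elements), a graph automorphism attached to a symmetry π of the Dynkin diagram (sending each fundamental root element x_p(t) to x_{π(p)}(t) and each x_{−p}(t) to x_{−π(p)}(t)) that has order 3 — a standard triality graph automorphism, π being a 3-cycle of the three outer nodes — has fixed-point subgroup isomorphic to the Chevalley group of type G₂ over F. -/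
theorem result {F : Type*} [Field F] [Fintype F] (τ : MulAut ↥(Cfsg.Lie.chevD4.group F)) (hτ : Cfsg.Lie.chevD4.IsGraphAut τ) (hτ3 : orderOf τ = 3) :
    Nonempty (↥(MonoidHom.eqLocus τ.toMonoidHom (MonoidHom.id ↥(Cfsg.Lie.chevD4.group F))) ≃* ↥(Cfsg.Lie.chevG2.group F)) := by
  obtain ⟨R, E, hE⟩ := H38.exists_isMat (D := Lie.chevD4) (by simp) F
  obtain ⟨π, hπ⟩ := (H61.isGraphAut_iff_pinned hE).1 hτ
  have hπ : H61.Pinned hE.grp τ π 1 fun _ => RingEquiv.refl F := hπ.congr rfl rfl (by
    funext i; ext t; simp [H61.gf_apply, H61.simplyLaced_D4.graphExp])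
  have hs := H61.isDiagramSymmetry_of_pinned hE hπ
  have key : ∀ π : Equiv.Perm (Fin Lie.chevD4.rank), Lie.chevD4.IsDiagramSymmetry π →
      π * π = 1 ∨ π = H61.triD4 ∨ π.symm = H61.triD4 := by
    unfold Lie.ChevalleyDatum.IsDiagramSymmetry; decide +kernel
  rcases key π hs with h | rfl | h
  · have h2 : τ ^ 2 = 1 := by
      refine (hπ.trans hπ).ext hE.grp_top ((H61.Pinned.refl _).congr ?_ ?_ rfl)
      · funext i; exact (DFunLike.congr_fun h i).symm
      · funext i; simp
    have := orderOf_dvd_of_pow_eq_one h2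
    rw [hτ3] at this
    omega
  · exact H61.fold_G2 hE hπ
  · obtain ⟨f⟩ := H61.fold_G2 hE (α := τ.symm) (hπ.symm.congr (by rw [h]) (by funext i; simp) rfl)
    refine ⟨(MulEquiv.subgroupCongr ?_).trans f⟩
    ext g
    exact ⟨fun h => τ.symm_apply_eq.2 (Eq.symm h), fun h => (τ.symm_apply_eq.1 h).symm⟩

end Cfsg.Agent.S2734
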