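import Cfsg.Statements.S2761
import Mathlib
import Cfsg.Agent.Base
import Cfsg.Agent.Lib.Functor.Qd2

set_option autoImplicit false
open Cfsg

namespace Cfsg.Agent.S2761

/-- The group Qd(2), the natural semidirect product of an elementary abelian group of order 4 by SL₂(2) (realised as the affine subgroup of SL₃(2)), is isomorphic to the symmetric group of degree 4. -/
theorem result : Nonempty (↥(Cfsg.qd 2) ≃* Equiv.Perm (Fin 4)) := by
  open Subgroup H69 H59 in
  let act : qd 2 → ZMod 2 × ZMod 2 → ZMod 2 × ZMod 2 := fun g v =>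
    (g.1.1 0 0 * v.1 + g.1.1 0 1 * v.2 + g.1.1 0 2, g.1.1 1 0 * v.1 + g.1.1 1 1 * v.2 + g.1.1 1 2)
  have hact : ∀ a b c d x y h v, act (H58.Qd.aff a b c d x y h) v =
      (a * v.1 + b * v.2 + x, c * v.1 + d * v.2 + y) := fun _ _ _ _ _ _ _ _ => rfl
  letI : MulAction (qd 2) (ZMod 2 × ZMod 2) :=
    { smul := act
      one_smul := fun v => by
        change act 1 v = v
        rw [H58.Qd.one_eq_aff, hact]; simp
      mul_smul := fun g g' v => by
        change act (g * g') v = act g (act g' v)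
        obtain ⟨a, b, c, d, x, y, h, rfl⟩ := H58.Qd.exists_aff g
        obtain ⟨a', b', c', d', x', y', h', rfl⟩ := H58.Qd.exists_aff g'
        rw [H58.Qd.aff_mul, hact, hact, hact]
        exact Prod.ext (by ring) (by ring) }
  have hs : ∀ g v, MulAction.toPermHom (qd 2) (ZMod 2 × ZMod 2) g v = act g v := fun _ _ => rfl
  have hb : Function.Bijective (MulAction.toPermHom (qd 2) (ZMod 2 × ZMod 2)) := by
    refine ⟨(injective_iff_map_eq_one _).2 fun g hg => ?_, fun σ => ?_⟩
    · obtain ⟨a, b, c, d, x, y, h, rfl⟩ := H58.Qd.exists_aff g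
      have h0 := hs (H58.Qd.aff a b c d x y h) (0, 0)
      have h1 := hs (H58.Qd.aff a b c d x y h) (1, 0)
      have h2 := hs (H58.Qd.aff a b c d x y h) (0, 1)
      rw [hg, hact] at h0 h1 h2
      simp only [Equiv.Perm.coe_one, id, Prod.mk.injEq, mul_zero, mul_one, add_zero,
        zero_add] at h0 h1 h2
      obtain ⟨rfl, rfl⟩ := h0
      simp only [add_zero] at h1 h2
      obtain ⟨rfl, rfl⟩ := h1
      obtain ⟨rfl, rfl⟩ := h2
      exact H58.Qd.one_eq_aff.symm
    · have key : ∀ p0 p1 p2 p3 : ZMod 2 × ZMod 2, p0 ≠ p1 ∧ p0 ≠ p2 ∧ p0 ≠ p3 ∧ p1 ≠ p2 ∧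
          p1 ≠ p3 ∧ p2 ≠ p3 → (p1.1 - p0.1) * (p2.2 - p0.2) - (p2.1 - p0.1) * (p1.2 - p0.2) = 1 ∧
            p3 = p1 + p2 - p0 := by
        set_option synthInstance.maxSize 1000 in decide +kernel
      obtain ⟨k1, k2⟩ := key (σ (0, 0)) (σ (1, 0)) (σ (0, 1)) (σ (1, 1))
        ⟨σ.injective.ne (by decide), σ.injective.ne (by decide), σ.injective.ne (by decide),
        σ.injective.ne (by decide), σ.injective.ne (by decide), σ.injective.ne (by decide)⟩
      refine ⟨H58.Qd.aff _ _ _ _ (σ (0, 0)).1 (σ (0, 0)).2 k1, Equiv.ext fun v => ?_⟩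
      rw [hs, hact]
      have hv : ∀ v : ZMod 2 × ZMod 2, v = (0, 0) ∨ v = (1, 0) ∨ v = (0, 1) ∨ v = (1, 1) := by
        decide
      rcases hv v with rfl | rfl | rfl | rfl
      · simp
      · simp
      · simp
      · rw [k2]; exact Prod.ext (by simp; ring) (by simp; ring)
  exact ⟨(MulEquiv.ofBijective _ hb).trans
    (Fintype.equivFinOfCardEq (by simp : Fintype.card (ZMod 2 × ZMod 2) = 4)).permCongrHom⟩

end Cfsg.Agent.S2761
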