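import Cfsg.Statements.S2762
import Mathlib
import Cfsg.Agent.Base
import Cfsg.Agent.Lib.Functor.QdOver

set_option autoImplicit false
open Cfsg

namespace Cfsg.Agent.S2762

/-- Structure of Qd over a finite field F of characteristic p (the affine subgroup of SL₃(F)): its largest normal p-subgroup is the group of translations (matrices with upper-left block the identity), the block-diagonal matrices form a complement isomorphic to SL₂(F), and the translation subgroup is a natural SL₂(F)-module for that complement. -/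
theorem result {F : Type*} [Field F] [Fintype F] {p : ℕ} [Fact p.Prime] [CharP F p] : (∀ M : ↥(Cfsg.qdOver F), M ∈ Cfsg.pCore p ↥(Cfsg.qdOver F) ↔ ((M : Matrix.SpecialLinearGroup (Fin 3) F) : Matrix (Fin 3) (Fin 3) F) 0 0 = 1 ∧ ((M : Matrix.SpecialLinearGroup (Fin 3) F) : Matrix (Fin 3) (Fin 3) F) 0 1 = 0 ∧ ((M : Matrix.SpecialLinearGroup (Fin 3) F) : Matrix (Fin 3) (Fin 3) F) 1 0 = 0 ∧ ((M : Matrix.SpecialLinearGroup (Fin 3) F) : Matrix (Fin 3) (Fin 3) F) 1 1 = 1) ∧ ∃ K : Subgroup ↥(Cfsg.qdOver F), (∀ M : ↥(Cfsg.qdOver F), M ∈ K ↔ ((M : Matrix.SpecialLinearGroup (Fin 3) F) : Matrix (Fin 3) (Fin 3) F) 0 2 = 0 ∧ ((M : Matrix.SpecialLinearGroup (Fin 3) F) : Matrix (Fin 3) (Fin 3) F) 1 2 = 0) ∧ K ⊓ Cfsg.pCore p ↥(Cfsg.qdOver F) = ⊥ ∧ K ⊔ Cfsg.pCore p ↥(Cfsg.qdOver F) = ⊤ ∧ Nonempty (↥K ≃* Matrix.SpecialLinearGroup (Fin 2) F) ∧ Cfsg.IsNaturalSL2Module F (Cfsg.pCore p ↥(Cfsg.qdOver F)) K := by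
  open Subgroup H69 H59 in
  rw [QdF.pCore_eq p]
  refine ⟨fun M => QdF.mem_ker_lin_iff, (QdF.blk F).range, fun M => QdF.mem_range_blk, ?_, ?_,
    ⟨(MonoidHom.ofInjective QdF.blk_injective).symm⟩, QdF.isNaturalSL2Module⟩
  · rw [eq_bot_iff]
    rintro _ ⟨⟨g, rfl⟩, hg⟩
    have : QdF.lin F (QdF.blk F g) = 1 := hg
    rw [QdF.lin_blk] at this
    rw [this, map_one]; exact one_mem _
  · rw [eq_top_iff]
    intro g _
    have : g = QdF.blk F (QdF.lin F g) * ((QdF.blk F (QdF.lin F g))⁻¹ * g) := by group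
    rw [this]
    refine mul_mem_sup ⟨_, rfl⟩ ?_
    rw [MonoidHom.mem_ker, map_mul, map_inv, QdF.lin_blk, inv_mul_cancel]

end Cfsg.Agent.S2762
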