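import Cfsg.Statements.S2764
import Mathlib
import Cfsg.Agent.Base
import Cfsg.Agent.Lib.Push.Amal6

set_option autoImplicit false
open Cfsg

namespace Cfsg.Agent.S2764

open Subgroup H69 H24 H68.Push
open scoped commutatorElement

/-- Pushing up for a rank-one quotient: let G be a finite group and p a prime with C_G(O_p(G)) ≤ O_p(G), suppose G/K ≅ PSL₂(p^n) for some normal subgroup K and some n ≥ 1, that a Sylow p-subgroup S of G lies in exactly one maximal subgroup of G, and that no nontrivial characteristic subgroup of S is normal in G. Then G/O_p(G) ≅ SL₂(p^n), and every noncentral chief factor U/W of G inside O_p(G) is a natural SL₂-module over the field with p^n elements for the action of G/W. -/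
theorem result {G : Type*} [Group G] [Finite G] {p : ℕ} [Fact p.Prime] (S : Sylow p G) (hE₁ : Subgroup.centralizer (Cfsg.pCore p G : Set G) ≤ Cfsg.pCore p G) (hE₂ : ∃! M : Subgroup G, IsCoatom M ∧ (S : Subgroup G) ≤ M) (K : Subgroup G) [K.Normal] (F : Type) [Field F] [Fintype F] (n : ℕ) (hn : 1 ≤ n) (hF : Fintype.card F = p ^ n) (hE₃ : Nonempty (G ⧸ K ≃* Matrix.ProjectiveSpecialLinearGroup (Fin 2) F)) (hd : ∀ T : Subgroup ↥(S : Subgroup G), T ≠ ⊥ → T.Characteristic → ¬ (T.map (S : Subgroup G).subtype).Normal) : Nonempty (G ⧸ Cfsg.pCore p G ≃* Matrix.SpecialLinearGroup (Fin 2) F) ∧ ∀ (U W : Subgroup G) [W.Normal], U ≤ Cfsg.pCore p G → Cfsg.IsChiefFactor U W → ¬ ⁅U, (⊤ : Subgroup G)⁆ ≤ W → Cfsg.IsNaturalSL2Module F (U.map (QuotientGroup.mk' W)) (⊤ : Subgroup (G ⧸ W)) := by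
  obtain ⟨-, M, h⟩ := exists_pu_of_psl S hE₁ hE₂ K F hF hE₃
  have hQ := H70.pCoreOf_top p G
  have hU : ∀ {U W Z : Subgroup G}, IsChiefFactor U W → U ≤ pCore p G →
      ¬ ⁅U, (⊤ : Subgroup G)⁆ ≤ W → ⁅U, 𝐑(p, ⊤)⁆ ≤ U ⊓ Z ⊔ W → ¬ U ⊓ Z ≤ W :=
    fun hc h1 h2 h3 h4 => h2 (chief_comm_le hc ((hQ ▸ H70.isPGroup_pCoreOf p ⊤).to_le h1)
      (h3.trans (sup_le h4 le_rfl)))
  rcases exists_B h (free_of_normal hd) with ⟨A, D, hB⟩ | ⟨A, Y, D, E, hB⟩
  · obtain ⟨ρ, ψ, hN⟩ := hB.nat F rfl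
    refine ⟨hN.nonempty_quot_equiv_top _ (by rw [cm_bot, ← hQ, ← hB.cent, top_inf_eq]),
      fun U W _ h1 hc h2 => hN.natural_chief_bot hc (hU hc h1 h2 ?_) h2⟩
    have := hc.2.1
    exact (le_inf (commutator_le_left _ _)
      ((commutator_mono (hQ ▸ h1) le_rfl).trans hB.comm_res)).trans le_sup_left
  · obtain ⟨ρ, ψ, hN⟩ := hB.nat F rfl
    obtain ⟨ρ', ψ', hN'⟩ := hB.natQ F rfl
    refine ⟨hN.nonempty_quot_equiv_top _ (by rw [cm_bot, ← hQ, ← hB.cent.1, top_inf_eq]),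
      fun U W _ h1 hc h2 => ?_⟩
    have := hc.2.1
    haveI : D.Normal := normal_iff_top_le_normalizer.2 hB.normD
    rcases H57.chief_dichotomy hc D with h3 | h3
    · refine hN'.natural_chief hc ?_ (by rwa [inf_assoc, hB.kerD])
      rw [inf_eq_left.2 (hQ ▸ h1)]
      exact hc.1.not_ge
    · refine hN.natural_chief_bot hc (hU hc h1 h2 ?_) h2
      refine (commutator_mono h3.ge le_rfl).trans ((H57.commutator_sup_normal_le _ _ _).trans
        (sup_le_sup_right (le_inf ((commutator_le_left _ _).trans inf_le_left)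
          ((commutator_mono inf_le_right le_rfl).trans hB.comm_res)) _))

end Cfsg.Agent.S2764
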