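import Cfsg.Statements.S2766
import Mathlib
import Cfsg.Agent.Base
import Cfsg.Agent.Lib.Push.Qd

set_option autoImplicit false
open Cfsg

namespace Cfsg.Agent.S2766

open Subgroup H69 H24 H68.Push
open scoped commutatorElement

/-- Let p ≥ 5 be prime and G a maximal p-local subgroup of a finite group H (G is the normalizer of a nontrivial p-subgroup and lies in no other such normalizer). Suppose C_G(O_p(G)) ≤ O_p(G), G/K ≅ PSL₂(p^n) for some normal K and n ≥ 1, a Sylow p-subgroup S of G lies in exactly one maximal subgroup of G, and N_H(S) is not contained in G. Then G = G₀ × E for subgroups G₀ ≅ Qd(p^n) (the natural semidirect product of the plane over the field with p^n elements by SL₂) and E an elementary abelian p-group. -/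
theorem result {H : Type*} [Group H] [Finite H] {p : ℕ} [Fact p.Prime] (hp : 5 ≤ p) (G : Subgroup H) (hloc : ∃ R : Subgroup H, IsPGroup p ↥R ∧ R ≠ ⊥ ∧ G = Subgroup.normalizer (R : Set H)) (hmax : ∀ R : Subgroup H, IsPGroup p ↥R → R ≠ ⊥ → G ≤ Subgroup.normalizer (R : Set H) → Subgroup.normalizer (R : Set H) = G) (S : Sylow p ↥G) (hE₁ : Subgroup.centralizer (Cfsg.pCore p ↥G : Set ↥G) ≤ Cfsg.pCore p ↥G) (hE₂ : ∃! M : Subgroup ↥G, IsCoatom M ∧ (S : Subgroup ↥G) ≤ M) (K : Subgroup ↥G) [K.Normal] (F : Type) [Field F] [Fintype F] (n : ℕ) (hn : 1 ≤ n) (hF : Fintype.card F = p ^ n) (hE₃ : Nonempty (↥G ⧸ K ≃* Matrix.ProjectiveSpecialLinearGroup (Fin 2) F)) (hN : ¬ Subgroup.normalizer (((S : Subgroup ↥G).map G.subtype : Subgroup H) : Set H) ≤ G) : ∃ G₀ E : Subgroup H, Cfsg.IsInternalDirectProduct G₀ E G ∧ Cfsg.IsElementaryAbelian p E ∧ Nonempty (↥G₀ ≃* ↥(Cfsg.qdOver F)) := by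
  clear hloc
  obtain ⟨-, M, h⟩ := exists_pu_of_psl S hE₁ hE₂ K F hF hE₃
  replace h := h.map G.subtype_injective
  rw [H69.map_subtype_top] at h
  generalize (S : Subgroup G).map G.subtype = T at h hN
  have hf : ∀ N ≤ T, G ≤ 𝐍(N) → 𝐍(T) ≤ 𝐍(N) → N = ⊥ := fun N h1 h2 h3 => by
    by_contra h4
    exact hN (hmax N (h.isP.to_le h1) h4 h2 ▸ h3)
  rcases exists_B_amb h hf with ⟨x, hc, hB⟩ | ⟨A, Y, D, E, hB⟩
  swap
  · have := hB.three
    omega
  have hp2 : p ≠ 2 := by omega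
  have hT : ∀ t ∈ T, t ^ p = 1 := fun t ht => congrArg Subtype.val
    (hB.exponent_odd (free_of_amb hf) hp2 ▸ Monoid.pow_exponent_eq_one (⟨t, ht⟩ : T))
  refine hB.qd hp2 (EA.iff_mem.2 ⟨fun a ha b hb => ?_, fun a ha => hT a (h.Q_le ha)⟩) hT F rfl
  have h1 := H70.CD.commutator_sup_central ((sup_comm _ _).trans hB.supD.symm) hB.Z_le_cQ
  have h2 := dedekind_right (B := pCoreOf p G) (C := pCoreOf p (G ^ᶜ x))
    ((hc.le.trans hc.gz.le).trans hc.gz.normQ) hc.gz'.Z_le_Q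
  rw [← hc.sup, inf_eq_right.2 hc.gz'.Q_le] at h2
  have h3 := H70.CD.commutator_sup_central ((sup_comm _ _).trans h2.symm) hc.gz'.Z_le_cQ
  refine le_centralizer_of_commutator_eq_bot ?_ hb a ha
  by_contra h4
  have h5 := hmax _ (h.isP.to_le (H69.commutator_le_of_le h.Q_le h.Q_le)) h4
    (le_normalizer_commutator h.normQ h.normQ)
  have h6 : G ^ᶜ x ≤ G := by
    rw [h1, ← h3] at h5
    exact (le_normalizer_commutator hc.gz'.normQ hc.gz'.normQ).trans h5.le
  refine hc.nle ?_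
  rw [eq_of_le_of_card_ge h6 (H69.card_cj G x).ge]
  exact hc.gz.Z_le_Q

end Cfsg.Agent.S2766
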