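import Cfsg.Statements.S2768
import Mathlib
import Cfsg.Agent.Base
import Cfsg.Agent.Lib.Push.Baumann

set_option autoImplicit false
open Cfsg

namespace Cfsg.Agent.S2768

open Subgroup H69 H24 H68.Push Cfsg
open scoped commutatorElement

/-- Let G be a finite group and p a prime with C_G(O_p(G)) ≤ O_p(G), such that a Sylow p-subgroup S lies in exactly one maximal subgroup of G and G/K ≅ PSL₂(p^n) for some normal K and n ≥ 1. Put J̃(S) = C_S(Z(J(S))), where J(S) is generated by the abelian subgroups of S of largest order. If Z(S) is not normal in G, then J̃(S) is a Sylow p-subgroup of its normal closure ⟨J̃(S)^G⟩. -/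
theorem result {G : Type*} [Group G] [Finite G] {p : ℕ} [Fact p.Prime] (S : Sylow p G) (hE₁ : Subgroup.centralizer (Cfsg.pCore p G : Set G) ≤ Cfsg.pCore p G) (hE₂ : ∃! M : Subgroup G, IsCoatom M ∧ (S : Subgroup G) ≤ M) (K : Subgroup G) [K.Normal] (F : Type) [Field F] [Fintype F] (n : ℕ) (hn : 1 ≤ n) (hF : Fintype.card F = p ^ n) (hE₃ : Nonempty (G ⧸ K ≃* Matrix.ProjectiveSpecialLinearGroup (Fin 2) F)) (hZ : ¬ ((S : Subgroup G) ⊓ Subgroup.centralizer ((S : Subgroup G) : Set G)).Normal) : ∃ P : Sylow p ↥(Subgroup.normalClosure (((S : Subgroup G) ⊓ Subgroup.centralizer (Cfsg.centerThompsonAOf (S : Subgroup G) : Set G)) : Set G)), (P : Subgroup ↥(Subgroup.normalClosure (((S : Subgroup G) ⊓ Subgroup.centralizer (Cfsg.centerThompsonAOf (S : Subgroup G) : Set G)) : Set G))) = (((S : Subgroup G) ⊓ Subgroup.centralizer (Cfsg.centerThompsonAOf (S : Subgroup G) : Set G))).subgroupOf (Subgroup.normalClosure (((S : Subgroup G) ⊓ Subgroup.centralizer (Cfsg.centerThompsonAOf (S : Subgroup G) :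 Set G)) : Set G)) := by
  obtain ⟨-, M, h⟩ := exists_pu_of_psl S hE₁ hE₂ K F hF hE₃
  have h1 := h.baumann_sylow (e := 0) (by
    rw [omegaOne_zero, ← normal_iff_top_le_normalizer]; exact hZ)
  rw [omegaOne_zero, centerThompsonOf_zero, ncl_top] at h1
  exact h1.exists_sylow_subgroupOf

end Cfsg.Agent.S2768
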