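import Cfsg.Statements.S2769
import Mathlib
import Cfsg.Agent.Base
import Cfsg.Agent.Lib.Push.Baumann

set_option autoImplicit false
open Cfsg

namespace Cfsg.Agent.S2769

open Subgroup H69 H24 H68.Push Cfsg
open scoped commutatorElement

/-- Let G be a finite group and p a prime with C_G(O_p(G)) ≤ O_p(G), S a Sylow p-subgroup lying in exactly one maximal subgroup of G, and G/K ≅ PSL₂(p^n) for some normal K and n ≥ 1. Let J(S) be generated by the abelian subgroups of S of largest order. If [Z(J(S)), S] ≠ 1, then either [Z(J(S)), S] ∩ Z(S) is normal in G or C_S(Z(J(S))) is normal in G. -/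
theorem result {G : Type*} [Group G] [Finite G] {p : ℕ} [Fact p.Prime] (S : Sylow p G) (hE₁ : Subgroup.centralizer (Cfsg.pCore p G : Set G) ≤ Cfsg.pCore p G) (hE₂ : ∃! M : Subgroup G, IsCoatom M ∧ (S : Subgroup G) ≤ M) (K : Subgroup G) [K.Normal] (F : Type) [Field F] [Fintype F] (n : ℕ) (hn : 1 ≤ n) (hF : Fintype.card F = p ^ n) (hE₃ : Nonempty (G ⧸ K ≃* Matrix.ProjectiveSpecialLinearGroup (Fin 2) F)) (h : ⁅(Cfsg.centerThompsonAOf (S : Subgroup G)), (S : Subgroup G)⁆ ≠ ⊥) : (⁅(Cfsg.centerThompsonAOf (S : Subgroup G)), (S : Subgroup G)⁆ ⊓ ((S : Subgroup G) ⊓ Subgroup.centralizer ((S : Subgroup G) : Set G))).Normal ∨ (((S : Subgroup G) ⊓ Subgroup.centralizer (Cfsg.centerThompsonAOf (S : Subgroup G) : Set G))).Normal := by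
  clear h
  obtain ⟨-, M, h⟩ := exists_pu_of_psl S hE₁ hE₂ K F hF hE₃
  have hc : ∀ Y : Subgroup G, ⊤ ≤ 𝐂(Y) → Y.Normal := fun Y hY =>
    normal_iff_top_le_normalizer.2 (le_normalizer_of_le_centralizer hY)
  by_cases hY : ⊤ ≤ 𝐍(omegaOne 0 ((S : Subgroup G) ⊓ 𝐂((S : Subgroup G))))
  · left
    rw [omegaOne_zero] at hY
    exact hc _ ((h.le_centralizer_of_normal inf_le_right hY).trans
      (H69.centralizer_anti inf_le_right))
  by_cases hJ : thompsonSubgroupOf 0 (S : Subgroup G) ≤ pCoreOf p ⊤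
  · right
    have := h.baumann_normal_of_le hY hJ
    rwa [omegaOne_zero, centerThompsonOf_zero, ← normal_iff_top_le_normalizer] at this
  left
  obtain ⟨A, hA, hAQ⟩ := PU.exists_off hJ
  obtain ⟨-, -, -, h1, -, -, -, h2⟩ := h.baumann_struct hA hAQ (le_normalizer_ncl _ ⊤)
    (h.ncl_le_Q (PU.omega_le _)) (h.ncl_ea (PU.omega_le _) (omegaOne_center_isElementaryAbelian _))
    (h.not_res_le_centralizer (PU.omega_le _) (le_ncl _ ⊤) hY) rfl rfl
  rw [omegaOne_zero, centerThompsonOf_zero] at h1 h2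
  refine hc _ (h1.le.trans (sup_le (le_centralizer_comm.1 (inf_le_left.trans h2)) ?_))
  exact h.Q_le.trans (le_centralizer_comm.1 (inf_le_right.trans inf_le_right))

end Cfsg.Agent.S2769
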