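import Cfsg.Statements.S2772
import Mathlib
import Cfsg.Agent.Lib.Gold3.WE
import Cfsg.Agent.Lib.FGS.OrbitCong

set_option autoImplicit false
open Cfsg

namespace Cfsg.Agent.S2772

/-- Sims' Theorem in local form: let H be a finite non-abelian simple group and G a maximal subgroup of H with C_G(O₂(G)) ≤ O₂(G), such that N_H(S) is not contained in G for a Sylow 2-subgroup S of G and G/O₂(G) is dihedral of order 2q for a prime q. Then G is isomorphic to the symmetric group of degree 4 or to its direct product with a group of order 2. -/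
theorem result {H : Type*} [Group H] [Finite H] [IsSimpleGroup H] (hna : ¬ IsMulCommutative H) (G : Subgroup H) (hG : IsCoatom G) (hchar : Subgroup.centralizer (Cfsg.pCore 2 ↥G : Set ↥G) ≤ Cfsg.pCore 2 ↥G) (S : Sylow 2 ↥G) (hN : ¬ Subgroup.normalizer (((S : Subgroup ↥G).map G.subtype : Subgroup H) : Set H) ≤ G) (q : ℕ) (hq : q.Prime) (hD : Nonempty (↥G ⧸ Cfsg.pCore 2 ↥G ≃* DihedralGroup q)) : Nonempty (↥G ≃* Equiv.Perm (Fin 4)) ∨ Nonempty (↥G ≃* Equiv.Perm (Fin 4) × Multiplicative (ZMod 2)) := by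
  open Subgroup H69 H70 H3.G3 in
  obtain ⟨e⟩ := hD
  set T : Subgroup H := (S : Subgroup G).map G.subtype with hT
  have hTs : H68.SylowIn 2 T G := H68.sylowIn_map S
  have hq0 := hq.pos
  have h6 : (pCore 2 G).index = 2 * q := by
    have : NeZero q := ⟨hq.ne_zero⟩
    rw [Subgroup.index, Nat.card_congr e.toEquiv, DihedralGroup.nat_card]
  have hGbot : G ≠ ⊥ := by
    rintro rfl
    have := (pCore 2 (⊥ : Subgroup H)).index_dvd_card
    rw [h6, Subgroup.card_bot] at this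
    exact absurd (Nat.le_of_dvd one_pos this) (by omega)
  have nbot : ∀ N : Subgroup H, N ≤ G → G < 𝐍(N) → N = ⊥ := fun N h1 h2 =>
    ((normalizer_eq_top_iff.1 (hG.2 _ h2)).eq_bot_or_eq_top).resolve_right fun e => hG.1 (top_le_iff.1 (e ▸ h1))
  have hNG : 𝐍(G) ≤ G := by
    by_contra h1
    exact hGbot (nbot G le_rfl (lt_of_le_of_ne le_normalizer fun e => h1 e.ge))
  have hO : pCore 2 G ≤ (S : Subgroup G) := H70.pCore_le_sylow S
  have hm := relIndex_mul_index hO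
  have hodd : ¬ 2 ∣ (S : Subgroup G).index := S.not_dvd_index
  obtain ⟨k, hk⟩ := (S.isPGroup'.index ((pCore 2 G).subgroupOf S))
  have hk' : (pCore 2 G).relIndex S = 2 ^ k := hk
  rw [h6, hk'] at hm
  have hS1 : (S : Subgroup G).index ≠ 1 := fun h1 => hN (by
    rw [hT, index_eq_one.1 h1, map_subtype_top]; exact hNG)
  have h23 : 2 ^ k = 2 ∧ (S : Subgroup G).index = q := by
    rcases k with _ | k
    · exact absurd ⟨q, by omega⟩ hodd
    · have h1 : 2 ^ k * (S : Subgroup G).index = q := by rw [pow_succ] at hm; linarith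
      have h2 := (Nat.dvd_prime hq).1 (Dvd.intro_left _ h1)
      rw [h2.resolve_left hS1] at h1 ⊢
      have : 2 ^ k = 1 := Nat.eq_of_mul_eq_mul_right hq0 (by rw [h1, one_mul])
      exact ⟨by rw [pow_succ, this, one_mul], rfl⟩
  have iq : T.relIndex G = q := by rw [relIndex, hT, subgroupOf_map_subtype', h23.2]
  have i2 : 𝐎(G).relIndex T = 2 := by
    rw [hT, pCoreOf, relIndex_map_map_of_injective _ _ G.subtype_injective, hk', h23.1]
  have hOT : 𝐎(G) ≤ T := hTs.pCoreOf_le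
  have hch : G ⊓ 𝐂(𝐎(G)) ≤ 𝐎(G) := charP_iff.2 hchar
  obtain ⟨x, hx, hxG⟩ := exists_not_mem_of_not_le hN
  have hTx : T ^ᶜ x = T := cj_eq_of_mem_normalizer hx
  have hne : ¬ G ^ᶜ x ≤ G := fun h1 => hxG (hNG (mem_normalizer_of_cj_le h1))
  have hne' : ¬ G ≤ G ^ᶜ x := fun h1 => hxG (inv_mem_iff.1 (hNG (mem_normalizer_of_cj_le (le_cj_iff.1 h1))))
  have hTB : T ≤ G ^ᶜ x := hTx ▸ cj_mono x hTs.le
  have hinf : G ⊓ G ^ᶜ x = T :=
    (eq_or_eq_of_relIndex_prime hq iq (le_inf hTs.le hTB) inf_le_left).resolve_right fun e => hne' (e.ge.trans inf_le_right)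
  have core : ∀ N : Subgroup H, N ≤ G ⊓ G ^ᶜ x → G ≤ 𝐍(N) → G ^ᶜ x ≤ 𝐍(N) → N = ⊥ := fun N h1 h2 h3 =>
    nbot N (h1.trans inf_le_left) (lt_of_le_of_ne h2 fun e => hne (h3.trans e.ge))
  have core' : ∀ N : Subgroup H, N ≤ T → G ≤ 𝐍(N) → x ∈ 𝐍(N) → N = ⊥ := fun N h1 h2 h3 =>
    nbot N (h1.trans hTs.le) (lt_of_le_of_ne h2 fun e => hxG (e ▸ h3))
  have hTO : ¬ T ≤ 𝐎(G) := not_le_of_relIndex_prime Nat.prime_two i2
  have hZ : 𝐙(T) ≠ ⊥ := oz2_ne_bot hTs.isPGroup fun e => hTO (e.le.trans bot_le)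
  have hnc : ¬ G ≤ 𝐂(𝐙(T)) := fun h1 =>
    hZ (core' _ (oz2_le T) (le_normalizer_of_le_centralizer h1) (norm_le_norm_oz2 T hx))
  have leO : ∀ N : Subgroup H, N ≤ T → G ≤ 𝐍(N) → N ≤ 𝐎(G) := fun N h1 h2 =>
    le_pCoreOf (hTs.isPGroup.to_le h1) (h1.trans hTs.le) h2
  have gen : ∀ {N C : Subgroup H}, T ≤ N → C ≤ G → ¬ C ≤ T → C ≤ N → G ≤ N := fun {N C} h1 h2 h3 h4 => by
    obtain ⟨y, hy, hyT⟩ := exists_not_mem_of_not_le h3
    exact le_of_relIndex_prime hq iq hTs.le h1 (h2 hy) hyT (h4 hy)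
  have hV : Zv G ≤ 𝐙(𝐎(G)) := H68.CharP'.Z_le_oz hch
  have hVea : IsElementaryAbelian 2 (Zv G) := H24.EA.mono (oz2_ea _) hV
  have hOV : 𝐎(G) ≤ 𝐂(Zv G) := (le_cent_oz2 _).trans (H69.centralizer_anti hV)
  have hCV : G ⊓ 𝐂(Zv G) ≤ 𝐎(G) := by
    by_cases h1 : G ⊓ 𝐂(Zv G) ≤ T
    · exact leO _ h1 (H69.le_normalizer_inf le_normalizer (H69.le_normalizer_centralizer (le_norm_Zv G)))
    · exact absurd (gen (le_cent_oz2 _) inf_le_left h1 (inf_le_right.trans (H69.centralizer_anti hTs.oz_le_Z))) hnc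
  have hJ : ¬ 𝐉(T) ≤ 𝐎(G) := fun h1 => by
    have h2 := core' _ (J_le T) (by
      rw [← H24.thompsonSubgroupOf_eq_of_le h1 hOT]
      exact (le_normalizer_pCoreOf 2 G).trans (norm_le_norm_J _)) (norm_le_norm_J T hx)
    obtain ⟨E, hE⟩ := H24.maxEA_nonempty 2 T
    refine hZ (eq_bot_iff.2 (le_trans ?_ ((H24.le_thompsonSubgroupOf hE).trans h2.le)))
    exact H24.le_of_mem_maxEA_of_le_centralizer hE (oz2_le T) (oz2_ea T)
      ((oz2_le_cent T).trans (H69.centralizer_anti (H24.mem_maxEA.1 hE).1))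
  rw [H24.thompsonSubgroupOf_le_iff] at hJ
  push Not at hJ
  obtain ⟨E, hE, hEO⟩ := hJ
  obtain ⟨hET, hEea, hEmax⟩ := H24.mem_maxEA.1 hE
  have l2 : Le2 𝐎(G) T := le2_of_relIndex i2
  have hEV : Le2 𝐂(E) (Zv G) := by
    have h1 := (l2.mono_right hET).card_le
    have hc : 𝐎(G) ⊓ E ≤ 𝐂(Zv G) := inf_le_left.trans hOV
    have h2 := hEmax ((𝐎(G) ⊓ E) ⊔ Zv G) (sup_le (inf_le_left.trans hOT) (hV.trans ((oz2_le _).trans hOT)))
      (H24.EA.sup (H24.EA.mono hEea inf_le_right) hVea hc)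
    have h3 := H24.card_sup_mul_card_inf (le_normalizer_of_le_centralizer hc)
    have h4 : Nat.card (𝐎(G) ⊓ E ⊓ Zv G : Subgroup H) ≤ Nat.card (𝐂(E) ⊓ Zv G : Subgroup H) :=
      card_le_of_le (inf_le_inf_right _ (inf_le_right.trans (H24.EA.le_centralizer hEea)))
    refine le2_of_card_le (Nat.le_of_mul_le_mul_left (c := Nat.card (𝐎(G) ⊓ E : Subgroup H)) ?_ Nat.card_pos)
    rw [← h3]
    calc _ ≤ 2 * Nat.card (𝐎(G) ⊓ E : Subgroup H) * Nat.card (𝐂(E) ⊓ Zv G : Subgroup H) :=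
          Nat.mul_le_mul (h2.trans h1) h4
      _ = _ := by ring
  obtain ⟨g, hg, hEg⟩ : ∃ g ∈ G, ¬ E ^ᶜ g ≤ T := by
    by_contra h1
    push Not at h1
    exact hEO ((le_ncl E G).trans (leO _ (ncl_le_iff.2 h1) (le_normalizer_ncl E G)))
  have hEV' : Le2 𝐂(E ^ᶜ g) (Zv G) := by
    have := hEV.cj g
    rwa [cj_centralizer, cj_eq_of_mem_normalizer (le_norm_Zv G hg)] at this
  set C : Subgroup H := 𝐂(E ^ᶜ g) ⊓ (𝐂(E) ⊓ Zv G) with hC
  have hC4 : Nat.card (Zv G) ≤ 4 * Nat.card C := by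
    have h1 := hEV.card_le
    have h2 := (hEV'.mono_right (inf_le_right : 𝐂(E) ⊓ Zv G ≤ Zv G)).card_le
    rw [← hC] at h2
    omega
  have hGC : G ≤ 𝐂(C) := by
    refine gen (l2.le_of_not_le (inf_le_left.trans (hOV.trans (H69.centralizer_anti
      (inf_le_right.trans inf_le_right)))) hET hEO ?_) (cj_le_of_mem (hET.trans hTs.le) hg) hEg ?_
    · exact le_centralizer_comm.1 (inf_le_right.trans inf_le_left)
    · exact le_centralizer_comm.1 inf_le_left
  have : Fact q.Prime := ⟨hq⟩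
  have hq2 : q.Coprime 2 := (Nat.coprime_primes hq Nat.prime_two).2 fun e => hodd (by rw [h23.2, e])
  obtain ⟨y, hy⟩ := exists_prime_orderOf_dvd_card' (G := G) q (h23.2 ▸ index_dvd_card _)
  have hy' : orderOf (y : H) = q := by rw [Subgroup.orderOf_coe, hy]
  have hmod := H77.card_modEq_card_inf_centralizer_pow (Q := Zv G) (q := q) (k := 1) (g := y) (le_norm_Zv G y.2)
    (by rw [pow_one, ← hy', pow_orderOf_eq_one]) 0
  simp only [pow_zero, pow_one, zero_add] at hmod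
  set F : Subgroup H := Zv G ⊓ centralizer {(y : H)} with hF
  have hCF : Nat.card C ≤ Nat.card F := card_le_of_le (le_inf (inf_le_right.trans inf_le_right)
    (le_centralizer_singleton_iff.2 (hGC y.2)))
  obtain ⟨m, hm'⟩ : Nat.card F ∣ Nat.card (Zv G) := card_dvd_of_le (inf_le_left : F ≤ Zv G)
  have hFpos : 0 < Nat.card F := Nat.card_pos
  have hm4 : m ≤ 4 := by
    refine Nat.le_of_mul_le_mul_left (c := Nat.card F) ?_ hFpos
    rw [← hm']; omega
  have hm1 : m ≠ 1 := fun h1 => by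
    have h2 : F = Zv G := eq_of_le_of_card_ge inf_le_left (by rw [hm', h1, mul_one])
    have h3 := eq_one_of_mem_isPGroup (isPGroup_pCoreOf 2 G) (x := y)
      (hCV ⟨y.2, le_centralizer_singleton_iff.1 (h2.ge.trans inf_le_right)⟩) (hy' ▸ hq2)
    rw [h3, orderOf_one] at hy'
    exact hq.one_lt.ne hy'
  have hq3 : q = 3 := by
    obtain ⟨a, ha⟩ := H24.EA.exists_card hVea
    obtain ⟨b, hb⟩ := H24.EA.exists_card (H24.EA.mono hVea (inf_le_left : F ≤ Zv G))
    have h1 : q ∣ m - 1 := by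
      have hm0 : m ≠ 0 := by rintro rfl; have := Nat.card_pos (α := Zv G); omega
      have h2 : q ∣ Nat.card F * (m - 1) := by
        have := (Nat.modEq_iff_dvd' (by rw [hm']; exact Nat.le_mul_of_pos_right _ (by omega))).1 hmod.symm
        rwa [hm', ← Nat.mul_sub_one] at this
      exact (Nat.Coprime.dvd_mul_left (hb ▸ hq2.pow_right b)).1 h2
    have h2 : m ∣ 2 ^ a := ha ▸ Dvd.intro_left _ hm'.symm
    have h3 : m ≠ 3 := fun e => by
      have := Nat.prime_three.dvd_of_dvd_pow (e ▸ h2)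
      omega
    have hm0 : m ≠ 0 := by rintro rfl; have := Nat.card_pos (α := Zv G); omega
    rcases (by omega : m = 2 ∨ m = 4) with rfl | rfl
    · exact absurd (Nat.le_of_dvd one_pos h1) (by have := hq.two_le; omega)
    · exact (Nat.prime_dvd_prime_iff_eq hq Nat.prime_three).1 h1
  have h1 : (G ^ᶜ x).relIndex G = 3 := by rw [← inf_relIndex_left, hinf, iq, hq3]
  have h2 : G.relIndex (G ^ᶜ x) = 3 := by
    rw [← inf_relIndex_right, hinf, ← hTx, relIndex_cj, iq, hq3]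
  have hc6 : Nat.card G = Nat.card (pCore 2 G) * 6 := by
    rw [← (pCore 2 G).card_mul_index, h6, hq3]
  have hc2 : Nat.card (pCore 2 G) ≠ 1 ∧ Nat.card (pCore 2 G) ≠ 2 := by
    have key : ¬ Nat.card 𝐎(G) ≤ 2 := fun h => hne' ((le_inf le_rfl ((le_normalizer_pCoreOf 2 G).trans
      (normalizer_le_centralizer_of_card_le_two h))).trans (hch.trans (hOT.trans hTB)))
    rw [pCoreOf, H69.card_map_subtype] at key
    omega
  rcases sims rfl h1 h2 core with ⟨⟨f⟩⟩ | ⟨⟨f⟩⟩ | ⟨⟨f⟩⟩ | h | h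
  · rw [Nat.card_congr f.toEquiv] at hc6
    simp at hc6
    omega
  · rw [Nat.card_congr f.toEquiv, Nat.card_perm] at hc6
    rw [Nat.card_eq_fintype_card (α := Fin 3), Fintype.card_fin, show Nat.factorial 3 = 6 from rfl] at hc6
    omega
  · rw [Nat.card_congr f.toEquiv, DihedralGroup.nat_card] at hc6
    omega
  · exact Or.inl h
  · exact Or.inr h

end Cfsg.Agent.S2772
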