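import Cfsg.Statements.S2779
import Mathlib
import Cfsg.Agent.Base
import Cfsg.Agent.Lib.Tech58.NatBridge

set_option autoImplicit false
open Cfsg

namespace Cfsg.Agent.S2779

open Subgroup H45 H69 H68.Push
open scoped commutatorElement

/-- Let L act on the elementary abelian p-group V (inside a finite group, by conjugation, faithfully) as SL₂(F) on its natural module, F a field with p^n elements, and let S be a Sylow p-subgroup of L. Then [V, S, S] = 1; |V| = p^(2n) and |C_V(S)| = p^n; and for every nonidentity s ∈ S and every v ∈ V outside C_V(S): C_V(s) = C_V(S) = [V, S] = [V, s] = the subgroup generated by the commutators [v, t], t ∈ S. -/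
theorem result {G : Type*} [Group G] [Finite G] {p : ℕ} [Fact p.Prime] {F : Type*} [Field F] [Fintype F] (n : ℕ) (hF : Fintype.card F = p ^ n) (V L : Subgroup G) (hnat : Cfsg.IsNaturalSL2Module F V L) (hf : L ⊓ Subgroup.centralizer (V : Set G) = ⊥) (S : Sylow p ↥L) (T : Subgroup G) (hT : T = ((S : Subgroup ↥L).map L.subtype)) : ⁅⁅V, T⁆, T⁆ = ⊥ ∧ Nat.card V = p ^ (2 * n) ∧ Nat.card ↥(V ⊓ Subgroup.centralizer ((T : Subgroup G) : Set G)) = p ^ n ∧ ∀ s ∈ T, s ≠ 1 → (V ⊓ Subgroup.centralizer ({s} : Set G)) = (V ⊓ Subgroup.centralizer ((T : Subgroup G) : Set G)) ∧ ⁅V, T⁆ = (V ⊓ Subgroup.centralizer ((T : Subgroup G) : Set G)) ∧ ⁅V, Subgroup.zpowers s⁆ = (V ⊓ Subgroup.centralizer ((T : Subgroup G) : Set G)) ∧ ∀ v ∈ V, v ∉ Subgroup.centralizer (T : Set G) → Subgroup.closure {x : G | ∃ t ∈ T, x = v * t * v⁻¹ * t⁻¹} = (V ⊓ Subgroup.centralizer ((T : Subgroup G) : Set G)) := by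
  haveI : CharP F p := charP_of_card_eq_prime_pow hF
  obtain ⟨ρ, ψ, h, hC⟩ := H58.Nat2.bridge hnat hf S
  rw [← hT] at h
  have hq := h.quad
  have h1 := h.card_V
  have h2 := h.card_fix
  simp only [cm_bot, hC, card_bot, mul_one, Nat.card_eq_fintype_card (α := F), hF] at hq h1 h2
  rw [commutator_comm] at hq
  refine ⟨commutator_eq_bot_of_le_centralizer (hq.trans inf_le_right), by rw [h1, ← pow_mul, mul_comm], h2,
    fun s hs hs1 => ?_⟩
  have hB : ¬ zpowers s ≤ cm ⊥ V := fun hh => by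
    rw [cm_bot, zpowers_le] at hh
    exact hs1 (mem_bot.1 (hf.le ⟨h.leT hs, hh⟩))
  have h3 := h.inf_cm_eq (zpowers_le.2 hs) hB
  have h4 := h.inf_cm_eq_sup (zpowers_le.2 hs) hB
  have h5 := h.inf_cm_eq_sup le_rfl h.not_le_cm
  simp only [cm_bot, hC, sup_bot_eq, H69.centralizer_zpowers] at h3 h4 h5
  refine ⟨h3, h5.symm, h4.symm, fun v hv hvc => le_antisymm ((closure_le _).2 ?_) fun u hu => ?_⟩
  · rintro _ ⟨t, ht, rfl⟩
    exact hq (commutator_mem_commutator hv ht)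
  · have e1 : ψ v 1 ≠ 0 := fun e => hvc (cm_bot T ▸ (h.fix v hv).2 e)
    have e2 : ψ u 1 = 0 := (h.fix u hu.1).1 (cm_bot T ▸ hu.2)
    obtain ⟨t, ht, e⟩ := h.up_surj (-ψ u 0 / ψ v 1)
    have hm := h.comm_mem (h.leT ht) hv
    have e3 : ψ (u * ⁅t, v⁆) = 0 := by
      rw [h.ψ_mul _ hu.1 _ hm, h.ψ_comm_up (h.leT ht) hv e]
      ext i
      fin_cases i <;> simp [e1, e2]
    have e4 := (h.ψ_ker _ (mul_mem hu.1 hm)).1 e3
    rw [cm_bot] at e4
    have e5 := mul_eq_one_iff_eq_inv.1 (mem_bot.1 (hC.le ⟨mul_mem hu.1 hm, e4⟩))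
    rw [commutatorElement_inv] at e5
    exact Subgroup.subset_closure ⟨t, ht, e5⟩

end Cfsg.Agent.S2779
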