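import Cfsg.Statements.S2780
import Mathlib
import Cfsg.Agent.Base
import Cfsg.Agent.Lib.Tech58.NatBridge

set_option autoImplicit false
open Cfsg

namespace Cfsg.Agent.S2780

open Subgroup H45 H69 H68.Push H24 Matrix
open scoped commutatorElement MatrixGroups

theorem eq_upT {F : Type*} [Field F] {g : SL(2, F)} (h1 : g.1 1 0 = 0) (h2 : g.1 0 0 = 1) : g = upT (g.1 0 1) := by
  have h3 := g.2
  rw [Matrix.det_fin_two, h1, h2, one_mul, mul_zero, sub_zero] at h3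
  ext i j
  fin_cases i <;> fin_cases j <;> first | exact h1 | exact h2 | exact h3 | rfl

/-- Let L act on the elementary abelian p-group V (inside a finite group, faithfully) as SL₂(F) on its natural module, F a field with p^n elements, S a Sylow p-subgroup of L. Then: for every g ∈ L not normalizing S, V is the internal direct product of C_V(S) and C_V(gSg⁻¹); every nonidentity element of L of order prime to p acts on V without nonidentity fixed points; and C_V(S) and V/C_V(S) are irreducible for N_L(S): the only N_L(S)-invariant subgroups of C_V(S) are 1 and C_V(S), and the only N_L(S)-invariant subgroups between C_V(S) and V are those two. -/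
theorem result {G : Type*} [Group G] [Finite G] {p : ℕ} [Fact p.Prime] {F : Type*} [Field F] [Fintype F] (n : ℕ) (hF : Fintype.card F = p ^ n) (V L : Subgroup G) (hnat : Cfsg.IsNaturalSL2Module F V L) (hf : L ⊓ Subgroup.centralizer (V : Set G) = ⊥) (S : Sylow p ↥L) (T : Subgroup G) (hT : T = ((S : Subgroup ↥L).map L.subtype)) : (∀ g ∈ L, g ∉ Subgroup.normalizer (T : Set G) → Cfsg.IsInternalDirectProduct (V ⊓ Subgroup.centralizer ((T : Subgroup G) : Set G)) (V ⊓ Subgroup.centralizer ((T.map (MulAut.conj g).toMonoidHom : Subgroup G) : Set G)) V) ∧ (∀ x ∈ L, x ≠ 1 → (orderOf x).Coprime p → (V ⊓ Subgroup.centralizer ({x} : Set G)) = ⊥) ∧ (∀ U : Subgroup G, U ≤ (V ⊓ Subgroup.centralizer ((T : Subgroup G) : Set G)) → L ⊓ Subgroup.normalizer (T : Set G) ≤ Subgroup.normalizer (U : Set G) → U = ⊥ ∨ U = (V ⊓ Subgroup.centralizer ((T : Subgroup G) : Set G))) ∧ (∀ U : Subgroup G, (V ⊓ Subgroup.centralizer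 ((T : Subgroup G) : Set G)) ≤ U → U ≤ V → L ⊓ Subgroup.normalizer (T : Set G) ≤ Subgroup.normalizer (U : Set G) → U = (V ⊓ Subgroup.centralizer ((T : Subgroup G) : Set G)) ∨ U = V) := by
  haveI : CharP F p := charP_of_card_eq_prime_pow hF
  obtain ⟨ρ, ψ, h, hC⟩ := H58.Nat2.bridge hnat hf S
  rw [← hT] at h
  have hfix : ∀ v ∈ V, v ∈ 𝐂(T) ↔ ψ v 1 = 0 := fun v hv => cm_bot T ▸ h.fix v hv
  have hker : ∀ v ∈ V, ψ v = 0 → v = 1 := fun v hv e =>
    mem_bot.1 (hC.le ⟨hv, cm_bot L ▸ (h.ψ_ker v hv).1 e⟩)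
  have hρ : ∀ x ∈ L, ρ x = 1 → x = 1 := fun x hx e =>
    mem_bot.1 (hf.le ⟨hx, cm_bot V ▸ (h.ρ_ker x hx).1 e⟩)
  have h0 : ∀ v ∈ V ⊓ 𝐂(T), v ≠ 1 → ψ v 0 ≠ 0 := fun v hv h1 e => h1 (hker v hv.1 (by
    ext i
    fin_cases i
    · exact e
    · exact (hfix v hv.1).1 hv.2))
  have hN : ∀ x ∈ L, (ρ x).1 1 0 = 0 → x ∈ 𝐍(T) := fun x hx e => H24.mem_normalizer_of_conj_mem fun t ht => by
    obtain ⟨c, hc⟩ := h.up t ht
    have h1 : ρ x * upT c * (ρ x)⁻¹ ∈ H10.unitriSL (Fin 2) F := H69.conj_mem_of_mem_normalizer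
      (H10.borelSL_le_normalizer_unitriSL (H10.mem_borelSL_two.2 e)) (H10.mem_unitriSL_two.2 ⟨rfl, rfl, rfl⟩)
    obtain ⟨h2, h3, -⟩ := H10.mem_unitriSL_two.1 h1
    obtain ⟨t', ht', e'⟩ := h.up_surj ((ρ x * upT c * (ρ x)⁻¹).1 0 1)
    have hx' : x * t * x⁻¹ ∈ L := mul_mem (mul_mem hx (h.leT ht)) (inv_mem hx)
    have := hρ _ (mul_mem hx' (inv_mem (h.leT ht'))) (by
      rw [h.ρ_mul _ hx' _ (inv_mem (h.leT ht')), h.ρ_mul _ (mul_mem hx (h.leT ht)) _ (inv_mem hx),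
        h.ρ_mul _ hx _ (h.leT ht), h.ρ_inv hx, h.ρ_inv (h.leT ht'), e', hc, ← eq_upT h2 h3, mul_inv_cancel])
    rwa [mul_inv_eq_one.1 this]
  have hdiag : ∀ a : F, a ≠ 0 → ∃ x ∈ L ⊓ 𝐍(T), ∀ v ∈ V, ψ (x * v * x⁻¹) = ![a * ψ v 0, a⁻¹ * ψ v 1] := by
    intro a ha
    obtain ⟨x, hx, e⟩ := h.ρ_surj (H64.SL2.mk a 0 0 a⁻¹ (by simp [ha]))
    refine ⟨x, ⟨hx, hN x hx (by rw [e]; rfl)⟩, fun v hv => ?_⟩
    rw [h.equiv x hx v hv, e]
    ext i
    fin_cases i <;> simp [H64.SL2.mk, mulVec, dotProduct]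
  have hVc : V ≤ 𝐂(V) := le_centralizer_of_commutator_eq_bot (eq_bot_iff.2 h.comm)
  refine ⟨fun g hg hgn => ?_, fun x hx hx1 hco => ?_, fun U hU hn => ?_, fun U hU1 hU2 hn => ?_⟩
  · have hi : (V ⊓ 𝐂(T)) ⊓ (V ⊓ 𝐂(T ^ᶜ g)) = ⊥ := eq_bot_iff.2 fun v hv => by
      by_contra h1
      have h2 : v ∈ 𝐂(T ^ᶜ g) := hv.2.2
      rw [← cj_centralizer, mem_cj] at h2
      have h3 := (hfix _ (H69.conj_mem_of_mem_normalizer' (h.normV hg) hv.1.1)).1 h2
      have h4 := h.equiv g⁻¹ (inv_mem hg) v hv.1.1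
      rw [inv_inv] at h4
      rw [h4] at h3
      simp only [mulVec, dotProduct, Fin.sum_univ_two, (hfix v hv.1.1).1 hv.1.2, mul_zero, add_zero,
        mul_eq_zero, h0 v hv.1 h1, or_false] at h3
      exact hgn (inv_mem_iff.1 (hN _ (inv_mem hg) h3))
    have hc : V ⊓ 𝐂(T ^ᶜ g) ≤ 𝐂(V ⊓ 𝐂(T)) := inf_le_left.trans (centsS hVc inf_le_left)
    refine ⟨inf_le_left, inf_le_left, fun a ha b hb => mem_centralizer_iff_commute.1 (hc hb) a ha, hi,
      eq_of_le_of_card_ge (sup_le inf_le_left inf_le_left) ?_⟩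
    rw [(mulEq_of_cent hc).card_of_inf_eq_bot hi, ← cj_centralizer]
    conv_rhs => rw [← cj_eq_of_mem_normalizer (h.normV hg)]
    have h1 := h.card_V'
    have h2 := h.card_fix
    simp only [cm_bot, hC, card_bot, mul_one] at h1 h2
    rw [← cj_inf, card_cj, cj_eq_of_mem_normalizer (h.normV hg), h1, h2]
  · refine eq_bot_iff.2 fun v hv => ?_
    by_contra h1
    obtain ⟨m, hm⟩ := exists_sl_mulVec (fun e => h1 (hker v hv.1 e)) (show (![1, 0] : Fin 2 → F) ≠ 0 by simp)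
    obtain ⟨y, hy, rfl⟩ := h.ρ_surj m
    have hz : y * x * y⁻¹ ∈ L := mul_mem (mul_mem hy hx) (inv_mem hy)
    have h2 := h.equiv _ hz _ (h.conj_mem hy hv.1)
    have h3 : y * x * y⁻¹ * (y * v * y⁻¹) * (y * x * y⁻¹)⁻¹ = y * v * y⁻¹ := by
      have := mem_cent1_iff.1 hv.2
      calc _ = y * (x * v) * x⁻¹ * y⁻¹ := by group
        _ = _ := by rw [← this]; group
    rw [h3, h.equiv y hy v hv.1, hm] at h2
    have h4 := congrFun h2 0
    have h5 := congrFun h2 1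
    simp only [mulVec, dotProduct, Fin.sum_univ_two, cons_val_zero, cons_val_one, mul_one, mul_zero,
      add_zero] at h4 h5
    have h6 := hρ _ (pow_mem hz p) (by rw [h.ρ_pow hz, eq_upT h5.symm h4.symm, upT_pow_char])
    rw [conj_pow, mul_inv_eq_one, mul_eq_left] at h6
    exact hx1 (orderOf_eq_one_iff.1 (hco.eq_one_of_dvd (orderOf_dvd_of_pow_eq_one h6)))
  · refine or_iff_not_imp_left.2 fun hU0 => le_antisymm hU fun w hw => ?_
    obtain ⟨⟨u, hu⟩, hu1⟩ := ne_bot_iff_exists_ne_one.1 hU0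
    have hu2 := h0 u (hU hu) fun e => hu1 (Subtype.ext e)
    by_cases hw1 : w = 1
    · rw [hw1]; exact one_mem _
    obtain ⟨x, hx, e⟩ := hdiag (ψ w 0 / ψ u 0) (div_ne_zero (h0 w hw hw1) hu2)
    have h1 := H69.conj_mem_of_mem_normalizer (hn hx) hu
    have := hker _ (mul_mem hw.1 (inv_mem (hU h1).1)) (by
      rw [h.ψ_mul _ hw.1 _ (inv_mem (hU h1).1), h.ψ_inv (hU h1).1, e u (hU hu).1]
      ext i
      fin_cases i <;> simp [hu2, (hfix w hw.1).1 hw.2, (hfix u (hU hu).1).1 (hU hu).2])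
    rwa [mul_inv_eq_one.1 this]
  · refine or_iff_not_imp_left.2 fun hU0 => le_antisymm hU2 fun w hw => ?_
    obtain ⟨u, hu, hu1⟩ := SetLike.exists_of_lt (lt_of_le_of_ne hU1 (Ne.symm hU0))
    have hu2 : ψ u 1 ≠ 0 := fun e => hu1 ⟨hU2 hu, (hfix u (hU2 hu)).2 e⟩
    by_cases hw1 : ψ w 1 = 0
    · exact hU1 ⟨hw, (hfix w hw).2 hw1⟩
    obtain ⟨x, hx, e⟩ := hdiag (ψ u 1 / ψ w 1) (div_ne_zero hu2 hw1)
    have h1 := H69.conj_mem_of_mem_normalizer (hn hx) hu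
    have h2 := mul_mem hw (inv_mem (hU2 h1))
    have := hU1 ⟨h2, (hfix _ h2).2 (by
      rw [h.ψ_mul _ hw _ (inv_mem (hU2 h1)), h.ψ_inv (hU2 h1), e u (hU2 hu)]
      simp [hu2])⟩
    simpa only [inv_mul_cancel_right] using mul_mem this h1

end Cfsg.Agent.S2780
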