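import Cfsg.Statements.S2781
import Mathlib
import Cfsg.Agent.Base
import Cfsg.Agent.Lib.BG.Api.Rank
import Cfsg.Agent.Lib.LocStruct.Res

set_option autoImplicit false
open Cfsg

namespace Cfsg.Agent.S2781

open Subgroup H45 H69
open scoped commutatorElement

/-- Let H act faithfully by conjugation on the elementary abelian p-subgroup V of a finite group, let O^p(H) be the subgroup of H generated by its elements of order prime to p, and T a Sylow p-subgroup of O^p(H). If V is generated by the H-conjugates of C_V(T) (V is the smallest H-invariant subgroup containing C_V(T)), then V = [V, O^p(H)]·C_V(O^p(H)). -/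
theorem result {G : Type*} [Group G] [Finite G] {p : ℕ} [Fact p.Prime] (V H : Subgroup G) (hV : Cfsg.IsElementaryAbelian p V) (hHV : H ≤ Subgroup.normalizer (V : Set G)) (hf : H ⊓ Subgroup.centralizer (V : Set G) = ⊥) (R : Subgroup G) (hR : R = (Cfsg.pResidual p ↥H).map H.subtype) (S : Sylow p ↥R) (T : Subgroup G) (hT : T = ((S : Subgroup ↥R).map R.subtype)) (hgen : ∀ W : Subgroup G, H ≤ Subgroup.normalizer (W : Set G) → (V ⊓ Subgroup.centralizer ((T : Subgroup G) : Set G)) ≤ W → V ≤ W) : ⁅V, R⁆ ⊔ (V ⊓ Subgroup.centralizer ((R : Subgroup G) : Set G)) = V := by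
  have hRH : R ≤ H := hR ▸ map_subtype_le _
  have hHR : H ≤ 𝐍(R) := hR ▸ normal_iff_le_normalizer_map.1 (H4.pResidual_normal p H)
  have hS : IsSylowIn p T R := hT ▸ isSylowIn_map_subtype S
  have hRV := hRH.trans hHV
  have hc := commutator_le_left_of_le_normalizer hRV
  refine le_antisymm (sup_le hc inf_le_left) (hgen _ (le_normalizer_sup (le_normalizer_commutator hHV hHR)
    (le_normalizer_inf hHV (le_normalizer_centralizer hHR))) fun v hv => ?_)
  letI : CommGroup V := { (inferInstance : Group V) with mul_comm := (abelem_abelian hV).is_comm.comm }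
  letI := Fintype.ofFinite (R ⧸ T.subgroupOf R)
  let f : R → V := fun r => ⟨r * v * (r : G)⁻¹, conj_mem_of_mem_normalizer (hRV r.2) hv.1⟩
  have hf' : ∀ r s : R, (r : R ⧸ T.subgroupOf R) = s → f r = f s := fun r s h => by
    have h1 := conj_eq_of_mem_centralizer (centsC.1 (zpowers_le.2 hv.2) (mem_subgroupOf.1 (QuotientGroup.eq.1 h))) (mem_zpowers v)
    apply Subtype.ext
    change (r : G) * v * (r : G)⁻¹ = s * v * (s : G)⁻¹
    conv_lhs => rw [← h1]
    simp only [Subgroup.coe_mul, Subgroup.coe_inv]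
    group
  set W := (⁅V, R⁆ ⊔ V ⊓ 𝐂(R)).subgroupOf V with hW
  have h1 : ∏ q : R ⧸ T.subgroupOf R, f q.out ∈ W := by
    refine mem_sup_right ⟨Subtype.prop _, mem_centralizer_iff_commute.2 fun r hr => ?_⟩
    let φ : V →* V := (normalizerMonoidHom V ⟨r, hRV hr⟩).toMonoidHom
    have : φ (∏ q : R ⧸ T.subgroupOf R, f q.out) = ∏ q : R ⧸ T.subgroupOf R, f q.out := by
      rw [map_prod]
      refine Fintype.prod_equiv (MulAction.toPerm (⟨r, hr⟩ : R)) _ _ fun q => ?_
      rw [← hf' (⟨r, hr⟩ * q.out) (MulAction.toPerm (⟨r, hr⟩ : R) q).out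
        (by simp [← smul_eq_mul, ← MulAction.Quotient.smul_coe])]
      apply Subtype.ext
      change r * ((q.out : G) * v * (q.out : G)⁻¹) * r⁻¹ = r * q.out * v * (r * q.out)⁻¹
      group
    exact mul_inv_eq_iff_eq_mul.1 (congrArg Subtype.val this)
  have h2 : ∏ q : R ⧸ T.subgroupOf R, ((⟨v, hv.1⟩ : V) * (f q.out)⁻¹) ∈ W := prod_mem fun q _ => by
    refine mem_sup_left ?_
    have := commutator_mem_commutator hv.1 q.out.2
    simpa [f, commutatorElement_def, mul_assoc] using this
  have h3 := mul_mem h2 h1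
  rw [Finset.prod_mul_distrib, Finset.prod_inv_distrib, inv_mul_cancel_right, Finset.prod_const,
    Finset.card_univ, ← Nat.card_eq_fintype_card] at h3
  have h4 : v ^ T.relIndex R ∈ ⁅V, R⁆ ⊔ V ⊓ 𝐂(R) := h3
  refine zpowers_le.2 h4 (mem_zpowers_pow_iff.2 ?_)
  exact (((Nat.Prime.coprime_iff_not_dvd Fact.out).2 hS.not_dvd_relIndex).symm.coprime_dvd_right
    (orderOf_dvd_of_pow_eq_one (abelem_pow hV hv.1)))

end Cfsg.Agent.S2781
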