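import Cfsg.Statements.S2787
import Cfsg.Agent.Lib.Misc92.NoQuad
import Cfsg.Agent.Lib.Ree.Sylow2
-- import your own Cfsg.Agent.* helpers here

set_option autoImplicit false
open Cfsg

namespace Cfsg.Agent.S2787

/-- Let p be a prime and let H act by conjugation on the elementary abelian p-subgroup V of a finite group, irreducibly (no H-invariant subgroups of V other than 1 and V) and nontrivially, and suppose H/C_H(V) is isomorphic to PSL₂(F) for a field F with p^n elements, p^n odd, or p = 3 and H/C_H(V) is isomorphic to a Ree group ²G₂(3^(2m+1)), m ≥ 1. Then no subgroup A of H acting nontrivially on V acts quadratically: [V, A, A] = 1 forces [V, A] = 1. -/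
theorem result {G : Type*} [Group G] [Finite G] {p : ℕ} [Fact p.Prime] (V H : Subgroup G) (hV : Cfsg.IsElementaryAbelian p V) (hHV : H ≤ Subgroup.normalizer (V : Set G)) (hirr : ∀ U : Subgroup G, U ≤ V → H ≤ Subgroup.normalizer (U : Set G) → U = ⊥ ∨ U = V) (hnt : ¬ H ≤ Subgroup.centralizer (V : Set G)) [hn : ((Subgroup.centralizer (V : Set G)).subgroupOf H).Normal] (hq : (∃ (F : Type) (_ : Field F) (_ : Fintype F) (n : ℕ), Fintype.card F = p ^ n ∧ Odd (Fintype.card F) ∧ Nonempty (↥H ⧸ (Subgroup.centralizer (V : Set G)).subgroupOf H ≃* Matrix.ProjectiveSpecialLinearGroup (Fin 2) F)) ∨ (p = 3 ∧ Cfsg.Lie.IsoRee (↥H ⧸ (Subgroup.centralizer (V : Set G)).subgroupOf H))) (A : Subgroup G) (hA : A ≤ H) (hquad : ⁅⁅V, A⁆, A⁆ = ⊥) : ⁅V, A⁆ = ⊥ := by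
  have hp : p ≠ 2 := by
    rcases hq with ⟨F, _, _, n, h1, h2, -⟩ | ⟨rfl, -⟩
    · rintro rfl
      rcases n with _ | n
      · exact absurd h1 Fintype.one_lt_card.ne'
      · rw [h1, pow_succ] at h2
        exact absurd h2 (by simp)
    · norm_num
  have hX : H92.NQ (H ⧸ (Subgroup.centralizer (V : Set G)).subgroupOf H) := by
    rcases hq with ⟨F, _, _, n, -, h2, ⟨e⟩⟩ | ⟨-, K, _, _, m, -, hK, ⟨e⟩⟩
    · exact (H92.nq_psl (by rwa [Nat.card_eq_fintype_card])).of_injective e.toMonoidHom e.injective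
    · refine H92.NQ.of_injective (H92.NQ.of_sylow fun P x hx y _ h1 _ => absurd ?_ h1)
        e.toMonoidHom e.injective
      have := H40.Ree.charP_three hK
      obtain ⟨g, hg⟩ := (H40.Ree.lieModel hK).exists_conj_E_eq P
      exact ((H40.Ree.lieModel hK).conj g).sq_of_mem_E (hg ▸ hx)
  set C := (Subgroup.centralizer (V : Set G)).subgroupOf H with hC
  let ρ : H →* MulAut V := V.normalizerMonoidHom.comp (Subgroup.inclusion hHV)
  have hρ : ∀ (h : H) (v : V), ((ρ h v : V) : G) = h * v * (h : G)⁻¹ := fun _ _ => rfl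
  have hker : ∀ h : H, ρ h = 1 ↔ h ∈ C := fun h => by
    rw [hC, Subgroup.mem_subgroupOf, Subgroup.mem_centralizer_iff]
    constructor
    · intro e v hv
      have := hρ h ⟨v, hv⟩
      rw [e, MulAut.one_apply] at this
      exact (eq_mul_inv_iff_mul_eq.1 this)
    · intro e
      ext v
      rw [hρ, ← e v v.2, MulAut.one_apply, mul_inv_cancel_right]
  let ψ : H ⧸ C →* MulAut V := QuotientGroup.lift C ρ fun h hh => (hker h).2 hh
  have hψ : Function.Injective ψ := by
    rw [injective_iff_map_eq_one]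
    intro x hx
    obtain ⟨h, rfl⟩ := QuotientGroup.mk_surjective x
    exact (QuotientGroup.eq_one_iff h).2 ((hker h).1 hx)
  have hVp : IsPGroup p V := fun v => ⟨1, Subtype.ext (by simpa using hV.2 v v.2)⟩
  have hVc : ∀ a b : V, a * b = b * a := fun a b => hV.1.is_comm.comm a b
  have hV1 : Nontrivial V := by
    rw [Subgroup.nontrivial_iff_ne_bot]
    rintro rfl
    exact hnt fun g _ v hv => by rw [Subgroup.mem_bot.1 hv, mul_one, one_mul]
  have hO : pCore p (H ⧸ C) = ⊥ := by
    let U : Subgroup G :=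
      { carrier := {v | v ∈ V ∧ ∀ h : H, (h : H ⧸ C) ∈ pCore p (H ⧸ C) → h * v = v * h}
        one_mem' := ⟨V.one_mem, fun h _ => by simp⟩
        mul_mem' := fun {a b} ha hb => ⟨V.mul_mem ha.1 hb.1, fun h hh => by
          rw [← mul_assoc, ha.2 h hh, mul_assoc, hb.2 h hh, mul_assoc]⟩
        inv_mem' := fun {a} ha => ⟨V.inv_mem ha.1, fun h hh => by
          rw [mul_inv_eq_iff_eq_mul, mul_assoc, ha.2 h hh, inv_mul_cancel_left]⟩ }
    have hUn : H ≤ Subgroup.normalizer (U : Set G) := fun g hg =>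
      Subgroup.mem_normalizer_fintype fun u hu => ⟨(hHV hg u).1 hu.1, fun h hh => by
        have h1 := hu.2 ((⟨g, hg⟩ : H)⁻¹ * h * ⟨g, hg⟩) (by
          simpa using (inferInstance : (pCore p (H ⧸ C)).Normal).conj_mem _ hh
            ((⟨g, hg⟩ : H) : H ⧸ C)⁻¹)
        simp only [Subgroup.coe_mul, Subgroup.coe_inv] at h1
        calc (h : G) * (g * u * g⁻¹) = g * (g⁻¹ * h * g * u) * g⁻¹ := by group
          _ = _ := by rw [h1]; group⟩
    rcases hirr U (fun u hu => hu.1) hUn with h0 | h0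
    · exfalso
      let _ : MulAction (pCore p (H ⧸ C)) V := MulAction.compHom V (ψ.comp (pCore p _).subtype)
      obtain ⟨k, hk⟩ := IsPGroup.iff_card.1 hVp
      have hdvd : p ∣ Nat.card V := by
        rcases k with _ | k
        · exact absurd hk Finite.one_lt_card.ne'
        · rw [hk]; exact dvd_pow_self p k.succ_ne_zero
      obtain ⟨b, hb, hne⟩ := (H1.isPGroup_pCore (p := p) (G := H ⧸ C)).exists_fixed_point_of_prime_dvd_card_of_fixed_point
        V hdvd (a := 1) fun g => map_one (ψ g)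
      have : (b : G) ∈ U := ⟨b.2, fun h hh => by
        have h1 := congrArg Subtype.val (hb ⟨_, hh⟩)
        exact mul_inv_eq_iff_eq_mul.1 h1⟩
      rw [h0] at this
      exact hne (Subtype.ext (Subgroup.mem_bot.1 this)).symm
    · rw [eq_bot_iff]
      intro x hx
      obtain ⟨h, rfl⟩ := QuotientGroup.mk_surjective x
      refine (QuotientGroup.eq_one_iff h).2 fun v hv => ?_
      rw [← h0] at hv
      exact (hv.2 h hx).symm
  rw [Subgroup.commutator_comm, Subgroup.commutator_eq_bot_iff_le_centralizer]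
  intro a ha
  have h1 : ⁅⁅V, Subgroup.zpowers a⁆, Subgroup.zpowers a⁆ = ⊥ :=
    le_bot_iff.1 (hquad ▸ Subgroup.commutator_mono (Subgroup.commutator_mono le_rfl
      (Subgroup.zpowers_le.2 ha)) (Subgroup.zpowers_le.2 ha))
  have h2 := (H24.quadratic_iff hV.1 (hHV (hA ha))).1 h1
  have h3 := H92.mem_pCore_of_nq hp hVp hVc ψ hψ hX (a := ((⟨a, hA ha⟩ : H) : H ⧸ C)) fun v =>
    Subtype.ext (by
      have := h2 v v.2
      rw [commutatorElement_def] at this
      change a * ((v : G) * (a * (v : G)⁻¹ * a⁻¹)) * a⁻¹ = v * (a * (v : G)⁻¹ * a⁻¹)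
      rw [show (v : G) * (a * (v : G)⁻¹ * a⁻¹) = v * a * (v : G)⁻¹ * a⁻¹ by group, ← this,
        mul_inv_cancel_right])
  rw [hO] at h3
  exact (QuotientGroup.eq_one_iff (N := C) (⟨a, hA ha⟩ : H)).1 h3

end Cfsg.Agent.S2787
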