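import Cfsg.Statements.S2788
import Mathlib
import Cfsg.Agent.Base
import Cfsg.Agent.Lib.Push.SL2Mod

set_option autoImplicit false
open Cfsg

namespace Cfsg.Agent.S2788

open Subgroup H69 H68.Push H59.MP H68S Matrix
open scoped MatrixGroups

/-- Let H act faithfully by conjugation on the elementary abelian p-subgroup V of a finite group with H ≅ SL₂(F), F a field with p^n elements, S a Sylow p-subgroup of H, and A ≤ S a subgroup of order at least 3 acting quadratically on V ([V, A, A] = 1). Then |V/C_V(a)| ≥ p^n for every nonidentity a ∈ A. -/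
theorem result {G : Type*} [Group G] [Finite G] {p : ℕ} [Fact p.Prime] (V H : Subgroup G) (hV : Cfsg.IsElementaryAbelian p V) (hHV : H ≤ Subgroup.normalizer (V : Set G)) (hf : H ⊓ Subgroup.centralizer (V : Set G) = ⊥) {F : Type*} [Field F] [Fintype F] (n : ℕ) (hF : Fintype.card F = p ^ n) (hiso : Nonempty (↥H ≃* Matrix.SpecialLinearGroup (Fin 2) F)) (S : Sylow p ↥H) (T : Subgroup G) (hT : T = ((S : Subgroup ↥H).map H.subtype)) (A : Subgroup G) (hA : A ≤ T) (hA3 : 3 ≤ Nat.card A) (hquad : ⁅⁅V, A⁆, A⁆ = ⊥) : ∀ a ∈ A, a ≠ 1 → p ^ n ≤ ((V ⊓ Subgroup.centralizer ({a} : Set G))).relIndex V := by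
  intro a ha ha1
  obtain ⟨e⟩ := hiso
  haveI : CharP F p := charP_of_card_eq_prime_pow hF
  obtain ⟨W, _, _, θ, π, m, hS⟩ := exists_mdl_sl p hHV (H24.EA.le_centralizer hV) e S
  haveI := m.finite
  haveI : FaithfulSMul SL(2, F) W := ⟨fun {x y} hxy => by
    obtain ⟨z, hz⟩ := θ.surjective (y⁻¹ * x)
    have h5 : (z : G) ∈ H ⊓ 𝐂(V) := ⟨z.2, fun v hv =>
      ((m.smul_eq_iff z hv).1 (by
        change θ z • _ = _
        rw [hz, mul_smul, hxy (π v), inv_smul_smul])).symm⟩
    rw [hf, mem_bot, OneMemClass.coe_eq_one] at h5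
    rw [h5, map_one, eq_comm, inv_mul_eq_one] at hz
    exact hz.symm⟩
  obtain ⟨b, hb, rfl⟩ := (hT ▸ hA) ha
  obtain ⟨c, hc⟩ := mem_unitri.1 (hS ▸ mem_map_of_mem θ.toMonoidHom hb)
  have hc0 : c ≠ 0 := by
    rintro rfl
    rw [H24.upT_zero] at hc
    exact ha1 (by rw [θ.map_eq_one_iff.1 hc, map_one])
  have h1 := card_le_index (V := W) p (m.tors (fun v hv => H24.EA.pow_eq_one hV hv)) hc0
  have h2 := m.card_fixS (zpowers b)
  rw [MonoidHom.map_zpowers, MonoidHom.map_zpowers, hc, H24.centralizer_zpowers] at h2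
  rw [Nat.card_eq_fintype_card, hF] at h1
  refine h1.trans (le_of_eq ?_)
  have h3 := (fixS W (zpowers (H24.upT c))).card_mul_index
  have h4 := ((V ⊓ centralizer ({H.subtype b} : Set G)).subgroupOf V).card_mul_index
  rw [Nat.card_congr (subgroupOfEquivOfLe inf_le_left).toEquiv, ← h2, ← m.card_eq, ← h3] at h4
  exact (Nat.eq_of_mul_eq_mul_left Nat.card_pos h4).symm

end Cfsg.Agent.S2788
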