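import Cfsg.Statements.S2792
import Mathlib
import Cfsg.Agent.Base
import Cfsg.Agent.Lib.H81.Yoshida

set_option autoImplicit false
open Cfsg

namespace Cfsg.Agent.S2792


/-- Let S be a Sylow p-subgroup of the finite group G and W a subgroup of S weakly closed in S with respect to G. If S ∩ G' ≠ S ∩ (N_G(W))', then there are x ∈ S, z ∈ W and a maximal subgroup W₀ of W such that the iterated commutator [x, z; p−1] (with [x, z] = x⁻¹z⁻¹xz and [x, z; i+1] = [[x, z; i], z]) lies in W₀ but not in the Frattini subgroup of W₀; in particular [x, z; p−1] ≠ 1. -/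
theorem result {G : Type*} [Group G] [Finite G] {p : ℕ} [Fact p.Prime] (S : Sylow p G) (W : Subgroup G) (hW : Cfsg.IsWeaklyClosed W (S : Subgroup G)) (h : (S : Subgroup G) ⊓ commutator G ≠ (S : Subgroup G) ⊓ ⁅Subgroup.normalizer (W : Set G), Subgroup.normalizer (W : Set G)⁆) : ∃ x ∈ (S : Subgroup G), ∃ z ∈ W, ∃ W₀ : Subgroup ↥W, IsCoatom W₀ ∧ (fun y : G => y⁻¹ * z⁻¹ * y * z)^[p - 1] x ∈ W₀.map W.subtype ∧ (fun y : G => y⁻¹ * z⁻¹ * y * z)^[p - 1] x ∉ ((frattini ↥W₀).map W₀.subtype).map W.subtype := by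
  have hp : p.Prime := Fact.out
  obtain ⟨u, h1, -, z, h3, M, h4, h5, h6, h7, h8, K, h9, h10, hK⟩ := H81.yoshida_commutator S hW h
  rw [inf_top_eq] at h9 h10
  have hWp : IsPGroup p W := S.isPGroup'.to_le hW.1
  have huN : u ∈ Subgroup.normalizer (W : Set G) :=
    H4.IsWeaklyClosed.normalizer_le hW (Subgroup.le_normalizer h1)
  have hzM := h8 (Subgroup.mem_sup_left h3)
  have hM : ∀ k, (fun y : G => y⁻¹ * z⁻¹ * y * z)^[k] u ∈
      M ⊓ Subgroup.normalizer (W : Set G) := by
    intro k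
    induction k with
    | zero => exact ⟨h4, huN⟩
    | succ k ih =>
      rw [Function.iterate_succ_apply']
      refine ⟨?_, ?_⟩
      · have := M.mul_mem (M.inv_mem ih.1)
          ((Subgroup.mem_normalizer_iff.1 (Subgroup.inv_mem _ hzM) _).1 ih.1)
        simpa [mul_assoc] using this
      · have hz := Subgroup.le_normalizer h3
        exact Subgroup.mul_mem _ (Subgroup.mul_mem _ (Subgroup.mul_mem _ (Subgroup.inv_mem _ ih.2)
          (Subgroup.inv_mem _ hz)) ih.2) hz
  have hWm : (fun y : G => y⁻¹ * z⁻¹ * y * z)^[p - 1] u ∈ W := by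
    obtain ⟨k, hk⟩ : ∃ k, p - 1 = k + 1 := ⟨p - 2, by have := hp.two_le; omega⟩
    rw [hk, Function.iterate_succ_apply']
    have := W.mul_mem ((Subgroup.mem_normalizer_iff.1 (Subgroup.inv_mem _ (hM k).2) _).1
      (W.inv_mem h3)) h3
    simpa [mul_assoc] using this
  refine ⟨u, h1, z, h3, M.subgroupOf W, ?_, ⟨⟨_, hWm⟩, (hM _).1, rfl⟩, fun hF => hK ?_⟩
  · apply H5.isCoatom_of_index_prime
    have e : W ⊔ Subgroup.zpowers u = W ⊔ M :=
      le_antisymm (sup_le_sup_left (Subgroup.zpowers_le.2 h4) W) (sup_le le_sup_left h6)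
    rw [e, H1.relIndex_sup_of_le_normalizer (le_sup_left.trans h8)] at h7
    change (M.relIndex W).Prime
    rw [h7]; exact hp
  · refine Subgroup.map_le_iff_le_comap.2 ((H5.map_frattini_le_iff (hWp.to_subgroup _)).2 ⟨?_, ?_⟩) hF
    · rw [← Subgroup.map_le_iff_le_comap, Subgroup.map_commutator, Subgroup.subgroupOf_map_subtype]
      exact (Subgroup.commutator_mono inf_le_left inf_le_left).trans h9
    · exact fun x hx => h10 x hx

end Cfsg.Agent.S2792
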