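import Cfsg.Statements.S2794
import Mathlib
import Cfsg.Agent.Base
import Cfsg.Agent.Lib.Functor.Qd2
import Cfsg.Agent.Lib.Functor.QdFree
import Cfsg.Agent.Lib.ZJ.Abstract
import Cfsg.Agent.S1969

set_option autoImplicit false
open Cfsg

namespace Cfsg.Agent.S2794

/-- For an odd prime p and a finite group G, the group Qd(p) is not involved in G if and only if in every section K/R of G, for every Sylow p-subgroup S* of K/R, the centre of J(S*) (J generated by the abelian subgroups of largest order) controls strong fusion in K/R. -/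
theorem result {G : Type*} [Group G] [Finite G] {p : ℕ} [Fact p.Prime] (hp : p ≠ 2) : ¬ Cfsg.Involves ↥(Cfsg.qd p) G ↔ ∀ (K R : Subgroup G) [hR : (R.subgroupOf K).Normal], ∀ T : Sylow p (K ⧸ R.subgroupOf K), Cfsg.ControlsStrongFusion p (Cfsg.centerThompsonAOf (T : Subgroup (K ⧸ R.subgroupOf K))) := by
  open Subgroup H69 H59 in
  have hW : IsCharPFunctor p (fun (Q : Type _) [Group Q] => centerThompsonAOf (⊤ : Subgroup Q)) := by
    refine ⟨fun Q _ _ hQ _ => H24.centerThompsonAOf_ne_bot (isPGroup_top_iff.2 hQ) top_ne_bot,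
      fun Q R _ _ _ _ φ => ?_⟩
    rw [H24.map_centerThompsonAOf φ.injective, map_top_of_surjective _ φ.surjective]
  have hind : ∀ (X : Type _) [Group X] (T : Subgroup X),
      inducedFunctor (fun (Q : Type _) [Group Q] => centerThompsonAOf (⊤ : Subgroup Q)) T =
        centerThompsonAOf T := fun X _ T => by
    rw [inducedFunctor, H24.map_centerThompsonAOf T.subtype_injective, map_subtype_top]
  refine ⟨fun hfree K R _ T => ?_, ?_⟩
  · rw [← hind]
    refine S1969.result _ hW (fun K R _ hc T => ?_) K R T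
    rw [hind]
    have hst := locallyStable_of_not_involves_qd hp
      fun h => hfree (H57.involves_trans h (H57.involves_section K R))
    exact H25.ZJ.centerThompsonAOf_normal hp T hc
      (H25.ZJ.stableFor_of_isPStableOn _ fun P _ hP => hst.isPStableOn P hP)
  rintro h ⟨K, R, hR, ⟨e⟩⟩
  obtain ⟨T⟩ : Nonempty (Sylow p (K ⧸ R.subgroupOf K)) := inferInstance
  have hT : (T : Subgroup (K ⧸ R.subgroupOf K)) ≠ ⊥ := fun h0 => by
    obtain ⟨e, he⟩ := exists_equiv_S0 e T
    exact V_ne_bot (eq_bot_iff.2 (V_le_S0.trans (by rw [← he, h0, Subgroup.map_bot])))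
  haveI : (centerThompsonAOf (⊤ : Subgroup (T : Subgroup (K ⧸ R.subgroupOf K)))).Characteristic :=
    characteristic_iff_map_eq.2 fun φ => hW.2 _ _ T.isPGroup' φ
  refine not_controlsStrongFusion_qd e T
    (hW.1 _ T.isPGroup' ((nontrivial_iff_ne_bot _).2 hT)) ?_
  have := h K R T
  rwa [← hind] at this

end Cfsg.Agent.S2794
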