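import Cfsg.Statements.S2856
import Mathlib
import Cfsg.Agent.Lib.LocStruct.AmalgV

set_option autoImplicit false
open Cfsg

namespace Cfsg.Agent.S2856

open Subgroup H69
open scoped commutatorElement Pointwise


/-- Let (M₁, M₂) be an amalgam pair in X satisfying the rank-two standing hypothesis (characteristic p, the normalizers in M₁ and in M₂ of a Sylow p-subgroup of M₁ ∩ M₂ equal and contained in M₁ ∩ M₂, and strongly p-embedded residues), λ a vertex of the coset graph, L_λ the subgroup of its stabilizer generated by the p-elements, Q_λ = O_p of the stabilizer, O^p(L_λ) the subgroup of L_λ generated by its elements of order prime to p, and V_λ^{(k)} the subgroup generated by the Z_μ over the vertices μ at distance at most k from λ (Z_μ being generated by the Ω₁(Z(S)), S a Sylow p-subgroup of the stabilizer of μ). If n ≥ 1 and V_λ^{(n)} ≤ Q_λ, then O^p(L_λ) does not centralize V_λ^{(n)}/[V_λ^{(n)}, Q_λ], that is, [V_λ^{(n)}, O^p(L_λ)] is not contained in [V_λ^{(n)}, Q_λ].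 -/
theorem result {X : Type*} [Group X] {p : ℕ} [Fact p.Prime] (M₁ M₂ : Subgroup X) (h : Cfsg.IsSpeAmalgamPair p M₁ M₂) (lam : Cfsg.CosetVertex M₁ M₂) (n : ℕ) (hn : 1 ≤ n) (V : Subgroup X) (hV : V = Cfsg.vertexVIter p M₁ M₂ n lam) (hVQ : V ≤ Cfsg.vertexQ p lam) : ¬ ⁅V, ((Cfsg.pResidual p ↥(Cfsg.pElementClosure p (MulAction.stabilizer X lam))).map (Cfsg.pElementClosure p (MulAction.stabilizer X lam)).subtype)⁆ ≤ ⁅V, Cfsg.vertexQ p lam⁆ := by
  subst hV
  intro hc
  obtain ⟨n, rfl⟩ := Nat.exists_eq_add_of_le' hn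
  obtain ⟨μ, hμ⟩ := H68.exists_adj lam
  have hconn := H68.IsAmalgamPair.connected' h.1.1
  have := H68.amalg_finite h.1 lam
  set V := vertexVIter p M₁ M₂ (n + 1) lam with hV
  set U := vertexVIter p M₁ M₂ n μ with hU
  set Q := vertexQ p lam with hQ
  have hUV : U ≤ V := vIter_le_succ hconn hμ
  have hGV : MulAction.stabilizer X lam ≤ 𝐍(V) := stabilizer_le_normalizer_vIter _ _
  have hGQ : MulAction.stabilizer X lam ≤ 𝐍(Q) := H70.le_normalizer_pCoreOf _ _
  have hQG : Q ≤ MulAction.stabilizer X lam := H70.pCoreOf_le _ _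
  have hQμ : Q ≤ MulAction.stabilizer X μ :=
    (H68.amalg_Q_le_neighbourKernel h.1 lam).trans (H68.neighbourKernel_le_of_adj hμ)
  have hD : ⁅V, Q⁆ ≤ V := H69.commutator_le_left_of_le_normalizer (hQG.trans hGV)
  have hW : MulAction.stabilizer X lam ≤ 𝐍(U ⊔ ⁅V, Q⁆) := by
    refine spe_stabilizer_le h hμ (H69.le_normalizer_of_commutator_le_left ?_) ?_
    · exact (commutator_mono (sup_le hUV hD) le_rfl).trans (hc.trans le_sup_right)
    · exact H69.le_normalizer_sup (inf_le_right.trans (stabilizer_le_normalizer_vIter _ _))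
        (inf_le_left.trans (H69.le_normalizer_commutator hGV hGQ))
  haveI : Finite Q := H68.finite_of_le hQG
  have hVU : V ≤ U := le_of_le_sup_commutator_finite (H70.isPGroup_pCoreOf _ _) hUV hVQ
    (hQG.trans hGV) (hQμ.trans (stabilizer_le_normalizer_vIter _ _))
    (vIter_succ_le h.1 hμ le_sup_left hW)
  have h0 := H68.eq_bot_of_normalized_by_both h.1.1 hμ (hVQ.trans hQG) (hVQ.trans hQμ) hGV
    (by rw [le_antisymm hVU hUV]; exact stabilizer_le_normalizer_vIter _ _)
  exact vertexZ_ne_bot h.1 lam (le_bot_iff.1 (h0 ▸ Z_le_vIter (by simp)))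

end Cfsg.Agent.S2856
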