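import Cfsg.Statements.S2857
import Mathlib
import Cfsg.Agent.Lib.LocStruct.AmalgV

set_option autoImplicit false
open Cfsg

namespace Cfsg.Agent.S2857

open Subgroup H69
open scoped commutatorElement Pointwise


/-- Let (M₁, M₂) be an amalgam pair in X satisfying the rank-two standing hypothesis (characteristic p, the normalizers in M₁ and in M₂ of a Sylow p-subgroup of M₁ ∩ M₂ equal and contained in M₁ ∩ M₂, and strongly p-embedded residues), λ a vertex of the coset graph, L_λ the subgroup of its stabilizer generated by the p-elements, Q_λ = O_p of the stabilizer, O^p(L_λ) the subgroup of L_λ generated by its elements of order prime to p, and V_λ^{(k)} the subgroup generated by the Z_μ over the vertices μ at distance at most k from λ (Z_μ being generated by the Ω₁(Z(S)), S a Sylow p-subgroup of the stabilizer of μ). If n ≥ 2 and V_λ^{(n)} ≤ Q_λ, then O^p(L_λ) does not centralize V_λ^{(n)}/V_λ^{(n-2)}, that is, [V_λ^{(n)}, O^p(L_λ)] is not contained in V_λ^{(n-2)}. -/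
theorem result {X : Type*} [Group X] {p : ℕ} [Fact p.Prime] (M₁ M₂ : Subgroup X) (h : Cfsg.IsSpeAmalgamPair p M₁ M₂) (lam : Cfsg.CosetVertex M₁ M₂) (n : ℕ) (hn : 2 ≤ n) (hVQ : Cfsg.vertexVIter p M₁ M₂ n lam ≤ Cfsg.vertexQ p lam) : ¬ ⁅Cfsg.vertexVIter p M₁ M₂ n lam, ((Cfsg.pResidual p ↥(Cfsg.pElementClosure p (MulAction.stabilizer X lam))).map (Cfsg.pElementClosure p (MulAction.stabilizer X lam)).subtype)⁆ ≤ Cfsg.vertexVIter p M₁ M₂ (n - 2) lam := by
  intro hc
  obtain ⟨n, rfl⟩ := Nat.exists_eq_add_of_le' hn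
  obtain ⟨μ, hμ⟩ := H68.exists_adj lam
  have hconn := H68.IsAmalgamPair.connected' h.1.1
  rw [Nat.add_sub_cancel] at hc
  have hUV : vertexVIter p M₁ M₂ (n + 1) μ ≤ vertexVIter p M₁ M₂ (n + 2) lam :=
    vIter_le_succ hconn hμ
  have hQG : vertexQ p lam ≤ MulAction.stabilizer X lam := H70.pCoreOf_le _ _
  have hQμ : vertexQ p lam ≤ MulAction.stabilizer X μ :=
    (H68.amalg_Q_le_neighbourKernel h.1 lam).trans (H68.neighbourKernel_le_of_adj hμ)
  have hW : MulAction.stabilizer X lam ≤ 𝐍(vertexVIter p M₁ M₂ (n + 1) μ) := by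
    refine spe_stabilizer_le h hμ (H69.le_normalizer_of_commutator_le_left ?_) ?_
    · exact (commutator_mono hUV le_rfl).trans (hc.trans (vIter_le_succ hconn hμ.symm))
    · exact inf_le_right.trans (stabilizer_le_normalizer_vIter _ _)
  have h0 := H68.eq_bot_of_normalized_by_both h.1.1 hμ (hUV.trans (hVQ.trans hQG))
    (hUV.trans (hVQ.trans hQμ)) hW (stabilizer_le_normalizer_vIter _ _)
  exact vertexZ_ne_bot h.1 μ (le_bot_iff.1 (h0 ▸ Z_le_vIter (by simp)))

end Cfsg.Agent.S2857
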