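import Cfsg.Statements.S2946
import Mathlib
import Cfsg.Agent.Base
import Cfsg.Agent.Lib.LocEven.JComp

set_option autoImplicit false
open Cfsg

namespace Cfsg.Agent.S2946

/-- Let G be a finite group of characteristic 2 type in which every 2-local subgroup is solvable and the centralizer of Ω₁(Z(S)) lies in N_G(S) for every Sylow 2-subgroup S, and let T be a nontrivial 2-subgroup (below, J is the Thompson subgroup generated by the elementary abelian 2-subgroups of largest order), K a J(T)-component and Z₀ = Ω₁(Z(J(T))). Then Z₀ meets W_K = [Ω₁(Z(O₂(K))), K] in a subgroup of order 2, and Z₀ is the product of Z₀ ∩ Z(⟨K, J(T)⟩) and Z₀ ∩ W_K. -/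
theorem result {G : Type*} [Group G] [Finite G] (hL : Cfsg.IsCharacteristicTwoType G) (hN : ∀ N : Subgroup G, Cfsg.IsTwoLocal N → Group.IsSolvable ↥N)
    (hZ : ∀ S : Sylow 2 G, Subgroup.centralizer (Cfsg.omegaCenterOf (S : Subgroup G) : Set G) ≤ Subgroup.normalizer ((S : Subgroup G) : Set G)) (T : Subgroup G) (hT : IsPGroup 2 ↥T) (hT1 : T ≠ ⊥) (K : Subgroup G) (hK : Cfsg.IsJComponent T K)
    (Z₀ : Subgroup G) (hZ₀ : Z₀ = Cfsg.omegaCenterOf (Cfsg.thompsonSubgroupOf 2 T)) :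
    Nat.card ↥(Z₀ ⊓ Cfsg.wOf K) = 2 ∧
      (Z₀ ⊓ ((K ⊔ Cfsg.thompsonSubgroupOf 2 T) ⊓ Subgroup.centralizer ((K ⊔ Cfsg.thompsonSubgroupOf 2 T) : Set G))) ⊔ (Z₀ ⊓ Cfsg.wOf K) = Z₀ := by
  subst hZ₀
  have e : Subgroup.centralizer ((K : Set G) ⊔ (thompsonSubgroupOf 2 T : Set G)) =
      Subgroup.centralizer ((K ⊔ thompsonSubgroupOf 2 T : Subgroup G) : Set G) := by
    rw [H69.centralizer_sup]
    ext x
    simp only [Subgroup.mem_centralizer_iff, Subgroup.mem_inf, Set.sup_eq_union, Set.mem_union]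
    exact ⟨fun h => ⟨fun y hy => h y (Or.inl hy), fun y hy => h y (Or.inr hy)⟩,
      fun h y hy => hy.elim (h.1 y) (h.2 y)⟩
  rw [e]
  exact ⟨((H70.jc_iff hT).1 hK).card_oz_inf_wOf, ((H70.jc_iff hT).1 hK).oz_split⟩

end Cfsg.Agent.S2946
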