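import Cfsg.Statements.S2953
import Mathlib
import Cfsg.Agent.Base
import Cfsg.Agent.Lib.LocEven.JEdge

set_option autoImplicit false
open Cfsg

namespace Cfsg.Agent.S2953

open Subgroup H69 H70 in
theorem aux {G : Type*} [Group G] [Finite G] (hO : pCore 2 G = ⊥) {T K L : Subgroup G} (h : UQ T K L) :
    𝐂(𝐎(K ⊔ T)) ≤ 𝐎(K ⊔ T) ∧ IsSylowTwoIn T (K ⊔ T) ∧ 𝐎(K ⊔ T).relIndex (K ⊔ T) = 6 ∧
      ¬ ⁅K ⊔ T, K ⊔ T⁆ ≤ 𝐎(K ⊔ T) ∧ ⁅𝐙(T), K ⊔ T⁆ ≠ ⊥ ∧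
      ∃ L : Subgroup G, IsMaximalTwoLocal L ∧ K ⊔ T ≤ L ∧ IsSylowTwoIn T L ∧
        ∀ L' : Subgroup G, IsMaximalTwoLocal L' → K ⊔ T ≤ L' → L' = L := by
  refine ⟨h.cent_O_sup, isSylowTwoIn_iff.2 h.sylow_sup, ?_, fun e => h.jc.not_comm_le (isPGroup_pCoreOf 2 _)
    ((commutator_mono le_sup_left ((J_le T).trans le_sup_right)).trans e), fun e => h.not_le_cent_oz
    (le_sup_left.trans (le_centralizer_comm.1 (le_centralizer_of_commutator_eq_bot e))), L, h.max, h.sup_le_L,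
    isSylowTwoIn_iff.2 h.syl, fun L' a b => (a.2 L h.max.1 (h.uniq L' a.1 (le_sup_left.trans b)
      ((J_le T).trans (le_sup_right.trans b)))).symm⟩
  rw [← relIndex_mul_relIndex _ _ _ h.sylow_sup.pCoreOf_le le_sup_right, h.relIndex_O (h.norm hO),
    h.jc.k3.relIndex_sup h.isP h.O_le_T (h.norm hO)]


/-- Let G be a finite group of characteristic 2 type in which every 2-local subgroup is solvable and the centralizer of Ω₁(Z(S)) lies in N_G(S) for every Sylow 2-subgroup S; suppose O₂(G) = 1, fix a Sylow 2-subgroup S and a 2-local subgroup M containing N_G(J(S)) (J the Thompson subgroup generated by the elementary abelian 2-subgroups of largest order). Let T be maximal (for the order of a largest elementary abelian subgroup, then the order of J(T), then the order of T) among the nontrivial 2-subgroups of M lying in a 2-local subgroup not inside M. Then there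 are two distinct J(T)-components K₁, K₂ such that, with Pᵢ = ⟨Kᵢ, T⟩: C_G(O₂(Pᵢ)) ≤ O₂(Pᵢ), T is a Sylow 2-subgroup of Pᵢ, O₂(Pᵢ) has index 6 in Pᵢ with Pᵢ/O₂(Pᵢ) non-abelian, [Ω₁(Z(T)), Pᵢ] ≠ 1, O₂(⟨P₁, P₂⟩) = 1, and each Pᵢ lies in exactly one maximal 2-local subgroup Lᵢ of G, in which T is a Sylow 2-subgroup. -/
theorem result {G : Type*} [Group G] [Finite G] (hL : Cfsg.IsCharacteristicTwoType G) (hN : ∀ N : Subgroup G, Cfsg.IsTwoLocal N → Group.IsSolvable ↥N)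
    (hZ : ∀ S : Sylow 2 G, Subgroup.centralizer (Cfsg.omegaCenterOf (S : Subgroup G) : Set G) ≤ Subgroup.normalizer ((S : Subgroup G) : Set G)) (hO : Cfsg.pCore 2 G = ⊥) (S : Sylow 2 G) (M : Subgroup G) (hM : Cfsg.IsTwoLocal M)
    (hMJ : Subgroup.normalizer (Cfsg.thompsonSubgroupOf 2 (S : Subgroup G) : Set G) ≤ M) (T : Subgroup G) (hT : T ∈ Cfsg.maxStraddlingTwoSubgroups M) :
    ∃ K₁ K₂ : Subgroup G, K₁ ≠ K₂ ∧ Cfsg.IsJComponent T K₁ ∧ Cfsg.IsJComponent T K₂ ∧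
      Cfsg.pCoreOf 2 ((K₁ ⊔ T) ⊔ (K₂ ⊔ T)) = ⊥ ∧
      ∀ P ∈ [K₁ ⊔ T, K₂ ⊔ T],
        Subgroup.centralizer (Cfsg.pCoreOf 2 P : Set G) ≤ Cfsg.pCoreOf 2 P ∧ Cfsg.IsSylowTwoIn T P ∧
        (Cfsg.pCoreOf 2 P).relIndex P = 6 ∧ ¬ ⁅P, P⁆ ≤ Cfsg.pCoreOf 2 P ∧ ⁅Cfsg.omegaCenterOf T, P⁆ ≠ ⊥ ∧
        ∃ L : Subgroup G, Cfsg.IsMaximalTwoLocal L ∧ P ≤ L ∧ Cfsg.IsSylowTwoIn T L ∧
          ∀ L' : Subgroup G, Cfsg.IsMaximalTwoLocal L' → P ≤ L' → L' = L := by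
  have h : H70.MX M T := ⟨⟨hL, hN, hZ⟩, H70.good_of (H69.isSylowIn_top S) hMJ, hT⟩
  obtain ⟨K₁, L₁, h₁, -⟩ := h.exists_uq
  obtain ⟨K₂, L₂, h₂, hne⟩ := h₁.exists_other hO
  refine ⟨K₁, K₂, fun e => hne (h₁.eq_of_le h₂ rfl (e ▸ h₁.KL)), (H70.jc_iff h.isP).2 h₁.jc,
    (H70.jc_iff h.isP).2 h₂.jc, h₁.eq_bot_of_norm h₂ hne (H70.isPGroup_pCoreOf 2 _)
      (le_sup_left.trans (H70.le_normalizer_pCoreOf 2 _)) (le_sup_right.trans (H70.le_normalizer_pCoreOf 2 _)),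
    fun P hP => ?_⟩
  simp only [List.mem_cons, List.not_mem_nil, or_false] at hP
  rcases hP with rfl | rfl
  exacts [aux hO h₁, aux hO h₂]

end Cfsg.Agent.S2953
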