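import Mathlib
import Cfsg.Agent.Lib.LargeExtra.Clifford
import Cfsg.Statements.S3084
-- import your own Cfsg.Agent.* helpers here

set_option autoImplicit false
open Cfsg

namespace Cfsg.Agent.S3084


/-- Let K be a group acting faithfully and linearly on a finite-dimensional vector space U of dimension 2n ≥ 2 over the field with two elements, preserving a quadratic form q whose polar bilinear form is non-degenerate and which vanishes on some n-dimensional subspace (a non-singular form of plus type). Then there is a finite group R with a normal extraspecial 2-subgroup Q of order 2^(2n+1), an isomorphism of R/Q with K, and a surjective homomorphism χ from Q onto (the additive group of) U with kernel the centre of Q, such that χ carries conjugation by any r in R to the action of the image of r in K, and an element a of Q squares to the identity exactly when q vanishes at χ(a). -/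
theorem result {K : Type*} [Group K] {U : Type*} [AddCommGroup U] [Module (ZMod 2) U] [Module.Finite (ZMod 2) U] (n : ℕ) (hn1 : 1 ≤ n) (hn : Module.finrank (ZMod 2) U = 2 * n) (ρ : Representation (ZMod 2) K U) (hρ : Function.Injective ρ) (q : QuadraticForm (ZMod 2) U) (hq : ∀ (k : K) (u : U), q (ρ k u) = q u) (hnd : (QuadraticMap.polarBilin q).Nondegenerate) (hplus : ∃ W : Submodule (ZMod 2) U, Module.finrank (ZMod 2) ↥W = n ∧ ∀ w ∈ W, q w = 0) : ∃ (R : Type) (_ : Group R) (_ : Finite R) (Q : Subgroup R) (hN : Q.Normal) (e : R ⧸ Q ≃* K) (χ : ↥Q →* Multiplicative U), Cfsg.IsExtraspecial 2 ↥Q ∧ Nat.card ↥Q = 2 ^ (2 * n + 1) ∧ Function.Surjective χ ∧ χ.ker = Subgroup.center ↥Q ∧ (∀ (r : R) (a : ↥Q), χ ⟨r * a * r⁻¹, hN.conj_mem (a : R) a.2 r⟩ = Multiplicative.ofAdd (ρ (e (r : R ⧸ Q)) (Multiplicative.toAdd (χ a)))) ∧ ∀ a : ↥Q, a * a = 1 ↔ q (Multiplicative.toAdd (χ a)) = 0 := by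
  obtain ⟨N, _, _, Q, hQ, z, P, θ, hz, hPq, hker, hrange, hconj⟩ := H95.exists_clifford n hn1
  obtain ⟨U0, hU0, hU1⟩ := hplus
  obtain ⟨Φ, hΦ⟩ := H66.exists_equiv_plus_of_singular hnd hn U0 hU1 hU0
  let ρ1 : K →* (U ≃ₗ[ZMod 2] U) :=
    (LinearMap.GeneralLinearGroup.generalLinearEquiv (ZMod 2) U).toMonoidHom.comp ρ.toHomUnits
  let ρ2 : K →* ((Fin n ⊕ Fin n → ZMod 2) ≃ₗ[ZMod 2] (Fin n ⊕ Fin n → ZMod 2)) :=
    { toFun := fun k => Φ.trans ((ρ1 k).trans Φ.symm)
      map_one' := by ext1 v; simp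
      map_mul' := fun a b => by ext1 v; simp }
  have h2 : ∀ k v, ρ2 k v = Φ.symm (ρ k (Φ v)) := fun _ _ => rfl
  have hinj : Function.Injective ρ2 := fun a b h => hρ (LinearMap.ext fun u => by
    have := congrArg (fun f => Φ (f (Φ.symm u))) h
    simpa [h2] using this)
  let R := ρ2.range.comap θ
  have hQR : Q ≤ R := fun x hx => by
    rw [← hker] at hx
    rw [Subgroup.mem_comap, MonoidHom.mem_ker.1 hx]
    exact one_mem _
  let ψ : R →* K := (MonoidHom.ofInjective hinj).symm.toMonoidHom.comp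
    ((θ.comp R.subtype).codRestrict ρ2.range fun r => r.2)
  have hψ : ∀ r : R, ρ2 (ψ r) = θ r := fun r =>
    congrArg Subtype.val ((MonoidHom.ofInjective hinj).apply_symm_apply _)
  have hψs : Function.Surjective ψ := fun k => by
    obtain ⟨g, hg⟩ := (hrange (ρ2 k)).2 fun v => by
      rw [hPq, ← hΦ, ← hΦ, h2, Φ.apply_symm_apply, hq]
    exact ⟨⟨g, k, hg.symm⟩, hinj (by rw [hψ, hg])⟩
  have hψk : Q.subgroupOf R = ψ.ker := by
    ext r
    rw [MonoidHom.mem_ker, ← hinj.eq_iff, hψ, map_one, Subgroup.mem_subgroupOf, ← hker]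
    rfl
  let P' := (P.congr (Subgroup.subgroupOfEquivOfLe hQR).symm).map Φ
  have hz' : H95.ES (⊤ : Subgroup (Q.subgroupOf R)) ((Subgroup.subgroupOfEquivOfLe hQR).symm z) := by
    have := hz.map (Subgroup.subgroupOfEquivOfLe hQR).symm.toMonoidHom fun x _ e =>
      (Subgroup.subgroupOfEquivOfLe hQR).symm.injective (by simpa using e)
    rwa [Subgroup.map_top_of_surjective _ (Subgroup.subgroupOfEquivOfLe hQR).symm.surjective] at this
  have hN : (Q.subgroupOf R).Normal := inferInstance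
  refine ⟨R, inferInstance, inferInstance, Q.subgroupOf R, hN,
    (QuotientGroup.quotientMulEquivOfEq hψk).trans (QuotientGroup.quotientKerEquivOfSurjective ψ hψs),
    P'.hom, hz'.isExtraspecial_top, ?_, P'.hom_surjective, ?_, fun r a => ?_, fun a => ?_⟩
  · rw [P'.card_eq, Module.natCard_eq_pow_finrank (K := ZMod 2) (V := U), Nat.card_zmod, hn, pow_succ,
      mul_comm]
  · rw [P'.ker_hom, hz'.center_top_eq]
  · rw [P'.hom_apply]
    congr 1
    change Φ (P.π ⟨r.1 * a.1.1 * r.1⁻¹, hQ.conj_mem _ a.2 r.1⟩) = ρ (ψ r) (Φ (P.π ⟨a.1.1, a.2⟩))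
    rw [hconj r.1 ⟨a.1.1, a.2⟩, ← hψ, h2, Φ.apply_symm_apply]
  · rw [P'.sq_eq_one_iff]
    change P.q (Φ.symm (P'.π a)) = 0 ↔ q (P'.π a) = 0
    rw [hPq, ← hΦ, Φ.apply_symm_apply]


end Cfsg.Agent.S3084
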