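import Cfsg.Statements.S3085
import Mathlib
import Cfsg.Agent.Lib.Core.GrpBasic

set_option autoImplicit false
open Cfsg

namespace Cfsg.Agent.S3085

section aux
variable {Q : Type*} [Group Q]

open Classical in
/-- the reflection automorphism attached to an element `a` with `a ^ 2 = z`. -/
noncomputable def refl (z a : Q) (hz2 : z * z = 1) (hzc : ∀ x, z * x = x * z)
    (hc : ∀ x y : Q, x * y = y * x ∨ x * y = z * (y * x)) (ha : a * a = z) : MulAut Q where
  toFun x := if x * a = a * x then x else a * x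
  invFun x := if x * a = a * x then x else a⁻¹ * x
  left_inv x := by
    by_cases h : x * a = a * x
    · simp [h]
    · have h' : ¬ (a * x * a = a * (a * x)) := by
        intro h2; apply h; rw [mul_assoc] at h2; exact mul_left_cancel h2
      simp [h, h']
  right_inv x := by
    by_cases h : x * a = a * x
    · simp [h]
    · have h' : ¬ (a⁻¹ * x * a = a * (a⁻¹ * x)) := by
        intro h2; apply h
        have : a * (a⁻¹ * x * a) = a * (a * (a⁻¹ * x)) := by rw [h2]
        simpa [mul_assoc] using this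
      simp only [h, if_false, h']
      simp
  map_mul' x y := by
    by_cases hx : x * a = a * x <;> by_cases hy : y * a = a * y
    · have : x * y * a = a * (x * y) := by rw [mul_assoc, hy, ← mul_assoc, hx, mul_assoc]
      simp [hx, hy, this]
    · have : ¬ (x * y * a = a * (x * y)) := by
        intro h; apply hy
        rw [← mul_assoc, ← hx, mul_assoc, mul_assoc] at h
        exact mul_left_cancel h
      simp only [hx, hy, this, if_true, if_false]
      rw [← mul_assoc, ← hx, mul_assoc]
    · have : ¬ (x * y * a = a * (x * y)) := by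
        intro h; apply hx
        rw [mul_assoc, hy, ← mul_assoc, ← mul_assoc] at h
        exact mul_right_cancel h
      simp only [hx, hy, this, if_true, if_false]
      rw [mul_assoc]
    · have hx' := (hc x a).resolve_left hx
      have hy' := (hc y a).resolve_left hy
      have : x * y * a = a * (x * y) := by
        calc x * y * a = x * (y * a) := by rw [mul_assoc]
          _ = x * z * a * y := by rw [hy']; simp only [mul_assoc]
          _ = z * (x * a) * y := by rw [← hzc x]; simp only [mul_assoc]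
          _ = (z * z) * (a * (x * y)) := by rw [hx']; simp only [mul_assoc]
          _ = a * (x * y) := by rw [hz2, one_mul]
      simp only [hx, hy, this, if_true, if_false]
      calc x * y = (z * z) * (x * y) := by rw [hz2, one_mul]
        _ = (a * a) * z * (x * y) := by rw [ha]
        _ = a * (a * z) * (x * y) := by simp only [mul_assoc]
        _ = a * (z * (a * x)) * y := by rw [← hzc a]; simp only [mul_assoc]
        _ = a * x * (a * y) := by rw [← hx']; simp only [mul_assoc]

variable {z : Q} {hz2 : z * z = 1} {hzc : ∀ x, z * x = x * z}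
    {hc : ∀ x y : Q, x * y = y * x ∨ x * y = z * (y * x)}

theorem refl_pos {a : Q} (ha : a * a = z) {x : Q} (h : x * a = a * x) :
    refl z a hz2 hzc hc ha x = x := by
  simp [refl, h]

theorem refl_neg {a : Q} (ha : a * a = z) {x : Q} (h : ¬ x * a = a * x) :
    refl z a hz2 hzc hc ha x = a * x := by
  simp [refl, h]

theorem refl_sq {a : Q} (ha : a * a = z) :
    refl z a hz2 hzc hc ha * refl z a hz2 hzc hc ha = MulAut.conj a := by
  ext x
  rw [MulAut.mul_apply, MulAut.conj_apply]
  by_cases h : x * a = a * x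
  · rw [refl_pos ha h, refl_pos ha h, ← h]; simp
  · have h' : ¬ (a * x * a = a * (a * x)) := by
      intro h2; apply h; rw [mul_assoc] at h2; exact mul_left_cancel h2
    rw [refl_neg ha h, refl_neg ha h', ← mul_assoc, ha]
    have h3 := (hc a x).resolve_left (fun e => h e.symm)
    rw [h3]; simp [mul_assoc]

theorem refl_comm {a b : Q} (ha : a * a = z) (hb : b * b = z) (hab : a * b = b * a) :
    refl z a hz2 hzc hc ha * refl z b hz2 hzc hc hb =
      refl z b hz2 hzc hc hb * refl z a hz2 hzc hc ha := by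
  ext x
  rw [MulAut.mul_apply, MulAut.mul_apply, ]
  have key : ∀ {a b : Q}, a * b = b * a → (b * x * a = a * (b * x) ↔ x * a = a * x) := by
    intro a b hab
    rw [← mul_assoc, hab, mul_assoc, mul_assoc]
    exact mul_left_cancel_iff
  by_cases h1 : x * a = a * x <;> by_cases h2 : x * b = b * x
  · rw [refl_pos hb h2, refl_pos ha h1, refl_pos hb h2]
  · rw [refl_neg hb h2, refl_pos ha h1, refl_neg hb h2, refl_pos ha ((key hab).2 h1)]
  · rw [refl_pos hb h2, refl_neg ha h1, refl_pos hb ((key hab.symm).2 h2)]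
  · rw [refl_neg hb h2, refl_neg ha h1, refl_neg ha (fun e => h1 ((key hab).1 e)),
      refl_neg hb (fun e => h2 ((key hab.symm).1 e)), ← mul_assoc, ← mul_assoc, hab]

theorem mul_conj_eq (φ : MulAut Q) (u : Q) : φ * MulAut.conj u = MulAut.conj (φ u) * φ := by
  ext x; simp

theorem conj_eq_one {u : Q} (h : MulAut.conj u = 1) : u ∈ Subgroup.center Q := by
  rw [Subgroup.mem_center_iff]
  intro g
  have := DFunLike.congr_fun h g
  simp only [MulAut.conj_apply, MulAut.one_apply] at this
  rw [mul_inv_eq_iff_eq_mul] at this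
  exact this.symm

end aux


/-- Let Q be an extraspecial 2-group of order 2^(2n+1) with n ≥ 3 that is of plus type (it contains an elementary abelian subgroup of order 2^(n+1)). Then the group of inner automorphisms of Q has no complement in the full automorphism group of Q: the extension of the inner automorphism group (elementary abelian of order 2^(2n)) by the outer automorphism group (the orthogonal group of plus type) does not split. -/
theorem result {Q : Type*} [Group Q] [Finite Q] (n : ℕ) (hn : 3 ≤ n) (hQ : Cfsg.IsExtraspecial 2 Q) (hcard : Nat.card Q = 2 ^ (2 * n + 1)) (hplus : ∃ E : Subgroup Q, Cfsg.IsElementaryAbelian 2 E ∧ Nat.card ↥E = 2 ^ (n + 1)) (L : Subgroup (MulAut Q)) : ¬ (Cfsg.Inn Q).IsComplement' L := by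
  intro hL
  obtain ⟨⟨-, -, hcomm⟩, hZ⟩ := hQ
  -- the central involution
  obtain ⟨⟨z, hzZ⟩, hz1, hzu⟩ := (Nat.card_eq_two_iff' (1 : Subgroup.center Q)).1 hZ
  have hz1' : z ≠ 1 := fun h => hz1 (Subtype.ext h)
  have hcen : ∀ c ∈ Subgroup.center Q, c = 1 ∨ c = z := by
    intro c hc
    by_cases h : c = 1
    · exact Or.inl h
    · exact Or.inr (congrArg Subtype.val (hzu ⟨c, hc⟩ (fun e => h (congrArg Subtype.val e))))
  have hzc : ∀ x, z * x = x * z := fun x => (Subgroup.mem_center_iff.1 hzZ x).symm
  have hz2 : z * z = 1 := by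
    rcases hcen _ (mul_mem hzZ hzZ) with h | h
    · exact h
    · exact absurd (by simpa using h) hz1'
  have hcz : ∀ x y : Q, x * y * x⁻¹ * y⁻¹ ∈ Subgroup.center Q := by
    intro x y
    rw [← hcomm]
    exact Subgroup.commutator_mem_commutator (Subgroup.mem_top x) (Subgroup.mem_top y)
  have hc : ∀ x y : Q, x * y = y * x ∨ x * y = z * (y * x) := by
    intro x y
    rcases hcen _ (hcz x y) with h | h
    · left; rw [mul_inv_eq_one, mul_inv_eq_iff_eq_mul] at h; exact h
    · right; rw [← h]; group
  have hsq : ∀ x : Q, x * x ∈ Subgroup.center Q := by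
    intro x
    rw [Subgroup.mem_center_iff]
    intro y
    rcases hc x y with h | h
    · rw [← mul_assoc, ← h, mul_assoc, ← h, mul_assoc]
    · calc y * (x * x) = (z * z) * (y * (x * x)) := by rw [hz2, one_mul]
        _ = z * (z * (y * x)) * x := by simp only [mul_assoc]
        _ = z * x * (y * x) := by rw [← h]; simp only [mul_assoc]
        _ = x * (z * (y * x)) := by rw [hzc]; simp only [mul_assoc]
        _ = x * x * y := by rw [← h]; simp only [mul_assoc]
  have hncen : ∀ a : Q, a * a = z → a ∉ Subgroup.center Q := by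
    intro a ha h
    rcases hcen a h with h | h
    · rw [h, mul_one] at ha; exact hz1' ha.symm
    · rw [h, hz2] at ha; exact hz1' ha.symm
  -- an element of order four
  obtain ⟨b, hb⟩ : ∃ b : Q, b * b = z := by
    by_contra hcon
    push Not at hcon
    have h1 : ∀ x : Q, x * x = 1 := fun x => (hcen _ (hsq x)).resolve_right (hcon x)
    have h2 : ∀ x y : Q, x * y = y * x := by
      intro x y
      have hx : x⁻¹ = x := inv_eq_of_mul_eq_one_right (h1 x)
      have hy : y⁻¹ = y := inv_eq_of_mul_eq_one_right (h1 y)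
      have hxy : (x * y)⁻¹ = x * y := inv_eq_of_mul_eq_one_right (h1 _)
      rw [← hxy, mul_inv_rev, hx, hy]
    have : commutator Q = ⊥ := by
      rw [commutator_def, Subgroup.commutator_eq_bot_iff_le_centralizer]
      intro x _
      rw [Subgroup.mem_centralizer_iff]
      intro y _; exact h2 y x
    rw [← hcomm, this] at hzZ
    exact hz1' (Subgroup.mem_bot.1 hzZ)
  -- lifts in the complement
  have hlift : ∀ (a : Q) (ha : a * a = z), ∃ u : Q, MulAut.conj u * refl z a hz2 hzc hc ha ∈ L := by
    intro a ha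
    obtain ⟨⟨⟨_, u, rfl⟩, ⟨l, hl⟩⟩, h⟩ := hL.2 (refl z a hz2 hzc hc ha)
    refine ⟨u⁻¹, ?_⟩
    simp only at h
    rw [← h, map_inv, inv_mul_cancel_left]
    exact hl
  have hdisj : ∀ u : Q, MulAut.conj u ∈ L → u ∈ Subgroup.center Q := by
    intro u hu
    apply conj_eq_one
    exact Subgroup.disjoint_def.1 hL.disjoint ⟨u, rfl⟩ hu
  have h1 : ∀ (a : Q) (ha : a * a = z) (u : Q), MulAut.conj u * refl z a hz2 hzc hc ha ∈ L →
      ¬ u * a = a * u := by
    intro a ha u hu hua
    have := mul_mem hu hu
    rw [mul_assoc, ← mul_assoc (refl z a hz2 hzc hc ha), mul_conj_eq, refl_pos ha hua, mul_assoc,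
      refl_sq, ← map_mul, ← map_mul, ← mul_assoc] at this
    have h3 := hdisj _ this
    exact hncen a ha ((mul_mem_cancel_left (hsq u)).1 h3)
  have h2 : ∀ (a : Q) (ha : a * a = z) (u : Q), MulAut.conj u * refl z a hz2 hzc hc ha ∈ L →
      ∀ (b : Q), b * b = z → a * b = b * a → a⁻¹ * b ∉ Subgroup.center Q → u * b = b * u := by
    intro a ha u hu b hb hab hZab
    obtain ⟨v, hv⟩ := hlift b hb
    by_contra hub
    have e1 := mul_mem hu hv
    have e2 := mul_mem hv hu
    rw [mul_assoc, ← mul_assoc (refl z a hz2 hzc hc ha), mul_conj_eq, mul_assoc, ← mul_assoc,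
      ← map_mul] at e1
    rw [mul_assoc, ← mul_assoc (refl z b hz2 hzc hc hb), mul_conj_eq, mul_assoc, ← mul_assoc,
      ← map_mul, ← refl_comm ha hb hab, refl_neg hb hub] at e2
    have e3 := mul_mem e2 (inv_mem e1)
    rw [mul_inv_rev, mul_assoc, mul_inv_cancel_left, ← map_inv, ← map_mul] at e3
    have e4 := hdisj _ e3
    set π := QuotientGroup.mk' (Subgroup.center Q) with hπ
    have hπc : ∀ x y : Q, π x * π y = π y * π x := by
      intro x y
      rw [← map_mul, ← map_mul]
      symm
      apply QuotientGroup.eq.2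
      have := hcz x⁻¹ y⁻¹
      simpa [mul_assoc] using this
    have hπ1 : ∀ x : Q, π x = 1 ↔ x ∈ Subgroup.center Q := fun x => QuotientGroup.eq_one_iff x
    rw [← hπ1] at e4
    by_cases hva : v * a = a * v
    · rw [refl_pos ha hva] at e4
      apply hncen b hb
      rw [← hπ1]
      simp only [map_mul, map_inv, mul_inv_eq_one] at e4
      rw [hπc u v, hπc b u] at e4
      simpa using e4
    · rw [refl_neg ha hva] at e4
      apply hZab
      rw [← hπ1]
      simp only [map_mul, map_inv, mul_inv_eq_one] at e4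
      rw [hπc a v, hπc b u, ← mul_assoc, ← mul_assoc, hπc u v] at e4
      have := mul_left_cancel e4
      simp [this]
  -- two independent involutions commuting with `b`
  obtain ⟨E, ⟨hEc, hE2⟩, hEcard⟩ := hplus
  let φ : Q →* Q := MonoidHom.mk' (fun x => x * b * x⁻¹ * b⁻¹) (by
    intro x y
    have := Subgroup.mem_center_iff.1 (hcz y b)
    calc x * y * b * (x * y)⁻¹ * b⁻¹ = x * (y * b * y⁻¹ * b⁻¹) * (b * x⁻¹ * b⁻¹) := by group
      _ = x * (b * x⁻¹ * b⁻¹) * (y * b * y⁻¹ * b⁻¹) := by
        rw [mul_assoc x, ← this, ← mul_assoc]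
      _ = _ := by group)
  have hK : 8 ≤ Nat.card (φ.ker ⊓ E : Subgroup Q) := by
    have e := H1.card_map_mul_card_inf_ker φ E
    have hle : Nat.card (E.map φ) ≤ 2 := by
      rw [← hZ]
      apply Subgroup.card_le_of_le
      rintro _ ⟨x, -, rfl⟩
      exact hcz x b
    have h16 : 16 ≤ Nat.card E := by
      rw [hEcard]
      calc 16 = 2 ^ 4 := by norm_num
        _ ≤ 2 ^ (n + 1) := Nat.pow_le_pow_right (by norm_num) (by omega)
    nlinarith
  have hex : ∀ s : Finset Q, s.card < 8 → ∃ w ∈ (φ.ker ⊓ E : Subgroup Q), w ∉ s := by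
    intro s hs
    by_contra hcon
    push Not at hcon
    have : Nat.card (φ.ker ⊓ E : Subgroup Q) ≤ s.card := by
      rw [← Nat.card_eq_finsetCard]
      exact Nat.card_le_card_of_injective (fun x => (⟨x.1, hcon x.1 x.2⟩ : s))
        (fun x y h => Subtype.ext (by simpa using h))
    omega
  classical
  obtain ⟨w₁, ⟨hw₁b, hw₁E⟩, hw₁⟩ := hex {1, z} (lt_of_le_of_lt Finset.card_le_two (by norm_num))
  obtain ⟨w₂, ⟨hw₂b, hw₂E⟩, hw₂⟩ := hex {1, z, w₁, w₁ * z}
    (lt_of_le_of_lt Finset.card_le_four (by norm_num))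
  have hker : ∀ w, w ∈ φ.ker → b * w = w * b := by
    intro w hw
    have : w * b * w⁻¹ * b⁻¹ = 1 := hw
    rw [mul_inv_eq_one, mul_inv_eq_iff_eq_mul] at this
    exact this.symm
  have hEsq : ∀ w ∈ E, w * w = 1 := fun w hw => by rw [← pow_two]; exact hE2 w hw
  obtain ⟨u, hu⟩ := hlift b hb
  have hmain : ∀ w ∈ (φ.ker ⊓ E : Subgroup Q), w ∉ Subgroup.center Q →
      u * (b * w) = b * w * u := by
    rintro w ⟨hwb, hwE⟩ hwZ
    have e := hker w hwb
    refine h2 b hb u hu (b * w) ?_ ?_ ?_
    · calc b * w * (b * w) = b * (w * b) * w := by simp only [mul_assoc]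
        _ = (b * b) * (w * w) := by rw [← e]; simp only [mul_assoc]
        _ = z := by rw [hb, hEsq w hwE, mul_one]
    · rw [mul_assoc, ← e]
    · simpa using hwZ
  have hw₁Z : w₁ ∉ Subgroup.center Q := by
    intro h; rcases hcen _ h with h | h <;> simp [h] at hw₁
  have hw₂Z : w₂ ∉ Subgroup.center Q := by
    intro h; rcases hcen _ h with h | h <;> simp [h] at hw₂
  have hw₁i : w₁⁻¹ = w₁ := inv_eq_of_mul_eq_one_right (hEsq _ hw₁E)
  have hw₃Z : w₁ * w₂ ∉ Subgroup.center Q := by
    intro h
    rcases hcen _ h with h | h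
    · have : w₂ = w₁ := by rw [← hw₁i]; exact (inv_eq_of_mul_eq_one_right h).symm
      simp [this] at hw₂
    · have : w₂ = w₁ * z := by rw [← h, ← mul_assoc, hEsq _ hw₁E, one_mul]
      simp [this] at hw₂
  have c1 : Commute u (b * w₁) := hmain w₁ ⟨hw₁b, hw₁E⟩ hw₁Z
  have c2 : Commute u (b * w₂) := hmain w₂ ⟨hw₂b, hw₂E⟩ hw₂Z
  have c3 : Commute u (b * (w₁ * w₂)) :=
    hmain (w₁ * w₂) (mul_mem (⟨hw₁b, hw₁E⟩ : w₁ ∈ (φ.ker ⊓ E : Subgroup Q)) ⟨hw₂b, hw₂E⟩) hw₃Z
  have c4 : Commute u z := (hzc u).symm
  have c5 := ((c1.mul_right c2).mul_right c4).mul_right c3.inv_right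
  have e : b * w₁ * (b * w₂) * z * (b * (w₁ * w₂))⁻¹ = b⁻¹ := by
    have e1 := hker w₁ hw₁b
    have : b * w₁ * (b * w₂) * z = w₁ * w₂ := by
      calc b * w₁ * (b * w₂) * z = b * (w₁ * b) * w₂ * z := by simp only [mul_assoc]
        _ = (b * b) * (w₁ * w₂ * z) := by rw [← e1]; simp only [mul_assoc]
        _ = w₁ * w₂ := by rw [hb, ← hzc, ← mul_assoc, hz2, one_mul]
    rw [this]; group
  rw [e] at c5
  exact h1 b hb u hu (Commute.inv_right_iff.1 c5)

end Cfsg.Agent.S3085
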