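import Mathlib
import Cfsg.Statements.S3105
import Cfsg.Agent.Lib.FGS83.R4S
import Cfsg.Agent.Lib.TwoGrp.Sec4A8
import Cfsg.Agent.Lib.Core.PCore
import Cfsg.Agent.Lib.GL.Simple

set_option autoImplicit false
open Cfsg

namespace Cfsg.Agent.S3105


/-- Let X be a finite nonsolvable 2-constrained group with no nontrivial normal subgroup of odd order and of sectional 2-rank at most 4, and suppose X/O₂(X) is isomorphic to the projective special linear group of dimension 3 over the field with 2 elements. Then O₂(X) is elementary abelian of order 8 or 16, or is isomorphic to the direct product of a cyclic group of order 4 and an elementary abelian group of order 8. -/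
theorem result {X : Type*} [Group X] [Finite X] (hns : ¬ Group.IsSolvable X) (hc : Cfsg.IsPConstrained 2 X) (hO : Cfsg.oddCore X = ⊥)
    (h4 : Cfsg.SectionalPRankLE 2 4 X) {F : Type*} [Field F] [Fintype F] (hF : Fintype.card F = 2)
    (hQ : Nonempty (X ⧸ Cfsg.pCore 2 X ≃* Matrix.ProjectiveSpecialLinearGroup (Fin 3) F)) :
    (Cfsg.IsElementaryAbelian 2 (Cfsg.pCore 2 X) ∧ (Nat.card ↥(Cfsg.pCore 2 X) = 8 ∨ Nat.card ↥(Cfsg.pCore 2 X) = 16)) ∨
      Nonempty (↥(Cfsg.pCore 2 X) ≃* Multiplicative (ZMod 4) × (Fin 3 → Multiplicative (ZMod 2))) := by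
  haveI : Fact (Nat.Prime 2) := ⟨Nat.prime_two⟩
  haveI : Fact (Nat.Prime 7) := ⟨by norm_num⟩
  obtain ⟨e⟩ := hQ
  have h168 : Nat.card (Matrix.ProjectiveSpecialLinearGroup (Fin 3) F) = 168 := by
    have := H10.card_PSL_fin (F := F) 3 (by norm_num)
    rw [Nat.card_eq_fintype_card (α := F), hF] at this
    simpa [Fin.prod_univ_three] using this
  have hs := H10.isSimpleGroup_PSL_fin (F := F) 3 (by norm_num) (by norm_num)
  let π := e.toMonoidHom.comp (QuotientGroup.mk' (Cfsg.pCore 2 X))
  have hπ : Function.Surjective π := e.surjective.comp (QuotientGroup.mk'_surjective _)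
  have hk : ∀ g, π g = 1 ↔ g ∈ Cfsg.pCore 2 X := fun g =>
    e.map_eq_one_iff.trans (QuotientGroup.eq_one_iff g)
  obtain ⟨σ, hσ⟩ := exists_prime_orderOf_dvd_card' (G := Matrix.ProjectiveSpecialLinearGroup (Fin 3) F) 7
    (by rw [h168]; norm_num)
  obtain ⟨y, rfl⟩ := hπ σ
  obtain ⟨s, -, s7, hs'⟩ := H83.R4.lift_odd H1.isPGroup_pCore (by decide : Odd 7) (y := y)
    ((hk _).1 (by rw [map_pow, ← hσ, pow_orderOf_eq_one]))
  have H : H83.R4.H7 π (Cfsg.pCore 2 X) s := ⟨hπ, hk, hs, h168, by
    rcases (inferInstance : (commutator (Matrix.ProjectiveSpecialLinearGroup (Fin 3) F)).Normal).eq_bot_or_eq_top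
      with h | h
    · letI : CommGroup (Matrix.ProjectiveSpecialLinearGroup (Fin 3) F) :=
        { (inferInstance : Group _) with mul_comm := ((commutator_eq_bot_iff _).1 h).is_comm.comm }
      have := IsSimpleGroup.prime_card (α := Matrix.ProjectiveSpecialLinearGroup (Fin 3) F)
      rw [h168] at this
      norm_num at this
    · exact h, H1.isPGroup_pCore, H83.sr_of_sectional h4, s7, fun m => by
      have := (hk y).2 (by simpa using mul_mem m (inv_mem hs'))
      rw [this, orderOf_one] at hσ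
      omega⟩
  rcases H.main (H13.TG.centralizer_pCore_le hc (H13.TG.pPrimeCore_two_eq_bot hO)) with ⟨h1, h2⟩ | h
  · refine Or.inl ⟨⟨⟨⟨fun a b => ?_⟩⟩, fun a ha => by rw [pow_two, h1 a ha]⟩, h2⟩
    exact H83.comm_of_forall_sq (fun x : Cfsg.pCore 2 X => Subtype.ext (h1 x x.2)) a b
  · exact Or.inr h

end Cfsg.Agent.S3105
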