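import Cfsg.Statements.S3117
import Cfsg.Agent.Lib.TwoGrp.Three
import Cfsg.Agent.Lib.Char.BurnsidePQ

set_option autoImplicit false
open Cfsg

namespace Cfsg.Agent.S3117

open Subgroup

/-- If X is a finite 2-group containing exactly three involutions, then the automorphism group of X is solvable. -/
theorem result {X : Type*} [Group X] [Finite X] (h2 : IsPGroup 2 X) (h3 : Nat.card {x : X // orderOf x = 2} = 3) : Group.IsSolvable (MulAut X) := by
  classical
  have h3' : {x : X | orderOf x = 2}.ncard = 3 := h3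
  have hI : ∀ x : X, x * x = 1 → x ≠ 1 → orderOf x = 2 := fun x hx h1 =>
    orderOf_eq_prime (by rw [pow_two, hx]) h1
  have hI' : ∀ x : X, orderOf x = 2 → x * x = 1 ∧ x ≠ 1 := fun x hx =>
    ⟨by rw [← pow_two, ← hx, pow_orderOf_eq_one], by rintro rfl; simp at hx⟩
  obtain ⟨a, ha⟩ : {x : X | orderOf x = 2}.Nonempty := Set.nonempty_of_ncard_ne_zero (by omega)
  haveI : Nontrivial X := ⟨a, 1, (hI' a ha).2⟩
  obtain ⟨z, -, hzc, hz⟩ := H5.exists_mem_center_orderOf_eq h2 ⊤ top_ne_bot
  obtain ⟨t, ht, htz⟩ : ∃ t : X, orderOf t = 2 ∧ t ≠ z := by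
    by_contra hh
    push Not at hh
    have := Set.ncard_le_ncard (show {x : X | orderOf x = 2} ⊆ {z} from hh)
    simp [h3'] at this
  have hc : z * t = t * z := (mem_center_iff.1 hzc t).symm
  obtain ⟨hz2, hz1⟩ := hI' z hz
  obtain ⟨ht2, ht1⟩ := hI' t ht
  have e2 : t * (t * z) = z := by rw [← mul_assoc, ht2, one_mul]
  have e3 : t * z * z = t := by rw [mul_assoc, hz2, mul_one]
  have e4 : z * (t * z) = t := by rw [← mul_assoc, hc, e3]
  have e5 : t * z * t = z := by rw [mul_assoc, hc, e2]
  have e6 : t * z * (t * z) = 1 := by rw [← mul_assoc, e5, hz2]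
  have htz1 : t * z ≠ 1 := fun h => htz (by rw [← e3, h, one_mul])
  have hs : ({z, t, t * z} : Set X) = {x : X | orderOf x = 2} := by
    refine Set.eq_of_subset_of_ncard_le ?_ ?_ (Set.toFinite _)
    · rintro x (rfl | rfl | rfl)
      exacts [hz, ht, hI _ e6 htz1]
    · rw [h3', Set.ncard_eq_three.2 ⟨z, t, t * z, htz.symm, by simpa using ht1, by simpa using hz1, rfl⟩]
  have hall : ∀ x : X, x * x = 1 → x = 1 ∨ x = z ∨ x = t ∨ x = t * z := fun x hx => by
    by_cases h1 : x = 1
    · exact Or.inl h1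
    · have : x ∈ ({z, t, t * z} : Set X) := hs ▸ hI x hx h1
      exact Or.inr this
  let W : Subgroup X :=
    { carrier := {x | x * x = 1}
      one_mem' := mul_one 1
      mul_mem' := by
        intro a b ha hb
        rcases hall a ha with rfl | rfl | rfl | rfl <;> rcases hall b hb with rfl | rfl | rfl | rfl <;>
          simp [*]
      inv_mem' := fun {a} ha => by
        change a⁻¹ * a⁻¹ = 1
        rw [← mul_inv_rev, ha, inv_one] }
  have h4 : Nat.card W = 4 := by
    change (W : Set X).ncard = 4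
    rw [show (W : Set X) = insert 1 {x : X | orderOf x = 2} from Set.ext fun x => ⟨fun hx => by
      by_cases h1 : x = 1
      · exact Or.inl h1
      · exact Or.inr (hI x hx h1), by
      rintro (rfl | hx)
      · exact W.one_mem
      · exact (hI' x hx).1⟩, Set.ncard_insert_of_notMem (by simp), h3']
  obtain ⟨K, V, hV, hK⟩ := H13.TG.exists_c3 h2 W (fun _ => Iff.rfl) h4
  haveI : W.Characteristic := H5.characteristic_of_aut_mem fun φ x hx => by
    change φ x * φ x = 1
    rw [← map_mul, hx, map_one]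
  let ρ : MulAut X →* Equiv.Perm W := (MulAut.toPerm W).comp (MulAut.characteristic W)
  haveI : Group.IsSolvable (Equiv.Perm W) := by
    refine H8.isSolvable_of_two_primes Nat.prime_two Nat.prime_three fun r hr hd => ?_
    rw [Nat.card_perm, hr.dvd_factorial, h4] at hd
    have := hr.two_le
    have h4 : r ≠ 4 := by rintro rfl; norm_num at hr
    omega
  have hel : ∀ r : ℕ, r.Prime → r ≠ 2 → r ∣ Nat.card ρ.ker →
      ∃ β : MulAut K, orderOf β = r ∧ V ≤ H5.fixedSub β := by
    intro r hr hr2 hd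
    haveI := Fact.mk hr
    obtain ⟨α, hα⟩ := exists_prime_orderOf_dvd_card' r hd
    exact hK r α hr2 (by rw [orderOf_coe, hα]) fun x hx =>
      congrArg Subtype.val (DFunLike.congr_fun (show ρ α = 1 from α.2) (⟨x, hx⟩ : W))
  have hpr : ∀ r : ℕ, r.Prime → r ∣ Nat.card ρ.ker → r = 2 ∨ r = 3 ∨ r = 5 := by
    intro r hr hd
    by_cases hr2 : r = 2
    · exact Or.inl hr2
    haveI := Fact.mk hr
    obtain ⟨β, h1, h2⟩ := hel r hr hr2 hd
    rcases hV.prime_cases h1 h2 with h | h | h
    exacts [Or.inl h, Or.inr (Or.inl h), Or.inr (Or.inr h.1)]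
  haveI : Group.IsSolvable ρ.ker := by
    by_cases h5 : 5 ∣ Nat.card ρ.ker
    · refine H8.isSolvable_of_two_primes Nat.prime_two Nat.prime_five fun r hr hd => ?_
      rcases hpr r hr hd with h | rfl | h
      · exact Or.inl h
      · obtain ⟨α, h1, h2⟩ := hel 5 Nat.prime_five (by norm_num) h5
        obtain ⟨β, h3, h4⟩ := hel 3 Nat.prime_three (by norm_num) hd
        exact (hV.not_three_five h1 h3 h2 h4).elim
      · exact Or.inr h
    · refine H8.isSolvable_of_two_primes Nat.prime_two Nat.prime_three fun r hr hd => ?_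
      rcases hpr r hr hd with h | h | rfl
      exacts [Or.inl h, Or.inr h, absurd hd h5]
  exact solvable_of_ker_le_range ρ.ker.subtype ρ (by simp)

end Cfsg.Agent.S3117
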