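import Mathlib
import Cfsg.Statements.S3356
import Cfsg.Agent.Lib.Perm.Half

set_option autoImplicit false
open Cfsg

namespace Cfsg.Agent.S3356


/-- Let G be a finite 3/2-transitive permutation group: G acts faithfully and transitively on a finite set, the point stabilizers are non-trivial, and for each point a all orbits of G_a on the remaining points have the same size. Suppose G has a regular normal subgroup N and G is not a Frobenius group (some two-point stabilizer is non-trivial). Then N is an elementary abelian p-group for some prime p, and every non-trivial normal subgroup of G contains N (so N is the unique minimal normal subgroup). -/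
theorem result {G Ω : Type*} [Group G] [Finite G]
    [MulAction G Ω] [FaithfulSMul G Ω] [Finite Ω] (htrans : MulAction.IsPretransitive G Ω)
    (hne : ∀ a : Ω, MulAction.stabilizer G a ≠ ⊥)
    (hhalf : ∀ a b c : Ω, b ≠ a → c ≠ a →
      Nat.card (MulAction.orbit (MulAction.stabilizer G a) b) = Nat.card (MulAction.orbit (MulAction.stabilizer G a) c))
    (N : Subgroup G) [hN : N.Normal] (hNt : MulAction.IsPretransitive N Ω) (hNr : ∀ a : Ω, MulAction.stabilizer N a = ⊥)
    (hnotF : ∃ a b : Ω, a ≠ b ∧ MulAction.stabilizer G a ⊓ MulAction.stabilizer G b ≠ ⊥) :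
    (∃ p : ℕ, p.Prime ∧ IsMulCommutative N ∧ ∀ x ∈ N, x ^ p = 1) ∧
    (∀ M : Subgroup G, M.Normal → M ≠ ⊥ → N ≤ M) := by
  obtain ⟨a, b, hab, hst⟩ := hnotF
  letI : MulDistribMulAction (MulAction.stabilizer G a) N :=
    MulDistribMulAction.compHom N ((MulAut.conjNormal (H := N)).comp (MulAction.stabilizer G a).subtype)
  have hsm : ∀ (h : MulAction.stabilizer G a) (x : N), ((h • x : N) : G) = h * x * (h : G)⁻¹ :=
    fun h x => rfl
  have hreg : ∀ x : G, x ∈ N → x • a = a → x = 1 := fun x hx e => by
    have : (⟨x, hx⟩ : N) ∈ MulAction.stabilizer N a := e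
    rw [hNr a, Subgroup.mem_bot] at this
    exact congrArg Subtype.val this
  have hfix : ∀ (h : MulAction.stabilizer G a) (x : N), h • x = x ↔ (h : G) • ((x : G) • a) = (x : G) • a := by
    intro h x
    have hh : (h : G) • a = a := h.2
    have hh' : (h : G)⁻¹ • a = a := by rw [inv_smul_eq_iff, hh]
    constructor
    · intro e
      have e1 := congrArg Subtype.val e
      rw [hsm] at e1
      conv_rhs => rw [← e1]
      rw [mul_smul, mul_smul, hh']
    · intro e
      apply Subtype.ext
      rw [hsm]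
      have := hreg ((x : G)⁻¹ * (h * x * (h : G)⁻¹)) (N.mul_mem (N.inv_mem x.2) (hN.conj_mem _ x.2 _)) (by
        rw [mul_smul, mul_smul, mul_smul, hh', e, inv_smul_smul])
      exact (inv_mul_eq_one.1 this).symm
  have horb : ∀ x : N, Nat.card (MulAction.orbit (MulAction.stabilizer G a) x) =
      Nat.card (MulAction.orbit (MulAction.stabilizer G a) ((x : G) • a)) := by
    intro x
    rw [Nat.card_coe_set_eq, Nat.card_coe_set_eq, ← MulAction.index_stabilizer, ← MulAction.index_stabilizer]
    congr 1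
    ext h
    exact hfix h x
  have hfaith : ∀ g : G, g • a = a → (∀ x ∈ N, g * x = x * g) → g = 1 := by
    intro g hg hc
    refine eq_of_smul_eq_smul (α := Ω) fun c => ?_
    obtain ⟨x, rfl⟩ := hNt.exists_smul_eq a c
    show g • ((x : G) • a) = (1 : G) • ((x : G) • a)
    rw [one_smul, ← mul_smul, hc _ x.2, mul_smul, hg]
  have H : H26.Half.Hyp (MulAction.stabilizer G a) N (Nat.card (MulAction.orbit (MulAction.stabilizer G a) b)) := by
    refine ⟨fun x hx => ?_, fun h hh => ?_, ?_⟩
    · rw [horb]
      exact hhalf a _ _ (fun e => hx (Subtype.ext (hreg _ x.2 e))) hab.symm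
    · apply Subtype.ext
      refine hfaith h h.2 fun x hx => ?_
      have := congrArg Subtype.val (hh ⟨x, hx⟩)
      rw [hsm] at this
      exact mul_inv_eq_iff_eq_mul.1 this
    · obtain ⟨⟨g, hg⟩, hg1⟩ := Subgroup.ne_bot_iff_exists_ne_one.1 hst
      obtain ⟨x, hx⟩ := hNt.exists_smul_eq a b
      have hx' : (x : G) • a = b := hx
      refine ⟨⟨g, hg.1⟩, fun e => hg1 (Subtype.ext (show g = 1 from congrArg Subtype.val e)), x, ?_, ?_⟩
      · rintro rfl
        exact hab (by simpa using hx')
      · rw [hfix, hx']; exact hg.2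
  obtain ⟨p, hp, hpe⟩ := H.elem
  refine ⟨⟨p, hp, ⟨⟨H.comm⟩⟩, fun x hx => congrArg Subtype.val (hpe ⟨x, hx⟩)⟩, fun M hM hM1 => ?_⟩
  rcases H.irred (M.subgroupOf N) (fun h w hw => by
    rw [Subgroup.mem_subgroupOf] at hw ⊢
    rw [hsm]; exact hM.conj_mem _ hw _) with h1 | h1
  · exfalso
    obtain ⟨⟨m, hm⟩, hm1⟩ := Subgroup.ne_bot_iff_exists_ne_one.1 hM1
    have hdis : Disjoint M N := Subgroup.subgroupOf_eq_bot.1 h1
    obtain ⟨n, hn⟩ := hNt.exists_smul_eq a (m • a)
    have hn' : (n : G) • a = m • a := hn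
    have := hfaith ((n : G)⁻¹ * m) (by rw [mul_smul, ← hn', inv_smul_smul]) fun x hx => by
      have e1 : Commute m x := Subgroup.commute_of_normal_of_disjoint M N hM hN hdis m x hm hx
      have e2 : (n : G)⁻¹ * x = x * (n : G)⁻¹ := congrArg Subtype.val (H.comm n⁻¹ ⟨x, hx⟩)
      rw [mul_assoc, e1.eq, ← mul_assoc, e2, mul_assoc]
    have e := inv_mul_eq_one.1 this
    have : m ∈ M ⊓ N := ⟨hm, e ▸ n.2⟩
    rw [hdis.eq_bot, Subgroup.mem_bot] at this
    exact hm1 (Subtype.ext this)
  · exact Subgroup.subgroupOf_eq_top.1 h1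

end Cfsg.Agent.S3356
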