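import Cfsg.Statements.S3357
import Cfsg.Agent.Lib.FrobC.Local

set_option autoImplicit false
open Cfsg

namespace Cfsg.Agent.S3357

theorem key {G k V : Type*} [Group G] [Field k] [AddCommGroup V] [Module k V] [Module.Finite k V]
    [Nontrivial V] (σ : Representation k G V) (hfpf : ∀ g : G, g ≠ 1 → ∀ v, σ g v = v → v = 0) :
    ∃ (n : ℕ) (ρ : G →* GL (Fin n) k), 0 < n ∧ Function.Injective ρ ∧
      (∀ W : Submodule k (Fin n → k),
        (∀ g : G, ∀ w ∈ W, ((ρ g : GL (Fin n) k) : Matrix (Fin n) (Fin n) k).mulVec w ∈ W) →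
          W = ⊥ ∨ W = ⊤) ∧
      ∀ g : G, g ≠ 1 → ∀ v : Fin n → k,
        ((ρ g : GL (Fin n) k) : Matrix (Fin n) (Fin n) k).mulVec v = v → v = 0 := by
  classical
  let S : Set (Submodule k V) := {W | W ≠ ⊥ ∧ ∀ g, ∀ w ∈ W, σ g w ∈ W}
  obtain ⟨W, ⟨hW, hWinv⟩, hmin⟩ := (wellFounded_lt (α := Submodule k V)).has_min S
    ⟨⊤, top_ne_bot, fun _ _ _ => trivial⟩
  have : Nontrivial W := Submodule.nontrivial_iff_ne_bot.2 hW
  let τ : Representation k G W := Representation.subrepresentation σ W fun g w hw => hWinv g w hw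
  have hτ : ∀ g (w : W), (τ g w : V) = σ g w := fun _ _ => rfl
  let b := Module.finBasis k W
  let ρ' : G →* Matrix _ _ k := (LinearMap.toMatrixAlgEquiv b).toMonoidHom.comp τ
  have hρ : ∀ g (w : W), (ρ' g).mulVec (b.equivFun w) = b.equivFun (τ g w) := fun g w =>
    LinearMap.toMatrix_mulVec_repr b b (τ g) w
  have hfix : ∀ g : G, g ≠ 1 → ∀ v, (ρ' g).mulVec v = v → v = 0 := by
    intro g hg v hv
    obtain ⟨w, rfl⟩ := b.equivFun.surjective v
    rw [hρ, b.equivFun.injective.eq_iff] at hv
    rw [show w = 0 from Subtype.ext (hfpf g hg w (congrArg Subtype.val hv)), map_zero]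
  refine ⟨_, ρ'.toHomUnits, Module.finrank_pos, ?_, fun U hU => ?_, hfix⟩
  · rw [injective_iff_map_eq_one]
    intro g hg
    by_contra h1
    obtain ⟨w, hw⟩ := exists_ne (0 : W)
    apply hw
    apply b.equivFun.injective
    rw [map_zero]
    apply hfix g h1
    rw [show ρ' g = 1 from congrArg Units.val hg, Matrix.one_mulVec]
  · by_contra hcon
    push Not at hcon
    refine hmin ((U.comap b.equivFun.toLinearMap).map W.subtype) ⟨fun h0 => hcon.1 ?_, ?_⟩ ?_
    · rw [eq_bot_iff]
      intro v hv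
      obtain ⟨w, rfl⟩ := b.equivFun.surjective v
      have : (w : V) ∈ (U.comap b.equivFun.toLinearMap).map W.subtype := ⟨w, hv, rfl⟩
      rw [h0, Submodule.mem_bot] at this
      rw [show w = 0 from Subtype.ext this, map_zero]
      exact Submodule.zero_mem _
    · rintro g _ ⟨w, hw, rfl⟩
      refine ⟨τ g w, ?_, rfl⟩
      have := hU g _ hw
      change (ρ' g).mulVec (b.equivFun w) ∈ U at this
      rwa [hρ] at this
    · refine lt_of_le_of_ne (Submodule.map_subtype_le _ _) fun e => hcon.2 ?_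
      rw [eq_top_iff]
      intro v _
      obtain ⟨w, rfl⟩ := b.equivFun.surjective v
      have : (w : V) ∈ (U.comap b.equivFun.toLinearMap).map W.subtype := by
        rw [e]; exact w.2
      obtain ⟨w', hw', e'⟩ := this
      rwa [← show w' = w from Subtype.ext e']


/-- Let G be a finite group that occurs as a Frobenius complement. Then G has a faithful irreducible representation over an algebraic closure of the rationals in which no non-identity element of G has 1 as an eigenvalue: there are n ≥ 1 and an injective homomorphism ρ from G to GL(n) over that field, with no invariant subspace other than 0 and the whole space, such that for g ≠ 1 the only vector fixed by ρ(g) is 0. -/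
theorem result {G : Type*} [Group G] [Finite G]
    (hFC : ∃ (L : Type) (_ : Group L) (_ : Finite L) (H : Subgroup L), Cfsg.IsFrobeniusComplement H ∧ Nonempty (G ≃* H)) :
    ∃ (n : ℕ) (ρ : G →* GL (Fin n) (AlgebraicClosure ℚ)), 0 < n ∧ Function.Injective ρ ∧
      (∀ W : Submodule (AlgebraicClosure ℚ) (Fin n → AlgebraicClosure ℚ),
        (∀ g : G, ∀ w ∈ W, ((ρ g : GL (Fin n) (AlgebraicClosure ℚ)) : Matrix (Fin n) (Fin n) (AlgebraicClosure ℚ)).mulVec w ∈ W) → W = ⊥ ∨ W = ⊤) ∧
      ∀ g : G, g ≠ 1 → ∀ v : Fin n → AlgebraicClosure ℚ,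
        ((ρ g : GL (Fin n) (AlgebraicClosure ℚ)) : Matrix (Fin n) (Fin n) (AlgebraicClosure ℚ)).mulVec v = v → v = 0 := by
  have := (H82.intFPF_of_fc hFC).1.nontrivial_normKer (AlgebraicClosure ℚ)
  exact key (H82.normRep (AlgebraicClosure ℚ) G)
    (H82.normRep_fpf (Nat.cast_ne_zero.2 Nat.card_pos.ne'))

end Cfsg.Agent.S3357
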