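import Cfsg.Statements.S3358
import Cfsg.Agent.Lib.FrobC.Core

set_option autoImplicit false
open Cfsg

namespace Cfsg.Agent.S3358

open Subgroup

theorem conj_pow_aux {P : Type*} [Group P] {X Y : P} {r : ℕ} (h : X⁻¹ * Y * X = Y ^ r) (k j : ℕ) :
    Y ^ j * X ^ k = X ^ k * Y ^ (j * r ^ k) := by
  induction k generalizing j with
  | zero => simp
  | succ k ih =>
    have h1 : ∀ i : ℕ, Y ^ i * X = X * Y ^ (i * r) := by
      intro i
      have := conj_pow (a := X⁻¹) (b := Y) (i := i)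
      rw [inv_inv, h, ← pow_mul, mul_comm r] at this
      rw [this]; group
    rw [pow_succ X, ← mul_assoc, ih, mul_assoc, h1, pow_succ r, ← mul_assoc, mul_assoc j]

theorem present {G : Type*} [Group G] {x y : G} {n m r : ℕ} (hn : 0 < n) (hm : 0 < m)
    (hx : orderOf x = n) (hy : orderOf y = m) (hc : n.Coprime m) (hr : x⁻¹ * y * x = y ^ r)
    (hgen : ∀ g : G, ∃ i j : ℕ, x ^ i * y ^ j = g) :
    Nonempty (G ≃* PresentedGroup
      ({FreeGroup.of (0 : Fin 2) ^ n, FreeGroup.of (1 : Fin 2) ^ m,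
        (FreeGroup.of (0 : Fin 2))⁻¹ * FreeGroup.of 1 * FreeGroup.of 0 *
          (FreeGroup.of (1 : Fin 2) ^ r)⁻¹} : Set (FreeGroup (Fin 2)))) := by
  set rels : Set (FreeGroup (Fin 2)) := {FreeGroup.of (0 : Fin 2) ^ n, FreeGroup.of (1 : Fin 2) ^ m,
    (FreeGroup.of (0 : Fin 2))⁻¹ * FreeGroup.of 1 * FreeGroup.of 0 *
      (FreeGroup.of (1 : Fin 2) ^ r)⁻¹} with hrels
  have hf : ∀ w ∈ rels, FreeGroup.lift ![x, y] w = 1 := by
    rintro w (rfl | rfl | rfl)
    · simp [← hx]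
    · simp [← hy]
    · simp [hr]
  let π := PresentedGroup.toGroup hf
  let X : PresentedGroup rels := PresentedGroup.of 0
  let Y : PresentedGroup rels := PresentedGroup.of 1
  have hX : π X = x := PresentedGroup.toGroup.of hf
  have hY : π Y = y := PresentedGroup.toGroup.of hf
  have h1 : X ^ n = 1 := by
    simpa [X, PresentedGroup.of] using PresentedGroup.one_of_mem (rels := rels) (Or.inl rfl)
  have h2 : Y ^ m = 1 := by
    simpa [Y, PresentedGroup.of] using
      PresentedGroup.one_of_mem (rels := rels) (Or.inr (Or.inl rfl))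
  have h3 : X⁻¹ * Y * X = Y ^ r := by
    rw [← mul_inv_eq_one]
    simpa [X, Y, PresentedGroup.of] using
      PresentedGroup.one_of_mem (rels := rels) (Or.inr (Or.inr rfl))
  have hmul : ∀ {a b : PresentedGroup rels}, (∃ i j : ℕ, X ^ i * Y ^ j = a) →
      (∃ i j : ℕ, X ^ i * Y ^ j = b) → ∃ i j : ℕ, X ^ i * Y ^ j = a * b := by
    rintro _ _ ⟨i, j, rfl⟩ ⟨k, l, rfl⟩
    refine ⟨i + k, j * r ^ k + l, ?_⟩
    rw [mul_assoc, ← mul_assoc (Y ^ j), conj_pow_aux h3, pow_add, pow_add]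
    simp only [mul_assoc]
  let S : Subgroup (PresentedGroup rels) :=
    { carrier := {g | ∃ i j : ℕ, X ^ i * Y ^ j = g}
      one_mem' := ⟨0, 0, by simp⟩
      mul_mem' := hmul
      inv_mem' := by
        rintro _ ⟨i, j, rfl⟩
        rw [mul_inv_rev]
        refine hmul ⟨0, (m - 1) * j, ?_⟩ ⟨(n - 1) * i, 0, ?_⟩
        · rw [pow_zero, one_mul, pow_mul, ← inv_pow, eq_inv_of_mul_eq_one_left
            (a := Y ^ (m - 1)) (by rw [← pow_succ, Nat.sub_add_cancel hm, h2])]
        · rw [pow_zero, mul_one, pow_mul, ← inv_pow, eq_inv_of_mul_eq_one_left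
            (a := X ^ (n - 1)) (by rw [← pow_succ, Nat.sub_add_cancel hn, h1])] }
  have hS : ∀ g, g ∈ S := fun g => PresentedGroup.generated_by rels S (by
    intro j
    fin_cases j
    exacts [⟨1, 0, by simp [X]⟩, ⟨0, 1, by simp [Y]⟩]) g
  refine ⟨(MulEquiv.ofBijective π ⟨?_, fun g => ?_⟩).symm⟩
  · rw [injective_iff_map_eq_one]
    intro g hg
    obtain ⟨i, j, rfl⟩ := hS g
    rw [map_mul, map_pow, map_pow, hX, hY] at hg
    have h4 : x ^ i = 1 := by
      rw [← orderOf_eq_one_iff]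
      refine Nat.eq_one_of_dvd_coprimes hc (hx ▸ orderOf_pow_dvd i) ?_
      rw [eq_inv_of_mul_eq_one_left hg, orderOf_inv]
      exact hy ▸ orderOf_pow_dvd j
    rw [h4, one_mul, ← orderOf_dvd_iff_pow_eq_one, hy] at hg
    rw [← orderOf_dvd_iff_pow_eq_one, hx] at h4
    obtain ⟨a, rfl⟩ := h4
    obtain ⟨b, rfl⟩ := hg
    simp [pow_mul, h1, h2]
  · obtain ⟨i, j, rfl⟩ := hgen g
    exact ⟨X ^ i * Y ^ j, by rw [map_mul, map_pow, map_pow, hX, hY]⟩

theorem zgroup {G : Type*} [Group G] [Finite G] [IsZGroup G] (h : H82.IntFPF G) :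
    ∃ n m r : ℕ, 0 < n ∧ 0 < m ∧ Nat.Coprime (r - 1) m ∧ Nat.Coprime n m ∧ 1 ≤ r ∧
      r ^ (n / ∏ p ∈ n.primeFactors, p) % m = 1 % m ∧
      Nonempty (G ≃* PresentedGroup
        ({FreeGroup.of (0 : Fin 2) ^ n, FreeGroup.of (1 : Fin 2) ^ m,
          (FreeGroup.of (0 : Fin 2))⁻¹ * FreeGroup.of 1 * FreeGroup.of 0 *
            (FreeGroup.of (1 : Fin 2) ^ r)⁻¹} : Set (FreeGroup (Fin 2)))) := by
  obtain ⟨H, hH⟩ := exists_right_complement'_of_coprime
    (IsZGroup.coprime_commutator_index (G := G))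
  have hK := IsZGroup.isCyclic_commutator (G := G)
  have hHc : IsCyclic H := hH.symm.QuotientMulEquiv.isCyclic.1 IsZGroup.isCyclic_abelianization
  obtain ⟨x, rfl⟩ := (Subgroup.isCyclic_iff_exists_zpowers_eq_top H).1 hHc
  obtain ⟨y, hy⟩ := (Subgroup.isCyclic_iff_exists_zpowers_eq_top _).1 hK
  have hc : (orderOf x).Coprime (orderOf y) := by
    rw [← Nat.card_zpowers, ← Nat.card_zpowers, hy, ← hH.symm.index_eq_card]
    exact (IsZGroup.coprime_commutator_index (G := G)).symm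
  have hn : (zpowers y).Normal := hy ▸ inferInstance
  obtain ⟨r₀, hr₀⟩ := (mem_powers_iff_mem_zpowers.2 (hn.conj_mem' y (mem_zpowers y) x))
  have hr : x⁻¹ * y * x = y ^ (r₀ + orderOf y) := by
    rw [pow_add, pow_orderOf_eq_one, mul_one]; exact hr₀.symm
  have hm := orderOf_pos y
  have hr1 : 1 ≤ r₀ + orderOf y := by omega
  generalize r₀ + orderOf y = r at hr hr1
  have hgen : ∀ g : G, ∃ i j : ℕ, x ^ i * y ^ j = g := by
    intro g
    obtain ⟨⟨⟨a, ha⟩, ⟨b, hb⟩⟩, rfl⟩ := hH.symm.2 g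
    rw [SetLike.mem_coe, ← hy] at hb
    obtain ⟨i, rfl⟩ := mem_powers_iff_mem_zpowers.2 ha
    obtain ⟨j, rfl⟩ := mem_powers_iff_mem_zpowers.2 hb
    exact ⟨i, j, rfl⟩
  refine ⟨orderOf x, orderOf y, r, orderOf_pos x, hm, ?_, hc, hr1, ?_,
    present (orderOf_pos x) hm rfl rfl hc hr hgen⟩
  · have hn' : (zpowers (y ^ (r - 1))).Normal := by
      refine ⟨fun a ha g => ?_⟩
      obtain ⟨k, rfl⟩ := ha
      obtain ⟨t, ht⟩ := hn.conj_mem y (mem_zpowers y) g
      simp only at ht ⊢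
      rw [← conj_zpow, ← conj_pow, ← ht, ← zpow_natCast (y ^ t), ← zpow_mul y, mul_comm t,
        zpow_mul, zpow_natCast]
      exact zpow_mem (zpow_mem (mem_zpowers _) _) _
    have hcomm : Commute (QuotientGroup.mk' (zpowers (y ^ (r - 1))) x)
        (QuotientGroup.mk' (zpowers (y ^ (r - 1))) y) := by
      rw [Commute, SemiconjBy, ← map_mul, ← map_mul, QuotientGroup.mk'_apply,
        QuotientGroup.mk'_apply, QuotientGroup.eq]
      have : (x * y)⁻¹ * (y * x) = y ^ (r - 1) := by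
        rw [mul_inv_rev, mul_assoc, ← mul_assoc x⁻¹, hr, inv_mul_eq_iff_eq_mul, ← pow_succ',
          Nat.sub_add_cancel hr1]
      rw [this]; exact mem_zpowers _
    have hle : commutator G ≤ zpowers (y ^ (r - 1)) := by
      rw [← Normal.quotient_commutative_iff_commutator_le]
      refine ⟨⟨fun a b => ?_⟩⟩
      obtain ⟨a, rfl⟩ := QuotientGroup.mk'_surjective _ a
      obtain ⟨b, rfl⟩ := QuotientGroup.mk'_surjective _ b
      obtain ⟨i, j, rfl⟩ := hgen a
      obtain ⟨k, l, rfl⟩ := hgen b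
      simp only [map_mul, map_pow]
      exact (((Commute.refl _).pow_pow i k).mul_right (hcomm.pow_pow i l)).mul_left
        ((hcomm.symm.pow_pow j k).mul_right ((Commute.refl _).pow_pow j l))
    exact mem_zpowers_pow_iff.1 (hle (hy ▸ mem_zpowers y))
  · let φ : G →* MulAut (zpowers y) := MulAut.conjNormal
    obtain ⟨e, he⟩ := orderOf_map_dvd φ x
    have hd := orderOf_pos (φ x)
    have h1 : ∏ p ∈ (orderOf x).primeFactors, p ∣ e := by
      refine Finset.prod_primes_dvd _ (fun p hp => (Nat.prime_of_mem_primeFactors hp).prime)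
        fun p hp => ?_
      have hp' := Nat.prime_of_mem_primeFactors hp
      obtain ⟨c, hc'⟩ := Nat.dvd_of_mem_primeFactors hp
      have hc0 : c ≠ 0 := by rintro rfl; exact (orderOf_pos x).ne' (by simpa using hc')
      have ho : orderOf (x ^ c) = p := by
        rw [orderOf_pow_of_dvd hc0 (by rw [hc']; exact dvd_mul_left _ _), hc',
          Nat.mul_div_cancel _ (Nat.pos_of_ne_zero hc0)]
      have := h.mem_centralizer_of_comm (V := zpowers y) inferInstance (a := x ^ c) (ho ▸ hp')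
        (le_normalizer_of_normal (mem_top _))
        (by rw [Nat.card_zpowers]; exact hc.coprime_dvd_left (orderOf_pow_dvd c))
      have h2 : φ x ^ c = 1 := by
        rw [← map_pow]
        ext w
        exact mul_inv_eq_iff_eq_mul.2 (this w w.2).symm
      obtain ⟨c', rfl⟩ := orderOf_dvd_of_pow_eq_one h2
      refine ⟨c', Nat.eq_of_mul_eq_mul_left hd ?_⟩
      rw [← he, hc']; ring
    obtain ⟨t, ht⟩ := h1
    have hpos : 0 < ∏ p ∈ (orderOf x).primeFactors, p :=
      Finset.prod_pos fun p hp => (Nat.prime_of_mem_primeFactors hp).pos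
    generalize ∏ p ∈ (orderOf x).primeFactors, p = n' at ht hpos ⊢
    have h3 : orderOf x / n' = orderOf (φ x) * t := by
      rw [he, ht, mul_left_comm, Nat.mul_div_cancel_left _ hpos]
    have h4 : φ (x ^ (orderOf x / n')) = 1 := by
      rw [h3, map_pow, pow_mul, pow_orderOf_eq_one, one_pow]
    generalize orderOf x / n' = k at h4 ⊢
    have h5 : x ^ k * y * (x ^ k)⁻¹ = y := by
      have := congrArg Subtype.val (DFunLike.congr_fun h4 (⟨y, mem_zpowers y⟩ : zpowers y))
      exact this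
    have h6 := conj_pow_aux hr k 1
    rw [pow_one, one_mul, ← mul_inv_eq_iff_eq_mul.1 h5, mul_right_inj] at h6
    exact pow_eq_pow_iff_modEq.1 (h6.symm.trans (pow_one y).symm)


/-- Structure of solvable Frobenius complements. Let G be a finite solvable group that occurs as a Frobenius complement. Then G has a normal subgroup G₀ such that G/G₀ is isomorphic to a subgroup of Sym(4) (G₀ is the kernel of a homomorphism to Sym(4)), all Sylow subgroups of G₀ are cyclic, and G₀ has a presentation ⟨x, y | x^n = 1, y^m = 1, x⁻¹ y x = y^r⟩ with n, m ≥ 1, gcd(r − 1, m) = gcd(n, m) = 1 and r^(n/n′) ≡ 1 (mod m), where n′ is the product of the distinct primes dividing n. -/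
theorem result {G : Type*} [Group G] [Finite G] (hsol : Group.IsSolvable G)
    (hFC : ∃ (L : Type) (_ : Group L) (_ : Finite L) (H : Subgroup L), Cfsg.IsFrobeniusComplement H ∧ Nonempty (G ≃* H)) :
    ∃ G₀ : Subgroup G, G₀.Normal ∧
      (∃ f : G →* Equiv.Perm (Fin 4), f.ker = G₀) ∧
      (∀ (p : ℕ) [Fact p.Prime] (P : Sylow p G₀), IsCyclic P) ∧
      ∃ n m r : ℕ, 0 < n ∧ 0 < m ∧ Nat.Coprime (r - 1) m ∧ Nat.Coprime n m ∧ 1 ≤ r ∧
        r ^ (n / ∏ p ∈ n.primeFactors, p) % m = 1 % m ∧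
        Nonempty (G₀ ≃* PresentedGroup
          ({FreeGroup.of (0 : Fin 2) ^ n, FreeGroup.of (1 : Fin 2) ^ m,
            (FreeGroup.of (0 : Fin 2))⁻¹ * FreeGroup.of 1 * FreeGroup.of 0 * (FreeGroup.of (1 : Fin 2) ^ r)⁻¹} :
            Set (FreeGroup (Fin 2)))) := by
  have hG := (H82.intFPF_of_fc hFC).1
  obtain ⟨N, h1, h2, h3⟩ := hG.exists_core_solvable hsol
  refine ⟨N, h1, ?_, fun p _ P => inferInstance, zgroup (hG.subgroup N)⟩
  rcases h3 with rfl | ⟨f, -, rfl⟩ | ⟨f, -, rfl⟩ | ⟨f, -, rfl⟩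
  · exact ⟨1, MonoidHom.ker_one⟩
  · let e : DihedralGroup 2 ≃ Fin 4 := Finite.equivFinOfCardEq DihedralGroup.nat_card
    exact ⟨(e.permCongrHom.toMonoidHom.comp (MulAction.toPermHom _ _)).comp f,
      MonoidHom.ker_comp_of_injective _ _ (e.permCongrHom.injective.comp MulAction.toPerm_injective)⟩
  · exact ⟨(Subgroup.subtype _).comp f, MonoidHom.ker_comp_of_injective _ _ (subtype_injective _)⟩
  · exact ⟨f, rfl⟩

end Cfsg.Agent.S3358
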