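import Cfsg.Statements.S3362
import Mathlib
import Cfsg.Agent.Lib.CGT.Check

set_option autoImplicit false
open Cfsg

namespace Cfsg.Agent.S3362

set_option maxRecDepth 100000
noncomputable def cfg : H54.Cfg := ⟨12, 12, 4, 15, 0xba9876543210,
  0x111111111111,
  0x777777777777,
  0x888888888888,
  (.cons 64 0x111111 24
    (.cons 65 0x111000111 12
    (.cons 66 0x1001001001 4
    (.cons 67 0x10010010010 4
    (.cons 112 0x1001001001 4
    (.cons 113 0x111000111 12
    (.cons 114 0x111111 24
    .nil)))))))⟩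
theorem cfg_check : cfg.check = true := by decide +kernel

noncomputable def ch_5 : H54.Chain := .nil
noncomputable def ch_t4 : H54.Tr :=
 (.node 7 (.node 5 (.node 4 (.leaf 0x4000000000004)
 (.leaf 0x222000000080080080000000500020000000a))
 (.node 6 (.leaf 0x10224404600840241903100006000200000007)
 (.leaf 0x34000600040840800100007000101000004)))
 (.node 9 (.node 8 (.leaf 0x2230004000042a40903000008000300000005)
 (.leaf 0x203440460004284110390000900020100000a))
 (.node 10 (.leaf 0x1002040600084004080100000a000100000004)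
 (.leaf 0x1222000260084224100290000b000301000005))))
noncomputable def ch_4 : H54.Chain := .cons 4 4080 ch_t4
  [0x95746b8a3210, 0x49865ab73210]
  [] ch_5
noncomputable def ch_t3 : H54.Tr :=
 (.node 7 (.node 4 (.node 3 (.leaf 0x3000000000003)
 (.leaf 0x2034406000002a0185300000400020100000b))
 (.node 5 (.leaf 0x1223001000084084084000000500020000000b)
 (.node 6 (.leaf 0x10020444600840001151900006000300000005)
 (.leaf 0x2230000400002a00950300007000301000004))))
 (.node 9 (.node 8 (.leaf 0x12234450000800800800000008000400000007)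
 (.leaf 0x1444040080284114030000900050000000a))
 (.node 10 (.leaf 0x2214004600002a0094310000a000401000006)
 (.node 11 (.leaf 0x2034444400002840151b0000b000100000003)
 (.leaf 0x3400060004084080010000d000000000000)))))
noncomputable def ch_3 : H54.Chain := .cons 3 4088 ch_t3
  [0x597a8364b210, 0x49865ab73210]
  [[9, 13, 13, 13, 13, 3, 10], [5, 5, 13]] ch_4
noncomputable def ch_t2 : H54.Tr :=
 (.node 7 (.node 4 (.node 0 (.leaf 0)
 (.node 3 (.leaf 0x2224056660002a40911900003000300000006)
 (.leaf 0x2230450260840800940240004000101000000)))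
 (.node 5 (.leaf 0x10224054460840241803b40005000301000006)
 (.node 6 (.leaf 0x2004440060800001000000006000201000004)
 (.leaf 0x44660080000115114000700030000000b))))
 (.node 10 (.node 8 (.leaf 0x220044010000000051840008000401000003)
 (.node 9 (.leaf 0x2034440260802a41100240009000400000007)
 (.leaf 0x201004002000080015000000a000501000009)))
 (.node 11 (.leaf 0x1202445022080200195024000b000200000004)
 (.node 12 (.leaf 0x3404260000284105290000c000000000000)
 (.leaf 0x223045026084080094024000d000000000000)))))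
noncomputable def ch_2 : H54.Chain := .cons 0 4089 ch_t2
  [0x7a46938b5210, 0x70a9b5368214]
  [[13, 9, 12, 8, 9, 7, 7], [7, 13, 13, 13, 3]] ch_3
noncomputable def ch_t1 : H54.Tr :=
 (.node 6 (.node 3 (.node 0 (.leaf 0x2204410060000840900040000000401000008)
 (.node 1 (.leaf 0x1000000000001)
 (.leaf 0x10220444260840241043940003000300000004)))
 (.node 4 (.leaf 0x2014014400042a4095394000400020000000b)
 (.node 5 (.leaf 0x204000400800a41840000005000200000007)
 (.leaf 0x200044066004004000004000600040000000a))))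
 (.node 9 (.node 7 (.leaf 0x2214010000800801800100007000100000001)
 (.node 8 (.leaf 0x10204004060840040011800008000301000004)
 (.leaf 0x200002610040801002b0000900020100000b)))
 (.node 11 (.node 10 (.leaf 0x2030406670042a4184190000a000301000005)
 (.leaf 0x22004447084020090394000b000101000001))
 (.node 12 (.leaf 0x221401000080080180010000c000000000000)
 (.leaf 0x22004447084020090394000d000000000000)))))
noncomputable def ch_1 : H54.Chain := .cons 1 4091 ch_t1
  [0x469a5813b270, 0x945073a862b1]
  [[12, 6, 9, 13, 10, 0], [13, 8, 12, 12, 12, 13, 4, 5]] ch_2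
noncomputable def ch_t0 : H54.Tr :=
 (.node 7 (.node 3 (.node 1 (.node 0 (.leaf 0x10000000840800000840000000206000001)
 (.leaf 0x12220000000800840000800001000107000002))
 (.node 2 (.leaf 0x2000000000002)
 (.leaf 0x30002220040840842200003000305000000)))
 (.node 5 (.node 4 (.leaf 0x10020000020840800840a00004000400000003)
 (.leaf 0x20002020800040040a00005000500000004))
 (.node 6 (.leaf 0x34006260042a40852100006000401000003)
 (.leaf 0x2214004620802a41941a00007000501000004))))
 (.node 11 (.node 9 (.node 8 (.leaf 0x224402620802240053a00008000601000005)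
 (.leaf 0x12200006220840041942200009000501000006))
 (.node 10 (.leaf 0x30400020802a40940a0000a000504000004)
 (.leaf 0x2200402020800241040a0000b000504000006)))
 (.node 14 (.node 12 (.leaf 0x84084084000000c000000000000)
 (.leaf 0x1022440460084024190310000e000000000000))
 (.node 16 (.leaf 0x10020406000840040801000010000000000000)
 (.leaf 0x30000020842a00000000011000000000000)))))
noncomputable def ch_0 : H54.Chain := .cons 2 4095 ch_t0
  [0x9ba687354210, 0x543ba9876210, 0xa74b85963210, 0x49865ab73210, 0x95746b8a3210, 0x98ba67540213, 0x876ba9543201, 0x687a9b543120]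
  [[17, 12, 11, 14, 10, 4, 3], [11, 12, 16, 1]] ch_1
noncomputable def ch : H54.Chain := ch_0

theorem ch_low0 : H54.checkLow cfg ch_0 = true := by decide +kernel
theorem ch_low : H54.checkLow cfg ch = true := ch_low0
theorem ch_up0 : H54.checkUp cfg ch_0 = true := by decide +kernel
theorem ch_up : H54.checkUp cfg ch = true := ch_up0
theorem ch_size : ch.size cfg.n = 95040 := by decide +kernel

noncomputable def cs_4 : H54.Chain := .nil
noncomputable def cs_t3 : H54.Tr :=
 (.node 7 (.node 5 (.node 4 (.leaf 0x4000000000004)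
 (.leaf 0x222000000080080080000000500020000000a))
 (.node 6 (.leaf 0x10224404600840241903100006000101000004)
 (.leaf 0x3400060004084080010000700020100000a)))
 (.node 9 (.node 8 (.leaf 0x2230004000042a40903000008000300000005)
 (.leaf 0x2034404600042841103900009000301000005))
 (.node 10 (.leaf 0x1002040600084004080100000a000100000004)
 (.leaf 0x1222000260084224100290000b000200000006))))
noncomputable def cs_3 : H54.Chain := .cons 4 4080 cs_t3
  [0x95746b8a3210, 0xa74b85963210]
  [] cs_4
noncomputable def cs_t2 : H54.Tr :=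
 (.node 7 (.node 4 (.node 3 (.leaf 0x3000000000003)
 (.leaf 0x2220000000040040040000004000200000007))
 (.node 5 (.leaf 0x1020004600084024190300000500050100000b)
 (.node 6 (.leaf 0x2224440000000000000000006000400000008)
 (.leaf 0x10000400802840050300007000100000003))))
 (.node 10 (.node 8 (.leaf 0x30440600040841910100008000301000009)
 (.node 9 (.leaf 0x14440400802841140300009000201000007)
 (.leaf 0x2214004600002a0094310000a000301000004)))
 (.node 11 (.leaf 0x1223001000080080191000000b00040100000a)
 (.node 12 (.leaf 0x1000040080284005030000c000000000000)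
 (.leaf 0x200456200040201843a0000d000000000000)))))
noncomputable def cs_2 : H54.Chain := .cons 3 4088 cs_t2
  [0xa8364b597210, 0x5b83964a7210]
  [[12, 13, 13], [4, 7, 13, 5, 9]] cs_3
noncomputable def cs_t1 : H54.Tr :=
 (.node 7 (.node 4 (.node 0 (.leaf 0)
 (.node 3 (.leaf 0x10024006230800041001a00003000100000000)
 (.leaf 0x220440602004284084100000400040000000b)))
 (.node 5 (.leaf 0x34410420042840850140005000201000003)
 (.node 6 (.leaf 0x220440024084200001024000600040100000b)
 (.leaf 0x20056260840200853a00007000301000008))))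
 (.node 10 (.node 8 (.leaf 0x10024002070842a01142840008000200000003)
 (.node 9 (.leaf 0x1200004002080084181000000900040000000a)
 (.leaf 0x222044026004080101024000a000300000005)))
 (.node 11 (.leaf 0x223400401000280184384000b000300000008)
 (.node 12 (.leaf 0x10024006230800041001a0000c000000000000)
 (.leaf 0x2220010040800a4091000000d000000000000)))))
noncomputable def cs_1 : H54.Chain := .cons 0 4089 cs_t1
  [0x497b65a08213, 0x6847b0a95213]
  [[0, 13, 12, 13, 5, 6, 11], [12, 13, 10, 13, 12, 11, 4]] cs_2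
noncomputable def cs_t0 : H54.Tr :=
 (.node 8 (.node 4 (.node 1 (.node 0 (.leaf 0x2220000000000000000040000000106000001)
 (.leaf 0x1000000000001))
 (.node 3 (.leaf 0x2210000220842a00040200003000205000000)
 (.leaf 0x30000020000a00840200004000300000003)))
 (.node 6 (.node 5 (.leaf 0x20002020842000042a00005000400000004)
 (.leaf 0x12024402420840241052a00006000301000003))
 (.node 7 (.leaf 0x2034400620802840150200007000401000004)
 (.leaf 0x204400420802241940200008000501000005))))
 (.node 12 (.node 10 (.node 9 (.leaf 0x10020000220802a41150200009000401000006)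
 (.leaf 0x20000402084004094320000a000404000004))
 (.node 11 (.leaf 0x10200416060800041843b0000b000404000006)
 (.leaf 0x84084084000000c000000000000)))
 (.node 16 (.node 13 (.leaf 0x222444000000000000000000d000000000000)
 (.leaf 0x10020406000840040801000010000000000000))
 (.node 17 (.leaf 0x30000020842a00000000011000000000000)
 (.leaf 0x2220000000000000000040012000000000000)))))
noncomputable def cs_0 : H54.Chain := .cons 1 4091 cs_t0
  [0x9ba687354210, 0x543ba9876210, 0xa74b85963210, 0x49865ab73210, 0x95746b8a3210, 0x98ba67540213, 0x876ba9543201]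
  [[10, 9, 18, 13, 7, 13, 17, 4], [0, 16, 13, 7, 17, 12, 18, 11, 0]] cs_1
noncomputable def cs : H54.Chain := cs_0

theorem cs_low0 : H54.checkLow cfg cs_0 = true := by decide +kernel
theorem cs_low : H54.checkLow cfg cs = true := cs_low0
theorem cs_up0 : H54.checkUp cfg cs_0 = true := by decide +kernel
theorem cs_up : H54.checkUp cfg cs = true := cs_up0
theorem cs_size : cs.size cfg.n = 7920 := by decide +kernel


open H54

theorem X : Ctx cfg (finPt 12) := ctx_fin cfg_check rfl

theorem K : Kfix (Equiv.Perm (Fin 12)) cfg (finPt 12) = ⊥ := Kfix_fin (n := 12) rfl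

theorem rep_of {g : Equiv.Perm (Fin 12)} {p : ℕ}
    (h : ∀ i : Fin 12, cfg.get p i = (g i : ℕ)) : Rep cfg (finPt 12) g p := fun i hi => by
  have e := h ⟨i, hi⟩
  refine ⟨e ▸ (g _).2, ?_⟩
  rw [e, finPt_coe, ← finPt_coe (⟨i, hi⟩ : Fin 12)]
  rfl

theorem sharp (H : Type) [Group H] [MulAction H (Fin 12)] (hc : Nat.card H = 95040)
    (y : Fin 5 ↪ Fin 12) (hy : MulAction.stabilizer H y = ⊥) :
    MulAction.IsMultiplyPretransitive H (Fin 12) 5 ∧
      ∀ z : Fin 5 ↪ Fin 12, MulAction.stabilizer H z = ⊥ := by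
  have h1 : MulAction.orbit H y = Set.univ := by
    refine Set.eq_of_subset_of_ncard_le (Set.subset_univ _) ?_
    rw [← MulAction.index_stabilizer, hy, Subgroup.index_bot, hc, Set.ncard_univ,
      Nat.card_eq_fintype_card, Fintype.card_embedding_eq, Fintype.card_fin, Fintype.card_fin]
    decide
  have h2 : ∀ z, ∃ g : H, g • y = z := fun z => (h1 ▸ Set.mem_univ z : z ∈ MulAction.orbit H y)
  refine ⟨⟨fun a b => ?_⟩, fun z => ?_⟩
  · obtain ⟨g, rfl⟩ := h2 a
    obtain ⟨g', rfl⟩ := h2 b
    exact ⟨g' * g⁻¹, by rw [mul_smul, inv_smul_smul]⟩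
  · obtain ⟨g, rfl⟩ := h2 z
    rw [MulAction.stabilizer_smul_eq_stabilizer_map_conj, hy, Subgroup.map_bot]

/-- An explicit construction of the Mathieu groups of degrees 11 and 12. On the points 0, …, 11 let s = (3 4 5)(6 7 8)(9 10 11), t = (3 6 9)(4 7 10)(5 8 11), u = (4 6 5 9)(7 8 11 10), v = (4 7 5 11)(6 10 9 8), w = (4 10 5 8)(6 11 9 7), x₁ = (0 3)(6 7)(8 10)(9 11), x₂ = (0 1)(6 9)(7 10)(8 11), x₃ = (1 2)(6 11)(7 9)(8 10) (each written as a product of transpositions). Then the group M₁₂ generated by all eight permutations is sharply 5-transitive on the 12 points and has order 95040, and the group M₁₁ generated by the first seven has order 7920 and is the stabilizer of the point 2 in M₁₂. -/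
theorem result
    (s t u v w x₁ x₂ x₃ : Equiv.Perm (Fin 12))
    (hs : s = Equiv.swap (3 : Fin 12) 5 * Equiv.swap (3 : Fin 12) 4 * Equiv.swap (6 : Fin 12) 8 * Equiv.swap (6 : Fin 12) 7 * Equiv.swap (9 : Fin 12) 11 * Equiv.swap (9 : Fin 12) 10) (ht : t = Equiv.swap (3 : Fin 12) 9 * Equiv.swap (3 : Fin 12) 6 * Equiv.swap (4 : Fin 12) 10 * Equiv.swap (4 : Fin 12) 7 * Equiv.swap (5 : Fin 12) 11 * Equiv.swap (5 : Fin 12) 8)
    (hu : u = Equiv.swap (4 : Fin 12) 9 * Equiv.swap (4 : Fin 12) 5 * Equiv.swap (4 : Fin 12) 6 * Equiv.swap (7 : Fin 12) 10 * Equiv.swap (7 : Fin 12) 11 * Equiv.swap (7 : Fin 12) 8) (hv : v = Equiv.swap (4 : Fin 12) 11 * Equiv.swap (4 : Fin 12) 5 * Equiv.swap (4 : Fin 12) 7 * Equiv.swap (6 : Fin 12) 8 * Equiv.swap (6 : Fin 12) 9 * Equiv.swap (6 : Fin 12) 10) (hw : w = Equiv.swap (4 : Fin 12) 8 * Equiv.swap (4 : Fin 12) 5 * Equiv.swap (4 : Fin 12) 10 * Equiv.swap (6 : Fin 12) 7 * Equiv.swap (6 : Fin 12) 9 * Equiv.swap (6 : Fin 12) 11)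
    (hx₁ : x₁ = Equiv.swap (0 : Fin 12) 3 * Equiv.swap (6 : Fin 12) 7 * Equiv.swap (8 : Fin 12) 10 * Equiv.swap (9 : Fin 12) 11) (hx₂ : x₂ = Equiv.swap (0 : Fin 12) 1 * Equiv.swap (6 : Fin 12) 9 * Equiv.swap (7 : Fin 12) 10 * Equiv.swap (8 : Fin 12) 11)
    (hx₃ : x₃ = Equiv.swap (1 : Fin 12) 2 * Equiv.swap (6 : Fin 12) 11 * Equiv.swap (7 : Fin 12) 9 * Equiv.swap (8 : Fin 12) 10)
    (M₁₂ M₁₁ : Subgroup (Equiv.Perm (Fin 12))) (hM₁₂ : M₁₂ = Subgroup.closure {s, t, u, v, w, x₁, x₂, x₃})
    (hM₁₁ : M₁₁ = Subgroup.closure {s, t, u, v, w, x₁, x₂}) :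
    MulAction.IsMultiplyPretransitive M₁₂ (Fin 12) 5 ∧ (∀ y : Fin 5 ↪ Fin 12, MulAction.stabilizer M₁₂ y = ⊥) ∧
    Nat.card M₁₂ = 95040 ∧ Nat.card M₁₁ = 7920 ∧
    M₁₁ = M₁₂ ⊓ MulAction.stabilizer (Equiv.Perm (Fin 12)) (2 : Fin 12) := by
  have r : List.Forall₂ (Rep cfg (finPt 12)) [s, t, u, v, w, x₁, x₂, x₃] ch.gens := by
    subst hs ht hu hv hw hx₁ hx₂ hx₃
    repeat' constructor
    all_goals exact rep_of (by decide +kernel)
  have r1 : List.Forall₂ (Rep cfg (finPt 12)) [s, t, u, v, w, x₁, x₂] cs.gens := by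
    subst hs ht hu hv hw hx₁ hx₂
    repeat' constructor
    all_goals exact rep_of (by decide +kernel)
  have e : grp (Equiv.Perm (Fin 12)) cfg (finPt 12) ch.gens = M₁₂ := by
    rw [grp_eq_closure K r, hM₁₂]
    congr 1
    ext g
    simp
  have e1 : grp (Equiv.Perm (Fin 12)) cfg (finPt 12) cs.gens = M₁₁ := by
    rw [grp_eq_closure K r1, hM₁₁]
    congr 1
    ext g
    simp
  have a : Good cfg (finPt 12) ch M₁₂ := e ▸ good_of_check X (valid_of_forall₂ r) ch_low ch_up
  have a1 : Good cfg (finPt 12) cs M₁₁ := e1 ▸ good_of_check X (valid_of_forall₂ r1) cs_low cs_up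
  have c12 : Nat.card M₁₂ = 95040 := (a.card X K).trans ch_size
  have c11 : Nat.card M₁₁ = 7920 := (a1.card X K).trans cs_size
  have d : M₁₂ ⊓ fixingSubgroup (Equiv.Perm (Fin 12))
      (finPt 12 '' {b | b ∈ ch.baseList.take 5}) = ⊥ := (a.drop 5).trans K
  obtain ⟨h1, h2⟩ := sharp M₁₂ c12 ⟨![2, 1, 0, 3, 4], by decide⟩ (by
    rw [eq_bot_iff]
    intro g hg
    have : (g : Equiv.Perm (Fin 12)) ∈ (⊥ : Subgroup (Equiv.Perm (Fin 12))) := by
      rw [← d]
      refine ⟨g.2, (mem_fixingSubgroup_iff _).2 ?_⟩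
      rintro _ ⟨b, hb, rfl⟩
      have hb' : b ∈ [2, 1, 0, 3, 4] := hb
      have hg' := fun i => DFunLike.congr_fun (MulAction.mem_stabilizer_iff.1 hg) i
      simp only [List.mem_cons, List.not_mem_nil, or_false] at hb'
      rcases hb' with rfl | rfl | rfl | rfl | rfl
      exacts [hg' 0, hg' 1, hg' 2, hg' 3, hg' 4]
    exact Subtype.ext this)
  refine ⟨h1, h2, c12, c11, ?_⟩
  have a2 : Good cfg (finPt 12) ch_1
      (M₁₂ ⊓ MulAction.stabilizer (Equiv.Perm (Fin 12)) (2 : Fin 12)) := a.2.2.2
  refine Subgroup.eq_of_le_of_card_ge ?_ ?_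
  · rw [hM₁₁, Subgroup.closure_le]
    intro g hg
    refine ⟨hM₁₂ ▸ Subgroup.subset_closure ?_, ?_⟩
    · simp only [Set.mem_insert_iff, Set.mem_singleton_iff] at hg ⊢
      tauto
    · subst hs ht hu hv hw hx₁ hx₂
      simp only [Set.mem_insert_iff, Set.mem_singleton_iff] at hg
      rcases hg with rfl | rfl | rfl | rfl | rfl | rfl | rfl <;>
        exact MulAction.mem_stabilizer_iff.2 (by decide)
  · rw [c11, a2.card X K]
    decide +kernel

end Cfsg.Agent.S3362
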