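import Cfsg.Statements.S3370
import Cfsg.Agent.Lib.FrobC.Regular

set_option autoImplicit false
open Cfsg

namespace Cfsg.Agent.S3370

open H82 Module Subgroup in
theorem exists_frob {q : ℕ} [hq : Fact q.Prime] {V : Type*} [AddCommGroup V] [Module (ZMod q) V]
    [Finite V] [Nontrivial V] {G : Type*} [Group G] {ρ : G →* End (ZMod q) V} (h : TrRep ρ)
    (A : Subgroup G) [A.Normal] (hA : IsMulCommutative A) (g : G) :
    ∃ i < finrank (ZMod q) V, ∀ a ∈ A, g * a * g⁻¹ = a ^ q ^ i := by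
  have := finite_end (q := q) (V := V)
  let _ := (h.isField hA).toField
  obtain ⟨v, hv⟩ := exists_ne (0 : V)
  obtain ⟨⟨i, hi⟩, e⟩ := (FiniteField.bijective_frobeniusAlgEquivOfAlgebraic_pow (ZMod q)
    (fld ρ A)).2 (fldAut ρ A g)
  refine ⟨i, hi.trans_le (LinearMap.finrank_le_finrank_of_injective (h.fldEv_injective hA hv)),
    fun a ha => h.inj ?_⟩
  have h1 := congrArg Subtype.val (AlgEquiv.congr_fun e ⟨ρ a, mem_fld ha⟩)
  rw [fldAut_apply, AlgEquiv.coe_pow, FiniteField.coe_frobeniusAlgEquivOfAlgebraic_iterate,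
    ZMod.card] at h1
  rw [map_mul, map_mul, map_pow]
  exact h1.symm


/-- Let q be a prime, V a non-trivial finite vector space over the field with q elements, and G a non-trivial finite p-group (p prime) acting faithfully and linearly on V and transitively on the non-zero vectors. Then either q = 2 and G has prime order p = |V| − 1; or p = 2, V has q elements with q = 2^m + 1 and G is cyclic of order 2^m; or p = 2, q = 3, V has 9 elements and G is cyclic of order 8, quaternion of order 8, or semidihedral of order 16. -/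
theorem result (q : ℕ) [Fact q.Prime] {V : Type*} [AddCommGroup V] [Module (ZMod q) V] [Finite V] [Nontrivial V]
    {G : Type*} [Group G] [Finite G] [Nontrivial G] (p : ℕ) [Fact p.Prime] (hG : IsPGroup p G)
    (ρ : G →* (V ≃ₗ[ZMod q] V)) (hρ : Function.Injective ρ)
    (htrans : ∀ v w : V, v ≠ 0 → w ≠ 0 → ∃ g : G, ρ g v = w) :
    (q = 2 ∧ p = Nat.card V - 1 ∧ Nat.card G = p) ∨
    (p = 2 ∧ Nat.card V = q ∧ (∃ m : ℕ, q = 2 ^ m + 1 ∧ Nat.card G = 2 ^ m) ∧ IsCyclic G) ∨
    (p = 2 ∧ q = 3 ∧ Nat.card V = 9 ∧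
      ((IsCyclic G ∧ Nat.card G = 8) ∨ Nonempty (G ≃* QuaternionGroup 2) ∨ (Cfsg.IsQuasiDihedral G ∧ Nat.card G = 16))) := by
  open H82 Module Subgroup in
  have h : TrRep (LinearEquiv.automorphismGroup.toLinearMapMonoidHom.comp ρ) :=
    ⟨fun a b e => hρ (LinearEquiv.toLinearMap_injective e), htrans⟩
  generalize LinearEquiv.automorphismGroup.toLinearMapMonoidHom.comp ρ = σ at h
  have hq : q.Prime := Fact.out
  have hp : p.Prime := Fact.out
  have := H1.isSolvable_of_isPGroup hG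
  obtain ⟨a, ha⟩ := hG.exists_card_eq
  have hd := h.card_dvd
  obtain ⟨b, -, hb⟩ := (Nat.dvd_prime_pow hp).1 (ha ▸ hd)
  have hn := finrank_V_pos (q := q) (V := V)
  have hV := card_V (q := q) (V := V)
  have h1G : 1 < Nat.card G := Finite.one_lt_card
  have hΓ : Gam σ := by
    by_contra hΓ
    have key : ∀ r s : ℕ, r.Prime → s.Prime → r ∣ p ^ b → s ∣ p ^ b → r = s := fun r s hr hs h1 h2 =>
      ((Nat.prime_dvd_prime_iff_eq hr hp).1 (hr.dvd_of_dvd_pow h1)).trans
        ((Nat.prime_dvd_prime_iff_eq hs hp).1 (hs.dvd_of_dvd_pow h2)).symm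
    rw [← hb] at key
    rcases h.huppert hΓ with ⟨h1, rfl | rfl | rfl | rfl | rfl⟩ | ⟨h1, rfl, -⟩ <;> rw [h1] at key hd hb
    · obtain rfl : 2 = p := (Nat.prime_dvd_prime_iff_eq Nat.prime_two hp).1
        (Nat.prime_two.dvd_of_dvd_pow (n := b) (by rw [← hb]; norm_num))
      obtain ⟨N, n1, -, n2⟩ := H5.exists_normal_le_card_eq hG ⊤ 2 (by
        have := Nat.le_of_dvd Nat.card_pos hd
        rw [card_top]; omega)
      have h3 := card_le_of_le ((h.dim_two hΓ h1).1 N n1
        (IsPGroup.isMulCommutative_of_card_eq_prime_sq n2))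
      have h4 := Nat.le_of_dvd (by norm_num) (h.dim_two hΓ h1).2.2.1
      omega
    iterate 4
      exact absurd (key 2 3 (by norm_num) (by norm_num) (by norm_num) (by norm_num)) (by norm_num)
    exact absurd (key 2 5 (by norm_num) (by norm_num) (by norm_num) (by norm_num)) (by norm_num)
  obtain ⟨A, _, hA, hI⟩ := hΓ
  obtain ⟨k, k1, -, -, k2, -⟩ := h.exists_deg A hA.isMulCommutative
  have hC := h.comm_centralizer hA.isMulCommutative hI
  obtain ⟨l, l1, l2, l3, -⟩ := h.exists_deg _ hC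
  replace l3 := l3.trans (Nat.pow_sub_one_dvd_pow_sub_one q l1)
  replace k2 := k2.trans k1
  set C := centralizer (A : Set G)
  have hCi := C.card_mul_index
  have hpos : 1 < q ^ finrank (ZMod q) V := Nat.one_lt_pow hn.ne' hq.one_lt
  have htop : C.index = 1 → IsCyclic G ∧ Nat.card G = q ^ finrank (ZMod q) V - 1 := fun e => by
    rw [e, mul_one] at hCi
    rw [index_eq_one.1 e] at l2
    exact ⟨topEquiv.isCyclic.1 l2, Nat.dvd_antisymm (hCi ▸ l3) hd⟩
  by_cases h1 : finrank (ZMod q) V = 1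
  · obtain ⟨c1, c2⟩ := htop (Nat.dvd_one.1 (h1 ▸ k2))
    rw [h1, pow_one] at c2 hV hb
    have h2 : q ≠ 2 := by omega
    obtain rfl : 2 = p := (Nat.prime_dvd_prime_iff_eq Nat.prime_two hp).1
      (Nat.prime_two.dvd_of_dvd_pow (hb ▸ (hq.even_sub_one h2).two_dvd))
    exact Or.inr (Or.inl ⟨rfl, hV, ⟨b, by omega, c2.trans hb⟩, c1⟩)
  by_cases h2 : q = 2
  · subst h2
    have h3 : 2 ^ 2 ≤ 2 ^ finrank (ZMod 2) V := Nat.pow_le_pow_right two_pos (by omega)
    have hb0 : b ≠ 0 := by rintro rfl; rw [pow_zero] at hb; omega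
    have h4 : p ^ b + 1 = 2 ^ finrank (ZMod 2) V := by omega
    have hp2 : p ≠ 2 := by
      rintro rfl
      have := dvd_pow_self 2 hb0
      have := dvd_pow_self 2 hn.ne'
      omega
    obtain rfl : b = 1 := by
      by_contra hb1
      obtain ⟨r, hr, r1, r2⟩ := H69.Zsig.zsigmondy (n := b * 2) hp.one_lt (by omega)
        (fun e => hp2 e.1) (fun e => hb1 (by omega))
      rw [pow_mul, ← one_pow 2, Nat.sq_sub_sq, hr.dvd_mul, h4] at r1
      rcases r1 with r1 | r1
      · obtain rfl := (Nat.prime_dvd_prime_iff_eq hr Nat.prime_two).1 (hr.dvd_of_dvd_pow r1)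
        exact r2 1 one_pos (by omega) (by simpa using (hp.even_sub_one hp2).two_dvd)
      · exact r2 b (by omega) (by omega) r1
    rw [pow_one] at hb h4
    refine Or.inl ⟨rfl, by rw [hV, hb], (htop ?_).2.trans hb⟩
    obtain ⟨m, hm⟩ := hG.index C
    rcases m with _ | m
    · exact hm
    · have h5 := Nat.le_of_dvd hn ((hm ▸ dvd_pow_self p (Nat.succ_ne_zero m)).trans k2)
      obtain ⟨s, hs⟩ : ∃ s, finrank (ZMod 2) V = s + 2 := ⟨finrank (ZMod 2) V - 2, by omega⟩
      have := Nat.lt_two_pow_self (n := s)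
      rw [hs, pow_add] at h4
      omega
  have hev := (hq.even_sub_one h2).two_dvd
  obtain rfl : 2 = p := (Nat.prime_dvd_prime_iff_eq Nat.prime_two hp).1
    (Nat.prime_two.dvd_of_dvd_pow (hb ▸ hev.trans (Nat.sub_one_dvd_pow_sub_one q _)))
  obtain ⟨h3, m, hm⟩ : finrank (ZMod q) V = 2 ∧ ∃ m, q + 1 = 2 ^ m := by
    by_contra hcon
    obtain ⟨r, hr, r1, r2⟩ := H69.Zsig.zsigmondy hq.one_lt (by omega) (fun e => h2 e.1) hcon
    obtain rfl := (Nat.prime_dvd_prime_iff_eq hr Nat.prime_two).1 (hr.dvd_of_dvd_pow (hb ▸ r1))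
    exact r2 1 one_pos (by omega) (by simpa using hev)
  obtain rfl : q = 3 := by
    obtain ⟨s, -, hs⟩ := (Nat.dvd_prime_pow Nat.prime_two).1
      (hb ▸ Nat.sub_one_dvd_pow_sub_one q _)
    have := hq.two_le
    rcases s with _ | _ | s
    · omega
    · omega
    · rcases m with _ | _ | m <;> omega
  rw [h3] at hV hd l3 k2 htop
  refine Or.inr (Or.inr ⟨rfl, rfl, hV, ?_⟩)
  rcases (Nat.dvd_prime Nat.prime_two).1 k2 with e | e
  · exact Or.inl (htop e)
  have h4 := Nat.le_of_dvd (by norm_num) l3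
  obtain ⟨c, hc⟩ := hd
  let _ : MulAction G V := MulAction.compHom V σ
  have hst : ∀ v : V, v ≠ 0 → Nat.card (MulAction.stabilizer G v) = c := by
    intro v hv
    have h1 : MulAction.orbit G v = {0}ᶜ := by
      ext w
      constructor
      · rintro ⟨g, rfl⟩; exact rep_ne_zero g hv
      · intro hw; exact h.trans v w hv hw
    have h2 := (MulAction.stabilizer G v).index_mul_card
    rw [MulAction.index_stabilizer, h1, Set.ncard_compl, Set.ncard_singleton, hV, hc] at h2
    omega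
  rw [e, hc] at hCi
  have hc2 : c = 1 ∨ c = 2 := by omega
  rcases hc2 with rfl | rfl
  · have hr : RegRep σ := ⟨h, fun v hv g hg => by
      have := card_eq_one.1 (hst v hv)
      exact (this.le hg :)⟩
    rcases hr.intFPF.two_cases hG with c1 | ⟨j, ⟨ε⟩⟩
    · exact Or.inl ⟨c1, hc⟩
    · rw [Nat.card_congr ε.toEquiv, card_quat, pow_succ] at hc
      obtain rfl : j = 0 := by
        by_contra h0
        have := Nat.one_lt_two_pow h0
        omega
      exact Or.inr (Or.inl ⟨ε⟩)
  · obtain ⟨v, hv⟩ := exists_ne (0 : V)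
    obtain ⟨y, y1, y2⟩ := H1.exists_mem_orderOf_eq_prime Nat.prime_two (hst v hv).symm.dvd
    obtain ⟨x, hx⟩ := IsCyclic.exists_ofOrder_eq_natCard (α := C)
    refine Or.inr (Or.inr ⟨⟨3, le_rfl, hc, x, y, by rw [orderOf_coe, hx]; omega, y2, ?_⟩, hc⟩)
    obtain ⟨i, i1, i2⟩ := exists_frob h C hC y
    rw [h3] at i1
    interval_cases i
    · refine (hv (h.fpf hC (a := y) (fun a ha => ?_) (by rintro rfl; simp at y2) y1)).elim
      have := i2 a (le_centralizer_iff_isMulCommutative.2 hA.isMulCommutative ha)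
      rw [pow_zero, pow_one, mul_inv_eq_iff_eq_mul] at this
      exact this.symm
    · exact i2 x x.2

end Cfsg.Agent.S3370
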