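import Cfsg.Statements.S3374
import Cfsg.Agent.Lib.FrobC.Ico

set_option autoImplicit false
open Cfsg

namespace Cfsg.Agent.S3374


/-- SL(2,5) occurs as a Frobenius complement: there is a finite group L with a subgroup H isomorphic to SL(2,5) which is a non-trivial proper subgroup meeting each conjugate gHg⁻¹ with g outside H trivially. -/
theorem result :
    ∃ (L : Type) (_ : Group L) (_ : Finite L) (H : Subgroup L),
      Cfsg.IsFrobeniusComplement H ∧ Nonempty (H ≃* Matrix.SpecialLinearGroup (Fin 2) (ZMod 5)) := by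
  have : Nontrivial H82.SL25 := ⟨1, -1, by decide⟩
  obtain ⟨L, _, _, H, hH, ⟨e⟩⟩ := H82.intFPF_SL25.exists_frob.{0, 0}
  exact ⟨L, inferInstance, inferInstance, H, hH, ⟨e.symm⟩⟩

end Cfsg.Agent.S3374
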