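import Cfsg.Statements.S3375
import Mathlib


set_option autoImplicit false
open Cfsg

namespace Cfsg.Agent.S3375

theorem aux {H : Type*} [Group H] [Finite H] (γ : MulAut H) (hγ : ∀ x, γ (γ x) = x)
    (hc : Nat.card {h : H // γ h = h} = 2) (M : Subgroup H) (hM : M.index = 2)
    (hinv : ∀ h, h ∈ M ↔ γ h ∈ M) : ∀ a ∈ M, γ a = a⁻¹ := by
  let C : Subgroup H := γ.toMonoidHom.eqLocus (MonoidHom.id H)
  have hC : Nat.card C = 2 := hc
  have hmem : ∀ h : H, h * (γ h)⁻¹ ∈ M := fun h => by
    rw [Subgroup.mul_mem_iff_of_index_two hM, inv_mem_iff]; exact hinv h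
  have hrel : ∀ h k : H, h⁻¹ * k ∈ C ↔ h * (γ h)⁻¹ = k * (γ k)⁻¹ := fun h k => by
    change γ (h⁻¹ * k) = h⁻¹ * k ↔ _
    rw [map_mul, map_inv]
    constructor
    · intro e
      calc h * (γ h)⁻¹ = h * ((γ h)⁻¹ * γ k) * (γ k)⁻¹ := by group
        _ = _ := by rw [e]; group
    · intro e
      calc (γ h)⁻¹ * γ k = h⁻¹ * (h * (γ h)⁻¹) * γ k := by group
        _ = _ := by rw [e]; group
  let F : H ⧸ C → M := Quotient.lift (fun h => (⟨h * (γ h)⁻¹, hmem h⟩ : M)) fun h k hk =>
    Subtype.ext ((hrel h k).mp (QuotientGroup.leftRel_apply.mp hk))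
  have hF : Function.Injective F := by
    intro a b
    induction a using QuotientGroup.induction_on
    induction b using QuotientGroup.induction_on
    intro e
    exact QuotientGroup.eq.mpr ((hrel _ _).mpr (congrArg Subtype.val e))
  have hcard : Nat.card (H ⧸ C) = Nat.card M := by
    have h1 := C.card_mul_index
    have h2 := M.card_mul_index
    rw [hC] at h1; rw [hM] at h2
    change C.index = _
    omega
  have hs : Function.Surjective F := (hF.bijective_of_nat_card_le hcard.ge).2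
  intro a ha
  obtain ⟨x, hx⟩ := hs ⟨a, ha⟩
  induction x using QuotientGroup.induction_on with
  | H x =>
  have : a = x * (γ x)⁻¹ := (congrArg Subtype.val hx).symm
  rw [this, map_mul, map_inv, hγ]; group

theorem fin {H : Type*} [Group H] (γ : MulAut H) (M : Subgroup H) (hM : M.index = 2)
    (h : ∀ a ∈ M, γ a = a⁻¹) :
    ∃ A : Subgroup H, A.index = 2 ∧ IsMulCommutative A ∧ (∀ a ∈ A, γ a ∈ A) ∧ ∀ a ∈ A, γ a = a⁻¹ := by
  refine ⟨M, hM, ⟨⟨fun a b => Subtype.ext ?_⟩⟩, fun a ha => by rw [h a ha]; exact M.inv_mem ha, h⟩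
  have h1 := h _ (M.mul_mem a.2 b.2)
  rw [map_mul, h _ a.2, h _ b.2, ← mul_inv_rev, inv_inj] at h1
  exact h1.symm

/-- Let γ be an automorphism of order 2 of a finite group H. (i) If γ fixes only the identity, then H is abelian and γ inverts every element. (ii) If γ has exactly two fixed points and H has a subgroup of index 2, then H has a γ-invariant abelian subgroup of index 2 on which γ acts by inversion. -/
theorem result {H : Type*} [Group H] [Finite H] (γ : MulAut H) (hγ : orderOf γ = 2) :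
    ((∀ h : H, γ h = h → h = 1) → (∀ a b : H, a * b = b * a) ∧ ∀ h : H, γ h = h⁻¹) ∧
    ((Nat.card {h : H // γ h = h} = 2 ∧ ∃ M : Subgroup H, M.index = 2) →
      ∃ A : Subgroup H, A.index = 2 ∧ IsMulCommutative A ∧ (∀ a ∈ A, γ a ∈ A) ∧ ∀ a ∈ A, γ a = a⁻¹) := by
  have hγ2 : ∀ x, γ (γ x) = x := fun x => by
    have : γ ^ 2 = 1 := by rw [← hγ]; exact pow_orderOf_eq_one γ
    rw [← MulAut.mul_apply, ← sq, this]; rfl
  refine ⟨fun h => ?_, fun ⟨hc, M, hM⟩ => ?_⟩
  · have hf : MonoidHom.FixedPointFree γ := h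
    exact ⟨fun a b => (hf.commute_all_of_involutive hγ2 a b).eq,
      fun x => congrFun (hf.coe_eq_inv_of_involutive hγ2) x⟩
  · let M' : Subgroup H :=
      { carrier := {h | h ∈ M ↔ γ h ∈ M}
        one_mem' := by simp
        mul_mem' := by
          intro a b ha hb
          simp only [Set.mem_setOf_eq, map_mul, Subgroup.mul_mem_iff_of_index_two hM] at ha hb ⊢
          tauto
        inv_mem' := by
          intro a ha
          simpa using ha }
    have hM' : ∀ h, h ∈ M' ↔ (h ∈ M ↔ γ h ∈ M) := fun h => Iff.rfl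
    by_cases hall : ∀ h, h ∈ M ↔ γ h ∈ M
    · exact fin γ M hM (aux γ hγ2 hc M hM hall)
    · obtain ⟨a, ha⟩ := not_forall.mp hall
      have hi : M'.index = 2 := by
        rw [Subgroup.index_eq_two_iff]
        refine ⟨a, fun b => ?_⟩
        simp only [hM', map_mul, Subgroup.mul_mem_iff_of_index_two hM, Xor']
        tauto
      refine fin γ M' hi (aux γ hγ2 hc M' hi fun h => ?_)
      rw [hM', hM', hγ2]; tauto

end Cfsg.Agent.S3375
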