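import Cfsg.Statements.S3377
import Mathlib
import Cfsg.Agent.Lib.Pres.Basic
import Cfsg.Agent.Lib.SL2.Triangle

set_option autoImplicit false
open Cfsg

namespace Cfsg.Agent.S3377

/-- The alternating group of degree 5 has the presentation ⟨x, y | x³ = 1, y⁵ = 1, (xy)² = 1⟩: the group so presented is isomorphic to Alt(5). -/
theorem result :
    Nonempty (PresentedGroup ({FreeGroup.of (0 : Fin 2) ^ 3, FreeGroup.of (1 : Fin 2) ^ 5,
        (FreeGroup.of (0 : Fin 2) * FreeGroup.of 1) ^ 2} : Set (FreeGroup (Fin 2))) ≃* alternatingGroup (Fin 5)) := by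
  set R : Set (FreeGroup (Fin 2)) := {FreeGroup.of (0 : Fin 2) ^ 3, FreeGroup.of (1 : Fin 2) ^ 5,
    (FreeGroup.of (0 : Fin 2) * FreeGroup.of 1) ^ 2} with hR
  let π : PresentedGroup R →* alternatingGroup (Fin 5) :=
    PresentedGroup.toGroup (f := ![H29.Tri.b5⁻¹, H29.Tri.b5 * H29.Tri.a5]) (by
      rintro _ (rfl | rfl | rfl) <;> simp only [map_pow, map_mul, FreeGroup.lift_apply_of] <;>
        decide +kernel)
  have h1 : (PresentedGroup.of 0 : PresentedGroup R) ^ 3 = 1 :=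
    PresentedGroup.one_of_mem (rels := R) (Or.inl rfl)
  have h2 : (PresentedGroup.of 1 : PresentedGroup R) ^ 5 = 1 :=
    PresentedGroup.one_of_mem (rels := R) (Or.inr (Or.inl rfl))
  have h3 : (PresentedGroup.of 0 * PresentedGroup.of 1 : PresentedGroup R) ^ 2 = 1 :=
    PresentedGroup.one_of_mem (rels := R) (Or.inr (Or.inr rfl))
  obtain ⟨f, f1, f2⟩ := H29.Tri.exists_hom5 h3 (y := (PresentedGroup.of 0)⁻¹)
    (by rw [inv_pow, h1, inv_one]) (by rw [conj_pow, h2]; simp)
  have hf : Function.Surjective f := by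
    rw [← MonoidHom.range_eq_top, eq_top_iff, ← PresentedGroup.closure_range_of,
      Subgroup.closure_le]
    rintro _ ⟨i, rfl⟩
    fin_cases i
    · exact ⟨H29.Tri.b5⁻¹, by simp [f2]⟩
    · exact ⟨H29.Tri.b5 * H29.Tri.a5, by simp [f1, f2]⟩
  have hπ : Function.Surjective π := by
    rw [← MonoidHom.range_eq_top, eq_top_iff, ← H29.Tri.closure5, Subgroup.closure_le]
    rintro _ (rfl | rfl)
    · exact ⟨PresentedGroup.of 0 * PresentedGroup.of 1, by simp [π]⟩
    · exact ⟨(PresentedGroup.of 0)⁻¹, by simp [π]⟩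
  exact ⟨MulEquiv.ofBijective π ⟨H40.inj_of_surj π hπ f hf, hπ⟩⟩

end Cfsg.Agent.S3377
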