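import Cfsg.Statements.S3379
import Mathlib
import Cfsg.Agent.Base
import Cfsg.Agent.Lib.Core.HallSZ
import Cfsg.Agent.Lib.Solv.Supersolvable

set_option autoImplicit false
open Cfsg

namespace Cfsg.Agent.S3379

open Subgroup
open scoped commutatorElement

/-- Let G be a finite group all of whose Sylow subgroups are cyclic. Then G is generated by two elements x and y of coprime orders n and m with x⁻¹yx = y^r, where gcd(r − 1, m) = 1 and r^n ≡ 1 (mod m). -/
theorem result {G : Type*} [Group G] [Finite G]
    (hZ : ∀ (p : ℕ) [Fact p.Prime] (P : Sylow p G), IsCyclic (P : Subgroup G)) :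
    ∃ (x y : G) (n m r : ℕ), Subgroup.closure {x, y} = ⊤ ∧ orderOf x = n ∧ orderOf y = m ∧
      x⁻¹ * y * x = y ^ r ∧ Nat.Coprime (r - 1) m ∧ Nat.Coprime n m ∧ 1 ≤ r ∧ r ^ n % m = 1 % m := by
  classical
  haveI : IsZGroup G := ⟨fun p hp P => by haveI := Fact.mk hp; exact hZ p P⟩
  have hc : IsCyclic (_root_.commutator G) := IsZGroup.isCyclic_commutator G
  have hcop := IsZGroup.coprime_commutator_index G
  obtain ⟨K, hK⟩ := exists_right_complement'_of_coprime hcop
  have hKc : IsCyclic K := by
    have h1 : IsCyclic (G ⧸ _root_.commutator G) := IsZGroup.isCyclic_abelianization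
    exact isCyclic_of_surjective hK.symm.QuotientMulEquiv hK.symm.QuotientMulEquiv.surjective
  obtain ⟨b, hy⟩ := (Subgroup.isCyclic_iff_exists_zpowers_eq_top _).1 hc
  obtain ⟨a, hx⟩ := (Subgroup.isCyclic_iff_exists_zpowers_eq_top _).1 hKc
  have hgen : closure {a, b} = ⊤ := by
    rw [Set.insert_eq, Subgroup.closure_union, ← zpowers_eq_closure, ← zpowers_eq_closure, hx, hy, sup_comm]
    exact hK.sup_eq_top
  have hbn : (zpowers b).Normal := by rw [hy]; infer_instance
  have hm : 0 < orderOf b := orderOf_pos b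
  obtain ⟨r0, hr0⟩ : ∃ r : ℕ, b ^ r = a⁻¹ * b * a := by
    have := hbn.conj_mem b (mem_zpowers b) a⁻¹
    rw [inv_inv, ← mem_powers_iff_mem_zpowers] at this
    exact this
  have hr : a⁻¹ * b * a = b ^ (r0 + orderOf b) := by
    rw [pow_add, pow_orderOf_eq_one, mul_one, hr0]
  set r := r0 + orderOf b with hrdef
  have hr1 : 1 ≤ r := by omega
  refine ⟨a, b, orderOf a, orderOf b, r, hgen, rfl, rfl, hr, ?_, ?_, hr1, ?_⟩
  · haveI := H21.zpowers_pow_normal hbn (r - 1)
    have hcomm : ∀ u v : G ⧸ zpowers (b ^ (r - 1)), u * v = v * u := by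
      have h1 : closure ({(a : G ⧸ zpowers (b ^ (r - 1))), (b : G ⧸ zpowers (b ^ (r - 1)))} :
          Set _) = ⊤ := by
        have := congrArg (Subgroup.map (QuotientGroup.mk' (zpowers (b ^ (r - 1))))) hgen
        rw [MonoidHom.map_closure, Set.image_pair,
          map_top_of_surjective _ (QuotientGroup.mk'_surjective _)] at this
        exact this
      have h2 : (a : G ⧸ zpowers (b ^ (r - 1))) * b = b * a := by
        rw [← QuotientGroup.mk_mul, ← QuotientGroup.mk_mul, QuotientGroup.eq]
        have : (a * b)⁻¹ * (b * a) = b ^ (r - 1) := by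
          have h3 : b ^ r = b * b ^ (r - 1) := by
            rw [← pow_succ']; congr 1; omega
          calc _ = b⁻¹ * (a⁻¹ * b * a) := by group
            _ = _ := by rw [hr, h3]; group
        rw [this]
        exact mem_zpowers _
      have h3 := isMulCommutative_closure
        (k := ({(a : G ⧸ zpowers (b ^ (r - 1))), (b : G ⧸ zpowers (b ^ (r - 1)))} : Set _))
        (by
          rintro u (rfl | rfl) v (rfl | rfl)
          · rfl
          · exact h2
          · exact h2.symm
          · rfl)
      rw [h1] at h3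
      intro u v
      exact congrArg Subtype.val (h3.is_comm.comm (⟨u, trivial⟩ : (⊤ : Subgroup _)) ⟨v, trivial⟩)
    have h4 : _root_.commutator G ≤ zpowers (b ^ (r - 1)) := by
      rw [_root_.commutator_def, commutator_le]
      intro u _ v _
      rw [← QuotientGroup.eq_one_iff]
      change QuotientGroup.mk' _ ⁅u, v⁆ = 1
      rw [map_commutatorElement, commutatorElement_eq_one_iff_mul_comm]
      exact hcomm _ _
    rw [← hy] at h4
    exact mem_zpowers_pow_iff.1 (h4 (mem_zpowers b))
  · rw [← Nat.card_zpowers, ← Nat.card_zpowers, hx, hy, hK.symm.index_eq_card.symm]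
    exact hcop.symm
  · have h1 : ∀ k : ℕ, (a ^ k)⁻¹ * b * a ^ k = b ^ (r ^ k) := by
      intro k
      induction k with
      | zero => simp
      | succ k ih =>
        calc (a ^ (k + 1))⁻¹ * b * a ^ (k + 1) = a⁻¹ * ((a ^ k)⁻¹ * b * a ^ k) * a := by group
          _ = (a⁻¹ * b * a) ^ (r ^ k) := by
            rw [ih]
            have := conj_pow (a := a⁻¹) (b := b) (i := r ^ k)
            rw [inv_inv] at this
            exact this.symm
          _ = _ := by rw [hr, ← pow_mul, pow_succ']
    have h2 := h1 (orderOf a)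
    rw [pow_orderOf_eq_one, inv_one, one_mul, mul_one] at h2
    have h3 : b ^ (r ^ orderOf a) = b ^ 1 := by rw [pow_one, ← h2]
    exact pow_eq_pow_iff_modEq.1 h3

end Cfsg.Agent.S3379
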