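import Mathlib
import Cfsg.Statements.S3381
import Cfsg.Agent.Base

set_option autoImplicit false
open Cfsg

namespace Cfsg.Agent.S3381

/-- The fixed subspace of a linear automorphism. -/
def fx {K V : Type*} [Field K] [AddCommGroup V] [Module K V] (f : V ≃ₗ[K] V) : Submodule K V where
  carrier := {v | f v = v}
  zero_mem' := by simp
  add_mem' := fun {a b} ha hb => by
    show f (a + b) = a + b
    rw [map_add, ha, hb]
  smul_mem' := fun c a ha => by
    show f (c • a) = c • a
    rw [map_smul, ha]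


/-- Let G be a finite group acting faithfully and linearly on a non-trivial finite vector space V over the field with q elements (q prime) so that every non-zero vector has a stabilizer of order 2, and suppose G has a central involution. Then V has q^(2r) elements for some r and G contains exactly q^r + 1 non-central involutions. -/
theorem result
    (q : ℕ) [Fact q.Prime] {V : Type*} [AddCommGroup V] [Module (ZMod q) V] [Finite V] [Nontrivial V]
    {G : Type*} [Group G] [Finite G] (ρ : G →* (V ≃ₗ[ZMod q] V)) (hρ : Function.Injective ρ)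
    (hstab : ∀ v : V, v ≠ 0 → Nat.card {g : G // ρ g v = v} = 2)
    (z : G) (hz : orderOf z = 2) (hzc : z ∈ Subgroup.center G) :
    ∃ r : ℕ, Nat.card V = q ^ (2 * r) ∧
      Nat.card {g : G // orderOf g = 2 ∧ g ∉ Subgroup.center G} = q ^ r + 1 := by
  classical
  have hq : q.Prime := Fact.out
  have hone : ∀ g : G, (∀ v, ρ g v = v) → g = 1 := fun g hg =>
    hρ (by rw [map_one]; exact LinearEquiv.ext hg)
  have hmul : ∀ (a b : G) v, ρ (a * b) v = ρ a (ρ b v) := fun a b v => by rw [map_mul]; rfl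
  -- stabilizers have exactly one non-identity element
  have huniq : ∀ v : V, v ≠ 0 → ∀ a b : G, a ≠ 1 → b ≠ 1 → ρ a v = v → ρ b v = v → a = b := by
    intro v hv a b ha hb h1 h2
    obtain ⟨y, -, hy⟩ := (Nat.card_eq_two_iff' (⟨1, by simp⟩ : {g : G // ρ g v = v})).1 (hstab v hv)
    have e1 := hy ⟨a, h1⟩ (fun e => ha (congrArg Subtype.val e))
    have e2 := hy ⟨b, h2⟩ (fun e => hb (congrArg Subtype.val e))
    exact congrArg Subtype.val (e1.trans e2.symm)
  have hex : ∀ v : V, v ≠ 0 → ∃ a : G, a ≠ 1 ∧ a * a = 1 ∧ ρ a v = v := by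
    intro v hv
    obtain ⟨y, hy, -⟩ := (Nat.card_eq_two_iff' (⟨1, by simp⟩ : {g : G // ρ g v = v})).1 (hstab v hv)
    have hy1 : y.1 ≠ 1 := fun e => hy (Subtype.ext e)
    refine ⟨y.1, hy1, ?_, y.2⟩
    by_contra hne
    have := huniq v hv (y.1 * y.1) y.1 hne hy1 (by rw [hmul, y.2, y.2]) y.2
    exact hy1 (by simpa using this)
  -- central involutions act as `-1`
  have hcen : ∀ c : G, c ≠ 1 → c * c = 1 → c ∈ Subgroup.center G → ∀ v, ρ c v = -v := by
    intro c hc1 hc2 hc
    have hcc : ∀ v, ρ c (ρ c v) = v := fun v => by rw [← hmul, hc2, map_one]; rfl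
    have hcom : ∀ (g : G) v, ρ g (ρ c v) = ρ c (ρ g v) := fun g v => by
      rw [← hmul, ← hmul, Subgroup.mem_center_iff.1 hc g]
    suffices h : ∀ v, ρ c v = v → v = 0 by
      intro v
      have := h (ρ c v + v) (by rw [map_add, hcc, add_comm])
      exact eq_neg_of_add_eq_zero_left this
    intro w hw
    by_contra hw0
    obtain ⟨u, hu⟩ : ∃ u, ρ c u ≠ u := by
      by_contra hcon; push Not at hcon; exact hc1 (hone c hcon)
    -- every vector moved by `c` has `c v = - v`
    have key : ∀ u, ρ c u ≠ u → ρ c u = -u := by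
      intro u hu
      have hu0 : u ≠ 0 := by rintro rfl; simp at hu
      obtain ⟨t, ht1, -, htu⟩ := hex u hu0
      by_contra hne
      have h1 : ρ c u + u ≠ 0 := fun e => hne (eq_neg_of_add_eq_zero_left e)
      have := huniq _ h1 t c ht1 hc1 (by rw [map_add, hcom, htu]) (by rw [map_add, hcc, add_comm])
      exact hu (this ▸ htu)
    have h1 := key u hu
    have h2 := key (u + w) (by rw [map_add, hw]; simpa using hu)
    rw [map_add, h1, hw, neg_add, add_right_inj] at h2
    -- so `2 w = 0`, hence `q = 2` and `c u = u`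
    have h3 : (2 : ZMod q) • w = 0 := by rw [two_smul]; exact add_eq_zero_iff_eq_neg.2 h2
    rcases smul_eq_zero.1 h3 with h4 | h4
    · apply hu
      rw [h1]
      have : (2 : ZMod q) • u = 0 := by rw [h4, zero_smul]
      rw [two_smul] at this
      exact (add_eq_zero_iff_eq_neg.1 this).symm
    · exact hw0 h4
  have hz1 : z ≠ 1 := by rintro rfl; simp at hz
  have hzz : z * z = 1 := by rw [← pow_two, ← hz, pow_orderOf_eq_one]
  have hzv := hcen z hz1 hzz hzc
  have h2 : (2 : ZMod q) ≠ 0 := by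
    intro h4
    refine hz1 (hone z fun u => ?_)
    rw [hzv]
    have : (2 : ZMod q) • u = 0 := by rw [h4, zero_smul]
    rw [two_smul] at this
    exact (add_eq_zero_iff_eq_neg.1 this).symm
  have hneg : ∀ v : V, -v = v → v = 0 := fun v e => by
    have : (2 : ZMod q) • v = 0 := by rw [two_smul]; exact add_eq_zero_iff_neg_eq.2 e
    exact (smul_eq_zero.1 this).resolve_left h2
  -- non-central involutions
  have hI : ∀ g : G, (orderOf g = 2 ∧ g ∉ Subgroup.center G) ↔ (g ≠ 1 ∧ g * g = 1 ∧ g ≠ z) := by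
    intro g
    constructor
    · rintro ⟨h1, h3⟩
      refine ⟨by rintro rfl; simp at h1, by rw [← pow_two, ← h1, pow_orderOf_eq_one], ?_⟩
      rintro rfl; exact h3 hzc
    · rintro ⟨h1, h3, h4⟩
      refine ⟨orderOf_eq_prime (by rw [pow_two, h3]) h1, fun hc => h4 (hρ ?_)⟩
      ext v; rw [hcen g h1 h3 hc, hzv]
  have hmz : ∀ g : G, (g ≠ 1 ∧ g * g = 1 ∧ g ≠ z) → (g * z ≠ 1 ∧ g * z * (g * z) = 1 ∧ g * z ≠ z) := by
    rintro g ⟨h1, h3, h4⟩
    refine ⟨fun e => h4 ?_, ?_, by simpa using h1⟩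
    · rw [← hzz] at e; exact mul_right_cancel e
    · have := Subgroup.mem_center_iff.1 hzc g
      calc g * z * (g * z) = g * (z * g) * z := by group
        _ = g * g * (z * z) := by rw [← this]; group
        _ = 1 := by rw [h3, hzz, one_mul]
  haveI : Module.Finite (ZMod q) V := Module.Finite.of_finite
  have hdisj : ∀ a b : G, a ≠ 1 → b ≠ 1 → a ≠ b → Disjoint (fx (ρ a)) (fx (ρ b)) := by
    intro a b ha hb hab
    rw [Submodule.disjoint_def]
    intro v h1 h3
    by_contra hv
    exact hab (huniq v hv a b ha hb h1 h3)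
  have hle : ∀ a b : G, a ≠ 1 → b ≠ 1 → a ≠ b →
      Module.finrank (ZMod q) (fx (ρ a)) + Module.finrank (ZMod q) (fx (ρ b)) ≤
        Module.finrank (ZMod q) V := fun a b ha hb hab =>
    Submodule.finrank_add_finrank_le_of_disjoint (hdisj a b ha hb hab)
  have hsum : ∀ g : G, (g ≠ 1 ∧ g * g = 1 ∧ g ≠ z) →
      Module.finrank (ZMod q) (fx (ρ g)) + Module.finrank (ZMod q) (fx (ρ (g * z))) =
        Module.finrank (ZMod q) V := by
    intro g hg
    refine Submodule.finrank_add_eq_of_isCompl ⟨hdisj _ _ hg.1 (hmz g hg).1 (by simpa using hz1), ?_⟩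
    rw [codisjoint_iff, eq_top_iff]
    intro v _
    have hgg : ∀ v, ρ g (ρ g v) = v := fun v => by rw [← hmul, hg.2.1, map_one]; rfl
    have e : v = (2 : ZMod q)⁻¹ • (v + ρ g v) + (2 : ZMod q)⁻¹ • (v - ρ g v) := by
      rw [← smul_add, show v + ρ g v + (v - ρ g v) = (2 : ZMod q) • v by rw [two_smul]; abel,
        smul_smul, inv_mul_cancel₀ h2, one_smul]
    rw [e]
    refine Submodule.add_mem_sup (Submodule.smul_mem _ _ ?_) (Submodule.smul_mem _ _ ?_)
    · show ρ g _ = _
      rw [map_add, hgg, add_comm]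
    · show ρ (g * z) _ = _
      rw [hmul, hzv, map_neg, map_sub, hgg, neg_sub]
  have hexI : ∀ v : V, v ≠ 0 → ∃ a : G, (a ≠ 1 ∧ a * a = 1 ∧ a ≠ z) ∧ ρ a v = v := by
    intro v hv
    obtain ⟨a, h1, h3, h4⟩ := hex v hv
    refine ⟨a, ⟨h1, h3, ?_⟩, h4⟩
    rintro rfl
    rw [hzv] at h4
    exact hv (hneg v h4)
  have hdim : ∀ g : G, (g ≠ 1 ∧ g * g = 1 ∧ g ≠ z) →
      2 * Module.finrank (ZMod q) (fx (ρ g)) = Module.finrank (ZMod q) V := by
    intro g hg
    have hg' := hmz g hg
    obtain ⟨u, hu⟩ : ∃ u, ρ g u ≠ u := by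
      by_contra hcon; push Not at hcon; exact hg.1 (hone g hcon)
    obtain ⟨w, hw⟩ : ∃ u, ρ (g * z) u ≠ u := by
      by_contra hcon; push Not at hcon; exact hg'.1 (hone _ hcon)
    obtain ⟨v, hv1, hv2⟩ : ∃ v, ρ g v ≠ v ∧ ρ (g * z) v ≠ v := by
      by_cases a1 : ρ (g * z) u = u
      · by_cases a2 : ρ g w = w
        · refine ⟨u + w, ?_, ?_⟩
          · rw [map_add, a2]; simpa using hu
          · rw [map_add, a1]; simpa using hw
        · exact ⟨w, a2, hw⟩
      · exact ⟨u, hu, a1⟩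
    obtain ⟨s, hs, hsv⟩ := hexI v (by rintro rfl; simp at hv1)
    have hs' := hmz s hs
    have n1 : s ≠ g := by rintro rfl; exact hv1 hsv
    have n2 : s ≠ g * z := by rintro rfl; exact hv2 hsv
    have n3 : s * z ≠ g := fun e => n2 (by rw [← e, mul_assoc, hzz, mul_one])
    have n4 : s * z ≠ g * z := fun e => n1 (mul_right_cancel e)
    have a1 := hle _ _ hs.1 hg.1 n1
    have a2 := hle _ _ hs.1 hg'.1 n2
    have a3 := hle _ _ hs'.1 hg.1 n3
    have a4 := hle _ _ hs'.1 hg'.1 n4
    have a5 := hsum s hs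
    have a6 := hsum g hg
    omega
  obtain ⟨v0, hv0⟩ := exists_ne (0 : V)
  obtain ⟨g0, hg0, hgv0⟩ := hexI v0 hv0
  set r := Module.finrank (ZMod q) (fx (ρ g0)) with hr
  have hV : Nat.card V = q ^ (2 * r) := by
    rw [hdim g0 hg0, Module.natCard_eq_pow_finrank (K := ZMod q), Nat.card_zmod]
  have hW : ∀ g : G, (g ≠ 1 ∧ g * g = 1 ∧ g ≠ z) → Nat.card (fx (ρ g)) = q ^ r := by
    intro g hg
    have := hdim g hg
    rw [← hdim g0 hg0] at this
    rw [Module.natCard_eq_pow_finrank (K := ZMod q), Nat.card_zmod]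
    congr 1; omega
  refine ⟨r, hV, ?_⟩
  have hcard : Nat.card {v : V // v ≠ 0} =
      Nat.card {g : G // orderOf g = 2 ∧ g ∉ Subgroup.center G} * (q ^ r - 1) := by
    let F : (Σ g : {g : G // orderOf g = 2 ∧ g ∉ Subgroup.center G}, {v : fx (ρ g) // v ≠ 0}) →
        {v : V // v ≠ 0} := fun x => ⟨x.2.1.1, fun e => x.2.2 (Subtype.ext e)⟩
    have hF : Function.Bijective F := by
      constructor
      · rintro ⟨⟨a, ha⟩, ⟨v, hv⟩, hv0⟩ ⟨⟨b, hb⟩, ⟨w, hw⟩, hw0⟩ e
        have e1 : v = w := congrArg Subtype.val e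
        subst e1
        have : a = b := huniq v (fun e => hv0 (Subtype.ext e)) a b ((hI a).1 ha).1 ((hI b).1 hb).1 hv hw
        subst this
        rfl
      · rintro ⟨v, hv⟩
        obtain ⟨a, ha, hav⟩ := hexI v hv
        exact ⟨⟨⟨a, (hI a).2 ha⟩, ⟨v, hav⟩, fun e => hv (congrArg Subtype.val e)⟩, rfl⟩
    rw [← Nat.card_eq_of_bijective F hF]
    haveI := Fintype.ofFinite {g : G // orderOf g = 2 ∧ g ∉ Subgroup.center G}
    rw [Nat.card_sigma, Finset.sum_congr rfl (g := fun _ => q ^ r - 1), Finset.sum_const,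
      Finset.card_univ, Nat.card_eq_fintype_card, smul_eq_mul]
    intro g _
    rw [← hW g ((hI g).1 g.2)]
    haveI := Fintype.ofFinite (fx (ρ g))
    simp [Fintype.card_subtype_compl]
  have hc2 : Nat.card {v : V // v ≠ 0} = q ^ (2 * r) - 1 := by
    rw [← hV]
    haveI := Fintype.ofFinite V
    simp [Fintype.card_subtype_compl]
  have hpos : 1 < q ^ r := by
    rw [← hW g0 hg0]
    exact Finite.one_lt_card_iff_nontrivial.2 ⟨⟨⟨v0, hgv0⟩, 0, fun e => hv0 (congrArg Subtype.val e)⟩⟩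
  rw [hc2] at hcard
  have e : q ^ (2 * r) - 1 = (q ^ r + 1) * (q ^ r - 1) := by
    rw [mul_comm 2 r, pow_mul, ← Nat.sq_sub_sq, one_pow]
  rw [e] at hcard
  exact (Nat.eq_of_mul_eq_mul_right (by omega) hcard).symm

end Cfsg.Agent.S3381
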