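import Mathlib
import Cfsg.Statements.S3380
import Cfsg.Agent.Base
import Cfsg.Agent.S3381
import Cfsg.Agent.S0519
import Cfsg.Agent.S0016
import Cfsg.Agent.Lib.PGroup.Basic
import Cfsg.Agent.Lib.FGS.CyclicAux

set_option autoImplicit false
open Cfsg

namespace Cfsg.Agent.S3380

open Cfsg.Agent.S3381 (fx)
open scoped commutatorElement

theorem exists_pair {G : Type*} [Group G] [Finite G] (p : ℕ) [hp : Fact p.Prime] (hG : IsPGroup p G)
    (hnc : ¬ IsCyclic G) (hnq : ∀ n : ℕ, ¬ Nonempty (G ≃* QuaternionGroup n))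
    (hnd : ∀ n : ℕ, ¬ Nonempty (G ≃* DihedralGroup n)) (hnsd : ¬ Cfsg.IsQuasiDihedral G) :
    ∃ z e : G, z ∈ Subgroup.center G ∧ orderOf z = p ∧ e ^ p = 1 ∧ e ∉ Subgroup.zpowers z ∧
      ∀ g, ⁅e, g⁆ ∈ Subgroup.zpowers z := by
  classical
  obtain ⟨A, hAn, hAc, hA⟩ : ∃ A : Subgroup G, A.Normal ∧ IsMulCommutative A ∧ ¬ IsCyclic A := by
    by_contra hcon
    push Not at hcon
    by_cases hm : ∃ B : Subgroup G, IsMulCommutative B ∧ ¬ IsCyclic B
    · rcases (Cfsg.Agent.S0519.result p hG hcon hm).2 with ⟨n, h⟩ | ⟨n, -, h⟩ | h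
      · exact hnq n h
      · exact hnd n h
      · exact hnsd h
    · push Not at hm
      have htop : (⊤ : Subgroup G) ≠ ⊥ := fun e => hnc (by
        haveI : Subsingleton G := ⟨fun a b => by
          have ha : a ∈ (⊥ : Subgroup G) := e ▸ Subgroup.mem_top a
          have hb : b ∈ (⊥ : Subgroup G) := e ▸ Subgroup.mem_top b
          rw [Subgroup.mem_bot] at ha hb
          rw [ha, hb]⟩
        infer_instance)
      obtain ⟨z, -, hz, hzo⟩ := H5.exists_mem_center_orderOf_eq hG ⊤ htop
      have key : ∀ H : Subgroup G, Nat.card H = p → H = Subgroup.zpowers z := by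
        intro H hH
        haveI : IsCyclic H := isCyclic_of_prime_card hH
        have hc : IsCyclic (H ⊔ Subgroup.zpowers z : Subgroup G) :=
          hm _ (H5.isMulCommutative_sup_zpowers IsCyclic.isMulCommutative
            (fun g _ => Subgroup.mem_center_iff.1 hz g))
        exact H80.eq_of_card_eq_of_le_isCyclic hc le_sup_left le_sup_right
          (by rw [hH, Nat.card_zpowers, hzo])
      rcases Cfsg.Agent.S0016.result p hG (fun H K h1 h2 => by rw [key H h1, key K h2]) with h | ⟨-, n, h⟩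
      · exact hnc h
      · exact hnq _ h
  let O : Subgroup G :=
    { carrier := {a | a ∈ A ∧ a ^ p = 1}
      one_mem' := ⟨A.one_mem, one_pow _⟩
      mul_mem' := fun {a b} ha hb => ⟨A.mul_mem ha.1 hb.1, by
        have : Commute a b := setLike_mul_comm (s := A) ha.1 hb.1
        rw [this.mul_pow, ha.2, hb.2, one_mul]⟩
      inv_mem' := fun {a} ha => ⟨A.inv_mem ha.1, by rw [inv_pow, ha.2, inv_one]⟩ }
  haveI hOn : O.Normal := ⟨fun a ha g => ⟨hAn.conj_mem a ha.1 g, by rw [conj_pow, ha.2]; simp⟩⟩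
  have hcyc : ∀ z : G, (z = 1 ∨ orderOf z = p) → ¬ O ≤ Subgroup.zpowers z := by
    intro z hz hle
    have key : ∀ H : Subgroup A, Nat.card H = p → H.map A.subtype = Subgroup.zpowers z := by
      intro H hH
      have h1 : H.map A.subtype ≤ Subgroup.zpowers z := by
        rintro _ ⟨x, hx, rfl⟩
        refine hle ⟨x.2, ?_⟩
        have := pow_card_eq_one' (G := H) (x := ⟨x, hx⟩)
        rw [hH] at this
        exact congrArg (fun y : H => ((y : A) : G)) this
      have h2 : Nat.card (H.map A.subtype) = p := by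
        rw [Subgroup.card_map_of_injective A.subtype_injective, hH]
      refine Subgroup.eq_of_le_of_card_ge h1 ?_
      rw [h2, Nat.card_zpowers]
      rcases hz with rfl | hz
      · simpa using hp.out.one_le
      · exact hz.le
    rcases Cfsg.Agent.S0016.result p (hG.to_subgroup A) (fun H K h1 h2 =>
      Subgroup.map_injective A.subtype_injective (by rw [key H h1, key K h2])) with h | ⟨-, n, ⟨f⟩⟩
    · exact hA h
    · rcases n with _ | n
      · haveI : IsCyclic (QuaternionGroup (2 ^ 0)) := QuaternionGroup.quaternionGroup_one_isCyclic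
        exact hA (isCyclic_of_surjective f.symm f.symm.surjective)
      · have h1 := setLike_mul_comm (s := A) (f.symm (QuaternionGroup.a 1)).2
          (f.symm (QuaternionGroup.xa 0)).2
        have h2 : f.symm (QuaternionGroup.a 1 * QuaternionGroup.xa 0) =
            f.symm (QuaternionGroup.xa 0 * QuaternionGroup.a 1) := by
          rw [map_mul, map_mul]; exact Subtype.ext h1
        have h3 := f.symm.injective h2
        simp only [QuaternionGroup.a_mul_xa, QuaternionGroup.xa_mul_a, zero_sub, zero_add,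
          QuaternionGroup.xa.injEq] at h3
        have h4 : ((2 : ℕ) : ZMod (2 * 2 ^ (n + 1))) = 0 := by
          push_cast; linear_combination -h3
        rw [ZMod.natCast_eq_zero_iff] at h4
        have := Nat.le_of_dvd two_pos h4
        have : 1 ≤ 2 ^ n := Nat.one_le_two_pow
        rw [pow_succ] at *
        omega
  obtain ⟨z, hzO, hz, hzo⟩ := H5.exists_mem_center_orderOf_eq hG O (fun e =>
    hcyc 1 (Or.inl rfl) (by rw [e]; exact bot_le))
  obtain ⟨e, he, hez, -, hc⟩ := H5.exists_step hG (Subgroup.zpowers z) O (hcyc z (Or.inr hzo))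
  exact ⟨z, e, hz, hzo, he.2, hez, hc⟩


/-- Let a finite p-group G act faithfully and irreducibly on a non-trivial finite vector space V over the field with q elements (q prime), and suppose G is not cyclic, generalized quaternion, dihedral or semidihedral. Then G has a subgroup H of index p and V is the direct sum of p subspaces, each invariant under H, on none of which H acts faithfully, and which every element of G outside H permutes in a single p-cycle. -/
theorem result
    (q : ℕ) [Fact q.Prime] {V : Type*} [AddCommGroup V] [Module (ZMod q) V] [Finite V] [Nontrivial V]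
    {G : Type*} [Group G] [Finite G] (p : ℕ) [Fact p.Prime] (hG : IsPGroup p G)
    (ρ : G →* (V ≃ₗ[ZMod q] V)) (hρ : Function.Injective ρ)
    (hirr : ∀ W : Submodule (ZMod q) V, (∀ g : G, ∀ w ∈ W, ρ g w ∈ W) → W = ⊥ ∨ W = ⊤)
    (hnc : ¬ IsCyclic G) (hnq : ∀ n : ℕ, ¬ Nonempty (G ≃* QuaternionGroup n))
    (hnd : ∀ n : ℕ, ¬ Nonempty (G ≃* DihedralGroup n)) (hnsd : ¬ Cfsg.IsQuasiDihedral G) :
    ∃ (H : Subgroup G) (W : Fin p → Submodule (ZMod q) V), H.index = p ∧
      iSup W = ⊤ ∧ iSupIndep W ∧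
      (∀ h ∈ H, ∀ i, ∀ w ∈ W i, ρ h w ∈ W i) ∧
      (∀ i, ∃ h ∈ H, h ≠ 1 ∧ ∀ w ∈ W i, ρ h w = w) ∧
      ∀ g : G, g ∉ H → ∃ σ : Equiv.Perm (Fin p), orderOf σ = p ∧ ∀ i, (W i).map (ρ g : V →ₗ[ZMod q] V) = W (σ i) := by
  classical
  have hp : p.Prime := Fact.out
  have hq : q.Prime := Fact.out
  haveI : NeZero p := ⟨hp.ne_zero⟩
  obtain ⟨z, e, hz, hzo, hep, hez, hc⟩ := exists_pair p hG hnc hnq hnd hnsd
  have hone : ∀ g : G, (∀ v, ρ g v = v) → g = 1 := fun g hg =>
    hρ (by rw [map_one]; exact LinearEquiv.ext hg)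
  have hmul : ∀ (a b : G) v, ρ (a * b) v = ρ a (ρ b v) := fun a b v => by rw [map_mul]; rfl
  have hmem : ∀ (a : G) v, v ∈ fx (ρ a) ↔ ρ a v = v := fun a v => Iff.rfl
  have hcen : ∀ c : G, c ∈ Subgroup.center G → c ≠ 1 → ∀ v, ρ c v = v → v = 0 := by
    intro c hc hc1 v hv
    rcases hirr (fx (ρ c)) (fun g w hw => by
      rw [hmem] at hw ⊢
      rw [← hmul, ← Subgroup.mem_center_iff.1 hc g, hmul, hw]) with h | h
    · have : v ∈ fx (ρ c) := hv
      rwa [h, Submodule.mem_bot] at this
    · exact absurd (hone c fun w => (hmem c w).1 (h ▸ Submodule.mem_top)) hc1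
  have hz1 : z ≠ 1 := by rintro rfl; exact hp.one_lt.ne (by simpa using hzo)
  have hzp : z ^ p = 1 := by rw [← hzo, pow_orderOf_eq_one]
  have hpq : (p : ZMod q) ≠ 0 := by
    intro h
    rw [ZMod.natCast_eq_zero_iff, Nat.prime_dvd_prime_iff_eq hq hp] at h
    subst h
    letI : MulAction G V := MulAction.compHom V ρ
    haveI : Module.Finite (ZMod q) V := Module.Finite.of_finite
    have hd : q ∣ Nat.card V := by
      rw [Module.natCard_eq_pow_finrank (K := ZMod q), Nat.card_zmod]
      exact dvd_pow_self _ Module.finrank_pos.ne'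
    obtain ⟨b, hb, hb0⟩ := hG.exists_fixed_point_of_prime_dvd_card_of_fixed_point V hd
      (a := 0) (fun g => map_zero (ρ g))
    exact hb0 (hcen z hz hz1 b (hb z)).symm
  -- norm operators
  let Nm : G → V → V := fun a v => ∑ k ∈ Finset.range p, ρ (a ^ k) v
  have hNfix : ∀ a : G, a ^ p = 1 → ∀ v, ρ a (Nm a v) = Nm a v := by
    intro a ha v
    have h1 := Finset.sum_range_succ (fun k => ρ (a ^ k) v) p
    have h2 := Finset.sum_range_succ' (fun k => ρ (a ^ k) v) p
    simp only [ha, pow_zero] at h1 h2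
    rw [h1, add_left_inj] at h2
    simp only [Nm, map_sum]
    rw [h2]
    exact Finset.sum_congr rfl fun k _ => by rw [← hmul, pow_succ']
  have hNcom : ∀ a b : G, Commute a b → ∀ v, ρ b (Nm a v) = Nm a (ρ b v) := by
    intro a b hab v
    simp only [Nm, map_sum]
    exact Finset.sum_congr rfl fun k _ => by rw [← hmul, ← hmul, (hab.pow_left k).eq]
  have hNself : ∀ a : G, ∀ v, ρ a v = v → Nm a v = (p : ZMod q) • v := by
    intro a v hv
    have : ∀ k : ℕ, ρ (a ^ k) v = v := fun k => by
      induction k with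
      | zero => simp
      | succ k ih => rw [pow_succ, hmul, hv, ih]
    simp only [Nm, this, Finset.sum_const, Finset.card_range, Nat.cast_smul_eq_nsmul]
  have hez' : Commute e z := (Subgroup.mem_center_iff.1 hz e)
  let a : Fin p → G := fun i => e * z ^ (i : ℕ)
  have hap : ∀ i, a i ^ p = 1 := fun i => by
    simp only [a]
    rw [(hez'.pow_right _).mul_pow, hep, one_mul, ← pow_mul, mul_comm, pow_mul, hzp, one_pow]
  have ha1 : ∀ i, a i ≠ 1 := fun i h => hez (by
    have : e = (z ^ (i : ℕ))⁻¹ := eq_inv_of_mul_eq_one_left h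
    rw [this]
    exact Subgroup.inv_mem _ (Subgroup.pow_mem _ (Subgroup.mem_zpowers z) _))
  have haa : ∀ i j, Commute (a i) (a j) := fun i j =>
    ((Commute.refl e).mul_right (hez'.pow_right _)).mul_left
      ((hez'.symm.pow_left _).mul_right ((Commute.refl z).pow_pow _ _))
  have hsup : (⨆ i, fx (ρ (a i))) = ⊤ := by
    rw [eq_top_iff]
    intro v _
    have h1 : ∑ i, Nm (a i) v = (p : ZMod q) • v := by
      simp only [Nm]
      rw [Finset.sum_comm, Finset.sum_eq_single 0]
      · simp [Nat.cast_smul_eq_nsmul]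
      · intro k hk hk0
        have hzk : z ^ k ≠ 1 := pow_ne_one_of_lt_orderOf hk0 (by rw [hzo]; simpa using hk)
        have h2 := hcen (z ^ k) (Subgroup.pow_mem _ hz k) hzk _ (hNfix (z ^ k) (by
          rw [← pow_mul, mul_comm, pow_mul, hzp, one_pow]) (ρ (e ^ k) v))
        rw [← h2]
        simp only [Nm]
        rw [← Fin.sum_univ_eq_sum_range (fun i => ρ ((z ^ k) ^ i) (ρ (e ^ k) v))]
        refine Finset.sum_congr rfl fun i _ => ?_
        rw [← hmul]
        simp only [a]
        rw [(hez'.pow_right _).mul_pow, ← pow_mul, ← pow_mul, mul_comm k,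
          (hez'.pow_pow _ _).eq]
      · intro h; exact absurd (Finset.mem_range.2 hp.pos) h
    have h2 : v = (p : ZMod q)⁻¹ • ∑ i, Nm (a i) v := by
      rw [h1, smul_smul, inv_mul_cancel₀ hpq, one_smul]
    rw [h2]
    exact Submodule.smul_mem _ _ (Submodule.sum_mem _ fun i _ =>
      Submodule.mem_iSup_of_mem i (hNfix _ (hap i) v))
  let φ : G →* G := MonoidHom.mk' (fun g => g * e * g⁻¹ * e⁻¹) (fun g h => by
    have h1 : h * e * h⁻¹ * e⁻¹ ∈ Subgroup.center G := by
      have := Subgroup.inv_mem _ (hc h)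
      rw [commutatorElement_inv, commutatorElement_def] at this
      exact (Subgroup.zpowers_le.2 hz) this
    have h2 := Subgroup.mem_center_iff.1 h1
    calc g * h * e * (g * h)⁻¹ * e⁻¹ = g * (h * e * h⁻¹ * e⁻¹) * (e * g⁻¹ * e⁻¹) := by group
      _ = g * ((e * g⁻¹ * e⁻¹) * (h * e * h⁻¹ * e⁻¹)) := by rw [h2 (e * g⁻¹ * e⁻¹), mul_assoc]
      _ = _ := by group)
  have hφ : ∀ g, φ g = g * e * g⁻¹ * e⁻¹ := fun g => rfl
  have hφz : ∀ g, φ g ∈ Subgroup.zpowers z := fun g => by
    have := Subgroup.inv_mem _ (hc g)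
    rwa [commutatorElement_inv, commutatorElement_def] at this
  have hker : ∀ g, g ∈ φ.ker ↔ g * e = e * g := fun g => by
    rw [MonoidHom.mem_ker, hφ, mul_inv_eq_one, mul_inv_eq_iff_eq_mul]
  refine ⟨φ.ker, fun i => fx (ρ (a i)), ?_, hsup, ?_, ?_, ?_, ?_⟩
  · rw [Subgroup.index_ker]
    have h1 : φ.range ≤ Subgroup.zpowers z := by rintro _ ⟨g, rfl⟩; exact hφz g
    have h2 := Subgroup.card_dvd_of_le h1
    rw [Nat.card_zpowers, hzo] at h2
    refine (hp.eq_one_or_self_of_dvd _ h2).resolve_left fun h3 => ?_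
    have h4 := Subgroup.eq_bot_of_card_eq _ h3
    have hec : e ∈ Subgroup.center G := Subgroup.mem_center_iff.2 fun g => (hker g).1 (by
      have : φ g ∈ φ.range := ⟨g, rfl⟩
      rwa [h4, Subgroup.mem_bot] at this)
    have h5 : (⨆ i, fx (ρ (a i))) = ⊥ := iSup_eq_bot.2 fun i => eq_bot_iff.2 fun v hv =>
      hcen (a i) (Subgroup.mul_mem _ hec (Subgroup.pow_mem _ hz _)) (ha1 i) v hv
    rw [hsup] at h5
    exact top_ne_bot h5
  · intro i
    rw [Submodule.disjoint_def]
    intro w hw hw2
    have h1 : ∀ u ∈ ⨆ j, ⨆ (_ : j ≠ i), fx (ρ (a j)), Nm (a i) u = 0 := by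
      intro u hu
      refine Submodule.iSup_induction (motive := fun u => Nm (a i) u = 0) _ hu ?_ ?_ ?_
      · intro j u hu
        by_cases hj : j = i
        · simp only [hj, ne_eq, not_true_eq_false, iSup_false, Submodule.mem_bot] at hu
          simp [hu, Nm]
        · simp only [ne_eq, hj, not_false_eq_true, iSup_true] at hu
          have e1 := hNfix _ (hap i) u
          have e2 := hNcom _ _ (haa i j) u
          rw [(hmem _ _).1 hu] at e2
          refine hcen ((a j)⁻¹ * a i) ?_ ?_ _ ?_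
          · have : (a j)⁻¹ * a i = (z ^ (j : ℕ))⁻¹ * z ^ (i : ℕ) := by simp only [a]; group
            rw [this]
            exact Subgroup.mul_mem _ (Subgroup.inv_mem _ (Subgroup.pow_mem _ hz _))
              (Subgroup.pow_mem _ hz _)
          · intro h
            have h3 : z ^ (j : ℕ) = z ^ (i : ℕ) := mul_left_cancel (inv_mul_eq_one.1 h)
            exact hj (Fin.ext (pow_injOn_Iio_orderOf (by rw [hzo]; exact j.2)
              (by rw [hzo]; exact i.2) h3))
          · rw [hmul, e1]
            conv_lhs => rw [← e2, ← hmul, inv_mul_cancel, map_one]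
            rfl
      · simp [Nm]
      · intro x y hx hy
        simp only [Nm, map_add, Finset.sum_add_distrib] at hx hy ⊢
        rw [hx, hy, add_zero]
    have h2 := h1 w hw2
    rw [hNself _ _ hw] at h2
    exact (smul_eq_zero.1 h2).resolve_left hpq
  · intro h hh i w hw
    have h1 : Commute h (a i) := Commute.mul_right ((hker h).1 hh)
      (Commute.pow_right (Subgroup.mem_center_iff.1 hz h) _)
    rw [hmem] at hw ⊢
    rw [← hmul, ← h1.eq, hmul, hw]
  · intro i
    refine ⟨a i, (hker _).2 ?_, ha1 i, fun w hw => hw⟩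
    exact ((Commute.refl e).mul_left (hez'.symm.pow_left _)).eq
  · intro g hg
    obtain ⟨c, hc'⟩ : ∃ c : Fin p, z ^ (c : ℕ) = φ g := by
      obtain ⟨k, hk, hk'⟩ := Finset.mem_image.1 (mem_zpowers_iff_mem_range_orderOf.1 (hφz g))
      exact ⟨⟨k, by rw [← hzo]; simpa using hk⟩, hk'⟩
    have hc0 : c ≠ 0 := by
      rintro rfl
      exact hg (by rw [MonoidHom.mem_ker, ← hc']; simp)
    refine ⟨Equiv.addRight c, orderOf_eq_prime ?_ ?_, fun i => ?_⟩
    · have h1 : ∀ n : ℕ, ∀ i, ((Equiv.addRight c : Equiv.Perm (Fin p)) ^ n) i = i + n • c := by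
        intro n
        induction n with
        | zero => intro i; simp
        | succ n ih => intro i; rw [pow_succ', Equiv.Perm.mul_apply, ih, succ_nsmul, ← add_assoc]; rfl
      have : p • c = 0 := by
        have := card_nsmul_eq_zero (G := Fin p) (x := c)
        rwa [Fintype.card_fin] at this
      ext i
      rw [h1, this]; simp
    · intro h
      have := congrArg (fun σ : Equiv.Perm (Fin p) => σ 0) h
      exact hc0 (by simpa using this)
    · have h1 : a (Equiv.addRight c i) = g * a i * g⁻¹ := by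
        simp only [a, Equiv.coe_addRight]
        have h0 : ∀ n, z ^ (n % p) = z ^ n := fun n => by rw [← hzo, pow_mod_orderOf]
        rw [Fin.val_add, h0, pow_add, hc', hφ]
        have h2 := Subgroup.mem_center_iff.1 (Subgroup.pow_mem _ hz (i : ℕ))
        have h3 := Subgroup.mem_center_iff.1 ((Subgroup.zpowers_le.2 hz) (hφz g)) e
        rw [hφ] at h3
        calc e * (z ^ (i : ℕ) * (g * e * g⁻¹ * e⁻¹)) = e * (g * e * g⁻¹ * e⁻¹) * z ^ (i : ℕ) := by
              rw [← h2 (g * e * g⁻¹ * e⁻¹), ← mul_assoc]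
          _ = g * e * (g⁻¹ * z ^ (i : ℕ)) := by rw [h3]; group
          _ = _ := by rw [h2]; group
      ext v
      rw [Submodule.mem_map, hmem, h1]
      constructor
      · rintro ⟨w, hw, rfl⟩
        show ρ _ (ρ g w) = ρ g w
        rw [← hmul, inv_mul_cancel_right, hmul, (hmem _ _).1 hw]
      · intro hv
        refine ⟨ρ g⁻¹ v, ?_, ?_⟩
        · rw [hmem]
          conv_rhs => rw [← hv]
          rw [← hmul, ← hmul]; congr 2; group
        · show ρ g (ρ g⁻¹ v) = v
          rw [← hmul, mul_inv_cancel, map_one]; rfl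

end Cfsg.Agent.S3380
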