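import Mathlib
import Cfsg.Statements.S3382
import Cfsg.Agent.Base

set_option autoImplicit false
open Cfsg

namespace Cfsg.Agent.S3382

section gen
variable {T : Type*} [Group T] [Finite T]

theorem fix_of (hT : IsPGroup 2 T) (α : MulAut T) {r : ℕ} (hr : Odd r) (hα : α ^ r = 1) {x : T}
    (hx : α (x⁻¹ * α x) = x⁻¹ * α x) : α x = x := by
  set n := x⁻¹ * α x with hn
  have h1 : α x = x * n := by rw [hn]; group
  have h2 : ∀ k : ℕ, (α ^ k) x = x * n ^ k := by
    intro k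
    induction k with
    | zero => simp
    | succ k ih => rw [pow_succ', MulAut.mul_apply, ih, map_mul, map_pow, hx, h1, pow_succ', mul_assoc]
  have h3 := h2 r
  rw [hα, MulAut.one_apply, left_eq_mul] at h3
  obtain ⟨k, hk⟩ := hT n
  have h4 : n ^ Nat.gcd r (2 ^ k) = 1 := pow_gcd_eq_one.2 ⟨h3, hk⟩
  rw [(Nat.Coprime.pow_right k (Nat.coprime_two_right.2 hr)).gcd_eq_one, pow_one] at h4
  rw [h1, h4, mul_one]

theorem isPGroup_of (h : ∀ (α : MulAut T) (r : ℕ), Odd r → α ^ r = 1 → ∀ x, α x = x) :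
    IsPGroup 2 (MulAut T) := by
  intro α
  obtain ⟨k, r, hr, e⟩ := Nat.exists_eq_two_pow_mul_odd (orderOf_pos α).ne'
  refine ⟨k, MulEquiv.ext (h _ r hr ?_)⟩
  rw [← pow_mul, ← e, pow_orderOf_eq_one]

end gen

theorem d1 : ∀ a b : ZMod 2, (a * b = 1 ∨ a * b = -1) → a = 1 ∧ b = 1 := by decide
theorem d2 : ∀ a : ZMod 3, a * a ≠ -1 := by decide
theorem d3 : ∀ a b : ZMod 3, b * a = -1 → (a = 1 ∧ b = -1) ∨ (a = -1 ∧ b = 1) := by decide
theorem d4 : ∀ a b : ZMod 3, a * b = 1 → (a = 1 ∧ b = 1) ∨ (a = -1 ∧ b = -1) := by decide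
theorem d5 : ∀ a b : ZMod 3, a * b = -1 → (a = 1 ∧ b = -1) ∨ (a = -1 ∧ b = 1) := by decide


/-- Let q = 2^m + 1 be a prime other than 5. Then the automorphism group of the group of linear maps of F_q² of the forms (x, y) ↦ (a x, ± a⁻¹ y) and (x, y) ↦ (± a⁻¹ y, a x) with a ≠ 0 is itself a 2-group. -/
theorem result (q m : ℕ) [Fact q.Prime] (hq : q = 2 ^ m + 1) (hq5 : q ≠ 5)
    (T : Subgroup ((Fin 2 → ZMod q) ≃ₗ[ZMod q] (Fin 2 → ZMod q)))
    (hT : ∀ f, f ∈ T ↔ ∃ a s : ZMod q, a ≠ 0 ∧ (s = 1 ∨ s = -1) ∧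
      ((∀ v, f v = ![a * v 0, s * a⁻¹ * v 1]) ∨ (∀ v, f v = ![s * a⁻¹ * v 1, a * v 0]))) :
    IsPGroup 2 (MulAut T) := by
  classical
  have hqp : q.Prime := Fact.out
  haveI : Finite ((Fin 2 → ZMod q) ≃ₗ[ZMod q] (Fin 2 → ZMod q)) :=
    Finite.of_injective (fun f => (f : (Fin 2 → ZMod q) → (Fin 2 → ZMod q))) DFunLike.coe_injective
  let D : T → ZMod q → ZMod q → Prop := fun x a b => ∀ v, x.1 v = ![a * v 0, b * v 1]
  let W : T → ZMod q → ZMod q → Prop := fun x a b => ∀ v, x.1 v = ![b * v 1, a * v 0]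
  have hmul : ∀ (x y : T) v, (x * y).1 v = x.1 (y.1 v) := fun x y v => rfl
  have hext : ∀ x y : T, (∀ v, x.1 v = y.1 v) → x = y := fun x y h => Subtype.ext (LinearEquiv.ext h)
  have hcase : ∀ x : T, ∃ a b : ZMod q, (a * b = 1 ∨ a * b = -1) ∧ (D x a b ∨ W x a b) := by
    intro x
    obtain ⟨a, s, ha, hs, h⟩ := (hT x.1).1 x.2
    refine ⟨a, s * a⁻¹, ?_, h⟩
    rwa [mul_left_comm, mul_inv_cancel₀ ha, mul_one]
  have hDD : ∀ x y a b c d, D x a b → D y c d → D (x * y) (a * c) (b * d) := by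
    intro x y a b c d h1 h2 v
    rw [hmul, h2, h1]; simp [mul_assoc]
  have hWW : ∀ x y a b c d, W x a b → W y c d → D (x * y) (b * c) (a * d) := by
    intro x y a b c d h1 h2 v
    rw [hmul, h2, h1]; simp [mul_assoc]
  have hDW : ∀ x y a b c d, D x a b → W y c d → W (x * y) (b * c) (a * d) := by
    intro x y a b c d h1 h2 v
    rw [hmul, h2, h1]; simp [mul_assoc]
  have hWD : ∀ x y a b c d, W x a b → D y c d → W (x * y) (a * c) (b * d) := by
    intro x y a b c d h1 h2 v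
    rw [hmul, h2, h1]; simp [mul_assoc]
  have hD1 : D 1 1 1 := by
    intro v; ext i; fin_cases i <;> simp
  have hDeq : ∀ x y a b, D x a b → D y a b → x = y := fun x y a b h1 h2 =>
    hext _ _ fun v => by rw [h1, h2]
  have hWeq : ∀ x y a b, W x a b → W y a b → x = y := fun x y a b h1 h2 =>
    hext _ _ fun v => by rw [h1, h2]
  have hDinj : ∀ x a b c d, D x a b → D x c d → a = c ∧ b = d := by
    intro x a b c d h1 h2
    have := (h1 ![1, 1]).symm.trans (h2 ![1, 1])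
    simpa using this
  have hWinj : ∀ x a b c d, W x a b → W x c d → a = c ∧ b = d := by
    intro x a b c d h1 h2
    have := (h1 ![1, 1]).symm.trans (h2 ![1, 1])
    simpa [and_comm] using this
  have hDWne : ∀ x a b c d, (a * b = 1 ∨ a * b = -1) → D x a b → W x c d → False := by
    intro x a b c d hab h1 h2
    have := congrFun ((h1 ![1, 0]).symm.trans (h2 ![1, 0])) 0
    simp at this
    simp [this] at hab
  have hDpow : ∀ x a b (n : ℕ), D x a b → D (x ^ n) (a ^ n) (b ^ n) := by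
    intro x a b n h
    induction n with
    | zero => simpa using hD1
    | succ n ih => rw [pow_succ, pow_succ, pow_succ]; exact hDD _ _ _ _ _ _ ih h
  have hmkD : ∀ a b : ZMod q, (a * b = 1 ∨ a * b = -1) → ∃ x : T, D x a b := by
    intro a b hab
    have ha : a ≠ 0 := by rintro rfl; simp at hab
    have hb : b ≠ 0 := by rintro rfl; simp at hab
    let f : (Fin 2 → ZMod q) ≃ₗ[ZMod q] (Fin 2 → ZMod q) :=
      { toFun := fun v => ![a * v 0, b * v 1]
        invFun := fun v => ![a⁻¹ * v 0, b⁻¹ * v 1]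
        map_add' := fun v w => by ext i; fin_cases i <;> simp [mul_add]
        map_smul' := fun c v => by ext i; fin_cases i <;> simp [mul_left_comm]
        left_inv := fun v => by ext i; fin_cases i <;> simp [ha, hb]
        right_inv := fun v => by ext i; fin_cases i <;> simp [ha, hb] }
    refine ⟨⟨f, (hT f).2 ⟨a, a * b, ha, hab, Or.inl fun v => ?_⟩⟩, fun v => rfl⟩
    rw [mul_comm a b, mul_inv_cancel_right₀ ha]; rfl
  have hmkW : ∀ a b : ZMod q, (a * b = 1 ∨ a * b = -1) → ∃ x : T, W x a b := by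
    intro a b hab
    have ha : a ≠ 0 := by rintro rfl; simp at hab
    have hb : b ≠ 0 := by rintro rfl; simp at hab
    let f : (Fin 2 → ZMod q) ≃ₗ[ZMod q] (Fin 2 → ZMod q) :=
      { toFun := fun v => ![b * v 1, a * v 0]
        invFun := fun v => ![a⁻¹ * v 1, b⁻¹ * v 0]
        map_add' := fun v w => by ext i; fin_cases i <;> simp [mul_add]
        map_smul' := fun c v => by ext i; fin_cases i <;> simp [mul_left_comm]
        left_inv := fun v => by ext i; fin_cases i <;> simp [ha, hb]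
        right_inv := fun v => by ext i; fin_cases i <;> simp [ha, hb] }
    refine ⟨⟨f, (hT f).2 ⟨a, a * b, ha, hab, Or.inr fun v => ?_⟩⟩, fun v => rfl⟩
    rw [mul_comm a b, mul_inv_cancel_right₀ ha]; rfl
  have hpow : ∀ a : ZMod q, a ≠ 0 → a ^ 2 ^ m = 1 := fun a ha => by
    have := ZMod.pow_card_sub_one_eq_one ha
    rwa [show q - 1 = 2 ^ m from Nat.sub_eq_of_eq_add hq] at this
  have hW4 : ∀ x a b, (a * b = 1 ∨ a * b = -1) → W x a b → x ^ 4 = 1 := by
    intro x a b hab h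
    have h1 := hDpow _ _ _ 2 (hWW _ _ _ _ _ _ h h)
    rw [← pow_two, ← pow_mul] at h1
    refine hDeq _ _ _ _ h1 ?_
    rw [mul_comm b a]
    rcases hab with e | e <;> simpa [e] using hD1
  have h2T : IsPGroup 2 T := by
    intro x
    obtain ⟨a, b, hab, h | h⟩ := hcase x
    · have ha : a ≠ 0 := by rintro rfl; simp at hab
      have hb : b ≠ 0 := by rintro rfl; simp at hab
      refine ⟨m, hDeq _ _ _ _ (hDpow _ _ _ _ h) ?_⟩
      rw [hpow a ha, hpow b hb]; exact hD1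
    · exact ⟨2, hW4 x a b hab h⟩
  refine isPGroup_of fun α r hr hα => ?_
  have hA : ∀ x, α (x⁻¹ * α x) = x⁻¹ * α x → α x = x := fun x => fix_of h2T α hr hα
  obtain ⟨z, hz⟩ := hmkD (-1) (-1) (Or.inl (by ring))
  obtain ⟨w0, hw0⟩ := hmkW 1 1 (Or.inl (by ring))
  obtain ⟨e0, he0⟩ := hmkD 1 (-1) (Or.inr (by ring))
  have hzz : z * z = 1 := hDeq _ _ _ _ (hDD _ _ _ _ _ _ hz hz) (by simpa using hD1)
  have hzc : ∀ y, z * y = y * z := by
    intro y
    obtain ⟨a, b, -, h | h⟩ := hcase y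
    · exact hDeq _ _ _ _ (hDD _ _ _ _ _ _ hz h) (by simpa using hDD _ _ _ _ _ _ h hz)
    · exact hWeq _ _ _ _ (hDW _ _ _ _ _ _ hz h) (by simpa using hWD _ _ _ _ _ _ h hz)
  have hαz : α z = z := by
    by_cases h2 : (-1 : ZMod q) = 1
    · have : z = 1 := hDeq _ _ _ _ hz (by rw [h2]; exact hD1)
      rw [this, map_one]
    · have hz1 : α z ≠ 1 := fun e => h2 (hDinj _ _ _ _ _ (by
        rwa [map_eq_one_iff _ α.injective |>.1 e] at hz) hD1).1
      have h3 : α z * α z = 1 := by rw [← map_mul, hzz, map_one]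
      have h4 : ∀ y, α z * y = y * α z := fun y => by
        obtain ⟨y, rfl⟩ := α.surjective y
        rw [← map_mul, ← map_mul, hzc]
      obtain ⟨a, b, hab, h | h⟩ := hcase (α z)
      · have e1 := hWinj _ _ _ _ _ (hDW _ _ _ _ _ _ h hw0) (h4 w0 ▸ hWD _ _ _ _ _ _ hw0 h)
        have e2 := hDinj _ _ _ _ _ (hDD _ _ _ _ _ _ h h) (h3 ▸ hD1)
        have e3 : b = a := by simpa using e1.1
        subst e3
        rcases mul_self_eq_one_iff.1 e2.1 with e | e
        · exact absurd (hDeq _ _ _ _ h (e ▸ hD1)) hz1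
        · exact hDeq _ _ _ _ h (e ▸ hz)
      · have e1 := hWinj _ _ _ _ _ (hWD _ _ _ _ _ _ h he0) ((h4 e0).symm ▸ hDW _ _ _ _ _ _ he0 h)
        have ha : a ≠ 0 := by rintro rfl; simp at hab
        exact absurd (mul_left_cancel₀ ha (by rw [e1.1, mul_comm])) h2
  have hpm : ∀ x, (α x = x ∨ α x = x * z) → α x = x := by
    rintro x (h | h)
    · exact h
    · apply hA
      rw [h, inv_mul_cancel_left, hαz]
  rcases (show m = 0 ∨ m = 1 ∨ m = 2 ∨ 3 ≤ m by omega) with hm | hm | hm | hm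
  · -- q = 2
    subst hm
    obtain rfl : q = 2 := by simpa using hq
    have h1 : ∀ x : T, x = 1 ∨ x = w0 := by
      intro x
      obtain ⟨a, b, hab, h⟩ := hcase x
      obtain ⟨rfl, rfl⟩ : a = 1 ∧ b = 1 := d1 a b hab
      rcases h with h | h
      · exact Or.inl (hDeq _ _ _ _ h hD1)
      · exact Or.inr (hWeq _ _ _ _ h hw0)
    intro x
    rcases h1 x with rfl | rfl
    · simp
    · rcases h1 (α x) with h | h
      · rw [h]; exact (map_eq_one_iff _ α.injective |>.1 h).symm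
      · exact h
  · -- q = 3
    subst hm
    obtain rfl : q = 3 := by simpa using hq
    obtain ⟨u, hu⟩ := hmkW 1 (-1) (Or.inr (by ring))
    have huu : u * u = z := hDeq _ _ _ _ (hWW _ _ _ _ _ _ hu hu) (by simpa using hz)
    have huz : W (u * z) (-1) 1 := by simpa using hWD _ _ _ _ _ _ hu hz
    have hsq : ∀ x, x * x = z → x = u ∨ x = u * z := by
      intro x hx
      obtain ⟨a, b, hab, h | h⟩ := hcase x
      · have := hDinj _ _ _ _ _ (hDD _ _ _ _ _ _ h h) (hx ▸ hz)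
        exact (d2 a this.1).elim
      · have := hDinj _ _ _ _ _ (hWW _ _ _ _ _ _ h h) (hx ▸ hz)
        have h3 : (a = 1 ∧ b = -1) ∨ (a = -1 ∧ b = 1) :=
          d3 a b this.1
        rcases h3 with ⟨rfl, rfl⟩ | ⟨rfl, rfl⟩
        · exact Or.inl (hWeq _ _ _ _ h hu)
        · exact Or.inr (hWeq _ _ _ _ h huz)
    have hαu : α u = u := hpm u (hsq _ (by rw [← map_mul, huu, hαz]))
    have hF : ∀ x a b, (D x a b ∧ a * b = 1) ∨ (W x a b ∧ a * b = -1) → α x = x := by
      rintro x a b (⟨h, hab⟩ | ⟨h, hab⟩)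
      · have h3 : (a = 1 ∧ b = 1) ∨ (a = -1 ∧ b = -1) :=
          d4 a b hab
        rcases h3 with ⟨rfl, rfl⟩ | ⟨rfl, rfl⟩
        · rw [hDeq _ _ _ _ h hD1, map_one]
        · rw [hDeq _ _ _ _ h hz, hαz]
      · have h3 : (a = 1 ∧ b = -1) ∨ (a = -1 ∧ b = 1) :=
          d5 a b hab
        rcases h3 with ⟨rfl, rfl⟩ | ⟨rfl, rfl⟩
        · rw [hWeq _ _ _ _ h hu, hαu]
        · rw [hWeq _ _ _ _ h huz, map_mul, hαu, hαz]
    have hO : ∀ x, α x ≠ x → ∃ a b, (D x a b ∧ a * b = -1) ∨ (W x a b ∧ a * b = 1) := by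
      intro x hx
      obtain ⟨a, b, hab | hab, h | h⟩ := hcase x
      · exact absurd (hF x a b (Or.inl ⟨h, hab⟩)) hx
      · exact ⟨a, b, Or.inr ⟨h, hab⟩⟩
      · exact ⟨a, b, Or.inl ⟨h, hab⟩⟩
      · exact absurd (hF x a b (Or.inr ⟨h, hab⟩)) hx
    intro x
    by_contra hx
    obtain ⟨a, b, h1⟩ := hO x⁻¹ (by rw [map_inv]; simpa using hx)
    obtain ⟨c, d, h2⟩ := hO (α x) (fun e => hx (α.injective e))
    refine hx (hA x ?_)
    rcases h1 with ⟨h1, e1⟩ | ⟨h1, e1⟩ <;> rcases h2 with ⟨h2, e2⟩ | ⟨h2, e2⟩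
    · exact hF _ _ _ (Or.inl ⟨hDD _ _ _ _ _ _ h1 h2, by linear_combination c * d * e1 - e2⟩)
    · exact hF _ _ _ (Or.inr ⟨hDW _ _ _ _ _ _ h1 h2, by linear_combination c * d * e1 - e2⟩)
    · exact hF _ _ _ (Or.inr ⟨hWD _ _ _ _ _ _ h1 h2, by linear_combination c * d * e1 + e2⟩)
    · exact hF _ _ _ (Or.inl ⟨hWW _ _ _ _ _ _ h1 h2, by linear_combination c * d * e1 + e2⟩)
  · subst hm; exact absurd hq hq5
  · -- q ≥ 9
    obtain ⟨g, hg0, hg4⟩ : ∃ g : ZMod q, g ≠ 0 ∧ g ^ 4 ≠ 1 := by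
      obtain ⟨g, hg⟩ := IsCyclic.exists_ofOrder_eq_natCard (α := (ZMod q)ˣ)
      refine ⟨g, g.ne_zero, fun h => ?_⟩
      have h1 : g ^ 4 = 1 := Units.ext (by simpa using h)
      have h2 := Nat.le_of_dvd (by norm_num) (orderOf_dvd_of_pow_eq_one h1)
      rw [hg, Nat.card_units, Nat.card_zmod] at h2
      have : 2 ^ 3 ≤ 2 ^ m := Nat.pow_le_pow_right (by norm_num) hm
      omega
    obtain ⟨d0, hd0⟩ := hmkD g g⁻¹ (Or.inl (mul_inv_cancel₀ hg0))
    have hd4 : (α d0) ^ 4 ≠ 1 := fun e => by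
      rw [← map_pow, map_eq_one_iff _ α.injective] at e
      exact hg4 (hDinj _ _ _ _ _ (e ▸ hDpow _ _ _ 4 hd0) hD1).1
    obtain ⟨a0, b0, hab0, hD0⟩ : ∃ a b, (a * b = 1 ∨ a * b = -1) ∧ D (α d0) a b := by
      obtain ⟨a, b, hab, h | h⟩ := hcase (α d0)
      · exact ⟨a, b, hab, h⟩
      · exact absurd (hW4 _ a b hab h) hd4
    have hcomm : ∀ x y a b c d, D x a b → D y c d → x * y = y * x := fun x y a b c d h1 h2 =>
      hDeq _ _ _ _ (hDD _ _ _ _ _ _ h1 h2) (by
        rw [mul_comm a, mul_comm b]; exact hDD _ _ _ _ _ _ h2 h1)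
    have hC : ∀ y a b, (a * b = 1 ∨ a * b = -1) → D y a b → y ^ 4 ≠ 1 → ∀ x, x * y = y * x →
        ∃ c d, (c * d = 1 ∨ c * d = -1) ∧ D x c d := by
      intro y a b hab hy hy4 x hxy
      obtain ⟨c, d, hcd, h | h⟩ := hcase x
      · exact ⟨c, d, hcd, h⟩
      · exfalso
        have hc : c ≠ 0 := by rintro rfl; simp at hcd
        have e1 := (hWinj _ _ _ _ _ (hWD _ _ _ _ _ _ h hy) (hxy ▸ hDW _ _ _ _ _ _ hy h)).1
        have e2 : a = b := mul_left_cancel₀ hc (by rw [e1, mul_comm])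
        subst e2
        refine hy4 (hDeq _ _ _ _ (hDpow _ _ _ 4 hy) ?_)
        have : a ^ 4 = 1 := by
          rcases hab with e | e
          · linear_combination (a * a + 1) * e
          · linear_combination (a * a - 1) * e
        rw [this]; exact hD1
    have hB : ∀ x a b, D x a b → ∃ c d, (c * d = 1 ∨ c * d = -1) ∧ D (α x) c d := fun x a b h =>
      hC _ _ _ hab0 hD0 hd4 _ (by rw [← map_mul, ← map_mul, hcomm _ _ _ _ _ _ h hd0])
    have hB' : ∀ x a b, D (α x) a b → ∃ c d, (c * d = 1 ∨ c * d = -1) ∧ D x c d := fun x a b h =>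
      hC _ _ _ (Or.inl (mul_inv_cancel₀ hg0)) hd0 (fun e => hd4 (by rw [← map_pow, e, map_one])) _
        (α.injective (by rw [map_mul, map_mul, hcomm _ _ _ _ _ _ h hD0]))
    have hO1 : ∀ x a b, D x a b → x * x = 1 → x = 1 ∨ x = z ∨ x = e0 ∨ x = e0 * z := by
      intro x a b h hx
      have e := hDinj _ _ _ _ _ (hDD _ _ _ _ _ _ h h) (hx ▸ hD1)
      rcases mul_self_eq_one_iff.1 e.1 with rfl | rfl <;> rcases mul_self_eq_one_iff.1 e.2 with rfl | rfl
      · exact Or.inl (hDeq _ _ _ _ h hD1)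
      · exact Or.inr (Or.inr (Or.inl (hDeq _ _ _ _ h he0)))
      · exact Or.inr (Or.inr (Or.inr (hDeq _ _ _ _ h (by simpa using hDD _ _ _ _ _ _ he0 hz))))
      · exact Or.inr (Or.inl (hDeq _ _ _ _ h hz))
    have hee : e0 * e0 = 1 := hDeq _ _ _ _ (hDD _ _ _ _ _ _ he0 he0) (by simpa using hD1)
    have hαe : α e0 = e0 := by
      obtain ⟨c, d, -, h⟩ := hB _ _ _ he0
      rcases hO1 _ _ _ h (by rw [← map_mul, hee, map_one]) with e | e | e | e
      · rw [e]; exact (map_eq_one_iff _ α.injective |>.1 e).symm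
      · rw [e]; exact α.injective (by rw [e, hαz])
      · exact e
      · exact hpm _ (Or.inr e)
    have hF1 : ∀ x a b, D x a b → x * x = 1 → α x = x := by
      intro x a b h hx
      rcases hO1 x a b h hx with rfl | rfl | rfl | rfl
      · simp
      · exact hαz
      · exact hαe
      · rw [map_mul, hαe, hαz]
    have hDinv : ∀ x a b, (a * b = 1 ∨ a * b = -1) → D x a b → D x⁻¹ a⁻¹ b⁻¹ := by
      intro x a b hab h
      have ha : a ≠ 0 := by rintro rfl; simp at hab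
      have hb : b ≠ 0 := by rintro rfl; simp at hab
      obtain ⟨y, hy⟩ := hmkD a⁻¹ b⁻¹ (by
        rw [← mul_inv]; rcases hab with e | e <;> simp [e])
      have : x * y = 1 := hDeq _ _ _ _ (hDD _ _ _ _ _ _ h hy) (by simpa [ha, hb] using hD1)
      rw [inv_eq_of_mul_eq_one_right this]; exact hy
    have hFk : ∀ k : ℕ, ∀ x a b, (a * b = 1 ∨ a * b = -1) → D x a b → x ^ 2 ^ k = 1 → α x = x := by
      intro k
      induction k with
      | zero => intro x a b _ _ hx; rw [pow_zero, pow_one] at hx; rw [hx, map_one]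
      | succ k ih =>
        intro x a b hab h hx
        have h1 : α (x * x) = x * x := ih _ _ _ (Or.inl (by
          rcases hab with e | e
          · linear_combination (a * b + 1) * e
          · linear_combination (a * b - 1) * e)) (hDD _ _ _ _ _ _ h h)
          (by rw [← pow_two, ← pow_mul, ← pow_succ', hx])
        obtain ⟨c, d, -, h2⟩ := hB _ _ _ h
        have h3 := hDinv _ _ _ hab h
        refine hA x (hF1 _ _ _ (hDD _ _ _ _ _ _ h3 h2) ?_)
        have h4 := hcomm _ _ _ _ _ _ h2 h3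
        calc x⁻¹ * α x * (x⁻¹ * α x) = x⁻¹ * (α x * x⁻¹) * α x := by group
          _ = x⁻¹ * x⁻¹ * (α x * α x) := by rw [h4]; group
          _ = 1 := by rw [← map_mul, h1]; group
    have hFD : ∀ x a b, (a * b = 1 ∨ a * b = -1) → D x a b → α x = x := fun x a b hab h => by
      obtain ⟨k, hk⟩ := h2T x
      exact hFk k x a b hab h hk
    intro x
    obtain ⟨a, b, hab, h | h⟩ := hcase x
    · exact hFD x a b hab h
    · obtain ⟨c, d, hcd, h1 | h1⟩ := hcase (α x)
      · obtain ⟨c', d', hcd', h2⟩ := hB' _ _ _ h1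
        exact (hDWne _ _ _ _ _ hcd' h2 h).elim
      · obtain ⟨a', b', hab', h2 | h2⟩ := hcase x⁻¹
        · exact (hDWne _ _ _ _ _ (by
            rw [← mul_inv]; rcases hab' with e | e <;> simp [e]) (hDinv _ _ _ hab' h2) (by
            rwa [inv_inv])).elim
        · refine hA x (hFD _ _ _ ?_ (hWW _ _ _ _ _ _ h2 h1))
          have : b' * c * (a' * d) = (a' * b') * (c * d) := by ring
          rw [this]
          rcases hab' with e | e <;> rcases hcd with e' | e' <;> simp [e, e']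

end Cfsg.Agent.S3382
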