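import Cfsg.Statements.S3383
import Mathlib
import Cfsg.Agent.S0034
import Cfsg.Agent.Lib.FrobC.Basic


set_option autoImplicit false
open Cfsg

namespace Cfsg.Agent.S3383

/-- Let H be a Frobenius complement in a finite group L and K the Frobenius kernel (as a subgroup). Then K is characteristic in L, and every normal subgroup of L either contains K or is contained in K. -/
theorem result {L : Type*} [Group L] [Finite L]
    (H : Subgroup L) (hH : Cfsg.IsFrobeniusComplement H)
    (K : Subgroup L) (hK : (K : Set L) = Cfsg.frobeniusKernel H) :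
    K.Characteristic ∧ ∀ N : Subgroup L, N.Normal → K ≤ N ∨ N ≤ K := by
  obtain ⟨h1, h2⟩ := Cfsg.Agent.S0034.result H hH
  have hcard : Nat.card K = H.index := by rw [← h1, ← hK]; rfl
  have hmem : ∀ x, x ∈ K ↔ x = 1 ∨ ∀ g : L, g⁻¹ * x * g ∉ H := fun x => by
    rw [← H82.mem_frobeniusKernel, ← hK]; rfl
  have hcop : Nat.Coprime H.index (Nat.card H) := by
    have : H.index ≡ 1 [MOD Nat.card H] := h2
    exact (Nat.coprime_of_mul_modEq_one 1 (by simpa using this))
  have hpow : ∀ x, x ∈ K ↔ x ^ H.index = 1 := by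
    intro x
    constructor
    · intro hx
      have := pow_card_eq_one' (G := K) (x := ⟨x, hx⟩)
      rw [hcard] at this
      exact congrArg Subtype.val this
    · intro hx
      rw [hmem]
      by_cases hx1 : x = 1
      · exact Or.inl hx1
      refine Or.inr fun g hg => hx1 ?_
      have ha : orderOf x ∣ H.index := orderOf_dvd_of_pow_eq_one hx
      have hb : orderOf x ∣ Nat.card H := by
        have := orderOf_dvd_natCard (⟨_, hg⟩ : H)
        rw [← Subgroup.orderOf_coe] at this
        have e : g⁻¹ * x * g = MulAut.conj g⁻¹ x := by simp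
        simp only [e] at this
        rwa [MulEquiv.orderOf_eq] at this
      exact orderOf_eq_one_iff.mp (Nat.eq_one_of_dvd_coprimes hcop ha hb)
  have hchar : K.Characteristic := by
    rw [Subgroup.characteristic_iff_comap_eq]
    intro φ
    ext x
    rw [Subgroup.mem_comap, hpow, hpow, ← map_pow]
    exact EmbeddingLike.map_eq_one_iff (f := φ)
  refine ⟨hchar, fun N hN => ?_⟩
  by_cases hNK : N ≤ K
  · exact Or.inr hNK
  left
  obtain ⟨x, hxN, hxK⟩ := SetLike.not_le_iff_exists.mp hNK
  rw [hmem, not_or, not_forall] at hxK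
  obtain ⟨hx1, g, hg⟩ := hxK
  rw [not_not] at hg
  set y := g⁻¹ * x * g with hy
  have hyN : y ∈ N := by simpa using hN.conj_mem x hxN g⁻¹
  have hy1 : y ≠ 1 := by
    intro h; apply hx1
    have : x = g * y * g⁻¹ := by rw [hy]; group
    rw [this, h]; simp
  have hKn : K.Normal := inferInstance
  let f : K → K := fun k => ⟨k * (y * (k : L)⁻¹ * y⁻¹), K.mul_mem k.2 (hKn.conj_mem _ (K.inv_mem k.2) y)⟩
  have hf : Function.Injective f := by
    intro k l hkl
    have h3 : (k : L) * (y * (k : L)⁻¹ * y⁻¹) = l * (y * (l : L)⁻¹ * y⁻¹) := congrArg Subtype.val hkl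
    have h4 : ((l : L)⁻¹ * k)⁻¹ * y * ((l : L)⁻¹ * k) = y := by
      have : (k : L) * y * (k : L)⁻¹ = l * y * (l : L)⁻¹ := by
        have h5 := congrArg (· * y) h3
        simpa [mul_assoc] using h5
      calc ((l : L)⁻¹ * k)⁻¹ * y * ((l : L)⁻¹ * k) = (k : L)⁻¹ * (l * y * (l : L)⁻¹) * k := by group
        _ = y := by rw [← this]; group
    have h6 : (l : L)⁻¹ * k ∈ H := by
      by_contra hc
      exact hy1 ((H82.isFrob_iff.mp hH).2.2 _ hc y hg (by rw [h4]; exact hg))
    have h7 : (l : L)⁻¹ * k ∈ K := K.mul_mem (K.inv_mem l.2) k.2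
    rw [hmem] at h7
    rcases h7 with h7 | h7
    · exact Subtype.ext (inv_mul_eq_one.mp h7).symm
    · exact absurd (by simpa using h6) (h7 1)
  intro k hk
  obtain ⟨l, hl⟩ := Finite.surjective_of_injective hf ⟨k, hk⟩
  have : k = (l * y * (l : L)⁻¹) * y⁻¹ := by
    have := congrArg Subtype.val hl
    simp only [f] at this
    rw [← this]; group
  rw [this]
  exact N.mul_mem (hN.conj_mem y hyN l) (N.inv_mem hyN)

end Cfsg.Agent.S3383
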