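import Mathlib
import Cfsg.Statements.S3430
import Cfsg.Agent.Lib.Zsig.Large
import Cfsg.Agent.S4422
-- import your own Cfsg.Agent.* helpers here

set_option autoImplicit false
open Cfsg

namespace Cfsg.Agent.S3430

open H76.Zs

theorem of_prim {q n m : ℕ} (hq : 2 ≤ q) (hn : 1 ≤ n) (hm : Prim q n m) (h : n + 1 < m) :
    ∃ p : ℕ, p.Prime ∧ p ∣ q ^ n - 1 ∧ (∀ i : ℕ, 1 ≤ i → i < n → ¬ p ∣ q ^ i - 1) ∧
      (n + 1 < p ∨ p ^ 2 ∣ q ^ n - 1) := by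
  have h1 : ∀ p : ℕ, p.Prime → p ∣ m → ∀ i : ℕ, 1 ≤ i → i < n → ¬ p ∣ q ^ i - 1 :=
    fun p hp hd i hi hin => (Nat.Prime.coprime_iff_not_dvd hp).1
      (Nat.Coprime.coprime_dvd_left hd (hm.2 i hi hin))
  by_contra hc
  push Not at hc
  have h2 : ∀ p : ℕ, p.Prime → p ∣ m → p = n + 1 := by
    intro p hp hd
    have h3 := (hc p hp (hd.trans hm.1) (h1 p hp hd)).1
    have h4 := Cfsg.Agent.S4422.result q n p hq hn (hd.trans hm.1)
      fun i hi hin => Nat.Coprime.coprime_dvd_left hd (hm.2 i hi hin)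
    have h5 := Nat.le_of_dvd (by have := hp.two_le; omega)
      ((Nat.modEq_iff_dvd' hp.one_lt.le).1 (Nat.ModEq.symm h4))
    omega
  obtain ⟨p, hp, k, rfl⟩ := Nat.exists_prime_and_dvd (show m ≠ 1 by omega)
  have h3 := h2 p hp (Dvd.intro _ rfl)
  have hk : k ≠ 1 := by rintro rfl; omega
  obtain ⟨r, hr, hrk⟩ := Nat.exists_prime_and_dvd hk
  have h4 := h2 r hr (hrk.mul_left _)
  refine (hc p hp ((Dvd.intro _ rfl).trans hm.1) (h1 p hp (Dvd.intro _ rfl))).2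
    (dvd_trans ?_ hm.1)
  rw [pow_two]
  exact Nat.mul_dvd_mul_left _ (h3 ▸ h4 ▸ hrk)


/-- Let q, n ≥ 2 be integers. Unless (n = 2 and q + 1 = 2^s·3^t for some s ≥ 0 and t ≤ 1), or (q = 2 and n ∈ {4, 6, 10, 12, 18}), or (q = 3 and n ∈ {4, 6}), or (q, n) = (5, 6), there is a prime p dividing q^n − 1 but no q^i − 1 with 1 ≤ i < n (a primitive prime divisor), such that p > n + 1 or p² divides q^n − 1. -/
theorem result (q n : ℕ) (hq : 2 ≤ q) (hn : 2 ≤ n)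
    (h1 : ¬ (n = 2 ∧ ∃ s t : ℕ, t ≤ 1 ∧ q + 1 = 2 ^ s * 3 ^ t))
    (h2 : ¬ (q = 2 ∧ (n = 4 ∨ n = 6 ∨ n = 10 ∨ n = 12 ∨ n = 18)))
    (h3 : ¬ (q = 3 ∧ (n = 4 ∨ n = 6))) (h4 : ¬ (q = 5 ∧ n = 6)) :
    ∃ p : ℕ, p.Prime ∧ p ∣ q ^ n - 1 ∧ (∀ i : ℕ, 1 ≤ i → i < n → ¬ p ∣ q ^ i - 1) ∧ (n + 1 < p ∨ p ^ 2 ∣ q ^ n - 1) := by
  rcases (show n = 2 ∨ 2 < n by omega) with rfl | hn2
  · obtain ⟨s, u, hu, hqu⟩ := Nat.exists_eq_two_pow_mul_odd (show q + 1 ≠ 0 by omega)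
    have h5 : q ^ 2 - 1 = (q + 1) * (q - 1) := by simpa using Nat.sq_sub_sq q 1
    have hm : Prim q 2 u := by
      refine ⟨h5 ▸ (hqu ▸ Dvd.intro_left _ rfl : u ∣ q + 1).mul_right _, fun i hi hi2 => ?_⟩
      obtain rfl : i = 1 := by omega
      refine Nat.coprime_of_dvd fun p hp hpu hpq => ?_
      have h6 : p ∣ (q + 1) - (q ^ 1 - 1) := Nat.dvd_sub (hqu ▸ hpu.mul_left _) hpq
      rw [pow_one, show q + 1 - (q - 1) = 2 by omega,
        Nat.prime_dvd_prime_iff_eq hp Nat.prime_two] at h6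
      subst h6
      exact hu.not_two_dvd_nat hpu
    refine of_prim hq one_le_two hm ?_
    by_contra h6
    obtain ⟨j, rfl⟩ := hu
    have : j = 0 ∨ j = 1 := by omega
    rcases this with rfl | rfl
    · exact h1 ⟨rfl, s, 0, zero_le_one, hqu⟩
    · exact h1 ⟨rfl, s, 1, le_rfl, hqu⟩
  by_cases h : (q, n) ∈ exc
  · simp only [exc, List.mem_cons, Prod.mk.injEq, List.not_mem_nil, or_false] at h
    rcases h with ⟨rfl, rfl⟩ | ⟨rfl, rfl⟩ | ⟨rfl, rfl⟩ | ⟨rfl, rfl⟩ | ⟨rfl, rfl⟩ | ⟨rfl, rfl⟩ |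
      ⟨rfl, rfl⟩ | ⟨rfl, rfl⟩ | ⟨rfl, rfl⟩ | ⟨rfl, rfl⟩ | ⟨rfl, rfl⟩ | ⟨rfl, rfl⟩ | ⟨rfl, rfl⟩
    · simp at h2
    · simp at h2
    · simp at h2
    · simp at h2
    · simp at h2
    · simp at h3
    · simp at h3
    · simp at h4
    · exact of_prim (m := 7) hq (by norm_num)
        ⟨by norm_num, fun i h5 h6 => by interval_cases i <;> norm_num⟩ (by norm_num)
    · exact of_prim (m := 17) hq (by norm_num)
        ⟨by norm_num, fun i h5 h6 => by interval_cases i <;> norm_num⟩ (by norm_num)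
    · exact of_prim (m := 41) hq (by norm_num)
        ⟨by norm_num, fun i h5 h6 => by interval_cases i <;> norm_num⟩ (by norm_num)
    · exact of_prim (m := 7) hq (by norm_num)
        ⟨by norm_num, fun i h5 h6 => by interval_cases i <;> norm_num⟩ (by norm_num)
    · exact of_prim (m := 13) hq (by norm_num)
        ⟨by norm_num, fun i h5 h6 => by interval_cases i <;> norm_num⟩ (by norm_num)
  · obtain ⟨m, hm, h5⟩ := exists_prim_large hq hn2 h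
    exact of_prim hq (by omega) hm (by omega)

end Cfsg.Agent.S3430
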