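import Mathlib
import Cfsg.Statements.S3704
import Cfsg.Agent.Lib.Perm.Basic

set_option autoImplicit false
open Cfsg

namespace Cfsg.Agent.S3704

open MulAction

theorem inv_form {G Ω : Type*} [Group G] [MulAction G Ω] [DecidableEq Ω]
    (h2 : IsMultiplyPretransitive G Ω 2) {a b : Ω} (hab : a ≠ b) (M : Ω → Ω → ℚ)
    (hM : ∀ (g : G) x y, M (g • x) (g • y) = M x y) (x y : Ω) :
    M x y = (if x = y then M a a - M a b else 0) + M a b := by
  by_cases e : x = y
  · subst e
    simp only [if_true, sub_add_cancel]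
    by_cases e' : x = a
    · rw [e']
    · obtain ⟨g, h1, -⟩ := H26.trans2 h2 hab e'
      rw [← h1, hM]
  · obtain ⟨g, h1, h3⟩ := H26.trans2 h2 hab e
    rw [if_neg e, zero_add, ← h1, ← h3, hM]


/-- Let G be a finite group acting faithfully and 2-transitively on a finite set Ω of size n, and let H be a subgroup of index n in G which is not transitive on Ω and fixes no point of Ω. Then H has exactly two orbits on Ω. -/
theorem result {G Ω : Type*} [Group G] [Finite G] [MulAction G Ω] [FaithfulSMul G Ω] [Finite Ω] (h2 : MulAction.IsMultiplyPretransitive G Ω 2) (H : Subgroup G) (hidx : H.index = Nat.card Ω) (hnt : ¬ MulAction.IsPretransitive H Ω) (hfix : ∀ a : Ω, ∃ h : H, h • a ≠ a) : Nat.card (MulAction.orbitRel.Quotient H Ω) = 2 := by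
  classical
  have := Fintype.ofFinite Ω
  have := Fintype.ofFinite (G ⧸ H)
  obtain ⟨a, b, hab⟩ : ∃ a b : Ω, ¬ ∃ h : H, h • a = b := by
    by_contra hh
    push Not at hh
    exact hnt ⟨hh⟩
  have hab' : a ≠ b := fun e => hab ⟨1, by rw [one_smul, e]⟩
  let A : Ω → G ⧸ H → Ω → ℚ := fun c q w => if ∃ g : G, (g : G ⧸ H) = q ∧ g • c = w then 1 else 0
  have hA : ∀ c (g : G) q w, A c (g • q) (g • w) = A c q w := by
    intro c g q w
    apply if_congr _ rfl rfl
    constructor
    · rintro ⟨k, hk1, hk2⟩
      refine ⟨g⁻¹ * k, ?_, by rw [mul_smul, hk2, inv_smul_smul]⟩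
      have : ((g⁻¹ * k : G) : G ⧸ H) = g⁻¹ • (k : G ⧸ H) := rfl
      rw [this, hk1, inv_smul_smul]
    · rintro ⟨k, rfl, rfl⟩
      exact ⟨g * k, rfl, mul_smul _ _ _⟩
  have hA1 : ∀ c w, A c ((1 : G) : G ⧸ H) w = if ∃ h : H, h • c = w then 1 else 0 := by
    intro c w
    apply if_congr _ rfl rfl
    constructor
    · rintro ⟨k, hk1, hk2⟩
      exact ⟨⟨k, by simpa using QuotientGroup.eq.mp hk1.symm⟩, hk2⟩
    · rintro ⟨k, hk⟩
      exact ⟨k, (QuotientGroup.eq.mpr (by simp)).symm, hk⟩
  have hA01 : ∀ c q w, A c q w = 0 ∨ A c q w = 1 := by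
    intro c q w
    simp only [A]
    split_ifs <;> simp
  let B : Ω → Ω → ℚ := fun x y => ∑ q, A a q x * A a q y
  have hB : ∀ (g : G) x y, B (g • x) (g • y) = B x y := by
    intro g x y
    symm
    exact Fintype.sum_equiv (MulAction.toPerm g) _ _ (fun q => by
      simp only [MulAction.toPerm_apply, hA])
  have hl0 : 0 ≤ B a b := Finset.sum_nonneg fun q _ => by
    rcases hA01 a q a with e | e <;> rcases hA01 a q b with e' | e' <;> simp [e, e']
  have hl1 : B a b < B a a := by
    refine Finset.sum_lt_sum (fun q _ => ?_) ⟨((1 : G) : G ⧸ H), Finset.mem_univ _, ?_⟩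
    · rcases hA01 a q a with e | e <;> rcases hA01 a q b with e' | e' <;> simp [e, e']
    · rw [hA1, hA1, if_neg hab, if_pos ⟨1, one_smul _ _⟩]; simp
  let f : (Ω → ℚ) →ₗ[ℚ] (G ⧸ H → ℚ) := Matrix.mulVecLin (Matrix.of (A a))
  have hf : ∀ v q, f v q = ∑ w, A a q w * v w := fun v q => rfl
  have hinj : Function.Injective f := by
    rw [injective_iff_map_eq_zero]
    intro v hv
    have h1 : ∀ x, (B a a - B a b) * v x + B a b * ∑ y, v y = 0 := by
      intro x
      have : ∑ y, B x y * v y = 0 := by
        simp only [B, Finset.sum_mul]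
        rw [Finset.sum_comm]
        refine Finset.sum_eq_zero fun q _ => ?_
        simp only [mul_assoc, ← Finset.mul_sum]
        rw [← hf, hv]; simp
      rw [Finset.sum_congr rfl (fun y _ => by rw [inv_form h2 hab' B hB x y])] at this
      simpa [add_mul, Finset.sum_add_distrib, Finset.mul_sum] using this
    have h3 : ∑ y, v y = 0 := by
      have := Finset.sum_eq_zero (s := Finset.univ) (fun x _ => h1 x)
      rw [Finset.sum_add_distrib, ← Finset.mul_sum, Finset.sum_const, nsmul_eq_mul, ← mul_assoc,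
        ← add_mul] at this
      refine (mul_eq_zero.mp this).resolve_left (ne_of_gt ?_)
      have : (0 : ℚ) ≤ (Finset.univ : Finset Ω).card * B a b := by positivity
      linarith
    ext x
    have := h1 x
    rw [h3, mul_zero, add_zero] at this
    exact (mul_eq_zero.mp this).resolve_left (by linarith)
  have hsurj : Function.Surjective f := by
    rw [← LinearMap.injective_iff_surjective_of_finrank_eq_finrank]
    · exact hinj
    · rw [Module.finrank_fintype_fun_eq_card, Module.finrank_fintype_fun_eq_card,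
        ← Nat.card_eq_fintype_card, ← Nat.card_eq_fintype_card, ← hidx]
      rfl
  choose v hv using fun w => hsurj (fun q => A b q w)
  have hM : ∀ (g : G) x y, v (g • x) (g • y) = v x y := by
    intro g x y
    have : (fun y => v (g • x) (g • y)) = v x := by
      apply hinj
      ext q
      rw [congrFun (hv x) q, hf, ← hA b g q x, ← congrFun (hv (g • x)) (g • q), hf]
      exact Fintype.sum_equiv (MulAction.toPerm g) _ _ (fun q => by
        simp only [MulAction.toPerm_apply, hA])
    exact congrFun this y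
  have key : ∀ w, A b ((1 : G) : G ⧸ H) w = (v a a - v a b) * A a ((1 : G) : G ⧸ H) w +
      v a b * ∑ y, A a ((1 : G) : G ⧸ H) y := by
    intro w
    rw [← congrFun (hv w) _, hf, Finset.sum_congr rfl (fun y _ => by rw [inv_form h2 hab' v hM w y])]
    simp only [mul_add, Finset.sum_add_distrib, mul_ite, mul_zero, Finset.sum_ite_eq,
      Finset.mem_univ, if_true, ← Finset.sum_mul]
    ring
  have k1 := key b
  rw [hA1, hA1, if_neg hab, if_pos ⟨1, one_smul _ _⟩] at k1
  rw [Nat.card_eq_two_iff]
  refine ⟨Quotient.mk _ a, Quotient.mk _ b, fun e => hab ?_, ?_⟩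
  · obtain ⟨h, hh⟩ := Quotient.exact e.symm
    exact ⟨h, hh⟩
  · rw [Set.eq_univ_iff_forall]
    intro q
    obtain ⟨w, rfl⟩ := Quotient.exists_rep q
    by_contra hh
    simp only [Set.mem_insert_iff, Set.mem_singleton_iff, not_or] at hh
    have k2 := key w
    rw [hA1, hA1, if_neg, if_neg] at k2
    · linarith
    · rintro ⟨h, e⟩
      exact hh.1 (Quotient.sound ⟨h, e⟩)
    · rintro ⟨h, e⟩
      exact hh.2 (Quotient.sound ⟨h, e⟩)

end Cfsg.Agent.S3704
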