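import Mathlib
import Cfsg.Statements.S3733
-- import your own Cfsg.Agent.* helpers here

set_option autoImplicit false
open Cfsg

namespace Cfsg.Agent.S3733

open scoped IsMulCommutative in
theorem norm_fixed {G : Type*} [Group G] [Fintype G] [DecidableEq G] (V B : Subgroup G)
    [IsMulCommutative V] [DecidablePred (· ∈ B)]
    (hBV : B ≤ Subgroup.normalizer (V : Set G)) (c : G → V) (v : G)
    (hc : ∀ a ∈ B, (c a : G) = a * v * a⁻¹) :
    ((∏ a : G, (if a ∈ B then c a else 1) : V) : G) ∈ Subgroup.centralizer (B : Set G) := by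
  rw [Subgroup.mem_centralizer_iff]
  intro b hb
  let φ : V ≃* V := V.normalizerMonoidHom ⟨b, hBV hb⟩
  have hφ : ∀ x : V, (φ x : G) = b * x * b⁻¹ := fun x => rfl
  have : φ (∏ a : G, (if a ∈ B then c a else 1)) = ∏ a : G, (if a ∈ B then c a else 1) := by
    rw [map_prod]
    refine Fintype.prod_equiv (Equiv.mulLeft b) _ _ ?_
    intro a
    by_cases ha : a ∈ B
    · have hba : b * a ∈ B := B.mul_mem hb ha
      simp only [ha, Equiv.coe_mulLeft, hba, if_true]
      apply Subtype.ext
      rw [hφ, hc a ha, hc _ hba]; group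
    · have hba : b * a ∉ B := fun h => ha (by simpa using B.mul_mem (B.inv_mem hb) h)
      simp [ha, hba]
  have h2 := congrArg Subtype.val this
  rw [hφ] at h2
  exact mul_inv_eq_iff_eq_mul.mp h2


/-- Let A and V be subgroups of a finite group with V abelian and nontrivial and A normalizing V. Suppose a nonempty finite family of proper subgroups of A partitions A: every non-identity element of A lies in exactly one member. If the number of members minus one is coprime to the order of V, then some member B of the family has a non-identity fixed point on V, that is V ∩ C(B) ≠ 1. -/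
theorem result {G : Type*} [Group G] [Finite G] (A V : Subgroup G) (hVab : IsMulCommutative V) (hV : V ≠ ⊥) (hAV : A ≤ Subgroup.normalizer (V : Set G)) (𝒜 : Finset (Subgroup G)) (hne : 𝒜.Nonempty) (hprop : ∀ B ∈ 𝒜, B < A) (hpart : ∀ a ∈ A, a ≠ 1 → ∃! B, B ∈ 𝒜 ∧ a ∈ B) (hk : (𝒜.card - 1).Coprime (Nat.card V)) : ∃ B ∈ 𝒜, V ⊓ Subgroup.centralizer (B : Set G) ≠ ⊥ := by
  classical
  open scoped IsMulCommutative in
  have := Fintype.ofFinite G
  by_contra hcon
  push Not at hcon
  apply hV
  rw [eq_bot_iff]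
  intro v hv
  let c : G → V := fun a => if h : a ∈ A then ⟨a * v * a⁻¹, (hAV h v).mp hv⟩ else 1
  have hc : ∀ a ∈ A, (c a : G) = a * v * a⁻¹ := fun a ha => by simp [c, ha]
  have hB : ∀ B ∈ 𝒜, (∏ a : G, (if a ∈ B then c a else 1) : V) = 1 := by
    intro B hB
    have h1 := norm_fixed V B ((hprop B hB).le.trans hAV) c v (fun a ha => hc a ((hprop B hB).le ha))
    have h2 : ((∏ a : G, (if a ∈ B then c a else 1) : V) : G) ∈
        V ⊓ Subgroup.centralizer (B : Set G) := ⟨Subtype.mem _, h1⟩
    rw [hcon B hB] at h2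
    exact Subtype.ext (Subgroup.mem_bot.mp h2)
  have hA : (∏ a : G, (if a ∈ A then c a else 1) : V) = 1 := by
    obtain ⟨B, hB⟩ := hne
    have h1 := norm_fixed V A hAV c v hc
    have h2 : ((∏ a : G, (if a ∈ A then c a else 1) : V) : G) ∈
        V ⊓ Subgroup.centralizer (B : Set G) :=
      ⟨Subtype.mem _, Subgroup.centralizer_le (hprop B hB).le h1⟩
    rw [hcon B hB] at h2
    exact Subtype.ext (Subgroup.mem_bot.mp h2)
  have h3 : ∏ B ∈ 𝒜, (∏ a : G, (if a ∈ B then c a else 1) : V) = 1 := Finset.prod_eq_one hB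
  rw [Finset.prod_comm] at h3
  have h4 : ∀ a : G, (∏ B ∈ 𝒜, (if a ∈ B then c a else 1) : V) =
      (if a ∈ A then c a else 1) * (if a = 1 then (c 1) ^ (𝒜.card - 1) else 1) := by
    intro a
    by_cases ha1 : a = 1
    · subst ha1
      simp only [Subgroup.one_mem, if_true, Finset.prod_const]
      rw [← pow_succ', Nat.sub_add_cancel hne.card_pos]
    · by_cases ha : a ∈ A
      · obtain ⟨B, ⟨hB1, hB2⟩, hB3⟩ := hpart a ha ha1
        rw [Finset.prod_eq_single_of_mem B hB1]
        · simp [hB2, ha, ha1]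
        · intro B' hB' hne'
          rw [if_neg]
          intro h
          exact hne' (hB3 B' ⟨hB', h⟩)
      · simp only [ha, ha1, if_false, mul_one]
        refine Finset.prod_eq_one fun B hB => ?_
        rw [if_neg]
        intro h
        exact ha ((hprop B hB).le h)
  simp only [h4, Finset.prod_mul_distrib, hA, one_mul, Finset.prod_ite_eq', Finset.mem_univ,
    if_true] at h3
  have h5 : orderOf (c 1) ∣ 𝒜.card - 1 := orderOf_dvd_of_pow_eq_one h3
  have h6 : orderOf (c 1) ∣ Nat.card V := orderOf_dvd_natCard _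
  have h7 : orderOf (c 1) = 1 := Nat.eq_one_of_dvd_coprimes hk h5 h6
  have h8 : c 1 = 1 := orderOf_eq_one_iff.mp h7
  have h9 := hc 1 A.one_mem
  rw [h8] at h9
  simp only [OneMemClass.coe_one, one_mul, inv_one, mul_one] at h9
  rw [← h9]; exact Subgroup.one_mem _

end Cfsg.Agent.S3733
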