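import Mathlib
import Cfsg.Statements.S3735
import Cfsg.Agent.Lib.Core.Coprime
import Cfsg.Agent.Lib.Core.GrpBasic
-- import your own Cfsg.Agent.* helpers here

set_option autoImplicit false
open Cfsg

namespace Cfsg.Agent.S3735

open scoped Pointwise


/-- Clifford's Theorem for actions on finite abelian groups, first part. Let H and V be subgroups of a finite group with V abelian and H normalizing V, and let A be a normal subgroup of H. If every H-invariant subgroup of V has an H-invariant complement in V, then every A-invariant subgroup of V has an A-invariant complement in V. -/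
theorem result {G : Type*} [Group G] [Finite G] (H A V : Subgroup G) (hVab : IsMulCommutative V) (hHV : H ≤ Subgroup.normalizer (V : Set G)) (hAH : A ≤ H) (hAn : H ≤ Subgroup.normalizer (A : Set G)) (hss : ∀ U : Subgroup G, U ≤ V → H ≤ Subgroup.normalizer (U : Set G) → ∃ W : Subgroup G, W ≤ V ∧ H ≤ Subgroup.normalizer (W : Set G) ∧ U ⊓ W = ⊥ ∧ U ⊔ W = V) (U : Subgroup G) (hUV : U ≤ V) (hAU : A ≤ Subgroup.normalizer (U : Set G)) : ∃ W : Subgroup G, W ≤ V ∧ A ≤ Subgroup.normalizer (W : Set G) ∧ U ⊓ W = ⊥ ∧ U ⊔ W = V := by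
  classical
  -- minimal `A`-invariant subgroups
  let Inv : Subgroup G → Prop := fun M => M ≤ V ∧ A ≤ Subgroup.normalizer (M : Set G) ∧ M ≠ ⊥
  have hnorm : ∀ X Y : Subgroup G, X ≤ V → Y ≤ V → X ≤ Subgroup.normalizer (Y : Set G) := by
    intro X Y hX hY
    refine le_trans ?_ (Subgroup.centralizer_le_normalizer _)
    intro x hx y hy
    exact congrArg Subtype.val (hVab.is_comm.comm (⟨y, hY hy⟩ : V) ⟨x, hX hx⟩)
  let S : Subgroup G := sSup {M | Minimal Inv M}
  have hSV : S ≤ V := sSup_le fun M hM => hM.prop.1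
  have hconj : ∀ h ∈ H, ∀ M, Inv M → Inv (MulAut.conj h • M) := by
    rintro h hh M ⟨h1, h2, h3⟩
    refine ⟨?_, ?_, ?_⟩
    · intro x hx
      rw [H1.mem_conj_smul_iff] at hx
      have := H2.conj_mem_of_le_normalizer hHV hh (h1 hx)
      simpa [mul_assoc] using this
    · rw [H1.normalizer_conj_smul]
      intro a ha
      rw [H1.mem_conj_smul_iff]
      exact h2 (H2.inv_conj_mem_of_le_normalizer hAn hh ha)
    · intro h0
      apply h3
      rw [← H1.conj_inv_smul_conj_smul h M, h0, Subgroup.smul_bot]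
  have hmin : ∀ h ∈ H, ∀ M, Minimal Inv M → Minimal Inv (MulAut.conj h • M) := by
    intro h hh M hM
    refine ⟨hconj h hh M hM.prop, fun N hN hNM => ?_⟩
    have h1 := hconj h⁻¹ (H.inv_mem hh) N hN
    have h2 : MulAut.conj h⁻¹ • N ≤ M := by
      rw [← H1.conj_inv_smul_conj_smul h M]
      exact Subgroup.pointwise_smul_le_pointwise_smul_iff.mpr hNM
    have h3 := hM.2 h1 h2
    rw [← H1.conj_smul_conj_inv_smul h N]
    exact Subgroup.pointwise_smul_le_pointwise_smul_iff.mpr h3
  have hSH : H ≤ Subgroup.normalizer (S : Set G) := by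
    rw [Subgroup.le_normalizer_iff]
    intro h hh
    have : S ≤ MulAut.conj h⁻¹ • S := by
      refine sSup_le fun M hM => ?_
      rw [← H1.conj_inv_smul_conj_smul h M]
      exact Subgroup.pointwise_smul_le_pointwise_smul_iff.mpr (le_sSup (hmin h hh M hM))
    intro k hk
    have h2 := H1.mem_conj_smul_iff.mp (this hk)
    simpa using h2
  have hS : S = V := by
    obtain ⟨W, hWV, hWH, hSW, hSW2⟩ := hss S hSV hSH
    by_cases hW : W = ⊥
    · simpa [hW] using hSW2
    · exfalso
      obtain ⟨M, hMW, hM⟩ := exists_minimal_le_of_wellFoundedLT Inv W ⟨hWV, hAH.trans hWH, hW⟩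
      apply hM.prop.2.2
      rw [eq_bot_iff, ← hSW]
      exact le_inf (le_sSup hM) hMW
  obtain ⟨W, ⟨hWV, hWA, hUW⟩, hmax⟩ :=
    Set.Finite.exists_maximal
      (s := {W : Subgroup G | W ≤ V ∧ A ≤ Subgroup.normalizer (W : Set G) ∧ U ⊓ W = ⊥})
      (Set.toFinite _) ⟨⊥, bot_le, Subgroup.le_normalizer_of_normal, inf_bot_eq _⟩
  refine ⟨W, hWV, hWA, hUW, le_antisymm (sup_le hUV hWV) ?_⟩
  rw [← hS]
  refine sSup_le fun M hM => ?_
  by_contra hle
  have h1 : M ⊓ (U ⊔ W) = ⊥ := by
    by_contra hne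
    have := hM.2 (y := M ⊓ (U ⊔ W)) ⟨inf_le_left.trans hM.prop.1,
      H2.le_normalizer_inf hM.prop.2.1 (H2.le_normalizer_sup hAU hWA), hne⟩ inf_le_left
    exact hle (this.trans inf_le_right)
  have h2 : U ⊓ (W ⊔ M) = ⊥ := by
    rw [eq_bot_iff]
    rintro u ⟨hu, hu2⟩
    obtain ⟨w, hw, m, hm, rfl⟩ :=
      (H2.mem_sup_iff_of_le_normalizer (hnorm M W hM.prop.1 hWV)).mp hu2
    have h3 : m ∈ M ⊓ (U ⊔ W) := ⟨hm, by
      have := Subgroup.mul_mem _ (Subgroup.inv_mem _ (Subgroup.mem_sup_right (S := U) hw))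
        (Subgroup.mem_sup_left (T := W) hu)
      simpa using this⟩
    rw [h1, Subgroup.mem_bot] at h3
    subst h3
    rw [← hUW]
    exact ⟨hu, by simpa using hw⟩
  have h4 := hmax (y := W ⊔ M) ⟨sup_le hWV hM.prop.1, H2.le_normalizer_sup hWA hM.prop.2.1, h2⟩
    le_sup_left
  exact hle (le_sup_right.trans (h4.trans le_sup_right))

end Cfsg.Agent.S3735
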