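import Cfsg.Statements.S3773
import Mathlib
import Cfsg.Agent.Lib.FGS.SqDeg

set_option autoImplicit false
open Cfsg

namespace Cfsg.Agent.S3773

open Subgroup
open scoped Pointwise commutatorElement

/-- Let G be a finite 2-group of nilpotency class at most 2 and exponent dividing 4 in which the elements x with x² = 1 form a subgroup N. Then |G| ≤ |N|³, and |G| < |N|³ unless G is special. -/
theorem result {G : Type*} [Group G] [Finite G] (hG : IsPGroup 2 G) (hcl : (⊤ : Subgroup G).lowerCentralSeries 2 = ⊥) (hexp : ∀ x : G, x ^ 4 = 1) (hN : ∀ x y : G, x ^ 2 = 1 → y ^ 2 = 1 → (x * y) ^ 2 = 1) : Nat.card G ≤ Nat.card {x : G // x ^ 2 = 1} ^ 3 ∧ (¬ Cfsg.IsSpecial 2 G → Nat.card G < Nat.card {x : G // x ^ 2 = 1} ^ 3) := by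
  let N : Subgroup G :=
    { carrier := {x | x ^ 2 = 1}
      mul_mem' := fun {a b} => hN a b
      one_mem' := one_pow 2
      inv_mem' := fun {a} h => by rw [Set.mem_ofPred_eq, inv_pow, h, inv_one] }
  have hm : ∀ x, x ∈ N ↔ x ^ 2 = 1 := fun _ => Iff.rfl
  change _ ≤ Nat.card N ^ 3 ∧ (_ → _ < Nat.card N ^ 3)
  have hc : ∀ x y : G, ⁅x, y⁆ ∈ center G := fun x y => by
    have h : ⁅(⁅⊤, ⊤⁆ : Subgroup G), (⊤ : Subgroup G)⁆ = ⊥ := hcl
    rw [commutator_eq_bot_iff_le_centralizer, coe_top, centralizer_univ] at h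
    exact h (commutator_mem_commutator (mem_top x) (mem_top y))
  have e1 : ∀ x a : G, (x * a) ^ 2 = ⁅a, x⁆ * (x ^ 2 * a ^ 2) := fun x a => by
    rw [sq x, mul_assoc x, ← mul_assoc _ x, ← mem_center_iff.mp (hc a x) x, commutatorElement_def]
    simp only [sq]; group
  have hs : ∀ x : G, x ^ 2 ∈ N := fun x => by rw [hm, ← pow_mul]; exact hexp x
  have hcN : ∀ x y : G, ⁅x, y⁆ ∈ N := fun a x =>
    (N.mul_mem_cancel_right (N.mul_mem (hs x) (hs a))).mp (e1 x a ▸ hs _)
  have hsZ : ∀ x : G, x ^ 2 ∈ center G := fun x => mem_center_iff.mpr fun y => by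
    have h1 : x ^ 2 * y = x * ⁅x, y⁆ * y * x := by rw [commutatorElement_def, sq]; group
    have h2 : ⁅x, y⁆ * x * y * x = ⁅x, y⁆ ^ 2 * (y * x ^ 2) := by
      rw [sq, mul_assoc ⁅x, y⁆ ⁅x, y⁆, commutatorElement_def x y, sq]; group
    rw [h1, mem_center_iff.mp (hc x y) x, h2, hcN x y, one_mul]
  have hT : IsPGroup 2 (⊤ : Subgroup G) := hG.to_subgroup _
  have hZ : ∀ A : Subgroup G, A ≤ center G → ∀ E, ⁅A, A⁆ ≤ E := fun A h E =>
    le_trans (le_of_eq (commutator_eq_bot_iff_le_centralizer.mpr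
      (h.trans (center_le_centralizer _)))) bot_le
  have h1 : N.index ≤ Nat.card (N ⊓ center G : Subgroup G) ^ 2 := by
    have := H77.relIndex_le_sq hc hT (D := N) (E := ⊥) (A := N ⊓ center G) le_top bot_le
      (hZ _ inf_le_right _) (fun x hx => hx.1) (fun x _ => ⟨hs x, hsZ x⟩) fun x _ => Iff.rfl
    rwa [relIndex_top_right, relIndex_bot_left] at this
  have hpos : 0 < Nat.card N := Nat.card_pos
  rw [← N.card_mul_index, pow_succ', Nat.mul_le_mul_left_iff hpos, Nat.mul_lt_mul_left hpos]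
  refine ⟨h1.trans (Nat.pow_le_pow_left (card_le_of_le inf_le_left) 2), fun hns => ?_⟩
  by_cases h2 : N ≤ center G
  swap
  · exact h1.trans_lt (Nat.pow_lt_pow_left (H1.card_lt_of_lt (inf_lt_left.mpr h2)) two_ne_zero)
  by_cases h3 : center G ≤ N
  swap
  · obtain ⟨z, hz, hzN⟩ := SetLike.not_le_iff_exists.mp h3
    have hzn : z ∈ normalizer (N : Set G) := center_le_normalizer _ hz
    have h4 := H77.relIndex_le_sq hc hT (D := N ⊔ zpowers z) (E := zpowers (z ^ 2)) (A := N) le_top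
      (zpowers_le.mpr (hs z)) (hZ _ h2 _) (fun x hx => by rw [hx]; exact one_mem _)
      (fun x _ => hs x) fun x _ => by
        have hcz : ∀ (y : G) (i : ℤ), (y * z ^ i) ^ 2 = y ^ 2 * (z ^ 2) ^ i := fun y i => by
          rw [Commute.mul_pow (mem_center_iff.mp (zpow_mem hz i) y), ← zpow_natCast (z ^ i),
            ← zpow_natCast z, ← zpow_mul, ← zpow_mul, mul_comm i]
        rw [H5.mem_sup_zpowers_iff hzn]
        constructor
        · rintro ⟨i, hi⟩
          refine ⟨x * z ^ (-i), ?_, i, by group⟩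
          rw [hm, hcz, ← hi, ← zpow_add]; simp
        · rintro ⟨n, hn, i, rfl⟩
          rw [hcz, hn, one_mul]
          exact ⟨i, rfl⟩
    have h5 := H5.relIndex_sup_zpowers Nat.prime_two hzn hzN (hs z)
    have h6 := H1.card_mul_relIndex_of_le (zpowers_le.mpr (hs z))
    rw [Nat.card_zpowers, orderOf_eq_prime (hs z) hzN] at h6
    rw [relIndex_top_right] at h4
    rw [← relIndex_mul_index (le_sup_left : N ≤ N ⊔ zpowers z), h5, ← h6]
    nlinarith
  have h4 : commutator G ≤ N := commutator_le.mpr fun x _ y _ => hcN x y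
  by_cases h5 : N ≤ commutator G
  · exact absurd ⟨hG, le_antisymm ((H5.frattini_le_of_commutator_le_of_pow_mem h4 hs).trans h2)
      (h3.trans (h5.trans (H5.commutator_le_frattini hG))), le_antisymm (h4.trans h2) (h3.trans h5)⟩
      hns
  obtain ⟨g, hg, hgc⟩ := SetLike.not_le_iff_exists.mp h5
  obtain ⟨M, m1, m2, m3, -⟩ := H77.exists_hyperplane (p := 2) (hZ _ h2 _)
    (fun x hx => by rw [hx]; exact one_mem _) h4 hg hgc
  have hcM : ∀ x y : G, ⁅x, y⁆ ∈ M := fun x y =>
    m1 (commutator_mem_commutator (mem_top x) (mem_top y))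
  let f : G →* Multiplicative (ZMod 2) := MonoidHom.mk'
    (fun x => Multiplicative.ofAdd (H77.indF M (x ^ 2) + 1)) fun x a => by
      rw [← ofAdd_add, e1, H77.indF_mul m3 (hcN a x) (N.mul_mem (hs x) (hs a)),
        H77.indF_mul m3 (hs x) (hs a), H77.indF, if_pos (hcM a x)]
      congr 1
      have h2 := CharTwo.add_self_eq_zero (1 : ZMod 2)
      linear_combination h2
  have hk : ∀ x, x ∈ f.ker ↔ x ^ 2 ∈ M := fun x => by
    change H77.indF M (x ^ 2) + 1 = 0 ↔ _
    by_cases h : x ^ 2 ∈ M <;> simp [H77.indF, h]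
    decide
  have hNk : N ≤ f.ker := fun x hx => by rw [hk, hx]; exact one_mem _
  have h6 := H77.relIndex_le_sq hc (hG.to_subgroup f.ker) (D := N) (E := ⊥) (A := M) hNk bot_le
    (hZ _ (m2.trans h2) _) (fun x hx => m2 hx) (fun x hx => (hk x).mp hx) fun x _ => Iff.rfl
  have h7 : f.ker.index ≤ 2 := by
    rw [index_ker]
    exact (card_le_card_group _).trans (by simp)
  have h8 := H1.card_mul_relIndex_of_le m2
  rw [relIndex_bot_left] at h6
  rw [← relIndex_mul_index hNk, ← h8, m3]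
  have h9 : 0 < Nat.card M := Nat.card_pos
  nlinarith [Nat.mul_le_mul h6 h7]

end Cfsg.Agent.S3773
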