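import Cfsg.Statements.S3738
import Mathlib
import Cfsg.Agent.Lib.FGS.OrbitCong
import Cfsg.Agent.S3773
import Cfsg.Agent.Lib.Tech58.Small
import Cfsg.Agent.Lib.Thompson.Basic
import Cfsg.Agent.Lib.Core.PCore
import Cfsg.Agent.Lib.Core.Fitting

set_option autoImplicit false
open Cfsg

namespace Cfsg.Agent.S3738

open Subgroup
open scoped Pointwise commutatorElement

/-- Let d be a non-identity 3-element of a finite group and P a 2-subgroup normalized by d on which ⟨d⟩ acts faithfully (no non-identity power of d centralizes P) and without non-identity fixed points (C_P(d) = 1). If every abelian subgroup of P has 2-rank at most 2, then d has order 3. -/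
theorem result {X : Type*} [Group X] [Finite X] (d : X) (n : ℕ) (hn : 1 ≤ n) (hd : orderOf d = 3 ^ n) (P : Subgroup X) (hP : IsPGroup 2 P) (hdP : d ∈ Subgroup.normalizer (P : Set X)) (hfaith : Subgroup.zpowers d ⊓ Subgroup.centralizer (P : Set X) = ⊥) (hfpf : P ⊓ Subgroup.centralizer {d} = ⊥) (hrank : ∀ V : Subgroup X, V ≤ P → IsMulCommutative V → Cfsg.PRankLE 2 2 V) : orderOf d = 3 := by
  have : Fact (Nat.Prime 3) := ⟨Nat.prime_three⟩
  by_contra hne
  have hd' : d ^ 3 ^ n = 1 := hd ▸ pow_orderOf_eq_one d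
  have he1 : d ^ 3 ≠ 1 := fun h => by
    rcases (Nat.dvd_prime Nat.prime_three).mp (orderOf_dvd_of_pow_eq_one h) with h1 | h1
    · rw [hd, Nat.pow_eq_one] at h1; omega
    · exact hne h1
  set E := zpowers (d ^ 3) with hE
  have hEd : E ≤ zpowers d := zpowers_le.mpr (pow_mem (mem_zpowers d) 3)
  have hE3 : IsPGroup 3 E :=
    (IsPGroup.of_card (by rw [Nat.card_zpowers, hd]) : IsPGroup 3 (zpowers d)).to_le hEd
  have hcop : ∀ D ≤ P, (Nat.card E).Coprime (Nat.card D) := fun D h =>
    IsPGroup.coprime_card_of_ne 3 2 (by decide) _ _ hE3 (hP.to_le h)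
  obtain ⟨D, ⟨hDP, hdD, hDE⟩, hmin⟩ := (wellFounded_lt (α := Subgroup X)).has_min
    {D | D ≤ P ∧ zpowers d ≤ normalizer (D : Set X) ∧ ⁅D, E⁆ ≠ ⊥}
    ⟨P, le_rfl, zpowers_le.mpr hdP, fun h => he1 (mem_bot.mp (hfaith.le
      ⟨pow_mem (mem_zpowers d) 3, le_centralizer_iff.mp
        (commutator_eq_bot_iff_le_centralizer.mp h) (mem_zpowers _)⟩))⟩
  have hD := hP.to_le hDP
  have hED := hEd.trans hdD
  have hdE : zpowers d ≤ normalizer (E : Set X) :=
    le_trans (b := centralizer (E : Set X)) (fun x hx y hy => H24.isMulCommutative_iff_mem.mp inferInstance y (hEd hy) x hx)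
      (centralizer_le_normalizer _)
  have h1 : ⁅D, E⁆ = D := (H2.commutator_le_of_le_normalizer hED).eq_or_lt.resolve_right fun h =>
    hmin _ ⟨h.le.trans hDP, H2.le_normalizer_commutator hdD hdE, by
      rwa [H2.commutator_commutator_eq hED (hcop D hDP)]⟩ h
  have hD0 : D ≠ ⊥ := fun h => hDE (by rw [h1, h])
  have hΦ : ⁅(frattini D).map D.subtype, E⁆ = ⊥ := by
    by_contra h
    refine hmin _ ⟨(map_subtype_le _).trans hDP,
      H2.le_normalizer_map_subtype_of_characteristic hdD _, h⟩
      (lt_of_le_of_ne (map_subtype_le _) fun e => ?_)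
    have : Nontrivial D := (nontrivial_iff_ne_bot _).mpr hD0
    apply H5.frattini_ne_top (G := D)
    apply map_injective D.subtype_injective
    rw [e, H24.map_top_subtype]
  have hexp := H58.small_of_commutator_eq hD hED h1 hΦ
  have hcl : ⁅D, D⁆ ≤ centralizer (D : Set X) := (H5.commutator_le_map_frattini hD).trans
    (H58.le_centralizer_of_commutator_eq h1
      (H2.le_normalizer_map_subtype_of_characteristic le_normalizer _) hΦ)
  have hZc : IsMulCommutative (D ⊓ centralizer (D : Set X) : Subgroup X) :=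
    H24.isMulCommutative_iff_mem.mpr fun a ha b hb => hb.2 a ha.1
  set Z := omegaOne 2 (D ⊓ centralizer (D : Set X))
  have hZ : IsElementaryAbelian 2 Z := H24.omegaOne_isElementaryAbelian hZc
  have hZD : Z ≤ D ⊓ centralizer (D : Set X) := H24.omegaOne_le _
  have hdZ : d ∈ normalizer (Z : Set X) := H24.normalizer_le_normalizer_omegaOne _
    (H2.le_normalizer_inf hdD (H2.le_normalizer_centralizer hdD) (mem_zpowers d))
  have hrk : ∀ V ≤ P, IsElementaryAbelian 2 V → Nat.card V ≤ 4 := fun V h hV => by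
    have := hrank V h hV.1 ⊤ (H24.EA.top_iff.mpr hV).1 (H24.EA.top_iff.mpr hV).2
    rwa [card_top] at this
  have hZ0 : Z ≠ ⊥ := by
    obtain ⟨z, a, b, c⟩ := H5.exists_mem_centralizer_orderOf_eq hD le_rfl le_normalizer hD0
    intro h
    have : z ∈ Z := H24.mem_omegaOne ⟨a, b⟩ (c ▸ pow_orderOf_eq_one z)
    rw [h, mem_bot] at this
    simp [this] at c
  have hZP := hZD.trans (inf_le_left.trans hDP)
  have hZ4 : Nat.card Z = 4 := by
    have a := H77.card_modEq_card_inf_centralizer_pow hdZ hd' 0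
    rw [pow_zero, pow_one, pow_one, eq_bot_iff.mpr ((inf_le_inf_right _ hZP).trans hfpf.le), card_bot] at a
    have b := hrk Z hZP hZ
    have c : Nat.card Z ≠ 1 := fun h => hZ0 (card_eq_one.mp h)
    unfold Nat.ModEq at a
    omega
  have hinv : ∀ x ∈ D, x ^ 2 = 1 → x ∈ Z := fun x hx h => by
    have a : IsElementaryAbelian 2 (Z ⊔ zpowers x : Subgroup X) := H24.EA.sup hZ (H24.EA.zpowers h)
      ((hZD.trans inf_le_right).trans (H24.centralizer_anti (zpowers_le.mpr hx)))
    rw [eq_of_le_of_card_ge le_sup_left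
      ((hrk _ (sup_le hZP (zpowers_le.mpr (hDP hx))) a).trans hZ4.ge)]
    exact mem_sup_right (mem_zpowers x)
  have h64 : Nat.card D ≤ 64 := by
    have a := (Cfsg.Agent.S3773.result hD (by
      change ⁅(⁅⊤, ⊤⁆ : Subgroup D), (⊤ : Subgroup D)⁆ = ⊥
      apply map_injective D.subtype_injective
      rw [map_commutator, map_commutator, H24.map_top_subtype, Subgroup.map_bot]
      exact commutator_eq_bot_iff_le_centralizer.mpr hcl)
      (fun x => Subtype.ext (by
        rcases hexp x x.2 with h | h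
        · change (x : X) ^ (2 * 2) = 1
          rw [pow_mul, h, one_pow]
        · exact h.2))
      (fun x y hx hy => Subtype.ext (hZ.2 _ (Z.mul_mem (hinv x x.2 (congrArg Subtype.val hx))
        (hinv y y.2 (congrArg Subtype.val hy)))))).1
    have b : Nat.card {x : D // x ^ 2 = 1} ≤ 4 := hZ4 ▸ Nat.card_le_card_of_injective
      (fun x => (⟨x.1, hinv x.1 x.1.2 (congrArg Subtype.val x.2)⟩ : Z))
      fun x y h => Subtype.ext (Subtype.ext (congrArg Subtype.val h :))
    exact a.trans (Nat.pow_le_pow_left b 3)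
  have a1 := H77.card_modEq_card_inf_centralizer_pow hdZ hd' 1
  have a2 := H77.card_modEq_card_inf_centralizer_pow (hdD (mem_zpowers d)) hd' 1
  rw [pow_one] at a1 a2
  have a3 : Nat.card (Z ⊓ centralizer {d ^ 3} : Subgroup X) ≤
      Nat.card (D ⊓ centralizer {d ^ 3} : Subgroup X) :=
    card_le_of_le (inf_le_inf_right _ (hZD.trans inf_le_left))
  have a4 : Nat.card (D ⊓ centralizer {d ^ 3} : Subgroup X) < Nat.card D := by
    refine H1.card_lt_of_lt (inf_lt_left.mpr fun h => hDE ?_)
    rw [commutator_comm, commutator_eq_bot_iff_le_centralizer, zpowers_le]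
    exact fun x hx => mem_centralizer_singleton_iff.mp (h hx)
  obtain ⟨a, ha⟩ := IsPGroup.iff_card.mp hD
  obtain ⟨b, hb⟩ := IsPGroup.iff_card.mp (hD.to_le (inf_le_left (b := centralizer {d ^ 3})))
  have a5 : 0 < Nat.card (Z ⊓ centralizer {d ^ 3} : Subgroup X) := Nat.card_pos
  rw [ha, hb] at a2 a4
  rw [hb] at a3
  rw [ha] at h64
  rw [hZ4] at a1
  have a6 : 4 ≤ 2 ^ b := by unfold Nat.ModEq at a1; omega
  have a7 : a ≤ 6 := (Nat.pow_le_pow_iff_right one_lt_two).mp h64
  have a8 : b < a := (Nat.pow_lt_pow_iff_right one_lt_two).mp a4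
  interval_cases a <;> interval_cases b <;> revert a2 a6 <;> decide

end Cfsg.Agent.S3738
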