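import Cfsg.Statements.S3739
import Mathlib
import Cfsg.Agent.S3738
import Cfsg.Agent.Lib.Core.CoprimeAbelian
import Cfsg.Agent.Lib.LocEven.Basic

set_option autoImplicit false
open Cfsg

namespace Cfsg.Agent.S3739

open Subgroup
open scoped Pointwise commutatorElement

/-- Let G be a finite group with C_G(O₂(G)) ≤ O₂(G) containing an element of order 6, and let d be a non-identity 3-element of G normalizing a nontrivial elementary abelian 2-subgroup W with C_W(d) = 1. Then G has an elementary abelian subgroup of order 8. -/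
theorem result {G : Type*} [Group G] [Finite G] (hchar : Subgroup.centralizer (Cfsg.pCore 2 G : Set G) ≤ Cfsg.pCore 2 G) (hsix : ∃ g : G, orderOf g = 6) (d : G) (hd1 : d ≠ 1) (hd : IsPGroup 3 ↥(Subgroup.zpowers d)) (W : Subgroup G) (hW : Cfsg.IsElementaryAbelian 2 W) (hW1 : W ≠ ⊥) (hdW : d ∈ Subgroup.normalizer (W : Set G)) (hfpf : W ⊓ Subgroup.centralizer {d} = ⊥) : ∃ E : Subgroup G, Cfsg.IsElementaryAbelian 2 E ∧ Nat.card E = 8 := by
  have : Fact (Nat.Prime 3) := ⟨Nat.prime_three⟩
  have hrk : (¬ ∃ E : Subgroup G, IsElementaryAbelian 2 E ∧ Nat.card E = 8) →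
      ∀ V : Subgroup G, IsElementaryAbelian 2 V → Nat.card V ≤ 4 := fun h V hV => by
    by_contra h1
    obtain ⟨k, hk⟩ := H24.EA.exists_card hV
    have h2 : 2 ^ 3 ≤ Nat.card V := by
      rw [hk] at h1 ⊢
      exact Nat.pow_le_pow_right two_pos
        ((Nat.pow_lt_pow_iff_right one_lt_two).mp (not_le.mp h1 : 2 ^ 2 < _))
    obtain ⟨E, hE⟩ := Sylow.exists_subgroup_card_pow_prime_of_le_card Nat.prime_two
      (H24.EA.isPGroup hV) h2
    exact h ⟨E.map V.subtype, H24.EA.mono hV (map_subtype_le _), by rw [H24.card_map_subtype, hE]; rfl⟩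
  by_contra hno
  replace hrk := hrk hno
  set Q := pCore 2 G
  have hQ : IsPGroup 2 Q := H1.isPGroup_pCore
  have hcong : ∀ (V : Subgroup G) (a : G), IsPGroup 3 (zpowers a) → a ∈ normalizer (V : Set G) →
      Nat.card V % 3 = Nat.card (V ⊓ centralizer {a} : Subgroup G) % 3 := fun V a ha hn => by
    obtain ⟨k, hk⟩ := ha ⟨a, mem_zpowers a⟩
    have := H77.card_modEq_card_inf_centralizer_pow hn (congrArg Subtype.val hk) 0
    rwa [pow_zero, pow_one, pow_one] at this
  have hfour : ∀ V ≤ W, V ≠ ⊥ → d ∈ normalizer (V : Set G) → Nat.card V = 4 := fun V h h0 hn => by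
    have a := hcong V d hd hn
    rw [eq_bot_iff.mpr ((inf_le_inf_right _ h).trans hfpf.le), card_bot] at a
    have b := hrk V (H24.EA.mono hW h)
    have c : Nat.card V ≠ 1 := fun h => h0 (card_eq_one.mp h)
    omega
  have hW4 := hfour W le_rfl hW1 hdW
  have hmax : ∀ V, IsElementaryAbelian 2 V → V ≤ centralizer (W : Set G) → V ≤ W := fun V hV h => by
    rw [eq_of_le_of_card_ge le_sup_right ((hrk _ (H24.EA.sup hV hW h)).trans hW4.ge)]
    exact le_sup_left
  have hinv : ∀ x, x ^ 2 = 1 → x ∈ centralizer (W : Set G) → x ∈ W := fun x h1 h2 =>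
    hmax _ (H24.EA.zpowers h1) (zpowers_le.mpr h2) (mem_zpowers x)
  have hWQ : W ≤ Q ⊓ centralizer (Q : Set G) := by
    have hR : IsPGroup 2 (W ⊔ Q : Subgroup G) := (H24.EA.isPGroup hW).to_sup_of_normal_right hQ
    set R := W ⊔ Q
    have hdR : zpowers d ≤ normalizer (R : Set G) :=
      H2.le_normalizer_sup (zpowers_le.mpr hdW) le_normalizer_of_normal
    have hZc : IsMulCommutative (R ⊓ centralizer (R : Set G) : Subgroup G) :=
      H24.isMulCommutative_iff_mem.mpr fun a ha b hb => hb.2 a ha.1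
    have hZ := H24.omegaOne_isElementaryAbelian (p := 2) hZc
    have hZD : omegaOne 2 _ ≤ R ⊓ centralizer (R : Set G) := H24.omegaOne_le _
    have h1 := hmax _ hZ (hZD.trans (inf_le_right.trans (H24.centralizer_anti le_sup_left)))
    have h2 := hfour _ h1 (by
      obtain ⟨z, a, b, c⟩ := H5.exists_mem_centralizer_orderOf_eq hR le_rfl le_normalizer
        (fun h => hW1 (eq_bot_iff.mpr (le_sup_left.trans h.le)))
      intro h
      have : z ∈ omegaOne 2 (R ⊓ centralizer (R : Set G)) :=
        H24.mem_omegaOne ⟨a, b⟩ (c ▸ pow_orderOf_eq_one z)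
      rw [h, mem_bot] at this
      simp [this] at c) (H24.normalizer_le_normalizer_omegaOne _
        (H2.le_normalizer_inf hdR (H2.le_normalizer_centralizer hdR) (mem_zpowers d)))
    rw [← eq_of_le_of_card_ge h1 (hW4.trans h2.symm).le]
    have h3 := hZD.trans (inf_le_right.trans (H24.centralizer_anti le_sup_right))
    exact le_inf (h3.trans hchar) h3
  have hWn : W.Normal := ⟨fun w hw g => hinv _ (by rw [conj_pow, hW.2 w hw]; simp)
    (le_centralizer_iff.mp (hWQ.trans inf_le_right) (Normal.conj_mem inferInstance _ (hWQ hw).1 g))⟩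
  have hdich : ∀ a : G, IsPGroup 3 (zpowers a) → a ∉ centralizer (W : Set G) →
      Q ⊓ centralizer {a} = ⊥ := fun a ha h => by
    have h1 := hcong W a ha (le_normalizer_of_normal (mem_top a))
    have h2 : Nat.card (W ⊓ centralizer {a} : Subgroup G) < Nat.card W :=
      H1.card_lt_of_lt (inf_lt_left.mpr fun h' => h fun w hw =>
        mem_centralizer_singleton_iff.mp (h' hw))
    have h3 : W ⊓ centralizer {a} = ⊥ := card_eq_one.mp (by omega)
    by_contra h4
    obtain ⟨z, hz, -, c⟩ := H5.exists_mem_centralizer_orderOf_eq (hQ.to_le inf_le_left) le_rfl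
      le_normalizer h4
    have : z ∈ W ⊓ centralizer {a} := ⟨hinv z (c ▸ pow_orderOf_eq_one z)
      (le_centralizer_iff.mp (hWQ.trans inf_le_right) hz.1), hz.2⟩
    rw [h3, mem_bot] at this
    simp [this] at c
  have hfaith : ∀ A : Subgroup G, IsPGroup 3 A → A ⊓ centralizer (Q : Set G) = ⊥ := fun A hA =>
    eq_bot_iff.mpr ((inf_le_inf_left _ hchar).trans
      (IsPGroup.disjoint_of_ne 3 2 (by decide) _ _ hA hQ).le_bot)
  have hdC : d ∉ centralizer (W : Set G) := fun h => hW1 (by
    rw [← hfpf, eq_comm, inf_eq_left]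
    exact fun w hw => mem_centralizer_singleton_iff.mpr (h w hw))
  have hd3 : orderOf d = 3 := by
    obtain ⟨n, hn⟩ := IsPGroup.iff_card.mp hd
    rw [Nat.card_zpowers] at hn
    refine Cfsg.Agent.S3738.result d n (Nat.pos_of_ne_zero ?_) hn Q hQ
      (le_normalizer_of_normal (mem_top d)) (hfaith _ hd) (hdich d hd hdC) fun V _ _ A a b => ?_
    · rintro rfl
      exact hd1 (orderOf_eq_one_iff.mp hn)
    · rw [← H24.card_map_subtype]
      exact hrk _ (H24.EA.map ⟨a, b⟩ _)
  obtain ⟨g, hg⟩ := hsix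
  have hx3 : orderOf (g ^ 2) = 3 := by rw [orderOf_pow' _ two_ne_zero, hg]; rfl
  have ht2 : orderOf (g ^ 3) = 2 := by rw [orderOf_pow' _ three_ne_zero, hg]; rfl
  have hx : IsPGroup 3 (zpowers (g ^ 2)) :=
    IsPGroup.of_card (n := 1) (by rw [Nat.card_zpowers, hx3, pow_one])
  have hxC : g ^ 2 ∈ centralizer (W : Set G) := by
    by_contra h
    have h1 := hdich _ hx h
    have ht : IsPGroup 2 (zpowers (g ^ 3)) :=
      IsPGroup.of_card (n := 1) (by rw [Nat.card_zpowers, ht2, pow_one])
    obtain ⟨z, a, b, -, c⟩ := H5.exists_mem_centralizer_of_normalizes ht (H24.EA.isPGroup hW)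
      le_normalizer_of_normal hW1
    have h2 := hcong (W ⊓ centralizer (zpowers (g ^ 3) : Set G)) _ hx
      (H2.le_normalizer_inf le_normalizer_of_normal (H2.le_normalizer_centralizer
        (le_trans (zpowers_le.mpr (by
          rintro _ ⟨i, rfl⟩
          exact (((Commute.refl g).pow_pow 3 2).zpow_left i).eq)) (centralizer_le_normalizer _)))
        (mem_zpowers _))
    rw [eq_bot_iff.mpr ((inf_le_inf_right _ (inf_le_left.trans (hWQ.trans inf_le_left))).trans
      h1.le), card_bot] at h2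
    have h3 : Nat.card (W ⊓ centralizer (zpowers (g ^ 3) : Set G) : Subgroup G) ≠ 1 := fun h => by
      have : z ∈ W ⊓ centralizer (zpowers (g ^ 3) : Set G) := ⟨a, b⟩
      rw [card_eq_one.mp h, mem_bot] at this
      simp [this] at c
    have h4 : Nat.card W ≤ Nat.card (W ⊓ centralizer (zpowers (g ^ 3) : Set G) : Subgroup G) := by
      have := card_le_of_le (inf_le_left (a := W) (b := centralizer (zpowers (g ^ 3) : Set G)))
      omega
    have h5 := inf_eq_left.mp (eq_of_le_of_card_ge inf_le_left h4)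
    have h6 : g ^ 3 ∈ Q ⊓ centralizer {g ^ 2} :=
      ⟨(hWQ (hinv _ (ht2 ▸ pow_orderOf_eq_one _) (le_centralizer_iff.mp h5 (mem_zpowers _)))).1,
        mem_centralizer_singleton_iff.mpr ((Commute.refl g).pow_pow 3 2).eq⟩
    rw [h1, mem_bot] at h6
    simp [h6] at ht2
  obtain ⟨D, hD, hdD⟩ := H68.exists_sylowIn_ge hd (le_top (a := zpowers d))
  have h7 := hD.inf_of_normal_le (N := centralizer (W : Set G)) le_normalizer_of_normal le_top
  obtain ⟨x, hx1, hx2, hx4⟩ := H5.exists_mem_centralizer_orderOf_eq hD.isPGroup inf_le_left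
    (H2.le_normalizer_inf le_normalizer le_normalizer_of_normal)
    (h7.ne_bot (hx3 ▸ H1.orderOf_dvd_card_of_mem hxC))
  have hxd : zpowers x ≤ centralizer (zpowers d : Set G) :=
    (zpowers_le.mpr hx2).trans (H24.centralizer_anti hdD)
  have hA : IsElementaryAbelian 3 (zpowers x ⊔ zpowers d : Subgroup G) :=
    H24.EA.sup (H24.EA.zpowers (hx4 ▸ pow_orderOf_eq_one x))
      (H24.EA.zpowers (hd3 ▸ pow_orderOf_eq_one d)) hxd
  have hdx : d ∉ zpowers x := fun h => hdC (zpowers_le.mpr hx1.2 h)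
  have hdn : d ∈ normalizer (zpowers x : Set G) :=
    centralizer_le_normalizer _ (le_centralizer_iff.mp hxd (mem_zpowers d))
  have hd3' : d ^ 3 = 1 := hd3 ▸ pow_orderOf_eq_one d
  have h9 := H5.card_sup_zpowers Nat.prime_three hdn hdx (hd3' ▸ one_mem _)
  rw [Nat.card_zpowers, hx4] at h9
  have h8 : Q ≤ centralizer {x} := by
    refine H2.le_of_forall_centralizer_le hA.1 (fun hc => ?_) le_normalizer_of_normal
      (IsPGroup.coprime_card_of_ne 3 2 (by decide) _ _ (H24.EA.isPGroup hA) hQ) fun a ha ha1 => ?_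
    · obtain ⟨y, hy⟩ := IsCyclic.exists_ofOrder_eq_natCard (α := (zpowers x ⊔ zpowers d : Subgroup G))
      have := orderOf_dvd_of_pow_eq_one (x := y) (n := 3) (Subtype.ext (hA.2 y y.2))
      rw [hy, h9] at this
      revert this; decide
    · by_cases h : a ∈ centralizer (W : Set G)
      · obtain ⟨k, hk, i, rfl⟩ := (H5.mem_sup_zpowers_iff hdn).mp ha
        obtain ⟨j, rfl⟩ := H5.dvd_of_zpow_mem Nat.prime_three hdC (hd3' ▸ one_mem _)
          ((Subgroup.mul_mem_cancel_left _ (zpowers_le.mpr hx1.2 hk)).mp h)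
        rw [zpow_mul, zpow_natCast, hd3', one_zpow, mul_one] at ha1 ⊢
        have : x ∈ zpowers k := by
          rw [eq_of_le_of_card_ge (zpowers_le.mpr hk) (by
            rw [Nat.card_zpowers, Nat.card_zpowers, hx4,
              H24.EA.orderOf_eq hA (mem_sup_left hk) ha1])]
          exact mem_zpowers x
        obtain ⟨m, rfl⟩ := this
        exact fun y hy => mem_centralizer_singleton_iff.mpr
          ((show Commute y k from mem_centralizer_singleton_iff.mp hy.2).zpow_right m).eq
      · rw [hdich a ((H24.EA.isPGroup hA).to_le (zpowers_le.mpr ha)) h]; exact bot_le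
  have h10 : x ∈ (zpowers x ⊔ zpowers d) ⊓ centralizer (Q : Set G) :=
    ⟨mem_sup_left (mem_zpowers x), fun y hy => mem_centralizer_singleton_iff.mp (h8 hy)⟩
  rw [hfaith _ (H24.EA.isPGroup hA), mem_bot] at h10
  simp [h10] at hx4

end Cfsg.Agent.S3739
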