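import Cfsg.Statements.S3740
import Mathlib
import Cfsg.Agent.Lib.H4.QuatSL23
import Cfsg.Agent.Lib.SL2.Invol
import Cfsg.Agent.Lib.Core.CoprimeSylow

set_option autoImplicit false
open Cfsg

namespace Cfsg.Agent.S3740

open Subgroup Matrix

variable {F : Type*} [Field F]

theorem trace_of_pow {p : ℕ} [Fact p.Prime] [CharP F p] {u : SpecialLinearGroup (Fin 2) F} {k : ℕ}
    (h : u ^ p ^ k = 1) : u.1.trace = 2 := by
  have h1 : IsNilpotent (u.1 - 1) := by
    refine ⟨p ^ k, ?_⟩
    rw [sub_pow_char_pow_of_commute _ _ (Commute.one_right _), one_pow, ← H29.sl_val_pow, h]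
    simp
  have h2 := (Matrix.isNilpotent_trace_of_isNilpotent h1).eq_zero
  rw [trace_sub, trace_one, sub_eq_zero] at h2
  simpa using h2

theorem pow_of_trace {p : ℕ} [Fact p.Prime] [CharP F p] {u : SpecialLinearGroup (Fin 2) F}
    (h : u.1.trace = 2) : u ^ p = 1 := by
  have h1 : (u.1 - 1) ^ 2 = 0 := by
    have := H29.sl_sq u
    rw [h] at this
    rw [sq, sub_mul, mul_sub, mul_sub, ← sq, this, two_smul]
    simp only [mul_one, one_mul]
    abel
  have h2 : (u.1 - 1) ^ p = 0 := pow_eq_zero_of_le (Fact.out : p.Prime).two_le h1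
  rw [sub_pow_char_of_commute _ (Commute.one_right _), one_pow, sub_eq_zero] at h2
  exact Subtype.ext (by rw [H29.sl_val_pow, h2]; rfl)

theorem comm_unip {g u : SpecialLinearGroup (Fin 2) F} (hu : u.1.trace = 2) (h1 : u ≠ 1)
    (hc : g * u = u * g) : g.1.trace ^ 2 = 4 := by
  have d1 := H29.sl_det g
  have d2 := H29.sl_det u
  rw [H29.sl_ext_iff] at hc
  simp only [H29.sl_mul_apply] at hc
  obtain ⟨c1, c2, c3, c4⟩ := hc
  rw [trace_fin_two] at hu ⊢
  by_contra hne
  have hne' : (g.1 0 0 + g.1 1 1) ^ 2 - 4 ≠ 0 := sub_ne_zero.2 hne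
  have hy : u.1 0 1 = 0 := by
    have : (u.1 0 1) ^ 2 * ((g.1 0 0 + g.1 1 1) ^ 2 - 4) = 0 := by
      have e : u.1 1 1 = 2 - u.1 0 0 := by linear_combination hu
      rw [e] at d2 c2 c3 c4
      linear_combination (4 * u.1 0 1 ^ 2) * d1 + (u.1 0 1 * (g.1 0 0 - g.1 1 1) + 2 * g.1 0 1 * (u.1 0 0 - 1)) * c2 - (4 * u.1 0 1 * g.1 0 1) * c1 - (4 * g.1 0 1 ^ 2) * d2
    exact pow_eq_zero_iff (two_ne_zero) |>.1 ((mul_eq_zero.1 this).resolve_right hne')
  have hz : u.1 1 0 = 0 := by
    have : (u.1 1 0) ^ 2 * ((g.1 0 0 + g.1 1 1) ^ 2 - 4) = 0 := by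
      have e : u.1 1 1 = 2 - u.1 0 0 := by linear_combination hu
      rw [e] at d2 c2 c3 c4
      linear_combination (4 * u.1 1 0 ^ 2) * d1 - (u.1 1 0 * (g.1 0 0 - g.1 1 1) + 2 * g.1 1 0 * (u.1 0 0 - 1)) * c3 + (4 * u.1 1 0 * g.1 1 0) * c1 - (4 * g.1 1 0 ^ 2) * d2
    exact pow_eq_zero_iff (two_ne_zero) |>.1 ((mul_eq_zero.1 this).resolve_right hne')
  have hx : u.1 0 0 = 1 := by
    have : (u.1 0 0 - 1) ^ 2 = 0 := by
      rw [hy] at d2
      linear_combination (u.1 0 0) * hu - d2
    exact sub_eq_zero.1 (pow_eq_zero_iff (two_ne_zero) |>.1 this)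
  apply h1
  apply H29.sl_ext <;> simp [hx, hy, hz]
  linear_combination hu - hx

theorem trace_sq_of_dvd [Finite F] {p : ℕ} [hp : Fact p.Prime] [CharP F p]
    {g : SpecialLinearGroup (Fin 2) F} (h : p ∣ orderOf g) : g.1.trace ^ 2 = 4 := by
  have h1 := orderOf_pow_orderOf_div (orderOf_pos g).ne' h
  refine comm_unip (u := g ^ (orderOf g / p)) (trace_of_pow (p := p) (k := 1) ?_) ?_ ?_
  · rw [pow_one]; nth_rewrite 2 [← h1]; exact pow_orderOf_eq_one _
  · intro h2
    rw [h2, orderOf_one] at h1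
    exact hp.out.one_lt.ne h1
  · exact (Commute.self_pow g _).eq

theorem trace_mul_inv (a b : SpecialLinearGroup (Fin 2) F) :
    (a * b⁻¹).1.trace = a.1.trace * b.1.trace - (a * b).1.trace := by
  simp only [trace_fin_two, H29.sl_mul_apply, H29.sl_val_inv]
  simp
  ring

theorem trace_sq_mul (a b : SpecialLinearGroup (Fin 2) F) :
    (a * a * b).1.trace = a.1.trace * (a * b).1.trace - b.1.trace := by
  have := H29.sl_det a
  simp only [trace_fin_two, H29.sl_mul_apply]
  linear_combination (-(b.1 0 0 + b.1 1 1)) * this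

theorem trace_conj (r a : SpecialLinearGroup (Fin 2) F) : (r * a * r⁻¹).1.trace = a.1.trace := by
  rw [H29.sl_val_mul, trace_mul_comm, ← H29.sl_val_mul, inv_mul_cancel_left]

theorem dvd_order {G : Type*} [Group G] [Finite G] {p : ℕ} [hp : Fact p.Prime] {R : Subgroup G}
    {a : G} (ha : a ^ p = 1) (haR : a ∈ normalizer (R : Set G)) (hn : a ∉ R) {i : ℕ}
    (hi : ¬ p ∣ i) {r : G} (hr : r ∈ R) : p ∣ orderOf (a ^ i * r) := by
  let π := QuotientGroup.mk' (R.subgroupOf (normalizer (R : Set G)))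
  have h1 : orderOf (π ⟨a, haR⟩) = p := by
    apply orderOf_eq_prime
    · rw [← map_pow]
      have : (⟨a, haR⟩ : normalizer (R : Set G)) ^ p = 1 := Subtype.ext (by simpa using ha)
      rw [this, map_one]
    · intro h
      exact hn (mem_subgroupOf.1 ((QuotientGroup.eq_one_iff _).1 h))
  have h2 : π (⟨a, haR⟩ ^ i * ⟨r, le_normalizer hr⟩) = π ⟨a, haR⟩ ^ i := by
    rw [map_mul, map_pow]
    have : π ⟨r, le_normalizer hr⟩ = 1 := (QuotientGroup.eq_one_iff _).2 (mem_subgroupOf.2 hr)
    rw [this, mul_one]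
  have h3 := orderOf_map_dvd π (⟨a, haR⟩ ^ i * ⟨r, le_normalizer hr⟩)
  rw [h2, Nat.Coprime.orderOf_pow (by
    rw [h1]; exact (Nat.Prime.coprime_iff_not_dvd hp.out).2 hi), h1, ← Subgroup.orderOf_coe] at h3
  exact h3

/-- Let F be a finite field of odd characteristic p and let a be a p-element of SL₂(F) normalizing a subgroup R of order prime to p with [R, a] ≠ 1. Then p = 3, R is a quaternion group of order 8, and R⟨a⟩ is isomorphic to SL₂(3). -/
theorem result (F : Type) [Field F] [Fintype F] {p : ℕ} [Fact p.Prime] [CharP F p] (hp : p ≠ 2) (a : Matrix.SpecialLinearGroup (Fin 2) F) (ha : IsPGroup p ↥(Subgroup.zpowers a)) (R : Subgroup (Matrix.SpecialLinearGroup (Fin 2) F)) (hR : (Nat.card R).Coprime p) (haR : a ∈ Subgroup.normalizer (R : Set (Matrix.SpecialLinearGroup (Fin 2) F))) (hnt : ⁅R, Subgroup.zpowers a⁆ ≠ ⊥) : p = 3 ∧ Nonempty (↥R ≃* QuaternionGroup 2) ∧ Nonempty (↥(R ⊔ Subgroup.zpowers a) ≃* Matrix.SpecialLinearGroup (Fin 2) (ZMod 3)) := by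
  classical
  have hpp : p.Prime := Fact.out
  have h2 : (2 : F) ≠ 0 := by
    intro h
    have := (CharP.cast_eq_zero_iff F p 2).1 (by exact_mod_cast h)
    exact hp ((Nat.prime_dvd_prime_iff_eq hpp Nat.prime_two).1 this)
  obtain ⟨k, hk⟩ := ha ⟨a, mem_zpowers a⟩
  have hta : a.1.trace = 2 := trace_of_pow (p := p) (k := k) (by simpa using congrArg Subtype.val hk)
  have hap : a ^ p = 1 := pow_of_trace hta
  have hone : ∀ x ∈ R, x ^ p = 1 → x = 1 := by
    intro x hx h
    have h3 : x ^ Nat.card R = 1 := by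
      exact congrArg Subtype.val (pow_card_eq_one' (x := (⟨x, hx⟩ : R)))
    have := pow_gcd_eq_one.2 ⟨h3, h⟩
    rwa [hR.gcd_eq_one, pow_one] at this
  have hac : a ∉ centralizer (R : Set (SpecialLinearGroup (Fin 2) F)) := by
    intro h
    apply hnt
    rw [commutator_comm, commutator_eq_bot_iff_le_centralizer]
    exact zpowers_le.2 h
  have ha1 : a ≠ 1 := fun h => hac (h ▸ one_mem _)
  have haR' : a ∉ R := fun h => ha1 (hone a h hap)
  have key : ∀ r ∈ R, r * a = a * r ∨
      (p = 3 ∧ (a * (r * a * r⁻¹)⁻¹).1.trace = 0) := by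
    intro r hr
    have hs : a⁻¹ * r * a * r⁻¹ ∈ R := by
      have := (mem_normalizer_iff.1 (inv_mem haR) r).1 hr
      rw [inv_inv] at this
      exact mul_mem this (inv_mem hr)
    have htb : (r * a * r⁻¹).1.trace = 2 := by rw [trace_conj, hta]
    have e1 : (a * (r * a * r⁻¹)).1.trace ^ 2 = 4 := by
      apply trace_sq_of_dvd (p := p)
      have := dvd_order hap haR haR' (i := 2)
        (fun h => hp ((Nat.prime_dvd_prime_iff_eq hpp Nat.prime_two).1 h)) hs
      rwa [show a ^ 2 * (a⁻¹ * r * a * r⁻¹) = a * (r * a * r⁻¹) by group] at this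
    have e2 := trace_mul_inv a (r * a * r⁻¹)
    have e3 := trace_sq_mul a (r * a * r⁻¹)
    rw [hta, htb] at e2 e3
    have hmem : a * (r * a * r⁻¹)⁻¹ ∈ R := by
      have := (mem_normalizer_iff.1 haR _).1 (inv_mem hs)
      convert this using 1
      group
    have fin2 : (a * (r * a * r⁻¹)).1.trace = 2 → r * a = a * r := by
      intro h
      have h4 := hone _ hmem (pow_of_trace (by rw [e2, h]; ring))
      rw [mul_inv_eq_one] at h4
      exact (mul_inv_eq_iff_eq_mul.1 h4.symm)
    have e4 : ((a * (r * a * r⁻¹)).1.trace - 2) * ((a * (r * a * r⁻¹)).1.trace + 2) = 0 := by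
      linear_combination e1
    rcases mul_eq_zero.1 e4 with h | h
    · exact Or.inl (fin2 (sub_eq_zero.1 h))
    by_cases h3 : p = 3
    · refine Or.inr ⟨h3, ?_⟩
      subst h3
      have : (3 : F) = 0 := by exact_mod_cast CharP.cast_eq_zero F 3
      rw [e2]
      linear_combination 2 * this - h
    · have e5 : (a * a * (r * a * r⁻¹)).1.trace ^ 2 = 4 := by
        apply trace_sq_of_dvd (p := p)
        have := dvd_order hap haR haR' (i := 3)
          (fun h => h3 ((Nat.prime_dvd_prime_iff_eq hpp Nat.prime_three).1 h)) hs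
        rwa [show a ^ 3 * (a⁻¹ * r * a * r⁻¹) = a * a * (r * a * r⁻¹) by
          rw [pow_succ, sq]; group] at this
      exfalso
      rw [e3] at e5
      have : (2 : F) ^ 5 = 0 := by
        have e6 : (a * (r * a * r⁻¹)).1.trace = -2 := by linear_combination h
        rw [e6] at e5
        linear_combination e5
      exact h2 (pow_eq_zero_iff (by norm_num) |>.1 this)
  have hp3 : p = 3 := by
    by_contra h3
    apply hac
    rw [mem_centralizer_iff]
    intro r hr
    exact (key r hr).resolve_right (fun h => h3 h.1)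
  subst hp3
  have hcen : ∀ x ∈ R, x * a = a * x → x * x = 1 := by
    intro x hx hc
    have h3 := comm_unip hta ha1 hc
    have e4 : (x.1.trace - 2) * (x.1.trace + 2) = 0 := by linear_combination h3
    have h6 : (x * x).1.trace = 2 := by
      have := trace_sq_mul x 1
      simp only [mul_one] at this
      rw [this]
      have h7 : (1 : SpecialLinearGroup (Fin 2) F).1.trace = 2 := by simp
      rw [h7]
      linear_combination h3
    exact hone _ (mul_mem hx hx) (pow_of_trace h6)
  have hR2 : IsPGroup 2 R := by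
    have : ∀ q : ℕ, q.Prime → q ∣ Nat.card R → q = 2 := by
      intro q hq hqR
      by_contra hq2
      haveI := Fact.mk hq
      have hcop : (Nat.card (zpowers a)).Coprime (Nat.card R) := by
        obtain ⟨j, hj⟩ := IsPGroup.iff_card.1 ha
        rw [hj]
        exact (Nat.Coprime.pow_left j hR.symm)
      obtain ⟨P, hP, hAP⟩ := H2.exists_invariant_sylowIn (zpowers_le.2 haR) hcop
        (Or.inl (@IsNilpotent.to_isSolvable _ _ ha.isNilpotent)) q
      have hodd : ∀ x ∈ P, ∀ j, x ^ 2 ^ j = 1 → x = 1 := by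
        intro x hx j hj
        obtain ⟨l, hl⟩ := hP.isPGroup ⟨x, hx⟩
        exact H4.eq_one_of_two_pow_of_odd hj (m := q ^ l) (by simpa using congrArg Subtype.val hl)
          (Odd.pow (hq.odd_of_ne_two hq2))
      have hbot : P = ⊥ := by
        rw [eq_bot_iff]
        intro x hx
        rw [mem_bot]
        rcases key x (hP.le hx) with h | ⟨-, h⟩
        · exact hodd x hx 1 (by rw [pow_one, sq]; exact hcen x (hP.le hx) h)
        · have hm : a * (x * a * x⁻¹)⁻¹ ∈ P := by
            have := mul_mem ((mem_normalizer_iff.1 (hAP (mem_zpowers a)) x).1 hx) (inv_mem hx)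
            convert this using 1
            group
          have h4 := hodd _ hm 2 (by
            have := pow_orderOf_eq_one (a * (x * a * x⁻¹)⁻¹)
            rwa [H29.orderOf_of_trace h2 h] at this)
          rw [h4] at h
          exact absurd (by simpa using h) h2
      exact hP.ne_bot hqR hbot
    exact IsPGroup.of_card (Nat.eq_prime_pow_of_unique_prime_dvd Nat.card_pos.ne'
      (fun {q} hq hqR => this q hq hqR))
  have hu : ∀ x ∈ R, ∀ y ∈ R, orderOf x = 2 → orderOf y = 2 → x = y := by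
    have : ∀ x : SpecialLinearGroup (Fin 2) F, orderOf x = 2 → x = -1 := by
      intro x hx
      rcases H29.sl_eq_of_mul_self_eq_one h2 (g := x) (by
        have := pow_orderOf_eq_one x; rwa [hx, sq] at this) with h | h
      · rw [h, orderOf_one] at hx; exact absurd hx (by decide)
      · exact h
    intro x _ y _ hx hy
    rw [this x hx, this y hy]
  obtain ⟨⟨e⟩, -, -⟩ := H4.exists_three_elt hR2 hu haR
    (by rw [orderOf_eq_prime hap ha1]; decide) hac
  obtain ⟨f, hf, hr⟩ := H82.exists_SL23_of_q8 e haR hap hac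
  exact ⟨rfl, ⟨e⟩, ⟨(MulEquiv.subgroupCongr hr.symm).trans (MonoidHom.ofInjective hf).symm⟩⟩

end Cfsg.Agent.S3740
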