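import Mathlib
import Cfsg.Statements.S3741
import Cfsg.Agent.Lib.FGS.Pairing
-- import your own Cfsg.Agent.* helpers here

set_option autoImplicit false
open Cfsg

namespace Cfsg.Agent.S3741


/-- Let A and B be subgroups of a finite p-group with [A, B] ≤ A ∩ B and [A, B] of order at most p. Then |A : C_A(B)| = |B : C_B(A)|. -/
theorem result {G : Type*} [Group G] [Finite G] {p : ℕ} [Fact p.Prime] (hG : IsPGroup p G) (A B : Subgroup G) (hAB : ⁅A, B⁆ ≤ A ⊓ B) (hcard : Nat.card ↥⁅A, B⁆ ≤ p) : (A ⊓ Subgroup.centralizer (B : Set G)).relIndex A = (B ⊓ Subgroup.centralizer (A : Set G)).relIndex B := by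
  have hcyc : IsCyclic ↥⁅A, B⁆ := by
    obtain ⟨n, hn⟩ := (hG.to_subgroup ⁅A, B⁆).exists_card_eq
    have hp := (Fact.out : p.Prime)
    have hn1 : n ≤ 1 := by
      by_contra h
      have : p ^ 1 < p ^ n := Nat.pow_lt_pow_right hp.one_lt (by omega)
      simp at this; omega
    interval_cases n
    · have := (Nat.card_eq_one_iff_unique.mp (hn.trans (pow_zero p))).1
      infer_instance
    · exact isCyclic_of_prime_card (p := p) (by simpa using hn)
  exact H76.relIndex_centralizer_eq_of_commutator_cyclic A B hcyc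
    (H76.le_centralizer_of_card_le_prime _ _ (hG.to_subgroup A) hcard
      (Subgroup.normalizer_commutator_ge_left _ _))
    (H76.le_centralizer_of_card_le_prime _ _ (hG.to_subgroup B) hcard
      (Subgroup.normalizer_commutator_ge_right _ _))

end Cfsg.Agent.S3741
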