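import Mathlib
import Cfsg.Statements.S3746
import Cfsg.Agent.Lib.Comp.Component
-- import your own Cfsg.Agent.* helpers here

set_option autoImplicit false
open Cfsg

namespace Cfsg.Agent.S3746

/-- Let Z ≤ Z(G) be a central subgroup of a finite group G and E a subgroup of G containing Z whose image E/Z is a component of G/Z (subnormal and quasisimple). Then the derived subgroup [E, E] is a component of G. -/
theorem result {G : Type*} [Group G] [Finite G] (Z : Subgroup G) (hZ : Z ≤ Subgroup.center G) [Z.Normal] (E : Subgroup G) (hZE : Z ≤ E) (hE : Cfsg.IsComponent (E.map (QuotientGroup.mk' Z))) : Cfsg.IsComponent ⁅E, E⁆ := by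
  refine H23.isComponent_commutator_of_map (QuotientGroup.mk' Z) ?_ ?_ hE.2
  · have := hE.1.comap (QuotientGroup.mk' Z)
    rwa [Subgroup.comap_map_eq, QuotientGroup.ker_mk', sup_of_le_left hZE] at this
  · rw [QuotientGroup.ker_mk']
    exact inf_le_right.trans (hZ.trans (Subgroup.center_le_centralizer _))

end Cfsg.Agent.S3746
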