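import Mathlib
import Cfsg.Statements.S3747
import Cfsg.Agent.Lib.Comp.FStar
-- import your own Cfsg.Agent.* helpers here

set_option autoImplicit false
open Cfsg

namespace Cfsg.Agent.S3747

/-- Let G be a finite group. (a) If K is a component of G with trivial centre, then the normal closure of K in G is a minimal normal subgroup of G. (b) If the Fitting subgroup of G is trivial, then the layer E(G) is generated by the minimal normal subgroups of G. -/
theorem result {G : Type*} [Group G] [Finite G] : (∀ K : Subgroup G, Cfsg.IsComponent K → Subgroup.center ↥K = ⊥ → (Subgroup.normalClosure (K : Set G) ≠ ⊥ ∧ ∀ N : Subgroup G, N.Normal → N ≤ Subgroup.normalClosure (K : Set G) → N = ⊥ ∨ N = Subgroup.normalClosure (K : Set G))) ∧ (Cfsg.fittingSubgroup G = ⊥ → sSup {N : Subgroup G | N ≠ ⊥ ∧ N.Normal ∧ ∀ N' : Subgroup G, N'.Normal → N' ≤ N → N' = ⊥ ∨ N' = N} = Cfsg.layer G) := by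
  have key : ∀ K : Subgroup G, Cfsg.IsComponent K → Subgroup.center ↥K = ⊥ →
      (Subgroup.normalClosure (K : Set G) ≠ ⊥ ∧ ∀ N : Subgroup G, N.Normal →
        N ≤ Subgroup.normalClosure (K : Set G) → N = ⊥ ∨ N = Subgroup.normalClosure (K : Set G)) := by
    intro K hK hZ
    refine ⟨fun h => H23.IsComponent.ne_bot hK (le_bot_iff.mp (h ▸ Subgroup.le_normalClosure)),
      fun N hN hle => ?_⟩
    have hZ' : K ⊓ Subgroup.centralizer (K : Set G) = ⊥ := by
      rw [← H23.map_center_subtype, hZ, Subgroup.map_bot]
    rcases H23.IsComponent.eq_normalClosure_or_le_centralizer hK N hle with h | h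
    · exact Or.inr h
    · left
      rw [← le_bot_iff, ← H23.IsComponent.center_normalClosure_eq_bot hK hZ']
      exact le_inf hle h
  refine ⟨key, fun hF => le_antisymm (sSup_le fun N hN => ?_) (H23.layer_le_iff.mpr fun K hK => ?_)⟩
  · have := hN.2.1
    rcases H23.minNormal_le_fitting_or_eq_sSup_components hN.2.2 with h | h
    · exact h.trans (hF ▸ bot_le)
    · exact h.le.trans (H23.sSup_components_le_layer fun _ h => h.1)
  · have hZ : Subgroup.center K = ⊥ := by
      rw [← Subgroup.map_eq_bot_iff_of_injective _ K.subtype_injective, H23.map_center_subtype,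
        ← le_bot_iff, ← hF]
      exact H23.inf_centralizer_le_fitting hK.1
    obtain ⟨h1, h2⟩ := key K hK hZ
    exact Subgroup.le_normalClosure.trans (le_sSup ⟨h1, inferInstance, h2⟩)

end Cfsg.Agent.S3747
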