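import Mathlib
import Cfsg.Statements.S3748
import Cfsg.Agent.Lib.FGS.SubnormalIn
import Cfsg.Agent.S0008
-- import your own Cfsg.Agent.* helpers here

set_option autoImplicit false
open Cfsg

namespace Cfsg.Agent.S3748


/-- Call a proper subgroup M of G primitive when M = N_G(N) for every non-trivial normal subgroup N of M. If M is a primitive subgroup of the finite group G, then no non-trivial subnormal subgroup of G is contained in M; in particular M ∩ F(G) = 1. -/
theorem result {G : Type*} [Group G] [Finite G] (M : Subgroup G) (hM : M ≠ ⊤) (hprim : ∀ N : Subgroup G, N ≤ M → M ≤ Subgroup.normalizer (N : Set G) → N ≠ ⊥ → Subgroup.normalizer (N : Set G) = M) : (∀ L : Subgroup G, L.IsSubnormal → L ≤ M → L = ⊥) ∧ M ⊓ Cfsg.fittingSubgroup G = ⊥ := by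
  have key : ∀ L : Subgroup G, L.IsSubnormal → L ≤ M → L = ⊥ := by
    intro L hL hLM
    obtain ⟨K, -, hLK, hKM, hMK, h⟩ := H76.exists_normalized_of_isSubnormal_le M L hL hLM
    by_contra hne
    have hK : K ≠ ⊥ := fun e => hne (le_bot_iff.mp (e ▸ hLK))
    rcases h with h | h
    · exact hM h
    · exact h (hprim K hKM hMK hK).le
  refine ⟨key, key _ ?_ inf_le_left⟩
  haveI : (Cfsg.fittingSubgroup G).Normal := Subgroup.sSup_normal _ (fun _ h => h.1)
  haveI := Cfsg.Agent.S0008.result (G := G)
  exact H76.isSubnormal_of_le_nilpotent_normal (Cfsg.fittingSubgroup G) _ inf_le_right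

end Cfsg.Agent.S3748
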