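import Cfsg.Statements.S3749
import Mathlib
import Cfsg.Agent.Lib.FGS.BenderPair
import Cfsg.Agent.Lib.Core.CoprimeSylow
import Cfsg.Agent.Lib.PGroup.Basic

set_option autoImplicit false
open Cfsg

namespace Cfsg.Agent.S3749

open Subgroup
open scoped Pointwise commutatorElement

/-- Call a proper subgroup M of G primitive when M = N_G(N) for every non-trivial normal subgroup N of M. Let M be a primitive subgroup of the finite group G, p a prime with O_p(M) ≠ 1, and N a normal subgroup of G with M ∩ N = 1. Then p does not divide the order of N; for every prime q there is exactly one Sylow q-subgroup of N normalized by M; and if the order of N has at least two prime divisors then M is not a maximal subgroup of G. -/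
theorem result {G : Type*} [Group G] [Finite G] (M : Subgroup G) (hM : M ≠ ⊤) (hprim : ∀ N : Subgroup G, N ≤ M → M ≤ Subgroup.normalizer (N : Set G) → N ≠ ⊥ → Subgroup.normalizer (N : Set G) = M) {p : ℕ} [Fact p.Prime] (hOp : Cfsg.pCore p ↥M ≠ ⊥) (N : Subgroup G) [N.Normal] (hMN : M ⊓ N = ⊥) : ¬ p ∣ Nat.card N ∧ (∀ q : ℕ, [Fact q.Prime] → ∃! Q : Sylow q ↥N, M ≤ Subgroup.normalizer ((Q : Subgroup ↥N).map N.subtype : Set G)) ∧ ((∃ q r : ℕ, q.Prime ∧ r.Prime ∧ q ≠ r ∧ q ∣ Nat.card N ∧ r ∣ Nat.card N) → ¬ IsCoatom M) := by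
  have hP0 : pCoreOf p M ≠ ⊥ := by
    rwa [H1.pCoreOf_def, Ne, Subgroup.map_eq_bot_iff_of_injective _ M.subtype_injective]
  have hP := H1.isPGroup_pCoreOf (p := p) M
  set P := pCoreOf p M
  have hMP : M ≤ normalizer (P : Set G) := H1.le_normalizer_pCoreOf M
  have hC : N ⊓ centralizer (P : Set G) = ⊥ := by
    rw [eq_bot_iff, ← hMN, inf_comm]
    exact inf_le_inf_right _ ((centralizer_le_normalizer _).trans
      (hprim P (H1.pCoreOf_le M) hMP hP0).le)
  have h1 : ¬ p ∣ Nat.card N := by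
    intro h
    obtain ⟨S, hS, hPS⟩ := H68.exists_sylowIn_ge hP (le_top (a := P))
    have h2 := hS.inf_of_normal_le (N := N) le_normalizer_of_normal le_top
    obtain ⟨z, hz, hzc, -, hzp⟩ := H5.exists_mem_centralizer_of_normalizes hP h2.isPGroup
      (H2.le_normalizer_inf (hPS.trans le_normalizer) le_normalizer_of_normal) (h2.ne_bot h)
    have : z ∈ N ⊓ centralizer (P : Set G) := ⟨hz.2, hzc⟩
    rw [hC, mem_bot] at this
    rw [this, orderOf_one] at hzp
    exact (Fact.out : p.Prime).one_lt.ne hzp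
  have hcop : (Nat.card P).Coprime (Nat.card N) :=
    H1.coprime_card_of_isPGroup_of_coprime hP
      ((Nat.Prime.coprime_iff_not_dvd Fact.out).mpr h1).symm
  have hs : Group.IsSolvable P ∨ Group.IsSolvable N := Or.inl (H1.isSolvable_of_isPGroup hP)
  have huniq : ∀ (q : ℕ) [Fact q.Prime] (Q R : Subgroup G), H68.SylowIn q Q N → H68.SylowIn q R N →
      P ≤ normalizer (Q : Set G) → P ≤ normalizer (R : Set G) → Q = R := by
    intro q _ Q R hQ hR a b
    obtain ⟨c, hc, h⟩ := H2.exists_centralizer_cj_eq_of_sylowIn le_normalizer_of_normal hcop hs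
      hQ hR a b
    rw [hC, mem_bot] at hc
    rw [← h, hc, H68.cj_one]
  have hex : ∀ (q : ℕ) [Fact q.Prime], ∃ Q, H68.SylowIn q Q N ∧ M ≤ normalizer (Q : Set G) := by
    intro q _
    obtain ⟨Q, hQ, hPQ⟩ := H2.exists_invariant_sylowIn le_normalizer_of_normal hcop hs q
    refine ⟨Q, hQ, fun m hm => H68.mem_normalizer_iff_cj.mpr ?_⟩
    refine huniq q _ _ (hQ.cj_of_mem_normalizer (le_normalizer_of_normal (mem_top m))) hQ ?_ hPQ
    rw [← H68.cj_normalizer, ← H68.cj_eq_of_mem_normalizer (hMP hm)]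
    exact H68.cj_mono m hPQ
  refine ⟨h1, fun q _ => ?_, ?_⟩
  · obtain ⟨Q, hQ, hMQ⟩ := hex q
    refine ⟨hQ.toSylow, ?_, fun R hR => ?_⟩
    · change M ≤ normalizer ((hQ.toSylow : Subgroup N).map N.subtype : Subgroup G)
      rwa [hQ.map_toSylow]
    · apply Sylow.ext
      apply map_injective N.subtype_injective
      rw [hQ.map_toSylow]
      exact huniq q _ _ (H68.sylowIn_map R) hQ ((H1.pCoreOf_le M).trans hR)
        ((H1.pCoreOf_le M).trans hMQ)
  · rintro ⟨q, r, hq, hr, hqr, dq, dr⟩ hco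
    have := Fact.mk hq
    have := Fact.mk hr
    obtain ⟨Q, hQ, hMQ⟩ := hex q
    have h2 : Q ⊔ M = ⊤ := hco.2 _ (right_lt_sup.mpr fun h =>
      hQ.ne_bot dq (eq_bot_iff.mpr (hMN ▸ le_inf h hQ.le)))
    have h3 := H23.inf_sup_of_le_normalizer hQ.le hMQ
    rw [h2, inf_top_eq, inf_comm, hMN, sup_bot_eq] at h3
    obtain ⟨k, hk⟩ := IsPGroup.iff_card.mp hQ.isPGroup
    rw [h3, hk] at dr
    exact hqr ((Nat.prime_dvd_prime_iff_eq hr hq).mp (hr.dvd_of_dvd_pow dr)).symm

end Cfsg.Agent.S3749
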