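import Cfsg.Statements.S3750
import Mathlib
import Cfsg.Agent.Lib.FGS.BenderPair

set_option autoImplicit false
open Cfsg

namespace Cfsg.Agent.S3750

open Subgroup
open scoped Pointwise commutatorElement

/-- Call a proper subgroup M of G primitive when M = N_G(N) for every non-trivial normal subgroup N of M. Let M be a primitive subgroup of the finite group G and N a normal subgroup of G with M ∩ F*(N) ≠ 1. Then F(G) = 1 and F*(N) = F*(G) = E(G); in particular every minimal normal subgroup of G is contained in N. -/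
theorem result {G : Type*} [Group G] [Finite G] (M : Subgroup G) (hM : M ≠ ⊤) (hprim : ∀ N : Subgroup G, N ≤ M → M ≤ Subgroup.normalizer (N : Set G) → N ≠ ⊥ → Subgroup.normalizer (N : Set G) = M) (N : Subgroup G) [N.Normal] (hMF : M ⊓ (Cfsg.generalizedFittingSubgroup ↥N).map N.subtype ≠ ⊥) : Cfsg.fittingSubgroup G = ⊥ ∧ (Cfsg.generalizedFittingSubgroup ↥N).map N.subtype = Cfsg.generalizedFittingSubgroup G ∧ Cfsg.generalizedFittingSubgroup G = Cfsg.layer G ∧ ∀ K : Subgroup G, K.Normal → K ≠ ⊥ → (∀ K' : Subgroup G, K'.Normal → K' ≤ K → K' = ⊥ ∨ K' = K) → K ≤ N := by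
  have hn : (H77.fsOf N).Normal := inferInstanceAs ((generalizedFittingSubgroup N).map N.subtype).Normal
  change M ⊓ H77.fsOf N ≠ ⊥ at hMF
  change _ ∧ H77.fsOf N = _ ∧ _
  have h1 := hprim _ inf_le_left (H2.le_normalizer_inf le_normalizer le_normalizer_of_normal) hMF
  have h2 : centralizer (H77.fsOf N : Set G) = ⊥ := by
    by_contra h
    apply hM
    rw [← hprim _ (((H23.centralizer_anti inf_le_right).trans (centralizer_le_normalizer _)).trans
      h1.le) le_normalizer_of_normal h, normalizer_eq_top]
  have h3 : fittingOf N = ⊥ := by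
    rw [H1.fittingOf_eq_iSup_pCoreOf, iSup_eq_bot]
    intro q
    have := Fact.mk q.2
    by_contra h
    apply H77.zCore_ne_bot h
    rw [eq_bot_iff, ← h2, H77.fsOf_eq, H23.centralizer_sup]
    exact le_inf ((inf_le_left.trans (H1.pCoreOf_le_fittingOf q N)).trans
      (le_centralizer_iff.mp (H77.layOf_le_centralizer_fittingOf N)))
      (H77.zCore_le_centralizer_fittingOf q N)
  have h4 : fittingSubgroup G = ⊥ := by
    rw [eq_bot_iff, ← h2, ← commutator_eq_bot_iff_le_centralizer, eq_bot_iff, ← h3,
      H1.fittingOf_def, H1.map_subtype_fitting_eq]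
    exact le_inf (commutator_le_left _ _) ((commutator_le_right _ _).trans (H77.fsOf_le N))
  have h5 : generalizedFittingSubgroup G = layer G := by rw [H23.fStar_def, h4, sup_bot_eq]
  have h6 : H77.fsOf N = generalizedFittingSubgroup G := by
    apply le_antisymm (H23.map_fStar_subtype_le_of_isSubnormal (Normal.isSubnormal inferInstance))
    rw [h5, H23.layer_le_iff]
    intro L hL
    rcases H23.IsComponent.le_or_commutator_eq_bot hL hn.isSubnormal with h | h
    · exact h
    · rw [commutator_eq_bot_iff_le_centralizer, h2, le_bot_iff] at h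
      exact absurd h (H23.IsComponent.ne_bot hL)
  exact ⟨h4, h6, h5, fun K _ _ hK => ((H23.minNormal_le_fStar hK).trans h6.ge).trans (H77.fsOf_le N)⟩

end Cfsg.Agent.S3750
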