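import Cfsg.Statements.S3751
import Mathlib
import Cfsg.Agent.Lib.FGS.BenderPair
import Cfsg.Agent.Lib.Core.CoprimeSylow
import Cfsg.Agent.Lib.PGroup.Basic

set_option autoImplicit false
open Cfsg

namespace Cfsg.Agent.S3751

open Subgroup
open scoped Pointwise commutatorElement

def MaxLoc {G : Type*} [Group G] (p : ℕ) (M : Subgroup G) : Prop :=
  (∃ T : Subgroup G, IsPGroup p T ∧ T ≠ ⊥ ∧ M = Subgroup.normalizer (T : Set G)) ∧
    ∀ L : Subgroup G, (∃ T : Subgroup G, IsPGroup p T ∧ T ≠ ⊥ ∧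
      L = Subgroup.normalizer (T : Set G)) → M ≤ L → L = M

variable {G : Type*} [Group G] [Finite G] {p : ℕ} [Fact p.Prime]

omit [Fact p.Prime] in
theorem exists_maxLoc {T : Subgroup G} (hT : IsPGroup p T) (h : T ≠ ⊥) :
    ∃ M, MaxLoc p M ∧ normalizer (T : Set G) ≤ M := by
  obtain ⟨M, hle, hM⟩ := Finite.exists_le_maximal
    (p := fun L : Subgroup G => ∃ T : Subgroup G, IsPGroup p T ∧ T ≠ ⊥ ∧
      L = Subgroup.normalizer (T : Set G)) (a := normalizer (T : Set G)) ⟨T, hT, h, rfl⟩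
  exact ⟨M, ⟨hM.1, fun L hL h => le_antisymm (hM.2 hL h) h⟩, hle⟩

omit [Finite G] [Fact p.Prime] in
theorem MaxLoc.conj {M : Subgroup G} (h : MaxLoc p M) (g : G) : MaxLoc p (H68.cj g M) := by
  obtain ⟨⟨T, h1, h2, rfl⟩, h3⟩ := h
  refine ⟨⟨_, H68.isPGroup_cj g h1, fun h => h2 (H68.cj_eq_bot_iff.mp h), H68.cj_normalizer g T⟩, ?_⟩
  rintro _ ⟨R, a, b, rfl⟩ hle
  rw [← h3 _ ⟨_, H68.isPGroup_cj g⁻¹ a, fun h => b (H68.cj_eq_bot_iff.mp h),
    H68.cj_normalizer g⁻¹ R⟩ (H68.cj_le_iff.mp hle), H68.cj_cj_inv]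

omit [Finite G] [Fact p.Prime] in
theorem MaxLoc.core_ne {M : Subgroup G} (h : MaxLoc p M) : pCoreOf p M ≠ ⊥ := by
  obtain ⟨⟨T, h1, h2, rfl⟩, -⟩ := h
  exact fun h => h2 (eq_bot_iff.mpr (h ▸ H1.le_pCoreOf le_normalizer le_rfl h1))

omit [Finite G] [Fact p.Prime] in
theorem MaxLoc.char (hloc : IsOfLocalCharacteristic p G) {M : Subgroup G} (h : MaxLoc p M) :
    centralizer (pCore p M : Set M) ≤ pCore p M := by
  obtain ⟨⟨T, h1, h2, rfl⟩, -⟩ := h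
  exact hloc.2 T h1 h2

omit [Finite G] [Fact p.Prime] in
theorem MaxLoc.prim (hloc : IsOfLocalCharacteristic p G) {M A : Subgroup G} (h : MaxLoc p M)
    (hA : A ≠ ⊥) (hAM : A ≤ M) (hn : M ≤ normalizer (A : Set G)) :
    normalizer (A : Set G) = M := by
  have h1 : pCoreOf p A ≠ ⊥ := by
    intro h0
    have h2 : A ⊓ pCoreOf p M = ⊥ := eq_bot_iff.mpr (h0 ▸ H1.le_pCoreOf inf_le_left
      (H2.le_normalizer_inf le_normalizer (hAM.trans (H1.le_normalizer_pCoreOf M)))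
      ((H1.isPGroup_pCoreOf M).to_le inf_le_right))
    have h3 : A ≤ centralizer (pCoreOf p M : Set G) := by
      rw [← commutator_eq_bot_iff_le_centralizer, eq_bot_iff, ← h2]
      exact le_inf (H2.commutator_le_of_le_normalizer ((H1.pCoreOf_le M).trans hn))
        ((commutator_comm _ _).le.trans
          (H2.commutator_le_of_le_normalizer (hAM.trans (H1.le_normalizer_pCoreOf M))))
    have h4 : A ≤ pCoreOf p M := by
      refine (le_inf hAM h3).trans ?_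
      rw [H1.pCoreOf_def, ← H1.map_subtype_centralizer_subgroup]
      exact map_mono (h.char hloc)
    exact hA (by rw [← h2, inf_eq_left.mpr h4])
  apply le_antisymm _ hn
  rw [← h.2 _ ⟨_, H1.isPGroup_pCoreOf A, h1, rfl⟩
    (hn.trans (H1.normalizer_le_normalizer_pCoreOf A))]
  exact H1.normalizer_le_normalizer_pCoreOf A

omit [Finite G] [Fact p.Prime] in
theorem MaxLoc.cj_ne {M : Subgroup G} (h : MaxLoc p M) {g : G} (hg : g ∉ M) :
    M ≠ H68.cj g M := by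
  intro h1
  apply hg
  rw [← h.2 _ ⟨_, H1.isPGroup_pCoreOf M, h.core_ne, rfl⟩ (H1.le_normalizer_pCoreOf M)]
  exact H1.normalizer_le_normalizer_pCoreOf M (H68.mem_normalizer_iff_cj.mpr h1.symm)

theorem exists_step {S M : Subgroup G} (hS : IsPGroup p S) (hSM : S ≤ M)
    (h : ¬ H68.SylowIn p S M) : ∃ T : Subgroup G, IsPGroup p T ∧ S < T ∧ T ≤ M ∧ T ≤ normalizer (S : Set G) := by
  obtain ⟨T, hT, hST⟩ := H68.exists_sylowIn_ge hS hSM
  have h1 : S < T := lt_of_le_of_ne hST fun e => h (e ▸ hT)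
  exact ⟨_, hT.isPGroup.to_le inf_le_left, H5.lt_inf_normalizer hT.isPGroup h1,
    inf_le_left.trans hT.le, inf_le_right⟩

theorem exists_pair {M N S : Subgroup G} (hM : MaxLoc p M) (hN : MaxLoc p N) (hne : M ≠ N)
    (hS : IsPGroup p S) (h0 : S ≠ ⊥) (hSM : S ≤ M) (hSN : S ≤ N) :
    ∃ M N S : Subgroup G, MaxLoc p M ∧ MaxLoc p N ∧ M ≠ N ∧ H68.SylowIn p S M ∧
      H68.SylowIn p S N := by
  obtain ⟨S, hle, hmax⟩ := Finite.exists_le_maximal
    (p := fun S : Subgroup G => IsPGroup p S ∧ ∃ M N : Subgroup G, MaxLoc p M ∧ MaxLoc p N ∧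
      M ≠ N ∧ S ≤ M ∧ S ≤ N) (a := S) ⟨hS, M, N, hM, hN, hne, hSM, hSN⟩
  have h0' : S ≠ ⊥ := fun h => h0 (eq_bot_iff.mpr (h ▸ hle))
  obtain ⟨hS, M, N, hM, hN, hne, hSM, hSN⟩ := hmax.1
  obtain ⟨U, hU, hSU⟩ := exists_maxLoc hS h0'
  have key : ∀ M, MaxLoc p M → S ≤ M → ¬ H68.SylowIn p S M → M = U := by
    intro M hM hSM h
    by_contra hMU
    obtain ⟨T, a, b, c, d⟩ := exists_step hS hSM h
    exact b.not_ge (hmax.2 ⟨a, M, U, hM, hU, hMU, c, d.trans hSU⟩ b.le)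
  have key2 : ∀ M N, MaxLoc p M → S ≤ N → H68.SylowIn p S M → ¬ H68.SylowIn p S N →
      ∃ M N S : Subgroup G, MaxLoc p M ∧ MaxLoc p N ∧ M ≠ N ∧ H68.SylowIn p S M ∧
      H68.SylowIn p S N := by
    intro M N hM hSN h1 h2
    obtain ⟨T, a, b, -, d⟩ := exists_step hS hSN h2
    have : ¬ T ≤ M := fun h => b.ne' (h1.eq_of_le a b.le h)
    obtain ⟨x, hx, hxM⟩ := SetLike.not_le_iff_exists.mp this
    refine ⟨M, _, S, hM, hM.conj x, hM.cj_ne hxM, h1, ?_⟩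
    have := h1.cj x
    rwa [H68.cj_eq_of_mem_normalizer (d hx)] at this
  by_cases h1 : H68.SylowIn p S M <;> by_cases h2 : H68.SylowIn p S N
  · exact ⟨M, N, S, hM, hN, hne, h1, h2⟩
  · exact key2 M N hM hSN h1 h2
  · exact key2 N M hN hSM h2 h1
  · exact absurd ((key M hM hSM h1).trans (key N hN hSN h2).symm) hne

/-- Two distinct subgroups M₁, M₂ of G form a primitive pair when, for {i, j} = {1, 2}, every non-trivial normal subgroup A of M_i contained in M₁ ∩ M₂ satisfies N_{M_j}(A) = M₁ ∩ M₂; the pair has characteristic p when moreover C_{M_i}(O_p(M_i)) ≤ O_p(M_i) for both i and O_p(M₁)O_p(M₂) ≤ M₁ ∩ M₂. Let G be a finite group, p a prime dividing its order, with O_p(G) = 1 and every p-local subgroup of characteristic p. Then either G has a primitive pair of characteristic p, or every maximal p-local subgroup M of G is strongly p-embedded in G: M is a proper subgroup, p divides its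 order, and for every g ∉ M the order of M ∩ gMg⁻¹ is prime to p. -/
theorem result {G : Type*} [Group G] [Finite G] {p : ℕ} [Fact p.Prime] (hloc : Cfsg.IsOfLocalCharacteristic p G) (hOp : Cfsg.pCore p G = ⊥) : (∃ M₁ M₂ : Subgroup G, M₁ ≠ M₂ ∧ (∀ A : Subgroup G, A ≠ ⊥ → A ≤ M₁ ⊓ M₂ → (M₁ ≤ Subgroup.normalizer (A : Set G) → M₂ ⊓ Subgroup.normalizer (A : Set G) = M₁ ⊓ M₂) ∧ (M₂ ≤ Subgroup.normalizer (A : Set G) → M₁ ⊓ Subgroup.normalizer (A : Set G) = M₁ ⊓ M₂)) ∧ Subgroup.centralizer (Cfsg.pCore p ↥M₁ : Set ↥M₁) ≤ Cfsg.pCore p ↥M₁ ∧ Subgroup.centralizer (Cfsg.pCore p ↥M₂ : Set ↥M₂) ≤ Cfsg.pCore p ↥M₂ ∧ (Cfsg.pCore p ↥M₁).map M₁.subtype ⊔ (Cfsg.pCore p ↥M₂).map M₂.subtype ≤ M₁ ⊓ M₂) ∨ (∀ M : Subgroup G, (∃ T : Subgroup G, IsPGroup p T ∧ T ≠ ⊥ ∧ M = Subgroup.normalizer (T : Set G)) → (∀ L : Subgroup G, (∃ T : Subgroup G, IsPGroup p T ∧ T ≠ ⊥ ∧ L = Subgroup.normalizer (T : Set G)) → M ≤ L →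 L = M) → M ≠ ⊤ ∧ p ∣ Nat.card M ∧ ∀ g : G, g ∉ M → ¬ p ∣ Nat.card ↥(M ⊓ M.map (MulAut.conj g).toMonoidHom)) := by
  rw [or_iff_not_imp_right]
  intro h
  push Not at h
  obtain ⟨M, h1, h2, h3⟩ := h
  have hM : MaxLoc p M := ⟨h1, h2⟩
  have h4 : M ≠ ⊤ := by
    rintro rfl
    exact hM.core_ne (by rw [H1.pCoreOf_top, hOp])
  obtain ⟨g, hg, hd⟩ := h3 h4 (H68.dvd_card_of_isPGroup_of_ne_bot (H1.isPGroup_pCoreOf M)
    hM.core_ne (H1.pCoreOf_le M))
  obtain ⟨S, hle, hS, h0⟩ := H68.exists_isPGroup_ne_bot_of_dvd hd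
  obtain ⟨M, N, S, hM, hN, hne, a, b⟩ := exists_pair hM (hM.conj g) (hM.cj_ne hg) hS h0
    (hle.trans inf_le_left) (hle.trans inf_le_right)
  have c : pCoreOf p M ≤ S := a.le_of_le_normalizer (H1.isPGroup_pCoreOf M) (H1.pCoreOf_le M)
    (a.le.trans (H1.le_normalizer_pCoreOf M))
  have d : pCoreOf p N ≤ S := b.le_of_le_normalizer (H1.isPGroup_pCoreOf N) (H1.pCoreOf_le N)
    (b.le.trans (H1.le_normalizer_pCoreOf N))
  refine ⟨M, N, hne, fun A hA hle => ⟨fun hn => ?_, fun hn => ?_⟩, hM.char hloc, hN.char hloc,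
    (sup_le c d).trans (le_inf a.le b.le)⟩
  · rw [hM.prim hloc hA (hle.trans inf_le_left) hn, inf_comm]
  · rw [hN.prim hloc hA (hle.trans inf_le_right) hn]

end Cfsg.Agent.S3751
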