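import Cfsg.Statements.S3753
import Mathlib
import Cfsg.Agent.Base
import Cfsg.Agent.Lib.LocEven.PrimPair

set_option autoImplicit false
open Cfsg

namespace Cfsg.Agent.S3753

open Subgroup H69 H70


/-- Two distinct subgroups M₁, M₂ of G form a primitive pair when, for {i, j} = {1, 2}, every non-trivial normal subgroup A of M_i contained in M₁ ∩ M₂ satisfies N_{M_j}(A) = M₁ ∩ M₂; the pair has characteristic p when moreover C_{M_i}(O_p(M_i)) ≤ O_p(M_i) for both i and O_p(M₁)O_p(M₂) ≤ M₁ ∩ M₂. If the finite group G has a primitive pair (M₁, M₂) of characteristic p for some prime p, then M₁ or M₂ has non-abelian Sylow 2-subgroups. In particular no group of odd order has a primitive pair of characteristic p. -/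
theorem result {G : Type*} [Group G] [Finite G] {p : ℕ} [Fact p.Prime] (M₁ M₂ : Subgroup G) (hne : M₁ ≠ M₂) (hP : ∀ A : Subgroup G, A ≠ ⊥ → A ≤ M₁ ⊓ M₂ → (M₁ ≤ Subgroup.normalizer (A : Set G) → M₂ ⊓ Subgroup.normalizer (A : Set G) = M₁ ⊓ M₂) ∧ (M₂ ≤ Subgroup.normalizer (A : Set G) → M₁ ⊓ Subgroup.normalizer (A : Set G) = M₁ ⊓ M₂)) (hc₁ : Subgroup.centralizer (Cfsg.pCore p ↥M₁ : Set ↥M₁) ≤ Cfsg.pCore p ↥M₁) (hc₂ : Subgroup.centralizer (Cfsg.pCore p ↥M₂ : Set ↥M₂) ≤ Cfsg.pCore p ↥M₂) (hO : (Cfsg.pCore p ↥M₁).map M₁.subtype ⊔ (Cfsg.pCore p ↥M₂).map M₂.subtype ≤ M₁ ⊓ M₂) : (∃ S : Sylow 2 ↥M₁, ¬ IsMulCommutative (S : Subgroup ↥M₁)) ∨ (∃ S : Sylow 2 ↥M₂, ¬ IsMulCommutative (S : Subgroup ↥M₂)) := by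
  by_contra hn
  push Not at hn
  obtain ⟨h1, h2⟩ := hn
  have c1 : CharP p M₁ := charP_iff.2 hc₁
  have c2 : CharP p M₂ := charP_iff.2 hc₂
  have o1 : pCoreOf p M₁ ≤ M₂ := (le_sup_left.trans hO).trans inf_le_right
  have o2 : pCoreOf p M₂ ≤ M₁ := (le_sup_right.trans hO).trans inf_le_left
  by_cases hp : p = 2
  · subst hp
    have key : ∀ M : Subgroup G, CharP 2 M → (∀ S : Sylow 2 M, IsMulCommutative (S : Subgroup M)) →
        ∀ R : Subgroup G, IsPGroup 2 R → R ≤ M → R ≤ pCoreOf 2 M := fun M hc hS R hR hRM => by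
      obtain ⟨T, hT, hRT⟩ := exists_isSylowIn_le hR hRM
      obtain ⟨P, rfl⟩ := hT.exists_sylow
      haveI := hS P
      have h3 := le_centralizer_iff_isMulCommutative.2
        (inferInstance : IsMulCommutative ((P : Subgroup M).map M.subtype))
      exact hRT.trans ((le_inf hT.le (h3.trans (H69.centralizer_anti hT.pCoreOf_le))).trans hc)
    have e : pCoreOf 2 M₁ = pCoreOf 2 M₂ :=
      le_antisymm (key M₂ c2 h2 _ (isPGroup_pCoreOf 2 M₁) o1) (key M₁ c1 h1 _ (isPGroup_pCoreOf 2 M₂) o2)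
    by_cases h0 : pCoreOf 2 M₁ = ⊥
    · have h3 : ∀ L : Subgroup G, CharP 2 L → pCoreOf 2 L = ⊥ → L = ⊥ := fun L h1 h2 => by
        have h3 : L ⊓ 𝐂(pCoreOf 2 L) ≤ pCoreOf 2 L := h1
        rwa [h2, H69.centralizer_bot, inf_top_eq, le_bot_iff] at h3
      exact hne ((h3 M₁ c1 h0).trans (h3 M₂ c2 (e ▸ h0)).symm)
    · have n1 := le_normalizer_pCoreOf 2 M₁
      have n2 : M₂ ≤ 𝐍(pCoreOf 2 M₁) := e ▸ le_normalizer_pCoreOf 2 M₂
      obtain ⟨h3, h4⟩ := hP _ h0 (le_inf (pCoreOf_le 2 M₁) o1)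
      exact hne (le_antisymm ((le_inf le_rfl n1).trans ((h4 n2).le.trans inf_le_right))
        ((le_inf le_rfl n2).trans ((h3 n1).le.trans inf_le_left)))
  · obtain ⟨S₁⟩ : Nonempty (Sylow 2 M₁) := inferInstance
    obtain ⟨S₂⟩ : Nonempty (Sylow 2 M₂) := inferInstance
    exact not_pp (p := p) ⟨hne, fun A e1 e2 e3 => ((hP A e1 e2).1 e3).le.trans inf_le_left,
      fun A e1 e2 e3 => ((hP A e1 e2).2 e3).le.trans inf_le_right, c1, c2, o1, o2,
      stab_of_abelian hp S₁ (h1 S₁), stab_of_abelian hp S₂ (h2 S₂)⟩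

end Cfsg.Agent.S3753
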