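import Cfsg.Statements.S3754
import Mathlib
import Cfsg.Agent.Base
import Cfsg.Agent.Lib.LocEven.Idx
import Cfsg.Agent.Lib.LocStruct.ResAct
import Cfsg.Agent.Lib.Core.CoprimeAbelian
import Cfsg.Agent.Lib.Comp.PConstrained

set_option autoImplicit false
open Cfsg

namespace Cfsg.Agent.S3754

open Subgroup H69 H70

theorem aux {M : Type*} [Group M] [Finite M] {p : ℕ} [hp : Fact p.Prime] (hM : IsPSolvable p M) (A : Subgroup M)
    (hA : IsPGroup p A) (hΦ : (frattini ↥A).map A.subtype ≤ pCore p M) (hnot : ¬ A ≤ pCore p M) :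
    ∃ x : M, x ∈ 𝐑(p, A ⊔ A ^ᶜ x) ∧
      𝐑(p, A ⊔ A ^ᶜ x) ≤ (pPrimeCore p (M ⧸ pCore p M)).comap (QuotientGroup.mk' (pCore p M)) ∧
      ⁅𝐑(p, A ⊔ A ^ᶜ x), A⁆ = 𝐑(p, A ⊔ A ^ᶜ x) ∧ (A ⊓ pCoreOf p (A ⊔ A ^ᶜ x)).relIndex A = p ∧
      ⁅A ⊓ pCoreOf p (A ⊔ A ^ᶜ x), A ⊔ A ^ᶜ x⁆ ≤ pCore p M := by
  have hC := H23.centralizer_pPrimeCore_le_of_isPSolvable hM (QuotientGroup.mk'_surjective (pCore p M))
    H1.pCore_quotient_pCore
  have hs := QuotientGroup.mk'_surjective (pCore p M)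
  have hk := QuotientGroup.ker_mk' (pCore p M)
  generalize QuotientGroup.mk' (pCore p M) = π at hC hs hk ⊢
  have hF := H1.coprime_card_pPrimeCore (p := p) (G := M ⧸ pCore p M)
  have hFn : ∀ X : Subgroup (M ⧸ pCore p M), X ≤ 𝐍(pPrimeCore p (M ⧸ pCore p M)) := fun X => by
    rw [normalizer_eq_top]; exact le_top
  generalize pPrimeCore p (M ⧸ pCore p M) = F at hC hF hFn ⊢
  obtain ⟨h1, h2⟩ := (H5.map_frattini_le_iff hA).1 hΦ
  have hAp : IsPGroup p (A.map π) := hA.map π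
  have hab : A.map π ≤ 𝐂(A.map π) := by
    refine le_centralizer_of_commutator_eq_bot ?_
    rw [← map_commutator, Subgroup.map_eq_bot_iff]
    exact h1.trans hk.ge
  have hbot : ∀ R : Subgroup (M ⧸ pCore p M), IsPGroup p R → R ≤ F → R = ⊥ := fun R h1 h2 =>
    eq_bot_of_not_dvd h1 h2 (hp.out.coprime_iff_not_dvd.1 hF.symm)
  have h3 : ¬ F ≤ 𝐂(A.map π) := fun h => hnot (((Subgroup.map_eq_bot_iff A).1
    (hbot _ hAp ((le_centralizer_comm.1 h).trans hC))).trans hk.le)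
  have h4 := mt (H2.le_of_forall_cocyclic (M := 𝐂(A.map π)) (le_centralizer_iff_isMulCommutative.1 hab) (hFn _)
    (H2.coprime_card_of_isPGroup hF hAp).symm) h3
  push Not at h4
  obtain ⟨B, hBA, ⟨a, ha, hBa⟩, h4⟩ := h4
  have hAB : A.map π ≤ 𝐂(B) := hab.trans (H69.centralizer_anti hBA)
  have hidx : B.relIndex (A.map π) = p := by
    rw [← hBa]
    refine H5.relIndex_sup_zpowers hp.out (centralizer_le_normalizer _ (hAB ha)) (fun h => h4 ?_) ?_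
    · rw [← hBa, sup_eq_left.2 (zpowers_le.2 h)]
      exact inf_le_right
    · obtain ⟨a, ha, rfl⟩ := ha
      rw [← map_pow, (MonoidHom.mem_ker (f := π)).1 (hk.ge (h2 a ha))]
      exact one_mem _
  have hAC : A.map π ≤ 𝐍(F ⊓ 𝐂(B)) := H69.le_normalizer_inf (hFn _) (hAB.trans le_normalizer)
  have hCF : F ⊓ 𝐂(B) ≤ F := inf_le_left
  have hCB : F ⊓ 𝐂(B) ≤ 𝐂(B) := inf_le_right
  generalize F ⊓ 𝐂(B) = C at h4 hAC hCF hCB
  have hS : IsSylowIn p (A.map π) (A.map π ⊔ C) := ⟨le_sup_left, hAp, fun R h1 h2 h3 => by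
    rw [← inf_eq_right.2 h2, dedekind_right hAC h1, hbot (C ⊓ R) (h3.to_le inf_le_right) (inf_le_left.trans hCF),
      sup_bot_eq]⟩
  have hmap : ∀ K : Subgroup M, K ≤ A ⊔ C.comap π → K.map π ≤ A.map π ⊔ C := fun K h =>
    (map_mono h).trans (by rw [Subgroup.map_sup, map_comap_eq_self_of_surjective hs])
  have hcp : ∀ R : Subgroup (M ⧸ pCore p M), IsPGroup p R → IsPGroup p (R.comap π) := fun R h =>
    h.comap_of_ker_isPGroup π ((H70.isPGroup_pCore p M).to_le hk.le)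
  have hcn : ∀ (K : Subgroup M) (R : Subgroup (M ⧸ pCore p M)), K.map π ≤ 𝐍(R) → K ≤ 𝐍(R.comap π) :=
    fun K R h => (map_le_iff_le_comap.1 h).trans (le_normalizer_comap π)
  have hN : ∀ K : Subgroup M, A ≤ K → K ≤ A ⊔ C.comap π → (A ≤ pCoreOf p K ↔ K.map π ≤ 𝐍(A.map π)) :=
    fun K h1 h2 => ⟨fun h => by
      rw [← hS.max _ (map_mono h) (hmap _ ((pCoreOf_le p K).trans h2)) ((isPGroup_pCoreOf p K).map π)]
      exact map_normalizer_le π (le_normalizer_pCoreOf p K),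
    fun h => (le_inf (le_comap_map π A) h1).trans (inf_le_pCoreOf (hcp _ hAp) (hcn _ _ h))⟩
  obtain ⟨K, ⟨hK1, hK2, hK3⟩, hmin⟩ := exists_minimal_of_wellFoundedLT
    (fun K : Subgroup M => A ≤ K ∧ K ≤ A ⊔ C.comap π ∧ ¬ A ≤ pCoreOf p K) ⟨_, le_sup_left, le_rfl, fun h => h4 (by
      have h5 := (hN _ le_sup_left le_rfl).1 h
      rw [Subgroup.map_sup, map_comap_eq_self_of_surjective hs] at h5
      exact le_centralizer_of_commutator_eq_bot (hbot _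
        (hAp.to_le (commutator_le_right_of_le_normalizer (le_sup_right.trans h5)))
        ((commutator_le_left_of_le_normalizer hAC).trans hCF)))⟩
  have hx : ∃ x ∈ 𝐑(p, K), A ⊔ A ^ᶜ x = K := by
    by_contra hne
    push Not at hne
    refine hK3 ((hN K hK1 hK2).2 ((hS.mono (map_mono hK1) (hmap K hK2)).eq_of_res_le le_normalizer ?_))
    rw [← map_res]
    rintro _ ⟨x, hx, rfl⟩
    have h5 : A ⊔ A ^ᶜ x ≤ K := sup_le hK1 (cj_le_of_mem hK1 (res_le K hx))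
    have h6 : A ≤ pCoreOf p (A ⊔ A ^ᶜ x) := by
      by_contra h6
      exact hne x hx (le_antisymm h5 (hmin ⟨le_sup_left, h5.trans hK2, h6⟩ h5))
    have h7 := (hN _ le_sup_left (h5.trans hK2)).1 h6
    refine mem_normalizer_of_cj_le ?_
    rw [← map_cj]
    exact hS.le_of_le_normalizer' ((isPGroup_cj hA x).map π) (hmap _ ((le_sup_right.trans h5).trans hK2))
      ((map_mono le_sup_right).trans h7)
  obtain ⟨x, hx, e⟩ := hx
  refine ⟨x, ?_⟩
  rw [e]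
  have hKB : K.map π ≤ 𝐂(B) := (hmap K hK2).trans (sup_le hAB hCB)
  have h5 : B.comap π ⊓ A ≤ A ⊓ pCoreOf p K := le_inf inf_le_right ((inf_le_inf_left _ hK1).trans
    (inf_le_pCoreOf (hcp _ (hAp.to_le hBA)) (hcn _ _ (hKB.trans (centralizer_le_normalizer _)))))
  have h6 : (B.comap π ⊓ A).relIndex A = p := by rw [inf_relIndex_right, relIndex_comap, hidx]
  have h7 : A ⊓ pCoreOf p K = B.comap π ⊓ A :=
    (eq_or_eq_of_relIndex_prime hp.out h6 h5 inf_le_left).resolve_right fun h => hK3 (inf_eq_left.1 h)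
  refine ⟨hx, ?_, commutator_res_eq_of_ncl_eq hA hK1 (le_antisymm (ncl_le_self hK1) ?_), h7 ▸ h6, ?_⟩
  · refine (res_mono hK2).trans (le_trans ?_ (comap_mono hCF))
    rw [sup_comm]
    exact res_sup_le hA (hcn _ _ hAC)
  · exact e.ge.trans (sup_le (le_ncl A K) (cj_le_ncl A (res_le K hx)))
  · refine le_trans ?_ hk.le
    rw [h7, ← Subgroup.map_eq_bot_iff, map_commutator]
    exact commutator_eq_bot_of_le_centralizer ((map_le_iff_le_comap.2 inf_le_left).trans (le_centralizer_comm.1 hKB))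


/-- Let M be a finite p-soluble group and A a p-subgroup of M with Φ(A) ≤ O_p(M) but A ≰ O_p(M). Then there is x ∈ O_{p,p'}(M) such that L = ⟨A, xAx⁻¹⟩ satisfies: x ∈ O^p(L) and O^p(L) ≤ O_{p,p'}(M); [O^p(L), A] = O^p(L); A ∩ O_p(L) has index p in A; and [A ∩ O_p(L), L] ≤ O_p(M). Here O^p(L) is the subgroup generated by the p'-elements of L and O_{p,p'}(M) the preimage of O_{p'}(M/O_p(M)). -/
theorem result {M : Type*} [Group M] [Finite M] {p : ℕ} [Fact p.Prime] (hM : Cfsg.IsPSolvable p M) (A : Subgroup M) (hA : IsPGroup p A) (hΦ : (frattini ↥A).map A.subtype ≤ Cfsg.pCore p M) (hnot : ¬ A ≤ Cfsg.pCore p M) : ∃ x ∈ (Cfsg.pPrimeCore p (M ⧸ Cfsg.pCore p M)).comap (QuotientGroup.mk' (Cfsg.pCore p M)), x ∈ (Cfsg.pResidual p ↥(A ⊔ A.map (MulAut.conj x).toMonoidHom)).map (A ⊔ A.map (MulAut.conj x).toMonoidHom).subtype ∧ (Cfsg.pResidual p ↥(A ⊔ A.map (MulAut.conj x).toMonoidHom)).map (A ⊔ A.map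 (MulAut.conj x).toMonoidHom).subtype ≤ (Cfsg.pPrimeCore p (M ⧸ Cfsg.pCore p M)).comap (QuotientGroup.mk' (Cfsg.pCore p M)) ∧ ⁅(Cfsg.pResidual p ↥(A ⊔ A.map (MulAut.conj x).toMonoidHom)).map (A ⊔ A.map (MulAut.conj x).toMonoidHom).subtype, A⁆ = (Cfsg.pResidual p ↥(A ⊔ A.map (MulAut.conj x).toMonoidHom)).map (A ⊔ A.map (MulAut.conj x).toMonoidHom).subtype ∧ (A ⊓ (Cfsg.pCore p ↥(A ⊔ A.map (MulAut.conj x).toMonoidHom)).map (A ⊔ A.map (MulAut.conj x).toMonoidHom).subtype).relIndex A = p ∧ ⁅A ⊓ (Cfsg.pCore p ↥(A ⊔ A.map (MulAut.conj x).toMonoidHom)).map (A ⊔ A.map (MulAut.conj x).toMonoidHom).subtype, A ⊔ A.map (MulAut.conj x).toMonoidHom⁆ ≤ Cfsg.pCore p M := by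
  obtain ⟨x, h1, h2, h3, h4, h5⟩ := aux hM A hA hΦ hnot
  exact ⟨x, h2 h1, h1, h2, h3, h4, h5⟩

end Cfsg.Agent.S3754
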