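import Cfsg.Statements.S3755
import Mathlib
import Cfsg.Agent.Base
import Cfsg.Agent.Lib.LocEven.Off3

set_option autoImplicit false
open Cfsg

namespace Cfsg.Agent.S3755

open Subgroup H69


/-- Let M and V be subgroups of a finite group with V an elementary abelian 2-group, M normalizing V and acting faithfully on it (M ∩ C(V) = 1), and C_M(O_{2'}(M)) ≤ O_{2'}(M). If some elementary abelian 2-subgroup A of M satisfies |V : C_V(A)| < |A|², then M has a section isomorphic to the symmetric group of degree 3. -/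
theorem result {X : Type*} [Group X] [Finite X] (M V : Subgroup X) (hV : Cfsg.IsElementaryAbelian 2 V) (hMV : M ≤ Subgroup.normalizer (V : Set X)) (hfaith : M ⊓ Subgroup.centralizer (V : Set X) = ⊥) (hcon : Subgroup.centralizer (Cfsg.pPrimeCore 2 ↥M : Set ↥M) ≤ Cfsg.pPrimeCore 2 ↥M) (A : Subgroup X) (hAM : A ≤ M) (hA : Cfsg.IsElementaryAbelian 2 A) (hsmall : (V ⊓ Subgroup.centralizer (A : Set X)).relIndex V < Nat.card A ^ 2) : Cfsg.Involves (Equiv.Perm (Fin 3)) ↥M := by
  by_contra hS
  have hC : M ⊓ 𝐂((pPrimeCore 2 M).map M.subtype) ≤ (pPrimeCore 2 M).map M.subtype := by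
    rw [← map_subtype_centralizer]
    exact map_mono hcon
  have hF := H1.coprime_card_map_subtype_pPrimeCore (p := 2) M
  have h := H70.sq_le_of_S3_free hV hMV (map_subtype_le _) hF
    (eq_bot_iff.2 (hfaith ▸ inf_le_inf_right _ (map_subtype_le _))) hS A hAM hA
    (hAM.trans (le_normalizer.trans (H1.normalizer_le_normalizer_map_subtype_pPrimeCore M)))
    (eq_bot_of_not_dvd ((H24.EA.isPGroup hA).to_le inf_le_left) ((inf_le_inf_right _ hAM).trans hC)
      (Nat.prime_two.coprime_iff_not_dvd.1 hF.symm))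
  rw [← H1.card_mul_relIndex_of_le (inf_le_left : V ⊓ 𝐂(A) ≤ V), mul_comm] at h
  exact absurd (Nat.le_of_mul_le_mul_left h Nat.card_pos) hsmall.not_ge

end Cfsg.Agent.S3755
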