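import Mathlib
import Cfsg.Statements.S3760
-- import your own Cfsg.Agent.* helpers here

set_option autoImplicit false
open Cfsg

namespace Cfsg.Agent.S3760

theorem map_conj_eq_of_mem_normalizer {G : Type*} [Group G] (K : Subgroup G) (n : G)
    (hn : n ∈ Subgroup.normalizer (K : Set G)) : K.map (MulAut.conj n).toMonoidHom = K := by
  exact Subgroup.mem_normalizer_iff_map_conj_eq.mp hn


/-- Let the group G act transitively on a set X, let x ∈ X with stabilizer H = G_x, and let K ≤ H. Then N_G(K) acts transitively on the set of fixed points of K if and only if every G-conjugate of K contained in H is already an H-conjugate of K. -/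
theorem result {G : Type*} [Group G] {X : Type*} [MulAction G X] (htrans : ∀ a b : X, ∃ g : G, g • a = b) (x : X) (K : Subgroup G) (hK : K ≤ MulAction.stabilizer G x) : (∀ a b : X, (∀ k ∈ K, k • a = a) → (∀ k ∈ K, k • b = b) → ∃ g ∈ Subgroup.normalizer (K : Set G), g • a = b) ↔ ∀ g : G, K.map (MulAut.conj g).toMonoidHom ≤ MulAction.stabilizer G x → ∃ h ∈ MulAction.stabilizer G x, K.map (MulAut.conj g).toMonoidHom = K.map (MulAut.conj h).toMonoidHom := by
  constructor
  · intro h g hg
    have h1 : ∀ k ∈ K, k • x = x := fun k hk => hK hk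
    have h2 : ∀ k ∈ K, k • (g⁻¹ • x) = g⁻¹ • x := by
      intro k hk
      have : g * k * g⁻¹ ∈ MulAction.stabilizer G x := hg ⟨k, hk, rfl⟩
      rw [MulAction.mem_stabilizer_iff] at this
      calc k • (g⁻¹ • x) = g⁻¹ • ((g * k * g⁻¹) • x) := by
            simp only [← mul_smul]; congr 1; group
        _ = g⁻¹ • x := by rw [this]
    obtain ⟨n, hn, hnx⟩ := h x (g⁻¹ • x) h1 h2
    refine ⟨g * n, ?_, ?_⟩
    · rw [MulAction.mem_stabilizer_iff, mul_smul, hnx, smul_inv_smul]
    · conv_lhs => rw [← map_conj_eq_of_mem_normalizer K n hn]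
      rw [Subgroup.map_map]
      congr 1
      ext y
      simp [mul_assoc]
  · intro h
    have key : ∀ a : X, (∀ k ∈ K, k • a = a) →
        ∃ n ∈ Subgroup.normalizer (K : Set G), n • a = x := by
      intro a ha
      obtain ⟨g, hg⟩ := htrans a x
      have hle : K.map (MulAut.conj g).toMonoidHom ≤ MulAction.stabilizer G x := by
        rintro _ ⟨k, hk, rfl⟩
        rw [MulAction.mem_stabilizer_iff]
        change (g * k * g⁻¹) • x = x
        rw [← hg, mul_smul, inv_smul_smul, mul_smul, ha k hk]
      obtain ⟨h', hh', heq⟩ := h g hle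
      refine ⟨h'⁻¹ * g, ?_, ?_⟩
      · rw [Subgroup.mem_normalizer_iff_map_conj_eq]
        have : K.map (MulAut.conj (h'⁻¹ * g)).toMonoidHom =
            (K.map (MulAut.conj g).toMonoidHom).map (MulAut.conj h'⁻¹).toMonoidHom := by
          rw [Subgroup.map_map]; congr 1; ext y; simp [mul_assoc]
        change K.map (MulAut.conj (h'⁻¹ * g)).toMonoidHom = K
        rw [this, heq, Subgroup.map_map]
        have h3 : (MulAut.conj h'⁻¹).toMonoidHom.comp (MulAut.conj h').toMonoidHom =
            MonoidHom.id G := by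
          ext y; simp [mul_assoc]
        rw [h3, Subgroup.map_id]
      · rw [mul_smul, hg]
        exact (MulAction.stabilizer G x).inv_mem hh'
    intro a b ha hb
    obtain ⟨n, hn, hna⟩ := key a ha
    obtain ⟨m, hm, hmb⟩ := key b hb
    refine ⟨m⁻¹ * n, Subgroup.mul_mem _ (Subgroup.inv_mem _ hm) hn, ?_⟩
    rw [mul_smul, hna, ← hmb, inv_smul_smul]

end Cfsg.Agent.S3760
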