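import Cfsg.Statements.S3764
import Cfsg.Agent.Lib.BG3.Extra25
import Cfsg.Agent.Lib.BG47.Act

set_option autoImplicit false
open Cfsg

namespace Cfsg.Agent.S3764


/-- Let p, q, r be distinct primes and let X, Q, V be subgroups of a finite group with X of order r, Q an extraspecial q-group normalized by X with C_Q(X) = Z(Q), and V an elementary abelian p-group normalized by X and Q on which XQ acts faithfully ((X ⊔ Q) ∩ C(V) = 1). If C_V(X) = 1, then q = 2, r = 2^n + 1 for some n, and Q has order 2^(2n+1). -/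
theorem result {G : Type*} [Group G] [Finite G] {p q r : ℕ} (hp : p.Prime) (hq : q.Prime) (hr : r.Prime) (hpq : p ≠ q) (hpr : p ≠ r) (hqr : q ≠ r) (X Q V : Subgroup G) (hX : Nat.card X = r) (hQ : Cfsg.IsExtraspecial q ↥Q) (hXQ : X ≤ Subgroup.normalizer (Q : Set G)) (hCQ : Q ⊓ Subgroup.centralizer (X : Set G) = (Subgroup.center ↥Q).map Q.subtype) (hV : Cfsg.IsElementaryAbelian p V) (hXV : X ≤ Subgroup.normalizer (V : Set G)) (hQV : Q ≤ Subgroup.normalizer (V : Set G)) (hfaith : (X ⊔ Q) ⊓ Subgroup.centralizer (V : Set G) = ⊥) (hCV : V ⊓ Subgroup.centralizer (X : Set G) = ⊥) : q = 2 ∧ ∃ n : ℕ, r = 2 ^ n + 1 ∧ Nat.card Q = 2 ^ (2 * n + 1) := by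
  have := Fact.mk hq
  have := Fact.mk hr
  obtain ⟨m, hm⟩ := IsPGroup.iff_card.1 hQ.1.1
  have hpQ : ¬ p ∣ Nat.card Q := fun h =>
    hpq ((Nat.prime_dvd_prime_iff_eq hp hq).1 (hp.dvd_of_dvd_pow (hm ▸ h)))
  have hpX : ¬ p ∣ Nat.card X := fun h => hpr ((Nat.prime_dvd_prime_iff_eq hp hr).1 (hX ▸ h))
  have hZ0 : Subgroup.center Q ≠ ⊥ := fun e => hq.one_lt.ne' (by rw [← hQ.2, e, Subgroup.card_bot])
  obtain ⟨d, h1, h2⟩ := H46.bg25_fpf Q X V (hQ.2 ▸ hq) hQ.1.2.2.le (isCyclic_of_prime_card hX)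
    (fun e => hr.one_lt.ne' (by rw [← hX, e, Subgroup.card_bot]))
    (by rw [hX, hm]; exact ((Nat.coprime_primes hr hq).2 hqr.symm).pow_right m) hXQ
    (fun x hx h1 => by
      have := H47.centralizer_eq_of_card_prime (hX ▸ hr) hx h1
      rw [← hCQ, ← this])
    hp hV hpQ hpX hQV hXV
    (fun h => hZ0 (by
      rw [← Subgroup.map_eq_bot_iff_of_injective _ Q.subtype_injective, eq_bot_iff, ← hfaith]
      exact le_inf ((Subgroup.map_subtype_le _).trans le_sup_right) h)) hCV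
  have h3 := (Subgroup.center Q).card_mul_index
  rw [hQ.2, h1] at h3
  have hd1 : d ≠ 1 := by
    rintro rfl
    rw [one_pow, Subgroup.index_eq_one] at h1
    have : IsMulCommutative Q := Subgroup.center_eq_top_iff.1 h1
    exact hZ0 (hQ.1.2.2 ▸ commutator_eq_bot Q)
  obtain ⟨n, -, rfl⟩ := (Nat.dvd_prime_pow hq).1
    ((Dvd.intro _ (sq d).symm).trans (hm ▸ Dvd.intro_left _ h3))
  have h4 := h2.resolve_right hd1
  rw [hX] at h4
  have hq2 : q = 2 := by
    by_contra h2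
    have h5 : Odd (q ^ n) := (hq.odd_of_ne_two h2).pow
    have h6 : r = 2 := (hr.even_iff).1 (h4 ▸ h5.add_one)
    omega
  subst hq2
  exact ⟨rfl, n, h4, by rw [← h3]; ring⟩

end Cfsg.Agent.S3764
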