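import Cfsg.Statements.S3765
import Cfsg.Agent.Lib.BG3.Ambient

set_option autoImplicit false
open Cfsg

namespace Cfsg.Agent.S3765


/-- Let p, q, r be distinct primes and let X, Q, V be subgroups of a finite group with X of order r normalizing the q-group Q and acting faithfully on it (X ∩ C(Q) = 1), and V a nontrivial elementary abelian p-group normalized by X and Q on which XQ acts faithfully. If q = 2 and r has the form 2^n + 1, assume in addition that Q is abelian. Then C_V(X) ≠ 1. -/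
theorem result {G : Type*} [Group G] [Finite G] {p q r : ℕ} (hp : p.Prime) (hq : q.Prime) (hr : r.Prime) (hpq : p ≠ q) (hpr : p ≠ r) (hqr : q ≠ r) (X Q V : Subgroup G) (hX : Nat.card X = r) (hQ : IsPGroup q Q) (hXQ : X ≤ Subgroup.normalizer (Q : Set G)) (hXfaith : X ⊓ Subgroup.centralizer (Q : Set G) = ⊥) (hV : Cfsg.IsElementaryAbelian p V) (hV1 : V ≠ ⊥) (hXV : X ≤ Subgroup.normalizer (V : Set G)) (hQV : Q ≤ Subgroup.normalizer (V : Set G)) (hfaith : (X ⊔ Q) ⊓ Subgroup.centralizer (V : Set G) = ⊥) (hexc : q = 2 → (∃ n : ℕ, r = 2 ^ n + 1) → IsMulCommutative Q) : V ⊓ Subgroup.centralizer (X : Set G) ≠ ⊥ := by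
  intro hCV
  have := Fact.mk hq
  obtain ⟨n, hn⟩ := IsPGroup.iff_card.1 hQ
  have hpQ : ¬ p ∣ Nat.card Q := fun h =>
    hpq ((Nat.prime_dvd_prime_iff_eq hp hq).1 (hp.dvd_of_dvd_pow (hn ▸ h)))
  have hpX : ¬ p ∣ Nat.card X := fun h => hpr ((Nat.prime_dvd_prime_iff_eq hp hr).1 (hX ▸ h))
  have hne : ¬ ⁅X, Q⁆ ≤ Subgroup.centralizer (V : Set G) := by
    intro h
    have h1 : ⁅X, Q⁆ ≤ ⊥ := hfaith ▸ le_inf (Subgroup.commutator_le_sup X Q) h
    rw [le_bot_iff, Subgroup.commutator_eq_bot_iff_le_centralizer] at h1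
    rw [inf_of_le_left h1] at hXfaith
    rw [hXfaith, Subgroup.card_bot] at hX
    exact hr.one_lt.ne hX
  have hsol : Group.IsSolvable Q := by
    have := hQ.isNilpotent
    infer_instance
  obtain ⟨d, hd1, hd2, hd3⟩ := H46.bg34_gen Q X V hsol hXQ (hX ▸ hr)
    (by rw [hn, hX]; exact ((Nat.coprime_primes hq hr).2 hqr).pow_left n) hp hV hpQ hpX hQV hXV
    hCV hne
  rw [hn] at hd3
  obtain ⟨m, -, rfl⟩ := (Nat.dvd_prime_pow hq).1 ((Dvd.intro _ (sq d).symm).trans hd3)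
  rw [hX] at hd2
  have hq2 : q = 2 := by
    by_contra h2
    have h3 : Odd (q ^ m) := (hq.odd_of_ne_two h2).pow
    have h4 : r = 2 := (hr.even_iff).1 (hd2 ▸ h3.add_one)
    omega
  have hab := hexc hq2 ⟨m, hq2 ▸ hd2⟩
  refine hne (H46.bg34_abelian Q X V hXQ (hX ▸ hr) hp hV hpQ hpX hQV hXV ?_ hCV)
  rw [Subgroup.commutator_self_eq_bot_iff.2 hab]
  exact bot_le

end Cfsg.Agent.S3765
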