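import Cfsg.Statements.S3766
import Mathlib
import Cfsg.Agent.Lib.BG.S1a

set_option autoImplicit false
open Cfsg

namespace Cfsg.Agent.S3766

open Subgroup
open scoped Pointwise commutatorElement

/-- Let G be a finite solvable group and N a normal subgroup of G. Call a pair V < U of normal subgroups of G a chief factor of G when no normal subgroup of G lies strictly between them; an element g centralizes the chief factor U/V when u g u⁻¹ g⁻¹ ∈ V for all u ∈ U. Then an element of G lies in the Fitting subgroup F(N) if and only if it lies in N and centralizes every chief factor of G; and also if and only if it lies in N and centralizes every chief factor U/V of G with U ≤ F(N). -/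
theorem result {G : Type*} [Group G] [Finite G] (hG : Group.IsSolvable G) (N : Subgroup G) [N.Normal] (g : G) : (g ∈ (Cfsg.fittingSubgroup ↥N).map N.subtype ↔ g ∈ N ∧ ∀ U V : Subgroup G, (U.Normal ∧ V.Normal ∧ V < U ∧ ∀ W : Subgroup G, W.Normal → V ≤ W → W ≤ U → W = V ∨ W = U) → ∀ u ∈ U, u * g * u⁻¹ * g⁻¹ ∈ V) ∧ (g ∈ (Cfsg.fittingSubgroup ↥N).map N.subtype ↔ g ∈ N ∧ ∀ U V : Subgroup G, (U.Normal ∧ V.Normal ∧ V < U ∧ ∀ W : Subgroup G, W.Normal → V ≤ W → W ≤ U → W = V ∨ W = U) → U ≤ (Cfsg.fittingSubgroup ↥N).map N.subtype → ∀ u ∈ U, u * g * u⁻¹ * g⁻¹ ∈ V) := by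
  have hN : H45.NormalIn N ⊤ := ⟨le_top, le_normalizer_of_normal⟩
  have h1 : g ∈ fittingOf N → ∀ U V : Subgroup G, (U.Normal ∧ V.Normal ∧ V < U ∧
      ∀ W : Subgroup G, W.Normal → V ≤ W → W ≤ U → W = V ∨ W = U) →
      ∀ u ∈ U, u * g * u⁻¹ * g⁻¹ ∈ V := by
    rintro hg U V ⟨hU, hV, hlt, h⟩ u hu
    exact H45.BG.Fitting_stab_chief hN inferInstance ⟨hlt, ⟨le_top, le_normalizer_of_normal⟩,
      ⟨le_top, le_normalizer_of_normal⟩, fun W a b c =>
        h W (normalizer_eq_top_iff.mp (top_le_iff.mp c)) a b⟩ (commutator_mem_commutator hu hg)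
  have h2 : (g ∈ N ∧ ∀ U V : Subgroup G, (U.Normal ∧ V.Normal ∧ V < U ∧
      ∀ W : Subgroup G, W.Normal → V ≤ W → W ≤ U → W = V ∨ W = U) → U ≤ fittingOf N →
      ∀ u ∈ U, u * g * u⁻¹ * g⁻¹ ∈ V) → g ∈ fittingOf N := by
    rintro ⟨hg, h⟩
    refine zpowers_le.mp (H45.BG.chief_stab_sub_Fitting hN inferInstance (zpowers_le.mpr hg) ?_)
    rintro U V ⟨hlt, hV, hU, hm⟩ hUF
    have hVn := normalizer_eq_top_iff.mp (top_le_iff.mp hV.2)
    have hUn := normalizer_eq_top_iff.mp (top_le_iff.mp hU.2)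
    have h3 := h U V ⟨hUn, hVn, hlt, fun W _ a b => hm W a b le_normalizer_of_normal⟩ hUF
    change ⁅U, zpowers g⁆ ≤ V
    rw [commutator_comm, zpowers_eq_closure]
    refine H2.commutator_closure_le (fun x _ => le_normalizer_of_normal (mem_top x)) ?_
    rintro _ rfl u hu
    rw [← commutatorElement_inv]
    exact V.inv_mem (h3 u hu)
  exact ⟨⟨fun hg => ⟨H1.fittingOf_le N hg, h1 hg⟩, fun h => h2 ⟨h.1, fun U V a _ => h.2 U V a⟩⟩,
    ⟨fun hg => ⟨H1.fittingOf_le N hg, fun U V a _ => h1 hg U V a⟩, h2⟩⟩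

end Cfsg.Agent.S3766
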