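import Cfsg.Statements.S3768
import Cfsg.Agent.Lib.BG.S3a
import Cfsg.Agent.Lib.Char.FrobeniusKernel

set_option autoImplicit false
open Cfsg

namespace Cfsg.Agent.S3768


/-- Let G be a finite Frobenius group with Frobenius complement R and Frobenius kernel K (the identity together with the elements in no conjugate of R), and let N be a normal subgroup of G not containing K. Then G/N is a Frobenius group with Frobenius complement RN/N whose Frobenius kernel is the image of K. -/
theorem result {G : Type*} [Group G] [Finite G] (R : Subgroup G) (hR : Cfsg.IsFrobeniusComplement R) (N : Subgroup G) [N.Normal] (hKN : ¬ Cfsg.frobeniusKernel R ⊆ N) : Cfsg.IsFrobeniusComplement (R.map (QuotientGroup.mk' N)) ∧ Cfsg.frobeniusKernel (R.map (QuotientGroup.mk' N)) = QuotientGroup.mk' N '' Cfsg.frobeniusKernel R := by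
  obtain ⟨K, hK, hKn, hc⟩ := H8.frobenius_kernel hR
  rw [← hK] at hKN ⊢
  have hK0 : K ≠ ⊥ := by
    rintro rfl
    exact hR.2.1 (Subgroup.isComplement'_bot_left.1 hc)
  have hs := (H2.isFrobeniusComplement_iff_semiregular hc hK0 hR.1).1 hR
  have hRK : R ≤ Subgroup.normalizer (K : Set G) := Subgroup.le_normalizer_of_normal
  have hNK : N ≤ K := H46.le_of_not_le_of_semiregular hRK hs (hc.sup_eq_top ▸ le_top)
    Subgroup.le_normalizer_of_normal hKN
  have hs' := H2.semiregular_map (QuotientGroup.mk' N) hRK hs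
  have hKn' : (K.map (QuotientGroup.mk' N)).Normal := hKn.map _ (QuotientGroup.mk'_surjective N)
  have hc' : Subgroup.IsComplement' (K.map (QuotientGroup.mk' N)) (R.map (QuotientGroup.mk' N)) := by
    refine Subgroup.isComplement'_of_disjoint_and_mul_eq_univ
      (disjoint_iff.2 (H2.inf_eq_bot_of_semiregular hs')).symm ?_
    rw [← Subgroup.normal_mul, ← Subgroup.map_sup, hc.sup_eq_top,
      Subgroup.map_top_of_surjective _ (QuotientGroup.mk'_surjective N), Subgroup.coe_top]
  have hK1 : K.map (QuotientGroup.mk' N) ≠ ⊥ := by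
    rwa [Ne, Subgroup.map_eq_bot_iff, QuotientGroup.ker_mk']
  have hR1 : R.map (QuotientGroup.mk' N) ≠ ⊥ := by
    rw [Ne, Subgroup.map_eq_bot_iff, QuotientGroup.ker_mk']
    intro h
    exact hR.1 (by rw [← H2.inf_eq_bot_of_semiregular hs, inf_of_le_left (h.trans hNK)])
  have hF := (H2.isFrobeniusComplement_iff_semiregular hc' hK1 hR1).2 hs'
  refine ⟨hF, ?_⟩
  obtain ⟨K', hK', hKn'', hc''⟩ := H8.frobenius_kernel hF
  rw [← hK', ← Subgroup.coe_map, SetLike.coe_set_eq]
  refine (Subgroup.eq_of_le_of_card_ge (fun x hx => ?_) ?_).symm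
  · rw [← SetLike.mem_coe, hK', H8.mem_frobeniusKernel]
    by_cases h1 : x = 1
    · exact Or.inl h1
    · refine Or.inr fun g hg => h1 ?_
      have h2 : g⁻¹ * x * g ∈ R.map (QuotientGroup.mk' N) ⊓ K.map (QuotientGroup.mk' N) :=
        ⟨hg, hKn'.conj_mem' x hx g⟩
      rw [H2.inf_eq_bot_of_semiregular hs', Subgroup.mem_bot] at h2
      exact H2.inv_conj_eq_one_iff.1 h2
  · rw [← hc'.index_eq_card, ← hc''.index_eq_card]

end Cfsg.Agent.S3768
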