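import Mathlib
import Cfsg.Agent.Lib.LargeExtra.Types
import Cfsg.Agent.Lib.Core.Frattini
import Cfsg.Statements.S3772
-- import your own Cfsg.Agent.* helpers here

set_option autoImplicit false
open Cfsg

namespace Cfsg.Agent.S3772


/-- Let G be a finite 2-group whose Frattini subgroup Φ(G) has order 2, with |G : Φ(G)| = 2^d, and let j be the number of elements x of G with x² = 1. Then j = 2^d, or j = 2^d + 2^(d−r) or j = 2^d − 2^(d−r) for some positive integer r with 2r ≤ d. Moreover if d = 2r and j is 2^d + 2^r or 2^d − 2^r, then G is extraspecial. -/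
theorem result {G : Type*} [Group G] [Finite G] (hG : IsPGroup 2 G) (hΦ : Nat.card (frattini G) = 2) (d : ℕ) (hd : (frattini G).index = 2 ^ d) : (Nat.card {x : G // x ^ 2 = 1} = 2 ^ d ∨ ∃ r : ℕ, 1 ≤ r ∧ 2 * r ≤ d ∧ (Nat.card {x : G // x ^ 2 = 1} = 2 ^ d + 2 ^ (d - r) ∨ Nat.card {x : G // x ^ 2 = 1} + 2 ^ (d - r) = 2 ^ d)) ∧ (∀ r : ℕ, d = 2 * r → (Nat.card {x : G // x ^ 2 = 1} = 2 ^ d + 2 ^ r ∨ Nat.card {x : G // x ^ 2 = 1} + 2 ^ r = 2 ^ d) → Cfsg.IsExtraspecial 2 G) := by
  obtain ⟨z, hz1, hz⟩ := (Nat.card_eq_two_iff' (1 : frattini G)).1 hΦ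
  have mem : ∀ x ∈ frattini G, x = 1 ∨ x = z := fun x hx => by
    by_cases h : x = 1
    · exact Or.inl h
    · exact Or.inr (congrArg Subtype.val (hz ⟨x, hx⟩ fun e => h (congrArg Subtype.val e)))
  have h1 : z.1 ≠ 1 := fun e => hz1 (Subtype.ext e)
  have hzz : z.1 * z.1 = 1 := (mem _ (mul_mem z.2 z.2)).resolve_right fun e => h1 (by simpa using e)
  have hc : ∀ x : G, x * z.1 = z.1 * x := fun x => by
    have := (mem _ ((inferInstance : (frattini G).Normal).conj_mem _ z.2 x)).resolve_left
      fun e => h1 (by simpa using e)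
    calc x * z.1 = x * z.1 * x⁻¹ * x := by group
      _ = z.1 * x := by rw [this]
  obtain ⟨V, _, _, ⟨P⟩⟩ := H95.exists_pres h1 hzz hc fun x => mem _ (by
    rw [← pow_two]; exact H1.pow_mem_frattini hG x)
  have := P.finite_space
  have := Fintype.ofFinite V
  have hcard : Nat.card G = 2 ^ (d + 1) := by
    rw [← (frattini G).card_mul_index, hΦ, hd, pow_succ, mul_comm]
  have hV := P.finrank_eq hcard
  have hcV : Nat.card V = 2 ^ d := by
    rw [Module.natCard_eq_pow_finrank (K := ZMod 2) (V := V), Nat.card_zmod, hV]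
  have h0 := P.card_sq_eq_one
  have hq : ∃ x : G, x ^ 2 ≠ 1 := by
    by_contra h
    push Not at h
    have : IsMulCommutative G := ⟨⟨fun a b => by
      rw [P.commute_iff]
      obtain h2 : ∀ v, P.q v = 0 := fun v => by
        obtain ⟨x, rfl⟩ := P.surj v
        rw [← P.sq_eq_one_iff, ← pow_two, h]
      simp [QuadraticMap.polar, h2]⟩⟩
    rw [H1.frattini_eq_bot_of_elementary Nat.prime_two h] at hΦ
    simp at hΦ
  have hlt : Nat.card {x : G // x ^ 2 = 1} < 2 ^ (d + 1) := by
    rw [← hcard]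
    obtain ⟨x, hx⟩ := hq
    exact Finite.card_subtype_lt hx
  have hpos : 0 < Nat.card {x : G // x ^ 2 = 1} := by
    have : Nonempty {x : G // x ^ 2 = 1} := ⟨⟨1, one_pow 2⟩⟩
    exact Nat.card_pos
  have hg := H95.gauss_sq P.q
  rw [hcV] at h0
  rw [hcV, H95.card_submodule] at hg
  have hk : Module.finrank (ZMod 2) (H95.rad P.q) ≤ d := hV ▸ Submodule.finrank_le _
  generalize Nat.card {x : G // x ^ 2 = 1} = j at *
  generalize hkk : Module.finrank (ZMod 2) (H95.rad P.q) = k at *
  generalize H95.gauss P.q = g at *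
  push_cast at h0 hg
  constructor
  · rcases hg with hg | hg
    · left
      rw [hg, add_zero] at h0
      exact_mod_cast h0
    right
    rw [← pow_add] at hg
    have h2 : g.natAbs ^ 2 = 2 ^ (d + k) := by
      zify
      rw [sq_abs, hg]
    obtain ⟨s, -, hs⟩ := (Nat.dvd_prime_pow Nat.prime_two).1 (Dvd.intro _ ((pow_two _).symm.trans h2))
    rw [hs, ← pow_mul] at h2
    have h3 := Nat.pow_right_injective le_rfl h2
    have h4 : g = 2 ^ s ∨ g = -2 ^ s := by
      rcases Int.natAbs_eq g with e | e <;> rw [e, hs] <;> simp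
    have h5 : s ≠ d := by
      rintro rfl
      rcases h4 with e | e <;> rw [e] at h0
      · have : (j : ℤ) < 2 ^ (s + 1) := by exact_mod_cast hlt
        rw [pow_succ] at this
        linarith
      · have : (0 : ℤ) < j := by exact_mod_cast hpos
        linarith
    refine ⟨d - s, by omega, by omega, ?_⟩
    rw [show d - (d - s) = s by omega]
    refine h4.imp (fun e => ?_) fun e => ?_
    · rw [e] at h0; exact_mod_cast h0
    · zify; rw [h0, e]; ring
  · rintro r rfl hj
    have hp : (0 : ℤ) < 2 ^ r := by positivity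
    have h4 : g ^ 2 = 2 ^ (2 * r) ∧ g ≠ 0 := by
      rcases hj with e | e
      · have : g = 2 ^ r := by
          rw [e] at h0; push_cast at h0; linarith
        rw [this, ← pow_mul, mul_comm]
        exact ⟨rfl, hp.ne'⟩
      · have : g = -2 ^ r := by
          zify at e; linarith
        rw [this, neg_sq, ← pow_mul, mul_comm]
        exact ⟨rfl, neg_ne_zero.2 hp.ne'⟩
    have h5 := hg.resolve_left h4.2
    rw [h4.1, ← pow_add] at h5
    have h6 : k = 0 := by
      have := Nat.pow_right_injective (le_refl 2) (show 2 ^ (2 * r) = 2 ^ (2 * r + k) by exact_mod_cast h5)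
      omega
    rw [h6, Submodule.finrank_eq_zero] at hkk
    have : Nontrivial V := by
      obtain ⟨x, hx⟩ := hq
      refine ⟨⟨P.π x, 0, fun e => hx ?_⟩⟩
      rw [pow_two, P.sq_eq_one_iff, e, map_zero]
    refine (P.ES_top fun v hv => ?_).isExtraspecial_top
    have := H95.mem_rad.2 hv
    rwa [hkk] at this


end Cfsg.Agent.S3772
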