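import Cfsg.Statements.S3774
import Mathlib
import Cfsg.Agent.Lib.PGroup.Basic

set_option autoImplicit false
open Cfsg

namespace Cfsg.Agent.S3774

open Subgroup
open scoped Pointwise commutatorElement

/-- Let G be a nontrivial finite 2-group whose automorphism group permutes the involutions of G transitively. Then every involution of G is central, so that the involutions together with 1 form the subgroup Ω₁(Z(G)), and if this subgroup has order q then |G| is a power of q. -/
theorem result {G : Type*} [Group G] [Finite G] [Nontrivial G] (hG : IsPGroup 2 G) (htrans : ∀ x y : G, x ≠ 1 → x ^ 2 = 1 → y ≠ 1 → y ^ 2 = 1 → ∃ a : MulAut G, a x = y) : (∀ x : G, x ^ 2 = 1 → x ∈ Subgroup.center G) ∧ ∃ m : ℕ, Nat.card G = Nat.card {z : G // z ^ 2 = 1} ^ m := by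
  classical
  have h1 : ∀ x : G, x ^ 2 = 1 → x ∈ center G := by
    intro x hx
    by_cases h : x = 1
    · rw [h]; exact one_mem _
    obtain ⟨z, -, hz, hz2⟩ := H5.exists_mem_center_orderOf_eq hG ⊤ top_ne_bot
    obtain ⟨a, rfl⟩ := htrans z x (fun e => by simp [e] at hz2) (hz2 ▸ pow_orderOf_eq_one z) h hx
    rw [mem_center_iff]
    intro g
    obtain ⟨g, rfl⟩ := a.surjective g
    rw [← map_mul, ← map_mul, mem_center_iff.mp hz]
  refine ⟨h1, ?_⟩
  let N : Subgroup G :=
    { carrier := {x | x ^ 2 = 1}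
      mul_mem' := fun {a b} ha hb => by
        rw [Set.mem_ofPred_eq, Commute.mul_pow (mem_center_iff.mp (h1 b hb) a), ha, hb, one_mul]
      one_mem' := one_pow 2
      inv_mem' := fun {a} h => by rw [Set.mem_ofPred_eq, inv_pow, h, inv_one] }
  change ∃ m, _ = Nat.card N ^ m
  obtain ⟨n, hn⟩ := IsPGroup.iff_card.mp (hG.to_subgroup N)
  obtain ⟨k, hk⟩ := IsPGroup.iff_card.mp hG
  have := Fintype.ofFinite G
  let f : G → G := fun x => x ^ (orderOf x / 2)
  let S : Finset G := Finset.univ.erase 1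
  let T : Finset G := (Finset.univ.filter (· ∈ N)).erase 1
  have hf : ∀ x ∈ S, f x ∈ T := by
    intro x hx
    have hx1 : x ≠ 1 := Finset.ne_of_mem_erase hx
    obtain ⟨i, hi⟩ := (IsPGroup.iff_orderOf.mp hG) x
    obtain ⟨j, rfl⟩ := Nat.exists_eq_succ_of_ne_zero (n := i) (by
      rintro rfl; exact hx1 (orderOf_eq_one_iff.mp hi))
    have e : orderOf x / 2 = 2 ^ j := by rw [hi, pow_succ, Nat.mul_div_cancel _ two_pos]
    simp only [T, f, Finset.mem_erase, Finset.mem_filter, Finset.mem_univ, true_and, e]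
    refine ⟨pow_ne_one_of_lt_orderOf (by positivity) (by rw [hi, pow_succ]; have := Nat.two_pow_pos j; omega), ?_⟩
    change (x ^ 2 ^ j) ^ 2 = 1
    rw [← pow_mul, ← pow_succ, ← hi, pow_orderOf_eq_one]
  have hfib : ∀ s ∈ T, ∀ t ∈ T, (S.filter fun x => f x = s).card = (S.filter fun x => f x = t).card := by
    intro s hs t ht
    simp only [T, Finset.mem_erase, Finset.mem_filter, Finset.mem_univ, true_and] at hs ht
    obtain ⟨a, rfl⟩ := htrans s t hs.1 hs.2 ht.1 ht.2
    refine Finset.card_bijective a a.bijective fun x => ?_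
    simp only [S, f, Finset.mem_erase, Finset.mem_filter, Finset.mem_univ, and_true,
      MulEquiv.orderOf_eq, ← map_pow, ne_eq, EmbeddingLike.apply_eq_iff_eq, map_eq_one_iff _ a.injective]
  have hd : T.card ∣ S.card := by
    rw [Finset.card_eq_sum_card_fiberwise hf]
    rcases T.eq_empty_or_nonempty with h | ⟨t, ht⟩
    · simp [h]
    · rw [Finset.sum_congr rfl fun s hs => hfib s hs t ht, Finset.sum_const, smul_eq_mul]
      exact dvd_mul_right _ _
  have hS : S.card = 2 ^ k - 1 := by
    rw [Finset.card_erase_of_mem (Finset.mem_univ _), Finset.card_univ, ← hk, Nat.card_eq_fintype_card]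
  have hT : T.card = 2 ^ n - 1 := by
    rw [Finset.card_erase_of_mem (by simp), ← hn, Nat.card_eq_fintype_card, Fintype.card_subtype]
  rw [hS, hT, ← Nat.gcd_eq_left_iff_dvd, Nat.pow_sub_one_gcd_pow_sub_one] at hd
  have h2 : 2 ^ n.gcd k = 2 ^ n := by
    have := Nat.two_pow_pos n
    have := Nat.two_pow_pos (n.gcd k)
    omega
  obtain ⟨m, rfl⟩ := Nat.gcd_eq_left_iff_dvd.mp (Nat.pow_right_injective le_rfl h2)
  exact ⟨m, by rw [hk, hn, pow_mul]⟩

end Cfsg.Agent.S3774
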