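import Cfsg.Statements.S3775
import Mathlib
import Cfsg.Agent.Lib.FGS.AbelOp

set_option autoImplicit false
open Cfsg

namespace Cfsg.Agent.S3775

open Subgroup
open scoped Pointwise commutatorElement

/-- Let A be a finite abelian p-group and X a group of automorphisms of A of order prime to p. Call a subgroup of A invariant when every element of X maps it onto itself. Then the following are equivalent: (i) A is not the direct product of two nontrivial invariant subgroups; (ii) every invariant subgroup of A is one of the subgroups Ω_i(A) = {a : a^(p^i) = 1}; (iii) the subgroup Ω₁(A) of elements of order dividing p has no invariant subgroups other than 1 and itself. -/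
theorem result {A : Type*} [CommGroup A] [Finite A] {p : ℕ} [Fact p.Prime] (hA : IsPGroup p A) (X : Subgroup (MulAut A)) (hX : (Nat.card X).Coprime p) : ((¬ ∃ B C : Subgroup A, B ≠ ⊥ ∧ C ≠ ⊥ ∧ (∀ x ∈ X, B.map x.toMonoidHom = B) ∧ (∀ x ∈ X, C.map x.toMonoidHom = C) ∧ B ⊓ C = ⊥ ∧ B ⊔ C = ⊤) ↔ (∀ B : Subgroup A, (∀ x ∈ X, B.map x.toMonoidHom = B) → ∃ i : ℕ, ∀ a : A, a ∈ B ↔ a ^ p ^ i = 1)) ∧ ((∀ B : Subgroup A, (∀ x ∈ X, B.map x.toMonoidHom = B) → ∃ i : ℕ, ∀ a : A, a ∈ B ↔ a ^ p ^ i = 1) ↔ (∀ B : Subgroup A, (∀ x ∈ X, B.map x.toMonoidHom = B) → (∀ b ∈ B, b ^ p = 1) → B = ⊥ ∨ ∀ a : A, a ∈ B ↔ a ^ p = 1)) := by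
  have hp := (Fact.out : p.Prime)
  have hI : ∀ B : Subgroup A, (∀ x ∈ X, B.map x.toMonoidHom = B) ↔ H77.OpInv X.subtype B := by
    refine fun B => ⟨fun h x b hb => (h x x.2).le ⟨b, hb, rfl⟩, fun h x hx => ?_⟩
    apply eq_of_le_of_card_ge
    · rintro _ ⟨b, hb, rfl⟩
      exact h ⟨x, hx⟩ b hb
    · exact (card_map_of_injective (MulEquiv.injective x)).ge
  simp only [hI]
  have h23 : (∀ B : Subgroup A, H77.OpInv X.subtype B → ∃ i : ℕ, ∀ a : A, a ∈ B ↔ a ^ p ^ i = 1) →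
      ∀ B : Subgroup A, H77.OpInv X.subtype B → (∀ b ∈ B, b ^ p = 1) →
        B = ⊥ ∨ ∀ a : A, a ∈ B ↔ a ^ p = 1 := by
    intro h B iB hB
    obtain ⟨i, hi⟩ := h B iB
    rcases i with _ | i
    · exact Or.inl (eq_bot_iff.mpr fun a ha => by simpa using (hi a).mp ha)
    · exact Or.inr fun a => ⟨hB a, fun ha => (hi a).mpr (by rw [pow_succ', pow_mul, ha, one_pow])⟩
  have h32 : (∀ B : Subgroup A, H77.OpInv X.subtype B → (∀ b ∈ B, b ^ p = 1) →
        B = ⊥ ∨ ∀ a : A, a ∈ B ↔ a ^ p = 1) →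
      ∀ B : Subgroup A, H77.OpInv X.subtype B → ∃ i : ℕ, ∀ a : A, a ∈ B ↔ a ^ p ^ i = 1 := by
    classical
    intro h
    have k1 : ∀ B : Subgroup A, H77.OpInv X.subtype B → B ≠ ⊥ → ∀ a : A, a ^ p = 1 → a ∈ B := by
      intro B iB h0 a ha
      rcases h _ (iB.inf _ ((H77.opInv_bot _).comap_pow _ p)) (fun b hb => hb.2) with h1 | h1
      · obtain ⟨z, hz, -, hzp⟩ := H5.exists_mem_center_orderOf_eq hA B h0
        have : z ∈ (⊥ : Subgroup A) := h1 ▸ ⟨hz, hzp ▸ pow_orderOf_eq_one z⟩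
        rw [mem_bot.mp this, orderOf_one] at hzp
        exact absurd hzp hp.one_lt.ne
      · exact ((h1 a).mpr ha).1
    have k2 : ∀ (i : ℕ) (B : Subgroup A), H77.OpInv X.subtype B → (∃ b ∈ B, b ^ p ^ i ≠ 1) →
        ∀ a : A, a ^ p ^ (i + 1) = 1 → a ∈ B := by
      intro i
      induction i with
      | zero =>
        rintro B iB ⟨b, hb, hb1⟩ a ha
        exact k1 B iB (fun e => hb1 (by rw [mem_bot.mp (e.le hb), one_pow])) a (by simpa using ha)
      | succ i ih =>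
        rintro B iB ⟨b, hb, hb1⟩ a ha
        obtain ⟨c, hc, e⟩ := ih _ (iB.map_pow _ p) ⟨b ^ p, ⟨b, hb, rfl⟩, by
          rwa [← pow_mul, ← pow_succ']⟩ (a ^ p) (by rwa [← pow_mul, ← pow_succ'])
        have h1 := k1 B iB (fun e => hb1 (by rw [mem_bot.mp (e.le hb), one_pow])) (c⁻¹ * a)
          (by rw [mul_pow, ← e, inv_pow]; exact inv_mul_cancel _)
        exact (B.mul_mem_cancel_left (B.inv_mem hc)).mp h1
    intro B iB
    have hex : ∃ e, ∀ a ∈ B, a ^ p ^ e = 1 := by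
      obtain ⟨k, hk⟩ := IsPGroup.iff_card.mp hA
      exact ⟨k, fun a _ => hk ▸ pow_card_eq_one'⟩
    refine ⟨Nat.find hex, fun a => ⟨Nat.find_spec hex a, fun ha => ?_⟩⟩
    rcases h0 : Nat.find hex with _ | i
    · rw [h0, pow_zero, pow_one] at ha
      rw [ha]; exact one_mem _
    · have h1 := Nat.find_min hex (m := i) (by omega)
      push Not at h1
      exact k2 i B iB h1 a (h0 ▸ ha)
  refine ⟨⟨fun h => h32 fun W iW hW => ?_, fun h => ?_⟩, h23, h32⟩
  · rcases subsingleton_or_nontrivial A with _ | _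
    · exact Or.inl (Subsingleton.elim _ _)
    obtain ⟨B, C, h0, iB, iC, h1, h2, h3⟩ := H77.exists_homocyclic_factor X.subtype hA hX
    have h4 : C = ⊥ := by_contra fun h4 => h ⟨B, C, h0, h4, iB, iC, h1, h2⟩
    rw [h4, sup_bot_eq] at h2
    subst h2
    exact or_iff_not_imp_left.mpr fun h5 a => ⟨hW a, h3 W le_top iW hW h5 a trivial⟩
  · rintro ⟨B, C, b0, c0, iB, iC, h1, -⟩
    obtain ⟨i, hi⟩ := h B iB
    obtain ⟨j, hj⟩ := h C iC
    rcases le_total i j with hij | hij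
    · refine b0 (h1 ▸ (inf_eq_left.mpr fun a ha => (hj a).mpr ?_).symm)
      rw [show j = i + (j - i) by omega, pow_add, pow_mul, (hi a).mp ha, one_pow]
    · refine c0 (h1 ▸ (inf_eq_right.mpr fun a ha => (hi a).mpr ?_).symm)
      rw [show i = j + (i - j) by omega, pow_add, pow_mul, (hj a).mp ha, one_pow]

end Cfsg.Agent.S3775
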