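import Mathlib
import Cfsg.Statements.S3777
import Cfsg.Agent.Lib.PGroup.Basic
import Cfsg.Agent.Lib.Core.Coprime
import Cfsg.Agent.Lib.Core.GrpBasic

set_option autoImplicit false
open Cfsg

namespace Cfsg.Agent.S3777

open Subgroup
open scoped commutatorElement

universe u

section
variable {G : Type u} [Group G] [Finite G] {p : ℕ} [hp : Fact p.Prime]

omit [Finite G] hp in
theorem exists_not_mem {X A B : Subgroup G} (hA : ¬ X ≤ A) (hB : ¬ X ≤ B) :
    ∃ x ∈ X, x ∉ A ∧ x ∉ B := by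
  by_contra h
  push Not at h
  exact (SubgroupClass.subset_union.1 (fun x hx => (em (x ∈ A)).imp_right (h x hx))).elim hA hB

theorem exists_fn (hG : IsPGroup p G) {H : Subgroup G} (h : H ≠ ⊤) :
    ∃ f : G →* Multiplicative (ZMod p), H ≤ f.ker ∧ f.ker ≠ ⊤ := by
  obtain ⟨M, h1, h2, h3, h4⟩ := H5.exists_le_normal_index_eq hG h
  let e : G ⧸ M ≃* Multiplicative (ZMod p) := mulEquivOfPrimeCardEq (p := p) h3 (by simp)
  have : (e.toMonoidHom.comp (QuotientGroup.mk' M)).ker = M := by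
    rw [← MonoidHom.comap_ker, (MonoidHom.ker_eq_bot_iff _).2 e.injective, MonoidHom.comap_bot,
      QuotientGroup.ker_mk']
  exact ⟨_, this.symm ▸ h1, this.symm ▸ h4.1⟩

omit [Finite G] in
theorem index_ker {f : G →* Multiplicative (ZMod p)} (h : f.ker ≠ ⊤) : f.ker.index = p := by
  rw [Subgroup.index_ker]
  have h1 := card_subgroup_dvd_card f.range
  rw [Nat.card_congr Multiplicative.toAdd, Nat.card_zmod] at h1
  refine ((Nat.dvd_prime hp.out).1 h1).resolve_left fun e => h ?_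
  rwa [← index_eq_one, Subgroup.index_ker]

omit [Finite G] hp in
theorem index_cent (C : Subgroup G) (x : C) :
    (centralizer ({x} : Set C)).index = (centralizer ({(x : G)} : Set G)).relIndex C := by
  rw [relIndex]
  congr 1
  ext y
  simp only [mem_subgroupOf, mem_centralizer_singleton_iff, Subtype.ext_iff, coe_mul]

omit hp in
theorem index_cent_le (C : Subgroup G) (x : C) :
    (centralizer ({x} : Set C)).index ≤ (centralizer ({(x : G)} : Set G)).index := by
  rw [index_cent, ← relIndex_top_right]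
  exact relIndex_le_of_le_right le_top (by rw [relIndex_top_right]; exact index_ne_zero_of_finite)

theorem step {C : Subgroup G} [C.Normal] (hC : C.index = p) {a : G} (ha : a ∉ C) :
    ∃ K : Subgroup C, Nat.card (commutator G) ≤ Nat.card (commutator C) * K.index ∧
      K.index ≤ (centralizer ({a} : Set G)).index ∧ ∀ x : C, x ∉ K →
        (centralizer ({x} : Set C)).index * p = (centralizer ({(x : G)} : Set G)).index := by
  have hco := H5.isCoatom_of_index_prime (hC ▸ hp.out)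
  have hm : ∀ x ∈ C, ∀ g, ⁅x, g⁆ ∈ C := fun x hx g =>
    commutator_le_left C ⊤ (commutator_mem_commutator hx (mem_top g))
  let π := QuotientGroup.mk' (⁅C, C⁆ : Subgroup G)
  have hc : ∀ x ∈ C, ∀ y ∈ C, π x * π y = π y * π x := fun x hx y hy => by
    rw [← commutatorElement_eq_one_iff_mul_comm, ← map_commutatorElement]
    exact (QuotientGroup.eq_one_iff _).2 (commutator_mem_commutator hx hy)
  let θ : C →* G ⧸ (⁅C, C⁆ : Subgroup G) := MonoidHom.mk' (fun c => π ⁅(c : G), a⁆) fun c d => by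
    rw [coe_mul, commutatorElement_mul_left_eq_conj_mul, map_mul, map_mul, map_mul,
      hc _ c.2 _ (hm _ d.2 a), map_inv, mul_inv_cancel_right, hc _ (hm _ d.2 a) _ (hm _ c.2 a)]
  have hR : θ.range.comap π ≤ C := by
    rintro x ⟨c, hc⟩
    have := commutator_le_left C C (QuotientGroup.eq.1 hc)
    exact (mul_mem_cancel_left (inv_mem (hm _ c.2 a))).1 this
  have hR0 : ⁅C, C⁆ ≤ θ.range.comap π := by
    conv_lhs => rw [← QuotientGroup.ker_mk' ⁅C, C⁆]
    exact ker_le_comap _ _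
  have top : ∀ {g}, g ∉ C → ∀ {S : Subgroup G}, C ≤ S → g ∈ S → ⊤ ≤ S := fun hg _ h1 h2 =>
    (H5.sup_zpowers_eq_top_of_isCoatom hco hg).ge.trans (sup_le h1 ((zpowers_le).2 h2))
  have hN : ⊤ ≤ normalizer ((θ.range.comap π : Subgroup G) : Set G) := top ha
    (le_normalizer_iff_commutator_le_left.2 ((commutator_mono hR le_rfl).trans hR0)) (by
      refine mem_normalizer_fintype ?_
      rintro x ⟨c, hc⟩
      refine ⟨⟨a * c * a⁻¹, Normal.conj_mem inferInstance _ c.2 a⟩, ?_⟩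
      rw [map_mul, map_mul, ← hc]
      simp [θ, commutatorElement_def, mul_assoc])
  have h1 : ⁅(⊤ : Subgroup G), C⁆ ≤ θ.range.comap π := (H2.le_relCentralizer_iff.1 (top ha
    (H2.le_relCentralizer_iff.2 ⟨le_top.trans hN, hR0⟩) ⟨hN trivial, fun c hc => by
      rw [← commutatorElement_inv]
      exact inv_mem ⟨⟨c, hc⟩, rfl⟩⟩)).2
  have h2 : ∀ g, ⁅a, g⁆ ∈ θ.range.comap π := fun g => by
    have := (top ha (S := H2.relCentralizer (zpowers a) (θ.range.comap π))
      (H2.le_relCentralizer_iff.2 ⟨le_top.trans hN, (commutator_comm _ _).le.trans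
        ((commutator_mono le_top le_rfl).trans h1)⟩) ⟨hN trivial, by
        rintro _ ⟨i, rfl⟩
        rw [commutatorElement_eq_one_iff_commute.2 (Commute.self_zpow a i)]
        exact one_mem _⟩ (mem_top g)).2 a (mem_zpowers a)
    rw [← commutatorElement_inv]
    exact inv_mem this
  have h3 : commutator G ≤ θ.range.comap π := (H2.le_relCentralizer_iff.1 (top ha
    (H2.le_relCentralizer_iff.2 ⟨le_top.trans hN, (commutator_comm _ _).le.trans h1⟩)
    ⟨hN trivial, fun g _ => h2 g⟩)).2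
  refine ⟨θ.ker, (card_le_of_le h3).trans (le_of_eq ?_), ?_, fun x hx => ?_⟩
  · rw [H1.card_comap_mk', mul_comm, Subgroup.index_ker,
      ← card_map_of_injective (K := commutator C) C.subtype_injective, map_subtype_commutator]
  · have : (centralizer ({a} : Set G)).subgroupOf C ≤ θ.ker := fun c hc => by
      have := mem_centralizer_singleton_iff.1 (mem_subgroupOf.1 hc)
      show π _ = 1
      rw [commutatorElement_eq_one_iff_mul_comm.2 this, map_one]
    refine (index_antitone this).trans ?_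
    rw [← relIndex_top_right (centralizer _)]
    exact relIndex_le_of_le_right le_top
      (by rw [relIndex_top_right]; exact index_ne_zero_of_finite)
  · rw [index_cent, ← hC]
    refine relIndex_mul_index fun g hg => by_contra fun h0 => hx ?_
    have := top h0 (S := (centralizer {π x}).comap π)
      (fun c hc' => mem_centralizer_singleton_iff.2 (hc _ hc' _ x.2))
      (mem_centralizer_singleton_iff.2 (by
        rw [← map_mul, mem_centralizer_singleton_iff.1 hg, map_mul])) (mem_top a)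
    show π _ = 1
    rw [map_commutatorElement, commutatorElement_eq_one_iff_mul_comm]
    exact (mem_centralizer_singleton_iff.1 this).symm

omit [Finite G] in
theorem surj {f g : G →* Multiplicative (ZMod p)} (hg : g.ker ≠ ⊤) {v : G} (h1 : v ∈ g.ker)
    (h2 : v ∉ f.ker) (s t : ZMod p) : ∃ x, (f x).toAdd = s ∧ (g x).toAdd = t := by
  have hf : f.ker ≠ ⊤ := fun e => h2 (e ▸ mem_top v)
  obtain ⟨u, hu, hu'⟩ : ∃ u ∈ f.ker, u ∉ g.ker := SetLike.not_le_iff_exists.1 fun e => hg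
    (eq_top_iff.2 ((H5.sup_zpowers_eq_top_of_isCoatom (H5.isCoatom_of_index_prime
      ((index_ker hf).symm ▸ hp.out)) h2).ge.trans (sup_le e ((zpowers_le).2 h1))))
  have e1 : (f v).toAdd ≠ 0 := h2
  have e2 : (g u).toAdd ≠ 0 := hu'
  refine ⟨v ^ (s / (f v).toAdd).val * u ^ (t / (g u).toAdd).val, ?_, ?_⟩
  · rw [map_mul, map_pow, map_pow, (show f u = 1 from hu), one_pow, mul_one, toAdd_pow,
      nsmul_eq_mul, ZMod.natCast_zmod_val, div_mul_cancel₀ _ e1]
  · rw [map_mul, map_pow, map_pow, (show g v = 1 from h1), one_pow, one_mul, toAdd_pow,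
      nsmul_eq_mul, ZMod.natCast_zmod_val, div_mul_cancel₀ _ e2]

omit [Finite G] in
theorem mem_ker' {f : G →* Multiplicative (ZMod p)} {x : G} : x ∈ f.ker ↔ (f x).toAdd = 0 := Iff.rfl

omit [Finite G] in
theorem third {f g : G →* Multiplicative (ZMod p)} (hg : g.ker ≠ ⊤) {v : G} (h1 : v ∈ g.ker)
    (h2 : v ∉ f.ker) : (f * g).ker.index = p ∧ f.ker.subgroupOf (f * g).ker ≠ ⊤ ∧
      (∀ x : (f * g).ker, x ∉ f.ker.subgroupOf (f * g).ker → (x : G) ∉ f.ker ∧ (x : G) ∉ g.ker) ∧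
      ∀ x ∈ g.ker, x ∉ f.ker → x ∉ (f * g).ker := by
  have h3 : ∀ x ∈ g.ker, x ∉ f.ker → x ∉ (f * g).ker := fun x a b c => b (by
    rwa [MonoidHom.mem_ker, MonoidHom.mul_apply, (show g x = 1 from a), mul_one] at c)
  refine ⟨index_ker fun e => h3 v h1 h2 (e ▸ mem_top v), fun e => ?_,
    fun x hx => ⟨hx, fun e => h3 x e hx x.2⟩, h3⟩
  obtain ⟨x, a, b⟩ := surj hg h1 h2 1 (-1)
  have := subgroupOf_eq_top.1 e (show x ∈ (f * g).ker by
    rw [mem_ker', MonoidHom.mul_apply, toAdd_mul, a, b, add_neg_cancel])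
  rw [mem_ker', a] at this
  exact one_ne_zero this

end

/-- Triangular numbers. -/
def tri : ℕ → ℕ
  | 0 => 0
  | b + 1 => tri b + (b + 1)

theorem tri_eq (b : ℕ) : tri b = b * (b + 1) / 2 := by
  have : ∀ b, 2 * tri b = b * (b + 1) := fun b => by
    induction b with
    | zero => rfl
    | succ b ih => rw [tri, mul_add, ih]; ring
  rw [← this]; omega

/-- The inductive statement. -/
def Good (p : ℕ) (G : Type u) [Group G] : Prop := ∀ (b : ℕ) (A B : Subgroup G), A ≠ ⊤ → B ≠ ⊤ →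
  (p ≠ 2 ∨ B ≤ A ∨ ¬ IsCoatom B) →
  (∀ x, x ∉ A → x ∉ B → (centralizer ({x} : Set G)).index ≤ p ^ b) →
  Nat.card (commutator G) ≤ p ^ tri b

section
variable {G : Type u} [Group G] [Finite G] {p : ℕ} [hp : Fact p.Prime]

omit [Finite G] in
theorem drop {C : Subgroup G} {L K : Subgroup C} (hL : L ≠ ⊤) (hK : K ≠ ⊤) {b : ℕ}
    (h1 : ∀ x : C, x ∉ L → (centralizer ({(x : G)} : Set G)).index ≤ p ^ b)
    (h0 : ∀ x : G, (centralizer ({x} : Set G)).index ≠ 0)
    (h2 : ∀ x : C, x ∉ K →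
      (centralizer ({x} : Set C)).index * p = (centralizer ({(x : G)} : Set G)).index) :
    ∃ c, b = c + 1 ∧ ∀ x : C, x ∉ L → x ∉ K → (centralizer ({x} : Set C)).index ≤ p ^ c := by
  obtain rfl | c := b
  · obtain ⟨x, -, a, b⟩ := exists_not_mem (fun e => hL (eq_top_iff.2 e))
      (fun e => hK (eq_top_iff.2 e))
    have := Nat.le_of_dvd (Nat.pos_of_ne_zero (h0 x)) (Dvd.intro_left _ (h2 x b))
    exact absurd (this.trans (h1 x a)) (by simpa using hp.out.one_lt)
  · exact ⟨c, rfl, fun x a b => Nat.le_of_mul_le_mul_right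
      ((h2 x b).le.trans ((h1 x a).trans (pow_succ p c).le)) hp.out.pos⟩

theorem special (hG : IsPGroup p G) (h2 : p = 2) (h0 : Good p G)
    (ih : ∀ D : Subgroup G, D ≠ ⊤ → Good p D) {L K : Subgroup G} (hL : L ≠ ⊤) (hK : K ≠ ⊤) {b : ℕ}
    (h1 : ∀ x, x ∉ L → (centralizer ({x} : Set G)).index ≤ p ^ (b + 1))
    (h3 : ∀ x, x ∉ L → x ∉ K → (centralizer ({x} : Set G)).index ≤ p ^ b) :
    Nat.card (commutator G) * p ≤ p ^ tri (b + 1) := by
  have hp1 := hp.out.pos
  obtain ⟨f, f1, f2⟩ := exists_fn hG hL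
  obtain ⟨g, g1, g2⟩ := exists_fn hG hK
  have e : ∀ c, c ≤ p ^ (tri b + b) → c * p ≤ p ^ tri (b + 1) := fun c hc => by
    rw [tri, ← add_assoc, pow_succ]; exact Nat.mul_le_mul_right _ hc
  apply e
  by_cases hKf : K ≤ f.ker
  · exact (h0 b _ _ f2 f2 (Or.inr (Or.inl le_rfl)) fun x a _ => h3 x (fun e => a (f1 e))
      fun e => a (hKf e)).trans (Nat.pow_le_pow_right hp1 (by omega))
  obtain ⟨v, v1, v2⟩ := SetLike.not_le_iff_exists.1 hKf
  obtain ⟨t1, t2, t3, t4⟩ := third g2 (g1 v1) v2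
  have hD := ih (f * g).ker fun e => t4 v (g1 v1) v2 (e ▸ mem_top v)
  obtain ⟨M, m1, m2, m3⟩ := step t1 (t4 v (g1 v1) v2)
  have h4 := fun x a => h3 _ (fun e => (t3 x a).1 (f1 e)) fun e => (t3 x a).2 (g1 e)
  have h5 := hD b _ _ t2 t2 (Or.inr (Or.inl le_rfl)) fun x a _ => (index_cent_le _ x).trans (h4 x a)
  by_cases hM : M = ⊤
  · rw [hM, index_top, mul_one] at m1
    exact m1.trans (h5.trans (Nat.pow_le_pow_right hp1 (by omega)))
  obtain ⟨c, rfl, h6⟩ := drop t2 hM h4 (fun _ => index_ne_zero_of_finite) m3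
  refine m1.trans ?_
  by_cases hM' : IsCoatom M
  · rw [H5.index_of_isCoatom (hG.to_subgroup _) hM']
    refine (Nat.mul_le_mul_right _ h5).trans ?_
    rw [← pow_succ]
    exact Nat.pow_le_pow_right hp1 (by omega)
  · refine (Nat.mul_le_mul (hD c _ _ t2 hM (Or.inr (Or.inr hM')) h6)
      (m2.trans (h1 v fun e => v2 (f1 e)))).trans ?_
    rw [← pow_add, tri]
    exact Nat.pow_le_pow_right hp1 (by omega)

theorem config (hG : IsPGroup p G) (hna : commutator G ≠ ⊥) {A B : Subgroup G} (hA : A ≠ ⊤)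
    (hB : B ≠ ⊤) (h : p ≠ 2 ∨ B ≤ A ∨ ¬ IsCoatom B) : ∃ (C : Subgroup G) (_ : C.Normal)
      (L : Subgroup C) (a : G), C.index = p ∧ L ≠ ⊤ ∧ a ∉ C ∧ a ∉ A ∧ a ∉ B ∧
      ∀ x : C, x ∉ L → (x : G) ∉ A ∧ (x : G) ∉ B := by
  obtain ⟨f, f1, f2⟩ := exists_fn hG hA
  by_cases hBf : B ≤ f.ker
  · obtain ⟨u, -, hu⟩ := SetLike.not_le_iff_exists.1 fun e => f2 (eq_top_iff.2 e)
    obtain ⟨g, g1, g2⟩ := exists_fn hG (H := zpowers u) fun e => hna (by
      haveI : IsCyclic G := ⟨⟨u, fun x => (e.ge (mem_top x) :)⟩⟩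
      exact (commutator_eq_bot_iff G).2 inferInstance)
    obtain ⟨a, -, a1, a2⟩ := exists_not_mem (fun e => f2 (eq_top_iff.2 e))
      (fun e => g2 (eq_top_iff.2 e))
    exact ⟨g.ker, inferInstance, f.ker.subgroupOf _, a, index_ker g2,
      fun e => hu (subgroupOf_eq_top.1 e (g1 (mem_zpowers u))), a2, fun e => a1 (f1 e),
      fun e => a1 (hBf e), fun x hx => ⟨fun e => hx (f1 e), fun e => hx (hBf e)⟩⟩
  obtain ⟨g, g1, g2⟩ := exists_fn hG hB
  obtain ⟨v, v1, v2⟩ := SetLike.not_le_iff_exists.1 hBf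
  obtain ⟨t1, t2, t3, t4⟩ := third g2 (g1 v1) v2
  suffices ∃ a, a ∉ (f * g).ker ∧ a ∉ f.ker ∧ a ∉ B by
    obtain ⟨a, a1, a2, a3⟩ := this
    exact ⟨_, inferInstance, _, a, t1, t2, a1, fun e => a2 (f1 e), a3, fun x hx =>
      ⟨fun e => (t3 x hx).1 (f1 e), fun e => (t3 x hx).2 (g1 e)⟩⟩
  rcases h with h | h | h
  · obtain ⟨a, a1, a2⟩ := surj g2 (g1 v1) v2 1 1
    refine ⟨a, fun e => h ?_, fun e => one_ne_zero (a1.symm.trans e),
      fun e => one_ne_zero (a2.symm.trans (g1 e))⟩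
    rw [mem_ker', MonoidHom.mul_apply, toAdd_mul, a1, a2, one_add_one_eq_two] at e
    exact (Nat.prime_dvd_prime_iff_eq hp.out Nat.prime_two).1
      ((ZMod.natCast_eq_zero_iff 2 p).1 (by exact_mod_cast e))
  · exact (hBf (h.trans f1)).elim
  · obtain ⟨a, a0, a1, a2⟩ := exists_not_mem (X := g.ker) (fun e => v2 (e (g1 v1))) fun e => h
      (le_antisymm e g1 ▸ H5.isCoatom_of_index_prime ((index_ker g2).symm ▸ hp.out))
    exact ⟨a, t4 a a0 a1, a1, a2⟩

end

theorem good {p : ℕ} [hp : Fact p.Prime] (n : ℕ) : ∀ (G : Type u) [Group G] [Finite G],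
    IsPGroup p G → Nat.card G < n → Good p G := by
  induction n with
  | zero => exact fun _ _ _ _ h => absurd h (Nat.not_lt_zero _)
  | succ n ih =>
    intro G _ _ hG hn b A B hA hB h hb
    by_cases hna : commutator G = ⊥
    · rw [hna, card_bot]; exact Nat.one_le_pow _ _ hp.out.pos
    obtain ⟨C, _, L, a, c1, c2, c3, c4, c5, c6⟩ := config hG hna hA hB h
    have hlt := H1.card_lt_of_ne_top (H := C) fun e => c3 (e ▸ mem_top a)
    have hC := ih C (hG.to_subgroup C) (by omega)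
    obtain ⟨K, k1, k2, k3⟩ := step c1 c3
    have h4 := fun x a => hb _ (c6 x a).1 (c6 x a).2
    have h5 := fun x a => (index_cent_le C x).trans (h4 x a)
    by_cases hK : K = ⊤
    · rw [hK, index_top, mul_one] at k1
      exact k1.trans (hC b _ _ c2 c2 (Or.inr (Or.inl le_rfl)) fun x a _ => h5 x a)
    obtain ⟨c, rfl, h6⟩ := drop c2 hK h4 (fun _ => index_ne_zero_of_finite) k3
    refine k1.trans ?_
    by_cases hc : p ≠ 2 ∨ K ≤ L ∨ ¬ IsCoatom K
    · refine (Nat.mul_le_mul (hC c _ _ c2 hK hc h6) (k2.trans (hb a c4 c5))).trans ?_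
      rw [← pow_add, tri]
    push Not at hc
    rw [H5.index_of_isCoatom (hG.to_subgroup _) hc.2.2]
    exact special (hG.to_subgroup C) hc.1 hC (fun D hD => ih D ((hG.to_subgroup C).to_subgroup D)
      (by have := H1.card_lt_of_ne_top hD; omega)) c2 hK h5 h6


/-- Vaughan-Lee's Theorem: if G is a finite p-group in which every conjugacy class has at most p^b elements (every element has centralizer of index at most p^b), then the derived subgroup of G has order at most p^(b(b+1)/2). -/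
theorem result {G : Type*} [Group G] [Finite G] {p : ℕ} [Fact p.Prime] (hG : IsPGroup p G) (b : ℕ) (hb : ∀ x : G, (Subgroup.centralizer ({x} : Set G)).index ≤ p ^ b) : Nat.card (commutator G) ≤ p ^ (b * (b + 1) / 2) := by
  rcases subsingleton_or_nontrivial G with h | h
  · rw [Subsingleton.elim (commutator G) ⊥, card_bot]; exact Nat.one_le_pow _ _ (Fact.out : p.Prime).pos
  rw [← tri_eq]
  exact good _ G hG (Nat.lt_succ_self _) b ⊥ ⊥ bot_ne_top bot_ne_top (Or.inr (Or.inl le_rfl))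
    fun x _ _ => hb x

end Cfsg.Agent.S3777
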