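import Cfsg.Statements.S3778
import Mathlib
import Cfsg.Agent.Lib.PGroup.Basic
import Cfsg.Agent.Lib.Core.GrpBasic

set_option autoImplicit false
open Cfsg

namespace Cfsg.Agent.S3778

open Subgroup
open scoped commutatorElement

variable {G : Type*} [Group G]

/-- The elements acting trivially on the `i`-th factor modulo the next but one term. -/
def D (G : Type*) [Group G] (i : ℕ) : Subgroup G where
  carrier := {x | ∀ y ∈ (⊤ : Subgroup G).lowerCentralSeries i, ⁅y, x⁆ ∈ (⊤ : Subgroup G).lowerCentralSeries (i + 2)}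
  one_mem' := fun y _ => by simp
  mul_mem' := fun {a b} ha hb y hy => by
    have : ⁅y, a * b⁆ = ⁅y, a⁆ * (a * ⁅y, b⁆ * a⁻¹) := by
      simp only [commutatorElement_def]; group
    rw [this]
    exact mul_mem (ha y hy) (Normal.conj_mem inferInstance _ (hb y hy) a)
  inv_mem' := fun {a} ha y hy => by
    have : ⁅y, a⁻¹⁆ = a⁻¹ * ⁅y, a⁆⁻¹ * a⁻¹⁻¹ := by
      simp only [commutatorElement_def]; group
    rw [this]
    exact Normal.conj_mem inferInstance _ (inv_mem (ha y hy)) _

theorem D_ne_top [Group.IsNilpotent G] {i : ℕ} (h : i + 1 < Group.nilpotencyClass G) : D G i ≠ ⊤ := by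
  intro e
  have hne : (⊤ : Subgroup G).lowerCentralSeries (i + 1) ≠ ⊥ := fun e' =>
    absurd (Subgroup.lowerCentralSeries_eq_bot_iff_nilpotencyClass_le.1 e') (not_le.2 h)
  have hlt := H5.commutator_top_lt_of_nilpotent _ hne
  refine hlt.not_ge (commutator_le.2 fun y hy x _ => ?_)
  have : x ∈ D G i := e ▸ mem_top x
  exact this y hy

theorem step [Finite G] {p : ℕ} [hp : Fact p.Prime] (hG : IsPGroup p G) (x : G) (i : ℕ) :
    ∃ m, (centralizer ({x} : Set G)).relIndex ((⊤ : Subgroup G).lowerCentralSeries i) =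
      m * (centralizer ({x} : Set G)).relIndex ((⊤ : Subgroup G).lowerCentralSeries (i + 1)) ∧ 1 ≤ m ∧
      (x ∉ D G i → p ≤ m) := by
  set C := centralizer ({x} : Set G)
  set A := (⊤ : Subgroup G).lowerCentralSeries i
  set B := (⊤ : Subgroup G).lowerCentralSeries (i + 1)
  have hBA : B ≤ A := Subgroup.lowerCentralSeries_antitone _ (Nat.le_succ i)
  have hK : (C ⊓ A) ⊔ B ≤ A := sup_le inf_le_right hBA
  have h1 := H1.card_inf_mul_relIndex C A
  have h2 := H1.card_inf_mul_relIndex C B
  have h3 := H1.card_sup_mul_card_inf_of_normal (C ⊓ A) B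
  have h4 := H1.card_mul_relIndex_of_le hK
  rw [inf_assoc, inf_of_le_right hBA] at h3
  refine ⟨((C ⊓ A) ⊔ B).relIndex A, ?_, Nat.one_le_iff_ne_zero.2 FiniteIndex.index_ne_zero, fun hx => ?_⟩
  · have p1 : 0 < Nat.card (C ⊓ A : Subgroup G) * Nat.card (C ⊓ B : Subgroup G) :=
      Nat.mul_pos Nat.card_pos Nat.card_pos
    apply Nat.eq_of_mul_eq_mul_left p1
    calc _ = Nat.card A * Nat.card (C ⊓ B : Subgroup G) := by rw [← h1]; ring
      _ = Nat.card ((C ⊓ A) ⊔ B : Subgroup G) * Nat.card (C ⊓ B : Subgroup G) * ((C ⊓ A) ⊔ B).relIndex A := by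
        rw [← h4]; ring
      _ = _ := by rw [h3, ← h2]; ring
  · obtain ⟨n, hn⟩ := (hG.to_subgroup A).index (((C ⊓ A) ⊔ B).subgroupOf A)
    rw [relIndex, hn]
    refine Nat.le_self_pow (fun e => hx ?_) p
    rw [e, pow_zero, index_eq_one, subgroupOf_eq_top] at hn
    intro y hy
    obtain ⟨c, hc, w, hw, rfl⟩ := mem_sup_of_normal_right.1 (hn hy)
    rw [commutatorElement_mul_left_eq_conj_mul, commutatorElement_eq_one_iff_mul_comm.2
      (mem_centralizer_singleton_iff.1 hc.1), mul_one]
    exact Normal.conj_mem inferInstance _ (commutator_mem_commutator hw (mem_top x)) c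

open Classical in
theorem count_le [Finite G] {p : ℕ} [hp : Fact p.Prime] (hG : IsPGroup p G) (x : G) (k : ℕ) :
    p ^ ((Finset.range k).filter fun i => x ∉ D G i).card *
      (centralizer ({x} : Set G)).relIndex ((⊤ : Subgroup G).lowerCentralSeries k) ≤
      (centralizer ({x} : Set G)).index := by
  induction k with
  | zero => simp
  | succ k ih =>
    obtain ⟨m, hm, h1, h2⟩ := step hG x k
    refine le_trans ?_ ih
    rw [hm, Finset.range_add_one, Finset.filter_insert, ← mul_assoc]
    refine Nat.mul_le_mul_right _ ?_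
    split_ifs with h
    · exact Nat.le_mul_of_pos_right _ h1
    · rw [Finset.card_insert_of_notMem (by simp), pow_succ]
      exact Nat.mul_le_mul_left _ (h2 h)

/-- If G is a finite p-group in which every conjugacy class has at most p^b elements (every element has centralizer of index at most p^b), then G is abelian when b = 0, and when b ≥ 1 its nilpotency class c satisfies (c − 1)(p − 1) < bp, that is c < bp/(p − 1) + 1, and hence c ≤ 2b. -/
theorem result {G : Type*} [Group G] [Finite G] {p : ℕ} [Fact p.Prime] (hG : IsPGroup p G) (b : ℕ) (hb : ∀ x : G, (Subgroup.centralizer ({x} : Set G)).index ≤ p ^ b) : ∃ c : ℕ, (⊤ : Subgroup G).lowerCentralSeries c = ⊥ ∧ (b ≠ 0 → (c - 1) * (p - 1) < b * p ∧ c ≤ 2 * b) ∧ (b = 0 → c ≤ 1) := by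
  classical
  have hp : p.Prime := Fact.out
  haveI := hG.isNilpotent
  haveI := Fintype.ofFinite G
  refine ⟨Group.nilpotencyClass G, Subgroup.lowerCentralSeries_nilpotencyClass, fun hb0 => ?_, fun hb0 => ?_⟩
  · set c := Group.nilpotencyClass G with hc
    have h1 : ∀ x : G, ((Finset.range (c - 1)).filter fun i => x ∉ D G i).card ≤ b := fun x => by
      have := count_le hG x (c - 1)
      refine (Nat.pow_le_pow_iff_right hp.one_lt).1 (le_trans (le_trans ?_ this) (hb x))
      exact Nat.le_mul_of_pos_right _ (Nat.pos_of_ne_zero FiniteIndex.index_ne_zero)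
    have h2 : ∑ x : G, ((Finset.range (c - 1)).filter fun i => x ∉ D G i).card < ∑ _x : G, b := by
      refine Finset.sum_lt_sum (fun x _ => h1 x) ⟨1, Finset.mem_univ _, ?_⟩
      rw [Finset.filter_false_of_mem (fun i _ h => h (one_mem _))]
      exact Nat.pos_of_ne_zero hb0
    simp only [Finset.card_filter] at h2
    rw [Finset.sum_comm] at h2
    have h3 : ∀ i ∈ Finset.range (c - 1),
        (p - 1) * Fintype.card G ≤ p * ∑ x : G, if x ∉ D G i then 1 else 0 := fun i hi => by
      have hi' := Finset.mem_range.1 hi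
      have hne := D_ne_top (G := G) (i := i) (by omega)
      obtain ⟨n, hn⟩ := hG.index (D G i)
      have hn0 : n ≠ 0 := fun e => hne (index_eq_one.1 (by rw [hn, e, pow_zero]))
      have h4 : p * Nat.card (D G i) ≤ Fintype.card G := by
        rw [← Nat.card_eq_fintype_card, ← index_mul_card (D G i), hn]
        exact Nat.mul_le_mul_right _ (Nat.le_self_pow hn0 p)
      have h5 : (∑ x : G, if x ∉ D G i then 1 else 0) + Nat.card (D G i) = Fintype.card G := by
        rw [← Finset.card_filter, Nat.card_eq_fintype_card, Fintype.card_subtype, add_comm]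
        exact Finset.card_filter_add_card_filter_not _
      obtain ⟨q, rfl⟩ : ∃ q, p = q + 1 := ⟨p - 1, by have := hp.pos; omega⟩
      rw [Nat.add_sub_cancel]
      nlinarith
    have h6 := Finset.sum_le_sum h3
    rw [Finset.sum_const, Finset.card_range, smul_eq_mul, ← Finset.mul_sum] at h6
    rw [Finset.sum_const, Finset.card_univ, smul_eq_mul] at h2
    have h7 : (c - 1) * (p - 1) < b * p := by
      have h8 := Nat.mul_lt_mul_of_pos_left h2 hp.pos
      apply Nat.lt_of_mul_lt_mul_right (a := Fintype.card G)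
      nlinarith
    refine ⟨h7, ?_⟩
    obtain ⟨q, rfl⟩ : ∃ q, p = q + 2 := ⟨p - 2, by have := hp.two_le; omega⟩
    by_contra h9
    obtain ⟨d, hd⟩ : ∃ d, c - 1 = 2 * b + d := ⟨c - 1 - 2 * b, by omega⟩
    rw [hd, show q + 2 - 1 = q + 1 from rfl] at h7
    nlinarith
  · subst hb0
    rw [Group.IsNilpotent.nilpotencyClass_le_one_iff]
    refine ⟨⟨fun x y => ?_⟩⟩
    have := hb y
    have h0 : (centralizer ({y} : Set G)).index ≠ 0 := FiniteIndex.index_ne_zero
    have h1 : (centralizer ({y} : Set G)).index = 1 := by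
      rw [pow_zero] at this
      omega
    rw [index_eq_one] at h1
    exact mem_centralizer_singleton_iff.1 (h1 ▸ mem_top x)

end Cfsg.Agent.S3778
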