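import Mathlib
import Cfsg.Statements.S3780
import Cfsg.Agent.Lib.FGS83.Alp

set_option autoImplicit false
open Cfsg

namespace Cfsg.Agent.S3780

open H83
/-- Let V be a finite abelian p-group and α an automorphism of V of order p whose fixed-point subgroup has order p^n. Then V can be generated by pn elements: some subset of V with at most pn elements generates V. -/
theorem result {V : Type*} [CommGroup V] [Finite V] {p : ℕ} [Fact p.Prime] (hV : IsPGroup p V) (α : MulAut V) (hα : orderOf α = p) (n : ℕ) (hfix : Nat.card {v : V // α v = v} = p ^ n) : ∃ S : Finset V, S.card ≤ p * n ∧ Subgroup.closure (S : Set V) = ⊤ := by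

  classical
  have hp := (inferInstance : Fact p.Prime).out
  have h1 := card_torsion_le (α : V →* V) hp (fun w => by
    change (⇑α)^[p] w = w
    rw [mulAut_iterate, ← hα, pow_orderOf_eq_one]; rfl)
  obtain ⟨d, hd⟩ := hV.index (frattini V)
  let _ := Fintype.ofFinite V
  obtain ⟨T, -, h2, h3⟩ := H1.exists_subset_card_eq_closure_eq_top hV hd Finset.univ (by simp)
  refine ⟨T, ?_, h3⟩
  have h4 : (powMonoidHom p : V →* V).range ≤ frattini V := by
    rintro _ ⟨x, rfl⟩
    exact H1.pow_mem_frattini hV x
  have h5 : (powMonoidHom p : V →* V).range.index = Nat.card {w : V // w ^ p = 1} :=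
    Subgroup.index_range
  have h6 := Nat.le_of_dvd (Nat.pos_of_ne_zero Subgroup.index_ne_zero_of_finite)
    (Subgroup.index_dvd_of_le h4)
  rw [hd, h5] at h6
  have h7 : p ^ d ≤ (p ^ n) ^ p := hfix ▸ h6.trans h1
  rw [← pow_mul, Nat.pow_le_pow_iff_right hp.one_lt] at h7
  rw [h2, mul_comm]
  exact h7

end Cfsg.Agent.S3780
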