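import Cfsg.Statements.S3785
import Mathlib
import Cfsg.Agent.Lib.FGS.BenderPair
import Cfsg.Agent.Lib.Core.CoprimeSylow
import Cfsg.Agent.Lib.Tech58.Small

set_option autoImplicit false
open Cfsg

namespace Cfsg.Agent.S3785

open Subgroup
open scoped Pointwise commutatorElement

/-- Let G be a finite solvable group whose Fitting subgroup F(G) has odd order. If an element g of G commutes with every element of prime order of F(G), then g ∈ F(G). -/
theorem result {G : Type*} [Group G] [Finite G] (hG : Group.IsSolvable G) (hodd : Odd (Nat.card (Cfsg.fittingSubgroup G))) (g : G) (hg : ∀ x ∈ Cfsg.fittingSubgroup G, (orderOf x).Prime → g * x = x * g) : g ∈ Cfsg.fittingSubgroup G := by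
  let C : Subgroup G := centralizer {x | x ∈ fittingSubgroup G ∧ (orderOf x).Prime}
  have hCn : C.Normal := ⟨fun c hc a y hy => by
    have h1 := hc (a⁻¹ * y * a) ⟨(H1.fitting_normal).conj_mem' y hy.1 a, by
      have : a⁻¹ * y * a = MulAut.conj a⁻¹ y := by simp
      rw [this, MulEquiv.orderOf_eq]; exact hy.2⟩
    calc y * (a * c * a⁻¹) = a * (a⁻¹ * y * a * c) * a⁻¹ := by group
      _ = a * c * a⁻¹ * y := by rw [h1]; group⟩
  have hcent : ∀ (p q : ℕ) [Fact p.Prime] [Fact q.Prime], p ≠ q → ∀ Q : Subgroup G,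
      IsPGroup q Q → Q ≤ C → Q ≤ centralizer (pCore p G : Set G) := by
    intro p q hp hq hpq Q hQ hQC
    rw [le_centralizer_iff]
    obtain ⟨k, hk⟩ := IsPGroup.iff_card.mp hQ
    refine H58.le_centralizer_of_small H1.isPGroup_pCore le_normalizer_of_normal
      (hk ▸ Nat.Coprime.pow_left _ ((Nat.coprime_primes hq.out hp.out).mpr hpq.symm)) ?_
    intro d hd h
    have hdF := H1.pCore_le_fitting p hd
    by_cases h1 : d = 1
    · rw [h1]; exact one_mem _
    rcases h with h | ⟨-, h⟩
    · exact fun y hy => (hQC hy d ⟨hdF, orderOf_eq_prime h h1 ▸ hp.out⟩).symm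
    · exfalso
      apply h1
      rw [← orderOf_eq_one_iff]
      exact Nat.eq_one_of_dvd_coprimes (Nat.Coprime.pow_right 2 (Nat.coprime_two_right.mpr hodd))
        (H1.orderOf_dvd_card_of_mem hdF) (orderOf_dvd_of_pow_eq_one h)
  have hFC : fittingOf C = fittingSubgroup G ⊓ C := H1.map_subtype_fitting_eq C
  suffices C ≤ fittingSubgroup G from this fun x hx => (hg x hx.1 hx.2).symm
  refine H2.le_of_forall_sylowIn_le fun q hq => ?_
  have := Fact.mk hq
  obtain ⟨Q, hQ⟩ := H68.exists_sylowIn q C
  refine ⟨Q, hQ, ?_⟩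
  have hW : Q ⊔ fittingOf C ≤ normalizer (Q : Set G) := by
    refine sup_le le_normalizer ?_
    rw [H1.fittingOf_eq_iSup_pCoreOf]
    refine iSup_le fun s => ?_
    have := Fact.mk s.2
    by_cases h : (s : ℕ) = q
    · rw [h]
      exact (hQ.le_of_le_normalizer (H1.isPGroup_pCoreOf C) (H1.pCoreOf_le C)
        (hQ.le.trans (H1.le_normalizer_pCoreOf C))).trans le_normalizer
    · rw [H1.pCoreOf_eq_inf]
      exact inf_le_left.trans ((le_centralizer_iff.mp (hcent s q h Q hQ.isPGroup hQ.le)).trans
        (centralizer_le_normalizer _))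
  have hWC : Q ⊔ fittingOf C ≤ C := sup_le hQ.le (H1.fittingOf_le C)
  have hWQ : pCoreOf q (Q ⊔ fittingOf C) = Q := le_antisymm
    (hQ.le_of_le_normalizer (H1.isPGroup_pCoreOf _) ((H1.pCoreOf_le _).trans hWC)
      (le_sup_left.trans (H1.le_normalizer_pCoreOf _)))
    (H1.le_pCoreOf le_sup_left hW hQ.isPGroup)
  have hN : C ≤ normalizer (Q : Set G) := by
    refine H2.le_of_forall_sylowIn_le fun r hr => ?_
    have := Fact.mk hr
    by_cases h : r = q
    · subst h; exact ⟨Q, hQ, le_normalizer⟩
    obtain ⟨R, hR⟩ := H68.exists_sylowIn r C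
    refine ⟨R, hR, ?_⟩
    have h1 : ⁅Q, R⁆ ≤ fittingOf C := by
      rw [hFC]
      refine le_inf (le_trans ?_ H1.centralizer_fitting_le)
        ((commutator_mono hQ.le hR.le).trans (commutator_le_left _ _))
      rw [H1.fitting_eq_iSup_pCore, H23.le_centralizer_iSup_iff]
      intro s
      have := Fact.mk s.2
      by_cases hs : (s : ℕ) = q
      · exact (commutator_mono le_top (hcent s r (hs ▸ Ne.symm h) R hR.isPGroup hR.le)).trans
          (commutator_le_right _ _)
      · exact (commutator_mono (hcent s q hs Q hQ.isPGroup hQ.le) le_top).trans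
          (commutator_le_left _ _)
    rw [← hWQ]
    refine le_trans ?_ (H1.normalizer_le_normalizer_pCoreOf _)
    set W := Q ⊔ fittingOf C
    have h4 : ⁅W, R⁆ ≤ W := H2.commutator_sup_le (le_sup_left.trans le_normalizer)
      (le_sup_right.trans le_normalizer) (h1.trans le_sup_right)
      ((H2.commutator_le_of_le_normalizer (hR.le.trans (H1.le_normalizer_fittingOf C))).trans
        le_sup_right)
    intro a ha
    apply mem_normalizer_fintype
    intro w hw
    have h5 := W.mul_mem (W.inv_mem (h4 (commutator_mem_commutator hw ha))) hw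
    have h6 : ⁅w, a⁆⁻¹ * w = a * w * a⁻¹ := by rw [commutatorElement_def]; group
    exact h6 ▸ h5
  exact ((H1.le_pCoreOf hQ.le hN hQ.isPGroup).trans (H1.pCoreOf_le_fittingOf q C)).trans
    (hFC.le.trans inf_le_left)

end Cfsg.Agent.S3785
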