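import Mathlib
import Cfsg.Statements.S3787
import Cfsg.Agent.Lib.FGS.HHGroup
import Cfsg.Agent.Lib.KInf.Transport
-- import your own Cfsg.Agent.* helpers here

set_option autoImplicit false
open Cfsg

namespace Cfsg.Agent.S3787

open H76 H46 Subgroup Polynomial Module
open scoped commutatorElement

theorem geom_eq {p : ℕ} [hp : Fact p.Prime] {R : Type*} [Ring R] [Algebra (ZMod p) R] (u : R) :
    ∑ i ∈ Finset.range p, u ^ i = (u - 1) ^ (p - 1) := by
  have h : (∑ i ∈ Finset.range p, (X : (ZMod p)[X]) ^ i) = (X - 1) ^ (p - 1) := by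
    have h0 : (X - 1 : (ZMod p)[X]) ≠ 0 := by simpa using X_sub_one_pow_ne_zero (F := ZMod p) 1
    refine mul_right_cancel₀ h0 ?_
    rw [geom_sum_mul, ← pow_succ, Nat.sub_add_cancel hp.out.one_le, sub_pow_char, one_pow]
  rw [← aeval_geom_poly (F := ZMod p), h]
  simp

theorem involves_sylow {G G' : Type*} [Group G] [Finite G] [Group G'] {p : ℕ} [Fact p.Prime]
    {f : G →* G'} (hf : Function.Surjective f) (P : Sylow p G) {Q : Subgroup G'}
    (hQ : IsPGroup p Q) : Involves Q (P : Subgroup G) := by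
  obtain ⟨S, hS⟩ := exists_isPGroup_le_map hf hQ
  have h1 : Involves Q ((S : Subgroup G).map f) :=
    H57.involves_trans (H57.involves_of_equiv (subgroupOfEquivOfLe hS)) (H57.involves_subgroup _)
  have h2 : Involves ((S : Subgroup G).map f) (S : Subgroup G) :=
    H57.involves_of_surjective ⊤ ((f.subgroupMap S).comp (Subgroup.subtype ⊤)) fun y => by
      obtain ⟨x, rfl⟩ := f.subgroupMap_surjective S y
      exact ⟨⟨x, trivial⟩, rfl⟩
  exact H57.involves_trans h1 (H57.involves_trans h2 (H57.involves_of_equiv (P.equiv S)))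

theorem surj {F E : Type*} [Field F] [AddCommGroup E] [Module F E] {m : ℕ} (n : End F E)
    (hn : n ^ (m + 1) = 0) (φ : E →ₗ[F] F) (v : E) (hv : φ ((n ^ m) v) = 1) :
    Function.Surjective (LinearMap.pi fun i : Fin (m + 1) => φ ∘ₗ (n ^ (i : ℕ))) := by
  set Φ := LinearMap.pi fun i : Fin (m + 1) => φ ∘ₗ (n ^ (i : ℕ))
  have key : ∀ k, k ≤ m + 1 → ∀ y : Fin (m + 1) → F, (∀ i : Fin (m + 1), k ≤ i → y i = 0) →
      y ∈ LinearMap.range Φ := by
    intro k
    induction k with
    | zero =>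
      intro _ y hy
      rw [show y = 0 from funext fun i => hy i (Nat.zero_le _)]
      exact zero_mem _
    | succ k ih =>
      intro hk y hy
      have := ih (by omega) (y - y ⟨k, hk⟩ • Φ ((n ^ (m - k)) v)) fun i hi => by
        simp only [Φ, Pi.sub_apply, Pi.smul_apply, LinearMap.pi_apply, LinearMap.comp_apply,
          ← End.mul_apply, ← pow_add, smul_eq_mul]
        rcases eq_or_lt_of_le hi with h | h
        · obtain rfl : i = ⟨k, hk⟩ := Fin.ext h.symm
          simp only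
          rw [show k + (m - k) = m by omega, hv, mul_one, sub_self]
        · rw [hy i h, pow_eq_zero_of_le (by omega) hn]
          simp
      simpa using add_mem this
        (Submodule.smul_mem _ (y ⟨k, hk⟩) (LinearMap.mem_range_self Φ ((n ^ (m - k)) v)))
  intro y
  exact key _ le_rfl y fun i hi => absurd i.2 (by omega)

theorem wreath {H : Type} [Group H] [Finite H] {p : ℕ} [hp : Fact p.Prime] (V : Subgroup H)
    [hN : V.Normal] (hV : IsMulCommutative V ∧ ∀ x : V, x ^ p = 1) {x : H} (hx : x ^ p ∈ V)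
    (hne : (conjRep V hV x - 1) ^ (p - 1) ≠ 0) :
    ∃ (W : Type) (_ : Group W) (_ : Finite W), (∃ (B : Subgroup W) (t : W), B.Normal ∧
      IsMulCommutative B ∧ (∀ b ∈ B, b ^ p = 1) ∧ Nat.card B = p ^ p ∧ orderOf t = p ∧ t ∉ B ∧
      Nat.card W = p ^ (p + 1) ∧
      Nat.card ↥(B ⊓ Subgroup.centralizer ({t} : Set W)) = p) ∧
      ∃ T : Subgroup H, IsPGroup p T ∧ Involves W T := by
  obtain ⟨m, rfl⟩ : ∃ m, p = m + 1 := ⟨p - 1, (Nat.sub_add_cancel hp.out.one_le).symm⟩
  have hm : m ≠ 0 := by rintro rfl; exact hp.out.one_lt.ne' rfl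
  have hVC : ∀ v ∈ V, conjRep V hV v = 1 := fun v hv => (conjRep_eq_one_iff V hV).2 fun w hw =>
    congrArg Subtype.val (hV.1.is_comm.comm (⟨w, hw⟩ : V) ⟨v, hv⟩)
  rw [Nat.add_sub_cancel] at hne
  set n := conjRep V hV x - 1 with hndef
  obtain ⟨v₁, hv₁⟩ : ∃ v, (n ^ m) v ≠ 0 := by
    by_contra! h
    exact hne (LinearMap.ext h)
  have : Nontrivial (EA (m + 1) V hV) := ⟨_, _, hv₁⟩
  have : CharP (End (ZMod (m + 1)) (EA (m + 1) V hV)) (m + 1) :=
    charP_of_injective_algebraMap (algebraMap (ZMod (m + 1)) _).injective _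
  have hn : n ^ (m + 1) = 0 := by
    rw [hndef, sub_pow_char_of_commute _ (Commute.one_right _), ← map_pow, hVC _ hx, one_pow,
      sub_self]
  obtain ⟨φ, hφ⟩ : ∃ φ : EA (m + 1) V hV →ₗ[ZMod (m + 1)] ZMod (m + 1), φ ((n ^ m) v₁) = 1 := by
    obtain ⟨φ, hφ⟩ : ∃ φ : Dual (ZMod (m + 1)) (EA (m + 1) V hV), φ ((n ^ m) v₁) ≠ 0 := by
      by_contra! h
      exact hv₁ ((Module.forall_dual_apply_eq_zero_iff _ _).1 h)
    exact ⟨(φ ((n ^ m) v₁))⁻¹ • φ, by simp [inv_mul_cancel₀ hφ]⟩
  have hsurj := surj n hn φ v₁ hφ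
  set Φ := LinearMap.pi fun i : Fin (m + 1) => φ ∘ₗ (n ^ (i : ℕ)) with hΦ
  have hΦ' : ∀ w i, Φ w i = φ ((n ^ (i : ℕ)) w) := fun _ _ => rfl
  let Ψ : V →* Multiplicative (Fin (m + 1) → ZMod (m + 1)) :=
    { toFun := fun v => Multiplicative.ofAdd (Φ (EA.of hV v))
      map_one' := by simp
      map_mul' := fun a b => by simp }
  have hΨ : ∀ v, Ψ v = 1 ↔ Φ (EA.of hV v) = 0 := fun v => Iff.rfl
  have hΨs : Function.Surjective Ψ := fun y => by
    obtain ⟨w, hw⟩ := hsurj y.toAdd
    obtain ⟨w, rfl⟩ := (EA.of hV).surjective w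
    exact ⟨w, congrArg Multiplicative.ofAdd hw⟩
  -- the modified element
  obtain ⟨v, hv⟩ := (EA.of hV).surjective (-(φ (EA.of hV ⟨_, hx⟩)) • v₁)
  obtain ⟨w, hw1, hw2⟩ := exists_mul_pow_eq V hV x v (m + 1)
  rw [geom_eq, Nat.add_sub_cancel, ← hndef] at hw2
  set y := (v : H) * x with hy
  have hρy : conjRep V hV y = n + 1 := by rw [hy, map_mul, hVC _ v.2, one_mul, hndef, sub_add_cancel]
  have hyV : y ^ (m + 1) ∈ V := hw1 ▸ mul_mem w.2 hx
  have hyp : Φ (EA.of hV ⟨_, hyV⟩) = 0 := by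
    have h1 : (⟨_, hyV⟩ : V) = w * ⟨_, hx⟩ := Subtype.ext hw1
    have h2 : n (EA.of hV ⟨_, hx⟩) = 0 := by
      rw [hndef, LinearMap.sub_apply, conjRep_of, End.one_apply, sub_eq_zero]
      congr 1
      ext
      simp [(Commute.self_pow x (m + 1)).eq]
    funext i
    rw [hΦ', h1, EA.of_mul, hw2, hv]
    rcases i with ⟨_ | i, hi⟩
    · simp [hφ]
    · simp only [map_add, ← End.mul_apply, ← pow_add]
      rw [pow_eq_zero_of_le (by omega) hn, pow_succ n, End.mul_apply, h2]
      simp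
  have hΦn : ∀ w, Φ (n w) = 0 ↔ ∀ i : Fin (m + 1), i ≠ 0 → Φ w i = 0 := by
    intro w
    constructor
    · rintro h ⟨_ | i, hi⟩ h0
      · exact absurd rfl h0
      · have := congrFun h ⟨i, by omega⟩
        rw [hΦ'] at this ⊢
        rwa [pow_succ, End.mul_apply]
    · intro h
      funext i
      rw [hΦ', ← End.mul_apply, ← pow_succ]
      rcases eq_or_lt_of_le (Nat.lt_succ_iff.1 i.2) with h1 | h1
      · rw [h1, hn]; simp
      · exact h ⟨i + 1, by omega⟩ (by simp)
  let T := V ⊔ zpowers y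
  let U := Ψ.ker.map V.subtype
  have hU : ∀ v : V, (v : H) ∈ U ↔ Φ (EA.of hV v) = 0 := fun v => by
    rw [← hΨ, ← MonoidHom.mem_ker]
    exact mem_map_iff_mem V.subtype_injective
  have hUV : U ≤ V := map_subtype_le _
  have hTU : T ≤ normalizer (U : Set H) := by
    refine sup_le (fun g hg => ?_) ?_
    · refine mem_normalizer_fintype fun a ha => ?_
      have := congrArg Subtype.val (hV.1.is_comm.comm (⟨g, hg⟩ : V) ⟨a, hUV ha⟩)
      simp only [MulMemClass.mk_mul_mk] at this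
      rwa [this, mul_inv_cancel_right]
    · rw [zpowers_le]
      refine mem_normalizer_fintype fun a ha => ?_
      have ha' := (hU ⟨a, hUV ha⟩).1 ha
      refine (hU ⟨_, hN.conj_mem _ (hUV ha) y⟩).2 ?_
      rw [← conjRep_of V hV y ⟨a, hUV ha⟩, hρy, LinearMap.add_apply, map_add, End.one_apply, ha',
        add_zero, hΦn, ha']
      simp
  have hUn : (U.subgroupOf T).Normal := normal_subgroupOf_of_le_normalizer hTU
  let π := QuotientGroup.mk' (U.subgroupOf T)
  let ψ : V →* T ⧸ U.subgroupOf T := π.comp (inclusion le_sup_left)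
  have hψ : ψ.ker = Ψ.ker := by
    ext a
    rw [MonoidHom.mem_ker, MonoidHom.mem_ker, hΨ, ← hU]
    exact QuotientGroup.eq_one_iff _
  have hcard : ∀ C : Subgroup V, Nat.card (C.map ψ) = Nat.card (C.map Ψ) := fun C => by
    rw [← relIndex_ker, ← relIndex_ker, hψ]
  let t : T ⧸ U.subgroupOf T := π ⟨y, mem_sup_right (mem_zpowers y)⟩
  have hB : ψ.range = (V.subgroupOf T).map π := by
    rw [MonoidHom.range_comp, inclusion_range]
  have hBn : ψ.range.Normal := hB ▸ Normal.map inferInstance _ (QuotientGroup.mk'_surjective _)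
  have hBc : Nat.card ψ.range = (m + 1) ^ (m + 1) := by
    rw [MonoidHom.range_eq_map, hcard, ← MonoidHom.range_eq_map, MonoidHom.range_eq_top.2 hΨs]
    simp
  have htB : t ∉ ψ.range := by
    rintro ⟨a, ha⟩
    have h1 : (a : H)⁻¹ * y ∈ U := mem_subgroupOf.1 (QuotientGroup.eq.1 ha)
    have h2 : y ∈ V := by simpa using mul_mem a.2 (hUV h1)
    have h3 := hVC _ h2
    rw [hρy, add_eq_right] at h3
    exact hne (by rw [h3, zero_pow hm])
  have ht : orderOf t = m + 1 := by
    refine orderOf_eq_prime ?_ fun h => htB (h ▸ one_mem _)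
    rw [← map_pow]
    exact (QuotientGroup.eq_one_iff _).2 ((hU ⟨_, hyV⟩).2 hyp)
  have hcompl : ψ.range.IsComplement' (zpowers t) := by
    refine isComplement'_of_disjoint_and_mul_eq_univ ?_ ?_
    · have : Fact (Nat.card (zpowers t)).Prime := by rw [Nat.card_zpowers, ht]; exact hp
      rcases (ψ.range.subgroupOf (zpowers t)).eq_bot_or_eq_top_of_prime_card with h | h
      · exact subgroupOf_eq_bot.1 h
      · exact absurd (subgroupOf_eq_top.1 h (mem_zpowers t)) htB
    · rw [← normal_mul, coe_eq_univ, hB, ← MonoidHom.map_zpowers, ← Subgroup.map_sup]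
      have : V.subgroupOf T ⊔ zpowers ⟨y, mem_sup_right (mem_zpowers y)⟩ = ⊤ := by
        apply map_injective T.subtype_injective
        rw [Subgroup.map_sup, subgroupOf_map_subtype, MonoidHom.map_zpowers,
          inf_eq_left.2 le_sup_left, ← MonoidHom.range_eq_map, range_subtype]
        rfl
      rw [this]
      exact map_top_of_surjective _ (QuotientGroup.mk'_surjective _)
  refine ⟨T ⧸ U.subgroupOf T, inferInstance, inferInstance, ⟨ψ.range, t, hBn, ?_, ?_, hBc, ht, htB,
    ?_, ?_⟩, T, ?_, H57.involves_quotient _⟩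
  · refine ⟨⟨?_⟩⟩
    rintro ⟨_, a, rfl⟩ ⟨_, b, rfl⟩
    refine Subtype.ext ?_
    change ψ a * ψ b = ψ b * ψ a
    rw [← map_mul, ← map_mul, hV.1.is_comm.comm a b]
  · rintro _ ⟨a, rfl⟩
    rw [← map_pow, hV.2, map_one]
  · rw [← hcompl.card_mul_card, hBc, Nat.card_zpowers, ht, ← pow_succ]
  · let D : Subgroup (Multiplicative (Fin (m + 1) → ZMod (m + 1))) :=
      zpowers (Multiplicative.ofAdd (Pi.single 0 1))
    have hD : ∀ z, z ∈ D ↔ ∀ i, i ≠ 0 → z.toAdd i = 0 := by
      intro z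
      constructor
      · rintro ⟨k, rfl⟩ i hi
        simp [hi]
      · intro h
        refine ⟨(z.toAdd 0).val, ?_⟩
        apply Multiplicative.toAdd.injective
        funext i
        by_cases hi : i = 0
        · subst hi; simp
        · simp [hi, h i hi]
    have h1 : ψ.range ⊓ centralizer {t} = (D.comap Ψ).map ψ := by
      ext z
      have key : ∀ a : V, ψ a ∈ centralizer {t} ↔ a ∈ D.comap Ψ := by
        intro a
        rw [mem_comap, hD, mem_centralizer_singleton_iff, eq_comm, ← mul_inv_eq_iff_eq_mul,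
          ← mul_inv_eq_one]
        refine Iff.trans ?_ (hΦn (EA.of hV a))
        have h3 : n (EA.of hV a) = EA.of hV (⟨_, hN.conj_mem _ a.2 y⟩ * a⁻¹) := by
          rw [EA.of_mul, EA.of_inv, ← conjRep_of, hρy]
          simp
        rw [h3, ← hU]
        exact QuotientGroup.eq_one_iff (N := U.subgroupOf T) (⟨y, mem_sup_right (mem_zpowers y)⟩ *
          inclusion le_sup_left a * ⟨y, mem_sup_right (mem_zpowers y)⟩⁻¹ * (inclusion le_sup_left a)⁻¹)
      constructor
      · rintro ⟨⟨a, rfl⟩, h⟩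
        exact ⟨a, (key a).1 h, rfl⟩
      · rintro ⟨a, h, rfl⟩
        exact ⟨⟨a, rfl⟩, (key a).2 h⟩
    rw [h1, hcard, map_comap_eq_self_of_surjective hΨs, Nat.card_zpowers]
    refine orderOf_eq_prime ?_ ?_
    · apply Multiplicative.toAdd.injective
      funext i
      simp
    · intro h
      simpa using congrFun (congrArg Multiplicative.toAdd h) 0
  · refine IsPGroup.to_sup_of_normal_left (H3.isPGroup_of_pow_eq_one fun a ha => ?_) ?_
    · exact congrArg Subtype.val (hV.2 ⟨a, ha⟩)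
    · refine isPGroup_zpowers_of_pow_eq_one (n := 2) ?_
      rw [sq, pow_mul]
      exact congrArg Subtype.val (hV.2 ⟨_, hyV⟩)


/-- Let G be a finite p-soluble group, p an odd prime not of the form 2^k + 1, and suppose the wreath product C_p ≀ C_p (of order p^(p+1)) is not involved in a Sylow p-subgroup of G: no section of a Sylow p-subgroup is isomorphic to it. Then G has p-length at most 1. -/
theorem result {G : Type*} [Group G] [Finite G] {p : ℕ} [Fact p.Prime] (hp2 : p ≠ 2) (hnf : (¬ ∃ k : ℕ, p = 2 ^ k + 1)) (hG : Cfsg.IsPSolvable p G) (P : Sylow p G) (hwr : ∀ (W : Type) [Group W] [Finite W], (∃ (B : Subgroup W) (t : W), B.Normal ∧ IsMulCommutative B ∧ (∀ b ∈ B, b ^ p = 1) ∧ Nat.card B = p ^ p ∧ orderOf t = p ∧ t ∉ B ∧ Nat.card W = p ^ (p + 1) ∧ Nat.card ↥(B ⊓ Subgroup.centralizer ({t} : Set W)) = p) → ¬ Cfsg.Involves W ↥(P : Subgroup G)) : Cfsg.PLengthLE p 1 G := by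
  obtain ⟨G₀, _, _, ⟨e⟩⟩ := Finite.exists_type_univ_nonempty_mulEquiv.{_, 0} G
  rw [pLengthLE_congr e]
  obtain ⟨H, _, _, f, V, _, hf, hV1, hV2, hV, hk, hs1, hs2, hO⟩ :=
    exists_reduced' (isPSolvable_of_surjective hG (f := (e : G →* G₀)) e.surjective)
  have hker : ((QuotientGroup.mk' V).comp f).ker = pPrimePCore p G₀ := by
    rw [← hV2, ← MonoidHom.comap_ker, QuotientGroup.ker_mk']
  refine pLengthLE_succ_of_ker_le ((QuotientGroup.mk' V).comp f) hker.le ?_
  rw [pLengthLE_zero_iff, Nat.coprime_comm, Nat.Prime.coprime_iff_not_dvd Fact.out]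
  intro hd
  obtain ⟨z, hz⟩ := exists_prime_orderOf_dvd_card' p hd
  obtain ⟨x, rfl⟩ := QuotientGroup.mk'_surjective V z
  have hx : x ^ p ∈ V := by
    rw [← QuotientGroup.eq_one_iff, ← hz]
    exact pow_orderOf_eq_one (QuotientGroup.mk' V x)
  have hne : (conjRep V hV x - 1) ^ (p - 1) ≠ 0 := by
    intro h
    rcases hh_elemAb_commutator V hV (QuotientGroup.mk'_surjective V) hk hs2 hO (n := 0)
      (by simpa using hz) ((conjRep_sub_one_pow_eq_zero_iff V hV).1 h) with h1 | h1
    · have := (Fact.out : p.Prime).pos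
      simp at h1
      omega
    · exact hnf (h1.two_pow hp2).1
  obtain ⟨W, _, _, hW, T, hT, hWT⟩ := wreath V hV hx hne
  exact hwr W hW (H57.involves_trans hWT
    (involves_sylow (f := f.comp (e : G →* G₀)) (hf.comp e.surjective) P hT))

end Cfsg.Agent.S3787
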