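import Mathlib
import Cfsg.Statements.S3788
import Cfsg.Agent.Lib.FGS.Reduced
import Cfsg.Agent.Lib.KInf.Transport
import Cfsg.Agent.Lib.Thompson.SFour
-- import your own Cfsg.Agent.* helpers here

set_option autoImplicit false
open Cfsg

namespace Cfsg.Agent.S3788

open H76 H46 Subgroup Module
open scoped commutatorElement

theorem zmod_two : ∀ x : ZMod 2, x = 0 ∨ x = 1 := by decide

theorem neg_of_rel {R : Type*} [Ring R] {n m : R} (hn : n * n = 0) (hm : m * m = 0)
    (h1 : n * m * n = -n) :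
    ((n + 1) * (m + 1)) ^ 3 * n = -n ∧ n * ((n + 1) * (m + 1)) ^ 3 = -n := by
  have e1 : (n + 1) * (m + 1) * n = m * n := by
    rw [mul_assoc, add_mul m, one_mul, add_mul, mul_add, ← mul_assoc, h1, hn, one_mul]; abel
  have e2 : (n + 1) * (m + 1) * (m * n) = m * n - n := by
    rw [mul_assoc, add_mul m, ← mul_assoc m, hm, zero_mul, zero_add, one_mul, add_mul,
      ← mul_assoc, h1, one_mul]; abel
  have f1 : n * ((n + 1) * (m + 1)) = n * m + n := by
    rw [← mul_assoc, mul_add n n, hn, zero_add, mul_one, mul_add, mul_one]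
  have f2 : n * m * ((n + 1) * (m + 1)) = -n := by
    rw [← mul_assoc, mul_add (n * m), h1, mul_one, mul_add, mul_one, add_mul, mul_assoc n m m, hm,
      neg_mul, mul_zero]; abel
  set u := (n + 1) * (m + 1)
  constructor
  · rw [pow_succ, mul_assoc, e1, pow_two, mul_assoc, e2, mul_sub, e2, e1]; abel
  · rw [pow_succ', ← mul_assoc, f1, pow_two, ← mul_assoc, add_mul, f2, f1, ← add_assoc,
      add_comm (-n), neg_add_cancel_right, f2]

section

variable {H : Type*} [Group H] [Finite H] {p : ℕ} [hp : Fact p.Prime] (V : Subgroup H)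
  [hN : V.Normal] (hV : IsMulCommutative V ∧ ∀ x : V, x ^ p = 1)
  (hk : (QuotientGroup.mk' V).ker = centralizer (V : Set H))

include hk in
theorem transv {a : H} (h : ∀ v ∈ V, ⁅a, v⁆ ∈ zpowers a) (ha : a ∉ V) :
    ∃ hz : a ^ p ∈ V, (conjRep V hV a - 1) (EA.of hV ⟨_, hz⟩) = 0 ∧
      ∀ w, ∃ c : ZMod p, (conjRep V hV a - 1) w = c • EA.of hV ⟨_, hz⟩ := by
  have h0 : ∀ v : V, (v : H) ∈ zpowers a → (conjRep V hV a - 1) (EA.of hV v) = 0 := by
    rintro v ⟨k, hk⟩
    rw [conjRep_sub_one_of, EA.of_eq_zero]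
    refine Subtype.ext (commutatorElement_eq_one_iff_commute.2 ?_)
    rw [← hk]
    exact Commute.self_zpow a k
  have h2 : (conjRep V hV a - 1) ^ 2 = 0 := by
    ext w
    obtain ⟨w, rfl⟩ := (EA.of hV).surjective w
    rw [sq, End.mul_apply, conjRep_sub_one_of V hV a w]
    exact h0 _ (h w w.2)
  have hz : a ^ p ∈ V := by
    simpa using pow_mem_of_sub_one_pow_eq_zero V hV hk (k := 1) h2 (by simpa using hp.out.two_le)
  refine ⟨hz, h0 _ (npow_mem_zpowers a p), fun w => ?_⟩
  obtain ⟨w, rfl⟩ := (EA.of hV).surjective w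
  obtain ⟨k, hk⟩ := mem_powers_iff_mem_zpowers.2 (h w w.2)
  simp only at hk
  have hk1 : a ^ k ∈ V := hk ▸ mul_mem (hN.conj_mem _ w.2 a) (inv_mem w.2)
  obtain ⟨j, rfl⟩ : p ∣ k := by
    by_contra hd
    exact ha (mem_of_pow_mem_of_coprime ((Nat.Prime.coprime_iff_not_dvd hp.out).2 hd) hz hk1)
  refine ⟨j, ?_⟩
  rw [conjRep_sub_one_of, ← EA.of_pow']
  congr 1
  exact Subtype.ext (by simp [← hk, pow_mul])

include hV hk in
theorem main (hsol : IsPSolvable p (H ⧸ V)) (hO : pCore p (H ⧸ V) = ⊥) {a : H}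
    (h : ∀ v ∈ V, ⁅a, v⁆ ∈ zpowers a) (h4 : p ≠ 2 ∨ ¬ Involves (Equiv.Perm (Fin 4)) H) :
    a ∈ V := by
  by_contra ha
  obtain ⟨hz, hnz, hn⟩ := transv V hV hk h ha
  refine ha (mem_of_forall_commutator_pow_mem V hsol hO (k := 1) (by simpa using hz) fun r _ => ?_)
  set b := r * a * r⁻¹ with hb
  obtain ⟨hz', hmz, hm⟩ := transv V hV hk (a := b) (fun v hv => by
    obtain ⟨k, hk⟩ := h _ (hN.conj_mem' _ hv r)
    refine ⟨k, ?_⟩
    simp only [hb, conj_zpow] at hk ⊢
    rw [hk]
    simp only [commutatorElement_def]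
    group) (fun h => ha (by simpa [hb, mul_assoc] using hN.conj_mem' _ h r))
  set n := conjRep V hV a - 1 with hndef
  set m := conjRep V hV b - 1 with hmdef
  set z := EA.of hV ⟨_, hz⟩ with hzdef
  set z' := EA.of hV ⟨_, hz'⟩ with hzdef'
  obtain ⟨α, hα⟩ := hn z'
  obtain ⟨β, hβ⟩ := hm z
  have hnn : n * n = 0 := LinearMap.ext fun w => by
    obtain ⟨c, hc⟩ := hn w
    simp [hc, hnz]
  have hmm : m * m = 0 := LinearMap.ext fun w => by
    obtain ⟨c, hc⟩ := hm w
    simp [hc, hmz]
  have ha1 : conjRep V hV a = n + 1 := by rw [hndef, sub_add_cancel]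
  have hb1 : conjRep V hV b = m + 1 := by rw [hmdef, sub_add_cancel]
  have ha2 : conjRep V hV a⁻¹ = 1 - n := by
    have h4 : conjRep V hV a * (1 - n) = 1 := by
      rw [ha1, add_mul, mul_sub, hnn]
      simp
    calc conjRep V hV a⁻¹ = conjRep V hV a⁻¹ * (conjRep V hV a * (1 - n)) := by rw [h4, mul_one]
      _ = 1 - n := by rw [← mul_assoc, ← map_mul, inv_mul_cancel, map_one, one_mul]
  have hc : conjRep V hV ⁅r, a⁆ - 1 = m - n - m * n := by
    rw [commutatorElement_def, map_mul, ha2, ← hb, hb1]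
    noncomm_ring
  have hp3 : 3 ≤ p ^ 2 := by nlinarith [hp.out.two_le]
  by_cases hα0 : α = 0
  · have hnm : n * m = 0 := LinearMap.ext fun w => by
      obtain ⟨c, hc⟩ := hm w
      simp [hc, hα, hα0]
    refine ⟨2, pow_mem_of_sub_one_pow_eq_zero V hV hk (n := 3) ?_ hp3⟩
    rw [hc]
    simp only [pow_succ, pow_zero, one_mul, mul_sub, sub_mul, mul_assoc, hnm, hnn, hmm,
      ← mul_assoc n m, ← mul_assoc m m, zero_mul, mul_zero, sub_zero, zero_sub,
      neg_mul, neg_zero]
  by_cases hβ0 : β = 0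
  · have hmn : m * n = 0 := LinearMap.ext fun w => by
      obtain ⟨c, hc⟩ := hn w
      simp [hc, hβ, hβ0]
    refine ⟨2, pow_mem_of_sub_one_pow_eq_zero V hV hk (n := 3) ?_ hp3⟩
    rw [hc]
    simp only [pow_succ, pow_zero, one_mul, mul_sub, sub_mul, mul_assoc, hmn, hnn, hmm,
      ← mul_assoc m n, ← mul_assoc m m, ← mul_assoc n n, zero_mul, mul_zero, sub_zero, zero_sub,
      neg_mul, neg_zero]
  exfalso
  have hz0 : z ≠ 0 := by
    intro h0
    refine ha ((conjRep_eq_one_iff_mem V hV hk).1 ?_)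
    rw [ha1, add_eq_right]
    ext w
    obtain ⟨c, hc⟩ := hn w
    simp [hc, h0]
  rcases eq_or_ne p 2 with rfl | hp2
  · have hα1 : α = 1 := (zmod_two α).resolve_left hα0
    have hβ1 : β = 1 := (zmod_two β).resolve_left hβ0
    rw [hα1, one_smul] at hα
    rw [hβ1, one_smul] at hβ
    have hz0' : z' ≠ 0 := fun h0 => hz0 (by rw [← hα, h0, map_zero])
    have hzz : z ≠ z' := fun h0 => hz0 (by rw [← hα, ← h0, hnz])
    have h2 : ∀ w : EA 2 V hV, w + w = 0 := fun w => by
      rw [← two_smul (ZMod 2) w, show (2 : ZMod 2) = 0 from rfl, zero_smul]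
    have hzz' : z + z' ≠ 0 := fun h0 => hzz (by rw [← add_right_inj z, h0, h2])
    let U : Submodule (ZMod 2) (EA 2 V hV) := Submodule.span (ZMod 2) {z, z'}
    have hU : ∀ w, w ∈ U ↔ w = 0 ∨ w = z ∨ w = z' ∨ w = z + z' := by
      intro w
      rw [Submodule.mem_span_pair]
      constructor
      · rintro ⟨s, t, rfl⟩
        rcases zmod_two s with rfl | rfl <;> rcases zmod_two t with rfl | rfl <;> simp
      · rintro (rfl | rfl | rfl | rfl)
        exacts [⟨0, 0, by simp⟩, ⟨1, 0, by simp⟩, ⟨0, 1, by simp⟩, ⟨1, 1, by simp⟩]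
    let U' : Subgroup H := ((EA.subgroupEquiv hV).symm U).map V.subtype
    have hU' : ∀ v : V, (v : H) ∈ U' ↔ EA.of hV v ∈ U := fun v => by
      rw [← EA.mem_subgroupEquiv_symm]
      exact mem_map_iff_mem V.subtype_injective
    have hUV : U' ≤ V := map_subtype_le _
    have hnorm : ∀ g : H, (∀ w, (conjRep V hV g - 1) w ∈ U) → g ∈ normalizer (U' : Set H) := by
      intro g hg
      refine mem_normalizer_fintype fun x hx => ?_
      refine (hU' ⟨_, hN.conj_mem _ (hUV hx) g⟩).2 ?_
      rw [← conjRep_of V hV g ⟨x, hUV hx⟩]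
      simpa using add_mem (hg (EA.of hV ⟨x, hUV hx⟩)) ((hU' ⟨x, hUV hx⟩).1 hx)
    have haU : a ∈ normalizer (U' : Set H) := hnorm a fun w => by
      obtain ⟨c, hc⟩ := hn w
      rw [← hndef, hc]
      exact U.smul_mem _ ((hU _).2 (by simp))
    have hbU : b ∈ normalizer (U' : Set H) := hnorm b fun w => by
      obtain ⟨c, hc⟩ := hm w
      rw [← hmdef, hc]
      exact U.smul_mem _ ((hU _).2 (by simp))
    refine (h4.resolve_left (by simp)) (H24.involves_perm_four (U := U') (a := a) (y := a * b)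
      (H24.isMulCommutative_mono hV.1 hUV) ?_ haU (mul_mem haU hbU) ?_ ?_)
    · rw [card_map_of_injective V.subtype_injective, ← EA.card_subgroupEquiv hV,
        OrderIso.apply_symm_apply]
      have : (U : Set (EA 2 V hV)) = {0, z, z', z + z'} := Set.ext fun w => hU w
      change Nat.card (U : Set (EA 2 V hV)) = 4
      rw [this, Nat.card_coe_set_eq, Set.ncard_insert_of_notMem, Set.ncard_insert_of_notMem,
        Set.ncard_pair]
      · simpa using hz0
      · simpa using ⟨hzz, hz0'⟩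
      · simpa using ⟨hz0.symm, hz0'.symm, hzz'.symm⟩
    · rw [eq_bot_iff]
      rintro x ⟨hx, hx'⟩
      have h1 : conjRep V hV (a * b) (EA.of hV ⟨x, hUV hx⟩) = EA.of hV ⟨x, hUV hx⟩ := by
        rw [conjRep_of]
        congr 1
        exact Subtype.ext (mul_inv_eq_iff_eq_mul.2 (mem_centralizer_singleton_iff.1 hx').symm)
      rw [map_mul, ha1, hb1] at h1
      have h3 : EA.of hV ⟨x, hUV hx⟩ = 0 := by
        rcases (hU _).1 ((hU' ⟨x, hUV hx⟩).1 hx) with h | h | h | h
        · exact h
        all_goals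
          exfalso
          rw [h] at h1
          simp only [End.mul_apply, LinearMap.add_apply, End.one_apply, map_add, hnz, hmz, hα, hβ,
            zero_add, add_zero] at h1
        · exact hzz' (add_right_cancel (h1.trans (zero_add _).symm))
        · exact hz0 (add_right_cancel (h1.trans (zero_add _).symm))
        · refine hz0' ?_
          rw [add_assoc, add_eq_left, ← add_assoc, h2, zero_add] at h1
          exact h1
      exact congrArg Subtype.val ((EA.of_eq_zero hV).1 h3)
    · refine centralizer_le hUV ?_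
      rw [← hk, QuotientGroup.ker_mk']
      have : a * (a * b) * a⁻¹ * (a * b) = a ^ 2 * b ^ 2 := by simp only [sq]; group
      rw [this]
      exact mul_mem hz hz'
  · have hnmn : n * m * n = (α * β) • n := LinearMap.ext fun w => by
      obtain ⟨c, hc⟩ := hn w
      simp [hc, hα, hβ, smul_smul, mul_comm, mul_left_comm]
    set k : ZMod p := -(α * β)⁻¹ with hkdef
    have hγ : α * β ≠ 0 := mul_ne_zero hα0 hβ0
    have hk0 : k ≠ 0 := neg_ne_zero.2 (inv_ne_zero hγ)
    have hak : conjRep V hV (a ^ k.val) = k • n + 1 := by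
      rw [map_pow, ha1, ← ZMod.natCast_zmod_val k, ZMod.val_natCast, Nat.mod_eq_of_lt k.val_lt]
      generalize k.val = i
      induction i with
      | zero => simp
      | succ i ih =>
        rw [pow_succ, ih, add_mul, mul_add, smul_mul_assoc, hnn, Nat.cast_succ, add_smul]
        simp only [smul_zero, mul_one, zero_add, one_mul, one_smul]
        abel
    obtain ⟨h1, h2⟩ := neg_of_rel (n := k • n) (m := m) (by simp [hnn]) hmm (by
      rw [smul_mul_assoc, smul_mul_assoc, mul_smul_comm, hnmn, smul_smul, smul_smul, ← neg_smul]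
      congr 1
      rw [mul_assoc, hkdef, neg_mul _ (α * β), inv_mul_cancel₀ hγ, mul_neg_one])
    rw [← hak, ← hb1, ← map_mul, ← map_pow] at h1 h2
    set j := (a ^ k.val * b) ^ 3
    rw [mul_smul_comm, ← smul_neg] at h1
    rw [smul_mul_assoc, ← smul_neg] at h2
    replace h1 := smul_right_injective _ hk0 h1
    replace h2 := smul_right_injective _ hk0 h2
    have h3 : ⁅j, a⁆ ∈ V := by
      rw [← conjRep_eq_one_iff_mem V hV hk, commutatorElement_def]
      have : conjRep V hV (j * a) = conjRep V hV (a * j) := by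
        rw [map_mul, map_mul, ha1, mul_add, add_mul, h1, h2, mul_one, one_mul]
      rw [map_mul, map_mul, this, ← map_mul, ← map_mul]
      simp
    obtain ⟨w, hw1, hw2⟩ := exists_mul_pow_eq V hV a ⟨_, h3⟩ p
    have h5 := geom_sum_eq_sub_one_pow (p := p) (conjRep V hV a) 1
    rw [pow_one] at h5
    rw [h5, ← hndef, pow_eq_zero_of_le (n := p - 1) (m := 2)
      (by have := hp.out.two_le; omega) (by rw [sq, hnn]), LinearMap.zero_apply,
      EA.of_eq_zero] at hw2
    have h6 : conjRep V hV j z = z := by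
      rw [hzdef, conjRep_of]
      congr 1
      refine Subtype.ext ?_
      simp only [hw2, commutatorElement_def, inv_mul_cancel_right, OneMemClass.coe_one,
        one_mul] at hw1
      simpa using hw1
    have h7 : conjRep V hV j z = -z := by
      have := LinearMap.congr_fun h1 z'
      rw [End.mul_apply, LinearMap.neg_apply, hα, map_smul, ← smul_neg] at this
      exact smul_right_injective _ hα0 this
    rw [h6, eq_neg_iff_add_eq_zero, ← two_smul (ZMod p), smul_eq_zero] at h7
    refine h7.elim (fun h => hp2 ?_) hz0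
    have : ((2 : ℕ) : ZMod p) = 0 := by exact_mod_cast h
    rw [ZMod.natCast_eq_zero_iff] at this
    exact (Nat.prime_dvd_prime_iff_eq hp.out Nat.prime_two).1 this

end


/-- Let G be a finite p-soluble group, P a Sylow p-subgroup of G and A a cyclic normal subgroup of P. If p is odd, or if no section of G is isomorphic to the symmetric group of degree 4, then A ≤ O_{p',p}(G). -/
theorem result {G : Type*} [Group G] [Finite G] {p : ℕ} [Fact p.Prime] (hG : Cfsg.IsPSolvable p G) (P : Sylow p G) (A : Subgroup G) (hAP : A ≤ (P : Subgroup G)) (hAn : (P : Subgroup G) ≤ Subgroup.normalizer (A : Set G)) (hA : IsCyclic A) (h : p ≠ 2 ∨ ¬ Cfsg.Involves (Equiv.Perm (Fin 4)) G) : A ≤ Cfsg.pPrimePCore p G := by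
  obtain ⟨H, _, _, f, V, _, hf, hV1, hV2, hV, hk, hs1, hs2, hO⟩ := exists_reduced' hG
  obtain ⟨g, rfl⟩ := (Subgroup.isCyclic_iff_exists_zpowers_eq_top A).1 hA
  rw [← hV2, zpowers_le, mem_comap]
  refine main V hV hk hs2 hO (fun v hv => ?_) (h.imp id fun h h' => h (H57.involves_trans h'
    (H57.involves_of_surjective ⊤ (f.comp (Subgroup.subtype ⊤)) fun y => by
      obtain ⟨x, rfl⟩ := hf y
      exact ⟨⟨x, trivial⟩, rfl⟩)))
  obtain ⟨y, hy, rfl⟩ := pCore_le_map_sylow hf P (hV1 ▸ hv)
  rw [← map_commutatorElement, ← MonoidHom.map_zpowers]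
  refine mem_map_of_mem f ?_
  rw [commutatorElement_def, mul_assoc, mul_assoc, ← mul_assoc y]
  exact mul_mem (mem_zpowers g) ((mem_normalizer_iff.1 (hAn hy) _).1 (inv_mem (mem_zpowers g)))

end Cfsg.Agent.S3788
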