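import Mathlib
import Cfsg.Statements.S3789
import Cfsg.Agent.Lib.FGS.HHWeight2
-- import your own Cfsg.Agent.* helpers here

set_option autoImplicit false
open Cfsg

namespace Cfsg.Agent.S3789

open H76 H46 Subgroup Module Polynomial
open scoped commutatorElement TensorProduct

universe u

variable {F : Type*} [Field F] {W : Type*} [AddCommGroup W] [Module F W] {G : Type*} [Group G]

theorem apply_mem_of_special {S : Type*} [CommGroup S] [Finite S] {a b : MulAut S}
    (ha : Special a 3) (hc : Commute a (b * a * b⁻¹))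
    (h : a * (b * a * b⁻¹) = 1 ∨ Special (a * (b * a * b⁻¹)) 3) : ∀ u ∈ cU a, b u ∈ cU a := by
  have h1 := ha.conj b
  suffices h2 : cU (b * a * b⁻¹) ≤ cU a from fun u hu => h2 (by rwa [mem_cU_conj,
    MulAut.inv_apply_self])
  rcases h1.le_or_fix fun u hu => apply_mem_cU_of_commute hc.symm.eq hu with h2 | h2
  · exact h2
  rcases ha.le_or_fix fun u hu => apply_mem_cU_of_commute hc.eq hu with h3 | h3
  · exact (eq_of_le_of_card_ge h3 (by rw [ha.card, h1.card])).ge
  have key : ∀ {c d : MulAut S}, Special c 3 → (∀ u ∈ cU c, d u = u) → cU c ≤ cU (c * d) := by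
    intro c d hc hd u hu
    obtain ⟨w, hw, rfl⟩ := exists_dHom_eq (fun u hu => apply_mem_of_cU_le le_rfl hu)
      (fun u => hc.fix) hu
    exact ⟨w, by rw [dHom_apply, dHom_apply, MulAut.mul_apply, hd w hw]⟩
  have h4 := key ha h2
  have h5 := hc.eq ▸ key h1 h3
  rcases h with h | h
  · rw [h] at h4
    refine absurd (eq_bot_iff.2 fun u hu => ?_) ha.ne_bot
    obtain ⟨w, rfl⟩ := h4 hu
    simp [dHom_apply]
  · rwa [← eq_of_le_of_card_ge h4 (by rw [ha.card, h.card])] at h5

theorem eq_one_of_commutator {S : Type*} [CommGroup S] [Finite S] {U : Subgroup S}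
    (hU : Nat.card U = 4) {B : Subgroup (MulAut S)} (hB : IsPGroup 3 B)
    (hBU : ∀ b ∈ B, ∀ u ∈ U, b u ∈ U) {a : MulAut S} (ha : a ∈ ⁅B, B⁆) : ∀ u ∈ U, a u = u := by
  have : Fact (Nat.Prime 3) := ⟨Nat.prime_three⟩
  let ψ : B →* Equiv.Perm U :=
    (MulAut.toPerm U).comp (H2.subAut B.subtype U fun b => hBU b b.2)
  obtain ⟨k, hk⟩ := IsPGroup.iff_card.1 (hB.of_surjective _ ψ.rangeRestrict_surjective)
  have h1 := ψ.range.card_subgroup_dvd_card
  rw [Nat.card_perm, hU, hk] at h1
  have h2 : k ≤ 1 := by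
    by_contra! h
    exact absurd ((pow_dvd_pow 3 h).trans h1) (by decide)
  have : IsCyclic ψ.range := isCyclic_of_card_dvd_prime (p := 3) (hk ▸ pow_dvd_pow 3 h2)
  have h3 : ⁅B, B⁆ ≤ ψ.ker.map B.subtype := commutator_le.2 fun a ha b hb =>
    ⟨⁅(⟨a, ha⟩ : B), ⟨b, hb⟩⁆, by
      rw [SetLike.mem_coe, MonoidHom.mem_ker, map_commutatorElement,
        commutatorElement_eq_one_iff_mul_comm]
      exact congrArg Subtype.val (IsCyclic.isMulCommutative.is_comm.comm
        (⟨_, _, rfl⟩ : ψ.range) ⟨_, _, rfl⟩), rfl⟩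
  obtain ⟨a, ha', rfl⟩ := h3 ha
  exact fun u hu => congrArg Subtype.val (Equiv.congr_fun ha' ⟨u, hu⟩)

theorem linear [IsAlgClosed F] [FiniteDimensional F W] [Finite G] {p : ℕ} [hp : Fact p.Prime]
    [CharP F p] (hp2 : p ≠ 2) (hsol : IsPSolvable p G) (hO : pCore p G = ⊥) (ρ : G →* End F W)
    (hρ : Function.Injective ρ) {B : Subgroup G} (hB : IsPGroup p B)
    (h1 : ∀ a ∈ ⁅B, B⁆, ∀ a' ∈ ⁅B, B⁆, (ρ a - 1) * (ρ a' - 1) = 0)
    (h2 : ∀ a ∈ ⁅B, B⁆, ∀ b ∈ B, (ρ a - 1) * ((ρ b - 1) * (ρ b - 1)) = 0) : ⁅B, B⁆ = ⊥ := by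
  classical
  have hAB : ⁅B, B⁆ ≤ B := commutator_le_self B
  have hcomm : ∀ a ∈ ⁅B, B⁆, ∀ a' ∈ ⁅B, B⁆, Commute a a' := fun a ha a' ha' => hρ (by
    have := (h1 a ha a' ha').trans (h1 a' ha' a ha).symm
    rw [map_mul, map_mul]
    linear_combination (norm := noncomm_ring) this)
  have hsq : ∀ a ∈ ⁅B, B⁆, aeval (ρ a) ((X - 1 : F[X]) ^ 2) = 0 := fun a ha => by
    simpa [sq] using h1 a ha a ha
  have hp3 : 2 < p := lt_of_le_of_ne hp.out.two_le hp2.symm
  have hap : ∀ a ∈ ⁅B, B⁆, a ^ p = 1 := fun a ha => hρ (by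
    have := congrArg (aeval (ρ a)) (sub_pow_char (p := p) (X : F[X]) 1)
    rw [map_pow, pow_eq_zero_of_le hp3.le ((map_pow _ _ 2).symm.trans (hsq a ha)), one_pow, map_sub,
      map_pow, aeval_X, map_one, eq_comm, sub_eq_zero] at this
    rw [map_pow, this, map_one])
  refine eq_bot_iff.2 fun a ha => ?_
  have hKc : (Nat.card (pPrimeCore p G)).Coprime p := H1.coprime_card_pPrimeCore
  have := H2.le_of_forall_invariant_sylowIn_le (M := centralizer {a}) (K := pPrimeCore p G)
    (A := B) le_normalizer_of_normal (H1.coprime_card_of_isPGroup_of_coprime hB hKc)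
    (Or.inl (H1.isSolvable_of_isPGroup hB)) fun q _ P hP hBP => ?_
  · exact H1.inf_pPrimeCore_eq_bot hB ▸ mem_inf.2 ⟨hAB ha,
      H23.centralizer_pPrimeCore_le_of_isPSolvable hsol (f := MonoidHom.id G)
        Function.surjective_id hO fun k hk => mem_centralizer_singleton_iff.1 (this hk)⟩
  obtain ⟨Q, hQP, hcl, hN, -, -, hQ⟩ := exists_critical hP.isPGroup
  let _ := Fintype.ofFinite Q
  have hQK := hQP.trans hP.le
  have hQc : (Nat.card Q).Coprime p := hKc.coprime_dvd_left (card_dvd_of_le hQK)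
  have hQF := cast_card_ne_zero_of_le (F := F) (cast_ne_zero_of_coprime hKc) hQK
  have hBQ := hBP.trans hN
  have hsp : ∀ lam, wsp ρ Q lam ≠ ⊥ → ∀ a ∈ ⁅B, B⁆, ∃ h : a ∈ wstab Q lam,
      wact ρ Q lam ⟨a, h⟩ = 1 ∨ (Special (wact ρ Q lam ⟨a, h⟩) 3 ∧ p = 3) := by
    intro lam hl a ha
    obtain ⟨j, k, hjk, hb, h⟩ := exists_wact_special hQF hl hQc.symm (hBQ (hAB ha)) (n := 0)
      (by rw [zero_add, pow_one, hap a ha]; exact one_mem _) (X_sub_one_pow_ne_zero 2) (hsq a ha)
      (by rwa [natDegree_X_sub_one_pow, zero_add, pow_one])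
    obtain ⟨rfl, rfl⟩ : j = 0 ∧ k = 0 := by omega
    simp only [pow_zero, pow_one, zero_add, one_mul, natDegree_X_sub_one_pow] at hb h
    refine ⟨hb, h.imp id fun h => ?_⟩
    obtain rfl : p = 3 := by omega
    exact ⟨h.1, rfl⟩
  have h3 := hQ a (hBP (hAB ha)) (coprime_orderOf_of_mem hB
    (hKc.coprime_dvd_left (card_dvd_of_le hP.le)) (hAB ha))
    (mem_centralizer_of_forall_wact (ρ := ρ) hQF (fun g _ h => hρ (h.trans ρ.map_one.symm))
      (hBQ (hAB ha)) (coprime_orderOf_of_mem hB hQc (hAB ha)) fun lam hl => ?_)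
  · exact fun x hx => mem_centralizer_singleton_iff.2 (h3 x hx)
  obtain ⟨has, h | ⟨h, rfl⟩⟩ := hsp lam hl a ha
  · exact ⟨has, h⟩
  exfalso
  have hBs : B ≤ wstab Q lam := fun b hb => by_contra fun hbs => by
    have hb2 : b * b ∉ wstab Q lam := fun h => by
      obtain ⟨k, hk⟩ := H68.isPGroup_iff_forall.1 hB b hb
      exact hbs (mem_of_pow_mem_of_coprime (a := 2) (Nat.Coprime.pow_right k (by norm_num))
        (sq b ▸ h) (hk ▸ one_mem _))
    have hak : a ∈ wker ρ Q lam := fun v hv => by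
      have h4 := sum_stab_eq_zero (ρ := ρ) Finset.univ ![a * (b * b), a * b, a, b * b, b, 1]
        ![1, -2, 1, -1, 2, -1] (fun i _ => hBQ (by
          fin_cases i
          exacts [mul_mem (hAB ha) (mul_mem hb hb), mul_mem (hAB ha) hb, hAB ha, mul_mem hb hb, hb,
            one_mem _])) hv (by
          have := LinearMap.congr_fun (h2 a ha b hb) v
          simp only [End.mul_apply, LinearMap.sub_apply, End.one_apply, map_sub,
            LinearMap.zero_apply] at this
          simp only [Fin.sum_univ_succ, Matrix.cons_val_zero, Matrix.cons_val_succ, map_mul,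
            End.mul_apply, Finset.univ_eq_empty, Finset.sum_empty, map_one, End.one_apply]
          refine Eq.trans ?_ this
          module)
      simp only [Finset.sum_filter, Fin.sum_univ_succ, Matrix.cons_val_zero, Matrix.cons_val_succ,
        mul_mem_cancel_left has, hb2, hbs, has, one_mem, if_true, if_false,
        Finset.univ_eq_empty, Finset.sum_empty, map_one, End.one_apply] at h4
      simpa [← sub_eq_add_neg, sub_eq_zero] using h4
    refine h.pow_ne_one one_pos (by norm_num) ?_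
    rw [pow_one, wact_eq_one_iff]
    intro g hg
    have h4 := commutator_mem_of_le_normalizer hak
      (wstab_le_normalizer_wker (mem_wstab_of_mem hl hg))
    refine mem_wZ.2 ⟨mul_mem (H68.conj_mem_of_mem_normalizer has.1 hg) (inv_mem hg), fun k hk => ?_⟩
    rw [← commutatorElement_inv]
    exact inv_mem (commutator_mem_of_le_normalizer h4
      (wstab_le_normalizer_wker (mem_wstab_of_mem hl hk)))
  set φ := wact ρ Q lam
  refine h.ne_bot (eq_bot_iff.2 fun u hu => h.fix hu (eq_one_of_commutator h.card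
    (isPGroup_map_subgroupOf hB φ) ?_ ?_ u hu))
  · rintro _ ⟨b, hb, rfl⟩
    have h4 : (b : G) * a * (b : G)⁻¹ ∈ ⁅B, B⁆ :=
      H68.conj_mem_of_mem_normalizer (normalizer_commutator_ge_left _ _ hb) ha
    rw [show φ = wact ρ Q lam from rfl]
    refine apply_mem_of_special h ?_ ?_
    · rw [← map_inv, ← map_mul, ← map_mul]
      exact Commute.map (Subtype.ext (hcomm _ ha _ h4).eq) _
    · rw [← map_inv, ← map_mul, ← map_mul, ← map_mul]
      obtain ⟨_, h5⟩ := hsp lam hl _ (mul_mem ha h4)
      exact h5.imp id And.left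
  · rw [← map_commutator]
    refine mem_map_of_mem φ ((mem_map_iff_mem (wstab Q lam).subtype_injective).1 ?_)
    rwa [map_commutator, subgroupOf_map_subtype, inf_eq_left.2 hBs]

/-- The derived series of a subgroup. -/
def der (S : Subgroup G) : ℕ → Subgroup G
  | 0 => S
  | n + 1 => ⁅der S n, der S n⁆

theorem map_der {G' : Type*} [Group G'] (f : G →* G') (S : Subgroup G) (n : ℕ) :
    (der S n).map f = der (S.map f) n := by
  induction n with
  | zero => rfl
  | succ n ih => rw [der, map_commutator, ih, der]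

theorem der_mono {S T : Subgroup G} (h : S ≤ T) (n : ℕ) : der S n ≤ der T n := by
  induction n with
  | zero => exact h
  | succ n ih => exact commutator_mono ih ih

theorem der_le (S : Subgroup G) (n : ℕ) : der S n ≤ S := by
  induction n with
  | zero => exact le_rfl
  | succ n ih => exact (commutator_le_self _).trans ih

theorem le_normalizer_der (S : Subgroup G) (n : ℕ) : S ≤ normalizer (der S n : Set G) := by
  induction n with
  | zero => exact le_normalizer
  | succ n ih => exact H2.le_normalizer_commutator ih ih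

theorem der_eq (S : Subgroup G) (n : ℕ) : (derivedSeries S n).map S.subtype = der S n := by
  induction n with
  | zero => simp [← MonoidHom.range_eq_map, der]
  | succ n ih => rw [derivedSeries_succ, map_commutator, ih, der]

theorem der_le_pPrimePCore {G : Type u} [Group G] [Finite G] {p : ℕ} [hp : Fact p.Prime]
    (hp2 : p ≠ 2) (hsol : IsPSolvable p G) (S : Sylow p G) {d : ℕ}
    (h : der (S : Subgroup G) (d + 1) = ⊥) : der (S : Subgroup G) d ≤ pPrimePCore p G := by
  rcases d with _ | d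
  · exact (commutator_eq_bot_iff_le_centralizer.1 h).trans (inf_centralizer_sylow_le hsol S)
  obtain ⟨H, _, _, f, V, hVn, hf, hVe, h1, hV, h2, -, h3, h4⟩ := exists_reduced' hsol
  obtain ⟨ρ, hρ, h5⟩ := exists_faithful_rep V hV (QuotientGroup.mk'_surjective V) h2
  let L := AlgebraicClosure (ZMod p)
  let bc := Module.End.baseChangeHom (ZMod p) L (EA p V hV)
  have hbc : Function.Injective bc := LinearMap.baseChangeHom_injective (ZMod p) _ L
  set T := (S : Subgroup G).map f
  have hVT : V ≤ T := hVe.le.trans (pCore_le_map_sylow hf S)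
  have hT : der T (d + 2) = ⊥ := by rw [← map_der, h, Subgroup.map_bot]
  have hc : ∀ n, ∀ b ∈ der T n, ∀ v ∈ V, ⁅b, v⁆ ∈ der T n := fun n b hb v hv =>
    commutator_mem_of_le_normalizer hb (le_normalizer_der T n (hVT hv))
  obtain ⟨ρ', hρ', h7⟩ : ∃ ρ' : H ⧸ V →* End L (L ⊗[ZMod p] EA p V hV), Function.Injective ρ' ∧
      ∀ a, ρ' (QuotientGroup.mk' V a) - 1 = bc (conjRep V hV a - 1) :=
    ⟨(bc : End (ZMod p) _ →* End L _).comp ρ, hbc.comp hρ, fun a => by
      rw [map_sub, map_one, ← h5]; rfl⟩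
  have h6 := linear hp2 h3 h4 ρ' hρ'
    (B := (der T d).map (QuotientGroup.mk' V)) (((S.isPGroup'.map f).to_le (der_le T d)).map _) (by
      rw [← map_commutator]
      rintro _ ⟨a, ha, rfl⟩ _ ⟨a', ha', rfl⟩
      have : (conjRep V hV a - 1) * (conjRep V hV a' - 1) = 0 := by
        ext v
        obtain ⟨v, rfl⟩ := (EA.of hV).surjective v
        rw [End.mul_apply, conjRep_sub_one_of, conjRep_sub_one_of, LinearMap.zero_apply,
          EA.of_eq_zero]
        exact Subtype.ext (hT.le (commutator_mem_commutator ha (hc (d + 1) a' ha' v v.2)))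
      rw [h7, h7, ← map_mul, this, map_zero]) (by
      rw [← map_commutator]
      rintro _ ⟨a, ha, rfl⟩ _ ⟨b, hb, rfl⟩
      have : (conjRep V hV a - 1) * ((conjRep V hV b - 1) * (conjRep V hV b - 1)) = 0 := by
        ext v
        obtain ⟨v, rfl⟩ := (EA.of hV).surjective v
        rw [End.mul_apply, End.mul_apply, conjRep_sub_one_of, conjRep_sub_one_of,
          conjRep_sub_one_of, LinearMap.zero_apply, EA.of_eq_zero]
        exact Subtype.ext (hT.le (commutator_mem_commutator ha
          (commutator_mem_commutator hb (hc d b hb v v.2))))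
      rw [h7, h7, ← map_mul, ← map_mul, this, map_zero])
  rw [← map_commutator, Subgroup.map_eq_bot_iff, QuotientGroup.ker_mk'] at h6
  rw [← h1, ← map_le_iff_le_comap, map_der]
  exact h6

theorem main {p : ℕ} [hp : Fact p.Prime] (hp2 : p ≠ 2) (d : ℕ) :
    ∀ (G : Type u) [Group G] [Finite G], IsPSolvable p G →
      (∀ S : Sylow p G, der (S : Subgroup G) d = ⊥) → PLengthLE p d G := by
  induction d with
  | zero =>
    intro G _ _ _ h
    obtain ⟨S⟩ : Nonempty (Sylow p G) := inferInstance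
    have := S.not_dvd_index
    rw [show (S : Subgroup G) = ⊥ from h S, index_bot] at this
    exact pLengthLE_zero_iff.2 (hp.out.coprime_iff_not_dvd.2 this).symm
  | succ d ih =>
    intro G _ _ hsol h
    refine pLengthLE_succ_iff.2 (ih _ (isPSolvable_quotient hsol _) fun T => ?_)
    obtain ⟨S, hS⟩ := exists_isPGroup_le_map (QuotientGroup.mk'_surjective _) T.isPGroup'
    refine eq_bot_iff.2 ((der_mono hS d).trans ?_)
    rw [← map_der, le_bot_iff, Subgroup.map_eq_bot_iff, QuotientGroup.ker_mk']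
    exact der_le_pPrimePCore hp2 hsol S (h S)


/-- Let p be an odd prime and G a finite p-soluble group whose Sylow p-subgroups have derived length at most d. Then G has p-length at most d. -/
theorem result {G : Type*} [Group G] [Finite G] {p : ℕ} [Fact p.Prime] (hp : p ≠ 2) (hG : Cfsg.IsPSolvable p G) (d : ℕ) (hd : ∀ P : Sylow p G, derivedSeries ↥(P : Subgroup G) d = ⊥) : Cfsg.PLengthLE p d G := by
  exact main hp d G hG fun S => by rw [← der_eq, hd S, Subgroup.map_bot]

end Cfsg.Agent.S3789
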