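import Mathlib
import Cfsg.Statements.S3790
import Cfsg.Agent.Lib.FGS.PLength
-- import your own Cfsg.Agent.* helpers here

set_option autoImplicit false
open Cfsg

namespace Cfsg.Agent.S3790

open H76 Subgroup

universe u

theorem step {p q : ℕ} [hp : Fact p.Prime] [hq : Fact q.Prime] (hqp : q ≠ p) (m : ℕ)
    (C : ∀ (G : Type u) [Group G], Prop)
    (hsub : ∀ (G : Type u) [Group G] [Finite G] (H : Subgroup G), C G → C H)
    (hquo : ∀ (G : Type u) [Group G] [Finite G] (N : Subgroup G) [N.Normal], C G → C (G ⧸ N))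
    (hC : ∀ (G : Type u) [Group G] [Finite G], C G → (Nat.card G).Coprime q → PLengthLE p m G)
    (k : ℕ) : ∀ (G : Type u) [Group G] [Finite G], C G → PLengthLE q k G →
      PLengthLE p ((1 + k) * m) G := by
  induction k with
  | zero =>
    intro G _ _ hG h
    simpa using hC G hG (pLengthLE_zero_iff.1 h)
  | succ k ih =>
    intro G _ _ hG h
    have h1 := ih _ (hquo G (pPrimePCore q G) hG) (pLengthLE_succ_iff.1 h)
    have h2 : pPrimeCore q G ≤ ups p G (2 * m + 1) :=
      le_ups_of_pLengthLE (hC _ (hsub G _ hG) H1.coprime_card_pPrimeCore)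
    have h3 : pPrimePCore q G ≤ ups p G (2 * m + 1) := by
      rw [le_ups_odd_iff]
      refine (relQ_ups m).trans (RelQ.mono (N := pPrimeCore q G) ?_ h2 le_rfl)
      intro x hx
      obtain ⟨j, hj⟩ := le_pPrimePCore_iff.1 (le_refl (pPrimePCore q G)) x hx
      exact ⟨q ^ j, ((Nat.coprime_primes hq.out hp.out).2 hqp).pow_left _, hj⟩
    have := pLengthLE_add_of_ker_le (QuotientGroup.mk' (pPrimePCore q G))
      (by rwa [QuotientGroup.ker_mk']) h1
    rwa [show (1 + (k + 1)) * m = (1 + k) * m + m by ring]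

theorem main {p : ℕ} [hp : Fact p.Prime] {ι : Type*} [DecidableEq ι] (q : ι → ℕ)
    (hq : ∀ i, (q i).Prime ∧ q i ≠ p) (l : ι → ℕ) (s : Finset ι) :
    ∀ (G : Type u) [Group G] [Finite G],
      ((∀ t : ℕ, t.Prime → t ∣ Nat.card G → t ≠ p → ∃ i ∈ s, q i = t) ∧
        ∀ i ∈ s, PLengthLE (q i) (l i) G) → PLengthLE p (∏ i ∈ s, (1 + l i)) G := by
  induction s using Finset.induction_on with
  | empty =>
    intro G _ _ h
    rw [Finset.prod_empty]
    refine pLengthLE_one_of_isPGroup ?_
    obtain ⟨n, hn⟩ : ∃ n, Nat.card G = p ^ n :=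
      ⟨_, Nat.eq_prime_pow_of_unique_prime_dvd Nat.card_pos.ne' fun ht hd => by
        by_contra hne
        simpa using h.1 _ ht hd hne⟩
    exact IsPGroup.of_card hn
  | insert a s ha ih =>
    intro G _ _ h
    have : Fact (q a).Prime := ⟨(hq a).1⟩
    rw [Finset.prod_insert ha]
    refine step (hq a).2 _ (fun G _ => (∀ t : ℕ, t.Prime → t ∣ Nat.card G → t ≠ p →
      ∃ i ∈ insert a s, q i = t) ∧ ∀ i ∈ s, PLengthLE (q i) (l i) G) ?_ ?_ ?_ _ G
      ⟨h.1, fun i hi => h.2 i (Finset.mem_insert_of_mem hi)⟩ (h.2 a (Finset.mem_insert_self _ _))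
    · rintro G _ _ H ⟨h1, h2⟩
      refine ⟨fun t ht hd => h1 t ht (hd.trans H.card_subgroup_dvd_card), fun i hi => ?_⟩
      have : Fact (q i).Prime := ⟨(hq i).1⟩
      exact pLengthLE_subgroup (h2 i hi) H
    · rintro G _ _ N _ ⟨h1, h2⟩
      refine ⟨fun t ht hd => h1 t ht (hd.trans N.card_quotient_dvd_card), fun i hi => ?_⟩
      have : Fact (q i).Prime := ⟨(hq i).1⟩
      exact pLengthLE_quotient (h2 i hi) N
    · rintro G _ _ ⟨h1, h2⟩ hc
      refine ih G ⟨fun t ht hd hne => ?_, h2⟩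
      obtain ⟨i, hi, rfl⟩ := h1 t ht hd hne
      rcases Finset.mem_insert.1 hi with rfl | hi
      · exact absurd hd ((Nat.Prime.coprime_iff_not_dvd ht).1 hc.symm)
      · exact ⟨i, hi, rfl⟩


/-- Let G be a finite solvable group and p a prime. Suppose p₁, …, p_r are distinct primes, all different from p, that include every prime dividing the order of G other than p, and that G has p_i-length at most l_i for each i. Then G has p-length at most the product of the numbers 1 + l_i. -/
theorem result {G : Type*} [Group G] [Finite G] (hG : Group.IsSolvable G) (p : ℕ) [Fact p.Prime] (r : ℕ) (q : Fin r → ℕ) (hq : ∀ i, (q i).Prime ∧ q i ≠ p) (hinj : Function.Injective q) (hcover : ∀ s : ℕ, s.Prime → s ∣ Nat.card G → s ≠ p → ∃ i, q i = s) (l : Fin r → ℕ) (hl : ∀ i, Cfsg.PLengthLE (q i) (l i) G) : Cfsg.PLengthLE p (Finset.univ.prod fun i => 1 + l i) G := by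
  exact main q hq l Finset.univ G
    ⟨fun t ht hd hne => by simpa using hcover t ht hd hne, fun i _ => hl i⟩

end Cfsg.Agent.S3790
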