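import Mathlib
import Cfsg.Statements.S3791
import Cfsg.Agent.Lib.FGS.HHGroup
import Cfsg.Agent.Lib.Core.MinNormal
-- import your own Cfsg.Agent.* helpers here

set_option autoImplicit false
open Cfsg

namespace Cfsg.Agent.S3791

open H76 Subgroup

universe u

theorem der_add_le {G : Type*} [Group G] {K : Subgroup G} {a : ℕ} (h : derivedSeries G a ≤ K)
    (b : ℕ) : derivedSeries G (a + b) ≤ (derivedSeries K b).map K.subtype := by
  induction b with
  | zero => simpa [← MonoidHom.range_eq_map] using h
  | succ b ih =>
    rw [← add_assoc, derivedSeries_succ, derivedSeries_succ, map_commutator]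
    exact commutator_mono ih ih

theorem der_of_le_map {G G' : Type*} [Group G] [Group G'] (f : G →* G') {S : Subgroup G}
    {Q : Subgroup G'} (h : Q ≤ S.map f) {d : ℕ} (hS : derivedSeries S d = ⊥) :
    derivedSeries Q d = ⊥ := by
  have h1 : derivedSeries (S.map f) d = ⊥ := by
    have := derivedSeries_le_map_derivedSeries (f.subgroupMap_surjective S) d
    rwa [hS, Subgroup.map_bot, le_bot_iff] at this
  have h2 := map_derivedSeries_le_derivedSeries (inclusion h) d
  rw [h1, le_bot_iff, Subgroup.map_eq_bot_iff,
    (MonoidHom.ker_eq_bot_iff _).2 (inclusion_injective h), le_bot_iff] at h2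
  exact h2

theorem der_le_ker {G G' : Type*} [Group G] [Group G'] (f : G →* G') {d : ℕ}
    (h : derivedSeries G' d = ⊥) : derivedSeries G d ≤ f.ker := by
  have := map_derivedSeries_le_derivedSeries f d
  rwa [h, le_bot_iff, Subgroup.map_eq_bot_iff] at this

theorem main {ι : Type*} [Fintype ι] [DecidableEq ι] (q : ι → ℕ) (hq : ∀ i, (q i).Prime)
    (d : ι → ℕ) (n : ℕ) : ∀ (G : Type u) [Group G] [Finite G], Nat.card G ≤ n →
      Group.IsSolvable G → (∀ t : ℕ, t.Prime → t ∣ Nat.card G → ∃ i, q i = t) →
      (∀ i, ∀ P : Subgroup G, IsPGroup (q i) P → derivedSeries P (d i) = ⊥) →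
      ∀ l : ι → ℕ, (∀ i, PLengthLE (q i) (l i) G) → derivedSeries G (∑ i, d i * l i) = ⊥ := by
  induction n with
  | zero => intro G _ _ h; exact absurd h (by simpa using Nat.card_pos.ne')
  | succ n ih =>
    intro G _ _ hn hs hc hd l hl
    rcases subsingleton_or_nontrivial G with hG | hG
    · exact Subsingleton.elim _ _
    have key : ∀ (N : Subgroup G) [N.Normal], N ≠ ⊥ → ∀ l : ι → ℕ,
        (∀ i, PLengthLE (q i) (l i) (G ⧸ N)) → derivedSeries G (∑ i, d i * l i) ≤ N := by
      intro N _ hN l hl
      have := ih (G ⧸ N) (by have := H3.card_quotient_lt N hN; omega) inferInstance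
        (fun t ht h => hc t ht (h.trans N.card_quotient_dvd_card)) (fun i P hP => by
          have : Fact (q i).Prime := ⟨hq i⟩
          obtain ⟨S, hS⟩ := exists_isPGroup_le_map (QuotientGroup.mk'_surjective N) hP
          exact der_of_le_map _ hS (hd i _ S.isPGroup')) l hl
      simpa using der_le_ker (QuotientGroup.mk' N) this
    have hl' : ∀ (N : Subgroup G) [N.Normal], ∀ i, PLengthLE (q i) (l i) (G ⧸ N) := fun N _ i => by
      have : Fact (q i).Prime := ⟨hq i⟩
      exact pLengthLE_quotient (hl i) N
    obtain ⟨N, hN, -, -, p, hp, hpN, -, hP⟩ :=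
      H3.exists_normal_elementary_le (⊤ : Subgroup G) top_ne_bot inferInstance
    have := hN.normal
    obtain ⟨i, rfl⟩ := hc p hp (hpN.trans N.card_subgroup_dvd_card)
    have : Fact (q i).Prime := ⟨hq i⟩
    by_cases hO : pPrimeCore (q i) G = ⊥
    · have hM : RelP (q i) ⊥ (pPrimePCore (q i) G) := by
        simpa [hO] using le_pPrimePCore_iff.1 (le_refl (pPrimePCore (q i) G))
      have hM0 : pPrimePCore (q i) G ≠ ⊥ := pPrimePCore_ne_bot isPSolvable_of_isSolvable
      obtain ⟨k, hk⟩ : ∃ k, l i = k + 1 := by
        refine Nat.exists_eq_add_one_of_ne_zero fun h0 => ?_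
        have := hl i
        rw [h0, pLengthLE_zero_iff] at this
        exact (Nat.Prime.coprime_iff_not_dvd hp).1 this.symm (hpN.trans N.card_subgroup_dvd_card)
      have h1 := key _ hM0 (Function.update l i k) fun j => by
        rcases eq_or_ne j i with rfl | hj
        · rw [Function.update_self]
          exact pLengthLE_succ_iff.1 (hk ▸ hl j)
        · rw [Function.update_of_ne hj]
          exact hl' _ j
      have h2 := der_add_le h1 (d i)
      rw [hd i _ (relP_bot_iff.1 hM), Subgroup.map_bot, le_bot_iff] at h2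
      rw [← h2]
      congr 1
      have h3 : ∑ j ∈ Finset.univ.erase i, d j * Function.update l i k j =
          ∑ j ∈ Finset.univ.erase i, d j * l j :=
        Finset.sum_congr rfl fun j hj => by rw [Function.update_of_ne (Finset.ne_of_mem_erase hj)]
      rw [← Finset.add_sum_erase _ _ (Finset.mem_univ i),
        ← Finset.add_sum_erase _ _ (Finset.mem_univ i), Function.update_self, hk, h3]
      ring
    · rw [← le_bot_iff, ← H1.inf_pPrimeCore_eq_bot hP]
      exact le_inf (key N hN.ne_bot l (hl' N)) (key _ hO l (hl' _))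


/-- The Hall–Higman bound on derived length: let G be a finite solvable group, let p₁, …, p_r be distinct primes that include every prime dividing the order of G, and suppose that for each i the Sylow p_i-subgroups of G have derived length at most d_i and G has p_i-length at most l_i. Then G has derived length at most Σ d_i l_i. -/
theorem result {G : Type*} [Group G] [Finite G] (hG : Group.IsSolvable G) (r : ℕ) (q : Fin r → ℕ) (hq : ∀ i, (q i).Prime) (hinj : Function.Injective q) (hcover : ∀ s : ℕ, s.Prime → s ∣ Nat.card G → ∃ i, q i = s) (d l : Fin r → ℕ) (hd : ∀ i, ∀ P : Subgroup G, (haveI := Fact.mk (hq i); ∃ S : Sylow (q i) G, (S : Subgroup G) = P) → derivedSeries ↥P (d i) = ⊥) (hl : ∀ i, Cfsg.PLengthLE (q i) (l i) G) : derivedSeries G (Finset.univ.sum fun i => d i * l i) = ⊥ := by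
  refine main q hq d _ G le_rfl hG hcover (fun i P hP => ?_) l hl
  have : Fact (q i).Prime := ⟨hq i⟩
  obtain ⟨S, hS⟩ := hP.exists_le_sylow
  exact der_of_le_map (MonoidHom.id G) (by simpa using hS) (hd i _ ⟨S, rfl⟩)

end Cfsg.Agent.S3791
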