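import Mathlib
import Cfsg.Statements.S3794
import Cfsg.Agent.Lib.FGS.Fpf
-- import your own Cfsg.Agent.* helpers here

set_option autoImplicit false
open Cfsg

namespace Cfsg.Agent.S3794


/-- Let G be a finite solvable group with an automorphism σ satisfying σ⁴ = 1 and fixing only the identity. Then the derived subgroup G' is nilpotent. -/
theorem result {G : Type*} [Group G] [Finite G] (hG : Group.IsSolvable G) (σ : MulAut G) (hσ : σ ^ 4 = 1) (hfpf : ∀ g : G, σ g = g → g = 1) : Group.IsNilpotent (commutator G) := by
  have : Fact (Nat.Prime 2) := ⟨Nat.prime_two⟩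
  have h1 := H76.mem_fitting_of_fpf hG (p := 2) σ (n := 1) hσ hfpf (Or.inr le_rfl)
  have h2 := H76.quotAut_eq_one _ h1
  rw [pow_one, map_pow] at h2
  have h3 : MonoidHom.FixedPointFree (H76.quotAut (fittingSubgroup G) σ) :=
    H76.quotAut_fpf _ hfpf
  apply H1.isNilpotent_of_le_fitting
  rw [commutator_def, Subgroup.commutator_le]
  intro a _ b _
  have := h3.commute_all_of_involutive (fun x => by
    rw [← MulAut.mul_apply, ← sq, h2]; rfl) (a : G ⧸ fittingSubgroup G) b
  rw [← QuotientGroup.eq_one_iff, ← QuotientGroup.mk'_apply, map_commutatorElement]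
  exact this.commutator_eq

end Cfsg.Agent.S3794
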