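import Mathlib
import Cfsg.Statements.S3797
import Cfsg.Agent.Lib.FGS.QuadCount
import Cfsg.Agent.Lib.FGS.HHGross
import Cfsg.Agent.Lib.FGS.Fpf
import Cfsg.Agent.Lib.FGS.KPi
import Cfsg.Agent.Lib.Core.CoprimeAbelian
import Cfsg.Agent.Lib.PGroup.Omega
-- import your own Cfsg.Agent.* helpers here

set_option autoImplicit false
open Cfsg

namespace Cfsg.Agent.S3797

open Subgroup H76
open scoped commutatorElement

variable {G : Type*} [Group G]

theorem semireg [Finite G] {E V K : Subgroup G} [hn : E.Normal] (hV : ∀ x, x ∈ V ↔ x ^ 2 = 1)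
    (hVE : V ≤ centralizer (E : Set G)) (hsq : ∀ x ∈ E, x ^ 2 ∈ V) (hVE' : V ≤ E)
    (hconj : ∀ x y : G, x ≠ 1 → x ^ 2 = 1 → y ≠ 1 → y ^ 2 = 1 → IsConj x y)
    (hK : (Nat.card K).Coprime 2) (hKV : K ≤ centralizer (V : Set G))
    (hf : ∀ k ∈ K, k ∈ centralizer (E : Set G) → k = 1) (hK0 : K ≠ ⊥) :
    ¬ E ≤ V ∧ (∀ k ∈ K, k ≠ 1 → E ⊓ centralizer {k} ≤ V) ∧ Nat.card K ∣ Nat.card V + 1 := by
  have hE : IsPGroup 2 E := H68.isPGroup_iff_forall.2 fun x hx =>
    ⟨2, by rw [sq, pow_mul, (hV _).1 (hsq x hx)]⟩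
  have hcop := H2.coprime_card_of_isPGroup hK hE
  have hcent : ∀ A ≤ K, ⁅E, A⁆ ≤ V → A ≤ centralizer (E : Set G) := fun A hA h =>
    H2.le_centralizer_of_commutator_le (H2.coprime_of_le_left (H2.coprime_of_le_right hcop hVE') hA)
      h (hA.trans hKV)
  obtain ⟨x, hx, k, hk, hxk⟩ : ∃ x ∈ E, ∃ k ∈ K, ⁅x, k⁆ ∉ V := by
    by_contra! h
    exact hK0 (eq_bot_iff.2 fun k hk => hf k hk (hcent K le_rfl (commutator_le.2 h) hk))
  have hV' : ∀ x : E, x ∈ V.subgroupOf E ↔ x ^ 2 = 1 := fun x => by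
    rw [mem_subgroupOf, hV, Subtype.ext_iff]
    rfl
  have hc : V.subgroupOf E ≤ center E := fun v hv =>
    mem_center_iff.2 fun g => Subtype.ext (hVE hv g g.2)
  have hsq' : ∀ x : E, x ^ 2 ∈ V.subgroupOf E := fun x => hsq x x.2
  have hEE : ⁅E, E⁆ ≤ V := commutator_le.2 fun a ha b hb =>
    (commHom hc hsq' ⟨a, ha⟩ ⟨b, hb⟩).2
  let x' : E := ⟨x, hx⟩⁻¹
  have hcj : ∀ k ∈ K, ∀ z : E, MulAut.conjNormal k z ^ 2 = z ^ 2 := fun k hk z => by
    rw [← map_pow]
    exact Subtype.ext (mul_inv_eq_of_eq_mul (hKV hk _ (hsq' z)).symm)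
  have hx2 : x' ^ 2 ≠ 1 := fun h => hxk (by
    rw [commutatorElement_eq_one_iff_mul_comm.2 (hKV hk x (inv_mem_iff.1 ((hV' _).2 h)))]
    exact one_mem _)
  obtain ⟨h1, h2⟩ := quad_count' hV' hc hsq' (N := Nat.card {z : E // z ^ 2 = x' ^ 2}) (by
    intro v hv hv1
    obtain ⟨g, hg⟩ := isConj_iff.1 (hconj v (x' ^ 2 : E) (fun h => hv1 (Subtype.ext h))
      ((hV _).1 hv) (fun h => hx2 (Subtype.ext h)) ((hV _).1 (hsq' x')))
    refine Nat.card_congr ((MulAut.conjNormal g : MulAut E).toEquiv.subtypeEquiv fun z => ?_)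
    rw [show x' ^ 2 = MulAut.conjNormal g v from Subtype.ext hg.symm, MulEquiv.toEquiv_eq_coe,
      EquivLike.coe_coe, ← map_pow, EmbeddingLike.apply_eq_iff_eq])
    ⟨x', MulAut.conjNormal k x', (hcj k hk x').symm, fun h => hxk (by
      simpa [x', mem_subgroupOf, commutatorElement_def, mul_assoc] using h)⟩
  have h3 : ∀ k ∈ K, k ≠ 1 → E ⊓ centralizer {k} ≤ V := by
    intro k hk hk1
    have hkK := zpowers_le.2 hk
    have hcop' := H2.coprime_of_le_left hcop hkK
    have hVk : V ≤ centralizer {k} := fun v hv => mem_centralizer_singleton_iff.2 (hKV hk v hv)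
    rcases h2 ((centralizer {k}).subgroupOf E) ((⁅E, zpowers k⁆ ⊔ V).subgroupOf E) (by
      intro c hc d hd
      have h4 : ⁅⁅E, zpowers k⁆, E ⊓ centralizer {k}⁆ = ⊥ := by
        refine commutator_commutator_eq_bot_of_rotate ?_ ?_
        · rw [commutator_comm (zpowers k), (commutator_eq_bot_iff_le_centralizer
            (H₂ := zpowers k)).2 (by rw [H2.centralizer_zpowers]; exact inf_le_right),
            commutator_bot_left]
        · rw [commutator_eq_bot_iff_le_centralizer, H2.centralizer_zpowers]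
          exact ((commutator_mono inf_le_left le_rfl).trans hEE).trans hVk
      have h5 : ⁅E, zpowers k⁆ ⊔ V ≤ centralizer ((E ⊓ centralizer {k} : Subgroup G) : Set G) :=
        sup_le (commutator_eq_bot_iff_le_centralizer.1 h4)
          (hVE.trans (centralizer_le (SetLike.coe_subset_coe.2 inf_le_left)))
      exact Subtype.ext (h5 (mem_subgroupOf.1 hd) c (mem_inf.2 ⟨c.2, mem_subgroupOf.1 hc⟩))) (by
      ext z
      simp only [mem_inf, mem_subgroupOf]
      refine ⟨fun hz => ?_, fun hz => ⟨hVk hz, mem_sup_right hz⟩⟩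
      obtain ⟨d, hd, v, hv, h⟩ := (H68.mem_sup_of_le_normalizer'
        (hVE'.trans (normalizer_commutator_ge_left _ _))).1 hz.2
      rw [h]
      refine mul_mem (hEE (H2.commutator_inf_centralizer_le le_normalizer_of_normal hcop'
        (mem_inf.2 ⟨hd, ?_⟩))) hv
      rw [H2.centralizer_zpowers, eq_mul_inv_of_mul_eq h.symm]
      exact mul_mem hz.1 (inv_mem (hVk hv))) (eq_top_iff.2 fun z _ => by
      obtain ⟨c, hc, n, hn, h⟩ := H2.exists_centralizer_mul_commutator le_normalizer_of_normal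
        hcop' (Or.inl (H2.isSolvable_zpowers k)) z.2
      rw [H2.centralizer_zpowers] at hc
      rw [show z = ⟨c, hc.1⟩ * ⟨n, commutator_le_left _ _ hn⟩ from Subtype.ext h]
      exact mul_mem_sup hc.2 (mem_sup_left hn)) with h | h
    · exact fun z hz => (h.le (show (⟨z, hz.1⟩ : E) ∈ _ from hz.2) :)
    · exact absurd (hf k hk (hcent _ hkK (fun z hz => (h.le (show
        (⟨z, commutator_le_left _ _ hz⟩ : E) ∈ _ from mem_sup_left hz) :)) (mem_zpowers k))) hk1
  refine ⟨fun h => hxk (h (commutator_le_left _ _ (commutator_mem_commutator hx hk))), h3, ?_⟩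
  let _ : MulAction K {z : E // z ^ 2 = x' ^ 2} :=
    { smul := fun k z => ⟨MulAut.conjNormal (k : G) z, (hcj k k.2 z).trans z.2⟩
      one_smul := fun z => Subtype.ext (by
        change MulAut.conjNormal ((1 : K) : G) z.1 = z
        simp)
      mul_smul := fun a b z => Subtype.ext (by
        change MulAut.conjNormal ((a * b : K) : G) z.1 = MulAut.conjNormal (a : G)
          (MulAut.conjNormal (b : G) z.1)
        simp) }
  have h4 := H2.card_dvd_of_free (A := K) (X := {z : E // z ^ 2 = x' ^ 2}) fun a z h =>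
    by_contra fun ha => hx2 (z.2.symm.trans ((hV' _).1 (h3 a a.2 (fun h => ha (Subtype.ext h))
      ⟨z.1.2, mem_centralizer_singleton_iff.2 (mul_inv_eq_iff_eq_mul.1
        (congrArg (fun w : {z : E // z ^ 2 = x' ^ 2} => (w.1 : G)) h)).symm⟩)))
  rw [h1, H2.card_subgroupOf_of_le hVE'] at h4
  exact (H2.coprime_of_le_right hcop hVE').dvd_of_dvd_mul_left h4

theorem isZGroup_of_semireg [Finite G] {E V K : Subgroup G} [E.Normal] (hE : IsPGroup 2 E)
    (hK : (Nat.card K).Coprime 2) (h1 : ¬ E ≤ V)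
    (h2 : ∀ k ∈ K, k ≠ 1 → E ⊓ centralizer {k} ≤ V) : IsZGroup K := ⟨fun p hp P => by
  have : Fact p.Prime := ⟨hp⟩
  by_contra hnc
  have hp2 : p ≠ 2 := by
    rintro rfl
    have : (P : Subgroup K) = ⊥ := H68.eq_bot_of_isPGroup_of_not_dvd P.isPGroup' le_top (by
      rw [card_top]
      exact Nat.prime_two.coprime_iff_not_dvd.1 hK.symm)
    exact hnc (by rw [this]; infer_instance)
  obtain ⟨A, -, hA, hAc⟩ := H5.exists_normal_elementary_sq hp2 P.isPGroup' hnc
  let f := K.subtype.comp (P : Subgroup K).subtype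
  have hf : Function.Injective f := K.subtype_injective.comp (P : Subgroup K).subtype_injective
  have hAK : A.map f ≤ K := by
    rintro _ ⟨a, -, rfl⟩
    exact a.1.2
  refine h1 (H2.le_of_forall_centralizer_le (A := A.map f) (by have := hA.1; infer_instance)
    (fun hc => ?_) le_normalizer_of_normal
    (H2.coprime_of_le_left (H2.coprime_card_of_isPGroup hK hE) hAK) fun a ha => h2 a (hAK ha))
  obtain ⟨x, hx⟩ := (Subgroup.isCyclic_iff_exists_zpowers_eq_top _).1 hc
  obtain ⟨a, ha, rfl⟩ : x ∈ A.map f := hx ▸ mem_zpowers x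
  have := Nat.le_of_dvd hp.pos (orderOf_dvd_of_pow_eq_one (x := f a) (by
    rw [← map_pow, hA.2 a ha, map_one]))
  rw [← Nat.card_zpowers, hx, card_map_of_injective hf, hAc] at this
  nlinarith [hp.two_le]⟩

theorem core [Finite G] [Group.IsSolvable G] (hO : pPrimeCore 2 G = ⊥) {x y : G} (hxy : x ≠ y)
    (hx1 : x ≠ 1) (hx : x ^ 2 = 1) (hy1 : y ≠ 1) (hy : y ^ 2 = 1)
    (hconj : ∀ x y : G, x ≠ 1 → x ^ 2 = 1 → y ≠ 1 → y ^ 2 = 1 → IsConj x y) :
    (Nat.card (G ⧸ pCore 2 G)).Coprime 2 := by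
  have hT : ∀ C : Subgroup G, C.Normal → ∀ a ∈ C, a ≠ 1 → a ^ 2 = 1 → ∀ b, b ^ 2 = 1 → b ∈ C := by
    intro C hC a ha ha1 ha2 b hb
    rcases eq_or_ne b 1 with rfl | hb1
    · exact one_mem _
    obtain ⟨g, rfl⟩ := isConj_iff.1 (hconj a b ha1 ha2 hb1 hb)
    exact hC.conj_mem a ha g
  have hT' : ∀ C : Subgroup G, C.Normal → IsPGroup 2 C → C ≠ ⊥ → ∀ b, b ^ 2 = 1 → b ∈ C := by
    intro C hC h h0
    obtain ⟨a, ha, h2⟩ := H1.exists_mem_orderOf_eq_prime Nat.prime_two
      (H68.dvd_card_of_isPGroup_of_ne_bot h h0 le_rfl)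
    exact hT C hC a ha (by rintro rfl; simp at h2) (h2 ▸ pow_orderOf_eq_one a)
  set P := pCore 2 G with hP
  have hPp : IsPGroup 2 P := H1.isPGroup_pCore
  have hC : centralizer (P : Set G) ≤ P := H1.centralizer_pCore_le_of_isSolvable hO
  set M := (fittingSubgroup (G ⧸ P)).comap (QuotientGroup.mk' P) with hM
  have hPM : P ≤ M := by
    intro x hx
    rw [hM, mem_comap, QuotientGroup.mk'_apply, (QuotientGroup.eq_one_iff x).2 hx]
    exact one_mem _
  have hrel : (P.relIndex M).Coprime 2 := by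
    rw [hM, H3.relIndex_comap_mk', ← H1.fittingOf_top]
    exact coprime_card_fittingOf H1.pCore_quotient_pCore ⊤
  obtain ⟨K, hKM, hPK, hPK', hK⟩ := H3.exists_complement_in hPM le_normalizer_of_normal
    (H1.coprime_card_of_isPGroup_of_coprime hPp hrel)
  rw [← hK] at hrel
  rw [H3.relIndex_comap_mk'] at hK
  rw [Nat.coprime_comm, Nat.prime_two.coprime_iff_not_dvd]
  intro hdvd
  have hKF : K.map (QuotientGroup.mk' P) = fittingSubgroup (G ⧸ P) := by
    rw [← map_comap_eq_self_of_surjective (QuotientGroup.mk'_surjective P)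
      (fittingSubgroup (G ⧸ P)), ← hM, ← hPK, Subgroup.map_sup,
      (Subgroup.map_eq_bot_iff P).2 (QuotientGroup.ker_mk' P).ge, bot_sup_eq]
  have hK0 : K ≠ ⊥ := by
    rintro rfl
    have : Nontrivial (G ⧸ P) :=
      Finite.one_lt_card_iff_nontrivial.1 (Nat.le_of_dvd Nat.card_pos hdvd)
    exact H1.fitting_ne_bot_of_isSolvable (hKF.symm.trans (Subgroup.map_bot _))
  have hZ : ∀ b : G, b ^ 2 = 1 → b ∈ centralizer (P : Set G) :=
    hT' _ inferInstance (hPp.to_le hC) fun h => by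
      refine hx1 (mem_bot.1 (h ▸ ?_))
      by_cases h2 : P = ⊥
      · intro g hg
        rw [h2] at hg
        rw [mem_bot.1 hg, one_mul, mul_one]
      · have := (nontrivial_iff_ne_bot P).2 h2
        have := hPp.center_nontrivial
        obtain ⟨z, hz⟩ := exists_ne (1 : center P)
        exact absurd (Subtype.ext (Subtype.ext (mem_bot.1 (h.le fun g hg =>
          congrArg Subtype.val (mem_center_iff.1 z.2 ⟨g, hg⟩))))) hz
  have hN : (normalizer (K : Set G)).map (QuotientGroup.mk' P) = ⊤ := by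
    rw [H2.map_mk'_normalizer (H1.coprime_card_of_isPGroup_of_coprime hPp hrel).symm
      (Or.inr inferInstance), hKF, normalizer_eq_top]
  have hA : ∀ b : G, b ^ 2 = 1 → b ∈ centralizer (M : Set G) := by
    obtain ⟨a, ha, h2⟩ := H1.exists_mem_orderOf_eq_prime (H := normalizer (K : Set G))
      Nat.prime_two (hdvd.trans (by rw [← card_top, ← hN]; exact card_map_dvd _ _))
    have h3 : a ^ 2 = 1 := h2 ▸ pow_orderOf_eq_one a
    refine hT _ inferInstance a ?_ (by rintro rfl; simp at h2) h3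
    rw [← hPK, ← zpowers_le, le_centralizer_iff, sup_le_iff, ← le_centralizer_iff,
      ← le_centralizer_iff (K := K), zpowers_le, zpowers_le]
    refine ⟨hZ a h3, fun k hk => commutatorElement_eq_one_iff_mul_comm.1 (mem_bot.1 (hPK' ▸ ?_))⟩
    exact mem_inf.2 ⟨commutator_le_right K P (commutator_mem_commutator hk (hC (hZ a h3))),
      commutator_mem_of_le_normalizer hk ha⟩
  obtain ⟨Q, hQP, hcl, hn, hpow, -, hQ⟩ := exists_critical hPp
  have hQn : Q.Normal := normalizer_eq_top_iff.1 (eq_top_iff.2 (le_normalizer_of_normal.trans hn))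
  let V : Subgroup G :=
    { carrier := {b | b ^ 2 = 1}
      one_mem' := one_pow 2
      mul_mem' := fun {a b} ha hb => by
        change (a * b) ^ 2 = 1
        rw [Commute.mul_pow (hZ b hb a (hC (hZ a ha))), ha, hb, mul_one]
      inv_mem' := fun {a} ha => by
        change a⁻¹ ^ 2 = 1
        rw [inv_pow, ha, inv_one] }
  let E : Subgroup G :=
    { carrier := {b | b ∈ Q ∧ (b ^ 2) ^ 2 = 1}
      one_mem' := ⟨one_mem _, by simp⟩
      mul_mem' := fun {a b} ha hb => ⟨mul_mem ha.1 hb.1, by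
        have h1 : (a * b) ^ 2 = ⁅a, b⁆ * b ^ 2 * a ^ 2 := by
          have := hpow a ha.1 b hb.1
          calc (a * b) ^ 2 = a * b * a⁻¹ * (a ^ 2 * b) := by simp only [sq]; group
            _ = _ := by rw [← this, commutatorElement_def]; simp only [sq]; group
        rw [h1]
        refine V.mul_mem (V.mul_mem ?_ hb.2) ha.2
        have h2 : ⁅a, b⁆ * a = a * ⁅a, b⁆ :=
          congrArg Subtype.val (hcl.comm ⟨a, ha.1⟩ ⟨b, hb.1⟩ ⟨a, ha.1⟩)
        have h3 := commutatorElement_mul_left_eq_conj_mul a a b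
        rw [← h2, mul_inv_cancel_right, ← sq, ← sq,
          commutatorElement_eq_one_iff_mul_comm.2 (hpow a ha.1 b hb.1).symm] at h3
        exact h3.symm⟩
      inv_mem' := fun {a} ha => ⟨inv_mem ha.1, by rw [inv_pow, inv_pow, ha.2, inv_one]⟩ }
  have hEn : E.Normal := ⟨fun a ha g => ⟨hQn.conj_mem a ha.1 g, by
    rw [conj_pow, conj_pow, ha.2, mul_one, mul_inv_cancel]⟩⟩
  have hEP : E ≤ P := fun a ha => hQP ha.1
  have hf : ∀ k ∈ K, k ∈ centralizer (E : Set G) → k = 1 := by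
    intro k hk hkE
    have h1 : (orderOf k).Coprime 2 := hrel.coprime_dvd_left (K.orderOf_dvd_natCard hk)
    have h2 := H5.aut_eq_one_of_omega_two (hPp.to_le hQP)
      (conjAut Q (le_normalizer_of_normal (mem_top k))) (h1.coprime_dvd_left
        (orderOf_dvd_of_pow_eq_one (by
          ext g
          rw [coe_conjAut_pow, pow_orderOf_eq_one]
          simp))) fun g hg => Subtype.ext (by
      rw [coe_conjAut]
      exact mul_inv_eq_of_eq_mul (hkE g ⟨g.2, by
        rw [← pow_mul]; exact congrArg Subtype.val hg⟩).symm)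
    obtain ⟨e, he⟩ := IsPGroup.iff_card.1 hPp
    refine mem_bot.1 (hPK' ▸ mem_inf.2 ⟨hC (hQ k (le_normalizer_of_normal (mem_top k))
      (he ▸ h1.pow_right e) fun g hg => ?_), hk⟩)
    have := congrArg Subtype.val (MulEquiv.congr_fun h2 ⟨g, hg⟩)
    rw [coe_conjAut] at this
    exact (mul_inv_eq_iff_eq_mul.1 this).symm
  have hVE : V ≤ E := hT' E hEn (hPp.to_le hEP) fun h => hK0 (eq_bot_iff.2 fun k hk =>
    hf k hk fun g hg => by rw [mem_bot.1 (h.le hg), one_mul, mul_one])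
  obtain ⟨h1, h2, h3⟩ := semireg (V := V) (fun _ => Iff.rfl)
    (fun v hv => centralizer_le hEP (hZ v hv)) (fun a ha => ha.2) hVE hconj hrel
    (fun k hk v hv => (hA v hv k (hKM hk)).symm) hf hK0
  have := isZGroup_of_semireg (hPp.to_le hEP) hrel h1 h2
  have : IsZGroup (fittingSubgroup (G ⧸ P)) :=
    hKF ▸ IsZGroup.of_surjective (MonoidHom.subgroupMap_surjective _ K)
  have h4 : (centralizer {x}).index ∣ (Nat.card K).totient := by
    refine (index_dvd_of_le (show M ≤ _ from fun m hm =>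
      mem_centralizer_singleton_iff.2 (hA x hx m hm))).trans ?_
    rw [hM, index_comap_of_surjective _ (QuotientGroup.mk'_surjective _), hK,
      ← IsCyclic.card_mulAut]
    refine (index_dvd_of_le (show (MulAut.conjNormal (H := fittingSubgroup (G ⧸ P))).ker ≤ _ from
      fun g hg => H1.centralizer_fitting_le fun a ha => ?_)).trans ?_
    · exact (mul_inv_eq_iff_eq_mul.1 (congrArg Subtype.val (MulEquiv.congr_fun hg ⟨a, ha⟩))).symm
    · rw [index_ker]
      exact card_subgroup_dvd_card _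
  have h5 : (centralizer {x}).index + 1 = Nat.card V := by
    rw [← H77.ncard_isConj_eq_index, show {b | IsConj x b} = (V : Set G) \ {1} from
      Set.ext fun b => ⟨fun h => by
        obtain ⟨g, rfl⟩ := isConj_iff.1 h
        exact ⟨show _ ^ 2 = 1 by rw [conj_pow, hx, mul_one, mul_inv_cancel], by simpa using hx1⟩,
        fun h => hconj x b hx1 hx h.2 h.1⟩, Set.ncard_sdiff_singleton_add_one V.one_mem]
    rfl
  have h6 : 2 < Nat.card V := by
    rw [← SetLike.coe_sort_coe, Nat.card_coe_set_eq, Set.two_lt_ncard_iff]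
    exact ⟨1, x, y, V.one_mem, hx, hy, hx1.symm, hy1.symm, hxy⟩
  have h7 : 2 ∣ Nat.card V := H68.dvd_card_of_isPGroup_of_ne_bot (hPp.to_le (hVE.trans hEP))
    (fun h => hx1 (mem_bot.1 (h ▸ (hx : x ∈ V)))) le_rfl
  have h8 : 1 < Nat.card K := K.one_lt_card_iff_ne_bot.2 hK0
  have h9 : 2 < Nat.card K := lt_of_le_of_ne h8 fun h => by simp [← h] at hrel
  have h10 := Nat.le_of_dvd (Nat.totient_pos.2 (by omega))
    (Nat.Coprime.mul_dvd_of_dvd_of_dvd ((Nat.coprime_two_left.2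
      (Nat.odd_iff.2 (by omega)))) (even_iff_two_dvd.1 (Nat.totient_even h9)) h4)
  have h11 := Nat.totient_lt _ h8
  have h12 := Nat.le_of_dvd (Nat.succ_pos _) h3
  omega

theorem homocyclic {S : Type*} [CommGroup S] [Finite S] (hS : IsPGroup 2 S)
    (h : ∀ x y : S, x ≠ 1 → x ^ 2 = 1 → y ≠ 1 → y ^ 2 = 1 → ∃ a : MulAut S, a x = y) :
    ∃ m r : ℕ, Nonempty (S ≃* (Fin r → Multiplicative (ZMod (2 ^ m)))) := by
  classical
  obtain ⟨ι, _, n, hn, ⟨e⟩⟩ := CommGroup.equiv_prod_multiplicative_zmod_of_finite S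
  have hn' : ∀ i, NeZero (n i) := fun i => ⟨by have := hn i; omega⟩
  have h1 : ∀ i, ∃ a, n i = 2 ^ (a + 1) := fun i => by
    obtain ⟨k, hk⟩ := IsPGroup.iff_card.1 (hS.of_surjective
      ((Pi.evalMonoidHom _ i).comp e.toMonoidHom)
      ((Function.surjective_eval i).comp e.surjective))
    rw [Nat.card_congr Multiplicative.toAdd, Nat.card_zmod] at hk
    refine ⟨k - 1, by
      rw [Nat.sub_add_cancel (Nat.pos_of_ne_zero fun h => by simpa [hk, h] using hn i), hk]⟩
  choose a ha using h1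
  have ho : ∀ i, orderOf (Multiplicative.ofAdd (1 : ZMod (n i))) = 2 ^ (a i + 1) := fun i => by
    rw [orderOf_ofAdd_eq_addOrderOf, ZMod.addOrderOf_one, ha]
  have ht : ∀ i, Multiplicative.ofAdd (1 : ZMod (n i)) ^ 2 ^ a i ≠ 1 := fun i =>
    pow_ne_one_of_lt_orderOf (by positivity)
      (ho i ▸ Nat.pow_lt_pow_right one_lt_two (a i).lt_succ_self)
  let t : ι → S := fun i => e.symm (Pi.mulSingle i (Multiplicative.ofAdd 1))
  have ht1 : ∀ i, e (t i ^ 2 ^ a i) i ≠ 1 := fun i => by simpa [t] using ht i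
  have ht2 : ∀ i, (t i ^ 2 ^ a i) ^ 2 = 1 := fun i => by
    rw [← pow_mul, ← pow_succ, ← ho, ← map_pow, ← Pi.mulSingle_pow, pow_orderOf_eq_one]
    simp
  have h2 : ∀ i j, a i ≤ a j := fun i j => by
    obtain ⟨φ, hφ⟩ := h _ _ (fun h => ht1 i (by simp [h])) (ht2 i) (fun h => ht1 j (by simp [h]))
      (ht2 j)
    by_contra! h3
    refine ht1 j ?_
    rw [← hφ, map_pow, map_pow, Pi.pow_apply, ← orderOf_dvd_iff_pow_eq_one]
    refine (_root_.orderOf_dvd_natCard _).trans ?_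
    rw [Nat.card_congr Multiplicative.toAdd, Nat.card_zmod, ha]
    exact pow_dvd_pow 2 h3
  obtain ⟨m, hm⟩ : ∃ m, n = fun _ => 2 ^ m := by
    rcases isEmpty_or_nonempty ι with h3 | ⟨⟨i⟩⟩
    · exact ⟨0, Subsingleton.elim _ _⟩
    · exact ⟨a i + 1, funext fun j => by rw [ha, le_antisymm (h2 j i) (h2 i j)]⟩
  subst hm
  exact ⟨m, _, ⟨e.trans (MulEquiv.arrowCongr (Fintype.equivFin ι) (MulEquiv.refl _))⟩⟩


/-- Let G be a finite solvable group of even order whose Sylow 2-subgroups contain more than one involution, and suppose all involutions of G are conjugate. Then G has 2-length at most 1, and a Sylow 2-subgroup S of G is either homocyclic (a direct product of cyclic groups of one common order) or a non-abelian 2-group with more than one involution admitting a solvable group of automorphisms transitive on its involutions. -/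
theorem result {G : Type*} [Group G] [Finite G] (hG : Group.IsSolvable G) (heven : Even (Nat.card G)) (S : Sylow 2 G) (htwo : ∃ x y : G, x ∈ (S : Subgroup G) ∧ y ∈ (S : Subgroup G) ∧ x ≠ y ∧ x ≠ 1 ∧ x ^ 2 = 1 ∧ y ≠ 1 ∧ y ^ 2 = 1) (hconj : ∀ x y : G, x ≠ 1 → x ^ 2 = 1 → y ≠ 1 → y ^ 2 = 1 → IsConj x y) : Cfsg.PLengthLE 2 1 G ∧ ((∃ m r : ℕ, Nonempty (↥(S : Subgroup G) ≃* (Fin r → Multiplicative (ZMod (2 ^ m))))) ∨ (¬ IsMulCommutative (S : Subgroup G) ∧ ∃ Y : Subgroup (MulAut ↥(S : Subgroup G)), Group.IsSolvable Y ∧ ∀ x y : ↥(S : Subgroup G), x ≠ 1 → x ^ 2 = 1 → y ≠ 1 → y ^ 2 = 1 → ∃ a ∈ Y, a x = y)) := by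
  obtain ⟨x, y, hxS, hyS, hxy, hx1, hx, hy1, hy⟩ := htwo
  set O := pPrimeCore 2 G
  have hSO : (S : Subgroup G) ⊓ O = ⊥ := H1.inf_pPrimeCore_eq_bot S.isPGroup'
  have hinj : ∀ a ∈ (S : Subgroup G), ∀ b ∈ (S : Subgroup G), (a : G ⧸ O) = b → a = b :=
    fun a ha b hb h => inv_mul_eq_one.1 (mem_bot.1
      (hSO ▸ mem_inf.2 ⟨mul_mem (inv_mem ha) hb, QuotientGroup.eq.1 h⟩))
  have hlift : ∀ a : G ⧸ O, a ^ 2 = 1 → ∃ b : G, (b : G ⧸ O) = a ∧ b ^ 2 = 1 := by
    intro a ha
    obtain ⟨b, rfl, l, hl⟩ := exists_pElement_lift (p := 2) (QuotientGroup.mk'_surjective O)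
      (k := 1) ha
    refine ⟨b, rfl, mem_bot.1 ((H1.inf_pPrimeCore_eq_bot (isPGroup_zpowers_of_pow_eq_one hl)) ▸
      mem_inf.2 ⟨npow_mem_zpowers b 2, (QuotientGroup.eq_one_iff _).1 ha⟩)⟩
  have h := core (G := G ⧸ O) H1.pPrimeCore_quotient_pPrimeCore (x := x) (y := y)
    (fun h => hxy (hinj x hxS y hyS h)) (fun h => hx1 (hinj x hxS 1 (one_mem _) h))
    (by rw [← QuotientGroup.mk_pow, hx]; rfl) (fun h => hy1 (hinj y hyS 1 (one_mem _) h))
    (by rw [← QuotientGroup.mk_pow, hy]; rfl) (by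
      intro a b ha1 ha hb1 hb
      obtain ⟨a, rfl, ha'⟩ := hlift a ha
      obtain ⟨b, rfl, hb'⟩ := hlift b hb
      exact (QuotientGroup.mk' O).map_isConj (hconj a b (fun h => ha1 (by rw [h]; rfl)) ha'
        (fun h => hb1 (by rw [h]; rfl)) hb'))
  refine ⟨pLengthLE_of_ker_coprime (QuotientGroup.mk' O)
    (by rw [QuotientGroup.ker_mk']; exact H1.coprime_card_pPrimeCore)
    (pLengthLE_succ_of_ker_le (QuotientGroup.mk' (pCore 2 (G ⧸ O)))
    ((QuotientGroup.ker_mk' _).le.trans H23.pCore_le_pPrimePCore) (pLengthLE_zero_iff.2 h)), ?_⟩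
  have hN : (normalizer ((S : Subgroup G) : Set G)).map (QuotientGroup.mk' O) = ⊤ := by
    rw [H23.map_normalizer_of_isPGroup (QuotientGroup.mk'_surjective O)
      H23.coprime_card_ker_mk'_pPrimeCore S.isPGroup', le_antisymm
      (H1.le_of_coprime_index (H1.coprime_card_of_isPGroup_of_coprime (S.isPGroup'.map _) h))
      (pCore_le_map_sylow (QuotientGroup.mk'_surjective O) S), normalizer_eq_top]
  have hY : ∀ a b : (S : Subgroup G), a ≠ 1 → a ^ 2 = 1 → b ≠ 1 → b ^ 2 = 1 →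
      ∃ φ ∈ (S : Subgroup G).normalizerMonoidHom.range, φ a = b := by
    intro a b ha1 ha hb1 hb
    obtain ⟨g, hg⟩ := isConj_iff.1 (hconj a b (fun h => ha1 (Subtype.ext h))
      (congrArg Subtype.val ha) (fun h => hb1 (Subtype.ext h)) (congrArg Subtype.val hb))
    obtain ⟨n, hn, hng⟩ : QuotientGroup.mk' O g ∈ _ := hN ▸ mem_top _
    refine ⟨_, ⟨⟨n, hn⟩, rfl⟩, Subtype.ext (hinj _ (Subtype.prop _) _ b.2 ?_)⟩
    rw [← hg]
    change QuotientGroup.mk' O (n * a * n⁻¹) = QuotientGroup.mk' O _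
    simp only [map_mul, map_inv, hng]
  by_cases hc : IsMulCommutative (S : Subgroup G)
  · left
    let _ : CommGroup (S : Subgroup G) := ⟨hc.is_comm.comm⟩
    exact homocyclic S.isPGroup' fun a b h1 h2 h3 h4 => (hY a b h1 h2 h3 h4).imp fun _ h => h.2
  · exact Or.inr ⟨hc, _, Group.isSolvable_of_surjective (MonoidHom.rangeRestrict_surjective _), hY⟩

end Cfsg.Agent.S3797
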