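import Mathlib
import Cfsg.Statements.S3798
import Cfsg.Agent.Lib.FGS.PLength
import Cfsg.Agent.Lib.BG6.Omega
-- import your own Cfsg.Agent.* helpers here

set_option autoImplicit false
open Cfsg

namespace Cfsg.Agent.S3798

open Subgroup
open scoped commutatorElement

theorem core {H : Type*} [Group H] [Finite H] {p : ℕ} [hp : Fact p.Prime] (hp2 : p ≠ 2)
    (hH : IsPSolvable p H) (hO : pPrimeCore p H = ⊥)
    (hT : ∀ C : Subgroup H, C.Characteristic → ∀ x ∈ C, orderOf x = p → ∀ y, orderOf y = p → y ∈ C) :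
    (Nat.card (H ⧸ pCore p H)).Coprime p := by
  set P := pCore p H with hP
  have hPp : IsPGroup p P := H1.isPGroup_pCore
  have hC : centralizer (P : Set H) ≤ P := H23.centralizer_pCore_le_of_isPSolvable hH hO
  set M := (pPrimeCore p (H ⧸ P)).comap (QuotientGroup.mk' P) with hM
  have hMc : M.Characteristic := Characteristic.comap_quotient_mk inferInstance
  have hPM : P ≤ M := by
    intro x hx
    rw [hM, mem_comap, QuotientGroup.mk'_apply, (QuotientGroup.eq_one_iff x).2 hx]
    exact one_mem _
  have hrel : (P.relIndex M).Coprime p := by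
    rw [hM, H3.relIndex_comap_mk']; exact H1.coprime_card_pPrimeCore
  obtain ⟨K, hKM, hPK, hPK', hK⟩ := H3.exists_complement_in hPM
    (by rw [normalizer_eq_top]; exact le_top) (H1.coprime_card_of_isPGroup_of_coprime hPp hrel)
  rw [← hK] at hrel
  rw [Nat.coprime_comm, hp.out.coprime_iff_not_dvd]
  intro hdvd
  have hnt : Nontrivial (H ⧸ P) := by
    rw [← Finite.one_lt_card_iff_nontrivial]
    exact hp.out.one_lt.trans_le (Nat.le_of_dvd Nat.card_pos hdvd)
  have hP0 : P ≠ ⊥ := by
    intro h
    have h1 : (⊤ : Subgroup H) ≤ P := le_trans (by rw [h]; simp) hC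
    have : Subsingleton (H ⧸ P) := QuotientGroup.subsingleton_iff.2 (top_le_iff.1 h1)
    exact not_subsingleton _ this
  have hZ : ∀ y : H, orderOf y = p → y ∈ centralizer (P : Set H) := by
    have : Nontrivial P := (nontrivial_iff_ne_bot P).2 hP0
    have h1 := hPp.center_nontrivial
    obtain ⟨k, hk⟩ := IsPGroup.iff_card.1 (hPp.to_subgroup (center P))
    have hk0 : k ≠ 0 := by
      rintro rfl
      exact (Finite.one_lt_card (α := center P)).ne' hk
    obtain ⟨z, hz⟩ := exists_prime_orderOf_dvd_card' (G := center P) p (hk ▸ dvd_pow_self p hk0)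
    refine hT _ inferInstance z ?_ (by rw [orderOf_coe, orderOf_coe, hz])
    intro g hg
    exact congrArg Subtype.val (mem_center_iff.1 z.2 ⟨g, hg⟩)
  have hA : ∀ x ∈ centralizer (M : Set H), orderOf x ≠ p := by
    intro x hx hxp
    have h1 := hT _ inferInstance x hx hxp
    have h2 : K ≤ centralizer (P : Set H) := by
      refine H49.le_centralizer_of_fix_omega hp2 hPp (by rw [normalizer_eq_top]; exact le_top)
        hrel fun y _ hyp a ha => ?_
      by_cases hy1 : y = 1
      · simp [hy1]
      · exact (h1 y (orderOf_eq_prime hyp hy1) a (hKM ha)).symm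
    have h3 : M = P := by rw [← hPK, sup_eq_left]; exact h2.trans hC
    have h4 : pPrimeCore p (H ⧸ P) = ⊥ := by
      rw [← map_comap_eq_self_of_surjective (QuotientGroup.mk'_surjective P)
        (pPrimeCore p (H ⧸ P)), ← hM, h3, Subgroup.map_eq_bot_iff, QuotientGroup.ker_mk']
    apply H76.pPrimePCore_ne_bot (H76.isPSolvable_quotient hH P)
    rw [H23.pPrimePCore_eq_pCore_of_pPrimeCore_eq_bot h4]
    exact H1.pCore_quotient_pCore
  have hN : (normalizer (K : Set H)).map (QuotientGroup.mk' P) = ⊤ := by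
    rw [H2.map_mk'_normalizer (H1.coprime_card_of_isPGroup_of_coprime hPp hrel).symm
      (Or.inr (by have := hPp.isNilpotent; infer_instance))]
    have : K.map (QuotientGroup.mk' P) = pPrimeCore p (H ⧸ P) := by
      rw [← map_comap_eq_self_of_surjective (QuotientGroup.mk'_surjective P)
        (pPrimeCore p (H ⧸ P)), ← hM, ← hPK, Subgroup.map_sup,
        (Subgroup.map_eq_bot_iff P).2 (QuotientGroup.ker_mk' P).ge, bot_sup_eq]
    rw [this, normalizer_eq_top]
  have hd : p ∣ Nat.card (normalizer (K : Set H)) := by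
    refine hdvd.trans ?_
    rw [← card_top, ← hN]
    exact card_map_dvd _ _
  obtain ⟨y, hy⟩ := exists_prime_orderOf_dvd_card' p hd
  rw [← orderOf_coe] at hy
  apply hA y _ hy
  rw [← hPK, ← zpowers_le, le_centralizer_iff, sup_le_iff, ← le_centralizer_iff,
    ← le_centralizer_iff (K := K), zpowers_le, zpowers_le]
  refine ⟨hZ y hy, fun k hk => ?_⟩
  have h1 : (y : H) * k * (y : H)⁻¹ * k⁻¹ ∈ P ⊓ K := by
    refine ⟨?_, K.mul_mem (H3.conj_mem_of_mem_normalizer y.2 hk) (K.inv_mem hk)⟩
    have hyP := hC (hZ y hy)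
    have := mul_mem hyP ((inferInstance : P.Normal).conj_mem _ (inv_mem hyP) k)
    simpa [mul_assoc] using this
  rw [hPK', mem_bot, mul_inv_eq_one, mul_inv_eq_iff_eq_mul] at h1
  exact h1.symm


/-- The Gaschütz–Yen Theorem: let G be a finite p-soluble group, p an odd prime dividing its order, such that the automorphism group of G permutes the subgroups of G of order p transitively. Then G has p-length at most 1. -/
theorem result {G : Type*} [Group G] [Finite G] {p : ℕ} [Fact p.Prime] (hp : p ≠ 2) (hdvd : p ∣ Nat.card G) (hG : Cfsg.IsPSolvable p G) (htrans : ∀ U V : Subgroup G, Nat.card U = p → Nat.card V = p → ∃ a : MulAut G, U.map a.toMonoidHom = V) : Cfsg.PLengthLE p 1 G := by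
  have hpp : p.Prime := Fact.out
  set N := pPrimeCore p G
  have hN : (Nat.card N).Coprime p := H1.coprime_card_pPrimeCore
  have hlift : ∀ x : G, orderOf (x : G ⧸ N) = p → orderOf (x ^ Nat.card N) = p := by
    intro x hx
    apply orderOf_eq_prime
    · have h1 : x ^ p ∈ N := by
        rw [← QuotientGroup.eq_one_iff, QuotientGroup.mk_pow]
        exact orderOf_dvd_iff_pow_eq_one.1 hx.dvd
      rw [← pow_mul, mul_comm, pow_mul]
      exact congrArg Subtype.val (pow_card_eq_one' (x := (⟨_, h1⟩ : N)))
    · intro h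
      have h1 : (x : G ⧸ N) ^ Nat.card N = 1 := by rw [← QuotientGroup.mk_pow, h]; rfl
      have := orderOf_dvd_of_pow_eq_one h1
      rw [hx] at this
      exact hpp.coprime_iff_not_dvd.1 hN.symm this
  have h := core hp (H76.isPSolvable_quotient hG N) H1.pPrimeCore_quotient_pPrimeCore (by
    intro C hC x hx hxp y hyp
    obtain ⟨x, rfl⟩ := QuotientGroup.mk_surjective x
    obtain ⟨y, rfl⟩ := QuotientGroup.mk_surjective y
    have hD : (C.comap (QuotientGroup.mk' N)).Characteristic :=
      Characteristic.comap_quotient_mk hC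
    obtain ⟨a, ha⟩ := htrans (zpowers (x ^ Nat.card N)) (zpowers (y ^ Nat.card N))
      (by rw [Nat.card_zpowers, hlift x hxp]) (by rw [Nat.card_zpowers, hlift y hyp])
    have h1 : y ^ Nat.card N ∈ C.comap (QuotientGroup.mk' N) := by
      rw [← zpowers_le, ← ha, ← characteristic_iff_map_eq.1 hD a]
      apply map_mono
      rw [zpowers_le]
      exact pow_mem hx _
    rw [mem_comap, map_pow] at h1
    refine H76.mem_of_pow_mem_of_coprime hN h1 ?_
    rw [orderOf_dvd_iff_pow_eq_one.1 hyp.dvd]
    exact one_mem C)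
  refine H76.pLengthLE_of_ker_coprime (QuotientGroup.mk' N) (by rwa [QuotientGroup.ker_mk']) ?_
  exact H76.pLengthLE_succ_of_ker_le (QuotientGroup.mk' (pCore p (G ⧸ N)))
    ((QuotientGroup.ker_mk' _).le.trans H23.pCore_le_pPrimePCore) (H76.pLengthLE_zero_iff.2 h)

end Cfsg.Agent.S3798
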