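import Mathlib
import Cfsg.Statements.S3799
import Cfsg.Agent.Lib.FGS.Heisenberg
-- import your own Cfsg.Agent.* helpers here

set_option autoImplicit false
open Cfsg

namespace Cfsg.Agent.S3799


/-- For every odd prime p and every n ≥ 1 there is an extraspecial p-group of order p^(1+2n) and exponent p; concretely, the general linear group of degree n + 2 over the field with p elements contains such a subgroup. -/
theorem result (p : ℕ) [Fact p.Prime] (hp : p ≠ 2) (n : ℕ) (hn : 1 ≤ n) : ∃ E : Subgroup (Matrix.GeneralLinearGroup (Fin (n + 2)) (ZMod p)), Cfsg.IsExtraspecial p ↥E ∧ Nat.card E = p ^ (1 + 2 * n) ∧ ∀ x ∈ E, x ^ p = 1 := by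
  let V := ZMod p × (Fin n → ZMod p) × ZMod p
  have hV : Module.finrank (ZMod p) V = n + 2 := by
    simp [V, Module.finrank_prod]; ring
  let b := Module.finBasisOfFinrankEq (ZMod p) V hV
  let f : H76.Heis (ZMod p) n →* Matrix.GeneralLinearGroup (Fin (n + 2)) (ZMod p) :=
    (Matrix.GeneralLinearGroup.toLin' b).symm.toMonoidHom.comp (H76.Heis.rep).toHomUnits
  have hf : Function.Injective f := by
    refine (Matrix.GeneralLinearGroup.toLin' b).symm.injective.comp ?_
    intro x y h
    exact H76.Heis.rep_injective (congrArg Units.val h)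
  let e := MonoidHom.ofInjective hf
  refine ⟨f.range, H76.isExtraspecial_of_equiv e (H76.Heis.isExtraspecial hn), ?_, ?_⟩
  · rw [← Nat.card_congr e.toEquiv, H76.Heis.card_eq, Nat.card_zmod]
  · rintro _ ⟨x, rfl⟩
    rw [← map_pow, H76.Heis.pow_prime_eq_one hp, map_one]

end Cfsg.Agent.S3799
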