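import Mathlib
import Cfsg.Statements.S3800
import Cfsg.Agent.Lib.Core.Coprime
import Cfsg.Agent.Lib.Core.Fitting
-- import your own Cfsg.Agent.* helpers here

set_option autoImplicit false
open Cfsg

namespace Cfsg.Agent.S3800


/-- Let G be a finite group, N a normal subgroup of G whose order is prime to p, and P a p-subgroup of G. Then in G/N the normalizer of the image of P is the image of N_G(P), and the centralizer of the image of P is the image of C_G(P). -/
theorem result {G : Type*} [Group G] [Finite G] {p : ℕ} [Fact p.Prime] (N : Subgroup G) [N.Normal] (hN : (Nat.card N).Coprime p) (P : Subgroup G) (hP : IsPGroup p P) : Subgroup.normalizer ((P.map (QuotientGroup.mk' N)) : Set (G ⧸ N)) = (Subgroup.normalizer (P : Set G)).map (QuotientGroup.mk' N) ∧ Subgroup.centralizer ((P.map (QuotientGroup.mk' N)) : Set (G ⧸ N)) = (Subgroup.centralizer (P : Set G)).map (QuotientGroup.mk' N) := by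
  have hcop : (Nat.card P).Coprime (Nat.card N) :=
    (H2.coprime_card_of_isPGroup hN hP).symm
  have hs : Group.IsSolvable P ∨ Group.IsSolvable N := Or.inl (H1.isSolvable_of_isPGroup hP)
  exact ⟨(H2.map_mk'_normalizer hcop hs).symm, (H2.map_mk'_centralizer hcop hs).symm⟩

end Cfsg.Agent.S3800
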