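import Mathlib
import Cfsg.Statements.S3979
import Cfsg.Agent.Lib.Schur.Main

set_option autoImplicit false
open Cfsg

namespace Cfsg.Agent.S3979


/-- A finite cyclic group has trivial Schur multiplier: every finite stem extension of it is an isomorphism, said through `HasCyclicSchurMultiplier G 1`. -/
theorem result {G : Type*} [Group G] [Finite G] [IsCyclic G] : Cfsg.HasCyclicSchurMultiplier G 1 := by
  rw [H78.Schur.hasCyclic_one_iff]
  intro Δ _ _ τ hτ
  have h1 : commutator Δ = ⊥ := by
    have := MonoidHom.isMulCommutative_of_isCyclic_of_ker_le_center τ hτ.2.1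
    rw [commutator_eq_bot_iff_center_eq_top, eq_top_iff]
    intro x _
    rw [Subgroup.mem_center_iff]
    intro g
    exact this.is_comm.comm _ _
  exact eq_bot_iff.2 (h1 ▸ hτ.2.2)

end Cfsg.Agent.S3979
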