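import Mathlib
import Cfsg.Statements.S3950
import Cfsg.Agent.Lib.Schur.Metacyclic
import Cfsg.Agent.S3979

set_option autoImplicit false
open Cfsg

namespace Cfsg.Agent.S3950

open H78.Schur
open scoped commutatorElement

/-- the bimultiplicative map attached to two additive characters -/
def beta {G : Type*} [Group G] {p : ℕ} (f g : G →* Multiplicative (ZMod p)) :
    G →* G →* Multiplicative (ZMod p) where
  toFun x :=
    { toFun := fun y => Multiplicative.ofAdd ((f x).toAdd * (g y).toAdd)
      map_one' := by simp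
      map_mul' := fun y z => by simp [mul_add, ofAdd_add] }
  map_one' := by ext y; simp
  map_mul' x y := by
    refine MonoidHom.ext fun z => ?_
    simp only [toAdd_mul, map_mul, add_mul, ofAdd_add, MonoidHom.coe_mk,
      OneHom.coe_mk, MonoidHom.mul_apply]

theorem beta_apply {G : Type*} [Group G] {p : ℕ} (f g : G →* Multiplicative (ZMod p)) (x y : G) :
    beta f g x y = Multiplicative.ofAdd ((f x).toAdd * (g y).toAdd) := rfl

/-- A finite abelian group has trivial Schur multiplier if and only if it is cyclic. -/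
theorem result {G : Type*} [CommGroup G] [Finite G] : Cfsg.HasCyclicSchurMultiplier G 1 ↔ IsCyclic G := by
  refine ⟨fun h => ?_, fun _ => Cfsg.Agent.S3979.result⟩
  classical
  obtain ⟨ι, _, n, hn, ⟨e⟩⟩ := CommGroup.equiv_prod_multiplicative_zmod_of_finite G
  by_cases hc : Pairwise fun i j => (n i).Coprime (n j)
  · have e1 := (ZMod.prodEquivPi n hc).toAddEquiv
    have e2 : Multiplicative (ZMod (∏ i, n i)) ≃* ((i : ι) → Multiplicative (ZMod (n i))) :=
      (AddEquiv.toMultiplicative e1).trans (MulEquiv.piMultiplicative _)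
    exact isCyclic_of_surjective _ (e2.trans e.symm).surjective
  · exfalso
    simp only [Pairwise, not_forall] at hc
    obtain ⟨i, j, hij, hc⟩ := hc
    obtain ⟨p, hp, hi, hj⟩ := Nat.Prime.not_coprime_iff_dvd.1 hc
    have : Fact p.Prime := ⟨hp⟩
    let f : G →* Multiplicative (ZMod p) :=
      (AddMonoidHom.toMultiplicative (ZMod.castHom hi (ZMod p)).toAddMonoidHom).comp
        ((Pi.evalMonoidHom (fun i => Multiplicative (ZMod (n i))) i).comp e.toMonoidHom)
    let g : G →* Multiplicative (ZMod p) :=
      (AddMonoidHom.toMultiplicative (ZMod.castHom hj (ZMod p)).toAddMonoidHom).comp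
        ((Pi.evalMonoidHom (fun i => Multiplicative (ZMod (n i))) j).comp e.toMonoidHom)
    let a : G := e.symm (Pi.mulSingle i (Multiplicative.ofAdd 1))
    let b : G := e.symm (Pi.mulSingle j (Multiplicative.ofAdd 1))
    have hfa : f a = Multiplicative.ofAdd 1 := by simp [f, a, ZMod.cast_one hi]
    have hgb : g b = Multiplicative.ofAdd 1 := by simp [g, b, ZMod.cast_one hj]
    have hga : g a = 1 := by simp [g, a, Pi.mulSingle_eq_of_ne (Ne.symm hij)]
    have h1 := BExt.commutator_eq_inl (β := beta f g) ⟨1, a⟩ ⟨1, b⟩ (mul_comm _ _)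
    simp only [beta_apply, hfa, hgb, hga, toAdd_ofAdd, toAdd_one, mul_one, mul_zero, ofAdd_zero,
      inv_one] at h1
    have h2 := ker_inf_eq_bot h (BExt.proj (beta f g)) BExt.proj_surjective BExt.ker_proj_le_center
    have h3 : BExt.inl (beta f g) (Multiplicative.ofAdd 1) ∈
        (BExt.proj (beta f g)).ker ⊓ commutator _ :=
      ⟨rfl, h1 ▸ Subgroup.commutator_mem_commutator trivial trivial⟩
    rw [h2, Subgroup.mem_bot] at h3
    have h4 : (1 : ZMod p) = 0 := congrArg (fun x => Multiplicative.toAdd (BExt.t x)) h3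
    exact one_ne_zero h4

end Cfsg.Agent.S3950
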