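import Mathlib
import Cfsg.Statements.S3951
import Cfsg.Agent.Lib.Schur.Metacyclic

set_option autoImplicit false
open Cfsg

namespace Cfsg.Agent.S3951

open H78.Schur
open scoped commutatorElement

/-- the bimultiplicative map `((a, b), (c, d)) ↦ a d` -/
def beta (m n : ℕ) (hnm : n ∣ m) : Multiplicative (ZMod m × ZMod n) →*
    Multiplicative (ZMod m × ZMod n) →* Multiplicative (ZMod n) where
  toFun x :=
    { toFun := fun y => Multiplicative.ofAdd (ZMod.castHom hnm (ZMod n) x.toAdd.1 * y.toAdd.2)
      map_one' := by simp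
      map_mul' := fun y z => by simp [mul_add, ofAdd_add] }
  map_one' := by ext y; simp
  map_mul' x y := by
    refine MonoidHom.ext fun z => ?_
    simp only [toAdd_mul, Prod.fst_add, map_add, add_mul, ofAdd_add, MonoidHom.coe_mk,
      OneHom.coe_mk, MonoidHom.mul_apply]
    rfl

theorem beta_apply (m n : ℕ) (hnm : n ∣ m) (x y : Multiplicative (ZMod m × ZMod n)) :
    beta m n hnm x y = Multiplicative.ofAdd (ZMod.castHom hnm (ZMod n) x.toAdd.1 * y.toAdd.2) := rfl

/-- For positive integers `m` and `n` with `n` dividing `m`, the Schur multiplier of the abelian group `ZMod m × ZMod n` (written multiplicatively) is cyclic of order `n`. In particular the elementary abelian group of order `p ^ 2` has multiplier of order `p`. -/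
theorem result (m n : ℕ) [NeZero m] [NeZero n] (hnm : n ∣ m) : Cfsg.HasCyclicSchurMultiplier (Multiplicative (ZMod m × ZMod n)) n := by
  have hσ : IsStemExtension (BExt.proj (beta m n hnm)) := by
    refine ⟨BExt.proj_surjective, BExt.ker_proj_le_center, fun x hx => ?_⟩
    have h1 := BExt.commutator_eq_inl (β := beta m n hnm) ⟨1, Multiplicative.ofAdd (1, 0)⟩
      ⟨1, Multiplicative.ofAdd (0, x.t.toAdd)⟩ (mul_comm _ _)
    have h2 : x = BExt.inl (beta m n hnm) x.t := by
      ext
      · rfl
      · exact congrArg (fun q => (Multiplicative.toAdd q).1) (hx : x.q = 1)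
      · exact congrArg (fun q => (Multiplicative.toAdd q).2) (hx : x.q = 1)
    simp only [beta_apply, toAdd_ofAdd, map_one, one_mul, ofAdd_toAdd, map_zero, mul_zero,
      ofAdd_zero, inv_one, mul_one] at h1
    rw [h2, ← h1]
    exact Subgroup.commutator_mem_commutator trivial trivial
  refine hasSchurMultiplier_of_card hσ (BExt.kerEquiv _) fun Δ _ _ τ hτ => ?_
  have hgen : Subgroup.closure {(Multiplicative.ofAdd (1, 0) : Multiplicative (ZMod m × ZMod n)),
      Multiplicative.ofAdd (0, 1)} = ⊤ := by
    rw [eq_top_iff]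
    intro x _
    obtain ⟨i, hi⟩ := ZMod.natCast_zmod_surjective x.toAdd.1
    obtain ⟨j, hj⟩ := ZMod.natCast_zmod_surjective x.toAdd.2
    have : x = (Multiplicative.ofAdd (1, 0)) ^ i * (Multiplicative.ofAdd (0, 1)) ^ j := by
      rw [← ofAdd_nsmul, ← ofAdd_nsmul, ← ofAdd_add]
      ext <;> simp [hi, hj]
    rw [this]
    exact Subgroup.mul_mem _ (Subgroup.pow_mem _ (Subgroup.subset_closure (by simp)) _)
      (Subgroup.pow_mem _ (Subgroup.subset_closure (by simp)) _)
  obtain ⟨c, h1, h2, -, h3⟩ := exists_metacyclic hτ hgen (r := 1) (by simp)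
  have h4 := h3 n (by
    rw [← ofAdd_nsmul]
    simp only [Prod.smul_mk, smul_zero, nsmul_eq_mul, mul_one, ZMod.natCast_self]
    exact one_mem _)
  have h5 := card_ker_dvd_of_le_zpowers h2 h4
  have h6 : τ c = 1 := by rw [h1]; simp
  simp only [h6, orderOf_one, one_pow, Finset.sum_const, Finset.card_range, smul_eq_mul, mul_one,
    Nat.div_one] at h5
  simpa using Nat.le_of_dvd (NeZero.pos n) h5

end Cfsg.Agent.S3951
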