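import Mathlib
import Cfsg.Statements.S3952
import Cfsg.Agent.Lib.Schur.Proj

set_option autoImplicit false
open Cfsg

namespace Cfsg.Agent.S3952


/-- If `A` is the Schur multiplier of the finite group `Q`, then the square of the exponent of `A` divides the order of `Q`. -/
theorem result {Q : Type*} [Group Q] [Finite Q] {A : Type*} [CommGroup A] (hA : Cfsg.HasSchurMultiplier Q A) : Monoid.exponent A ^ 2 ∣ Nat.card Q := by
  have := H78.Schur.finite_of_hasSchurMultiplier hA
  obtain ⟨Γ, _, _, σ, hσ, ⟨e⟩⟩ := hA.1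
  have := H78.Schur.hasEnoughRoots A
  obtain ⟨d⟩ := CommGroup.monoidHom_mulEquiv_of_hasEnoughRootsOfUnity A ℂ
  obtain ⟨a, ha⟩ := Monoid.exists_orderOf_eq_exponent (G := A) Monoid.ExponentExists.of_finite
  have h1 := H78.Schur.orderOf_sq_dvd_index σ.ker hσ.2.1 hσ.2.2 (e.monoidHomCongrLeft.symm (d.symm a))
  rw [MulEquiv.orderOf_eq, MulEquiv.orderOf_eq, ha, Subgroup.index_ker,
    MonoidHom.range_eq_top.2 hσ.1, Subgroup.card_top] at h1
  exact h1

end Cfsg.Agent.S3952
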