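import Mathlib
import Cfsg.Statements.S3953
import Cfsg.Agent.Lib.Schur.Transfer
import Cfsg.Agent.S3952

set_option autoImplicit false
open Cfsg

namespace Cfsg.Agent.S3953


/-- Let `P` be a Sylow `p`-subgroup of the finite group `G`, let `A` be the Schur multiplier of `G` and `B` that of `P`. Then the `p`-primary component of `A` is isomorphic to a direct factor of `B`: there are subgroups `C` and `D` of `B` meeting trivially and generating `B`, with `C` isomorphic to the `p`-primary component of `A`. -/
theorem result {G : Type*} [Group G] [Finite G] (p : ℕ) [Fact p.Prime] (P : Sylow p G) {A B : Type*} [CommGroup A] [CommGroup B] (hA : Cfsg.HasSchurMultiplier G A) (hB : Cfsg.HasSchurMultiplier P B) : ∃ C D : Subgroup B, C ⊓ D = ⊥ ∧ C ⊔ D = ⊤ ∧ Nonempty (CommGroup.primaryComponent A p ≃* C) := by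
  have := H78.Schur.finite_of_hasSchurMultiplier hA
  have := H78.Schur.finite_of_hasSchurMultiplier hB
  obtain ⟨i, tr, h⟩ := H78.Schur.exists_res_tr_multiplier (P : Subgroup G) hA hB
  have hp : p.Prime := Fact.out
  have hB' : ∀ b : B, ∃ n : ℕ, b ^ p ^ n = 1 := by
    intro b
    obtain ⟨n, hn⟩ := P.isPGroup'.exists_card_eq
    refine ⟨n, ?_⟩
    rw [← hn, ← orderOf_dvd_iff_pow_eq_one]
    exact (Monoid.order_dvd_exponent b).trans
      ((dvd_pow_self _ two_ne_zero).trans (Cfsg.Agent.S3952.result hB))
  have hcop : Nat.Coprime (Nat.card (CommGroup.primaryComponent A p)) (P : Subgroup G).index := by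
    obtain ⟨n, hn⟩ := (CommGroup.primaryComponent.isPGroup (G := A) (p := p)).exists_card_eq
    rw [hn]
    exact Nat.Coprime.pow_left _ ((Nat.Prime.coprime_iff_not_dvd hp).2 P.not_dvd_index)
  have hbij := (powCoprime hcop).bijective
  have hinj : Function.Injective (tr.comp (CommGroup.primaryComponent A p).subtype) := by
    intro a b hab
    apply hbij.1
    have := congrArg i hab
    simp only [MonoidHom.comp_apply, h] at this
    exact Subtype.ext this
  refine ⟨(tr.comp (CommGroup.primaryComponent A p).subtype).range, i.ker, ?_, ?_,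
    ⟨MonoidHom.ofInjective hinj⟩⟩
  · rw [eq_bot_iff]
    rintro _ ⟨⟨a, rfl⟩, ha⟩
    have h1 : a = 1 := by
      apply hbij.1
      have h2 : i (tr a) = 1 := ha
      rw [h] at h2
      exact Subtype.ext (by simpa using h2)
    simp [h1]
  · rw [eq_top_iff]
    intro b _
    have h1 : i b ∈ CommGroup.primaryComponent A p := by
      obtain ⟨n, hn⟩ := hB' b
      exact ⟨n, by rw [← map_pow, hn, map_one]⟩
    obtain ⟨a, ha⟩ := hbij.2 ⟨i b, h1⟩
    have h2 : (a : A) ^ (P : Subgroup G).index = i b := congrArg Subtype.val ha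
    have h3 : (tr a)⁻¹ * b ∈ i.ker := by
      rw [MonoidHom.mem_ker, map_mul, map_inv, h, h2, inv_mul_cancel]
    have h4 : tr a ∈ (tr.comp (CommGroup.primaryComponent A p).subtype).range := ⟨a, rfl⟩
    have := Subgroup.mul_mem_sup h4 h3
    simpa using this

end Cfsg.Agent.S3953
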