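import Mathlib
import Cfsg.Statements.S3957
import Cfsg.Agent.Lib.Schur.Main

set_option autoImplicit false
universe u v
open Cfsg

namespace Cfsg.Agent.S3957


/-- Let `Q` be a finite group with Schur multiplier `A` and let `τ : Δ →* Q` be a finite stem extension, `Δ` in the universe of `Q`. Then there is a finite stem extension `σ : Γ →* Q` with kernel isomorphic to `A` (a Schur covering group) and a surjective homomorphism `β : Γ →* Δ` with `τ ∘ β = σ`. -/
theorem result {Q : Type u} [Group Q] [Finite Q] {A : Type v} [CommGroup A] (hA : Cfsg.HasSchurMultiplier Q A) {Δ : Type u} [Group Δ] [Finite Δ] (τ : Δ →* Q) (hτ : Cfsg.IsStemExtension τ) : ∃ (Γ : Type u) (_ : Group Γ) (_ : Finite Γ) (σ : Γ →* Q), Cfsg.IsStemExtension σ ∧ Nonempty (σ.ker ≃* A) ∧ ∃ β : Γ →* Δ, Function.Surjective β ∧ τ.comp β = σ := by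
  open H78.Schur in
  obtain ⟨ψ, hψ⟩ := exists_lift (taut Q) τ hτ.1
  open H78.Schur in
  have hψs : Function.Surjective (τ.comp ψ) := hψ ▸ taut_surjective Q
  open H78.Schur in
  have hψs' := surjective_of_stem hτ ψ hψs
  open H78.Schur in
  obtain ⟨S, _, hS, hST, _, -, -, h1, ⟨e⟩⟩ := exists_cover_le (taut Q) (taut_surjective Q) _ rfl ψ.ker
    (commutator_le_ker_of_central τ hτ.2.1 ψ (by rw [hψ]))
    (by
      intro x hx
      rw [← hψ]
      show τ (ψ x) = 1
      rw [hx, map_one])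
    (by
      intro r hr
      have h2 : ψ r ∈ τ.ker := by rw [← hψ] at hr; exact hr
      have h3 := hτ.2.2 h2
      rw [commutator_eq_map τ hτ.2.1 ψ hψs] at h3
      obtain ⟨f, hf, hfr⟩ := h3
      refine ⟨r * f⁻¹, by simp [MonoidHom.mem_ker, hfr], by simpa using hf⟩)
  open H78.Schur in
  obtain ⟨e'⟩ := nonempty_equiv_hopf hA (taut Q) (taut_surjective Q) _ rfl
  obtain ⟨Γ, _, _, σ, d, h2, h3, ⟨e''⟩⟩ := H78.Schur.exists_stem_univ h1
  refine ⟨Γ, inferInstance, inferInstance, σ, h2, ⟨e''.trans (e.symm.trans e'.symm)⟩,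
    (QuotientGroup.lift S ψ hST).comp d.toMonoidHom, ?_, ?_⟩
  · refine Function.Surjective.comp (g := QuotientGroup.lift S ψ hST) ?_ d.surjective
    intro x
    obtain ⟨f, rfl⟩ := hψs' x
    exact ⟨(f : _ ⧸ S), rfl⟩
  · rw [h3, ← MonoidHom.comp_assoc]
    congr 1
    ext f
    exact DFunLike.congr_fun hψ (FreeGroup.of f)

end Cfsg.Agent.S3957
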