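import Mathlib
import Cfsg.Statements.S3960
import Cfsg.Agent.Lib.Schur.Main

set_option autoImplicit false
universe u
open Cfsg

namespace Cfsg.Agent.S3960


/-- A finite perfect group `Q` has a universal central extension: a finite perfect group `G` in the universe of `Q` and a surjective homomorphism `π : G →* Q` with central kernel such that for every group `X` in that universe and every surjective homomorphism `ξ : X →* Q` with central kernel there is exactly one homomorphism `η : G →* X` with `ξ ∘ η = π`. -/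
theorem result {Q : Type u} [Group Q] [Finite Q] (hQ : Group.IsPerfect Q) : ∃ (G : Type u) (_ : Group G) (_ : Finite G) (π : G →* Q), Group.IsPerfect G ∧ Function.Surjective π ∧ π.ker ≤ Subgroup.center G ∧ ∀ (X : Type u) [Group X] (ξ : X →* Q), Function.Surjective ξ → ξ.ker ≤ Subgroup.center X → ∃! η : G →* X, ξ.comp η = π := by
  obtain ⟨A, _, _, hA⟩ := H78.Schur.exists_hasSchurMultiplier Q
  obtain ⟨Γ, _, _, σ, hσ, ⟨e⟩⟩ := hA.1
  have hΓ : commutator Γ = ⊤ := by
    rw [eq_top_iff]
    intro x _
    have h1 : σ x ∈ (commutator Γ).map σ := by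
      rw [H78.Schur.map_commutator_of_surjective σ hσ.1, hQ.commutator_eq_top]; trivial
    obtain ⟨y, hy, hyx⟩ := h1
    have h2 : y⁻¹ * x ∈ commutator Γ := hσ.2.2 (by simp [MonoidHom.mem_ker, hyx])
    simpa using (commutator Γ).mul_mem hy h2
  refine ⟨Γ, inferInstance, inferInstance, σ, ⟨hΓ⟩, hσ.1, hσ.2.1, fun X _ ξ hs hξ => ?_⟩
  obtain ⟨η, h1, -⟩ := H78.Schur.exists_hom_commutator hA hσ (Nat.card_congr e.toEquiv).ge ξ hs hξ
  let ι : Γ →* commutator Γ := (MonoidHom.id Γ).codRestrict _ (fun x => by rw [hΓ]; trivial)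
  have h2 : ξ.comp (η.comp ι) = σ := by
    rw [← MonoidHom.comp_assoc, h1]
    rfl
  exact ⟨η.comp ι, h2, fun η' h' => H78.Schur.eq_of_perfect ξ hξ hΓ _ _ (h'.trans h2.symm)⟩

end Cfsg.Agent.S3960
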