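import Mathlib
import Cfsg.Statements.S3961
import Cfsg.Agent.Lib.Schur.Main
import Cfsg.Agent.S3962

set_option autoImplicit false
universe u v
open Cfsg

namespace Cfsg.Agent.S3961


/-- Let `π : G →* Q` be a surjective homomorphism with central kernel from a finite perfect group `G` (a perfect cover of `Q`). Then `π` is universal, in the sense that every surjective homomorphism `ξ : X →* Q` with central kernel from a group `X` in the universe of `G` admits a homomorphism `η : G →* X` with `ξ ∘ η = π`, if and only if `G` has trivial Schur multiplier. -/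
theorem result {G : Type u} {Q : Type v} [Group G] [Group Q] [Finite G] (hG : Group.IsPerfect G) (π : G →* Q) (hπ : Function.Surjective π) (hker : π.ker ≤ Subgroup.center G) : (∀ (X : Type u) [Group X] (ξ : X →* Q), Function.Surjective ξ → ξ.ker ≤ Subgroup.center X → ∃ η : G →* X, ξ.comp η = π) ↔ Cfsg.HasCyclicSchurMultiplier G 1 := by
  constructor
  · intro h
    rw [H78.Schur.hasCyclic_one_iff]
    intro Δ _ _ τ hτ
    have hΔ : commutator Δ = ⊤ := by
      rw [eq_top_iff]
      intro x _
      have h1 : τ x ∈ (commutator Δ).map τ := by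
        rw [H78.Schur.map_commutator_of_surjective τ hτ.1, hG.commutator_eq_top]; trivial
      obtain ⟨y, hy, hyx⟩ := h1
      have h2 : y⁻¹ * x ∈ commutator Δ := hτ.2.2 (by simp [MonoidHom.mem_ker, hyx])
      simpa using (commutator Δ).mul_mem hy h2
    have h3 : (π.comp τ).ker ≤ Subgroup.center Δ := by
      intro x hx
      have h4 : τ x ∈ Subgroup.center G := hker hx
      rw [← Cfsg.Agent.S3962.result ⟨hΔ⟩ τ hτ.1 hτ.2.1] at h4
      obtain ⟨y, hy, hyx⟩ := h4
      have h2 : y⁻¹ * x ∈ Subgroup.center Δ := hτ.2.1 (by simp [MonoidHom.mem_ker, hyx])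
      simpa using (Subgroup.center Δ).mul_mem hy h2
    obtain ⟨η, hη⟩ := h Δ (π.comp τ) (hπ.comp hτ.1) h3
    have h5 : τ.comp η = MonoidHom.id G :=
      H78.Schur.eq_of_perfect π hker hG.commutator_eq_top _ _ (by
        rw [← MonoidHom.comp_assoc, hη]; rfl)
    have h6 := H78.Schur.surjective_of_stem hτ η (by rw [h5]; exact Function.surjective_id)
    rw [eq_bot_iff]
    intro x hx
    obtain ⟨g, rfl⟩ := h6 x
    have h7 : g = 1 := (DFunLike.congr_fun h5 g).symm.trans hx
    simp [h7]
  · intro h X _ ξ hs hξ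
    let Y : Subgroup (X × G) := (ξ.comp (MonoidHom.fst X G)).eqLocus (π.comp (MonoidHom.snd X G))
    let τ : Y →* G := (MonoidHom.snd X G).comp Y.subtype
    have hτ : Function.Surjective τ := by
      intro g
      obtain ⟨x, hx⟩ := hs (π g)
      exact ⟨⟨(x, g), hx⟩, rfl⟩
    have hτ' : τ.ker ≤ Subgroup.center Y := by
      rintro ⟨⟨x, g⟩, hxg⟩ hy
      have h1 : g = 1 := hy
      subst h1
      have h2 : ξ x = 1 := by
        have : ξ x = π 1 := hxg
        rw [this, map_one]
      rw [Subgroup.mem_center_iff]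
      rintro ⟨⟨x', g'⟩, h'⟩
      ext
      · exact Subgroup.mem_center_iff.1 (hξ h2) x'
      · simp
    obtain ⟨η, h1, -⟩ := H78.Schur.exists_hom_commutator h (H78.Schur.stem_id (Q := G)) (by
      have h1 : Nat.card (Multiplicative (ZMod 1)) = 1 := by simp
      rw [h1]
      exact Nat.card_pos) τ hτ hτ'
    let ι : G →* commutator G := (MonoidHom.id G).codRestrict _
      (fun x => by rw [hG.commutator_eq_top]; trivial)
    refine ⟨(MonoidHom.fst X G).comp (Y.subtype.comp (η.comp ι)), ?_⟩
    ext g
    have h2 : ξ (η (ι g)).1.1 = π (η (ι g)).1.2 := (η (ι g)).2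
    have h3 : (η (ι g)).1.2 = g := DFunLike.congr_fun h1 (ι g)
    rw [h3] at h2
    exact h2

end Cfsg.Agent.S3961
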