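import Mathlib
import Cfsg.Statements.S3966

set_option autoImplicit false
open Cfsg

namespace Cfsg.Agent.S3966

open QuaternionGroup DihedralGroup
open scoped commutatorElement

/-- the projection from the dicyclic group to the dihedral group -/
def proj (n : ℕ) : QuaternionGroup n →* DihedralGroup n := MonoidHom.mk'
  (fun x => match x with
    | .a i => r (ZMod.castHom (Dvd.intro_left 2 rfl) (ZMod n) i)
    | .xa i => sr (ZMod.castHom (Dvd.intro_left 2 rfl) (ZMod n) i))
  (by
    rintro (i | i) (j | j)
    · simp only [a_mul_a, r_mul_r, map_add]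
    · simp only [a_mul_xa, r_mul_sr, map_sub]
    · simp only [xa_mul_a, sr_mul_r, map_add]
    · simp only [xa_mul_xa, sr_mul_sr, map_sub, map_add, map_natCast, ZMod.natCast_self, zero_add])

theorem proj_a (n : ℕ) (i : ZMod (2 * n)) :
    proj n (.a i) = r (ZMod.castHom (Dvd.intro_left 2 rfl) (ZMod n) i) := rfl

theorem proj_xa (n : ℕ) (i : ZMod (2 * n)) :
    proj n (.xa i) = sr (ZMod.castHom (Dvd.intro_left 2 rfl) (ZMod n) i) := rfl

/-- For even `n ≥ 2` the dicyclic group of order `4 n` is a stem extension of the dihedral group of order `2 n` with kernel of order `2`: there is a surjective homomorphism `QuaternionGroup n →* DihedralGroup n` whose kernel is central, lies in the commutator subgroup and has two elements. Together with the order of the multiplier this exhibits the dicyclic group as a Schur covering group of the dihedral group. -/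
theorem result (n : ℕ) [NeZero n] (hn : Even n) : ∃ σ : QuaternionGroup n →* DihedralGroup n, Cfsg.IsStemExtension σ ∧ Nat.card σ.ker = 2 := by
  have hsurj : Function.Surjective (proj n) := by
    rintro (i | i)
    · obtain ⟨j, hj⟩ := ZMod.castHom_surjective (Dvd.intro_left 2 rfl : n ∣ 2 * n) i
      exact ⟨.a j, by rw [proj_a, hj]⟩
    · obtain ⟨j, hj⟩ := ZMod.castHom_surjective (Dvd.intro_left 2 rfl : n ∣ 2 * n) i
      exact ⟨.xa j, by rw [proj_xa, hj]⟩
  have hker : ∀ x ∈ (proj n).ker, ∃ k : ℕ, x = .a ((k * n : ℕ) : ZMod (2 * n)) := by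
    rintro (i | i) hx
    · obtain ⟨m, rfl⟩ := ZMod.natCast_zmod_surjective i
      rw [MonoidHom.mem_ker, proj_a, map_natCast, DihedralGroup.one_def] at hx
      have h1 : (m : ZMod n) = 0 := DihedralGroup.r.inj hx
      obtain ⟨k, rfl⟩ := (ZMod.natCast_eq_zero_iff _ _).1 h1
      exact ⟨k, by rw [mul_comm n k]⟩
    · rw [MonoidHom.mem_ker, proj_xa, DihedralGroup.one_def] at hx
      cases hx
  refine ⟨proj n, ⟨hsurj, fun x hx => ?_, fun x hx => ?_⟩, ?_⟩
  · obtain ⟨k, rfl⟩ := hker x hx
    rw [Subgroup.mem_center_iff]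
    rintro (i | i)
    · simp only [a_mul_a, add_comm]
    · simp only [a_mul_xa, xa_mul_a]
      congr 1
      have : ((k * n : ℕ) : ZMod (2 * n)) + ((k * n : ℕ) : ZMod (2 * n)) = 0 := by
        rw [← Nat.cast_add, ZMod.natCast_eq_zero_iff]
        exact ⟨k, by ring⟩
      linear_combination this
  · obtain ⟨k, rfl⟩ := hker x hx
    obtain ⟨m, hm⟩ := hn
    have h1 : ⁅(.a 1 : QuaternionGroup n), (.xa 0 : QuaternionGroup n)⁆ = (.a 1 : QuaternionGroup n) ^ 2 := by
      rw [commutatorElement_def, mul_inv_eq_iff_eq_mul, mul_inv_eq_iff_eq_mul, a_one_pow]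
      simp only [a_mul_xa, xa_mul_a]
      congr 1
      push_cast
      ring
    have h2 : (.a 1 : QuaternionGroup n) ^ 2 ∈ commutator (QuaternionGroup n) :=
      h1 ▸ Subgroup.commutator_mem_commutator trivial trivial
    have h3 := Subgroup.pow_mem _ h2 (k * m)
    rw [← pow_mul, a_one_pow] at h3
    have h4 : 2 * (k * m) = k * n := by rw [hm]; ring
    rwa [h4] at h3
  · have h1 := (proj n).ker.card_mul_index
    rw [Subgroup.index_ker, MonoidHom.range_eq_top.2 hsurj, Subgroup.card_top,
      DihedralGroup.nat_card, Nat.card_eq_fintype_card (α := QuaternionGroup n),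
      QuaternionGroup.card] at h1
    have := NeZero.pos n
    nlinarith

end Cfsg.Agent.S3966
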