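import Mathlib
import Cfsg.Statements.S3965
import Cfsg.Agent.Lib.Schur.Dihedral
import Cfsg.Agent.S3966

set_option autoImplicit false
open Cfsg

namespace Cfsg.Agent.S3965


/-- For even `n ≥ 2` the dihedral group of order `2 n` has Schur multiplier cyclic of order `2`. -/
theorem result (n : ℕ) [NeZero n] (hn : Even n) : Cfsg.HasCyclicSchurMultiplier (DihedralGroup n) 2 := by
  obtain ⟨σ, hσ, h2⟩ := Cfsg.Agent.S3966.result n hn
  have : Fact (Nat.Prime 2) := ⟨Nat.prime_two⟩
  have h3 : Nat.card (Multiplicative (ZMod 2)) = 2 := by simp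
  refine H78.Schur.hasSchurMultiplier_of_card hσ (mulEquivOfPrimeCardEq h2 h3) ?_
  intro Δ _ _ τ hτ
  have := H78.Schur.card_ker_dvd_dihedral n hτ
  generalize Nat.card τ.ker = c at this ⊢
  obtain ⟨m, hm⟩ := hn
  have hm0 : 0 < m := by have := NeZero.pos n; omega
  rw [hm, ← two_mul, Nat.gcd_mul_right_left, Nat.mul_div_cancel_left _ two_pos,
    Nat.mul_div_cancel _ hm0] at this
  rw [h3]
  exact Nat.le_of_dvd two_pos this

end Cfsg.Agent.S3965
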