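import Mathlib
import Cfsg.Statements.S3967
import Cfsg.Agent.Lib.Schur.Metacyclic

set_option autoImplicit false
open Cfsg

namespace Cfsg.Agent.S3967

open H78.Schur
open scoped commutatorElement

theorem exists_model (M n r t : ℕ) (hM : 0 < M) (hn : 0 < n) (h1 : r ^ n ≡ 1 [MOD M])
    (h2 : t * r ≡ t [MOD M]) : ∃ (Γ : Type) (_ : Group Γ) (x y : Γ), orderOf x = M ∧
      y ^ n = x ^ t ∧ y * x * y⁻¹ = x ^ r := by
  have : NeZero M := ⟨hM.ne'⟩
  let A := Multiplicative (ZMod M)
  let g : A := Multiplicative.ofAdd 1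
  have hg : orderOf g = M := by simp [g, A]
  have hA : Nat.card A = M := by simp [A]
  have hall : ∀ a : A, a ^ M = 1 := fun a => by
    have := pow_card_eq_one' (x := a)
    rwa [hA] at this
  have hcop : Nat.Coprime (Nat.card A) r := by
    rw [hA]
    have h3 : Nat.Coprime (r ^ n) M := by
      rw [Nat.Coprime, h1.gcd_eq]; simp
    exact (Nat.Coprime.coprime_dvd_left (dvd_pow_self r hn.ne') h3).symm
  let α : MulAut A := MulEquiv.ofBijective (powMonoidHom r) (powCoprime hcop).bijective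
  have hα : ∀ (k : ℕ) (a : A), (α ^ k) a = a ^ r ^ k := by
    intro k
    induction k with
    | zero => simp
    | succ k ih =>
      intro a
      rw [pow_succ, MulAut.mul_apply, ih, pow_succ', pow_mul]
      rfl
  have hpow : ∀ (a : A) {i j : ℕ}, i ≡ j [MOD M] → a ^ i = a ^ j := fun a i j h =>
    pow_eq_pow_of_modEq h (hall a)
  have hαn : α ^ n = 1 := by
    ext a
    rw [hα, hpow a h1]
    simp
  have hαt : α (g ^ t) = g ^ t := by
    show (g ^ t) ^ r = g ^ t
    rw [← pow_mul, hpow g h2]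
  let φ : Multiplicative ℤ →* MulAut A := zpowersHom _ α
  let H := A ⋊[φ] Multiplicative ℤ
  let z : H := ⟨(g ^ t)⁻¹, Multiplicative.ofAdd (n : ℤ)⟩
  have hz : z ∈ Subgroup.center H := by
    rw [Subgroup.mem_center_iff]
    intro w
    have h4 : φ w.right (g ^ t) = g ^ t :=
      (MulAction.stabilizer (MulAut A) (g ^ t)).zpow_mem hαt w.right.toAdd
    have h5 : φ (Multiplicative.ofAdd (n : ℤ)) = 1 := by
      show α ^ (n : ℤ) = 1
      rw [zpow_natCast, hαn]
    apply SemidirectProduct.ext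
    · show w.left * φ w.right (g ^ t)⁻¹ = (g ^ t)⁻¹ * φ (Multiplicative.ofAdd (n : ℤ)) w.left
      rw [map_inv, h4, h5, mul_comm]
      rfl
    · exact mul_comm _ _
  have hD : (Subgroup.zpowers z).Normal := ⟨fun x hx w => by
    have := Subgroup.mem_center_iff.1 ((Subgroup.zpowers_le.2 hz) hx) w
    rwa [this, mul_inv_cancel_right]⟩
  let f := QuotientGroup.mk' (Subgroup.zpowers z)
  refine ⟨H ⧸ Subgroup.zpowers z, inferInstance, f (SemidirectProduct.inl g),
    f (SemidirectProduct.inr (Multiplicative.ofAdd 1)), ?_, ?_, ?_⟩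
  · refine (orderOf_injective (f.comp SemidirectProduct.inl) ?_ g).trans hg
    rw [injective_iff_map_eq_one]
    intro a ha
    obtain ⟨k, hk⟩ := (QuotientGroup.eq_one_iff _).1 ha
    have h6 := congrArg SemidirectProduct.rightHom hk
    simp only [map_zpow, SemidirectProduct.rightHom_inl] at h6
    have h7 : k * (n : ℤ) = 0 := congrArg Multiplicative.toAdd h6
    have h8 : k = 0 := by
      rcases mul_eq_zero.1 h7 with h | h
      · exact h
      · omega
    rw [h8] at hk
    simp only [zpow_zero] at hk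
    exact SemidirectProduct.inl_injective (hk.symm.trans (map_one _).symm)
  · rw [← map_pow f, ← map_pow f, ← map_pow SemidirectProduct.inr,
      ← map_pow SemidirectProduct.inl, eq_comm]
    refine QuotientGroup.eq.2 ?_
    rw [← map_inv, ← ofAdd_nsmul n (1 : ℤ), ← SemidirectProduct.mk_eq_inl_mul_inr, nsmul_one]
    exact Subgroup.mem_zpowers z
  · rw [← map_pow, ← map_pow, ← map_inv, ← map_inv, ← map_mul, ← map_mul,
      ← SemidirectProduct.inl_aut]
    rfl

/-- the relators -/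
abbrev rels (M n r t : ℕ) : Set (FreeGroup Bool) :=
  {FreeGroup.of true ^ M, (FreeGroup.of false) ^ n * (FreeGroup.of true ^ t)⁻¹,
    FreeGroup.of false * FreeGroup.of true * (FreeGroup.of false)⁻¹ * (FreeGroup.of true ^ r)⁻¹}

section
variable (M n r t : ℕ)

/-- first generator -/
abbrev ga : PresentedGroup (rels M n r t) := PresentedGroup.of true
/-- second generator -/
abbrev gb : PresentedGroup (rels M n r t) := PresentedGroup.of false

theorem rel1 : ga M n r t ^ M = 1 :=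
  PresentedGroup.one_of_mem (rels := rels M n r t) (x := FreeGroup.of true ^ M) (by simp)

theorem rel2 : gb M n r t ^ n = ga M n r t ^ t :=
  mul_inv_eq_one.1 (PresentedGroup.one_of_mem (rels := rels M n r t)
    (x := (FreeGroup.of false) ^ n * (FreeGroup.of true ^ t)⁻¹) (by simp))

theorem rel3 : gb M n r t * ga M n r t * (gb M n r t)⁻¹ = ga M n r t ^ r :=
  mul_inv_eq_one.1 (PresentedGroup.one_of_mem (rels := rels M n r t)
    (x := FreeGroup.of false * FreeGroup.of true * (FreeGroup.of false)⁻¹ *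
      (FreeGroup.of true ^ r)⁻¹) (by simp))

theorem gen : Subgroup.closure {ga M n r t, gb M n r t} = ⊤ := by
  rw [← PresentedGroup.closure_range_of]
  congr 1
  ext x
  simp [eq_comm, or_comm]

theorem exists_hom {Q : Type*} [Group Q] (a b : Q) (h1 : a ^ M = 1) (h2 : b ^ n = a ^ t)
    (h3 : b * a * b⁻¹ = a ^ r) :
    ∃ σ : PresentedGroup (rels M n r t) →* Q, σ (ga M n r t) = a ∧ σ (gb M n r t) = b := by
  refine ⟨PresentedGroup.toGroup (f := fun c => cond c a b) ?_, PresentedGroup.toGroup.of _,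
    PresentedGroup.toGroup.of _⟩
  rintro _ (rfl | rfl | rfl)
  · simp [h1]
  · simp [h2]
  · simp [h3]

theorem orderOf_ga (hM : 0 < M) (hn : 0 < n) (h1 : r ^ n ≡ 1 [MOD M])
    (h2 : t * r ≡ t [MOD M]) : orderOf (ga M n r t) = M := by
  obtain ⟨Γ, _, x, y, h3, h4, h5⟩ := exists_model M n r t hM hn h1 h2
  obtain ⟨σ, h6, -⟩ := exists_hom M n r t x y (by rw [← h3, pow_orderOf_eq_one]) h4 h5
  refine Nat.dvd_antisymm (orderOf_dvd_of_pow_eq_one (rel1 M n r t)) ?_
  have := orderOf_map_dvd σ (ga M n r t)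
  rwa [h6, h3] at this

theorem finite_pres (hM : 0 < M) (hn : 0 < n) : Finite (PresentedGroup (rels M n r t)) := by
  have ha : IsOfFinOrder (ga M n r t) := isOfFinOrder_iff_pow_eq_one.2 ⟨M, hM, rel1 M n r t⟩
  have hb : IsOfFinOrder (gb M n r t) := isOfFinOrder_iff_pow_eq_one.2 ⟨n * M, by positivity, by
    rw [pow_mul, rel2, ← pow_mul, mul_comm, pow_mul, rel1, one_pow]⟩
  have h1 : Finite (Subgroup.zpowers (ga M n r t)) := ha.finite_zpowers
  have h2 : Finite (Subgroup.zpowers (gb M n r t)) := hb.finite_zpowers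
  have hN : (Subgroup.zpowers (ga M n r t)).Normal := by
    rw [← Subgroup.normalizer_eq_top_iff, eq_top_iff, ← gen, Subgroup.closure_le]
    rintro _ (rfl | rfl)
    · exact Subgroup.le_normalizer (Subgroup.mem_zpowers _)
    · refine Subgroup.mem_normalizer_fintype ?_
      rintro _ ⟨i, rfl⟩
      simp only [← conj_zpow, rel3]
      exact Subgroup.zpow_mem _ (Subgroup.npow_mem_zpowers _ _) _
  refine Finite.of_surjective (fun p : Subgroup.zpowers (ga M n r t) × Subgroup.zpowers (gb M n r t) =>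
    (p.1 : PresentedGroup (rels M n r t)) * p.2) fun x => ?_
  have h3 : x ∈ Subgroup.zpowers (ga M n r t) ⊔ Subgroup.zpowers (gb M n r t) := by
    have : Subgroup.closure {ga M n r t, gb M n r t} ≤
        Subgroup.zpowers (ga M n r t) ⊔ Subgroup.zpowers (gb M n r t) := by
      rw [Subgroup.closure_le]
      rintro _ (rfl | rfl)
      · exact Subgroup.mem_sup_left (Subgroup.mem_zpowers _)
      · exact Subgroup.mem_sup_right (Subgroup.mem_zpowers _)
    exact this (gen M n r t ▸ trivial)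
  obtain ⟨y, hy, z, hz, rfl⟩ := Subgroup.mem_sup_of_normal_left.1 h3
  exact ⟨(⟨y, hy⟩, ⟨z, hz⟩), rfl⟩

end

theorem exists_coprime_lift (u e r₀ : ℕ) (hu : 0 < u) (he : 0 < e) (h : Nat.Coprime r₀ u) :
    ∃ w, w ≡ r₀ [MOD u] ∧ Nat.Coprime w (u * e) := by
  have : NeZero (u * e) := ⟨by positivity⟩
  obtain ⟨x, hx⟩ := ZMod.unitsMap_surjective (Dvd.intro e rfl : u ∣ u * e) (ZMod.unitOfCoprime r₀ h)
  refine ⟨(x : ZMod (u * e)).val, ?_, ZMod.val_coe_unit_coprime x⟩
  rw [← ZMod.natCast_eq_natCast_iff, ← ZMod.coe_unitOfCoprime r₀ h, ← hx]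
  simp [ZMod.unitsMap_def]

theorem main (d u r₀ n l : ℕ) (hd : 0 < d) (hu : 0 < u) (hn : 0 < n) (hc : Nat.Coprime r₀ u)
    (s₀ : ℕ) (hs : ∑ i ∈ Finset.range n, (d * r₀ + 1) ^ i = u * s₀) :
    HasCyclicSchurMultiplier (PresentedGroup (rels (d * u) n (d * r₀ + 1) (u * l)))
      (Nat.gcd l (Nat.gcd d s₀)) := by
  set e := Nat.gcd l (Nat.gcd d s₀) with he
  have he0 : 0 < e := Nat.gcd_pos_of_pos_right _ (Nat.gcd_pos_of_pos_left _ hd)
  obtain ⟨l', hl⟩ : e ∣ l := Nat.gcd_dvd_left _ _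
  obtain ⟨d', hd'⟩ : e ∣ d := (Nat.gcd_dvd_right _ _).trans (Nat.gcd_dvd_left _ _)
  obtain ⟨s', hs'⟩ : e ∣ s₀ := (Nat.gcd_dvd_right _ _).trans (Nat.gcd_dvd_right _ _)
  obtain ⟨w, hw1, hw2⟩ := exists_coprime_lift u e r₀ hu he0 hc
  have hm : 0 < d * u := by positivity
  have hrr : d * w + 1 ≡ d * r₀ + 1 [MOD d * u] := (hw1.mul_left' d).add_right 1
  have hQ : orderOf (ga (d * u) n (d * r₀ + 1) (u * l)) = d * u := by
    refine orderOf_ga _ _ _ _ hm hn ?_ ?_
    · rw [← geom_sum_mul_add, hs]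
      exact (Nat.modEq_zero_iff_dvd.2 ⟨s₀ * r₀, by ring⟩).add_right 1
    · rw [mul_add, mul_one]
      simpa using (Nat.modEq_zero_iff_dvd.2 (⟨l * r₀, by ring⟩ : d * u ∣ u * l * (d * r₀))).add_right
        (u * l)
  have hΓ : orderOf (ga (d * u * e) n (d * w + 1) (u * l)) = d * u * e := by
    refine orderOf_ga _ _ _ _ (by positivity) hn ?_ ?_
    · rw [← geom_sum_mul_add]
      have h1 : ∑ i ∈ Finset.range n, (d * w + 1) ^ i ≡ ∑ i ∈ Finset.range n, (d * r₀ + 1) ^ i
          [MOD d * u] := Nat.ModEq.sum fun i _ => hrr.pow i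
      have h2 : u * e ∣ ∑ i ∈ Finset.range n, (d * w + 1) ^ i := by
        rw [(h1.of_dvd (⟨d', by rw [hd']; ring⟩ : u * e ∣ d * u)).dvd_iff dvd_rfl, hs]
        exact ⟨s', by rw [hs']; ring⟩
      obtain ⟨k, hk⟩ := h2
      rw [hk]
      exact (Nat.modEq_zero_iff_dvd.2 ⟨k * w, by ring⟩).add_right 1
    · rw [mul_add, mul_one]
      simpa using (Nat.modEq_zero_iff_dvd.2 (⟨l' * w, by rw [hl]; ring⟩ :
        d * u * e ∣ u * l * (d * w))).add_right (u * l)
  have := finite_pres (d * u) n (d * r₀ + 1) (u * l) hm hn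
  have := finite_pres (d * u * e) n (d * w + 1) (u * l) (by positivity) hn
  set a := ga (d * u) n (d * r₀ + 1) (u * l) with ha
  set b := gb (d * u) n (d * r₀ + 1) (u * l) with hb
  set x := ga (d * u * e) n (d * w + 1) (u * l) with hx
  set y := gb (d * u * e) n (d * w + 1) (u * l) with hy
  obtain ⟨σ, hσx, hσy⟩ := exists_hom (d * u * e) n (d * w + 1) (u * l) a b
    (by rw [pow_mul, rel1, one_pow]) (rel2 _ _ _ _)
    ((rel3 _ _ _ _).trans (pow_eq_pow_of_modEq hrr.symm (rel1 _ _ _ _)))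
  have hxc : x ^ (d * u) ∈ Subgroup.center _ := by
    have h1 : Subgroup.centralizer {x ^ (d * u)} = ⊤ := by
      rw [eq_top_iff, ← gen, Subgroup.closure_le]
      rintro _ (rfl | rfl)
      · exact Subgroup.mem_centralizer_singleton_iff.2 (Commute.self_pow _ _)
      · refine Subgroup.mem_centralizer_singleton_iff.2 ?_
        rw [← mul_inv_eq_iff_eq_mul, ← conj_pow, rel3, ← pow_mul]
        refine pow_eq_pow_of_modEq ?_ (rel1 _ _ _ _)
        rw [add_mul, one_mul]
        simpa using (Nat.modEq_zero_iff_dvd.2 (⟨d' * w, by rw [hd']; ring⟩ :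
          d * u * e ∣ d * w * (d * u))).add_right (d * u)
    rw [Subgroup.mem_center_iff]
    intro g
    exact Subgroup.mem_centralizer_singleton_iff.1 (h1 ▸ trivial)
  have hD : (Subgroup.zpowers (x ^ (d * u))).Normal := ⟨fun z hz w => by
    have := Subgroup.mem_center_iff.1 ((Subgroup.zpowers_le.2 hxc) hz) w
    rwa [this, mul_inv_cancel_right]⟩
  have hker : σ.ker = Subgroup.zpowers (x ^ (d * u)) := by
    apply le_antisymm
    · let f := QuotientGroup.mk' (Subgroup.zpowers (x ^ (d * u)))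
      have hf : f x ^ (d * u) = 1 := by
        rw [← map_pow]
        exact (QuotientGroup.eq_one_iff _).2 (Subgroup.mem_zpowers _)
      obtain ⟨ρ, h1, h2⟩ := exists_hom (d * u) n (d * r₀ + 1) (u * l) (f x) (f y) hf
        (by rw [← map_pow, ← map_pow, rel2])
        (by rw [← map_inv, ← map_mul, ← map_mul, rel3, map_pow]; exact pow_eq_pow_of_modEq hrr hf)
      have h3 : ρ.comp σ = f := by
        apply PresentedGroup.ext
        rintro (_ | _)
        · exact (congrArg ρ hσy).trans h2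
        · exact (congrArg ρ hσx).trans h1
      intro k hk
      have h4 : f k = 1 := by rw [← h3, MonoidHom.comp_apply, hk, map_one]
      exact (QuotientGroup.eq_one_iff _).1 h4
    · rw [Subgroup.zpowers_le, MonoidHom.mem_ker, map_pow, hσx, rel1]
  have hσ : IsStemExtension σ := by
    refine ⟨?_, hker ▸ Subgroup.zpowers_le.2 hxc, hker ▸ Subgroup.zpowers_le.2 ?_⟩
    · rw [← MonoidHom.range_eq_top, eq_top_iff, ← gen, Subgroup.closure_le]
      rintro _ (rfl | rfl)
      · exact ⟨x, hσx⟩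
      · exact ⟨y, hσy⟩
    · have h1 : x ^ (d * w) ∈ commutator _ := by
        have : ⁅y, x⁆ = x ^ (d * w) := by
          rw [commutatorElement_def, rel3, pow_succ, mul_inv_cancel_right]
        exact this ▸ Subgroup.commutator_mem_commutator trivial trivial
      obtain ⟨v, hv⟩ := Nat.exists_mul_mod_eq_of_coprime u hw2 (by positivity : u * e ≠ 0)
      have h2 := Subgroup.pow_mem _ h1 v
      rw [← pow_mul] at h2
      have h3 : d * w * v ≡ d * u [MOD d * u * e] := by
        rw [mul_assoc, mul_assoc]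
        exact Nat.ModEq.mul_left' d hv.2
      rwa [pow_eq_pow_of_modEq h3 (rel1 _ _ _ _)] at h2
  have : NeZero e := ⟨he0.ne'⟩
  have hcard : Nat.card (Multiplicative (ZMod e)) = e := by simp
  have hcyc : IsCyclic σ.ker := hker ▸ inferInstance
  refine hasSchurMultiplier_of_card hσ (mulEquivOfCyclicCardEq ?_) fun Δ _ _ τ hτ => ?_
  · rw [hker, Nat.card_zpowers, orderOf_pow, hΓ, Nat.gcd_mul_right_left,
      Nat.mul_div_cancel_left _ hm, hcard]
  · obtain ⟨c, h1, h2, h3, h4⟩ := exists_metacyclic hτ (gen _ _ _ _) (rel3 _ _ _ _)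
    have h5 := h3 (d * u) (by rw [rel1]; exact one_mem _)
    have h6 := h3 (u * l) (by rw [← rel2]; exact Subgroup.npow_mem_zpowers _ _)
    have h7 := h4 n (by rw [rel2]; exact Subgroup.npow_mem_zpowers _ _)
    rw [hs] at h7
    have h8 : c ^ (u * e) = 1 := by
      rw [he, ← Nat.gcd_mul_left, ← Nat.gcd_mul_left, mul_comm u d]
      exact pow_gcd_eq_one.2 ⟨h6, pow_gcd_eq_one.2 ⟨h5, h7⟩⟩
    have h9 := card_ker_dvd_of_le_zpowers h2 h8
    rw [h1, rel3, pow_succ, mul_inv_cancel_right, orderOf_pow, hQ, Nat.gcd_mul_left,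
      hc.symm.gcd_eq_one, mul_one, Nat.mul_div_cancel_left _ hd, Nat.mul_div_cancel_left _ hu] at h9
    rw [hcard]
    exact Nat.le_of_dvd he0 h9

/-- Let `m, n ≥ 1`, `r ≥ 1` with `r ^ n ≡ 1 (mod m)`, and `l` a natural number; put `d = gcd(m, r - 1)`, `t = m l / d` and `h = d · gcd(m, 1 + r + ⋯ + r^(n-1)) / m`. The group presented by generators `a, b` and relations `a ^ m = 1`, `b ^ n = a ^ t`, `b a b⁻¹ = a ^ r` (a metacyclic group of order `m n`) has Schur multiplier cyclic of order `gcd(l, h)`. -/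
theorem result (m n r l : ℕ) (hm : 0 < m) (hn : 0 < n) (hr : 0 < r) (hrn : r ^ n ≡ 1 [MOD m]) : Cfsg.HasCyclicSchurMultiplier (PresentedGroup ({FreeGroup.of true ^ m, (FreeGroup.of false) ^ n * (FreeGroup.of true ^ (m * l / Nat.gcd m (r - 1)))⁻¹, FreeGroup.of false * FreeGroup.of true * (FreeGroup.of false)⁻¹ * (FreeGroup.of true ^ r)⁻¹} : Set (FreeGroup Bool))) (Nat.gcd l (Nat.gcd m (r - 1) * Nat.gcd m (∑ i ∈ Finset.range n, r ^ i) / m)) := by
  obtain ⟨r, rfl⟩ : ∃ r', r = r' + 1 := ⟨r - 1, by omega⟩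
  simp only [Nat.add_sub_cancel]
  have hd : 0 < Nat.gcd m r := Nat.gcd_pos_of_pos_left _ hm
  obtain ⟨u, r₀, hc, hu, hr₀⟩ := Nat.exists_coprime m r
  set d := Nat.gcd m r with hdd
  clear_value d
  subst hu hr₀
  have hu : 0 < u := Nat.pos_of_mul_pos_right hm
  obtain ⟨s₀, hs⟩ : u ∣ ∑ i ∈ Finset.range n, (r₀ * d + 1) ^ i := by
    rw [← geom_sum_mul_add] at hrn
    have h1 := Nat.modEq_zero_iff_dvd.1 (Nat.ModEq.add_right_cancel' (b := 0) 1 hrn)
    rw [← mul_assoc] at h1
    exact hc.dvd_of_dvd_mul_right (Nat.dvd_of_mul_dvd_mul_right hd h1)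
  have h2 := main d u r₀ n l hd hu hn hc.symm s₀ (by rw [mul_comm d, hs])
  have h3 : u * d * l / d = u * l := by
    rw [mul_right_comm, Nat.mul_div_cancel _ hd]
  have h4 : d * Nat.gcd (u * d) (∑ i ∈ Finset.range n, (r₀ * d + 1) ^ i) / (u * d) = Nat.gcd d s₀ := by
    rw [hs, Nat.gcd_mul_left, ← mul_assoc, mul_comm d u, Nat.mul_div_cancel_left _ hm]
  rw [Nat.add_sub_cancel, ← hdd, h3, h4, mul_comm u d, mul_comm r₀ d]
  exact h2

end Cfsg.Agent.S3967
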