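import Mathlib
import Cfsg.Statements.S3970
import Cfsg.Agent.Lib.FGS.AbSylNPC

set_option autoImplicit false
open Cfsg

namespace Cfsg.Agent.S3970


open Subgroup

theorem aux (n : ℕ) : ∀ {G : Type*} [Group G] [Finite G], Nat.card G = n →
    (∀ p q : ℕ, p.Prime → q.Prime → q ∣ Nat.card G → p < q → ∀ Q : Subgroup G, IsPGroup p Q →
      IsMulCommutative Q ∧ ((∀ x ∈ Q, x ^ p = 1) → Nat.card Q ∣ p ^ 2)) →
    ¬ 12 ∣ Nat.card G → Group.IsSolvable G := by
  induction n using Nat.strong_induction_on with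
  | _ n ih =>
  intro G _ _ hn h h12
  by_cases h1 : Nat.card G = 1
  · haveI := (Nat.card_eq_one_iff_unique.mp h1).1
    infer_instance
  set p := (Nat.card G).minFac with hpdef
  haveI hp : Fact p.Prime := ⟨Nat.minFac_prime h1⟩
  by_cases hq : ∃ q : ℕ, q.Prime ∧ q ∣ Nat.card G ∧ p < q
  swap
  · have : IsPGroup p G := IsPGroup.of_card (Nat.eq_prime_pow_of_unique_prime_dvd
      Nat.card_pos.ne' fun {q} hq' hd => le_antisymm (not_lt.mp fun hlt => hq ⟨q, hq', hd, hlt⟩)
        (Nat.minFac_le_of_dvd hq'.two_le hd))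
    haveI := this.isNilpotent
    infer_instance
  obtain ⟨q, hq, hqd, hpq⟩ := hq
  obtain ⟨P⟩ : Nonempty (Sylow p G) := inferInstance
  have hnpc : HasNormalPComplement p G := by
    by_cases h3 : p = 2 ∧ 3 ∣ Nat.card G
    · have hc : IsCyclic P := by
        obtain ⟨k, hk⟩ := P.isPGroup'.exists_card_eq
        have h4 : p ^ k ∣ Nat.card G := hk ▸ card_subgroup_dvd_card _
        refine isCyclic_of_card_dvd_prime (p := p) ?_
        rw [hk]
        by_contra hc
        have h5 : 2 ≤ k := by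
          by_contra h5
          interval_cases k <;> simp at hc
        have h6 := (pow_dvd_pow p h5).trans h4
        rw [h3.1] at h6
        have := h3.2
        omega
      exact ⟨P, _, inferInstance, hc.isComplement' hpdef.symm⟩
    refine H78.AbSyl.npc (d := 2) P (h p q hp.out hq hqd hpq P P.isPGroup').1
      (fun E hE => (h p q hp.out hq hqd hpq E (P.isPGroup'.to_le hE)).2) ?_
    intro r hr hrp hrd i hi1 hi2 hd
    have h4 : p < r := lt_of_le_of_ne (Nat.minFac_le_of_dvd hr.two_le hrd) hrp.symm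
    have h5 := hp.out.two_le
    have h6 : ¬ r ∣ p - 1 := fun hd => by
      have := Nat.le_of_dvd (by omega) hd
      omega
    interval_cases i
    · exact h6 (by simpa using hd)
    · rw [show p ^ 2 - 1 = (p + 1) * (p - 1) from Nat.sq_sub_sq p 1] at hd
      have h7 := Nat.le_of_dvd (by omega) ((hr.dvd_mul.mp hd).resolve_right h6)
      have h8 : r = p + 1 := by omega
      rcases hp.out.eq_two_or_odd' with h9 | h9
      · exact h3 ⟨h9, by rwa [h8, h9] at hrd⟩
      · have := hr.even_iff.mp (h8 ▸ h9.add_one)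
        omega
  obtain ⟨P, N, hN, hc⟩ := hnpc
  have hlt : Nat.card N < n := by
    rw [← hn, ← hc.card_mul]
    refine lt_mul_of_one_lt_right Nat.card_pos (Finite.one_lt_card_iff_nontrivial.mpr ?_)
    exact (nontrivial_iff_ne_bot _).mpr (P.ne_bot_of_dvd_card (Nat.minFac_dvd _))
  haveI : Group.IsSolvable N := by
    refine ih _ hlt rfl (fun r s hr hs hsd hrs Q hQ => ?_)
      fun hd => h12 (hd.trans (card_subgroup_dvd_card N))
    obtain ⟨h2, h3⟩ := h r s hr hs (hsd.trans (card_subgroup_dvd_card N)) hrs (Q.map N.subtype)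
      (hQ.map _)
    refine ⟨⟨⟨fun x y => Subtype.ext (Subtype.ext ?_)⟩⟩, fun h4 => ?_⟩
    · exact congrArg (fun z : Q.map N.subtype => (z : G))
        (h2.is_comm.comm ⟨_, mem_map_of_mem _ x.2⟩ ⟨_, mem_map_of_mem _ y.2⟩)
    · rw [← card_map_of_injective N.subtype_injective]
      refine h3 ?_
      rintro _ ⟨x, hx, rfl⟩
      rw [← map_pow, h4 x hx, map_one]
  haveI : Group.IsNilpotent (G ⧸ N) :=
    (P.isPGroup'.of_equiv hc.symm.QuotientMulEquiv.symm).isNilpotent
  exact Group.isSolvable_of_ker_le_range N.subtype (QuotientGroup.mk' N) (by simp)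

/-- Let `G` be a finite group such that for every prime `p` dividing its order, other than the largest such prime, the Sylow `p`-subgroups are abelian and generated by at most two elements, and suppose `12` does not divide the order of `G`. Then `G` is solvable. In particular a group of cube-free order not divisible by `12` is solvable. -/
theorem result {G : Type*} [Group G] [Finite G] (h : ∀ p : ℕ, p.Prime → p ∣ Nat.card G → (∃ q : ℕ, q.Prime ∧ q ∣ Nat.card G ∧ p < q) → ∀ P : Sylow p G, IsMulCommutative (P : Subgroup G) ∧ Group.rank (P : Subgroup G) ≤ 2) (h12 : ¬ 12 ∣ Nat.card G) : Group.IsSolvable G := by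
  refine aux _ rfl (fun p q hp hq hqd hpq Q hQ => ?_) h12
  by_cases hQ1 : Q = ⊥
  · subst hQ1
    exact ⟨inferInstance, fun _ => by simp⟩
  haveI := Fact.mk hp
  obtain ⟨P, hP⟩ := hQ.exists_le_sylow
  have hpd : p ∣ Nat.card G := by
    obtain ⟨k, hk0, hk⟩ := hQ.nontrivial_iff_card.mp ((Subgroup.nontrivial_iff_ne_bot Q).mpr hQ1)
    exact (dvd_pow_self p hk0.ne').trans (hk ▸ Subgroup.card_subgroup_dvd_card Q)
  obtain ⟨h1, h2⟩ := h p hp hpd ⟨q, hq, hqd, hpq⟩ P
  exact ⟨⟨⟨fun x y => Subtype.ext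
    (congrArg (fun z : P => (z : G)) (h1.is_comm.comm ⟨x, hP x.2⟩ ⟨y, hP y.2⟩))⟩⟩,
    fun h3 => (H78.AbSyl.card_dvd_pow_rank' h1 p hP h3).trans (pow_dvd_pow p h2)⟩

end Cfsg.Agent.S3970
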