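import Mathlib
import Cfsg.Statements.S3971
import Cfsg.Agent.Lib.FGS.AbSylNPC
import Cfsg.Agent.Lib.Core.GrpBasic

set_option autoImplicit false
open Cfsg

namespace Cfsg.Agent.S3971


open Subgroup

theorem cent_of_cyclic {G : Type*} [Group G] [Finite G] {R : Subgroup G} (hR : IsCyclic R)
    (h2 : IsPGroup 2 R) {g : G} (hg : g ∈ normalizer (R : Set G)) (ho : Odd (orderOf g)) :
    g ∈ centralizer (R : Set G) := by
  haveI : Fact (Nat.Prime 2) := ⟨Nat.prime_two⟩
  have h1 : IsPGroup 2 (MulAut R) := by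
    obtain ⟨k, hk⟩ := h2.exists_card_eq
    rcases k with _ | k
    · exact IsPGroup.of_card (n := 0) (by rw [hR.card_mulAut, hk]; simp)
    · exact IsPGroup.of_card (n := k) (by
        rw [hR.card_mulAut, hk, Nat.totient_prime_pow Nat.prime_two k.succ_pos]; simp)
  obtain ⟨k, hk⟩ := IsPGroup.iff_orderOf.mp h1 (R.normalizerMonoidHom ⟨g, hg⟩)
  have h3 := orderOf_map_dvd R.normalizerMonoidHom ⟨g, hg⟩
  rw [orderOf_mk] at h3
  have h4 : orderOf (R.normalizerMonoidHom ⟨g, hg⟩) = 1 :=
    Nat.eq_one_of_dvd_coprimes ((Nat.coprime_two_right.mpr ho).pow_right k) h3 hk.dvd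
  have h5 : (⟨g, hg⟩ : normalizer (R : Set G)) ∈ R.normalizerMonoidHom.ker :=
    orderOf_eq_one_iff.mp h4
  rwa [normalizerMonoidHom_ker] at h5

/-- Let `G` be a finite group of order `2 ^ a * n` with `n` odd and not divisible by `3`, and suppose `G` has an element of order `2 ^ (a - 1)` (so a Sylow `2`-subgroup has a cyclic subgroup of index at most `2`). Then `G` has a normal subgroup of order `n`. -/
theorem result {G : Type*} [Group G] [Finite G] (a n : ℕ) (hG : Nat.card G = 2 ^ a * n) (hn : Odd n) (h3 : ¬ 3 ∣ n) (hx : ∃ x : G, orderOf x = 2 ^ (a - 1)) : ∃ N : Subgroup G, N.Normal ∧ Nat.card N = n := by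
  haveI : Fact (Nat.Prime 2) := ⟨Nat.prime_two⟩
  obtain ⟨x, hx⟩ := hx
  obtain ⟨P, hxP⟩ := (IsPGroup.of_card (G := zpowers x) (p := 2) (n := a - 1)
    (by rw [Nat.card_zpowers, hx])).exists_le_sylow
  have hP : Nat.card P = 2 ^ a := by
    rw [P.card_eq_multiplicity, hG, Nat.factorization_mul (by positivity) hn.pos.ne',
      Nat.Prime.factorization_pow Nat.prime_two]
    simp [Nat.factorization_eq_zero_of_not_dvd hn.not_two_dvd_nat]
  have hi : (zpowers x).relIndex P ∣ 2 := by
    have h1 := H1.card_mul_relIndex_of_le hxP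
    rw [Nat.card_zpowers, hx, hP] at h1
    rcases a with _ | a
    · simp at h1
      simp [h1]
    · rw [Nat.add_sub_cancel, pow_succ] at h1
      rw [Nat.eq_of_mul_eq_mul_left (by positivity) h1]
  haveI hnorm : ((zpowers x).subgroupOf P).Normal := by
    rcases (Nat.dvd_prime Nat.prime_two).mp hi with h | h
    · rw [index_eq_one.mp h]; infer_instance
    · exact normal_of_index_eq_two h
  have hsq : ∀ y ∈ (P : Subgroup G), y ^ 2 ∈ zpowers x := fun y hy => by
    obtain ⟨k, hk⟩ := hi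
    have := ((zpowers x).subgroupOf P).pow_index_mem ⟨y, hy⟩
    rw [hk, pow_mul]
    exact pow_mem this k
  obtain ⟨P', N, hN, hc⟩ : HasNormalPComplement 2 G := by
    refine H4.hasNormalPComplement_of_forall_prime_pow P fun Q hQ q hq hq2 hqd g hg ⟨k, hk⟩ => ?_
    haveI := Fact.mk hq
    have hq3 : q ≠ 3 := by
      rintro rfl
      rw [hG] at hqd
      exact h3 (((by norm_num : Nat.Coprime 3 2).pow_right a).dvd_of_dvd_mul_left hqd)
    let R : Subgroup G := closure ((fun y => y ^ 2) '' (Q : Set G))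
    have hRx : R ≤ zpowers x := (closure_le _).mpr (by
      rintro _ ⟨y, hy, rfl⟩; exact hsq y (hQ hy))
    have hRQ : R ≤ Q := (closure_le _).mpr (by
      rintro _ ⟨y, hy, rfl⟩; exact Q.pow_mem hy 2)
    have hgR : g ∈ normalizer (R : Set G) := by
      refine mem_normalizer_fintype fun y hy => ?_
      have : R ≤ R.comap (MulAut.conj g).toMonoidHom := (closure_le _).mpr (by
        rintro _ ⟨y, hy, rfl⟩
        exact subset_closure ⟨g * y * g⁻¹, (mem_normalizer_iff.mp hg y).mp hy, conj_pow⟩)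
      exact this hy
    have hgC := cent_of_cyclic (isCyclic_of_le hRx) (P.isPGroup'.to_le (hRQ.trans hQ)) hgR
      (((hq.odd_of_ne_two hq2).pow (n := k)).of_dvd_nat (orderOf_dvd_of_pow_eq_one hk))
    set C := Q ⊓ centralizer {g} with hC
    have hRC : R ≤ C := le_inf hRQ fun y hy => mem_centralizer_singleton_iff.mpr (hgC y hy)
    have h4 : Nat.card Q ≤ 4 * Nat.card C := by
      obtain ⟨c, hc⟩ := (Subgroup.isCyclic_iff_exists_zpowers_eq_top _).mp
        (isCyclic_of_le (inf_le_left : zpowers x ⊓ Q ≤ zpowers x))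
      have h5 := H1.card_mul_relIndex_of_le (inf_le_right : zpowers x ⊓ Q ≤ Q)
      have h6 : (zpowers x ⊓ Q).relIndex Q ≤ 2 := by
        rw [inf_relIndex_right]
        exact (relIndex_le_of_le_right hQ (fun e => by simp [e] at hi)).trans
          (Nat.le_of_dvd two_pos hi)
      have h7 : c ∈ Q := (hc.le (mem_zpowers c)).2
      have h8 : orderOf (c ^ 2) ≤ Nat.card C := by
        rw [← Nat.card_zpowers]
        exact card_le_of_le (zpowers_le.mpr (hRC (subset_closure ⟨c, h7, rfl⟩)))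
      have h9 : orderOf c ≤ 2 * orderOf (c ^ 2) :=
        orderOf_le_of_pow_eq_one (Nat.mul_pos two_pos (orderOf_pos _))
          (by rw [pow_mul, pow_orderOf_eq_one])
      rw [← hc, Nat.card_zpowers, hc] at h5
      nlinarith
    have h5 := H4.card_modEq_card_inf_centralizer hg hk
    obtain ⟨i, hi⟩ := (P.isPGroup'.to_le hQ).exists_card_eq
    have h6 : Nat.card C ∣ 2 ^ i := hi ▸ card_dvd_of_le inf_le_left
    obtain ⟨m, hm, hm'⟩ := (Nat.dvd_prime_pow Nat.prime_two).mp h6
    obtain ⟨j, rfl⟩ := Nat.exists_eq_add_of_le hm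
    rw [← hC, hi, hm', pow_add] at h5
    rw [hi, hm', pow_add, mul_comm 4] at h4
    have h7 : 2 ^ j ≤ 2 ^ 2 := Nat.le_of_mul_le_mul_left h4 (by positivity)
    have h8 : j ≤ 2 := (Nat.pow_le_pow_iff_right one_lt_two).mp h7
    have h9 : 2 ^ j ≡ 1 [MOD q] := Nat.ModEq.cancel_left_of_coprime (c := 2 ^ m)
      (((Nat.coprime_primes hq Nat.prime_two).mpr hq2).pow_right m) (by rwa [mul_one])
    have h10 := (Nat.modEq_iff_dvd' Nat.one_le_two_pow).mp h9.symm
    have h11 : j = 0 := by
      interval_cases j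
      · rfl
      · exact absurd (Nat.dvd_one.mp h10) hq.one_lt.ne'
      · exact absurd ((Nat.prime_dvd_prime_iff_eq hq Nat.prime_three).mp h10) hq3
    have h12 : C = Q := eq_of_le_of_card_ge inf_le_left (by rw [hi, hm', h11, add_zero])
    exact fun y hy => mem_centralizer_singleton_iff.mp (h12.ge hy).2
  refine ⟨N, hN, ?_⟩
  have h1 := hc.card_mul
  rw [P'.card_eq_multiplicity, ← P.card_eq_multiplicity, hP, hG, mul_comm] at h1
  exact Nat.eq_of_mul_eq_mul_left (by positivity) h1

end Cfsg.Agent.S3971
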