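import Mathlib
import Cfsg.Statements.S3973
import Cfsg.Agent.Lib.Schur.Transfer

set_option autoImplicit false
open Cfsg

namespace Cfsg.Agent.S3973

open H78.Schur

/-- If a finite group is presented by `n` generators and a finite set of `r` relators, then its Schur multiplier can be generated by `r - n` elements. In particular a finite group with a presentation having as many relators as generators has trivial Schur multiplier. -/
theorem result (n : ℕ) (rels : Finset (FreeGroup (Fin n))) [Finite (PresentedGroup (rels : Set (FreeGroup (Fin n))))] {A : Type*} [CommGroup A] [Finite A] (hA : Cfsg.HasSchurMultiplier (PresentedGroup (rels : Set (FreeGroup (Fin n)))) A) : Group.rank A ≤ rels.card - n := by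
  classical
  let F := FreeGroup (Fin n)
  let R : Subgroup F := Subgroup.normalClosure (rels : Set F)
  have hR : (PresentedGroup.mk (rels : Set F)).ker = R := QuotientGroup.ker_mk' _
  obtain ⟨e⟩ := nonempty_equiv_hopf hA (PresentedGroup.mk (rels : Set F))
    (PresentedGroup.mk_surjective _) R hR
  have hRi : R.FiniteIndex := by rw [← hR]; infer_instance
  let N : Subgroup F := ⁅R, (⊤ : Subgroup F)⁆
  let W : Subgroup (F ⧸ N) := R.map (QuotientGroup.mk' N)
  have hW : W ≤ Subgroup.center (F ⧸ N) := by
    rintro _ ⟨r, hr, rfl⟩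
    exact mk_mem_center R hr
  letI := centralCommGroup W hW
  have hN : N ≤ (Abelianization.of : F →* Abelianization F).ker := by
    rw [Abelianization.ker_of]
    exact Subgroup.commutator_mono le_top le_top
  let φ : W →* Abelianization F := (QuotientGroup.lift N Abelianization.of hN).comp W.subtype
  let φ' : Additive W →ₗ[ℤ] FreeAbelianGroup (Fin n) := (MonoidHom.toAdditive φ).toIntLinearMap
  let v : rels → Additive W := fun r =>
    Additive.ofMul ⟨QuotientGroup.mk' N r, ⟨r, Subgroup.subset_normalClosure r.2, rfl⟩⟩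
  let ψ : (rels → ℤ) →ₗ[ℤ] Additive W := Fintype.linearCombination ℤ v
  have hψ : Function.Surjective ψ := by
    let S : Subgroup W := AddSubgroup.toSubgroup' (LinearMap.range ψ).toAddSubgroup
    have hn : ((S.map W.subtype).comap (QuotientGroup.mk' N)).Normal := by
      refine Subgroup.Normal.comap ⟨fun x hx g => ?_⟩ _
      have := Subgroup.mem_center_iff.1 (hW (Subgroup.map_subtype_le _ hx)) g
      rwa [this, mul_inv_cancel_right]
    have h1 : R ≤ (S.map W.subtype).comap (QuotientGroup.mk' N) := by
      refine Subgroup.normalClosure_le_normal fun r hr => ?_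
      refine ⟨(v ⟨r, hr⟩).toMul, ⟨Pi.single ⟨r, hr⟩ 1, ?_⟩, rfl⟩
      simp only [ψ, Fintype.linearCombination_apply_single, one_smul]
      rfl
    intro w
    obtain ⟨r, hr, hw⟩ := w.toMul.2
    obtain ⟨s, ⟨y, hy⟩, hs⟩ := h1 hr
    refine ⟨y, hy.trans ?_⟩
    have : s = w.toMul := Subtype.ext (hs.trans hw)
    rw [this]
    rfl
  have h2 : n ≤ Module.finrank ℤ (LinearMap.range (φ' ∘ₗ ψ)) := by
    have h3 : ∀ x : FreeAbelianGroup (Fin n),
        (R.index.factorial : ℤ) • x ∈ LinearMap.range (φ' ∘ₗ ψ) := by
      intro x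
      obtain ⟨f, hf⟩ := QuotientGroup.mk_surjective (Additive.toMul (α := Abelianization F) x)
      have h4 : f ^ R.index.factorial ∈ R :=
        Subgroup.pow_mem_of_index_ne_zero_of_dvd Subgroup.FiniteIndex.index_ne_zero f
          (fun m hm hm' => Nat.dvd_factorial hm hm')
      obtain ⟨y, hy⟩ := hψ (Additive.ofMul ⟨_, ⟨_, h4, rfl⟩⟩)
      refine ⟨y, ?_⟩
      rw [LinearMap.comp_apply, hy, natCast_zsmul]
      have h5 : x = Additive.ofMul (Abelianization.of f) := congrArg Additive.ofMul hf.symm
      rw [h5]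
      exact congrArg Additive.ofMul (map_pow (Abelianization.of : F →* _) f _)
    let m : FreeAbelianGroup (Fin n) →ₗ[ℤ] LinearMap.range (φ' ∘ₗ ψ) :=
      LinearMap.codRestrict _ ((R.index.factorial : ℤ) • LinearMap.id) h3
    have hm : Function.Injective m := by
      intro x y hxy
      have h6 : (R.index.factorial : ℤ) • x = (R.index.factorial : ℤ) • y := congrArg Subtype.val hxy
      exact smul_right_injective _ (Int.natCast_ne_zero.2 (Nat.factorial_ne_zero _)) h6
    have := LinearMap.finrank_le_finrank_of_injective hm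
    rwa [Module.finrank_eq_card_basis (FreeAbelianGroup.basis (Fin n)), Fintype.card_fin] at this
  have h7 : Module.finrank ℤ (LinearMap.range (φ' ∘ₗ ψ)) +
      Module.finrank ℤ (LinearMap.ker (φ' ∘ₗ ψ)) = rels.card := by
    rw [← (LinearMap.quotKerEquivRange (φ' ∘ₗ ψ)).finrank_eq, Submodule.finrank_quotient_add_finrank]
    simp
  let L := LinearMap.ker (φ' ∘ₗ ψ)
  let b := Module.finBasis ℤ L
  have hb : ∀ x : L, ((ψ x).toMul : F ⧸ N) ∈ hopf R := by
    intro x
    obtain ⟨r, hr, hw⟩ := (ψ x).toMul.2
    refine ⟨r, ⟨hr, ?_⟩, hw⟩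
    have h8 : QuotientGroup.lift N Abelianization.of hN ((ψ x).toMul : F ⧸ N) = 1 := x.2
    rw [← hw] at h8
    show r ∈ commutator F
    rw [← Abelianization.ker_of]
    exact h8
  let g : Multiplicative L →* hopf R :=
    (W.subtype.comp (AddMonoidHom.toMultiplicativeLeft
      (ψ ∘ₗ L.subtype).toAddMonoidHom)).codRestrict _ (fun x => hb x.toAdd)
  have hg : Function.Surjective g := by
    rintro ⟨_, r, hr, rfl⟩
    obtain ⟨y, hy⟩ := hψ (Additive.ofMul ⟨_, ⟨_, hr.1, rfl⟩⟩)
    have h9 : y ∈ L := by
      show φ' (ψ y) = 0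
      rw [hy]
      show Abelianization.of r = 1
      rw [← MonoidHom.mem_ker, Abelianization.ker_of]
      exact hr.2
    exact ⟨Multiplicative.ofAdd ⟨y, h9⟩, Subtype.ext (congrArg (fun w : Additive W => (w.toMul : F ⧸ N)) hy)⟩
  let s : Finset A := Finset.univ.image fun i => e.symm (g (Multiplicative.ofAdd (b i)))
  have hs : Subgroup.closure (s : Set A) = ⊤ := by
    rw [eq_top_iff]
    intro a _
    obtain ⟨x, hx⟩ := hg (e a)
    have h10 : a = e.symm (g x) := by rw [hx]; simp
    have h11 : x = ∏ i, (Multiplicative.ofAdd (b i)) ^ (b.repr x.toAdd i) := by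
      conv_lhs => rw [← ofAdd_toAdd x, ← b.sum_repr x.toAdd]
      rw [ofAdd_sum]
      simp only [ofAdd_zsmul]
    rw [h10, h11, map_prod, map_prod]
    refine Subgroup.prod_mem _ fun i _ => ?_
    rw [map_zpow, map_zpow]
    exact Subgroup.zpow_mem _ (Subgroup.subset_closure (by simp [s])) _
  have h12 := Group.rank_le hs
  have h13 : s.card ≤ Module.finrank ℤ L := Finset.card_image_le.trans (by simp)
  have h14 : Module.finrank ℤ L = Module.finrank ℤ (LinearMap.ker (φ' ∘ₗ ψ)) := rfl
  omega

end Cfsg.Agent.S3973
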