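import Mathlib
import Cfsg.Statements.S3974
import Cfsg.Agent.Lib.Schur.Proj

set_option autoImplicit false
universe u v
open Cfsg

namespace Cfsg.Agent.S3974

open H78.Schur

theorem exists_not_pow {L D : Type*} [CommGroup L] [IsMulTorsionFree L] [CommGroup D] [Finite D]
    (L₀ : Subgroup L) [Group.FG L₀] {p : ℕ} (hp : p.Prime) (hD : p ∣ Nat.card D) {x : L}
    (hx : x ∉ L₀) (hxp : x ^ p ∈ L₀) : ∃ θ : L₀ →* D, ∀ d : D, θ ⟨x ^ p, hxp⟩ ≠ d ^ p := by
  have : Fact p.Prime := ⟨hp⟩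
  obtain ⟨y, hy⟩ : ∃ y : D, ∀ d : D, d ^ p ≠ y := by
    by_contra h
    push Not at h
    have h1 : Function.Injective (fun d : D => d ^ p) := Finite.injective_iff_surjective.2 h
    obtain ⟨z, hz⟩ := exists_prime_orderOf_dvd_card' p hD
    have h2 : z = 1 := h1 (by simp [← hz])
    rw [h2, orderOf_one] at hz
    exact hp.one_lt.ne hz
  have : Module.Finite ℤ (Additive L₀) := Module.Finite.iff_addGroup_fg.mpr inferInstance
  have : IsMulTorsionFree L₀ := ⟨fun n hn a b hab => Subtype.ext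
    (IsMulTorsionFree.pow_left_injective hn (congrArg Subtype.val hab))⟩
  have : Module.Free ℤ (Additive L₀) := inferInstance
  let b := Module.finBasis ℤ (Additive L₀)
  let w : Additive L₀ := Additive.ofMul ⟨x ^ p, hxp⟩
  obtain ⟨i, hi⟩ : ∃ i, ¬ (p : ℤ) ∣ b.repr w i := by
    by_contra h
    push Not at h
    choose c hc using h
    have h1 : w = p • ∑ i, c i • b i := by
      rw [← b.sum_repr w, Finset.smul_sum]
      refine Finset.sum_congr rfl fun i _ => ?_
      rw [hc, mul_smul, natCast_zsmul]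
    have h2 : x ^ p = ((∑ i, c i • b i).toMul : L) ^ p :=
      congrArg (fun v : Additive L₀ => (v.toMul : L)) h1
    exact hx (IsMulTorsionFree.pow_left_injective hp.ne_zero h2 ▸ (∑ i, c i • b i).toMul.2)
  refine ⟨(zpowersHom D y).comp (AddMonoidHom.toMultiplicativeRight (b.coord i).toAddMonoidHom),
    fun d hd => ?_⟩
  have h3 : y ^ (b.repr w i) = d ^ p := hd
  obtain ⟨s, t, hst⟩ := ((Nat.prime_iff_prime_int.1 hp).coprime_iff_not_dvd.2 hi :
    IsCoprime (p : ℤ) (b.repr w i))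
  apply hy (y ^ s * d ^ t)
  rw [mul_pow, ← zpow_natCast, ← zpow_natCast (d ^ t), ← zpow_mul, ← zpow_mul, mul_comm t,
    zpow_mul d, zpow_natCast, ← h3, ← zpow_mul, ← zpow_add, mul_comm _ t, hst, zpow_one]

theorem mem_commutator_of_stem {Γ Q : Type*} [Group Γ] [Group Q] {σ : Γ →* Q}
    (hσ : IsStemExtension σ) {g : Γ} (hg : σ g ∈ commutator Q) : g ∈ commutator Γ := by
  rw [← map_commutator_of_surjective σ hσ.1] at hg
  obtain ⟨y, hy, hyx⟩ := hg
  have h2 : y⁻¹ * g ∈ commutator Γ := hσ.2.2 (by simp [MonoidHom.mem_ker, hyx])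
  simpa using (commutator Γ).mul_mem hy h2

/-- elements with image in `Γ'` agree, modulo `F'`, with elements of the kernel -/
theorem exists_ker_of {F Γ : Type*} [Group F] [Group Γ] (ψ : F →* Γ) (hψ : Function.Surjective ψ)
    {f : F} (hf : ψ f ∈ commutator Γ) :
    ∃ s ∈ ψ.ker, Abelianization.of s = Abelianization.of f := by
  rw [← map_commutator_of_surjective ψ hψ] at hf
  obtain ⟨y, hy, hyx⟩ := hf
  refine ⟨f * y⁻¹, by simp [MonoidHom.mem_ker, hyx], ?_⟩
  have : Abelianization.of y = 1 := by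
    rw [← MonoidHom.mem_ker, Abelianization.ker_of]; exact hy
  simp [this]

/-- Let `Q` be a finite group with Schur multiplier `A`. Any two Schur covering groups of `Q` (finite stem extensions `σ₁ : Γ₁ →* Q`, `σ₂ : Γ₂ →* Q` with kernels isomorphic to `A`, `Γ₁, Γ₂` in the universe of `Q`) are isomorphic over `Q` — there is a group isomorphism `e : Γ₁ ≃* Γ₂` with `σ₂ ∘ e = σ₁` — if and only if the order of the commutator quotient of `Q` is coprime to the order of `A`. In particular a finite perfect group has a unique Schur covering group up to isomorphism over it. -/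
theorem result {Q : Type u} [Group Q] [Finite Q] {A : Type v} [CommGroup A] (hA : Cfsg.HasSchurMultiplier Q A) : (∀ (Γ₁ Γ₂ : Type u) [Group Γ₁] [Finite Γ₁] [Group Γ₂] [Finite Γ₂] (σ₁ : Γ₁ →* Q) (σ₂ : Γ₂ →* Q), Cfsg.IsStemExtension σ₁ → Cfsg.IsStemExtension σ₂ → Nonempty (σ₁.ker ≃* A) → Nonempty (σ₂.ker ≃* A) → ∃ e : Γ₁ ≃* Γ₂, σ₂.comp e.toMonoidHom = σ₁) ↔ Nat.Coprime (Nat.card (Abelianization Q)) (Nat.card A) := by
  have := finite_of_hasSchurMultiplier hA
  constructor
  · intro h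
    by_contra hc
    obtain ⟨p, hp, hpQ, hpA⟩ := Nat.Prime.not_coprime_iff_dvd.1 hc
    have : Fact p.Prime := ⟨hp⟩
    obtain ⟨Γ₁, _, _, σ₁, h₁, ⟨e₁⟩⟩ := hA.1
    obtain ⟨ψ, hψ⟩ := exists_lift (taut Q) σ₁ h₁.1
    have hψs : Function.Surjective (σ₁.comp ψ) := hψ ▸ taut_surjective Q
    have hψ' : ∀ f, σ₁ (ψ f) = taut Q f := fun f => DFunLike.congr_fun hψ f
    let F := FreeGroup Q
    let R : Subgroup F := (taut Q).ker
    have h1 := cover_ker_le hA h₁ (Nat.card_congr e₁.toEquiv).ge ψ hψs R (by rw [hψ])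
    letI := centralCommGroup σ₁.ker h₁.2.1
    have := torsionFree_abelianization F
    let L₀ := R.map (Abelianization.of : F →* Abelianization F)
    have : Group.FG L₀ := Group.fg_of_surjective
      (MonoidHom.subgroupMap_surjective (Abelianization.of : F →* Abelianization F) R)
    obtain ⟨y, hy⟩ := exists_prime_orderOf_dvd_card' p hpQ
    obtain ⟨q, hq⟩ := QuotientGroup.mk_surjective y
    obtain ⟨x, rfl⟩ := taut_surjective Q q
    have hq' : Abelianization.of (taut Q x) = y := hq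
    have hx : Abelianization.of x ∉ L₀ := by
      rintro ⟨r, hr, hrx⟩
      have h2 := congrArg (Abelianization.map (taut Q)) hrx
      rw [Abelianization.map_of, Abelianization.map_of, hq', (hr : taut Q r = 1), map_one] at h2
      rw [← h2, orderOf_one] at hy
      exact hp.one_lt.ne hy
    have hxp : Abelianization.of x ^ p ∈ L₀ := by
      obtain ⟨s, hs, hs'⟩ := exists_ker_of (taut Q) (taut_surjective Q) (f := x ^ p) (by
        rw [← Abelianization.ker_of, MonoidHom.mem_ker, map_pow, map_pow, hq', ← hy,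
          pow_orderOf_eq_one])
      exact ⟨s, hs, hs'.trans (map_pow _ _ _)⟩
    obtain ⟨θ, hθ⟩ := exists_not_pow (D := σ₁.ker) L₀ hp
      (by rwa [Nat.card_congr e₁.toEquiv]) hx hxp
    let ρ : R →* σ₁.ker :=
      (ψ.comp R.subtype).codRestrict _ (fun r => (hψ' r).trans r.2) *
        θ.comp ((Abelianization.of : F →* Abelianization F).subgroupMap R)
    have hρ : ∀ r : R, (ρ r : Γ₁) = ψ r * θ ⟨Abelianization.of (r : F), ⟨r, r.2, rfl⟩⟩ :=
      fun r => rfl
    have hρ' : ∀ r : R, (r : F) ∈ commutator F → (ρ r : Γ₁) = ψ r := by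
      intro r hr
      have h2 : (⟨Abelianization.of (r : F), ⟨r, r.2, rfl⟩⟩ : L₀) = 1 := by
        apply Subtype.ext
        show Abelianization.of (r : F) = 1
        rw [← MonoidHom.mem_ker, Abelianization.ker_of]; exact hr
      rw [hρ, h2, map_one, OneMemClass.coe_one, mul_one]
    have hT : (ρ.ker.map R.subtype).FiniteIndex := by
      refine ⟨?_⟩
      rw [Subgroup.index_map_subtype]
      exact mul_ne_zero Subgroup.FiniteIndex.index_ne_zero Subgroup.FiniteIndex.index_ne_zero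
    obtain ⟨S, _, hS, hST, _, -, -, h₂, ⟨e₂⟩⟩ := exists_cover_le (taut Q) (taut_surjective Q) R rfl
      (ρ.ker.map R.subtype)
      (by
        intro r hr
        have h2 : r ∈ R := Subgroup.commutator_le_left _ _ hr
        refine ⟨⟨r, h2⟩, Subtype.ext ?_, rfl⟩
        rw [hρ' _ (Subgroup.commutator_mono le_top le_top hr)]
        exact commutator_le_ker_of_central σ₁ h₁.2.1 ψ (by rw [hψ]) hr)
      (Subgroup.map_subtype_le _)
      (by
        intro r hr
        have h2 : (ρ ⟨r, hr⟩ : Γ₁) ∈ σ₁.ker ⊓ commutator Γ₁ := ⟨(ρ ⟨r, hr⟩).2, h₁.2.2 (ρ ⟨r, hr⟩).2⟩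
        rw [ker_inf_commutator_eq_map σ₁ h₁.2.1 ψ hψs, hψ] at h2
        obtain ⟨r', hr', h3⟩ := h2
        refine ⟨r * r'⁻¹, ⟨⟨r, hr⟩ * ⟨r', hr'.1⟩⁻¹, ?_, rfl⟩, by simpa using hr'.2⟩
        rw [SetLike.mem_coe, MonoidHom.mem_ker, map_mul, map_inv, mul_inv_eq_one]
        exact Subtype.ext (h3.symm.trans (hρ' ⟨r', hr'.1⟩ hr'.2).symm))
    obtain ⟨e₃⟩ := nonempty_equiv_hopf hA (taut Q) (taut_surjective Q) R rfl
    obtain ⟨e, he⟩ := h Γ₁ (F ⧸ S) σ₁ _ h₁ h₂ ⟨e₁⟩ ⟨e₂.symm.trans e₃.symm⟩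
    let φ : F →* Γ₁ := e.symm.toMonoidHom.comp (QuotientGroup.mk' S)
    have hφ : σ₁.comp φ = σ₁.comp ψ := by
      rw [hψ, ← he]
      ext f
      simp [φ]
    let μ := liftDiff σ₁ h₁.2.1 φ ψ hφ
    obtain ⟨r, hr, hrx⟩ := hxp
    obtain ⟨s, hs, hs'⟩ := exists_ker_of (QuotientGroup.mk' S) (QuotientGroup.mk'_surjective S)
      (f := r) (h₂.2.2 hr)
    rw [QuotientGroup.ker_mk'] at hs
    obtain ⟨s', hs1, rfl⟩ := hST hs
    apply hθ (μ x)⁻¹
    have h4 : μ x ^ p = μ s' := by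
      have h5 := congrArg (Abelianization.lift μ) (hs'.trans hrx)
      rw [map_pow, Abelianization.lift_apply_of, Abelianization.lift_apply_of] at h5
      exact h5.symm
    have h6 : (μ s' : Γ₁) = ψ s' := by
      have : φ s' = 1 := by
        show e.symm (QuotientGroup.mk' S (s' : F)) = 1
        rw [QuotientGroup.mk'_apply, (QuotientGroup.eq_one_iff (s' : F)).2 hs, map_one]
      rw [liftDiff_apply, this, inv_one, one_mul]
    have h7 := hρ s'
    rw [(hs1 : ρ s' = 1), ← h6] at h7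
    rw [inv_pow, h4, eq_inv_iff_mul_eq_one, mul_comm]
    apply Subtype.ext
    rw [h7, Subgroup.coe_mul]
    congr 3
    exact Subtype.ext (hs'.trans hrx).symm
  · rintro hc Γ₁ Γ₂ _ _ _ _ σ₁ σ₂ h₁ h₂ ⟨e₁⟩ ⟨e₂⟩
    obtain ⟨ψ, hψ⟩ := exists_lift (taut Q) σ₁ h₁.1
    obtain ⟨φ, hφ⟩ := exists_lift (taut Q) σ₂ h₂.1
    have hψs : Function.Surjective (σ₁.comp ψ) := hψ ▸ taut_surjective Q
    have hψs' := surjective_of_stem h₁ ψ hψs
    have hψ' : ∀ f, σ₁ (ψ f) = taut Q f := fun f => DFunLike.congr_fun hψ f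
    have hφ' : ∀ f, σ₂ (φ f) = taut Q f := fun f => DFunLike.congr_fun hφ f
    have h1 := cover_ker_le hA h₁ (Nat.card_congr e₁.toEquiv).ge ψ hψs (taut Q).ker (by rw [hψ])
    have h2 := commutator_le_ker_of_central σ₂ h₂.2.1 φ (R := (taut Q).ker) (by rw [hφ])
    have h3 : ψ.ker ≤ (taut Q).ker := by
      intro x hx
      rw [MonoidHom.mem_ker, ← hψ', hx, map_one]
    letI := centralCommGroup σ₂.ker h₂.2.1
    let θ : ψ.ker →* σ₂.ker := (φ.comp ψ.ker.subtype).codRestrict _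
      (fun s => (hφ' s).trans (h3 s.2))
    obtain ⟨θ', hθ'⟩ := exists_factor_ab ψ.ker θ
      (fun s hs => Subtype.ext (h2 (h1 ⟨s.2, h3 s.2, hs⟩)))
    set q := Nat.card (Abelianization Q) with hq
    have h4 : ∀ x : Abelianization (FreeGroup Q), x ^ q ∈ ψ.ker.map Abelianization.of := by
      intro x
      obtain ⟨f, hf⟩ := QuotientGroup.mk_surjective x
      obtain ⟨s, hs, hs'⟩ := exists_ker_of ψ hψs' (f := f ^ q) (mem_commutator_of_stem h₁ (by
        rw [← Abelianization.ker_of, MonoidHom.mem_ker, map_pow, map_pow, map_pow,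
          pow_card_eq_one']))
      exact ⟨s, hs, hs'.trans (by rw [map_pow, ← hf]; rfl)⟩
    have h5 : Function.Bijective (powMonoidHom q : σ₂.ker →* σ₂.ker) :=
      (powCoprime (G := σ₂.ker) (n := q)
        (by rw [Nat.card_congr e₂.toEquiv]; exact hc.symm)).bijective
    let μ : FreeGroup Q →* σ₂.ker := (MulEquiv.ofBijective _ h5).symm.toMonoidHom.comp
      (θ'.comp (((powMonoidHom q).codRestrict _ h4).comp Abelianization.of))
    have hμ : ∀ s : ψ.ker, μ s = θ s := by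
      intro s
      apply (MulEquiv.ofBijective _ h5).symm_apply_eq.2
      show _ = θ s ^ q
      rw [← hθ', ← map_pow]
      rfl
    have h6 : ψ.ker ≤ (twist φ σ₂.ker h₂.2.1 μ).ker := by
      intro s hs
      rw [MonoidHom.mem_ker, twist_apply, hμ ⟨s, hs⟩]
      exact mul_inv_cancel _
    let η : Γ₁ →* Γ₂ := ψ.liftOfSurjective hψs' ⟨_, h6⟩
    have hη : σ₂.comp η = σ₁ := by
      ext x
      obtain ⟨f, rfl⟩ := hψs' x
      simp only [η, MonoidHom.comp_apply, MonoidHom.liftOfRightInverse_comp_apply, twist_apply,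
        map_mul, map_inv]
      rw [MonoidHom.mem_ker.1 (μ f).2, inv_one, mul_one, hφ', hψ']
    have h7 := surjective_of_stem h₂ η (hη ▸ h₁.1)
    have h8 : Nat.card Γ₁ = Nat.card Γ₂ := by
      rw [← σ₁.ker.card_mul_index, ← σ₂.ker.card_mul_index, Subgroup.index_ker, Subgroup.index_ker,
        MonoidHom.range_eq_top.2 h₁.1, MonoidHom.range_eq_top.2 h₂.1, Nat.card_congr e₁.toEquiv,
        Nat.card_congr e₂.toEquiv]
    exact ⟨MulEquiv.ofBijective η (bijective_of_surjective_of_card_le η h7 h8.le), hη⟩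

end Cfsg.Agent.S3974
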