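import Mathlib
import Cfsg.Agent.Base
import Cfsg.Agent.Lib.FGS.SubCount
import Cfsg.Statements.S3976

set_option autoImplicit false
open Cfsg

namespace Cfsg.Agent.S3976

/-- Let `p` be a prime and `G` a group of order `p ^ m`. For every `s ≤ m` the number of normal subgroups of `G` of order `p ^ s` is congruent to `1` modulo `p`. -/
theorem result {G : Type*} [Group G] [Finite G] (p m s : ℕ) (hp : p.Prime) (hG : Nat.card G = p ^ m) (hs : s ≤ m) : Nat.card {H : Subgroup G // H.Normal ∧ Nat.card H = p ^ s} ≡ 1 [MOD p] := by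
  haveI := Fact.mk hp
  have h1 := H79.ncard_subgroups_modEq_one (G := G) (k := s) hp (hG ▸ pow_dvd_pow p hs)
  rw [H79.ncard_eq_add_of_pred _ (fun K : Subgroup G => K.Normal)] at h1
  have h2 : p ∣ {x ∈ {K : Subgroup G | Nat.card K = p ^ s} | ¬ x.Normal}.ncard := by
    refine H79.dvd_ncard_subgroups_of_no_fixed (P := ⊤) ((IsPGroup.of_card hG).to_subgroup ⊤) _
      ?_ ?_
    · rintro g - K ⟨h1, h2⟩
      refine ⟨by rw [Set.mem_ofPred_eq, H1.card_conj_smul]; exact h1, fun h => h2 ?_⟩
      rw [← H1.conj_inv_smul_conj_smul g K, h.conj_smul_eq_self]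
      exact h
    · rintro K ⟨-, h2⟩ h
      exact h2 (Subgroup.normalizer_eq_top_iff.1 (top_le_iff.1 h))
  have h3 : Nat.card {H : Subgroup G // H.Normal ∧ Nat.card H = p ^ s} =
      {x ∈ {K : Subgroup G | Nat.card K = p ^ s} | x.Normal}.ncard := by
    change {H : Subgroup G | H.Normal ∧ Nat.card H = p ^ s}.ncard = _
    congr 1; ext K; exact and_comm
  rw [h3]
  refine Nat.ModEq.trans ?_ h1
  exact (Nat.modEq_iff_dvd' (Nat.le_add_right _ _)).2 (by rwa [Nat.add_sub_cancel_left])

end Cfsg.Agent.S3976
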