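import Mathlib
import Cfsg.Statements.S3978
import Cfsg.Agent.Lib.Schur.Proj

set_option autoImplicit false
open Cfsg

namespace Cfsg.Agent.S3978


/-- A finite group `Q` has trivial Schur multiplier if and only if, for every `n`, every homomorphism from `Q` to the projective general linear group (the quotient of `GL n ℂ` by its centre) lifts to a homomorphism into `GL n ℂ`. -/
theorem result {Q : Type*} [Group Q] [Finite Q] : Cfsg.HasCyclicSchurMultiplier Q 1 ↔ ∀ (n : ℕ) (γ : Q →* (GL (Fin n) ℂ ⧸ Subgroup.center (GL (Fin n) ℂ))), ∃ ρ : Q →* GL (Fin n) ℂ, (QuotientGroup.mk' (Subgroup.center (GL (Fin n) ℂ))).comp ρ = γ := by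
  constructor
  · intro h n γ
    have := H78.Schur.exists_lift_projective h H78.Schur.stem_id (by
      have h1 : Nat.card (Multiplicative (ZMod 1)) = 1 := by simp
      rw [h1]
      exact Nat.card_pos) n γ
    simpa using this
  · intro h
    obtain ⟨A, _, _, hA⟩ := H78.Schur.exists_hasSchurMultiplier Q
    obtain ⟨e⟩ := H78.Schur.card_le_of_lift hA H78.Schur.stem_id (by simpa using h)
    rw [H78.Schur.hasCyclic_one_iff]
    intro Δ _ _ τ hτ
    have h1 := H78.Schur.card_ker_le hA hτ
    rw [← Nat.card_congr e.toEquiv, MonoidHom.ker_id, Subgroup.card_bot] at h1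
    exact Subgroup.eq_bot_of_card_le _ h1

end Cfsg.Agent.S3978
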