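import Mathlib
import Cfsg.Agent.Base
import Cfsg.Agent.Lib.FGS.FrobCount
import Cfsg.Statements.S3993

set_option autoImplicit false
open Cfsg

namespace Cfsg.Agent.S3993

/-- Frobenius' divisibility Theorem: if m divides the order of a finite group G, then m divides the number of elements g of G with g^m = 1. -/
theorem result {G : Type*} [Group G] [Finite G] (m : ℕ) (hm : m ∣ Nat.card G) :
    m ∣ Nat.card {g : G // g ^ m = 1} := by
  exact H79.frobenius hm

end Cfsg.Agent.S3993
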