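import Mathlib
import Cfsg.Agent.Base
import Cfsg.Agent.Lib.FGS.FrobCount
import Cfsg.Statements.S3994

set_option autoImplicit false
open Cfsg

namespace Cfsg.Agent.S3994

/-- Let G be a finite group and n a positive integer. The number of elements of G whose order is divisible by n is either 0 or divisible by the largest divisor of the order of G that is coprime to n. -/
theorem result {G : Type*} [Group G] [Finite G] (n : ℕ) (hn : 0 < n) :
    Nat.card {g : G // n ∣ orderOf g} = 0 ∨
      (Nat.card G / Nat.gcd (Nat.card G) (n ^ Nat.card G)) ∣ Nat.card {g : G // n ∣ orderOf g} := by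
  right
  refine H79.weisner (Nat.div_dvd_of_dvd (Nat.gcd_dvd_left _ _)) ?_
  set N := Nat.card G with hN
  have hN0 : 0 < N := Nat.card_pos
  rw [Nat.coprime_comm]
  apply Nat.coprime_of_dvd
  intro q hq hq1 hq2
  have hg : 0 < Nat.gcd N (n ^ N) := Nat.gcd_pos_of_pos_left _ hN0
  set k := N.factorization q with hk
  have h1 : q ^ k ∣ N := Nat.ordProj_dvd N q
  have hkN : k ≤ N := (Nat.factorization_lt q hN0.ne').le
  have h2 : q ^ k ∣ n ^ N := (pow_dvd_pow_of_dvd hq2 k).trans (pow_dvd_pow n hkN)
  have h3 : q ^ k * q ∣ Nat.gcd N (n ^ N) * (N / Nat.gcd N (n ^ N)) :=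
    Nat.mul_dvd_mul (Nat.dvd_gcd h1 h2) hq1
  rw [Nat.mul_div_cancel' (Nat.gcd_dvd_left _ _), ← pow_succ] at h3
  exact Nat.pow_succ_factorization_not_dvd hN0.ne' hq h3

end Cfsg.Agent.S3994
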