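import Mathlib
import Cfsg.Agent.Base
import Cfsg.Agent.Lib.FGS.SameOrd
import Cfsg.Agent.S0016
import Cfsg.Statements.S3995

set_option autoImplicit false
open Cfsg

namespace Cfsg.Agent.S3995

/-- Let G be a finite group such that the numbers of elements of each order that occurs in G (the numbers #{g : o(g) = m}, m ranging over the element orders of G) take exactly two values, 1 and some n ≠ 1. Then either G is a p-group of exponent p and order at least 3 for some prime p, or G is the quaternion group of order 8, or G is cyclic of order 4, or G ≅ Z₂ × P for a p-group P of exponent p with p an odd prime. -/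
theorem result {G : Type*} [Group G] [Finite G] (n : ℕ) (hn : n ≠ 1) (h : ((fun m : ℕ => Nat.card {g : G // orderOf g = m}) '' Set.range (orderOf : G → ℕ)) = {1, n}) :
    (∃ p : ℕ, p.Prime ∧ IsPGroup p G ∧ 3 ≤ Nat.card G ∧ Monoid.exponent G = p) ∨
      Nonempty (G ≃* QuaternionGroup 2) ∨ (IsCyclic G ∧ Nat.card G = 4) ∨
      (∃ (p : ℕ) (P : Type) (_ : Group P) (_ : Finite P), p.Prime ∧ p ≠ 2 ∧ IsPGroup p P ∧ Monoid.exponent P = p ∧
        Nonempty (G ≃* Multiplicative (ZMod 2) × P)) := by
  classical
  have hval : ∀ m, H79.so G m = 0 ∨ H79.so G m = 1 ∨ H79.so G m = n := by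
    intro m
    by_cases h0 : H79.so G m = 0
    · exact Or.inl h0
    · have : H79.so G m ∈ ({1, n} : Set ℕ) := h ▸ ⟨m, H79.so_ne_zero_iff.mp h0, rfl⟩
      right; simpa using this
  have hval3 : ∀ m, 3 ≤ m → H79.so G m = 0 ∨ H79.so G m = n := by
    intro m hm
    have := H79.two_dvd_so (G := G) hm
    have := hval m
    omega
  obtain ⟨_, ⟨x, rfl⟩, hx⟩ : n ∈ (fun m : ℕ => Nat.card {g : G // orderOf g = m}) '' Set.range (orderOf : G → ℕ) := by
    rw [h]; simp
  change H79.so G (orderOf x) = n at hx
  have hx0 : H79.so G (orderOf x) ≠ 0 := H79.so_ne_zero_iff.mpr ⟨x, rfl⟩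
  have hx1 : orderOf x ≠ 1 := fun e => hn (by rw [← hx, e, H79.so_one])
  -- two primes with the value `n`
  have two : ∀ p q : ℕ, p.Prime → q.Prime → p ≠ 2 → p ∣ Nat.card G → H79.so G p = n →
      H79.so G q = n → p = q := by
    intro p q hp hq h2 hpG e1 e2
    by_contra hpq
    have h12 := H79.prime_dvd_so_add hp hpG ((Nat.coprime_primes hq hp).mpr (Ne.symm hpq))
    have h13 := H79.not_prime_dvd_so hp hpG
    rw [e1] at h13
    rw [e2] at h12
    have := hp.two_le
    have := hq.two_le
    rcases hval3 (q * p) (by nlinarith) with e | e <;> rw [e] at h12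
    · exact h13 h12
    · rw [← two_mul] at h12
      exact (hp.dvd_mul.mp h12).elim
        (fun h => h2 ((Nat.prime_dvd_prime_iff_eq hp Nat.prime_two).mp h)) h13
  have nosq : ∀ p : ℕ, p.Prime → H79.so G p = n → ∀ g : G, ¬ p * p ∣ orderOf g := by
    intro p hp e g hg
    have hpG : p ∣ Nat.card G := (Dvd.intro _ rfl).trans (hg.trans (orderOf_dvd_natCard g))
    have h1 := H79.so_ne_zero_of_dvd (H79.so_ne_zero_iff.mpr ⟨g, rfl⟩) hg
    have := hp.two_le
    have h2 := (hval3 (p * p) (by nlinarith)).resolve_left h1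
    exact H79.not_prime_dvd_so hp hpG (by
      rw [e, ← h2]; exact H79.prime_dvd_so_of_sq_dvd hp dvd_rfl)
  have expo : ∀ (p : ℕ) (K : Subgroup G), p.Prime → H79.so G p = n → IsPGroup p K → K ≠ ⊥ →
      Monoid.exponent K = p := by
    intro p K hp e hK hne
    haveI := Fact.mk hp
    haveI := (Subgroup.nontrivial_iff_ne_bot _).mpr hne
    rw [Monoid.exponent_eq_prime_iff hp]
    intro g hg
    obtain ⟨k, hk⟩ := IsPGroup.iff_orderOf.mp hK g
    have h2 := nosq p hp e g
    rw [Subgroup.orderOf_coe, hk] at h2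
    rw [hk]
    rcases k with _ | _ | k
    · exact absurd (orderOf_eq_one_iff.mp (by simpa using hk)) hg
    · simp
    · exact absurd ⟨p ^ k, by ring⟩ h2
  have hodd : ∀ p : ℕ, p.Prime → p ≠ 2 → p ∣ Nat.card G → H79.so G p = n := fun p hp h2 hd =>
    (hval3 p (by have := hp.two_le; omega)).resolve_left (H79.so_prime_ne_zero hp hd)
  by_cases h1 : H79.so G 2 = 1
  swap
  · left
    have hall : ∀ p : ℕ, p.Prime → p ∣ Nat.card G → H79.so G p = n := by
      intro p hp hd
      by_cases h2 : p = 2
      · subst h2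
        have := hval 2
        have := H79.so_prime_ne_zero hp hd
        omega
      · exact hodd p hp h2 hd
    obtain ⟨p, hp, hpx⟩ := Nat.exists_prime_and_dvd hx1
    have hpG := hpx.trans (orderOf_dvd_natCard x)
    have hG : IsPGroup p G := H79.isPGroup_of_primes hp fun r hr hd => by
      by_cases h2 : r = 2
      · by_contra e
        exact e (two p r hp hr (fun e' => e (h2.trans e'.symm)) hpG (hall p hp hpG) (hall r hr hd)).symm
      · exact two r p hr hp h2 hd (hall r hr hd) (hall p hp hpG)
    haveI : Nontrivial G := ⟨⟨x, 1, fun e => hx1 (by simp [e])⟩⟩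
    refine ⟨p, hp, hG, ?_, ?_⟩
    · have := H79.sum_so_le (G := G) {1, orderOf x}
      rw [Finset.sum_pair hx1.symm, H79.so_one] at this
      omega
    · rw [← Subgroup.exponent_top]
      exact expo p ⊤ hp (hall p hp hpG) (hG.to_subgroup _) top_ne_bot
  obtain ⟨z, hz⟩ := (H79.so_ne_zero_iff (G := G) (m := 2)).mp (by omega)
  have hzc := H79.mem_center_of_so_eq_one h1 hz
  have h2G : 2 ∣ Nat.card G := hz ▸ orderOf_dvd_natCard z
  by_cases he : ∃ p : ℕ, p.Prime ∧ p ≠ 2 ∧ p ∣ Nat.card G
  · right; right; right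
    obtain ⟨p, hp, h2, hpG⟩ := he
    haveI := Fact.mk hp
    have hsp := hodd p hp h2 hpG
    have h4 : ¬ 4 ∣ Nat.card G := by
      intro h4
      have h5 := H79.four_dvd_so h4
      have h6 := hval3 4 (by norm_num)
      have h7 : H79.so G 4 = n := by omega
      have h12 := H79.prime_dvd_so_add (m := 4) hp hpG
        (Nat.Coprime.pow_left 2 ((Nat.coprime_primes Nat.prime_two hp).mpr (Ne.symm h2)))
      have h13 := H79.not_prime_dvd_so hp hpG
      rw [hsp] at h13
      rw [h7] at h12
      have := hp.two_le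
      rcases hval3 (4 * p) (by omega) with e | e <;> rw [e] at h12
      · exact h13 h12
      · rw [← two_mul] at h12
        exact (hp.dvd_mul.mp h12).elim
          (fun h => h2 ((Nat.prime_dvd_prime_iff_eq hp Nat.prime_two).mp h)) h13
    obtain ⟨P⟩ : Nonempty (Sylow p G) := inferInstance
    have hmul := (P : Subgroup G).card_mul_index
    have hPodd : ¬ 2 ∣ Nat.card (P : Subgroup G) := fun hd => by
      have := H79.prime_dvd_card_sylow P 2 Nat.prime_two hd
      exact h2 (Set.mem_singleton_iff.mp this).symm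
    have hidx : (P : Subgroup G).index = 2 := by
      have hk := Nat.eq_prime_pow_of_unique_prime_dvd (p := 2) (P : Subgroup G).index_ne_zero_of_finite
        (fun {r} hr hd => by
          by_contra e
          have hrG : r ∣ Nat.card G := hd.trans (Subgroup.index_dvd_card _)
          have := two r p hr hp e hrG (hodd r hr e hrG) hsp
          subst this
          exact P.not_dvd_index hd)
      generalize (P : Subgroup G).index.primeFactorsList.length = k at hk
      rcases k with _ | _ | k
      · rw [hk, pow_zero, mul_one] at hmul; exact absurd (hmul ▸ h2G) hPodd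
      · simpa using hk
      · exact absurd ((Dvd.intro (2 ^ k) (by rw [hk]; ring)).trans (Subgroup.index_dvd_card _)) h4
    obtain ⟨P', _, _, ⟨e⟩⟩ := Finite.exists_type_univ_nonempty_mulEquiv.{_, 0} (P : Subgroup G)
    refine ⟨p, P', inferInstance, inferInstance, hp, h2, P.isPGroup'.of_equiv e, ?_, ?_⟩
    · rw [← Monoid.exponent_eq_of_mulEquiv e]
      exact expo p P hp hsp P.isPGroup' (P.ne_bot_of_dvd_card hpG)
    · have hcz : Nat.card (Subgroup.zpowers z) = 2 := by rw [Nat.card_zpowers, hz]
      let f : Subgroup.zpowers z × (P : Subgroup G) →* G :=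
        (Subgroup.zpowers z).subtype.noncommCoprod (P : Subgroup G).subtype fun a b =>
          (Subgroup.mem_center_iff.mp (Subgroup.zpowers_le.mpr hzc a.2) b).symm
      have hc : Subgroup.IsComplement' (Subgroup.zpowers z) (P : Subgroup G) :=
        Subgroup.isComplement'_of_coprime (by rw [hcz, ← hmul, hidx, mul_comm])
          (by rw [hcz]; exact (Nat.Prime.coprime_iff_not_dvd Nat.prime_two).mpr hPodd)
      let e1 : Subgroup.zpowers z × (P : Subgroup G) ≃* G := MulEquiv.ofBijective f hc
      let e2 : Subgroup.zpowers z ≃* Multiplicative (ZMod 2) :=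
        mulEquivOfPrimeCardEq hcz (by simp)
      exact ⟨e1.symm.trans (e2.prodCongr e)⟩
  · have hG : IsPGroup 2 G := H79.isPGroup_of_primes Nat.prime_two fun r hr hd => by
      by_contra e
      exact he ⟨r, hr, e, hd⟩
    have hx2 : orderOf x ≠ 2 := fun e => hn (by rw [← hx, e, h1])
    have h4x : 4 ∣ orderOf x := by
      obtain ⟨k, hk⟩ := IsPGroup.iff_orderOf.mp hG x
      rcases k with _ | _ | k
      · exact absurd hk hx1
      · exact absurd hk hx2
      · exact ⟨2 ^ k, by rw [hk]; ring⟩
    have h4G := h4x.trans (orderOf_dvd_natCard x)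
    have h5 := H79.four_dvd_so h4G
    have h6 := hval3 4 (by norm_num)
    have h8 : ∀ g : G, ¬ 8 ∣ orderOf g := by
      intro g hg
      have h9 := H79.so_ne_zero_of_dvd (H79.so_ne_zero_iff.mpr ⟨g, rfl⟩) hg
      have h10 := hval3 8 (by norm_num)
      have h11 := H79.totient_dvd_so (G := G) 8
      have : Nat.totient 8 = 4 := by decide
      rw [this] at h11
      rw [h1] at h5
      have e8 : H79.so G 8 = n := h10.resolve_left h9
      rw [e8] at h11
      rcases h6 with h6 | h6 <;> rw [h6] at h5 <;> omega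
    have hcyc : IsCyclic G → Nat.card G = 4 := by
      intro hc
      obtain ⟨g, hg⟩ := IsCyclic.exists_ofOrder_eq_natCard (α := G)
      have h9 := h8 g
      rw [hg] at h9
      obtain ⟨k, hk⟩ := IsPGroup.iff_card.mp hG
      rw [hk] at h9 h4G ⊢
      rcases k with _ | _ | _ | k
      · norm_num at h4G
      · norm_num at h4G
      · norm_num
      · exact absurd ⟨2 ^ k, by ring⟩ h9
    have huniq : ∀ H K : Subgroup G, Nat.card H = 2 → Nat.card K = 2 → H = K := by
      have : ∀ H : Subgroup G, Nat.card H = 2 → H = Subgroup.zpowers z := by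
        intro H hH
        obtain ⟨w, hw, hwo⟩ := H1.exists_mem_orderOf_eq_prime (H := H) Nat.prime_two hH.symm.dvd
        rw [H79.eq_of_so_eq_one h1 hwo hz] at hw
        exact (Subgroup.eq_of_le_of_card_ge (Subgroup.zpowers_le.mpr hw)
          (by rw [hH, Nat.card_zpowers, hz])).symm
      intro H K hH hK
      rw [this H hH, this K hK]
    rcases Cfsg.Agent.S0016.result 2 hG huniq with hc | ⟨-, k, ⟨e⟩⟩
    · exact Or.inr (Or.inr (Or.inl ⟨hc, hcyc hc⟩))
    · rcases k with _ | _ | k
      · haveI : IsCyclic (QuaternionGroup (2 ^ 0)) := QuaternionGroup.quaternionGroup_one_isCyclic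
        have hc : IsCyclic G := isCyclic_of_surjective e.symm e.symm.surjective
        exact Or.inr (Or.inr (Or.inl ⟨hc, hcyc hc⟩))
      · exact Or.inr (Or.inl ⟨e⟩)
      · exfalso
        apply h8 (e.symm (QuaternionGroup.a 1))
        rw [MulEquiv.orderOf_eq, QuaternionGroup.orderOf_a_one]
        exact ⟨2 ^ k, by ring⟩

end Cfsg.Agent.S3995
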