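import Mathlib
import Cfsg.Agent.Base
import Cfsg.Agent.Lib.FGS.OrderType
import Cfsg.Agent.Lib.Solv.Supersolvable2
import Cfsg.Statements.S3998

set_option autoImplicit false
open Cfsg

namespace Cfsg.Agent.S3998

theorem aux (n : ℕ) : ∀ (G H : Type*) [Group G] [Finite G] [Group H] [Finite H],
    Nat.card G = n → (∀ π, H79.piCount π G = H79.piCount π H) → IsSupersolvable G →
    Group.IsSolvable H := by
  induction n using Nat.strong_induction_on with
  | _ n ih =>
    intro G H _ _ _ _ hn h hG
    have hcard : Nat.card G = Nat.card H := by rw [← H79.piCount_univ, h, H79.piCount_univ]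
    rcases Nat.lt_or_ge 1 n with h1 | h1
    · obtain ⟨p, hp, hpn, hmax⟩ := H21.exists_max_prime_dvd h1
      have := Fact.mk hp
      obtain ⟨P⟩ : Nonempty (Sylow p G) := inferInstance
      obtain ⟨Q⟩ : Nonempty (Sylow p H) := inferInstance
      have hP := H21.sylow_normal_of_isSupersolvable hG p (hn ▸ hmax) P
      have hQ := H79.sylow_normal_of_piCount hcard (h _) P Q
      have hlt : Nat.card (G ⧸ (P : Subgroup G)) < n := by
        rw [← hn, Subgroup.card_eq_card_quotient_mul_card_subgroup (P : Subgroup G)]
        refine lt_mul_of_one_lt_right Nat.card_pos ((Subgroup.one_lt_card_iff_ne_bot _).mpr ?_)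
        exact P.ne_bot_of_dvd_card (hn ▸ hpn)
      have h2 := ih _ hlt (G ⧸ (P : Subgroup G)) (H ⧸ (Q : Subgroup H)) rfl
        (H79.piCount_quotient_sylow_eq h P Q) (H21.isSupersolvable_quotient hG _)
      have h3 : Group.IsNilpotent (Q : Subgroup H) := Q.isPGroup'.isNilpotent
      have h4 : Group.IsSolvable (Q : Subgroup H) := IsNilpotent.to_isSolvable
      exact Group.isSolvable_of_ker_le_range (Q : Subgroup H).subtype
        (QuotientGroup.mk' (Q : Subgroup H)) (by simp)
    · have : Subsingleton H := Finite.card_le_one_iff_subsingleton.mp (by omega)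
      exact Group.isSolvable_of_comm fun a b => Subsingleton.elim _ _

/-- Let G and H be finite groups with the same order type (for every m the same number of elements of order m). If G is supersolvable then H is solvable. -/
theorem result {G H : Type*} [Group G] [Finite G] [Group H] [Finite H] (hT : (∀ m : ℕ, Nat.card {g : G // orderOf g = m} = Nat.card {h : H // orderOf h = m})) (hG : Cfsg.IsSupersolvable G) :
    Group.IsSolvable H := by
  exact aux _ G H rfl (H79.piCount_eq_of_orderType hT) hG

end Cfsg.Agent.S3998
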