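import Mathlib
import Cfsg.Agent.Base
import Cfsg.Agent.Lib.FGS.CycCount
import Cfsg.Agent.Lib.FGS.ClassSize
import Cfsg.Statements.S4003

set_option autoImplicit false
open Cfsg

namespace Cfsg.Agent.S4003

/-- Let G be a finite group, p an odd prime dividing the order of G whose Sylow p-subgroups are not cyclic, and n = p^s·m with s > 1 and m coprime to p. Then the number of elements of G of order n is a multiple of p^s. -/
theorem result {G : Type*} [Group G] [Finite G] (p : ℕ) [Fact p.Prime] (hodd : p ≠ 2) (hpG : p ∣ Nat.card G)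
    (P : Sylow p G) (hP : ¬ IsCyclic ↥(P : Subgroup G)) (s m : ℕ) (hs : 1 < s) (hm : Nat.Coprime p m) :
    p ^ s ∣ Nat.card {g : G // orderOf g = p ^ s * m} := by
  have hp : p.Prime := Fact.out
  obtain ⟨j, rfl⟩ : ∃ j, s = j + 2 := ⟨s - 2, by omega⟩
  have hm' : ¬ p ∣ m := (Nat.Prime.coprime_iff_not_dvd hp).1 hm
  have hord : ∀ g : G, orderOf g = p ^ (j + 2) * m →
      orderOf (H35.pPart p g) = p ^ (j + 2) ∧ orderOf (H35.pReg p g) = m := by
    intro g hg
    have h1 := H35.orderOf_pPart_mul p g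
    obtain ⟨k, hk⟩ := H35.isPElt_pPart p g
    have h2 := H35.not_dvd_orderOf_pReg p g
    rw [hg, hk] at h1
    have h3 : k = j + 2 := by
      have a1 : p ^ k ∣ p ^ (j + 2) :=
        (Nat.Coprime.pow_left k hm).dvd_of_dvd_mul_right (h1 ▸ dvd_mul_right _ _)
      have a2 : p ^ (j + 2) ∣ p ^ k :=
        (Nat.Coprime.pow_left _ ((Nat.Prime.coprime_iff_not_dvd hp).2 h2)).dvd_of_dvd_mul_right
          (h1.symm ▸ dvd_mul_right _ _)
      exact Nat.pow_right_injective hp.two_le (Nat.dvd_antisymm a1 a2)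
    subst h3
    exact ⟨hk, Nat.eq_of_mul_eq_mul_left (pow_pos hp.pos _) h1⟩
  change p ^ (j + 2) ∣ {g : G | orderOf g = p ^ (j + 2) * m}.ncard
  refine H79.dvd_ncard_of_fibers _ (Set.toFinite _) _ (fun g => ConjClasses.mk (H35.pReg p g)) ?_
  intro x hx
  set c := H35.pReg p x with hc
  have hcm : orderOf c = m := (hord x hx).2
  have h1 := H79.ncard_isConj_equivariant {g : G | orderOf g = p ^ (j + 2) * m}
    (fun a x hx => by rw [Set.mem_ofPred_eq, H35.orderOf_conj]; exact hx) (H35.pReg p)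
    (H35.pReg_conj p) c
  have h2 : {y ∈ {g : G | orderOf g = p ^ (j + 2) * m} |
      ConjClasses.mk (H35.pReg p y) = ConjClasses.mk c} =
      {y ∈ {g : G | orderOf g = p ^ (j + 2) * m} | IsConj c (H35.pReg p y)} := by
    ext y
    simp only [Set.mem_ofPred_eq, ConjClasses.mk_eq_mk_iff_isConj]
    exact and_congr_right fun _ => ⟨IsConj.symm, IsConj.symm⟩
  have h3 : {y ∈ {g : G | orderOf g = p ^ (j + 2) * m} | H35.pReg p y = c}.ncard =
      {u : Subgroup.centralizer ({c} : Set G) | orderOf u = p ^ (j + 2)}.ncard := by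
    symm
    refine Set.ncard_congr (fun u _ => (u : G) * c) ?_
      (fun a b _ _ h => Subtype.ext (mul_right_cancel h)) ?_
    · intro u hu
      have hu' : orderOf (u : G) = p ^ (j + 2) := by simpa using hu
      have hcu : Commute (u : G) c := H80.mem_Cx.1 u.2
      refine ⟨?_, H35.pReg_mul_eq ⟨_, hu'⟩ (hcm ▸ hm') hcu⟩
      rw [Set.mem_ofPred_eq, hcu.orderOf_mul_eq_mul_orderOf_of_coprime
        (H35.coprime_orderOf ⟨_, hu'⟩ (hcm ▸ hm')), hu', hcm]
    · rintro y ⟨h1, h2⟩
      refine ⟨⟨H35.pPart p y, h2 ▸ H35.pPart_mem_centralizer_pReg p y⟩, ?_, ?_⟩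
      · simpa using (hord y h1).1
      · simp only [← h2]; exact H35.pPart_mul_pReg p y
  rw [h2, h1, h3, H79.ncard_orderOf_eq_totient_mul, Nat.totient_prime_pow_succ hp, pow_succ]
  by_cases hd : p ∣ (Subgroup.centralizer ({c} : Set G)).index
  · rw [mul_comm]
    exact Nat.mul_dvd_mul hd ((dvd_mul_right _ _).mul_right _)
  · obtain ⟨Q, hQ⟩ := H80.not_dvd_cs_iff.1 hd
    have hQc : ¬ IsCyclic (Q.subtype hQ : Subgroup (Subgroup.centralizer ({c} : Set G))) := by
      intro h
      apply hP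
      exact (MulEquiv.isCyclic ((Subgroup.subgroupOfEquivOfLe hQ).trans (Q.equiv P))).1 h
    exact (Nat.mul_dvd_mul (dvd_mul_right _ _)
      (H79.dvd_ncard_cyclic_of_sylow hodd _ hQc j)).mul_left _

end Cfsg.Agent.S4003
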