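import Mathlib
import Cfsg.Agent.Base
import Cfsg.Agent.Lib.FGS.NormLem
import Cfsg.Statements.S4004

set_option autoImplicit false
open Cfsg

namespace Cfsg.Agent.S4004

open Subgroup H79 in
theorem not_T1 {G : Type*} [Group G] [Finite G] (hodd : Odd (Nat.card G)) {a b : ℕ}
    (hval : ∀ m, 3 ≤ m → so G m = 0 ∨ so G m = a ∨ so G m = b) {q r : ℕ} (hq : q.Prime) (hr : r.Prime)
    (hqr : q ≠ r) (hqG : q ∣ Nat.card G) (hrG : r ∣ Nat.card G) : ¬ SoT1 G q := by
  classical
  have h3 : ∀ {p : ℕ}, p.Prime → p ∣ Nat.card G → p ≠ 2 ∧ 3 ≤ p := by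
    intro p hp hd
    have : p ≠ 2 := by rintro rfl; exact (Nat.not_even_iff_odd.mpr hodd) (even_iff_two_dvd.mpr hd)
    exact ⟨this, by have := hp.two_le; omega⟩
  have pig : ∀ x y z, 3 ≤ x → 3 ≤ y → 3 ≤ z → so G x ≠ 0 → so G y ≠ 0 → so G z ≠ 0 →
      so G x ≠ so G y → so G z ≠ so G y → so G x = so G z := by
    intro x y z hx hy hz
    have := hval x hx
    have := hval y hy
    have := hval z hz
    omega
  -- a type one prime has the same value as all other primes
  have step : ∀ {q p : ℕ}, q.Prime → p.Prime → q ≠ p → q ∣ Nat.card G → p ∣ Nat.card G →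
      SoT1 G q → so G p = so G q := by
    intro q p hq hp hne hqG hpG hT
    by_contra hc
    have hcop : p.Coprime q := (Nat.coprime_primes hp hq).mpr hne.symm
    have hp0 := so_prime_ne_zero hp hpG
    have hq0 := so_prime_ne_zero hq hqG
    have h1 := hT.1 p (h3 hp hpG).2 hp0 hc
    obtain ⟨h4, h5⟩ := hT.2 p (h3 hp hpG).2 hcop hp0
    have h6 : so G (p * q) = so G q := pig _ p _ ((h3 hp hpG).2.trans (Nat.le_mul_of_pos_right _ hq.pos))
      (h3 hp hpG).2 (h3 hq hqG).2 h4 hp0 hq0 h5 (Ne.symm hc)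
    have h7 : ¬ q ∣ so G p := fun h => not_prime_dvd_so hq hqG ((Nat.dvd_add_right h).mp h1)
    haveI := Fact.mk hq
    have := so_lt_so_mul (h3 hp hpG).2 hcop.symm hq0 fun x hx => by
      obtain ⟨y, hy, hc⟩ := exists_commute_of_not_dvd_so h7 (Q := zpowers x)
        (IsPGroup.of_card (n := 1) (by simp [hx]))
      exact ⟨y, hy, hc x (mem_zpowers x)⟩
    rw [mul_comm] at this
    omega
  intro hT
  have hall : ∀ p : ℕ, p.Prime → p ∣ Nat.card G → SoT1 G p ∧ so G p = so G q := by
    intro p hp hpG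
    by_cases e : q = p
    · subst e; exact ⟨hT, rfl⟩
    have h1 := step hq hp e hqG hpG hT
    refine ⟨(soT1_or_soT2 hp (h3 hp hpG).1 hpG hval).resolve_right fun h2 => ?_, h1⟩
    exact (h2 q (h3 hq hqG).2 ((Nat.coprime_primes hq hp).mpr e) (so_prime_ne_zero hq hqG)).1 h1.symm
  have hdvd : Nat.card G ∣ 1 + so G q := by
    refine (Nat.dvd_iff_prime_pow_dvd_dvd _ _).mpr fun p k hp hk => ?_
    rcases k with _ | k
    · simp
    have hpG : p ∣ Nat.card G := (dvd_pow_self p (by omega)).trans hk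
    have := pow_dvd_sum_so (m := 1) hp hk (Nat.coprime_one_left p)
    rw [Finset.sum_range_succ', Finset.sum_range_succ', Finset.sum_eq_zero] at this
    · simpa [so_one, (hall p hp hpG).2, add_comm] using this
    · intro i _
      by_contra h0
      have hd : p ∣ so G (1 * p ^ (i + 1 + 1)) :=
        prime_dvd_so_of_sq_dvd hp ⟨p ^ i, by ring⟩
      have hn := not_prime_dvd_so hp hpG
      have h4 := (hall p hp hpG).1.1 _ ((h3 hp hpG).2.trans (Nat.le_of_dvd
        (by have := hp.pos; positivity) ⟨p ^ (i + 1), by ring⟩)) h0 (fun e => hn (e ▸ hd))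
      exact hn ((Nat.dvd_add_right hd).mp h4)
  have hle := sum_so_le (G := G) {1, q, r}
  rw [Finset.sum_insert (by simp [hq.one_lt.ne, hr.one_lt.ne]), Finset.sum_pair hqr, so_one,
    (hall r hr hrG).2] at hle
  have := Nat.le_of_dvd (by omega) hdvd
  have := so_prime_ne_zero hq hqG
  omega

open Subgroup in
theorem aux {G : Type*} [Group G] [Finite G] [Group.IsSolvable G] [Nontrivial G] {p q : ℕ}
    (hp : p.Prime) (hq : q.Prime) (h : ∀ g : G, g ^ p = 1 ∨ g ^ q = 1) :
    ∃ V : Subgroup G, V.Normal ∧ IsMulCommutative V ∧ V ≠ ⊥ ∧ (IsPGroup p V ∨ IsPGroup q V) := by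
  obtain ⟨V, hV, -, hc, r, hr, hrV, -, hP⟩ := H3.exists_normal_elementary_le (⊤ : Subgroup G)
    top_ne_bot inferInstance
  refine ⟨V, hV.normal, hc, hV.ne_bot, ?_⟩
  obtain ⟨x, -, hx⟩ := H1.exists_mem_orderOf_eq_prime hr hrV
  rcases h x with h' | h'
  · left; rwa [← (Nat.prime_dvd_prime_iff_eq hr hp).mp (hx ▸ orderOf_dvd_of_pow_eq_one h')]
  · right; rwa [← (Nat.prime_dvd_prime_iff_eq hr hq).mp (hx ▸ orderOf_dvd_of_pow_eq_one h')]

/-- Let G be a finite group of odd order in which the numbers of elements of each order that occurs (the numbers #{g : o(g) = m}, m ranging over the element orders of G) take exactly three different values. Then the order of G has at most two prime divisors; and if it has exactly two, then every Sylow subgroup of G for a prime dividing its order has prime exponent, G is a Frobenius group, and some Frobenius complement of G has prime order. -/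
theorem result {G : Type*} [Group G] [Finite G] (hodd : Odd (Nat.card G)) (h : (((fun m : ℕ => Nat.card {g : G // orderOf g = m}) '' Set.range (orderOf : G → ℕ))).ncard = 3) :
    (Nat.card G).primeFactors.card ≤ 2 ∧
      ((Nat.card G).primeFactors.card = 2 →
        (∀ (p : ℕ) [Fact p.Prime] (P : Sylow p G), p ∣ Nat.card G → Monoid.exponent ↥(P : Subgroup G) = p) ∧
        ∃ C : Subgroup G, Cfsg.IsFrobeniusComplement C ∧ (Nat.card ↥C).Prime) := by
  classical
  have h3 : ∀ {p : ℕ}, p.Prime → p ∣ Nat.card G → p ≠ 2 ∧ 3 ≤ p := by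
    intro p hp hd
    have : p ≠ 2 := by rintro rfl; exact (Nat.not_even_iff_odd.mpr hodd) (even_iff_two_dvd.mpr hd)
    exact ⟨this, by have := hp.two_le; omega⟩
  obtain ⟨a, b, hab⟩ := H79.exists_vals_of_ncard h
  have hval : ∀ m, 3 ≤ m → H79.so G m = 0 ∨ H79.so G m = a ∨ H79.so G m = b := by
    intro m hm
    have := H79.two_dvd_so (G := G) hm
    have := hab m
    omega
  have hT2 : ∀ {q r : ℕ}, q.Prime → r.Prime → q ≠ r → q ∣ Nat.card G → r ∣ Nat.card G →
      H79.SoT2 G q := fun hq hr hqr hqG hrG =>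
    (H79.soT1_or_soT2 hq (h3 hq hqG).1 hqG hval).resolve_left (not_T1 hodd hval hq hr hqr hqG hrG)
  have hne : ∀ {q r : ℕ}, q.Prime → r.Prime → q ≠ r → q ∣ Nat.card G → r ∣ Nat.card G →
      H79.so G r ≠ H79.so G q ∧ q ∣ H79.so G r := fun hq hr hqr hqG hrG =>
    hT2 hq hr hqr hqG hrG _ (h3 hr hrG).2 ((Nat.coprime_primes hr hq).mpr hqr.symm)
      (H79.so_prime_ne_zero hr hrG)
  constructor
  · by_contra hlt
    obtain ⟨p, q, r, hp, hq, hr, hpq, hpr, hqr⟩ := Finset.two_lt_card_iff.mp (not_le.mp hlt)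
    rw [Nat.mem_primeFactors] at hp hq hr
    have h1 := (hne hp.1 hq.1 hpq hp.2.1 hq.2.1).1
    have h2 := (hne hp.1 hr.1 hpr hp.2.1 hr.2.1).1
    have h4 := (hne hq.1 hr.1 hqr hq.2.1 hr.2.1).1
    have := hval p (h3 hp.1 hp.2.1).2
    have := hval q (h3 hq.1 hq.2.1).2
    have := hval r (h3 hr.1 hr.2.1).2
    have := H79.so_prime_ne_zero hp.1 hp.2.1
    have := H79.so_prime_ne_zero hq.1 hq.2.1
    have := H79.so_prime_ne_zero hr.1 hr.2.1
    omega
  intro h2
  obtain ⟨p, q, hpq, hpf⟩ := Finset.card_eq_two.mp h2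
  have hp : p ∈ (Nat.card G).primeFactors := by rw [hpf]; simp
  have hq : q ∈ (Nat.card G).primeFactors := by rw [hpf]; simp
  rw [Nat.mem_primeFactors] at hp hq
  obtain ⟨hp, hpG, -⟩ := hp
  obtain ⟨hq, hqG, -⟩ := hq
  have hpr : ∀ r : ℕ, r.Prime → r ∣ Nat.card G → r = p ∨ r = q := by
    intro r hr hd
    have : r ∈ (Nat.card G).primeFactors := Nat.mem_primeFactors.mpr ⟨hr, hd, Nat.card_pos.ne'⟩
    rw [hpf] at this
    simpa using this
  have hsq : ∀ {p q : ℕ}, p.Prime → q.Prime → p ≠ q → p ∣ Nat.card G → q ∣ Nat.card G →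
      H79.so G (p * p) = 0 ∧ (H79.so G (p * q) = 0 ∨ H79.so G (p * q) = H79.so G p) := by
    intro p q hp hq hpq hpG hqG
    have hcop : p.Coprime q := (Nat.coprime_primes hp hq).mpr hpq
    have h5 := (h3 hp hpG).2
    have h6 := hval p h5
    have h7 := hval q (h3 hq hqG).2
    have h8 := H79.so_prime_ne_zero hp hpG
    have h9 := H79.so_prime_ne_zero hq hqG
    obtain ⟨h10, h11⟩ := hne hq hp hpq.symm hqG hpG
    constructor
    · by_contra h0
      have h1 := (hT2 hq hp hpq.symm hqG hpG (p * p) (by nlinarith) (Nat.Coprime.mul_left hcop hcop) h0).1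
      have h4 := hval (p * p) (by nlinarith)
      have h12 : H79.so G (p * p) = H79.so G p := by omega
      exact H79.not_prime_dvd_so hp hpG (h12 ▸ H79.prime_dvd_so_of_sq_dvd hp dvd_rfl)
    · have h1 := (Nat.dvd_add_right h11).mp (H79.prime_dvd_so_add hq hqG hcop)
      have h4 := hval (p * q) (h5.trans (Nat.le_mul_of_pos_right _ hq.pos))
      have h12 : H79.so G (p * q) ≠ H79.so G q := fun e => H79.not_prime_dvd_so hq hqG (e ▸ h1)
      omega
  have hpq0 : H79.so G (p * q) = 0 := by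
    have h1 := (hsq hp hq hpq hpG hqG).2
    have h4 := (hsq hq hp hpq.symm hqG hpG).2
    rw [mul_comm] at h4
    have := (hne hp hq hpq hpG hqG).1
    omega
  have hel : ∀ g : G, g ^ p = 1 ∨ g ^ q = 1 := by
    intro g
    have hg : H79.so G (orderOf g) ≠ 0 := H79.so_ne_zero_iff.mpr ⟨g, rfl⟩
    by_cases h1 : orderOf g = 1
    · left; rw [orderOf_eq_one_iff.mp h1, one_pow]
    obtain ⟨r, hr, n, hn⟩ := Nat.exists_prime_and_dvd h1
    have hrG : r ∣ Nat.card G := (Dvd.intro _ hn.symm).trans (orderOf_dvd_natCard g)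
    have hn1 : n = 1 := by
      by_contra hc
      obtain ⟨s, hs, hsn⟩ := Nat.exists_prime_and_dvd hc
      have hsG : s ∣ Nat.card G := (hsn.trans (Dvd.intro_left _ hn.symm)).trans (orderOf_dvd_natCard g)
      have := H79.so_ne_zero_of_dvd hg (hn ▸ Nat.mul_dvd_mul_left r hsn)
      rcases hpr r hr hrG with rfl | rfl <;> rcases hpr s hs hsG with rfl | rfl
      · exact this (hsq hp hq hpq hpG hqG).1
      · exact this hpq0
      · exact this (by rw [mul_comm]; exact hpq0)
      · exact this (hsq hq hp hpq.symm hqG hpG).1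
    rw [hn1, mul_one] at hn
    rcases hpr r hr hrG with rfl | rfl
    · left; rw [← hn, pow_orderOf_eq_one]
    · right; rw [← hn, pow_orderOf_eq_one]
  constructor
  · intro r hr P hrG
    haveI : Nontrivial (P : Subgroup G) := (Subgroup.nontrivial_iff_ne_bot _).mpr (P.ne_bot_of_dvd_card hrG)
    rw [Monoid.exponent_eq_prime_iff hr.out]
    intro g hg
    have h1 : (g : G) ≠ 1 := fun e => hg (Subtype.ext e)
    have h4 := H79.prime_dvd_orderOf_of_isPGroup P.isPGroup' g.2 h1
    rw [← Subgroup.orderOf_coe]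
    haveI := Fact.mk hp
    haveI := Fact.mk hq
    rcases hel g with h' | h'
    · rw [orderOf_eq_prime h' h1] at h4 ⊢
      exact ((Nat.prime_dvd_prime_iff_eq hr.out hp).mp h4).symm
    · rw [orderOf_eq_prime h' h1] at h4 ⊢
      exact ((Nat.prime_dvd_prime_iff_eq hr.out hq).mp h4).symm
  · haveI := H79.isSolvable_of_primes hp hq hpr
    haveI : Nontrivial G := Finite.one_lt_card_iff_nontrivial.mp
      (lt_of_lt_of_le hp.one_lt (Nat.le_of_dvd Nat.card_pos hpG))
    haveI := Fact.mk hp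
    haveI := Fact.mk hq
    obtain ⟨P⟩ : Nonempty (Sylow p G) := inferInstance
    obtain ⟨Q⟩ : Nonempty (Sylow q G) := inferInstance
    obtain ⟨V, hVn, hVc, hV, hVp | hVp⟩ := aux hp hq hel
    · obtain ⟨h1, h2, h3, h4⟩ := H79.epo_two hpq hel V hV hVp hqG P Q
      exact ⟨Q, (H2.isFrobeniusComplement_iff_semiregular h3 (P.ne_bot_of_dvd_card hpG)
        (Q.ne_bot_of_dvd_card hqG)).mpr h4, by rw [h1]; exact hq⟩
    · obtain ⟨h1, h2, h3, h4⟩ := H79.epo_two hpq.symm (fun g => (hel g).symm) V hV hVp hpG Q P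
      exact ⟨P, (H2.isFrobeniusComplement_iff_semiregular h3 (Q.ne_bot_of_dvd_card hqG)
        (P.ne_bot_of_dvd_card hpG)).mpr h4, by rw [h1]; exact hp⟩

end Cfsg.Agent.S4004
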