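import Mathlib
import Cfsg.Agent.Base
import Cfsg.Agent.Lib.FGS.NormLem
import Cfsg.Statements.S4005

set_option autoImplicit false
open Cfsg

namespace Cfsg.Agent.S4005

open Subgroup H79 in
theorem aux {G : Type*} [Group G] [Finite G] [Group.IsSolvable G] [Nontrivial G] {p q : ℕ}
    (hp : p.Prime) (hq : q.Prime) (h : ∀ g : G, g ^ p = 1 ∨ g ^ q = 1) :
    ∃ V : Subgroup G, V.Normal ∧ IsMulCommutative V ∧ V ≠ ⊥ ∧ (IsPGroup p V ∨ IsPGroup q V) := by
  obtain ⟨V, hV, -, hc, r, hr, hrV, -, hP⟩ := H3.exists_normal_elementary_le (⊤ : Subgroup G)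
    top_ne_bot inferInstance
  refine ⟨V, hV.normal, hc, hV.ne_bot, ?_⟩
  obtain ⟨x, -, hx⟩ := H1.exists_mem_orderOf_eq_prime hr hrV
  rcases h x with h' | h'
  · left; rwa [← (Nat.prime_dvd_prime_iff_eq hr hp).mp (hx ▸ orderOf_dvd_of_pow_eq_one h')]
  · right; rwa [← (Nat.prime_dvd_prime_iff_eq hr hq).mp (hx ▸ orderOf_dvd_of_pow_eq_one h')]

/-- A finite group whose set of element orders is exactly {1, 2, 3} has either a normal elementary abelian 3-subgroup of index 2 or a normal elementary abelian 2-subgroup of index 3. -/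
theorem result {G : Type*} [Group G] [Finite G] (h : Set.range (orderOf : G → ℕ) = {k : ℕ | 1 ≤ k ∧ k ≤ 3}) :
    (∃ N : Subgroup G, N.Normal ∧ Cfsg.IsElementaryAbelian 3 N ∧ N.index = 2) ∨
      (∃ N : Subgroup G, N.Normal ∧ Cfsg.IsElementaryAbelian 2 N ∧ N.index = 3) := by
  classical
  have hmem : ∀ g : G, 1 ≤ orderOf g ∧ orderOf g ≤ 3 := fun g => by
    have : orderOf g ∈ Set.range (orderOf : G → ℕ) := ⟨g, rfl⟩
    rwa [h] at this
  have h23 : ∀ g : G, g ^ 2 = 1 ∨ g ^ 3 = 1 := by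
    intro g
    obtain ⟨h1, h2⟩ := hmem g
    have := pow_orderOf_eq_one g
    interval_cases ho : orderOf g
    · left; rw [pow_one] at this; rw [this, one_pow]
    · exact Or.inl this
    · exact Or.inr this
  obtain ⟨t, ht⟩ : 2 ∈ Set.range (orderOf : G → ℕ) := by rw [h]; constructor <;> norm_num
  obtain ⟨x, hx⟩ : 3 ∈ Set.range (orderOf : G → ℕ) := by rw [h]; constructor <;> norm_num
  have h2G : 2 ∣ Nat.card G := ht ▸ orderOf_dvd_natCard t
  have h3G : 3 ∣ Nat.card G := hx ▸ orderOf_dvd_natCard x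
  haveI : Group.IsSolvable G := H79.isSolvable_of_primes Nat.prime_two Nat.prime_three fun r hr hd => by
    haveI := Fact.mk hr
    obtain ⟨g, hg⟩ := exists_prime_orderOf_dvd_card' r hd
    have := hmem g
    have := hr.two_le
    omega
  haveI : Nontrivial G := ⟨⟨t, 1, by rintro rfl; simp at ht⟩⟩
  haveI := Fact.mk Nat.prime_three
  obtain ⟨P2⟩ : Nonempty (Sylow 2 G) := inferInstance
  obtain ⟨P3⟩ : Nonempty (Sylow 3 G) := inferInstance
  obtain ⟨V, hVn, hVc, hV, hVp | hVp⟩ := aux Nat.prime_two Nat.prime_three h23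
  · obtain ⟨h1, h2, h3, h4⟩ := H79.epo_two (by norm_num) h23 V hV hVp h3G P2 P3
    have he : ∀ a ∈ (P2 : Subgroup G), a ^ 2 = 1 := by
      intro a ha
      rcases h23 a with h' | h'
      · exact h'
      · by_contra h5
        have h6 : a ≠ 1 := by rintro rfl; simp at h5
        have := (H79.prime_dvd_orderOf_of_isPGroup P2.isPGroup' ha h6).trans
          (orderOf_dvd_of_pow_eq_one h')
        norm_num at this
    refine Or.inr ⟨P2, h2, ⟨⟨⟨fun a b => Subtype.ext ?_⟩⟩, he⟩, by rw [h3.symm.index_eq_card, h1]⟩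
    have e : ∀ a ∈ (P2 : Subgroup G), a⁻¹ = a := fun a ha =>
      inv_eq_of_mul_eq_one_right (by rw [← pow_two, he a ha])
    have := e _ (mul_mem a.2 b.2)
    rw [mul_inv_rev, e _ a.2, e _ b.2] at this
    exact this.symm
  · obtain ⟨h1, h2, h3, h4⟩ := H79.epo_two (by norm_num) (fun g => (h23 g).symm) V hV hVp h2G P3 P2
    have he : ∀ a ∈ (P3 : Subgroup G), a ^ 3 = 1 := by
      intro a ha
      rcases h23 a with h' | h'
      · by_contra h5
        have h6 : a ≠ 1 := by rintro rfl; simp at h5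
        have := (H79.prime_dvd_orderOf_of_isPGroup P3.isPGroup' ha h6).trans
          (orderOf_dvd_of_pow_eq_one h')
        norm_num at this
      · exact h'
    refine Or.inl ⟨P3, h2, ⟨?_, he⟩, by rw [h3.symm.index_eq_card, h1]⟩
    obtain ⟨s, hs, hso⟩ := H1.exists_mem_orderOf_eq_prime (H := (P2 : Subgroup G)) Nat.prime_two
      (by rw [h1])
    have hs1 : s ≠ 1 := by rintro rfl; simp at hso
    have hs2 : s * s = 1 := by rw [← pow_two, ← hso, pow_orderOf_eq_one]
    let φ : MulAut (P3 : Subgroup G) := MulAut.conjNormal s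
    have hφ : MonoidHom.FixedPointFree φ := by
      intro g hg
      have := congrArg Subtype.val hg
      rw [MulAut.conjNormal_apply] at this
      exact Subtype.ext (H2.inf_centralizer_singleton_eq_bot_iff.mp (h4 s hs hs1) g g.2
        (mul_inv_eq_iff_eq_mul.mp this).symm)
    refine ⟨⟨fun a b => hφ.commute_all_of_involutive (fun g => ?_) a b⟩⟩
    rw [← MulAut.mul_apply, ← map_mul, hs2, map_one, MulAut.one_apply]

end Cfsg.Agent.S4005
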