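import Cfsg.Statements.S4204
import Mathlib
import Cfsg.Agent.Base
import Cfsg.Agent.Lib.Core.Coprime

set_option autoImplicit false
open Cfsg

namespace Cfsg.Agent.S4204

open Subgroup

/-- the lower central series with the whole group put in front -/
def ser {G : Type*} [Group G] (H : Subgroup G) (n : ℕ) : Subgroup G :=
  if n = 0 then ⊤ else H.lowerCentralSeries (n - 1)

theorem lcs_normal {G : Type*} [Group G] (H : Subgroup G) [H.Normal] (n : ℕ) :
    (H.lowerCentralSeries n).Normal := by
  induction n with
  | zero => rwa [Subgroup.lowerCentralSeries_zero]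
  | succ n ih => rw [Subgroup.lowerCentralSeries_succ]; infer_instance

theorem ser_normal {G : Type*} [Group G] (H : Subgroup G) [H.Normal] (n : ℕ) : (ser H n).Normal := by
  rw [ser]; split_ifs
  · infer_instance
  · exact lcs_normal H _

theorem ser_step {G : Type*} [Group G] (H : Subgroup G) [H.Normal] (n : ℕ) :
    ⁅ser H n, H⁆ ≤ ser H (n + 1) := by
  cases n with
  | zero => simp only [ser]; exact commutator_le_right _ _
  | succ n => simp [ser]

theorem ser_eq_bot {G : Type*} [Group G] (H : Subgroup G) {c n : ℕ} (h : H.lowerCentralSeries c = ⊥)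
    (hn : c + 1 ≤ n) : ser H n = ⊥ := by
  rw [ser, if_neg (by omega), eq_bot_iff, ← h]
  exact Subgroup.lowerCentralSeries_antitone _ (by omega)


/-- If `H` and `K` are normal subgroups of a finite group with `H` nilpotent of class at most `c` and `K` nilpotent of class at most `d` (the terms with index `c`, respectively `d`, of their lower central series are trivial, indices starting at `0`), then `HK` is nilpotent of class at most `c + d`. -/
theorem result {G : Type*} [Group G] [Finite G] (H K : Subgroup G) [H.Normal] [K.Normal] (c d : ℕ) (hH : H.lowerCentralSeries c = ⊥) (hK : K.lowerCentralSeries d = ⊥) : (H ⊔ K).lowerCentralSeries (c + d) = ⊥ := by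
  have key : ∀ n, (H ⊔ K).lowerCentralSeries n ≤
      ⨆ q : {q : ℕ × ℕ // q.1 + q.2 = n + 1}, ser H q.1.1 ⊓ ser K q.1.2 := by
    intro n
    induction n with
    | zero =>
      rw [Subgroup.lowerCentralSeries_zero]
      refine sup_le (le_iSup_of_le ⟨(1, 0), rfl⟩ ?_) (le_iSup_of_le ⟨(0, 1), rfl⟩ ?_) <;> simp [ser]
    | succ n ih =>
      rw [Subgroup.lowerCentralSeries_succ]
      refine (commutator_mono ih le_rfl).trans ?_
      have hn : (⨆ q : {q : ℕ × ℕ // q.1 + q.2 = n + 1 + 1}, ser H q.1.1 ⊓ ser K q.1.2).Normal := by
        have := ser_normal H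
        have := ser_normal K
        infer_instance
      refine H2.commutator_iSup_le (fun _ => le_normalizer_of_normal) ?_
      rintro ⟨⟨i, j⟩, hij⟩
      have := ser_normal H i
      have := ser_normal K j
      rw [commutator_comm]
      refine H2.commutator_sup_le le_normalizer_of_normal le_normalizer_of_normal ?_ ?_
      · rw [commutator_comm]
        refine le_iSup_of_le ⟨(i + 1, j), by simp at hij ⊢; omega⟩ (le_inf ?_ ?_)
        · exact (commutator_mono inf_le_left le_rfl).trans (ser_step H i)
        · exact (commutator_mono inf_le_right le_rfl).trans (commutator_le_left _ _)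
      · rw [commutator_comm]
        refine le_iSup_of_le ⟨(i, j + 1), by simp at hij ⊢; omega⟩ (le_inf ?_ ?_)
        · exact (commutator_mono inf_le_left le_rfl).trans (commutator_le_left _ _)
        · exact (commutator_mono inf_le_right le_rfl).trans (ser_step K j)
  rw [eq_bot_iff]
  refine (key _).trans (iSup_le ?_)
  rintro ⟨⟨i, j⟩, hij⟩
  by_cases hi : c + 1 ≤ i
  · exact inf_le_left.trans (ser_eq_bot H hH hi).le
  · exact inf_le_right.trans (ser_eq_bot K hK (by simp at hij ⊢; omega)).le

end Cfsg.Agent.S4204
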