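import Cfsg.Statements.S4211
import Cfsg.Agent.Lib.TwoGrp.Dedekind
import Cfsg.Agent.Lib.GL.SylowSL2
import Cfsg.Agent.Lib.Core.PCore

set_option autoImplicit false
open Cfsg

namespace Cfsg.Agent.S4211

open Subgroup

/-- A finite non-abelian group in which every subgroup is normal is the internal direct product of a subgroup isomorphic to the quaternion group of order `8`, an elementary abelian `2`-subgroup and an abelian subgroup of odd order. -/
theorem result {G : Type*} [Group G] [Finite G] (hna : ¬ IsMulCommutative G) (hn : ∀ H : Subgroup G, H.Normal) : ∃ Q E A : Subgroup G, Nonempty (Q ≃* QuaternionGroup 2) ∧ Cfsg.IsElementaryAbelian 2 E ∧ IsMulCommutative A ∧ Odd (Nat.card A) ∧ E ⊓ A = ⊥ ∧ Q ⊓ (E ⊔ A) = ⊥ ∧ Q ⊔ (E ⊔ A) = ⊤ := by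
  classical
  obtain ⟨x, y, hx, hy, hyx⟩ := H13.TG.dedekind_core hn (by
    by_contra h
    push Not at h
    exact hna ⟨⟨fun a b => (h a b).eq⟩⟩)
  have hx4 : x ^ 4 = 1 := by rw [← hx, pow_orderOf_eq_one]
  have hx2 : x ^ 2 ≠ 1 := pow_ne_one_of_lt_orderOf (by norm_num) (by omega)
  have hxi : x⁻¹ ≠ x := fun h => hx2 (by rw [pow_two]; nth_rewrite 1 [← h]; simp)
  have hyx' : y ∉ zpowers x := by
    rintro ⟨k, rfl⟩
    exact hxi (by rw [← hyx]; group)
  have hy2 : y ^ 2 = x ^ 2 := by rw [← hy, pow_two]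
  have hy4 : orderOf y = 4 := by
    haveI := Fact.mk Nat.prime_two
    exact orderOf_eq_prime_pow (p := 2) (n := 1) (by rwa [pow_one, hy2])
      (by rw [show 2 ^ (1 + 1) = 2 * 2 from rfl, pow_mul, hy2, ← pow_mul, hx4])
  have hxy : x * y * x⁻¹ = y⁻¹ := by
    have h1 : y * x = x⁻¹ * y := mul_inv_eq_iff_eq_mul.1 hyx
    rw [eq_inv_iff_mul_eq_one, mul_assoc, ← h1, ← mul_assoc, mul_assoc x, hy, ← pow_succ', ← pow_succ, hx4]
  let f := H10.quatHom (m := 2) x y hx4 hy hyx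
  have hf : Function.Injective f := H10.quatHom_injective x y hx4 hy hyx hx hyx'
  have hxQ : x ∈ f.range := ⟨.a 1, by rw [H10.quatHom_a]; exact pow_one x⟩
  have hyQ : y ∈ f.range := ⟨.xa 0, by rw [H10.quatHom_xa, ZMod.val_zero, pow_zero, mul_one]⟩
  -- conjugates of elements of order four
  have four : ∀ u g : G, orderOf u = 4 → g * u * g⁻¹ = u ∨ g * u * g⁻¹ = u⁻¹ := by
    intro u g hu
    have h1 := (hn _).conj_mem u (mem_zpowers u) g
    have ho : orderOf (g * u * g⁻¹) = 4 := by rw [← hu]; exact (MulAut.conj g).orderOf_eq u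
    have hu4 : u ^ 4 = 1 := by rw [← hu, pow_orderOf_eq_one]
    rw [mem_zpowers_iff_mem_range_orderOf, hu] at h1
    simp only [Finset.mem_image, Finset.mem_range] at h1
    obtain ⟨k, hk, h⟩ := h1
    rw [← h] at ho ⊢
    interval_cases k
    · simp at ho
    · exact Or.inl (pow_one u)
    · have := orderOf_dvd_of_pow_eq_one (show (u ^ 2) ^ 2 = 1 by rw [← pow_mul, hu4])
      rw [ho] at this; omega
    · exact Or.inr (eq_inv_of_mul_eq_one_left (by rw [← pow_succ, hu4]))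
  have inv : ∀ u : G, u ^ 2 = 1 → u ∈ center G := by
    intro u hu
    rw [mem_center_iff]
    intro g
    have h1 := (hn _).conj_mem u (mem_zpowers u) g
    rw [mem_zpowers_iff_mem_range_orderOf] at h1
    simp only [Finset.mem_image, Finset.mem_range] at h1
    obtain ⟨k, hk, h⟩ := h1
    have := orderOf_le_of_pow_eq_one two_pos hu
    have hk2 : k < 2 := by omega
    interval_cases k
    · have : u = 1 := by simpa using h.symm
      simp [this]
    · exact mul_inv_eq_iff_eq_mul.1 (h.symm.trans (pow_one u))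
  have dec : ∀ g : G, ∃ q ∈ f.range, Commute (q⁻¹ * g) x ∧ Commute (q⁻¹ * g) y := by
    intro g
    have c : ∀ a b : G, a * b * a⁻¹ = b → Commute a b := fun a b h => mul_inv_eq_iff_eq_mul.1 h
    rcases four x g hx with h1 | h1 <;> rcases four y g hy4 with h2 | h2
    · exact ⟨1, one_mem _, c _ _ (by simpa using h1), c _ _ (by simpa using h2)⟩
    · refine ⟨x, hxQ, c _ _ ?_, c _ _ ?_⟩
      · rw [show x⁻¹ * g * x * (x⁻¹ * g)⁻¹ = x⁻¹ * (g * x * g⁻¹) * x by group, h1]; group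
      · rw [show x⁻¹ * g * y * (x⁻¹ * g)⁻¹ = x⁻¹ * (g * y * g⁻¹) * x by group, h2, ← hxy]; group
    · refine ⟨y, hyQ, c _ _ ?_, c _ _ ?_⟩
      · rw [show y⁻¹ * g * x * (y⁻¹ * g)⁻¹ = y⁻¹ * (g * x * g⁻¹) * y by group, h1, ← hyx]; group
      · rw [show y⁻¹ * g * y * (y⁻¹ * g)⁻¹ = y⁻¹ * (g * y * g⁻¹) * y by group, h2]; group
    · refine ⟨x * y, mul_mem hxQ hyQ, c _ _ ?_, c _ _ ?_⟩
      · rw [show (x * y)⁻¹ * g * x * ((x * y)⁻¹ * g)⁻¹ = y⁻¹ * (x⁻¹ * (g * x * g⁻¹) * x) * y by group,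
          h1, show x⁻¹ * x⁻¹ * x = x⁻¹ by group, ← hyx]
        group
      · rw [show (x * y)⁻¹ * g * y * ((x * y)⁻¹ * g)⁻¹ = y⁻¹ * (x⁻¹ * (g * y * g⁻¹) * x) * y by group,
          h2, show x⁻¹ * y⁻¹ * x = y by rw [← hxy]; group]
        group
  have no4 : ∀ w : G, Commute w x → Commute w y → w ^ 4 = 1 → w ^ 2 = 1 := by
    intro w c1 c2 h4
    by_contra h2
    have e : y * (x * w) * y⁻¹ = x⁻¹ * w := by
      rw [← hyx, ← mul_assoc, mul_assoc (y * x), (c2.inv_right).eq, mul_assoc (y * x)]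
    by_cases h : (x * w) ^ 2 = 1
    · have := mem_center_iff.1 (inv _ h) y
      rw [this, mul_inv_cancel_right] at e
      exact hxi (mul_right_cancel e).symm
    · haveI := Fact.mk Nat.prime_two
      have ho : orderOf (x * w) = 4 := orderOf_eq_prime_pow (p := 2) (n := 1) (by rwa [pow_one])
        (by rw [c1.symm.mul_pow]; norm_num [hx4, h4])
      rcases four (x * w) y ho with h3 | h3
      · rw [h3] at e; exact hxi (mul_right_cancel e).symm
      · rw [h3, mul_inv_rev, (c1.inv_inv).eq] at e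
        exact h2 (by rw [pow_two]; nth_rewrite 1 [← mul_left_cancel e]; simp)
  have no2 : ∀ (k : ℕ) (w : G), Commute w x → Commute w y → w ^ 2 ^ k = 1 → w ^ 2 = 1 := by
    intro k
    induction k with
    | zero => intro w _ _ h; rw [pow_zero, pow_one] at h; simp [h]
    | succ k ih =>
      intro w c1 c2 h
      refine no4 w c1 c2 ?_
      rw [show 4 = 2 * 2 from rfl, pow_mul]
      exact ih (w ^ 2) (c1.pow_left 2) (c2.pow_left 2) (by rw [← pow_mul, ← pow_succ', h])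
  -- the elementary abelian factor
  obtain ⟨E, ⟨hE1, hE2⟩, hEmax⟩ := Set.Finite.exists_maximal (Set.toFinite
    {E : Subgroup G | (∀ e ∈ E, e ^ 2 = 1) ∧ x ^ 2 ∉ E}) ⟨⊥, by simp, by simpa using hx2⟩
  have hE3 : ∀ e : G, e ^ 2 = 1 → e ∈ f.range ⊔ E := by
    intro e he
    by_cases hc : x ^ 2 ∈ E ⊔ zpowers e
    · obtain ⟨k, hk, i, hi⟩ := (H5.mem_sup_zpowers_iff (center_le_normalizer _ (inv e he))).1 hc
      rcases Int.even_or_odd' i with ⟨j, rfl | rfl⟩
      · rw [zpow_mul, zpow_ofNat, he, one_zpow, mul_one] at hi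
        exact absurd (hi ▸ hk) hE2
      · rw [zpow_add, zpow_mul, zpow_ofNat, he, one_zpow, one_mul, zpow_one] at hi
        rw [show e = k⁻¹ * x ^ 2 by rw [hi]; group]
        exact mul_mem (mem_sup_right (inv_mem hk)) (mem_sup_left (pow_mem hxQ 2))
    · refine mem_sup_right (hEmax (y := E ⊔ zpowers e) ⟨fun g hg => ?_, hc⟩ le_sup_left
        (mem_sup_right (mem_zpowers e)))
      obtain ⟨k, hk, i, rfl⟩ := (H5.mem_sup_zpowers_iff (center_le_normalizer _ (inv e he))).1 hg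
      rw [Commute.mul_pow (mem_center_iff.1 (inv k (hE1 k hk)) _).symm, hE1 k hk, one_mul,
        ← zpow_natCast, ← zpow_mul, mul_comm, zpow_mul, zpow_natCast, he, one_zpow]
  have hA : Odd (Nat.card (oddCore G)) := H1.odd_card_oddCore
  have hA1 : ∀ a ∈ oddCore G, a ^ 4 = 1 → a = 1 := fun a ha h =>
    orderOf_eq_one_iff.1 (Nat.Coprime.eq_one_of_dvd
      ((H1.coprime_orderOf_of_mem_pPrimeCore ha).pow_right 2) (orderOf_dvd_of_pow_eq_one h))
  refine ⟨f.range, E, oddCore G, ⟨(MonoidHom.ofInjective hf).symm⟩,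
    ⟨⟨⟨fun a b => Subtype.ext (mem_center_iff.1 (inv b (hE1 b b.2)) a)⟩⟩, hE1⟩, ?_, hA, ?_, ?_, ?_⟩
  · by_contra h
    obtain ⟨u, -, hu, -⟩ := H13.TG.dedekind_core (G := oddCore G)
      (fun H => Normal.of_map_subtype (hn _)) (by
        by_contra h'
        push Not at h'
        exact h ⟨⟨fun a b => (h' a b).eq⟩⟩)
    have := hA.of_dvd_nat (orderOf_dvd_natCard u)
    rw [hu] at this
    exact absurd this (by decide)
  · rw [eq_bot_iff]
    rintro a ⟨h1, h2⟩
    exact hA1 a h2 (by rw [show 4 = 2 * 2 from rfl, pow_mul, hE1 a h1, one_pow])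
  · rw [eq_bot_iff]
    rintro _ ⟨⟨q, rfl⟩, h2⟩
    obtain ⟨e, he, a, ha, h⟩ := mem_sup_of_normal_right.1 h2
    have k4 : ∀ g : QuaternionGroup 2, g ^ 4 = 1 := by decide
    have k2 : ∀ g : QuaternionGroup 2, g ^ 2 = 1 → g = 1 ∨ g = .a 1 ^ 2 := by decide
    have h4 := congrArg f (k4 q)
    rw [map_pow, map_one, ← h, Commute.mul_pow (mem_center_iff.1 (inv e (hE1 e he)) _).symm,
      show 4 = 2 * 2 from rfl, pow_mul, hE1 e he, one_pow, one_mul] at h4
    rw [hA1 a ha h4, mul_one] at h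
    rcases k2 q (hf (by rw [map_pow, ← h, hE1 e he, map_one])) with rfl | rfl
    · simp
    · rw [map_pow, H10.quatHom_a, show (1 : ZMod (2 * 2)).val = 1 from rfl, pow_one] at h
      exact absurd (h ▸ he) hE2
  · rw [eq_top_iff]
    intro g _
    obtain ⟨q, hq, c1, c2⟩ := dec g
    set w := q⁻¹ * g with hw
    obtain ⟨k, m, hm, hkm⟩ := Nat.exists_eq_two_pow_mul_odd (orderOf_pos w).ne'
    have h1 : (w ^ m) ^ 2 = 1 := no2 k _ (c1.pow_left m) (c2.pow_left m)
      (by rw [← pow_mul, mul_comm, ← hkm, pow_orderOf_eq_one])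
    have h2 : w ^ 2 ^ k ∈ oddCore G := by
      haveI := hn (zpowers (w ^ 2 ^ k))
      refine H1.le_oddCore ?_ (mem_zpowers _)
      rw [Nat.card_zpowers]
      exact hm.of_dvd_nat (orderOf_dvd_of_pow_eq_one (by rw [← pow_mul, ← hkm, pow_orderOf_eq_one]))
    have h3 : w ∈ f.range ⊔ (E ⊔ oddCore G) := by
      have hc : Nat.Coprime m (2 ^ k) := (Nat.coprime_two_right.2 hm).pow_right k
      have hb := Nat.gcd_eq_gcd_ab m (2 ^ k)
      rw [hc.gcd_eq_one] at hb
      have : w = (w ^ m) ^ m.gcdA (2 ^ k) * (w ^ 2 ^ k) ^ m.gcdB (2 ^ k) := by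
        rw [← zpow_natCast, ← zpow_natCast w, ← zpow_mul, ← zpow_mul, ← zpow_add, ← hb]; simp
      rw [this]
      exact mul_mem (zpow_mem ((sup_le_sup_left le_sup_left _ : f.range ⊔ E ≤ f.range ⊔ (E ⊔ oddCore G)) (hE3 _ h1)) _)
        (zpow_mem (mem_sup_right (mem_sup_right h2)) _)
    rw [show g = q * w by rw [hw]; group]
    exact mul_mem (mem_sup_left hq) h3

end Cfsg.Agent.S4211
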