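import Mathlib
import Cfsg.Agent.Base
import Cfsg.Agent.Lib.FGS.FrobCount
import Cfsg.Agent.Lib.FGS.Count
import Cfsg.Agent.Lib.Core.MinNormal
import Cfsg.Agent.Lib.Core.GrpBasic
import Cfsg.Agent.Lib.Core.HallSZ
import Cfsg.Agent.Lib.Block.PPart
import Cfsg.Statements.S4213

set_option autoImplicit false
open Cfsg

namespace Cfsg.Agent.S4213

universe u

theorem ncard_ge {G : Type*} [Group G] [Finite G] {n : ℕ} (hn : n ∣ Nat.card G) :
    n ≤ {x : G | x ^ n = 1}.ncard :=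
  Nat.le_of_dvd ((Set.ncard_pos (Set.toFinite _)).2 ⟨1, one_pow n⟩) (H79.frobenius hn)

theorem aux (k : ℕ) : ∀ (G : Type u) [Group G] [Finite G] [Group.IsSolvable G], Nat.card G = k →
    ∀ n : ℕ, n ∣ Nat.card G → {x : G | x ^ n = 1}.ncard ≤ n →
    ∃ H : Subgroup G, (H : Set G) = {x : G | x ^ n = 1} := by
  induction k using Nat.strong_induction_on with
  | _ k ih =>
  intro G _ _ _ hk n hn hle
  have fin : ∀ H : Subgroup G, Nat.card H = n → (∀ x ∈ H, x ^ n = 1) →
      (H : Set G) = {x : G | x ^ n = 1} := fun H h1 h2 =>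
    Set.eq_of_subset_of_ncard_le h2 (by rw [H80.ncard_coe_subgroup, h1]; exact hle)
  rcases subsingleton_or_nontrivial G with hs | hs
  · exact ⟨⊤, Set.ext fun x => by simp [Subsingleton.elim x 1]⟩
  obtain ⟨N, hN, -, -, p, hp, hpN, hNe, hNp⟩ := H3.exists_normal_elementary_le (⊤ : Subgroup G)
    top_ne_bot inferInstance
  haveI := hN.normal
  haveI := Fact.mk hp
  have hlt : Nat.card (G ⧸ N) < k := hk ▸ H1.card_quotient_lt hN.ne_bot
  have hcard : Nat.card G = Nat.card N * Nat.card (G ⧸ N) := by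
    rw [Subgroup.card_eq_card_quotient_mul_card_subgroup N, mul_comm]
  by_cases hpn : p ∣ n
  · obtain ⟨n', rfl⟩ := hpn
    set m := Nat.gcd n' (Nat.card (G ⧸ N)) with hm
    have h1 : p * n' ∣ Nat.card N * m := by
      rw [hm, ← Nat.gcd_mul_left]
      exact Nat.dvd_gcd (Nat.mul_dvd_mul_right hpN _) (hcard ▸ hn)
    have hsub : ∀ x : G, (x : G ⧸ N) ^ m = 1 → x ^ (p * n') = 1 := by
      intro x hx
      obtain ⟨c, hc⟩ : m ∣ n' := Nat.gcd_dvd_left _ _
      rw [← QuotientGroup.mk_pow, QuotientGroup.eq_one_iff] at hx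
      rw [hc, mul_comm p, pow_mul, pow_mul, hNe _ (pow_mem hx c)]
    have h2 : Nat.card N * {y : G ⧸ N | y ^ m = 1}.ncard ≤ p * n' := by
      refine le_trans ?_ hle
      refine H80.mul_ncard_le_of_fiber _ _ ?_ ?_ _ ?_ |>.trans
        (Set.ncard_le_ncard (s := {x : G | (x : G ⧸ N) ^ m = 1}) hsub)
      · exact fun x => (x : G ⧸ N)
      · exact fun x hx => hx
      · intro y hy
        rw [← H80.ncard_fiber_mk N y]
        refine Set.ncard_le_ncard fun x hx => ⟨?_, hx⟩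
        rw [Set.mem_ofPred_eq, show (x : G ⧸ N) = y from hx]; exact hy
    have hm0 : 0 < m := Nat.gcd_pos_of_pos_right _ Nat.card_pos
    have h3 := Nat.le_of_dvd (Nat.mul_pos Nat.card_pos hm0) h1
    have h4 : {y : G ⧸ N | y ^ m = 1}.ncard ≤ m :=
      Nat.le_of_mul_le_mul_left (h2.trans h3) Nat.card_pos
    have h5 := ncard_ge (G := G ⧸ N) (n := m) (Nat.gcd_dvd_right _ _)
    obtain ⟨K, hK⟩ := ih _ hlt (G ⧸ N) rfl m (Nat.gcd_dvd_right _ _) h4
    refine ⟨K.comap (QuotientGroup.mk' N), fin _ ?_ fun x hx => hsub x ?_⟩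
    · rw [H1.card_comap_mk', ← H80.ncard_coe_subgroup, hK, mul_comm]
      refine le_antisymm h2 (h3.trans (Nat.mul_le_mul_left _ h5))
    · have : (x : G ⧸ N) ∈ (K : Set (G ⧸ N)) := hx
      rwa [hK] at this
  · obtain ⟨a, ha⟩ := IsPGroup.iff_card.1 hNp
    have hcop : (Nat.card N).Coprime n :=
      ha ▸ Nat.Coprime.pow_left a ((Nat.Prime.coprime_iff_not_dvd hp).2 hpn)
    have h1 : n ∣ Nat.card (G ⧸ N) := hcop.symm.dvd_of_dvd_mul_left (hcard ▸ hn)
    have h2 : {y : G ⧸ N | y ^ n = 1}.ncard ≤ n := by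
      refine le_trans ?_ hle
      refine le_trans (Set.ncard_le_ncard ?_) (Set.ncard_image_le (f := fun x : G => (x : G ⧸ N)))
      intro y hy
      obtain ⟨x, rfl⟩ := QuotientGroup.mk_surjective y
      have hy' : ¬ p ∣ orderOf (x : G ⧸ N) := fun h =>
        hpn (h.trans (orderOf_dvd_of_pow_eq_one hy))
      obtain ⟨z, hz, hzx⟩ := H35.exists_not_dvd_mk_eq p N hy'
      refine ⟨z, ?_, hzx⟩
      have : z ^ n ∈ N := by
        rw [← QuotientGroup.eq_one_iff, QuotientGroup.mk_pow, hzx]; exact hy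
      exact (H35.isPElt_of_mem hNp this).eq_one_of_not_dvd (H35.not_dvd_orderOf_pow hz n)
    obtain ⟨K, hK⟩ := ih _ hlt (G ⧸ N) rfl n h1 h2
    have hKc : Nat.card K = n := by
      rw [← H80.ncard_coe_subgroup, hK]; exact le_antisymm h2 (ncard_ge h1)
    have hr : N.relIndex (K.comap (QuotientGroup.mk' N)) = n := by
      rw [← H1.card_map_mk'_eq_relIndex, Subgroup.map_comap_eq_self_of_surjective
        (QuotientGroup.mk'_surjective N), hKc]
    obtain ⟨H, -, -, -, hH⟩ := H3.exists_complement_in (N := N) (T := K.comap (QuotientGroup.mk' N))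
      (QuotientGroup.le_comap_mk' N K) Subgroup.le_normalizer_of_normal (hr ▸ hcop)
    rw [hr] at hH
    exact ⟨H, fin H hH fun x hx => orderOf_dvd_iff_pow_eq_one.1
      (hH ▸ H1.orderOf_dvd_card_of_mem hx)⟩

/-- If `G` is a finite solvable group and `n` divides the order of `G` and exactly `n` elements `x` of `G` satisfy `x^n = 1`, then these elements form a normal subgroup. -/
theorem result {G : Type*} [Group G] [Finite G] [Group.IsSolvable G] (n : ℕ) (hn : n ∣ Nat.card G) (hcount : Nat.card {x : G // x ^ n = 1} = n) : ∃ H : Subgroup G, H.Normal ∧ (H : Set G) = {x : G | x ^ n = 1} := by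
  obtain ⟨H, hH⟩ := aux _ G rfl n hn hcount.le
  refine ⟨H, ⟨fun x hx g => ?_⟩, hH⟩
  have h1 : x ∈ (H : Set G) := hx
  change g * x * g⁻¹ ∈ (H : Set G)
  rw [hH] at h1 ⊢
  rw [Set.mem_ofPred_eq, conj_pow, show x ^ n = 1 from h1]
  simp

end Cfsg.Agent.S4213
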