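import Mathlib
import Cfsg.Statements.S4214
import Cfsg.Agent.Lib.Core.Hall
import Cfsg.Agent.Lib.Core.MinNormal
import Cfsg.Agent.Lib.Core.Coprime
import Cfsg.Agent.Lib.Transfer.Control
-- import your own Cfsg.Agent.* helpers here

set_option autoImplicit false
open Cfsg

namespace Cfsg.Agent.S4214

open Subgroup
open scoped commutatorElement Pointwise

universe u

theorem factor {G : Type*} [Group G] [Finite G] {q : ℕ} (hq : q.Prime) {N : Subgroup G}
    (hN : IsPGroup q N) (n : ℕ) : ∀ H : Subgroup G, Nat.card H = n → Group.IsSolvable H →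
      H ≤ normalizer (N : Set G) → (Nat.card H).Coprime (Nat.card N) →
      ∃ l : List ℕ, l.prod = (N ⊓ centralizer (H : Set G)).relIndex N ∧
        ∀ x ∈ l, (∃ e, x = q ^ e) ∧ x ∣ Nat.card N ∧
          ∃ r : ℕ, r.Prime ∧ r ∣ Nat.card H ∧ x ≡ 1 [MOD r] := by
  induction n using Nat.strong_induction_on with
  | _ n ih =>
  intro H hn hs hHN hc
  have := Fact.mk hq
  by_cases hH : H = ⊥
  · subst hH
    refine ⟨[], ?_, by simp⟩
    rw [List.prod_nil, eq_comm, relIndex_eq_one]
    refine le_inf le_rfl fun x _ y hy => ?_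
    rw [mem_bot.1 hy, one_mul, mul_one]
  obtain ⟨M, hMH, hHM, hp⟩ := H3.exists_relIndex_prime_of_isSolvable H hH hs
  have hlt : M < H := lt_of_le_of_ne hMH fun e => by
    rw [e, relIndex_self] at hp; exact Nat.not_prime_one hp
  obtain ⟨l, hl, hl'⟩ := ih _ (hn ▸ H3.card_lt_card_of_lt hlt) M rfl (H2.isSolvable_of_le hMH hs)
    (hMH.trans hHN) (H2.coprime_of_le_left hc hMH)
  obtain ⟨r, hr, hrH, g, hgH, ⟨k, hk⟩, hgM⟩ : ∃ r : ℕ, r.Prime ∧ r ∣ Nat.card H ∧ ∃ g ∈ H,
      (∃ k : ℕ, g ^ r ^ k = 1) ∧ g ∉ M := by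
    by_contra h
    push Not at h
    exact hlt.not_ge (H4.le_of_forall_prime_pow fun r hr hd x hx hx' => h r hr hd x hx hx')
  have hsup : H ≤ M ⊔ zpowers g := by
    have h1 := relIndex_mul_relIndex M (M ⊔ zpowers g) H le_sup_left
      (sup_le hMH (zpowers_le.2 hgH))
    rw [← h1] at hp
    rcases (Nat.prime_mul_iff.1 hp) with ⟨-, h⟩ | ⟨-, h⟩
    · exact relIndex_eq_one.1 h
    · exact absurd (relIndex_eq_one.1 h (mem_sup_right (mem_zpowers g))) hgM
  set C := N ⊓ centralizer (M : Set G) with hC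
  have hD : N ⊓ centralizer (H : Set G) = C ⊓ centralizer {g} := by
    refine le_antisymm (le_inf (inf_le_inf_left _ (centralizer_le hMH))
      (inf_le_right.trans (centralizer_le (Set.singleton_subset_iff.2 hgH)))) ?_
    refine le_inf (inf_le_left.trans inf_le_left) (le_centralizer_iff.1 (hsup.trans (sup_le ?_ ?_)))
    · exact le_centralizer_iff.1 (inf_le_left.trans inf_le_right)
    · exact zpowers_le.2 fun y hy => (mem_centralizer_singleton_iff.1 (mem_inf.1 hy).2)
  have := Fact.mk hr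
  have h2 := H4.card_modEq_card_inf_centralizer (Q := C)
    (H2.le_normalizer_inf hHN (H2.le_normalizer_centralizer hHM) hgH) hk
  have hle : C ⊓ centralizer {g} ≤ C := inf_le_left
  have hdvd : (C ⊓ centralizer {g}).relIndex C ∣ Nat.card N :=
    (relIndex_dvd_card _ _).trans (card_dvd_of_le inf_le_left)
  refine ⟨(C ⊓ centralizer {g}).relIndex C :: l, ?_, ?_⟩
  · rw [List.prod_cons, hl, hD, relIndex_mul_relIndex _ _ _ hle inf_le_left]
  · intro x hx
    rcases List.mem_cons.1 hx with rfl | hx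
    · refine ⟨?_, hdvd, r, hr, hrH, ?_⟩
      · obtain ⟨e, he⟩ := IsPGroup.iff_card.1 hN
        rw [he] at hdvd
        obtain ⟨i, -, hi⟩ := (Nat.dvd_prime_pow hq).1 hdvd
        exact ⟨i, hi⟩
      · rw [← H3.relIndex_mul_card hle] at h2
        refine Nat.ModEq.cancel_right_of_coprime (c := Nat.card (C ⊓ centralizer {g} : Subgroup G))
          ?_ (by rwa [one_mul])
        exact Nat.Coprime.coprime_dvd_right (card_dvd_of_le (hle.trans inf_le_left))
          (Nat.Coprime.coprime_dvd_left hrH hc)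
    · obtain ⟨h3, h4, r', h5, h6, h7⟩ := hl' x hx
      exact ⟨h3, h4, r', h5, h6.trans (card_dvd_of_le hMH), h7⟩

/-- The conditions on the factors. -/
def Good (G : Type*) [Group G] (m x : ℕ) : Prop :=
  (∃ q e : ℕ, q.Prime ∧ x = q ^ e) ∧ (∃ K L : Subgroup G, K.Normal ∧ L.Normal ∧ K < L ∧
    (∀ M : Subgroup G, M.Normal → K ≤ M → M ≤ L → M = K ∨ M = L) ∧ x ∣ K.relIndex L) ∧
    (∃ q : ℕ, q.Prime ∧ q ∣ m ∧ x ≡ 1 [MOD q])

theorem Good.lift {G G' : Type*} [Group G] [Group G'] {f : G →* G'} (hf : Function.Surjective f)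
    {m m' x : ℕ} (hm : m' ∣ m) (h : Good G' m' x) : Good G m x := by
  obtain ⟨h1, ⟨K, L, hK, hL, hKL, h2, h3⟩, q, h4, h5, h6⟩ := h
  refine ⟨h1, ⟨K.comap f, L.comap f, inferInstance, inferInstance,
    (comap_lt_comap_of_surjective hf).2 hKL, fun M hM h7 h8 => ?_, ?_⟩, q, h4, h5.trans hm, h6⟩
  · have h9 : (M.map f).comap f = M := comap_map_eq_self ((ker_le_comap f K).trans h7)
    rcases h2 (M.map f) (hM.map f hf) (by
        rw [← map_comap_eq_self_of_surjective hf K]; exact map_mono h7)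
      (map_le_iff_le_comap.2 h8) with h | h
    · exact Or.inl (by rw [← h, h9])
    · exact Or.inr (by rw [← h, h9])
  · rwa [relIndex_comap, map_comap_eq_self_of_surjective hf]

theorem main (n : ℕ) : ∀ (G : Type u) [Group G] [Finite G] [Group.IsSolvable G],
    Nat.card G = n → ∀ H : Subgroup G, (Nat.card H).Coprime H.index →
      ∃ l : List ℕ, l.prod = (normalizer (H : Set G)).index ∧ ∀ x ∈ l, Good G (Nat.card H) x := by
  induction n using Nat.strong_induction_on with
  | _ n ih =>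
  intro G _ _ _ hn H hH
  rcases subsingleton_or_nontrivial G with hG | hG
  · refine ⟨[], ?_, by simp⟩
    rw [List.prod_nil, Subsingleton.elim (normalizer (H : Set G)) ⊤, index_top]
  obtain ⟨N, hN⟩ := H3.exists_isMinNormal G
  have := hN.normal
  obtain ⟨-, q, hq, hqN, -, hNq⟩ := hN.elementary inferInstance
  have := Fact.mk hq
  have hf := QuotientGroup.mk'_surjective N
  have hd := card_map_dvd H (QuotientGroup.mk' N)
  obtain ⟨l, hl, hl'⟩ := ih _ (hn ▸ H3.card_quotient_lt N hN.ne_bot) (G ⧸ N) rfl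
    (H.map (QuotientGroup.mk' N))
    (Nat.Coprime.coprime_dvd_right (H.index_map_dvd hf) (Nat.Coprime.coprime_dvd_left hd hH))
  by_cases hqH : q ∣ Nat.card H
  · have hNH : N ≤ H := by
      refine H3.le_of_isPiHall_of_normal (H3.isPiHall_of_coprime hH) fun r hr hrN => ?_
      obtain ⟨e, he⟩ := IsPGroup.iff_card.1 hNq
      rw [he] at hrN
      rw [(Nat.prime_dvd_prime_iff_eq hr hq).1 (hr.dvd_of_dvd_pow hrN)]
      exact hqH
    refine ⟨l, ?_, fun x hx => (hl' x hx).lift hf hd⟩
    rw [hl, ← index_comap_of_surjective _ hf, comap_normalizer_eq_of_surjective _ hf,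
      comap_map_eq_self (by rwa [QuotientGroup.ker_mk'])]
  · have hc : (Nat.card H).Coprime (Nat.card N) := H2.coprime_card_of_isPGroup
      ((Nat.Prime.coprime_iff_not_dvd hq).2 hqH).symm hNq
    obtain ⟨l₂, hl₂, hl₂'⟩ := factor hq hNq _ H rfl inferInstance
      (by rw [normalizer_eq_top]; exact le_top) hc
    refine ⟨l₂ ++ l, ?_, fun x hx => ?_⟩
    · rw [List.prod_append, hl, hl₂, ← H2.map_mk'_normalizer hc (Or.inl inferInstance), index_map,
        QuotientGroup.ker_mk', QuotientGroup.range_mk', index_top, mul_one,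
        ← relIndex_mul_index (le_sup_left : normalizer (H : Set G) ≤ normalizer (H : Set G) ⊔ N),
        sup_comm (normalizer (H : Set G)), H3.relIndex_sup_right_of_le_normalizer
          (le_top.trans (normalizer_eq_top N).ge), ← inf_relIndex_left N (normalizer (H : Set G))]
      congr 2
      refine le_antisymm (inf_le_inf_left _ (centralizer_le_normalizer _)) fun x hx => ?_
      obtain ⟨hx1, hx2⟩ := mem_inf.1 hx
      refine mem_inf.2 ⟨hx1, fun h hh => ?_⟩
      have h1 : x⁻¹ * h * x * h⁻¹ = 1 := by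
        refine H2.eq_one_of_mem_of_coprime hc
          (H.mul_mem (H3.conj_mem_of_mem_normalizer' hx2 hh) (H.inv_mem hh)) ?_
        have : x⁻¹ * h * x * h⁻¹ = x⁻¹ * (h * x * h⁻¹) := by group
        rw [this]
        exact N.mul_mem (N.inv_mem hx1) (hN.normal.conj_mem x hx1 h)
      calc h * x = x * (x⁻¹ * h * x * h⁻¹) * h := by group
        _ = x * h := by rw [h1, mul_one]
    · rcases List.mem_append.1 hx with hx | hx
      · obtain ⟨⟨e, he⟩, h1, h2⟩ := hl₂' x hx
        refine ⟨⟨q, e, hq, he⟩, ⟨⊥, N, inferInstance, inferInstance, bot_lt_iff_ne_bot.2 hN.ne_bot,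
          fun M hM _ h => hN.eq_bot_or_eq M hM h, by rwa [relIndex_bot_left]⟩, h2⟩
      · exact (hl' x hx).lift hf hd


/-- Let `G` be a finite solvable group of order `mn` with `gcd(m, n) = 1`. Then the number of subgroups of order `m` is a product of natural numbers each of which is a power of a prime, divides the order of some chief factor of `G` (a quotient `L/K` of normal subgroups `K < L` of `G` with no normal subgroup of `G` strictly between them), and is congruent to `1` modulo some prime divisor of `m`. -/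
theorem result {G : Type*} [Group G] [Finite G] [Group.IsSolvable G] (m n : ℕ) (hG : Nat.card G = m * n) (hmn : Nat.Coprime m n) : ∃ (k : ℕ) (f : Fin k → ℕ), Nat.card {H : Subgroup G // Nat.card H = m} = ∏ i, f i ∧ ∀ i, (∃ q e : ℕ, q.Prime ∧ f i = q ^ e) ∧ (∃ K L : Subgroup G, K.Normal ∧ L.Normal ∧ K < L ∧ (∀ M : Subgroup G, M.Normal → K ≤ M → M ≤ L → M = K ∨ M = L) ∧ f i ∣ K.relIndex L) ∧ (∃ q : ℕ, q.Prime ∧ q ∣ m ∧ f i ≡ 1 [MOD q]) := by
  obtain ⟨H, hH⟩ := H3.exists_isPiHall (G := G) {p | p ∣ n}ᶜ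
  have hm := (H3.isPiHall_iff_card_eq hG hmn).1 hH
  obtain ⟨l, hl, hl'⟩ := main _ G rfl H (H3.isPiHall_coprime hH)
  refine ⟨l.length, fun i => l[i.1], ?_, fun i => hm ▸ hl' _ (List.getElem_mem _)⟩
  refine Eq.trans ?_ (Fin.prod_univ_getElem l).symm
  rw [hl]
  let _ : MulAction G (Subgroup G) := MulAction.compHom _ (MulAut.conj (G := G))
  have h1 : MulAction.stabilizer G H = normalizer (H : Set G) := by
    ext g
    exact H3.conj_smul_eq_self_iff
  rw [← h1, MulAction.index_stabilizer, ← Nat.card_coe_set_eq]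
  refine Nat.card_congr (Equiv.subtypeEquivRight fun K => ⟨fun hK => ?_, ?_⟩)
  · exact H3.exists_conj_eq_of_isPiHall hH ((H3.isPiHall_iff_card_eq hG hmn).2 hK)
  · rintro ⟨g, rfl⟩
    exact (H3.card_conj_smul g H).trans hm

end Cfsg.Agent.S4214
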