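import Cfsg.Statements.S4216
import Mathlib
import Cfsg.Agent.Base
import Cfsg.Agent.Lib.H81.Yoshida

set_option autoImplicit false
open Cfsg

namespace Cfsg.Agent.S4216

open Subgroup

theorem core {G : Type*} [Group G] [Finite G] {p : ℕ} [hp : Fact p.Prime] (P : Sylow p G)
    {E : Type*} [CommGroup E] (l : G → E)
    (hmul : ∀ a ∈ (P : Subgroup G), ∀ b ∈ (P : Subgroup G), l (a * b) = l a * l b)
    (h1 : ∀ g ∈ normalizer ((P : Subgroup G) : Set G), ∀ a ∈ (P : Subgroup G), l (g⁻¹ * a * g) = l a)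
    (h2 : ∀ g : G, ∀ a ∈ ⁅(P : Subgroup G), (P : Subgroup G)⁆, g⁻¹ * a * g ∈ (P : Subgroup G) →
      l (g⁻¹ * a * g) = 1) :
    ∀ u ∈ (P : Subgroup G), u ∈ _root_.commutator G → l u = 1 := by
  classical
  by_contra hcon
  push Not at hcon
  obtain ⟨u, ⟨huP, huG, hlu⟩, hmin⟩ := exists_minimalFor_of_wellFoundedLT
    (fun u => u ∈ (P : Subgroup G) ∧ u ∈ _root_.commutator G ∧ l u ≠ 1) orderOf hcon
  have hsm : ∀ a ∈ (P : Subgroup G), a ∈ _root_.commutator G → orderOf a < orderOf u → l a = 1 := by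
    intro a ha haG hlt
    by_contra hne
    exact absurd (hmin (j := a) ⟨ha, haG, hne⟩ hlt.le) hlt.not_ge
  have hl1 : l 1 = 1 := by
    have := hmul 1 (one_mem _) 1 (one_mem _)
    rw [mul_one] at this
    exact left_eq_mul.1 this
  have hlpow : ∀ a ∈ (P : Subgroup G), ∀ n : ℕ, l (a ^ n) = l a ^ n := by
    intro a ha n
    induction n with
    | zero => simpa using hl1
    | succ n ih => rw [pow_succ, hmul _ (pow_mem ha n) _ ha, ih, pow_succ]
  have hu1 : u ≠ 1 := by rintro rfl; exact hlu hl1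
  have hup : H35.IsPElt p u := H35.isPElt_of_mem P.isPGroup' huP
  have hpw : ∀ a ∈ (P : Subgroup G), a ∈ _root_.commutator G → orderOf a = orderOf u →
      l a ^ p = 1 := by
    intro a ha haG e
    rw [← hlpow a ha]
    refine hsm _ (pow_mem ha p) (pow_mem haG p) ?_
    rw [orderOf_pow_of_dvd hp.out.ne_zero (e ▸ hup.dvd_orderOf hu1), e]
    exact Nat.div_lt_self (orderOf_pos u) hp.out.one_lt
  have := Fintype.ofFinite (G ⧸ (P : Subgroup G))
  obtain ⟨r, hr, hr0⟩ := H81.exists_section (H := (P : Subgroup G)) (G0 := ⊤)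
    fun g => ⟨g, trivial, 1, one_mem _, mul_one g⟩
  have hc := H81.coc_trCoc hr hr0 (l := l) fun a ha _ b hb _ => hmul a ha b hb
  set c := H81.trCoc (P : Subgroup G) r l with hcdef
  have hcfix : ∀ x q, x • q = q → c x q = l ((r q)⁻¹ * x * r q) := fun x q h => by
    rw [hcdef, H81.trCoc, h]
  have hmemfix : ∀ x q, x • q = q → (r q)⁻¹ * x * r q ∈ (P : Subgroup G) := fun x q h => by
    have := H81.trCoc_mem hr x q
    rwa [h] at this
  have hGn : ∀ g : G, ∀ a ∈ _root_.commutator G, g⁻¹ * a * g ∈ _root_.commutator G :=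
    fun g a ha => by simpa using Normal.conj_mem inferInstance a ha g⁻¹
  have hV : ∏ q, c u q = 1 :=
    MonoidHom.mem_ker.1 (Abelianization.commutator_subset_ker
      (hc.hom.comp (topEquiv (G := G)).symm.toMonoidHom) huG)
  let T0 := Finset.univ.filter fun q : G ⧸ (P : Subgroup G) => u • q = q
  have hV0 : ∏ q ∈ T0, c u q = 1 := by
    rw [← Finset.prod_filter_mul_prod_filter_not Finset.univ (fun q => u • q = q)] at hV
    rw [← hV, eq_comm, mul_eq_left]
    refine (hc.mono (H' := zpowers u) le_top (Finset.subset_univ _) ?_).prod_eq_one ?_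
      (mem_zpowers u)
    · intro g hg y hy
      rw [Finset.mem_filter] at hy ⊢
      refine ⟨Finset.mem_univ _, fun h => hy.2 ?_⟩
      obtain ⟨n, rfl⟩ := hg
      rwa [← mul_smul, (Commute.self_zpow u n).eq, mul_smul, smul_left_cancel_iff] at h
    · intro g hg y hy h
      rw [hcfix g y h]
      refine hsm _ (hmemfix g y h) (hGn _ _ (zpowers_le.2 huG hg)) ?_
      rw [H35.orderOf_conj']
      refine lt_of_le_of_ne (Nat.le_of_dvd (orderOf_pos u) (orderOf_dvd_of_mem_zpowers hg)) ?_
      intro e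
      have h1 : zpowers g = zpowers u := eq_of_le_of_card_ge (zpowers_le.2 hg)
        (by rw [Nat.card_zpowers, Nat.card_zpowers, e])
      have h2 : zpowers g ≤ MulAction.stabilizer G y := zpowers_le.2 h
      exact (Finset.mem_filter.1 hy).2 (h2 (h1 ▸ mem_zpowers u))
  have hwd : ∀ q, u • q = q → ∀ s ∈ (P : Subgroup G), u • s • q = s • q → c u (s • q) = c u q := by
    intro q hq s hs hsq
    have e : (s⁻¹ * u * s) • q = q := by rw [mul_smul, mul_smul, inv_smul_eq_iff, hsq]
    have h3 := H81.trCoc_mem hr s q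
    have h4 : (r q)⁻¹ * (s⁻¹ * u * s * u⁻¹) * r q ∈ (P : Subgroup G) := by
      have := mul_mem (hmemfix _ _ e) (inv_mem (hmemfix _ _ hq))
      convert this using 1
      group
    have h5 := h2 (r q) (s⁻¹ * u * s * u⁻¹) (by
      simpa [commutatorElement_def] using commutator_mem_commutator (inv_mem hs) huP) h4
    rw [hcfix _ _ hsq, hcfix _ _ hq, ← h1 _ (le_normalizer h3) _ (hmemfix _ _ hsq),
      ← one_mul (l ((r q)⁻¹ * u * r q)), ← h5, ← hmul _ h4 _ (hmemfix _ _ hq)]
    congr 1
    group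
  let f : G ⧸ (P : Subgroup G) → E := fun q =>
    if h : ∃ s ∈ (P : Subgroup G), u • s • q = s • q then c u (h.choose • q) else 1
  have hf : ∀ q, ∀ s ∈ (P : Subgroup G), u • s • q = s • q → f q = c u (s • q) := by
    intro q s hs hsq
    have h : ∃ s ∈ (P : Subgroup G), u • s • q = s • q := ⟨s, hs, hsq⟩
    simp only [f, dif_pos h]
    have := hwd _ hsq (h.choose * s⁻¹) (mul_mem h.choose_spec.1 (inv_mem hs))
      (by rw [mul_smul, inv_smul_smul]; exact h.choose_spec.2)
    rwa [mul_smul, inv_smul_smul] at this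
  have hfinv : ∀ t ∈ (P : Subgroup G), ∀ q, f (t • q) = f q := by
    intro t ht q
    by_cases h : ∃ s ∈ (P : Subgroup G), u • s • q = s • q
    · obtain ⟨s, hs, hsq⟩ := h
      rw [hf q s hs hsq, hf (t • q) (s * t⁻¹) (mul_mem hs (inv_mem ht))
        (by rw [mul_smul, inv_smul_smul]; exact hsq), mul_smul, inv_smul_smul]
    · have h' : ¬ ∃ s ∈ (P : Subgroup G), u • s • t • q = s • t • q := by
        rintro ⟨s, hs, hsq⟩
        exact h ⟨s * t, mul_mem hs ht, by rw [mul_smul]; exact hsq⟩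
      simp only [f, dif_neg h, dif_neg h']
  have hfp : ∀ q, f q ^ p = 1 := by
    intro q
    by_cases h : ∃ s ∈ (P : Subgroup G), u • s • q = s • q
    · obtain ⟨s, hs, hsq⟩ := h
      rw [hf q s hs hsq, hcfix _ _ hsq]
      exact hpw _ (hmemfix _ _ hsq) (hGn _ _ huG) (H35.orderOf_conj' _ _)
    · simp only [f, dif_neg h, one_pow]
  let T1 := Finset.univ.filter fun q : G ⧸ (P : Subgroup G) => ∀ s ∈ (P : Subgroup G), s • q = q
  have e0 : ∏ q, f q = ∏ q ∈ T0, f q :=
    H92.prod_eq_prod_fixed (H35.isPElt_iff_zpowers.1 hup) (fun _ _ _ _ => Finset.mem_univ _)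
      (fun y => by
        simp only [T0, Finset.mem_filter, Finset.mem_univ, true_and]
        exact ⟨fun h g hg => (zpowers_le (H := MulAction.stabilizer G y)).2 h hg,
          fun h => h u (mem_zpowers u)⟩)
      (fun t ht y _ => hfinv t (zpowers_le.2 huP ht) y) fun y _ => hfp y
  have hT1 : ∀ y, y ∈ T1 ↔ y ∈ Finset.univ ∧ ∀ s ∈ (P : Subgroup G), s • y = y := fun y => by
    simp only [T1, Finset.mem_filter]
  have e1 : ∏ q, f q = ∏ q ∈ T1, f q :=
    H92.prod_eq_prod_fixed P.isPGroup' (fun _ _ _ _ => Finset.mem_univ _) hT1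
      (fun t ht y _ => hfinv t ht y) fun y _ => hfp y
  have e2 : ∏ q ∈ T0, f q = 1 := by
    rw [← hV0]
    refine Finset.prod_congr rfl fun q hq => ?_
    rw [hf q 1 (one_mem _) (by simpa using (Finset.mem_filter.1 hq).2), one_smul]
  have e3 : ∏ q ∈ T1, f q = l u ^ T1.card := by
    rw [← Finset.prod_const]
    refine Finset.prod_congr rfl fun q hq => ?_
    have h3 := ((hT1 q).1 hq).2
    rw [hf q 1 (one_mem _) (by simpa using h3 u huP), one_smul, hcfix _ _ (h3 u huP)]
    refine h1 _ ?_ u huP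
    rw [← inv_mem_iff]
    exact mem_normalizer_fintype fun s hs => by rw [inv_inv]; exact hmemfix s q (h3 s hs)
  have e4 := H92.card_fixed_modEq P.isPGroup' (fun _ _ _ _ => Finset.mem_univ _) hT1
  have e5 : ¬ p ∣ T1.card := by
    rw [← e4.dvd_iff dvd_rfl, Finset.card_univ, ← Nat.card_eq_fintype_card]
    exact P.not_dvd_index
  rw [e0, e2, e3] at e1
  apply hlu
  have := pow_gcd_eq_one.2 ⟨hpw u huP huG rfl, e1.symm⟩
  rwa [(hp.out.coprime_iff_not_dvd.2 e5).gcd_eq_one, pow_one] at this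

/-- Grün's first Theorem: if `P` is a Sylow `p`-subgroup of the finite group `G`, then `P ∩ G'` is the subgroup generated by `P ∩ N_G(P)'` together with the subgroups `P ∩ z P' z⁻¹` for all `z ∈ G`, where `'` denotes the derived subgroup and `N_G(P)` the normalizer of `P`. -/
theorem result {G : Type*} [Group G] [Finite G] {p : ℕ} [Fact p.Prime] (P : Sylow p G) : (P : Subgroup G) ⊓ commutator G = ((P : Subgroup G) ⊓ ⁅Subgroup.normalizer ((P : Subgroup G) : Set G), Subgroup.normalizer ((P : Subgroup G) : Set G)⁆) ⊔ ⨆ z : G, (P : Subgroup G) ⊓ (⁅(P : Subgroup G), (P : Subgroup G)⁆).map (MulAut.conj z).toMonoidHom := by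
  classical
  set N := Subgroup.normalizer ((P : Subgroup G) : Set G) with hN
  set D := ((P : Subgroup G) ⊓ ⁅N, N⁆) ⊔ ⨆ z : G, (P : Subgroup G) ⊓
    (⁅(P : Subgroup G), (P : Subgroup G)⁆).map (MulAut.conj z).toMonoidHom with hD
  apply le_antisymm
  · have hc : _root_.commutator (P : Subgroup G) ≤ D.subgroupOf P := by
      rw [subgroupOf, ← map_le_iff_le_comap, map_subtype_commutator]
      exact le_sup_of_le_left (le_inf ((commutator_le_sup _ _).trans (sup_idem _).le)
        (commutator_mono le_normalizer le_normalizer))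
    have hn : (D.subgroupOf (P : Subgroup G)).Normal := Normal.of_commutator_le _ hc
    let i : CommGroup ((P : Subgroup G) ⧸ D.subgroupOf P) :=
      { (inferInstance : Group _) with
        mul_comm := (Normal.quotient_commutative_iff_commutator_le.2 hc).is_comm.comm }
    let l : G → (P : Subgroup G) ⧸ D.subgroupOf P := fun g =>
      if h : g ∈ (P : Subgroup G) then ((⟨g, h⟩ : (P : Subgroup G)) : _ ⧸ _) else 1
    have hl : ∀ g : (P : Subgroup G), l g = g := fun g => by simp only [l, dif_pos g.2]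
    have := core P l (fun a ha b hb => by
        rw [hl ⟨a, ha⟩, hl ⟨b, hb⟩]; exact hl (⟨a, ha⟩ * ⟨b, hb⟩))
      (fun g hg a ha => by
        have h1 : g⁻¹ * a * g ∈ (P : Subgroup G) := by
          simpa using (mem_normalizer_iff.1 (inv_mem hg) a).1 ha
        rw [hl ⟨_, h1⟩, hl ⟨a, ha⟩, eq_comm, QuotientGroup.eq, mem_subgroupOf]
        refine mem_sup_left ⟨(P : Subgroup G).mul_mem ((P : Subgroup G).inv_mem ha) h1, ?_⟩
        have := commutator_mem_commutator (H₁ := N) (H₂ := N) (inv_mem (le_normalizer ha))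
          (inv_mem hg)
        simpa [commutatorElement_def, mul_assoc] using this)
      (fun g a ha h1 => by
        rw [hl ⟨_, h1⟩, QuotientGroup.eq_one_iff, mem_subgroupOf]
        exact mem_sup_right (mem_iSup_of_mem g⁻¹ ⟨h1, a, ha, by simp⟩))
    intro u hu
    have h1 := this u hu.1 hu.2
    rw [hl ⟨u, hu.1⟩, QuotientGroup.eq_one_iff] at h1
    exact h1
  · refine sup_le (inf_le_inf_left _ (commutator_mono le_top le_top))
      (iSup_le fun z => inf_le_inf_left _ ?_)
    rw [map_commutator]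
    exact commutator_mono le_top le_top

end Cfsg.Agent.S4216
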