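import Cfsg.Statements.S4217
import Mathlib
import Cfsg.Agent.Base
import Cfsg.Agent.Lib.Core.CrossedHom
import Cfsg.Agent.Lib.Core.HallSZ

set_option autoImplicit false
open Cfsg

namespace Cfsg.Agent.S4217


open scoped IsMulCommutative

section
variable {G : Type*} [Group G]

/-- there is a crossed homomorphism restricting to the `n`-th power map -/
def Q (K : Subgroup G) [K.Normal] (n : ℤ) : Prop :=
  ∃ F : G → K, (∀ g h, F (g * h) = F g * MulAut.conjNormal (H := K) g (F h)) ∧ ∀ k : K, F k = k ^ n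

theorem Q_of_compl [Finite G] (K U : Subgroup G) [hKn : K.Normal] [IsMulCommutative K]
    (hKU : K ≤ U) (A : Subgroup G) (hAK : A ⊓ K = ⊥) (hKA : K ⊔ A = U) : Q K U.index := by
  classical
  have hex : ∀ u : G, ∃ k : K, u ∈ U → (k : G)⁻¹ * u ∈ A := fun u => by
    by_cases hu : u ∈ U
    · have : u ∈ ((K ⊔ A : Subgroup G) : Set G) := by rw [hKA]; exact hu
      rw [Subgroup.normal_mul] at this
      obtain ⟨m, hm, a, ha, hma⟩ := this
      refine ⟨⟨m, hm⟩, fun _ => ?_⟩
      simp only at hma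
      rw [← hma]; simpa using ha
    · exact ⟨1, fun h => absurd h hu⟩
  have huniq : ∀ (g : G) (m m' : K), (m : G)⁻¹ * g ∈ A → (m' : G)⁻¹ * g ∈ A → m = m' := by
    intro g m m' h1 h2
    have h3 : (m : G)⁻¹ * (m' : G) ∈ A ⊓ K := by
      refine ⟨?_, K.mul_mem (K.inv_mem m.2) m'.2⟩
      have := A.mul_mem h1 (A.inv_mem h2)
      simpa [mul_assoc] using this
    rw [hAK, Subgroup.mem_bot, inv_mul_eq_one] at h3
    exact Subtype.ext h3
  choose f hf using hex
  let φ : G →* MulAut K := MulAut.conjNormal (H := K)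
  have hφ : ∀ (h : G) (m : K), (φ h m : G) = h * m * h⁻¹ := fun h m => by simp [φ]
  obtain ⟨F, hF, hFK⟩ := H3.exists_crossedHom_corestrict φ U f (fun g hg h hh =>
    huniq (g * h) _ _ (hf _ (U.mul_mem hg hh)) (by
      have := A.mul_mem (hf g hg) (hf h hh)
      rw [mul_comm (f g), Subgroup.coe_mul, hφ]
      convert this using 1
      group))
  refine ⟨F, hF, fun k => ?_⟩
  rw [zpow_natCast]
  have hm : ∀ x : G, x⁻¹ * k * x ∈ K := fun x => by simpa using hKn.conj_mem k k.2 x⁻¹
  refine hFK k k (fun x => hKU (hm x)) fun x => ?_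
  have : f (x⁻¹ * k * x) = ⟨_, hm x⟩ :=
    huniq (x⁻¹ * k * x) _ _ (hf _ (hKU (hm x))) (by rw [inv_mul_cancel]; exact A.one_mem)
  rw [this]
  ext
  rw [hφ]
  group

theorem Q_comb (K : Subgroup G) [K.Normal] [IsMulCommutative K] {m n : ℤ} (hm : Q K m)
    (hn : Q K n) (a b : ℤ) : Q K (m * a + n * b) := by
  obtain ⟨F, hF, hF'⟩ := hm
  obtain ⟨E, hE, hE'⟩ := hn
  refine ⟨fun g => F g ^ a * E g ^ b, fun g h => ?_, fun k => ?_⟩
  · simp only [hF, hE, mul_zpow, map_mul, map_zpow]
    exact mul_mul_mul_comm _ _ _ _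
  · simp only [hF', hE', zpow_add, zpow_mul]

theorem compl_of_Q (K : Subgroup G) [K.Normal] [IsMulCommutative K] (h : Q K 1) :
    ∃ H : Subgroup G, Subgroup.IsComplement' H K := by
  obtain ⟨F, hF, hFk⟩ := h
  simp only [zpow_one] at hFk
  have hF1 : F 1 = 1 := hFk 1
  let H : Subgroup G :=
    { carrier := {g | F g = 1}
      one_mem' := hF1
      mul_mem' := by
        intro a b ha hb
        simp only [Set.mem_ofPred_eq] at ha hb ⊢
        rw [hF, ha, hb, map_one, one_mul]
      inv_mem' := by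
        intro a ha
        simp only [Set.mem_ofPred_eq] at ha ⊢
        have := hF a⁻¹ a
        rw [inv_mul_cancel, hF1, ha, map_one, mul_one] at this
        exact this.symm }
  refine ⟨H, (Subgroup.isComplement'_of_disjoint_and_mul_eq_univ ?_ ?_).symm⟩
  · rw [Subgroup.disjoint_def]
    intro x hx hxH
    have h1 : F x = 1 := hxH
    have h2 := hFk ⟨x, hx⟩
    rw [h1] at h2
    exact (congrArg Subtype.val h2).symm
  · rw [Set.eq_univ_iff_forall]
    intro g
    refine ⟨F g, (F g).2, (F g : G)⁻¹ * g, ?_, by simp⟩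
    change F _ = 1
    have h1 : MulAut.conjNormal (H := K) (F g : G)⁻¹ (F g) = F g := by
      ext
      simp
    rw [hF, h1, ← Subgroup.coe_inv, hFk, inv_mul_cancel]

end

/-- Let `A` be an abelian normal subgroup of the finite group `G`. Then `A` has a complement in `G` if and only if, for every prime `p` dividing the index of `A`, there are a Sylow `p`-subgroup `S` of `G/A` and a subgroup `K` of `G` with `K ∩ A = 1` and `KA` equal to the preimage of `S` (that is, `A` has a complement in the preimage of a Sylow `p`-subgroup of `G/A`). -/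
theorem result {G : Type*} [Group G] [Finite G] (A : Subgroup G) [A.Normal] (hA : IsMulCommutative A) : (∃ K : Subgroup G, K.IsComplement' A) ↔ ∀ p : ℕ, p.Prime → p ∣ A.index → ∃ (S : Sylow p (G ⧸ A)) (K : Subgroup G), K ⊓ A = ⊥ ∧ K ⊔ A = (S : Subgroup (G ⧸ A)).comap (QuotientGroup.mk' A) := by
  classical
  constructor
  · rintro ⟨K, hK⟩ p hp -
    have : Fact p.Prime := ⟨hp⟩
    obtain ⟨S⟩ := (inferInstance : Nonempty (Sylow p (G ⧸ A)))
    have hle : A ≤ (S : Subgroup (G ⧸ A)).comap (QuotientGroup.mk' A) := by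
      intro a ha
      simp [Subgroup.mem_comap, (QuotientGroup.eq_one_iff a).2 ha]
    refine ⟨S, K ⊓ (S : Subgroup (G ⧸ A)).comap (QuotientGroup.mk' A), ?_, ?_⟩
    · rw [eq_bot_iff, ← hK.disjoint.eq_bot]
      exact inf_le_inf_right _ inf_le_left
    · rw [sup_comm, ← H3.sup_inf_assoc_of_le_normalizer (by simp [Subgroup.normalizer_eq_top]) hle,
        sup_comm, hK.sup_eq_top, top_inf_eq]
  · intro h
    have h0 : ∃ n : ℕ, 0 < n ∧ Q A n :=
      ⟨A.index, Nat.pos_of_ne_zero Subgroup.index_ne_zero_of_finite,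
        Q_of_compl A A le_rfl ⊥ (by simp) (by simp)⟩
    have hdvd : ∀ m : ℕ, Q A m → Nat.find h0 ∣ m := by
      intro m hm
      obtain ⟨h1, h2⟩ := Nat.find_spec h0
      have h3 : Q A (Nat.gcd (Nat.find h0) m : ℕ) := by
        rw [Nat.gcd_eq_gcd_ab]
        exact Q_comb A h2 hm _ _
      have h4 := Nat.find_min' h0 ⟨Nat.gcd_pos_of_pos_left m h1, h3⟩
      have h5 : Nat.gcd (Nat.find h0) m = Nat.find h0 :=
        le_antisymm (Nat.gcd_le_left m h1) h4
      rw [← h5]
      exact Nat.gcd_dvd_right _ _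
    have h1 : Nat.find h0 = 1 := by
      by_contra hne
      obtain ⟨p, hp, hpd⟩ := Nat.exists_prime_and_dvd hne
      have : Fact p.Prime := ⟨hp⟩
      obtain ⟨S, K, hK1, hK2⟩ := h p hp
        (hpd.trans (hdvd _ (Q_of_compl A A le_rfl ⊥ (by simp) (by simp))))
      have h2 := hpd.trans (hdvd _ (Q_of_compl A _ (hK2 ▸ le_sup_right) K hK1
        (by rw [sup_comm]; exact hK2)))
      rw [Subgroup.index_comap_of_surjective _ (QuotientGroup.mk'_surjective A)] at h2
      exact S.not_dvd_index h2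
    have h2 := (Nat.find_spec h0).2
    rw [h1] at h2
    exact compl_of_Q A h2

end Cfsg.Agent.S4217
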