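import Cfsg.Statements.S4218
import Mathlib
import Cfsg.Agent.Base
import Cfsg.Agent.Lib.Comp.PConstrained
import Cfsg.Agent.Lib.Core.CoprimeNorm
import Cfsg.Agent.Lib.Core.Frattini
import Cfsg.Agent.Lib.PGroup.Frattini
import Cfsg.Agent.Lib.Block.PPart

set_option autoImplicit false
open Cfsg

namespace Cfsg.Agent.S4218


theorem core {G : Type*} [Group G] [Finite G] {p : ℕ} [hp : Fact p.Prime]
    (hC : Subgroup.centralizer (pCore p G : Set G) ≤ pCore p G) (g : G) :
    (∀ x : pCore p G, MulAut.conjNormal g x * x⁻¹ ∈ frattini (pCore p G)) ↔ g ∈ pCore p G := by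
  have hR : IsPGroup p (pCore p G) := H1.isPGroup_pCore
  constructor
  · intro h
    let ψ := H2.quotAut (MulAut.conjNormal (H := pCore p G)) (frattini (pCore p G))
      (fun a x hx => by
        have := (Subgroup.characteristic_iff_map_le.1
          (inferInstance : (frattini (pCore p G)).Characteristic)) (MulAut.conjNormal a)
        exact this ⟨x, hx, rfl⟩)
    have hker : ∀ d : G, d ∈ ψ.ker ↔
        ∀ x : pCore p G, MulAut.conjNormal d x * x⁻¹ ∈ frattini (pCore p G) := by
      intro d
      rw [MonoidHom.mem_ker]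
      constructor
      · intro hd x
        have := DFunLike.congr_fun hd (x : _ ⧸ frattini (pCore p G))
        rw [H2.quotAut_mk] at this
        rw [← div_eq_mul_inv]
        exact QuotientGroup.eq_iff_div_mem.1 this
      · intro hd
        ext x
        obtain ⟨x, rfl⟩ := QuotientGroup.mk_surjective x
        rw [H2.quotAut_mk]
        exact QuotientGroup.eq_iff_div_mem.2 (by rw [div_eq_mul_inv]; exact hd x)
    have hp' : IsPGroup p ψ.ker := by
      rw [H35.isPGroup_iff_isPElt]
      intro d hd
      rw [← H35.pReg_eq_one_iff]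
      have h1 := (hker _).1 (H35.pReg_mem p hd)
      have h2 := H35.not_dvd_orderOf_pReg p d
      have h3 : MulAut.conjNormal (H := pCore p G) (H35.pReg p d) = 1 := by
        apply H5.aut_eq_one_of_frattini hR
        · exact ((Nat.Prime.coprime_iff_not_dvd hp.out).2 (H35.not_dvd_orderOf_map _ h2)).symm
        · intro x
          have := (inferInstance : (frattini (pCore p G)).Normal).conj_mem _ (h1 x) x⁻¹
          simpa [mul_assoc] using this
      have h4 : H35.pReg p d ∈ pCore p G := by
        apply hC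
        rw [Subgroup.mem_centralizer_iff]
        intro y hy
        have := congrArg Subtype.val (DFunLike.congr_fun h3 ⟨y, hy⟩)
        simp only [MulAut.conjNormal_apply, MulAut.one_apply] at this
        exact (mul_inv_eq_iff_eq_mul.1 this).symm
      exact (H35.isPElt_of_mem hR h4).eq_one_of_not_dvd h2
    exact H1.le_pCore hp' ((hker g).2 h)
  · intro hg x
    have := H5.commutatorElement_mem_frattini hR ⟨g, hg⟩ x
    convert this using 1
    ext
    simp [commutatorElement_def]

/-- Let `G` be a finite `p`-solvable group, `N₀ = O_{p'}(G)`, `P₁ = O_{p',p}(G)`, and let `F ≤ P₁` be the preimage of the Frattini subgroup of `P₁/N₀`. Then an element `g` of `G` induces the identity on `P₁/F` by conjugation (that is, `g x g⁻¹ x⁻¹ ∈ F` for all `x ∈ P₁`) if and only if `g ∈ P₁`: the group `G/P₁` acts faithfully on `P₁/F`. -/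
theorem result {G : Type*} [Group G] [Finite G] {p : ℕ} [Fact p.Prime] (hG : Cfsg.IsPSolvable p G) (g : G) : (∀ x ∈ Cfsg.pPrimePCore p G, g * x * g⁻¹ * x⁻¹ ∈ ((frattini (↥(Cfsg.pPrimePCore p G) ⧸ (Cfsg.pPrimeCore p G).subgroupOf (Cfsg.pPrimePCore p G))).comap (QuotientGroup.mk' ((Cfsg.pPrimeCore p G).subgroupOf (Cfsg.pPrimePCore p G)))).map (Cfsg.pPrimePCore p G).subtype) ↔ g ∈ Cfsg.pPrimePCore p G := by
  have hC := H23.isPConstrained_iff.1 (H23.isPConstrained_of_isPSolvable hG)
  let θ : pPrimePCore p G →* pCore p (G ⧸ pPrimeCore p G) :=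
    ((QuotientGroup.mk' (pPrimeCore p G)).comp (pPrimePCore p G).subtype).codRestrict _
      (fun x => x.2)
  have hθ : Function.Surjective θ := by
    rintro ⟨y, hy⟩
    obtain ⟨y, rfl⟩ := QuotientGroup.mk_surjective y
    exact ⟨⟨y, hy⟩, rfl⟩
  have hk : (pPrimeCore p G).subgroupOf (pPrimePCore p G) = θ.ker := by
    ext x
    rw [MonoidHom.mem_ker, Subgroup.mem_subgroupOf, ← QuotientGroup.eq_one_iff, Subtype.ext_iff]
    rfl
  let e := QuotientGroup.liftEquiv _ hθ hk
  have hF : ∀ x : pPrimePCore p G,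
      (x : _ ⧸ (pPrimeCore p G).subgroupOf (pPrimePCore p G)) ∈ frattini _ ↔
        θ x ∈ frattini _ := by
    intro x
    rw [← H1.map_frattini_equiv e]
    exact (Subgroup.mem_map_iff_mem (f := e.toMonoidHom) e.injective).symm
  have key := core hC (g : G ⧸ pPrimeCore p G)
  have hn : (pPrimePCore p G).Normal := inferInstance
  have hmem : ∀ x ∈ pPrimePCore p G, g * x * g⁻¹ * x⁻¹ ∈ pPrimePCore p G := fun x hx =>
    Subgroup.mul_mem _ (hn.conj_mem x hx g) (Subgroup.inv_mem _ hx)
  refine Iff.trans ?_ key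
  constructor
  · intro h x
    obtain ⟨x, rfl⟩ := hθ x
    obtain ⟨y, hy, hy'⟩ := h x x.2
    have := (hF y).1 hy
    convert this using 1
    ext
    simp only [Subgroup.coe_subtype] at hy'
    change _ = ((y : G) : G ⧸ pPrimeCore p G)
    rw [hy']
    rfl
  · intro h x hx
    refine ⟨⟨_, hmem x hx⟩, ?_, rfl⟩
    apply (hF _).2
    exact h (θ ⟨x, hx⟩)

end Cfsg.Agent.S4218
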