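import Cfsg.Statements.S4219
import Mathlib
import Cfsg.Agent.Base
import Cfsg.Agent.Lib.Core.GrpBasic
import Cfsg.Agent.Lib.Transfer.NormalComplement

set_option autoImplicit false
open Cfsg

namespace Cfsg.Agent.S4219

open scoped Pointwise


/-- Let a finite group `G` act `t`-fold transitively on a finite set, let `H` be the stabilizer of `t` distinct points and `P` a Sylow `p`-subgroup of `H`. Then the normalizer of `P` in `G` is `t`-fold transitive on the fixed points of `P`: any `t` distinct fixed points of `P` can be carried to any other `t` distinct fixed points of `P` by an element normalizing `P`. -/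
theorem result {G : Type*} [Group G] [Finite G] {α : Type*} [Fintype α] [MulAction G α] {t : ℕ} (hG : MulAction.IsMultiplyPretransitive G α t) (x : Fin t ↪ α) {p : ℕ} [Fact p.Prime] (P : Sylow p (MulAction.stabilizer G x)) (a b : Fin t ↪ α) (ha : ∀ i, a i ∈ MulAction.fixedPoints ((P : Subgroup (MulAction.stabilizer G x)).map (MulAction.stabilizer G x).subtype) α) (hb : ∀ i, b i ∈ MulAction.fixedPoints ((P : Subgroup (MulAction.stabilizer G x)).map (MulAction.stabilizer G x).subtype) α) : ∃ g ∈ Subgroup.normalizer ((((P : Subgroup (MulAction.stabilizer G x)).map (MulAction.stabilizer G x).subtype) : Subgroup G) : Set G), g • a = b := by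
  set Q := (P : Subgroup (MulAction.stabilizer G x)).map (MulAction.stabilizer G x).subtype with hQ
  have hQp : IsPGroup p Q := P.isPGroup'.map _
  have hi : ¬ p ∣ Q.relIndex (MulAction.stabilizer G x) := by
    rw [hQ, Subgroup.relIndex, Subgroup.subgroupOf,
      Subgroup.comap_map_eq_self_of_injective (Subgroup.subtype_injective _)]
    exact P.not_dvd_index
  have key : ∀ a : Fin t ↪ α, (∀ i, a i ∈ MulAction.fixedPoints Q α) →
      ∃ n ∈ Subgroup.normalizer (Q : Set G), n • a = x := by
    intro a ha
    obtain ⟨g, hg⟩ := hG.exists_smul_eq a x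
    obtain ⟨k, hk, hkQ⟩ := H4.exists_conj_le_of_not_dvd_relIndex hQp hi
      (H4.isPGroup_conj_smul hQp g) (by
        intro y hy
        rw [H1.mem_conj_smul_iff] at hy
        rw [MulAction.mem_stabilizer_iff, ← hg]
        ext i
        have := ha i ⟨_, hy⟩
        have h2 : (g⁻¹ * y * g) • a i = a i := this
        rw [mul_smul, mul_smul, inv_smul_eq_iff] at h2
        simpa [Function.Embedding.smul_apply] using h2)
    refine ⟨k * g, ?_, by rw [mul_smul, hg]; exact hk⟩
    rw [H1.mem_normalizer_iff_conj_smul_eq]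
    refine Subgroup.eq_of_le_of_card_ge ?_ (H1.card_conj_smul _ _).ge
    rw [← H1.conj_smul_conj_smul]
    intro y hy
    rw [H1.mem_conj_smul_iff] at hy
    simpa [mul_assoc] using hkQ _ hy
  obtain ⟨n₁, h₁, e₁⟩ := key a ha
  obtain ⟨n₂, h₂, e₂⟩ := key b hb
  exact ⟨n₂⁻¹ * n₁, mul_mem (inv_mem h₂) h₁, by rw [mul_smul, e₁, ← e₂, inv_smul_smul]⟩

end Cfsg.Agent.S4219
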