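import Cfsg.Statements.S4225
import Mathlib
import Cfsg.Agent.Base
import Cfsg.Agent.Lib.H81.Regular

set_option autoImplicit false
open Cfsg

namespace Cfsg.Agent.S4225


/-- In a regular `p`-group, for every `k` the elements whose `p^k`-th power is `1` form a characteristic subgroup. -/
theorem result {G : Type*} [Group G] [Finite G] {p : ℕ} [Fact p.Prime] (hG : Cfsg.IsRegularPGroup p G) (k : ℕ) : ∃ H : Subgroup G, H.Characteristic ∧ (H : Set G) = {x : G | x ^ p ^ k = 1} := by
  refine ⟨(H81.reg1_of_regular hG).omega hG.1 k,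
    (H81.reg1_of_regular hG).omega_characteristic hG.1 k, ?_⟩
  ext x
  exact (H81.reg1_of_regular hG).mem_omega hG.1

end Cfsg.Agent.S4225
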