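import Mathlib
import Cfsg.Statements.S4227
import Cfsg.Agent.Lib.FGS.HHGroup
import Cfsg.Agent.Lib.Char.BurnsidePQ
import Cfsg.Agent.S3783
-- import your own Cfsg.Agent.* helpers here

set_option autoImplicit false
open Cfsg

namespace Cfsg.Agent.S4227

open H76 Subgroup

theorem pow_of_sylow {G : Type*} [Group G] (h : ∀ x : G, x ^ 6 = 1) {p q : ℕ} (hpq : p * q = 6)
    (hc : p.Coprime q) (P : Sylow p G) {x : G} (hx : x ∈ (P : Subgroup G)) : x ^ p = 1 := by
  obtain ⟨k, hk⟩ := P.isPGroup' ⟨x, hx⟩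
  have hk' : x ^ p ^ k = 1 := congrArg Subtype.val hk
  refine mem_bot.1 (mem_of_pow_mem_of_coprime (N := ⊥) (hc.pow_left k) ?_ ?_)
  · rw [← pow_mul, mul_comm, pow_mul, hk', one_pow]; exact one_mem _
  · rw [← pow_mul, hpq, h]; exact one_mem _


/-- A finite group in which every element has order dividing `6` has `2`-length at most `1` and `3`-length at most `1`. -/
theorem result {G : Type*} [Group G] [Finite G] (h : ∀ x : G, x ^ 6 = 1) : Cfsg.PLengthLE 2 1 G ∧ Cfsg.PLengthLE 3 1 G := by
  have h2 : Fact (Nat.Prime 2) := ⟨Nat.prime_two⟩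
  have h3 : Fact (Nat.Prime 3) := ⟨Nat.prime_three⟩
  have hp : ∀ q : ℕ, q.Prime → q ∣ Nat.card G → q = 2 ∨ q = 3 := by
    intro q hq hd
    have : Fact q.Prime := ⟨hq⟩
    obtain ⟨x, hx⟩ := exists_prime_orderOf_dvd_card' q hd
    have h6 : q ∣ 2 * 3 := hx ▸ orderOf_dvd_of_pow_eq_one (h x)
    rcases (Nat.Prime.dvd_mul hq).1 h6 with h | h
    · exact Or.inl ((Nat.prime_dvd_prime_iff_eq hq Nat.prime_two).1 h)
    · exact Or.inr ((Nat.prime_dvd_prime_iff_eq hq Nat.prime_three).1 h)
  have hsol : Group.IsSolvable G :=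
    H8.isSolvable_of_two_primes Nat.prime_two Nat.prime_three hp
  have hab : ∀ S : Sylow 2 G, IsMulCommutative (S : Subgroup G) := fun S => by
    have hs : ∀ x : (S : Subgroup G), x * x = 1 := fun x => Subtype.ext (by
      simpa [sq] using pow_of_sylow h (p := 2) (q := 3) rfl (by norm_num) S x.2)
    have hi : ∀ x : (S : Subgroup G), x⁻¹ = x := fun x => inv_eq_of_mul_eq_one_right (hs x)
    exact ⟨⟨fun a b => by rw [← hi (a * b), mul_inv_rev, hi, hi]⟩⟩
  constructor
  · obtain ⟨S⟩ : Nonempty (Sylow 2 G) := inferInstance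
    refine pLengthLE_succ_iff.2 (pLengthLE_zero_iff.2 ?_)
    have h1 : (S : Subgroup G) ≤ pPrimePCore 2 G :=
      le_trans (le_centralizer_iff_isMulCommutative.2 (hab S))
        (inf_centralizer_sylow_le isPSolvable_of_isSolvable S)
    rw [Nat.coprime_comm, Nat.Prime.coprime_iff_not_dvd Nat.prime_two]
    exact fun hd => S.not_dvd_index (hd.trans (index_dvd_of_le h1))
  · refine S3783.result isPSolvable_of_isSolvable (fun q _ hq S => ?_) 1 fun P x hx => by
      simpa using pow_of_sylow h (p := 3) (q := 2) rfl (by norm_num) P hx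
    by_cases hd : q ∣ Nat.card G
    · obtain rfl := (hp q Fact.out hd).resolve_right hq
      exact hab S
    · have : (S : Subgroup G) = ⊥ := by
        obtain ⟨k, hk⟩ := S.isPGroup'.exists_card_eq
        rcases k with _ | k
        · exact card_eq_one.1 (by simpa using hk)
        · exact absurd ((hk ▸ dvd_pow_self q k.succ_ne_zero).trans (card_subgroup_dvd_card _)) hd
      rw [this]
      infer_instance

end Cfsg.Agent.S4227
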