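import Cfsg.Statements.S4275

set_option autoImplicit false
open Cfsg

namespace Cfsg.Agent.S4275


/-- Let G be a transitive group of permutations of a finite set Ω, let o ∈ Ω, and let α be an automorphism of G. Then α is induced by conjugation by a permutation of Ω normalizing G if and only if the image under α of the stabilizer of o fixes some point of Ω. -/
theorem result {Ω : Type*} [Fintype Ω] (G : Subgroup (Equiv.Perm Ω)) (htr : MulAction.IsPretransitive G Ω) (o : Ω) (α : G ≃* G) : (∃ σ : Equiv.Perm Ω, σ ∈ Subgroup.normalizer (G : Set (Equiv.Perm Ω)) ∧ ∀ g : G, ((α g : G) : Equiv.Perm Ω) = σ * (g : Equiv.Perm Ω) * σ⁻¹) ↔ ∃ ω : Ω, ∀ g ∈ (MulAction.stabilizer G o).map α.toMonoidHom, g • ω = ω := by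
  classical
  constructor
  · rintro ⟨σ, -, hσ⟩
    refine ⟨σ o, ?_⟩
    rintro _ ⟨g, hg, rfl⟩
    have hg' : (g : Equiv.Perm Ω) o = o := hg
    show ((α g : G) : Equiv.Perm Ω) (σ o) = σ o
    rw [hσ g]
    simp [hg']
  · rintro ⟨ω, hω⟩
    -- stabilizers all have the same order
    choose t ht using fun x : Ω => htr.exists_smul_eq o x
    have hst : ∀ g : G, g • o = o → (α g) • ω = ω := fun g hg => hω _ ⟨g, hg, rfl⟩
    let f : Ω → Ω := fun x => α (t x) • ω
    have hf : ∀ (g : G) (x : Ω), f (g • x) = α g • f x := by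
      intro g x
      have h1 : ((t (g • x))⁻¹ * g * t x) • o = o := by
        rw [mul_smul, mul_smul, ht, inv_smul_eq_iff, ht]
      have h2 := hst _ h1
      rw [map_mul, map_mul, map_inv, mul_smul, mul_smul, inv_smul_eq_iff] at h2
      exact h2.symm
    have hsurj : Function.Surjective f := by
      intro y
      obtain ⟨g, hg⟩ := htr.exists_smul_eq (f o) y
      exact ⟨α.symm g • o, by rw [hf, MulEquiv.apply_symm_apply, hg]⟩
    have hbij : Function.Bijective f := ⟨Finite.injective_iff_surjective.2 hsurj, hsurj⟩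
    let σ : Equiv.Perm Ω := Equiv.ofBijective f hbij
    have hσ : ∀ g : G, ((α g : G) : Equiv.Perm Ω) = σ * (g : Equiv.Perm Ω) * σ⁻¹ := by
      intro g
      rw [eq_mul_inv_iff_mul_eq]
      ext x
      exact (hf g x).symm
    refine ⟨σ, ?_, hσ⟩
    rw [Subgroup.mem_normalizer_iff]
    intro h
    constructor
    · intro hh
      rw [← hσ ⟨h, hh⟩]
      exact (α ⟨h, hh⟩).2
    · intro hh
      have := hσ (α.symm ⟨_, hh⟩)
      rw [MulEquiv.apply_symm_apply] at this
      have h2 : h = (α.symm ⟨_, hh⟩ : G) := by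
        simpa using this
      rw [h2]
      exact (α.symm ⟨_, hh⟩).2

end Cfsg.Agent.S4275
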