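import Mathlib
import Cfsg.Statements.S4277
import Cfsg.Agent.Lib.Perm.OddAut
import Cfsg.Agent.Lib.Perm.PrimeDegree

set_option autoImplicit false
open Cfsg

namespace Cfsg.Agent.S4277


/-- A case of the Schreier conjecture: if a finite simple group G has a subgroup of prime index, then the outer automorphism group of G is solvable. -/
theorem result {G : Type*} [Group G] [Finite G] [IsSimpleGroup G] (H : Subgroup G) (hH : H.index.Prime) : Group.IsSolvable (Cfsg.Out G) := by
  classical
  haveI := Fact.mk hH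
  by_cases hc : IsMulCommutative G
  · haveI : IsCyclic G := by
      letI : CommGroup G := { (inferInstance : Group G) with mul_comm := hc.is_comm.comm }
      exact IsSimpleGroup.isCyclic
    haveI : Group.IsSolvable (MulAut G) := Group.isSolvable_of_comm fun a b =>
      (IsCyclic.mulAutMulEquiv G).injective (by rw [map_mul, map_mul, mul_comm])
    infer_instance
  have hcore : H.normalCore = ⊥ := (H.normalCore_normal.eq_bot_or_eq_top).resolve_right fun e => by
    have : H = ⊤ := top_le_iff.1 (e ▸ H.normalCore_le)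
    rw [this, Subgroup.index_top] at hH
    exact Nat.not_prime_one hH
  haveI : FaithfulSMul G (G ⧸ H) := ⟨fun {a b} h => by
    have : a⁻¹ * b ∈ (MulAction.toPermHom G (G ⧸ H)).ker := by
      ext x; simp [mul_smul, ← h]
    rw [← Subgroup.normalCore_eq_ker, hcore, Subgroup.mem_bot] at this
    exact inv_mul_eq_one.1 this⟩
  have hΩ : Nat.card (G ⧸ H) = H.index := rfl
  obtain ⟨P⟩ : Nonempty (Sylow H.index G) := inferInstance
  obtain ⟨c, e, hP, hce⟩ := H26.exists_frame_sylow hΩ P
  have h2 : MulAction.IsMultiplyPretransitive G (G ⧸ H) 2 :=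
    (H26.affine_or_two_trans hce).resolve_left fun h =>
      hc ⟨⟨IsSimpleGroup.comm_iff_isSolvable.2 (H26.isSolvable_of_affine e h)⟩⟩
  have hcop : (Nat.card H).Coprime H.index := by
    rw [Nat.coprime_comm, hH.coprime_iff_not_dvd]
    intro hd
    have h1 := (P : Subgroup G).card_mul_index
    rw [H26.card_sylow_prime_degree hΩ P, ← H.card_mul_index, mul_comm] at h1
    exact P.not_dvd_index (Nat.eq_of_mul_eq_mul_right hH.pos h1 ▸ hd)
  haveI := Fintype.ofFinite (G ⧸ H)
  have hodd : ∀ α : MulAut G, Odd (orderOf α) →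
      ∃ σ : Equiv.Perm (G ⧸ H), ∀ (g : G) x, α g • σ x = σ (g • x) := fun α hα => by
    refine H26.OddAut.exists_perm h2 ((1 : G) : G ⧸ H) α hα (pow_orderOf_eq_one α) ((1 : G) : G ⧸ H) ?_
    rw [← Nat.card_eq_fintype_card, hΩ]
    refine hcop.coprime_dvd_left ?_
    have key : ∀ (L : Subgroup G) (x : G ⧸ H), Nat.card (MulAction.orbit L x) ∣ Nat.card L :=
      fun L x => by
        rw [Nat.card_coe_set_eq, ← MulAction.index_stabilizer]
        exact Subgroup.index_dvd_card _
    refine (key _ _).trans ?_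
    rw [Subgroup.card_map_of_injective (f := α.toMonoidHom) α.injective, MulAction.stabilizer_quotient]
  let M : Subgroup (MulAut G) := MulAction.stabilizer (MulAut G) P
  have hM : ∀ α : M, (α : MulAut G) c ∈ Subgroup.zpowers c := fun α => by
    have h1 : (α : MulAut G) • P = P := α.2
    rw [← hP, ← h1]
    exact Subgroup.smul_mem_pointwise_smul c (α : MulAut G) _ (hP ▸ Subgroup.mem_zpowers c)
  let K : Subgroup (Equiv.Perm (G ⧸ H) × M) :=
    { carrier := {y | ∀ (g : G) x, (y.2 : MulAut G) g • y.1 x = y.1 (g • x)}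
      one_mem' := fun g x => rfl
      mul_mem' := fun {a b} ha hb g x => by
        show (a.2 : MulAut G) ((b.2 : MulAut G) g) • a.1 (b.1 x) = a.1 (b.1 (g • x))
        rw [ha, hb]
      inv_mem' := fun {a} ha g x => by
        apply a.1.injective
        show a.1 (((a.2 : MulAut G)⁻¹ g) • a.1⁻¹ x) = a.1 (a.1⁻¹ (g • x))
        rw [← ha]; simp }
  letI : MulAction K (G ⧸ H) := MulAction.compHom _ ((MonoidHom.fst _ _).comp K.subtype)
  have hK : ∀ (y : K) (x : G ⧸ H), y • x = y.1.1 x := fun _ _ => rfl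
  haveI : FaithfulSMul K (G ⧸ H) := ⟨fun {a b} h => by
    have h1 : a.1.1 = b.1.1 := Equiv.ext h
    refine Subtype.ext (Prod.ext h1 (Subtype.ext (MulEquiv.ext fun g => ?_)))
    refine eq_of_smul_eq_smul (α := G ⧸ H) fun x => ?_
    obtain ⟨x, rfl⟩ := a.1.1.surjective x
    rw [a.2, h1, b.2]⟩
  haveI hKs : Group.IsSolvable K := H26.isSolvable_of_affine e fun y => by
    refine H26.affine_of_conj (G := Equiv.Perm (G ⧸ H)) (c := MulAction.toPermHom G (G ⧸ H) c) hce
      (g := y.1.1) ?_
    obtain ⟨n, hn⟩ := hM y.1.2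
    refine ⟨n, ?_⟩
    ext x
    have := y.2 c (y.1.1⁻¹ x)
    rw [show y.1.1 (y.1.1⁻¹ x) = x by simp, ← hn] at this
    show (MulAction.toPermHom G (G ⧸ H) c ^ n) x = _
    rw [← map_zpow]
    exact this
  let f : K →* M := (MonoidHom.snd _ _).comp K.subtype
  let O : Subgroup M := Subgroup.normalClosure {x | Odd (orderOf x)}
  have hO : O ≤ f.range := by
    refine (Subgroup.closure_le _).2 fun x hx => ?_
    obtain ⟨y, hy, hxy⟩ := Group.mem_conjugatesOfSet_iff.1 hx
    have h1 : Odd (orderOf (x : MulAut G)) := by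
      obtain ⟨u, rfl⟩ := isConj_iff.1 hxy
      rw [Subgroup.orderOf_coe, ← MulAut.conj_apply, MulEquiv.orderOf_eq]; exact hy
    obtain ⟨σ, hσ⟩ := hodd x h1
    exact ⟨⟨(σ, x), hσ⟩, rfl⟩
  haveI : Fact (Nat.Prime 2) := ⟨Nat.prime_two⟩
  have h2g : IsPGroup 2 (M ⧸ O) := by
    intro x
    obtain ⟨x, rfl⟩ := QuotientGroup.mk_surjective x
    obtain ⟨k, r, hr, e⟩ := Nat.exists_eq_two_pow_mul_odd (orderOf_pos x).ne'
    refine ⟨k, ?_⟩
    rw [← QuotientGroup.mk_pow, QuotientGroup.eq_one_iff]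
    refine Subgroup.subset_normalClosure ?_
    show Odd _
    rw [orderOf_pow' _ (by positivity), e, Nat.gcd_mul_right_left, Nat.mul_div_cancel_left _ (by positivity)]
    exact hr
  haveI := h2g.isNilpotent
  haveI : Group.IsSolvable M :=
    Group.isSolvable_of_ker_le_range f (QuotientGroup.mk' O) (by rwa [QuotientGroup.ker_mk'])
  refine Group.isSolvable_of_surjective (f := (QuotientGroup.mk' (Cfsg.Inn G)).comp M.subtype) fun x => ?_
  obtain ⟨α, rfl⟩ := QuotientGroup.mk_surjective x
  obtain ⟨g, hg⟩ := MulAction.exists_smul_eq G P (α • P)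
  refine ⟨⟨(MulAut.conj g)⁻¹ * α, ?_⟩, ?_⟩
  · show ((MulAut.conj g)⁻¹ * α) • P = P
    rw [mul_smul, ← hg, Sylow.smul_def, inv_smul_smul]
  · show (((MulAut.conj g)⁻¹ * α : MulAut G) : MulAut G ⧸ Cfsg.Inn G) = α
    rw [QuotientGroup.mk_mul, (QuotientGroup.eq_one_iff _).2, one_mul]
    exact Subgroup.inv_mem _ ⟨g, rfl⟩

end Cfsg.Agent.S4277
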