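import Mathlib
import Cfsg.Statements.S4282
import Cfsg.Agent.Lib.FGS.HallHigman
-- import your own Cfsg.Agent.* helpers here

set_option autoImplicit false
open Cfsg

namespace Cfsg.Agent.S4282

open Polynomial Subgroup
open scoped commutatorElement

/-- A critical case behind the Hall–Higman theorem. Let p ≠ q be primes and G a finite group generated by a normal q-subgroup Q and a cyclic p-subgroup generated by x, such that the centralizer of every non-identity element of that cyclic subgroup is its product with the centre of G. Let K be an algebraically closed field of characteristic p and ρ a faithful representation of G on a nonzero finite-dimensional K-space whose restriction to Q is irreducible. If s is the least exponent with (ρ(x) − 1)^s = 0, then |⟨x⟩| − 1 ≤ s ≤ |⟨x⟩|; and if s = |⟨x⟩| − 1 then |⟨x⟩| − 1 is a power of q and Q is non-abelian. -/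
theorem result {G : Type*} [Group G] [Finite G] (p q : ℕ) [Fact p.Prime] [Fact q.Prime] (hpq : p ≠ q) (Q : Subgroup G) [Q.Normal] (hQ : IsPGroup q Q) (x : G) (hx : IsPGroup p (Subgroup.zpowers x)) (hgen : Q ⊔ Subgroup.zpowers x = ⊤) (hC : ∀ y ∈ Subgroup.zpowers x, y ≠ 1 → Subgroup.centralizer ({y} : Set G) = Subgroup.zpowers x ⊔ Subgroup.center G) {K : Type*} [Field K] [IsAlgClosed K] [CharP K p] {V : Type*} [AddCommGroup V] [Module K V] [FiniteDimensional K V] [Nontrivial V] (ρ : Representation K G V) (hfaith : Function.Injective ρ) (hirr : ∀ W : Submodule K V, (∀ g ∈ Q, Submodule.map (ρ g) W ≤ W) → W = ⊥ ∨ W = ⊤) (s : ℕ) (hs : (ρ x - 1) ^ s = 0) (hmin : ∀ k < s, (ρ x - 1) ^ k ≠ 0) : Nat.card (Subgroup.zpowers x) - 1 ≤ s ∧ s ≤ Nat.card (Subgroup.zpowers x) ∧ (s = Nat.card (Subgroup.zpowers x) - 1 → (∃ b : ℕ, Nat.card (Subgroup.zpowers x) - 1 = q ^ b) ∧ ¬ IsMulCommutative Q) := by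
  have hp : p.Prime := Fact.out
  have hq : q.Prime := Fact.out
  obtain ⟨n, hn⟩ := IsPGroup.iff_card.1 hx
  have hxn : x ^ p ^ n = 1 := by rw [← hn, Nat.card_zpowers]; exact pow_orderOf_eq_one x
  have hle : s ≤ p ^ n := by
    by_contra h
    apply hmin (p ^ n) (not_le.1 h)
    have : aeval (ρ x) ((X - 1 : K[X]) ^ p ^ n) = 0 := by
      rw [sub_pow_char_pow, one_pow, map_sub, map_pow, aeval_X, map_one, ← map_pow, hxn, map_one,
        sub_self]
    simpa using this
  have hschur : ∀ z : G, z ∈ centralizer (Q : Set G) → ∃ c : K, ∀ v, ρ z v = c • v := by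
    intro z hz
    obtain ⟨c, hc⟩ := H76.schur_min (ρ '' Q) (W := ⊤) top_ne_bot (fun _ _ _ _ => trivial) (by
      intro W _ hW hinv
      refine (hirr W fun g hg => ?_).resolve_left hW
      rintro _ ⟨v, hv, rfl⟩
      exact hinv _ ⟨g, hg, rfl⟩ v hv) (b := ρ z) (fun _ _ => trivial) (by
      rintro _ ⟨g, hg, rfl⟩ v _
      rw [← Module.End.mul_apply, ← map_mul, hz g hg, map_mul, Module.End.mul_apply])
    exact ⟨c, fun v => hc v trivial⟩
  rw [hn]
  rcases n with _ | n
  · refine ⟨by simp, hle, fun h => ?_⟩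
    exfalso
    rw [pow_zero, Nat.sub_self] at h
    rw [h, pow_zero] at hs
    exact one_ne_zero hs
  have hy1 : x ^ p ^ n ≠ 1 := by
    intro h
    have := orderOf_dvd_of_pow_eq_one h
    rw [← Nat.card_zpowers, hn, Nat.pow_dvd_pow_iff_le_right hp.one_lt] at this
    omega
  have hyC : x ^ p ^ n ∉ centralizer (Q : Set G) := by
    intro h
    obtain ⟨c, hc⟩ := hschur _ h
    obtain ⟨v, hv⟩ := exists_ne (0 : V)
    have h1 : ρ (x ^ p ^ n) = c • (1 : Module.End K V) := LinearMap.ext hc
    have h2 : (c • (1 : Module.End K V)) ^ p = 1 := by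
      rw [← h1, ← map_pow, ← pow_mul, ← pow_succ, hxn, map_one]
    have h3 : (c ^ p - 1) • v = 0 := by
      have := congrArg (fun a : Module.End K V => a v) h2
      simp only [_root_.smul_pow, one_pow, LinearMap.smul_apply, Module.End.one_apply] at this
      rw [sub_smul, this, one_smul, sub_self]
    have h4 : (c - 1) ^ p = 0 := by
      rw [sub_pow_char, one_pow]
      exact (smul_eq_zero.1 h3).resolve_right hv
    have h5 : c = 1 := sub_eq_zero.1 (pow_eq_zero_iff hp.ne_zero |>.1 h4)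
    apply hy1
    apply hfaith
    rw [h1, h5, one_smul, map_one]
  obtain ⟨b, hb⟩ := IsPGroup.iff_card.1 hQ
  have hqp : q.Coprime p := (Nat.coprime_primes hq hp).2 hpq.symm
  obtain ⟨q', hq', P, hqK, hPQ, hP⟩ := H76.exists_minAct_of_not_mem_centralizer hx (K := Q)
    (by rw [normalizer_eq_top]; trivial) (hb ▸ hqp.pow_left b) hyC
  obtain rfl : q' = q :=
    (Nat.prime_dvd_prime_iff_eq hq'.out hq).1 (hq'.out.dvd_of_dvd_pow (hb ▸ hqK))
  have hdeg : ((X - 1 : K[X]) ^ s).natDegree = s := by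
    rw [← C_1, natDegree_pow, natDegree_X_sub_C, mul_one]
  have hmain := H76.hh_minAct (ρ : G →* Module.End K V) hp (by
      rw [Ne, CharP.cast_eq_zero_iff K p]
      exact hp.coprime_iff_not_dvd.1 hqp.symm) hP (by rw [hxn]; exact one_mem _) (by
      obtain ⟨⟨g, hg⟩, hg1⟩ := (ne_bot_iff_exists_ne_one).1 hP.ne_bot
      exact ⟨g, hg, fun h => hg1 (Subtype.ext (hfaith (h.trans (map_one ρ).symm)))⟩)
    (f := (X - 1) ^ s) (by rw [← C_1]; exact pow_ne_zero _ (X_sub_C_ne_zero 1))
    (by simpa using hs)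
  rw [hdeg] at hmain
  have hpos : 0 < p ^ (n + 1) := pow_pos hp.pos _
  rcases hmain with h | ⟨n₀, m, -, -, -, h4, h5, ⟨a, ha, c, hc, hac⟩, -, h6⟩
  · exact ⟨by omega, hle, fun h' => by omega⟩
  have hcen : ∀ z ∈ ⁅P, P⁆, z ∈ center G := by
    intro z hz
    have hzQ : z ∈ Q := hPQ (hP.commutator_lt.le hz)
    have h1 : z ∈ centralizer ({x ^ p ^ n} : Set G) := by
      rw [mem_centralizer_singleton_iff]
      exact (hP.commutator_le_centralizer hz _ (mem_zpowers _)).symm
    rw [hC _ (pow_mem (mem_zpowers x) _) hy1, ← SetLike.mem_coe, mul_normal] at h1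
    obtain ⟨u, hu, w, hw, rfl⟩ := h1
    have h2 : (u * w) ^ p ^ (n + 1) ∈ center G := by
      have hu1 : u ^ p ^ (n + 1) = 1 := by
        rw [← hn]
        exact congrArg Subtype.val (pow_card_eq_one' (x := (⟨u, hu⟩ : zpowers x)))
      rw [Commute.mul_pow (mem_center_iff.1 hw u), hu1, one_mul]
      exact pow_mem hw _
    have h3 : (orderOf (u * w)).Coprime (p ^ (n + 1)) :=
      ((hb ▸ hqp.pow_left b : (Nat.card Q).Coprime p).coprime_dvd_left
        (Q.orderOf_dvd_natCard hzQ)).pow_right _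
    exact (zpowers_le.2 h2) (mem_zpowers_pow_iff.2 h3.symm)
  have hn₀ := h6 (by
      intro a ha b hb v hv h
      obtain ⟨c, hc⟩ := hschur ⁅a, b⁆ (fun g _ =>
        mem_center_iff.1 (hcen _ (commutator_mem_commutator ha hb)) g)
      have h1 : (c - 1) • v = 0 := by rw [sub_smul, ← hc, one_smul, sub_eq_zero]; exact h
      have h2 : c = 1 := sub_eq_zero.1 ((smul_eq_zero.1 h1).resolve_right hv)
      apply hfaith
      ext w
      rw [hc, h2, one_smul, map_one]
      rfl) (by
      intro g hg hg'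
      have hna : ⁅P, P⁆ ≠ ⊥ := by
        intro h
        apply hac
        rw [← commutatorElement_eq_one_iff_mul_comm, ← mem_bot, ← h]
        exact commutator_mem_commutator ha hc
      exact mem_center_iff.1 (hcen g (hP.center_eq hna ▸ ⟨hg, hg'⟩)) x)
  rw [hn₀] at h4 h5
  refine ⟨by simpa using h5, hle, fun _ => ⟨⟨m, h4⟩, fun h => hac ?_⟩⟩
  exact congrArg Subtype.val (h.is_comm.comm (⟨a, hPQ ha⟩ : Q) ⟨c, hPQ hc⟩)

end Cfsg.Agent.S4282
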