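import Cfsg.Statements.S4293
import Cfsg.Agent.Lib.FrobC.Norm

set_option autoImplicit false
open Cfsg

namespace Cfsg.Agent.S4293


/-- A nontrivial finite subgroup of the multiplicative group of a division ring occurs as a Frobenius complement of some finite Frobenius group. -/
theorem result {D : Type*} [DivisionRing D] (H : Subgroup Dˣ) [Finite H] (hH : H ≠ ⊥) :
    ∃ (L : Type) (_ : Group L) (_ : Finite L) (C : Subgroup L), Cfsg.IsFrobeniusComplement C ∧ Nonempty (H ≃* C) := by
  have hnt : Nontrivial H := (Subgroup.nontrivial_iff_ne_bot H).2 hH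
  have hfpf : ∀ a : H, a ≠ 1 → ∀ x : D, ((a : Dˣ) : D) * x = x → x = 0 := by
    intro a ha x hx
    have : (((a : Dˣ) : D) - 1) * x = 0 := by rw [sub_mul, hx, one_mul, sub_self]
    rcases mul_eq_zero.1 this with h | h
    · exact absurd (Subtype.ext (Units.ext (sub_eq_zero.1 h))) ha
    · exact h
  obtain ⟨p, hp⟩ := CharP.exists D
  rcases CharP.char_is_prime_or_zero D p with hpp | rfl
  · have := Fact.mk hpp
    let alg : Algebra (ZMod p) D := ZMod.algebra D p
    let V : Submodule (ZMod p) D := Submodule.span (ZMod p) (Set.range fun a : H => ((a : Dˣ) : D))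
    have hfin : Module.Finite (ZMod p) V := Module.Finite.span_of_finite _ (Set.finite_range _)
    have hfin' : Finite V := Module.finite_of_finite (ZMod p)
    have hV : ∀ (a : H), ∀ x ∈ V, ((a : Dˣ) : D) * x ∈ V := by
      intro a x hx
      induction hx using Submodule.span_induction with
      | mem y hy =>
        obtain ⟨b, rfl⟩ := hy
        exact Submodule.subset_span ⟨a * b, by simp⟩
      | zero => simp
      | add y z _ _ hy hz => rw [mul_add]; exact V.add_mem hy hz
      | smul c y _ hy => rw [mul_smul_comm]; exact V.smul_mem c hy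
    have hVnt : Nontrivial V :=
      ⟨⟨1, Submodule.subset_span ⟨1, by simp⟩⟩, 0, fun h => one_ne_zero (congrArg Subtype.val h)⟩
    let ρ : H →* AddMonoid.End V :=
      { toFun := fun a =>
          { toFun := fun x => ⟨((a : Dˣ) : D) * x, hV a x x.2⟩
            map_zero' := Subtype.ext (mul_zero _)
            map_add' := fun x y => Subtype.ext (mul_add _ _ _) }
        map_one' := AddMonoidHom.ext fun x => Subtype.ext (one_mul _)
        map_mul' := fun a b => AddMonoidHom.ext fun x => Subtype.ext (mul_assoc _ _ _) }
    obtain ⟨L, _, _, C, hC, he, -⟩ := H82.exists_frob_of_end.{_, _, 0} ρ fun a ha x hx =>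
      Subtype.ext (hfpf a ha x (congrArg Subtype.val hx))
    exact ⟨L, inferInstance, inferInstance, C, hC, he⟩
  · have : CharZero D := CharP.charP_to_charZero D
    let ρ : Representation ℤ H D :=
      { toFun := fun a => LinearMap.mulLeft ℤ ((a : Dˣ) : D)
        map_one' := by ext x; simp
        map_mul' := fun a b => by ext x; simp }
    exact (H82.intFPF_of_rep ρ hfpf).exists_frob

end Cfsg.Agent.S4293
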