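import Cfsg.Statements.S4295
import Cfsg.Agent.Lib.FrobC.Square

set_option autoImplicit false
open Cfsg

namespace Cfsg.Agent.S4295


/-- For a natural number m the following are equivalent: (a) some finite group has a Frobenius complement isomorphic to the quaternion group of order 8 whose Frobenius kernel (the identity together with the elements lying in no conjugate of the complement) has exactly m elements; (b) m is an odd perfect square greater than 1. -/
theorem result (m : ℕ) :
    (∃ (L : Type) (_ : Group L) (_ : Finite L) (H : Subgroup L), Cfsg.IsFrobeniusComplement H ∧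
        Nonempty (H ≃* QuaternionGroup 2) ∧ Nat.card (Cfsg.frobeniusKernel H) = m) ↔
    (Odd m ∧ IsSquare m ∧ 1 < m) := by
  constructor
  · rintro ⟨L, _, _, H, hF, ⟨e⟩, rfl⟩
    obtain ⟨i, j, z, hz, hi, hj, hij⟩ :=
      H82.exists_q8_of_quat (n := 0) e.symm.toMonoidHom e.symm.injective
    obtain ⟨N, φ, hN, hne, h⟩ := H82.exists_fpf_of_isFrob hF
    obtain ⟨h1, Q, h2, -⟩ := h.square hz hi hj hij
    rw [← hN]
    exact ⟨h1, ⟨Q, h2⟩, (Subgroup.one_lt_card_iff_ne_bot N).2 hne⟩
  · rintro ⟨h1, ⟨k, rfl⟩, h2⟩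
    obtain ⟨L, _, _, H, hF, ⟨e⟩, h⟩ := H82.exists_frob_q8 (Nat.odd_mul.1 h1).1 (by
      by_contra h3
      have : k = 0 ∨ k = 1 := by omega
      rcases this with rfl | rfl <;> simp at h2)
    exact ⟨L, inferInstance, inferInstance, H, hF, ⟨e.symm⟩, h⟩

end Cfsg.Agent.S4295
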