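import Cfsg.Statements.S4296
import Cfsg.Agent.Lib.FrobC.Square

set_option autoImplicit false
open Cfsg

namespace Cfsg.Agent.S4296


/-- Let H be a Frobenius complement in a finite group, and suppose some Sylow subgroup of H is not cyclic. Then the number of elements of the Frobenius kernel (the identity together with the elements lying in no conjugate of H) is an odd perfect square. -/
theorem result {L : Type*} [Group L] [Finite L] (H : Subgroup L) (hF : Cfsg.IsFrobeniusComplement H)
    (hZ : ∃ (p : ℕ) (_ : Fact p.Prime) (P : Sylow p H), ¬ IsCyclic P) :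
    Odd (Nat.card (Cfsg.frobeniusKernel H)) ∧ IsSquare (Nat.card (Cfsg.frobeniusKernel H)) := by
  obtain ⟨p, _, P, hP⟩ := hZ
  obtain ⟨i, j, z, hz, hi, hj, hij⟩ := (H82.intFPF_of_isFrob hF).exists_q8 P.2 hP
  obtain ⟨N, φ, hN, -, h⟩ := H82.exists_fpf_of_isFrob hF
  obtain ⟨h1, Q, h2, -⟩ := h.square hz hi hj hij
  rw [← hN]
  exact ⟨h1, Q, h2⟩

end Cfsg.Agent.S4296
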