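import Cfsg.Statements.S4297
import Cfsg.Agent.Lib.FrobC.Norm

set_option autoImplicit false
open Cfsg

namespace Cfsg.Agent.S4297


/-- For every n ≥ 2 the dicyclic group of order 4n (generated by an element a of order 2n and an element x with x² = aⁿ and x a x⁻¹ = a⁻¹) occurs as a Frobenius complement of some finite Frobenius group. -/
theorem result (n : ℕ) (hn : 2 ≤ n) :
    ∃ (L : Type) (_ : Group L) (_ : Finite L) (H : Subgroup L), Cfsg.IsFrobeniusComplement H ∧ Nonempty (H ≃* QuaternionGroup n) := by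
  have hn0 : NeZero n := ⟨by omega⟩
  have hn2 : NeZero (2 * n) := ⟨by omega⟩
  let χ : AddChar (ZMod (2 * n)) ℂ := ZMod.stdAddChar
  have hχ : Function.Injective χ := ZMod.injective_stdAddChar
  have hnn : (n : ZMod (2 * n)) + n = 0 := by
    rw [← Nat.cast_add, ← two_mul, ZMod.natCast_self]
  have hn1 : (n : ZMod (2 * n)) ≠ 0 := by
    rw [Ne, ZMod.natCast_eq_zero_iff]
    intro h
    have := Nat.le_of_dvd (by omega) h
    omega
  have hχn : χ n = -1 := by
    have h1 : χ n * χ n = 1 := by rw [← AddChar.map_add_eq_mul, hnn, AddChar.map_zero_eq_one]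
    rcases mul_self_eq_one_iff.1 h1 with h | h
    · exact absurd (hχ (h.trans (AddChar.map_zero_eq_one χ).symm)) hn1
    · exact h
  have hχ0 : ∀ i, χ i ≠ 0 := fun i => left_ne_zero_of_mul_eq_one (b := χ (-i)) (by
    rw [← AddChar.map_add_eq_mul, add_neg_cancel, AddChar.map_zero_eq_one])
  have hneg : ∀ i, χ (-i) = (χ i)⁻¹ := fun i => AddChar.map_neg_eq_inv χ i
  let f : QuaternionGroup n → Module.End ℂ (ℂ × ℂ) := fun g => match g with
    | .a i => (χ i • LinearMap.fst ℂ ℂ ℂ).prod ((χ i)⁻¹ • LinearMap.snd ℂ ℂ ℂ)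
    | .xa i => (-(χ i)⁻¹ • LinearMap.snd ℂ ℂ ℂ).prod (χ i • LinearMap.fst ℂ ℂ ℂ)
  have hfa : ∀ i (v : ℂ × ℂ), f (.a i) v = (χ i * v.1, (χ i)⁻¹ * v.2) := fun i v => rfl
  have hfx : ∀ i (v : ℂ × ℂ), f (.xa i) v = (-(χ i)⁻¹ * v.2, χ i * v.1) := fun i v => rfl
  let ρ : Representation ℂ (QuaternionGroup n) (ℂ × ℂ) :=
    { toFun := f
      map_one' := by
        refine LinearMap.ext fun v => ?_
        rw [QuaternionGroup.one_def, hfa]
        simp
      map_mul' := by
        rintro (i | i) (j | j) <;> refine LinearMap.ext fun v => ?_ <;>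
          simp only [QuaternionGroup.a_mul_a, QuaternionGroup.a_mul_xa, QuaternionGroup.xa_mul_a,
            QuaternionGroup.xa_mul_xa, Module.End.mul_apply, hfa, hfx, sub_eq_add_neg,
            AddChar.map_add_eq_mul, hneg, hχn, Prod.mk.injEq] <;>
          have := hχ0 i <;> have := hχ0 j <;> constructor <;> field_simp }
  have key : H82.IntFPF (QuaternionGroup n) := by
    refine H82.intFPF_of_rep ρ ?_
    rintro (i | i) hg v hv
    · have hv' : f (.a i) v = v := hv
      rw [hfa, Prod.ext_iff] at hv'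
      have hi : χ i ≠ 1 := fun h => hg (by
        rw [hχ (h.trans (AddChar.map_zero_eq_one χ).symm)]; rfl)
      have h1 : (χ i - 1) * v.1 = 0 := by rw [sub_mul, one_mul, sub_eq_zero]; exact hv'.1
      have h2 : ((χ i)⁻¹ - 1) * v.2 = 0 := by rw [sub_mul, one_mul, sub_eq_zero]; exact hv'.2
      refine Prod.ext ((mul_eq_zero.1 h1).resolve_left (sub_ne_zero.2 hi))
        ((mul_eq_zero.1 h2).resolve_left (sub_ne_zero.2 (by simpa using hi)))
    · have hv' : f (.xa i) v = v := hv
      rw [hfx, Prod.ext_iff] at hv'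
      obtain ⟨h1, h2⟩ := hv'
      simp only at h1 h2
      have h3 : v.1 = 0 := by
        have := hχ0 i
        rw [← h2] at h1
        field_simp at h1
        linear_combination (-1 / 2 : ℂ) * h1
      refine Prod.ext h3 ?_
      rw [← h2, h3, mul_zero]; rfl
  obtain ⟨L, _, _, H, hH, ⟨e⟩⟩ := key.exists_frob.{0, 0}
  exact ⟨L, inferInstance, inferInstance, H, hH, ⟨e.symm⟩⟩

end Cfsg.Agent.S4297
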