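import Cfsg.Statements.S4298
import Cfsg.Agent.Lib.FrobC.Norm

set_option autoImplicit false
open Cfsg

namespace Cfsg.Agent.S4298

/-- the faithful rational character of degree 2 -/
def chi (g : Matrix.SpecialLinearGroup (Fin 2) (ZMod 3)) : ℤ :=
  if g.1 0 0 + g.1 1 1 = 0 then 0 else
  if g.1 0 0 + g.1 1 1 = 2 then (if g.1 0 1 = 0 ∧ g.1 1 0 = 0 then 2 else -1)
  else (if g.1 0 1 = 0 ∧ g.1 1 0 = 0 then -2 else 1)

theorem key : H82.IntFPF (Matrix.SpecialLinearGroup (Fin 2) (ZMod 3)) := by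
  refine H82.intFPF_of_exp 12 (by norm_num) (by decide +kernel) chi ?_ (by decide +kernel)
  intro h
  have := congrFun h 1
  revert this
  decide


/-- The group SL(2,3) of order 24 (the binary tetrahedral group) occurs as a Frobenius complement of some finite Frobenius group. -/
theorem result :
    ∃ (L : Type) (_ : Group L) (_ : Finite L) (H : Subgroup L), Cfsg.IsFrobeniusComplement H ∧ Nonempty (H ≃* Matrix.SpecialLinearGroup (Fin 2) (ZMod 3)) := by
  have : Nontrivial (Matrix.SpecialLinearGroup (Fin 2) (ZMod 3)) := ⟨1, -1, by decide⟩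
  obtain ⟨L, _, _, H, hH, ⟨e⟩⟩ := key.exists_frob.{0, 0}
  exact ⟨L, inferInstance, inferInstance, H, hH, ⟨e.symm⟩⟩

end Cfsg.Agent.S4298
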