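import Cfsg.Statements.S4299
import Cfsg.Agent.Lib.FrobC.Norm

set_option autoImplicit false
open Cfsg

namespace Cfsg.Agent.S4299


/-- Every nontrivial finite cyclic group occurs as a Frobenius complement of some finite Frobenius group. -/
theorem result {C : Type*} [Group C] [Finite C] [IsCyclic C] [Nontrivial C] :
    ∃ (L : Type) (_ : Group L) (_ : Finite L) (H : Subgroup L), Cfsg.IsFrobeniusComplement H ∧ Nonempty (C ≃* H) := by
  have hn : NeZero (Nat.card C) := ⟨Nat.card_pos.ne'⟩
  let e : Multiplicative (ZMod (Nat.card C)) ≃* C := zmodCyclicMulEquiv inferInstance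
  let χ : C →* ℂ := (ZMod.stdAddChar (N := Nat.card C)).toMonoidHom.comp e.symm.toMonoidHom
  have hχ : Function.Injective χ := ZMod.injective_stdAddChar.comp e.symm.injective
  let ρ : Representation ℤ C ℂ :=
    { toFun := fun a => LinearMap.mulLeft ℤ (χ a)
      map_one' := by ext x; simp
      map_mul' := fun a b => by ext x; simp [mul_assoc] }
  refine (H82.intFPF_of_rep ρ fun a ha x hx => ?_).exists_frob
  have hx' : χ a * x = x := hx
  have : (χ a - 1) * x = 0 := by rw [sub_mul, hx', one_mul, sub_self]
  rcases mul_eq_zero.1 this with h | h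
  · exact absurd (hχ ((sub_eq_zero.1 h).trans (map_one χ).symm)) ha
  · exact h

end Cfsg.Agent.S4299
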