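import Cfsg.Statements.S4301

set_option autoImplicit false
open Cfsg

namespace Cfsg.Agent.S4301


/-- One-point extension of a multiply transitive group. Let X be a set and G a group of permutations of Option X (the set X with one extra point ∗ = none) all of whose elements fix ∗, such that G is k-transitive on the points of X for some k ≥ 2, X having at least k points. Suppose a permutation h of Option X and an element g of G satisfy: h interchanges ∗ with a point x of X and fixes a point y of X; g interchanges x and y; (g h)³ and h² lie in G; and for every f in G fixing x, the product h f h lies in G and fixes x. Then an element of the group generated by G and h fixes ∗ exactly when it lies in G, and that group acts (k+1)-transitively on Option X. -/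
theorem result {X : Type*} (G : Subgroup (Equiv.Perm (Option X))) (hfix : ∀ f ∈ G, f none = none)
    (k : ℕ) (hk : 2 ≤ k) (hkX : Nonempty (Fin k ↪ X))
    (htrans : ∀ a b : Fin k ↪ X, ∃ f ∈ G, ∀ i, f (some (a i)) = some (b i))
    (h g : Equiv.Perm (Option X)) (hg : g ∈ G) (x y : X)
    (h1 : h none = some x) (h2 : h (some x) = none) (h3 : h (some y) = some y)
    (h4 : g (some x) = some y) (h5 : g (some y) = some x)
    (h6 : (g * h) ^ 3 ∈ G) (h7 : h ^ 2 ∈ G)
    (h8 : ∀ f ∈ G, f (some x) = some x → h * f * h ∈ G ∧ (h * f * h) (some x) = some x) :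
    (∀ f ∈ Subgroup.closure ((G : Set (Equiv.Perm (Option X))) ∪ {h}), f none = none ↔ f ∈ G) ∧
      MulAction.IsMultiplyPretransitive (Subgroup.closure ((G : Set (Equiv.Perm (Option X))) ∪ {h})) (Option X) (k + 1) := by
  classical
  have hxy : x ≠ y := by
    rintro rfl
    rw [h2] at h3
    exact absurd h3 (by simp)
  have hcard : (k : ℕ∞) ≤ ENat.card X := by
    obtain ⟨e⟩ := hkX
    have := ENat.card_le_card_of_injective e.injective
    simpa using this
  -- 2-transitivity
  have h2t : ∀ a b c d : X, a ≠ b → c ≠ d → ∃ f ∈ G, f (some a) = some c ∧ f (some b) = some d := by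
    intro a b c d hab hcd
    obtain ⟨u, hu⟩ := Fin.Embedding.restrictSurjective_of_le_ENatCard hk hcard (Function.Embedding.embFinTwo hab)
    obtain ⟨v, hv⟩ := Fin.Embedding.restrictSurjective_of_le_ENatCard hk hcard (Function.Embedding.embFinTwo hcd)
    obtain ⟨f, hf, hf'⟩ := htrans u v
    have u0 := DFunLike.congr_fun hu 0
    have u1 := DFunLike.congr_fun hu 1
    have v0 := DFunLike.congr_fun hv 0
    have v1 := DFunLike.congr_fun hv 1
    simp only [Function.Embedding.trans_apply, Function.Embedding.embFinTwo_apply_zero,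
      Function.Embedding.embFinTwo_apply_one] at u0 u1 v0 v1
    exact ⟨f, hf, by rw [← u0, hf', v0], by rw [← u1, hf', v1]⟩
  have hsome : ∀ f ∈ G, ∀ a : X, ∃ b : X, f (some a) = some b := by
    intro f hf a
    cases hfa : f (some a) with
    | none => exact absurd (f.injective (hfa.trans (hfix f hf).symm)) (by simp)
    | some b => exact ⟨b, rfl⟩
  have hinv : h⁻¹ = (h ^ 2)⁻¹ * h := by group
  have hinv' : h⁻¹ = h * (h ^ 2)⁻¹ := by group
  -- the double coset
  have hgh : ∃ a ∈ G, ∃ b ∈ G, h * g * h = a * h * b := by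
    refine ⟨g⁻¹ * (g * h) ^ 3 * (h ^ 2)⁻¹, G.mul_mem (G.mul_mem (G.inv_mem hg) h6) (G.inv_mem h7), g⁻¹, G.inv_mem hg, ?_⟩
    simp only [pow_succ, pow_zero]
    group
  have key : ∀ f ∈ G, h * f * h ∈ G ∨ ∃ a ∈ G, ∃ b ∈ G, h * f * h = a * h * b := by
    intro f hf
    by_cases hfx : f (some x) = some x
    · exact Or.inl (h8 f hf hfx).1
    right
    obtain ⟨z, hz⟩ := hsome f hf x
    have hzx : x ≠ z := by
      rintro rfl
      exact hfx hz
    obtain ⟨a, ha, ha1, ha2⟩ := h2t x y x z hxy hzx
    have hb : (g⁻¹ * a⁻¹ * f) (some x) = some x := by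
      simp only [Equiv.Perm.mul_apply, hz]
      rw [← ha2, Equiv.Perm.inv_eq_iff_eq, h4]
      simp
    have hbG : g⁻¹ * a⁻¹ * f ∈ G := G.mul_mem (G.mul_mem (G.inv_mem hg) (G.inv_mem ha)) hf
    obtain ⟨c, hc, d, hd, hcd⟩ := hgh
    refine ⟨(h * a * h) * (h ^ 2)⁻¹ * c, G.mul_mem (G.mul_mem (h8 a ha ha1).1 (G.inv_mem h7)) hc,
      d * (h ^ 2)⁻¹ * (h * (g⁻¹ * a⁻¹ * f) * h), G.mul_mem (G.mul_mem hd (G.inv_mem h7)) (h8 _ hbG hb).1, ?_⟩
    have : h * a * h * (h ^ 2)⁻¹ * c * h * (d * (h ^ 2)⁻¹ * (h * (g⁻¹ * a⁻¹ * f) * h)) =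
        h * a * h * (h ^ 2)⁻¹ * (c * h * d) * (h ^ 2)⁻¹ * (h * (g⁻¹ * a⁻¹ * f) * h) := by group
    rw [this, ← hcd]
    simp only [pow_succ, pow_zero]
    group
  let S : Subgroup (Equiv.Perm (Option X)) :=
    { carrier := {f | f ∈ G ∨ ∃ a ∈ G, ∃ b ∈ G, f = a * h * b}
      one_mem' := Or.inl G.one_mem
      mul_mem' := by
        rintro u v (hu | ⟨a, ha, b, hb, rfl⟩) (hv | ⟨c, hc, d, hd, rfl⟩)
        · exact Or.inl (G.mul_mem hu hv)
        · exact Or.inr ⟨u * c, G.mul_mem hu hc, d, hd, by group⟩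
        · exact Or.inr ⟨a, ha, b * v, G.mul_mem hb hv, by group⟩
        · rcases key _ (G.mul_mem hb hc) with h' | ⟨e, he, f, hf, h'⟩
          · left
            have : a * h * b * (c * h * d) = a * (h * (b * c) * h) * d := by group
            rw [this]
            exact G.mul_mem (G.mul_mem ha h') hd
          · right
            refine ⟨a * e, G.mul_mem ha he, f * d, G.mul_mem hf hd, ?_⟩
            have : a * h * b * (c * h * d) = a * (h * (b * c) * h) * d := by group
            rw [this, h']
            group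
      inv_mem' := by
        rintro u (hu | ⟨a, ha, b, hb, rfl⟩)
        · exact Or.inl (G.inv_mem hu)
        · right
          refine ⟨b⁻¹ * (h ^ 2)⁻¹, G.mul_mem (G.inv_mem hb) (G.inv_mem h7), a⁻¹, G.inv_mem ha, ?_⟩
          group }
  have hle : Subgroup.closure ((G : Set (Equiv.Perm (Option X))) ∪ {h}) ≤ S := by
    rw [Subgroup.closure_le]
    rintro f (hf | rfl)
    · exact Or.inl hf
    · exact Or.inr ⟨1, G.one_mem, 1, G.one_mem, by group⟩
  have hGle : ∀ f ∈ G, f ∈ Subgroup.closure ((G : Set (Equiv.Perm (Option X))) ∪ {h}) :=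
    fun f hf => Subgroup.subset_closure (Or.inl hf)
  have hh : h ∈ Subgroup.closure ((G : Set (Equiv.Perm (Option X))) ∪ {h}) :=
    Subgroup.subset_closure (Or.inr rfl)
  refine ⟨fun f hf => ⟨fun hf0 => ?_, hfix f⟩, ?_⟩
  · rcases hle hf with h' | ⟨a, ha, b, hb, rfl⟩
    · exact h'
    · exfalso
      simp only [Equiv.Perm.mul_apply, hfix b hb, h1] at hf0
      exact absurd (a.injective (hf0.trans (hfix a ha).symm)) (by simp)
  · -- move the first point to none
    have hmove : ∀ w : Option X, ∃ f ∈ Subgroup.closure ((G : Set (Equiv.Perm (Option X))) ∪ {h}), f w = none := by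
      intro w
      cases w with
      | none => exact ⟨1, Subgroup.one_mem _, rfl⟩
      | some z =>
        by_cases hz : z = x
        · exact ⟨h, hh, by rw [hz, h2]⟩
        · obtain ⟨a, ha, ha1, -⟩ := h2t z x x y hz hxy
          exact ⟨h * a, Subgroup.mul_mem _ hh (hGle a ha), by simp [ha1, h2]⟩
    have hnorm : ∀ u : Fin (k + 1) ↪ Option X, ∃ f ∈ Subgroup.closure ((G : Set (Equiv.Perm (Option X))) ∪ {h}),
        f (u 0) = none ∧ ∃ a : Fin k ↪ X, ∀ i, f (u i.succ) = some (a i) := by
      intro u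
      obtain ⟨f, hf, hf0⟩ := hmove (u 0)
      have : ∀ i : Fin k, ∃ z : X, f (u i.succ) = some z := by
        intro i
        cases hfa : f (u i.succ) with
        | none => exact absurd (u.injective (f.injective (hfa.trans hf0.symm))) (Fin.succ_ne_zero i)
        | some b => exact ⟨b, rfl⟩
      choose a ha using this
      refine ⟨f, hf, hf0, ⟨a, fun i j hij => ?_⟩, ha⟩
      have : f (u i.succ) = f (u j.succ) := by rw [ha, ha, hij]
      exact Fin.succ_injective _ (u.injective (f.injective this))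
    rw [MulAction.isMultiplyPretransitive_iff]
    intro u v
    obtain ⟨f, hf, hf0, a, ha⟩ := hnorm u
    obtain ⟨f', hf', hf0', b, hb⟩ := hnorm v
    obtain ⟨e, he, he'⟩ := htrans a b
    refine ⟨⟨f'⁻¹ * e * f, Subgroup.mul_mem _ (Subgroup.mul_mem _ (Subgroup.inv_mem _ hf') (hGle e he)) hf⟩, ?_⟩
    ext1 i
    show (f'⁻¹ * e * f) (u i) = v i
    simp only [Equiv.Perm.mul_apply]
    rw [Equiv.Perm.inv_eq_iff_eq]
    induction i using Fin.cases with
    | zero => rw [hf0, hf0', hfix e he]
    | succ i => rw [ha, hb, he']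

end Cfsg.Agent.S4301
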