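import Cfsg.Statements.S4309

set_option autoImplicit false
open Cfsg

namespace Cfsg.Agent.S4309


/-- Let `π` be a set of primes, `G` a finite group with a Hall `π`-subgroup `H` (every prime divisor of the order of `H` lies in `π` and no prime of `π` divides its index), and `A` a normal subgroup of `G`. Then `H ∩ A` is a Hall `π`-subgroup of `A` and the image of `H` in `G/A` is a Hall `π`-subgroup of `G/A`. -/
theorem result {G : Type*} [Group G] [Finite G] (π : Set ℕ)
    (H A : Subgroup G) [A.Normal] (hH : Cfsg.IsPiHall π H) :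
    Cfsg.IsPiHall π ((H ⊓ A).subgroupOf A) ∧ Cfsg.IsPiHall π (H.map (QuotientGroup.mk' A)) := by
  refine ⟨⟨fun p hp h => hH.1 p hp (h.trans ?_), fun p hp hπ h => hH.2 p hp hπ (h.trans ?_)⟩,
    ⟨fun p hp h => hH.1 p hp (h.trans ?_), fun p hp hπ h => hH.2 p hp hπ (h.trans ?_)⟩⟩
  · rw [Nat.card_congr (Subgroup.subgroupOfEquivOfLe (inf_le_right : H ⊓ A ≤ A)).toEquiv]
    exact Subgroup.card_dvd_of_le inf_le_left
  · change (H ⊓ A).relIndex A ∣ _
    rw [Subgroup.inf_relIndex_right]
    have h1 : H.relIndex A = H.relIndex (H ⊔ A) := by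
      have e1 := Subgroup.relIndex_mul_relIndex (H ⊓ A) H (H ⊔ A) inf_le_left le_sup_left
      have e2 := Subgroup.relIndex_mul_relIndex (H ⊓ A) A (H ⊔ A) inf_le_right le_sup_right
      rw [Subgroup.inf_relIndex_left] at e1
      rw [Subgroup.inf_relIndex_right, Subgroup.relIndex_sup_right] at e2
      have hne : A.relIndex H ≠ 0 := Subgroup.FiniteIndex.index_ne_zero
      apply Nat.eq_of_mul_eq_mul_left (Nat.pos_of_ne_zero hne)
      rw [e1, ← e2, mul_comm]
    rw [h1]
    exact Subgroup.relIndex_dvd_index_of_le le_sup_left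
  · exact Subgroup.card_map_dvd H _
  · exact Subgroup.index_map_dvd H (QuotientGroup.mk'_surjective A)

end Cfsg.Agent.S4309
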