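import Mathlib
import Cfsg.Statements.S4314
import Cfsg.Agent.Lib.FGS.QuasiFrob
import Cfsg.Agent.Lib.PGroup.Basic
-- import your own Cfsg.Agent.* helpers here

set_option autoImplicit false
open Cfsg

namespace Cfsg.Agent.S4314

open H80 H3 Subgroup
open scoped commutatorElement

/-- Let `G` be a finite group every conjugacy class of which has size 1 or a prime. Then either `G` is nilpotent of class at most 2, or `G/Z(G)` is a non-abelian group of order `pq` for distinct primes `p, q` (a Frobenius group of order `pq`). -/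
theorem result {G : Type*} [Group G] [Finite G]
    (h : ∀ x : G, (Subgroup.centralizer ({x} : Set G)).index = 1 ∨ ((Subgroup.centralizer ({x} : Set G)).index).Prime) :
    Subgroup.upperCentralSeries G 2 = ⊤ ∨
      ∃ p q : ℕ, p.Prime ∧ q.Prime ∧ p ≠ q ∧ Nat.card (G ⧸ Subgroup.center G) = p * q ∧ ¬ IsMulCommutative (G ⧸ Subgroup.center G) := by
  by_cases h1 : ∃ p : ℕ, p.Prime ∧ ∀ x : G, cs⟦x⟧ = 1 ∨ cs⟦x⟧ = p
  · left
    obtain ⟨p, hp, h1⟩ := h1
    haveI := Fact.mk hp
    have hZ : IsPGroup p (G ⧸ center G) := by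
      refine IsPGroup.of_card (n := (center G).index.factorization p) ?_
      refine Nat.eq_pow_of_factorization_eq_single index_ne_zero_of_finite ?_
      ext q
      by_cases hq : q = p
      · simp [hq]; rfl
      rw [Finsupp.single_eq_of_ne hq]
      by_cases hq' : q.Prime
      · haveI := Fact.mk hq'
        refine Nat.factorization_eq_zero_of_not_dvd (not_dvd_index_of_sylow_le (default : Sylow q G)
          (sylow_le_center_of_forall_not_dvd (fun x hx => ?_) _))
        rcases h1 x with h2 | h2 <;> rw [h2] at hx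
        · exact hq'.one_lt.ne' (Nat.dvd_one.1 hx)
        · exact hq ((Nat.prime_dvd_prime_iff_eq hq' hp).1 hx)
      · exact Nat.factorization_eq_zero_of_not_prime _ hq'
    have hc : ∀ a b x : G, ⁅a, b⁆ ∈ Cx⟦x⟧ := by
      intro a b x
      rcases h1 x with h2 | h2
      · rw [Cx_eq_top_iff.2 (cs_eq_one_iff.1 h2)]; trivial
      have h3 : ((Cx⟦x⟧).map (QuotientGroup.mk' (center G))).index = p := by
        rw [index_map_mk' (center_le_Cx x), h2]
      haveI := H5.normal_of_index_eq hZ h3
      haveI : IsCyclic ((G ⧸ center G) ⧸ (Cx⟦x⟧).map (QuotientGroup.mk' (center G))) :=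
        isCyclic_of_prime_card (p := p) h3
      rw [← mk_mem_map_iff (center_le_Cx x), ← QuotientGroup.mk'_apply, map_commutatorElement,
        ← commutator_mem_of_commute_mk]
      exact (IsCyclic.commGroup (α := (G ⧸ center G) ⧸
        (Cx⟦x⟧).map (QuotientGroup.mk' (center G)))).mul_comm _ _
    rw [eq_top_iff]
    intro a _
    rw [Subgroup.mem_upperCentralSeries_succ_iff]
    intro b
    rw [Subgroup.upperCentralSeries_one, mem_center_iff]
    intro x
    exact mem_Cx'.1 (hc a b x)
  · right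
    push Not at h1
    obtain ⟨x, hx, -⟩ := h1 2 Nat.prime_two
    have hp := (h x).resolve_left hx
    obtain ⟨y, hy, hy'⟩ := h1 _ hp
    have hq := (h y).resolve_left hy
    obtain ⟨L, H, hs⟩ := exists_abSplit (G := G) (π := {cs⟦x⟧}) (fun z => by
        rcases h z with h2 | h2
        · rw [h2]; exact Or.inl (piNum_one _)
        · rw [piNum_prime h2, piNum_prime h2]; exact em _)
      ⟨x, by rw [piNum_prime hp]; simp⟩ ⟨y, by rw [piNum_prime hq]; exact hy'⟩
    obtain ⟨h2, h3, h4, h5, h6⟩ := hs.facts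
    have h7 : ∀ n ∈ Set.range (fun x : G => cs⟦x⟧), 1 < n → n.Prime := by
      rintro _ ⟨z, rfl⟩ hz
      exact (h z).resolve_left hz.ne'
    have h8 := h7 _ (by rw [h2]; simp) h5
    have h9 := h7 _ (by rw [h2]; simp) h6
    refine ⟨_, _, h8, h9, (Nat.coprime_primes h8 h9).1 h3, h4, fun hc => ?_⟩
    obtain ⟨u, hu, hu'⟩ := SetLike.not_le_iff_exists.1 hs.ncH
    obtain ⟨v, hv, hv'⟩ := SetLike.not_le_iff_exists.1 hs.ncL
    have := hs.semi_mk u (mem_map_of_mem _ hu) (mt (QuotientGroup.eq_one_iff u).1 hu')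
    refine hv' ((QuotientGroup.eq_one_iff v).1 (mem_bot.1 (this ▸ mem_inf.2
      ⟨mem_map_of_mem _ hv, mem_Cx.2 (hc.is_comm.comm _ _)⟩)))

end Cfsg.Agent.S4314
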