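import Cfsg.Statements.S4316
import Cfsg.Agent.Lib.BFC.B

set_option autoImplicit false
universe u
open Cfsg

namespace Cfsg.Agent.S4316

/-- There is a function `f` of two natural-number arguments with the following property. Let `q` be a prime and `A` an elementary abelian group of order `q³` acting by automorphisms on a finite group `G` of order prime to `q`, and suppose that for every non-identity `a ∈ A` the derived subgroup of the fixed-point subgroup `C_G(a)` has order at most `m`. Then the derived subgroup of `G` has order at most `f(q, m)`. -/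
theorem result :
    ∃ f : ℕ → ℕ → ℕ, ∀ (q m : ℕ) (A G : Type u) [Group A] [Finite A] [Group G] [Finite G] [MulDistribMulAction A G],
      q.Prime → Nat.card A = q ^ 3 → (∀ a b : A, a * b = b * a) → (∀ a : A, a ^ q = 1) → ¬ q ∣ Nat.card G →
      (∀ a : A, a ≠ 1 → Nat.card ↥(commutator ↥(FixedPoints.subgroup (Subgroup.zpowers a) G)) ≤ m) →
      Nat.card ↥(commutator G) ≤ f q m := by
  refine ⟨fun q m => H68C.bnd (H68C.big (q ^ 3) m), ?_⟩
  intro q m A G _ _ _ _ _ hq h3 hab hexp hnd hm
  have hA : IsMulCommutative A := ⟨⟨hab⟩⟩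
  have hc : (Nat.card A).Coprime (Nat.card G) :=
    h3 ▸ ((Nat.Prime.coprime_iff_not_dvd hq).2 hnd).pow_left 3
  refine H68C.card_commutator_le fun g => h3 ▸ H68C.Hyp.cls_le
    (φ := MulDistribMulAction.toMulAut A G) (fun B B' => ?_) hA hc g
  obtain ⟨a, h1, h2, h4⟩ := H68C.exists_mem_coc hq.one_lt hA hexp h3 B B'
  refine ⟨(commutator _).map (FixedPoints.subgroup (Subgroup.zpowers a) G).subtype,
    (Subgroup.card_map_of_injective (Subgroup.subtype_injective _)).trans_le (hm a h1),
    fun x hx c hc' => ?_⟩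
  have k : ∀ (D : Subgroup A), a ∈ D → ∀ y ∈ H2.fixSub (MulDistribMulAction.toMulAut A G) D,
      y ∈ FixedPoints.subgroup (Subgroup.zpowers a) G := fun D hD y hy b =>
    hy b (Subgroup.zpowers_le.2 hD b.2)
  exact ⟨_, Subgroup.commutator_mem_commutator (Subgroup.mem_top ⟨c, k _ h4 c hc'⟩)
    (Subgroup.mem_top ⟨x, k _ h2 x hx⟩), rfl⟩

end Cfsg.Agent.S4316
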