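import Cfsg.Statements.S4320
import Mathlib
import Cfsg.Agent.Base


set_option autoImplicit false
open Cfsg

namespace Cfsg.Agent.S4320

open Subgroup

theorem exists_gens (G : Type*) [Group G] [Finite G] : ∃ (ι : Type) (_ : Fintype ι) (x : ι → G) (d : ι → ℕ),
    closure (Set.range x) = ⊤ ∧ (∀ i, x i ^ d i ∈ commutator G) ∧ ∏ i, d i = Nat.card (Abelianization G) := by
  classical
  obtain ⟨ι, _, n, hn, ⟨e⟩⟩ := CommGroup.equiv_prod_multiplicative_zmod_of_finite (Abelianization G)
  have hs : Function.Surjective (Abelianization.of : G →* Abelianization G) := QuotientGroup.mk_surjective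
  choose y hy using fun i => hs (e.symm (Pi.mulSingle i (Multiplicative.ofAdd 1)))
  obtain ⟨m, ⟨f⟩⟩ := Finite.exists_equiv_fin (commutator G)
  refine ⟨ι ⊕ Fin m, inferInstance, Sum.elim y fun j => f.symm j, Sum.elim n fun _ => 1, ?_, ?_, ?_⟩
  · set K := closure (Set.range (Sum.elim y fun j => (f.symm j : G))) with hK
    have h1 : (Abelianization.of : G →* Abelianization G).ker ≤ K := fun c hc => by
      rw [Abelianization.ker_of] at hc
      exact subset_closure ⟨Sum.inr (f ⟨c, hc⟩), by simp⟩
    rw [← comap_map_eq_self h1, eq_top_iff]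
    intro g _
    have h2 : e (Abelianization.of g) ∈ (K.map Abelianization.of).map e.toMonoidHom := by
      refine pi_mem_of_mulSingle_mem _ fun i => ?_
      haveI : NeZero (n i) := ⟨by have := hn i; omega⟩
      have : Pi.mulSingle i (e (Abelianization.of g) i) = (Pi.mulSingle i (Multiplicative.ofAdd 1) :
          (i : ι) → Multiplicative (ZMod (n i))) ^ (e (Abelianization.of g) i).toAdd.val := by
        rw [← Pi.mulSingle_pow, ← ofAdd_nsmul]; simp
      rw [this]
      have hyK : y i ∈ K := Subgroup.subset_closure ⟨Sum.inl i, rfl⟩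
      refine pow_mem (mem_map.2 ⟨_, mem_map_of_mem _ hyK, ?_⟩) _
      simp [hy]
    obtain ⟨z, hz, hz'⟩ := h2
    rwa [e.injective hz'] at hz
  · rintro (i | j)
    · rw [Sum.elim_inl, Sum.elim_inl, ← Abelianization.ker_of, MonoidHom.mem_ker, map_pow, hy, ← map_pow,
        ← Pi.mulSingle_pow, ← ofAdd_nsmul]
      simp
    · simp
  · rw [Nat.card_congr e.toEquiv, Nat.card_pi, Fintype.prod_sum_type]
    simp only [Sum.elim_inl, Sum.elim_inr, Finset.prod_const_one, mul_one]
    exact Finset.prod_congr rfl fun i _ => (Nat.card_zmod _).symm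

theorem key {G Λ B : Type*} [Group G] [Finite G] [CommRing Λ] [AddCommGroup B] [Module Λ B] (ε : Λ →+* ℤ)
    (χ : G →* Λ) (hχ : ∀ g, ε (χ g) = 1) (D : G → B) (hD : ∀ g h, D (g * h) = D g + χ g • D h) :
    ∃ l : Λ, ε l = Nat.card (Abelianization G) ∧ ∀ g, l • D g = 0 := by
  classical
  obtain ⟨ι, _, x, d, hx, hd, hn⟩ := exists_gens G
  have h1 : D 1 = 0 := by simpa using hD 1 1
  have hsp : ∀ g, D g ∈ Submodule.span Λ (Set.range fun i => D (x i)) := fun g => by
    have hg : g ∈ closure (Set.range x) := hx ▸ mem_top g
    induction hg using closure_induction with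
    | mem _ h => obtain ⟨i, rfl⟩ := h; exact Submodule.subset_span ⟨i, rfl⟩
    | one => rw [h1]; exact zero_mem _
    | mul a b _ _ ha hb => rw [hD]; exact add_mem ha (Submodule.smul_mem _ _ hb)
    | inv a _ ha =>
      have := hD a⁻¹ a
      rw [inv_mul_cancel, h1, eq_comm, add_eq_zero_iff_eq_neg] at this
      rw [this]
      exact neg_mem (Submodule.smul_mem _ _ ha)
  set N := RingHom.ker ε • Submodule.span Λ (Set.range fun i => D (x i)) with hN
  let f : G →* Multiplicative (B ⧸ N) := MonoidHom.mk' (fun g => Multiplicative.ofAdd (N.mkQ (D g)))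
    fun g h => by
      rw [← ofAdd_add, ← map_add, hD]
      congr 1
      refine (Submodule.Quotient.eq N).2 ?_
      rw [add_sub_add_left_eq_sub, show χ g • D h - D h = (χ g - 1) • D h by rw [sub_smul, one_smul]]
      exact Submodule.smul_mem_smul (by simp [RingHom.mem_ker, hχ]) (hsp h)
  have h2 : ∀ i, (d i : Λ) • D (x i) ∈ N := fun i => by
    have := Abelianization.commutator_subset_ker f (hd i)
    rw [MonoidHom.mem_ker, map_pow] at this
    rw [← Submodule.Quotient.mk_eq_zero, Nat.cast_smul_eq_nsmul, ← Submodule.mkQ_apply, map_nsmul]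
    exact this
  choose a ha ha' using fun i => (Submodule.mem_ideal_smul_span_iff_exists_sum _ _ _).1 (h2 i)
  let M : Matrix ι ι Λ := Matrix.diagonal (fun i => (d i : Λ)) - Matrix.of fun i j => a i j
  have h3 : ∀ i, ∑ j, M i j • D (x j) = 0 := fun i => by
    have := ha' i
    rw [Finsupp.sum_fintype _ _ (by simp)] at this
    simp [M, sub_smul, this, Matrix.diagonal_apply]
  have h4 : ∀ k, M.det • D (x k) = 0 := fun k => by
    have : ∑ i, M.adjugate k i • ∑ j, M i j • D (x j) = 0 := by simp [h3]
    simp only [Finset.smul_sum, smul_smul] at this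
    rw [Finset.sum_comm] at this
    simp only [← Finset.sum_smul, ← Matrix.mul_apply, Matrix.adjugate_mul] at this
    simpa [Matrix.one_apply] using this
  refine ⟨M.det, ?_, fun g => ?_⟩
  · have : ε.mapMatrix M = Matrix.diagonal fun i => (d i : ℤ) := by
      ext i j
      have : ε (a i j) = 0 := ha i j
      by_cases h : i = j
      · subst h; simp [M, this]
      · simp [M, this, h]
    rw [RingHom.map_det, this, Matrix.det_diagonal, ← hn, Nat.cast_prod]
  · have := hsp g
    generalize D g = v at this
    induction this using Submodule.span_induction with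
    | mem _ h => obtain ⟨i, rfl⟩ := h; exact h4 i
    | zero => simp
    | add u v _ _ hu hv => rw [smul_add, hu, hv, add_zero]
    | smul c u _ hu => rw [smul_comm, hu, smul_zero]

theorem final {G M : Type*} [Group G] [Finite G] [Fintype (Abelianization G)] [AddCommGroup M]
    (D : G → Abelianization G → M)
    (hD : ∀ g h q, D (g * h) q = D g q + D h ((Abelianization.of g)⁻¹ * q)) (g : G) : ∑ q, D g q = 0 := by
  classical
  let ρ : Abelianization G →* Module.End ℤ (Abelianization G → M) :=
    { toFun := fun a => LinearMap.funLeft ℤ M fun q => a⁻¹ * q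
      map_one' := by ext; simp
      map_mul' := fun a b => by ext; simp [mul_assoc] }
  letI : Module (MonoidAlgebra ℤ (Abelianization G)) (Abelianization G → M) :=
    Module.compHom _ (MonoidAlgebra.lift ℤ _ _ ρ).toRingHom
  have hs : ∀ (l : MonoidAlgebra ℤ (Abelianization G)) (f : Abelianization G → M),
      l • f = MonoidAlgebra.lift ℤ _ _ ρ l f := fun _ _ => rfl
  obtain ⟨l, hl1, hl2⟩ := key (MonoidAlgebra.lift ℤ ℤ (Abelianization G) 1).toRingHom
    ((MonoidAlgebra.of ℤ _).comp Abelianization.of) (fun g => by simp)
    (fun g => ((D g, MonoidAlgebra.of ℤ _ (Abelianization.of g) - 1) :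
      (Abelianization G → M) × MonoidAlgebra ℤ (Abelianization G))) fun g h => by
      refine Prod.ext (funext fun q => ?_) ?_
      · simp [hD, hs, ρ]
      · simp only [map_mul, Prod.snd_add, Prod.smul_snd, MonoidHom.comp_apply, smul_eq_mul]
        ring
  have h1 : ∀ a, l.coeff a = l.coeff 1 := fun a => by
    obtain ⟨y, hy⟩ : ∃ y, Abelianization.of y = a⁻¹ := QuotientGroup.mk_surjective _
    have := congrArg (fun z => z.2.coeff 1) (hl2 y)
    simpa [mul_sub, hy, sub_eq_zero] using this
  have h2 : l = l.coeff 1 • ∑ a, MonoidAlgebra.of ℤ (Abelianization G) a := by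
    ext a
    rw [MonoidAlgebra.coeff_smul_apply, MonoidAlgebra.coeff_sum, Finsupp.finsetSum_apply]
    simp [h1 a, Finsupp.single_apply]
  have h3 : l.coeff 1 = 1 := by
    rw [h2] at hl1
    simpa using hl1
  rw [h3, one_smul] at h2
  have := congrArg (fun z => z.1 1) (hl2 g)
  simp only [h2, Prod.smul_fst, hs, map_sum, MonoidAlgebra.lift_of, LinearMap.sum_apply, Finset.sum_apply] at this
  rw [← Equiv.sum_comp (Equiv.inv _)]
  simpa [ρ] using this

/-- The Principal Ideal Theorem of class field theory in its group-theoretic form: for every finite group `G`, the transfer homomorphism from `G` into the abelianization `G'/G''` of its derived subgroup `G'` is the trivial homomorphism. -/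
theorem result {G : Type*} [Group G] [Finite G] :
    MonoidHom.transfer (Abelianization.of : ↥(commutator G) →* Abelianization ↥(commutator G)) =
      (1 : G →* Abelianization ↥(commutator G)) := by
  ext g
  letI := (commutator G).fintypeQuotientOfFiniteIndex
  letI : Fintype (Abelianization G) := (commutator G).fintypeQuotientOfFiniteIndex
  let T : (commutator G).LeftTransversal := default
  have hm : ∀ (g : G) (q : G ⧸ commutator G), (T.2.leftQuotientEquiv q : G)⁻¹ *
      (g * T.2.leftQuotientEquiv (g⁻¹ • q)) ∈ commutator G := fun g q => by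
    have e : ∀ q, ((T.2.leftQuotientEquiv q : G) : G ⧸ commutator G) = q :=
      T.2.quotientGroupMk_leftQuotientEquiv
    rw [← QuotientGroup.eq, QuotientGroup.mk_mul, e, e]
    induction q using QuotientGroup.induction_on
    change _ = ((g * (g⁻¹ * _) : G) : G ⧸ commutator G)
    rw [mul_inv_cancel_left]
  have := final (M := Additive (Abelianization (commutator G)))
    (fun g q => Additive.ofMul (Abelianization.of ⟨_, hm g q⟩)) (fun g h q => by
      rw [← ofMul_mul, ← map_mul]
      congr 2
      have : (Abelianization.of g)⁻¹ * q = g⁻¹ • (show G ⧸ commutator G from q) := by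
        induction q using QuotientGroup.induction_on
        rfl
      apply Subtype.ext
      have e2 : ∀ r : G ⧸ commutator G, (g * h)⁻¹ • r = h⁻¹ • g⁻¹ • r := fun r => by
        rw [mul_inv_rev, mul_smul]
      simp only [this, e2 q, Subgroup.coe_mul]
      group) g
  rw [MonoidHom.transfer_def _ T, MonoidHom.one_apply, leftTransversals.diff]
  simp only [smul_apply_eq_smul_apply_inv_smul]
  rw [← ofMul_prod] at this
  exact this

end Cfsg.Agent.S4320
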