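import Cfsg.Statements.S4321
import Cfsg.Agent.Lib.FGS.QBaer
import Cfsg.Agent.Lib.PGroup.Basic

set_option autoImplicit false
open Cfsg

namespace Cfsg.Agent.S4321

open Subgroup H80 H35

section
variable {G : Type*} [Group G] [Finite G] {p : ℕ} [pp : Fact p.Prime]

theorem comm {u a : G} (hu : IsPElt p u) (ha : IsPElt p a) (h1 : ¬ p ∣ cs⟦u⟧) (h : (cs⟦a⟧).Coprime cs⟦u⟧) :
    a ∈ Cx⟦u⟧ := by
  obtain ⟨P, hP⟩ := not_dvd_cs_iff.1 h1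
  obtain ⟨g, hg⟩ := ha.exists_conj_mem P
  obtain ⟨c, hc, d, hd, rfl⟩ := exists_mul_of_coprime_index h.symm g
  have := mul_mem (mul_mem (inv_mem hc) (hP hg)) hc
  rwa [show c⁻¹ * (c * d * a * (c * d)⁻¹) * c = d * a * d⁻¹ by group, mem_Cx_iff_conj.1 hd] at this

theorem key {u v : G} (hu : IsPElt p u) (u1 : u ≠ 1) (h1 : ¬ p ∣ cs⟦u⟧) (hc : ∀ g, g * u * g⁻¹ ∈ Cx⟦u⟧)
    (h : ∀ z : G, p ∣ orderOf z → p ∣ cs⟦z⟧ → (cs⟦z⟧).Coprime cs⟦u⟧) (hv : IsPElt p v) (h2 : p ∣ cs⟦v⟧) :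
    u ∈ center G := by
  by_contra hz
  have reg : ∀ w ∈ Cx⟦u⟧, ¬ p ∣ orderOf w → ¬ p ∣ cs⟦u * w⟧ := fun w hw o d => by
    have c := mem_Cx_iff_commute.1 hw
    have k := coprime_orderOf hu o
    exact hz (cs_eq_one_iff.1 (Nat.Coprime.eq_one_of_dvd (h _
      (c.orderOf_mul_eq_mul_orderOf_of_coprime k ▸ (hu.dvd_orderOf u1).mul_right _) d).symm (cs_dvd_cs_mul_left c k)))
  obtain ⟨P, hP⟩ := not_dvd_cs_iff.1 h1
  have nP := H79.sylow_normal_of_not_dvd_cs (G := Cx⟦u⟧) (fun y o d => reg y y.2 (by simpa using o) (by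
    rw [cs_mul_of_coprime (mem_Cx_iff_commute.1 y.2) (coprime_orderOf hu (by simpa using o)), ← cs_subtype]
    exact d.mul_right _)) (P.subtype hP)
  have m1 : ∀ a ∈ Cx⟦u⟧, IsPElt p a → a ∈ (P : Subgroup G) := fun a ha e => by
    obtain ⟨g, hg⟩ := ((isPElt_coe (⟨a, ha⟩ : Cx⟦u⟧)).1 e).exists_conj_mem (P.subtype hP)
    exact nP.mem_comm_iff.1 hg |> fun e => by simpa [← mul_assoc, mem_subgroupOf] using e
  have m2 : ∀ a, IsPElt p a → a ∈ Cx⟦u⟧ := fun a e => by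
    by_cases d : p ∣ cs⟦a⟧
    · exact comm hu e h1 (h a (e.dvd_orderOf (by rintro rfl; exact pp.out.not_dvd_one (cs_one (G := G) ▸ d))) d)
    · obtain ⟨g, hg⟩ := exists_conj_mem_centralizer_sylow d P
      exact conj_mem_Cx_conj.1 (mem_Cx'.2 (hg _ (m1 _ (hc g) (hu.conj g))))
  have m3 : ∀ a, IsPElt p a → a ∈ (P : Subgroup G) := fun a e => m1 a (m2 a e) e
  have uq : ∀ Q : Sylow p G, (P : Subgroup G) ≤ Q := fun Q =>
    (Q.3 P.2 fun a ha => m3 a (isPElt_of_mem Q.2 ha)).le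
  have pw : ∀ a ∈ (P : Subgroup G), ¬ (P : Subgroup G) ≤ Cx⟦a⟧ → ∃ j, cs⟦a⟧ = p ^ j := fun a ha n => by
    have d : p ∣ cs⟦a⟧ := by
      by_contra d
      obtain ⟨Q, hQ⟩ := not_dvd_cs_iff.1 d
      exact n ((uq Q).trans hQ)
    have k := h a ((isPElt_of_mem P.2 ha).dvd_orderOf (by rintro rfl; exact n (Cx_one (G := G) ▸ le_top))) d
    refine ⟨_, Nat.eq_prime_pow_of_unique_prime_dvd (cs_ne_zero a) fun {q} hq dq => ?_⟩
    by_contra ne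
    have := Fact.mk hq
    obtain ⟨Q, hQ⟩ := not_dvd_cs_iff.1 ((hq.coprime_iff_not_dvd).1 (k.coprime_dvd_left dq))
    refine not_dvd_cs_iff.2 ⟨Q, fun w hw => ?_⟩ dq
    have o := H79.not_dvd_orderOf_of_isPElt_ne pp.out hq ne (isPElt_of_mem Q.2 hw)
    obtain ⟨R, hR⟩ := not_dvd_cs_iff.1 (reg w (hQ hw) o)
    rw [Cx_mul_of_coprime (mem_Cx_iff_commute.1 (hQ hw)) (coprime_orderOf hu o)] at hR
    exact mem_Cx_comm.1 (hR (uq R ha)).2
  refine hz (Cx_eq_top_iff.1 (eq_top_of_forall_isPElt fun q w hq hw => ?_))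
  by_cases e : q = p
  · exact m2 w (e ▸ hw)
  have := Fact.mk hq
  refine mem_Cx_comm.1 (subgroupOf_eq_top.1 ?_ (m3 u hu))
  by_contra ne
  obtain ⟨M, le, nM, -, hM⟩ := H5.exists_le_normal_index_eq P.2 ne
  have k : ∀ a : (P : Subgroup G), a ∉ M → (P : Subgroup G) ≤ Cx⟦(a : G)⟧ := fun a n => by
    by_contra n'
    obtain ⟨j, hj⟩ := pw a a.2 n'
    obtain ⟨Q, hQ⟩ := hw.exists_sylow
    obtain ⟨g, hg⟩ := exists_conj_mem_centralizer_sylow (x := (a : G))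
      (fun d => e (Nat.prime_eq_prime_of_dvd_pow hq pp.out (hj ▸ d))) Q
    obtain ⟨y, hy, e'⟩ := exists_sylow_conj_eq P hj g
    have k := hg w hQ
    rw [e'] at k
    have := nM.mem_comm (le (show (⟨y, hy⟩ * a * ⟨y, hy⟩⁻¹ : (P : Subgroup G)) ∈ (Cx⟦w⟧).subgroupOf P from mem_Cx'.2 k))
    exact n (by simpa using this)
  obtain ⟨a, -, ha⟩ := SetLike.exists_of_lt (lt_top_iff_ne_top.2 hM.1)
  have n : ¬ (P : Subgroup G) ≤ Cx⟦v⟧ := fun l => not_dvd_index_of_sylow_le P l h2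
  have vM : (⟨v, m3 v hv⟩ : (P : Subgroup G)) ∈ M := by_contra fun e => n (k _ e)
  refine n fun b hb => mem_Cx_comm.1 ((mul_mem_cancel_right (mem_Cx_comm.1 (k a ha hb))).1
    (mem_Cx_comm.1 (k (⟨v, m3 v hv⟩ * a) (fun e => ha ((mul_mem_cancel_left vM).1 e)) hb)))

theorem half (hZ : ¬ p ∣ Nat.card (center G)) {u v : G} (hu : orderOf u = p) (hv : orderOf v = p)
    (h : ∀ z : G, p ∣ orderOf z → (cs⟦z⟧).Coprime cs⟦u⟧ ∨ (cs⟦z⟧).Coprime cs⟦v⟧) (c : (cs⟦v⟧).Coprime cs⟦u⟧)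
    (h1 : (cs⟦v * u⟧).Coprime cs⟦u⟧) : False := by
  have hu' : IsPElt p u := ⟨1, by simp [hu]⟩
  have u1 : u ≠ 1 := by rintro rfl; exact pp.out.one_lt.ne (by simpa using hu)
  have nz : u ∉ center G := fun e => hZ (hu ▸ orderOf_dvd_natCard _ e)
  obtain ⟨N, _, d, hN⟩ := H78.QBaer.exists_normal_of_coprime c (Nat.le_of_dvd (cs_pos v)
    (h1.dvd_of_dvd_mul_right (index_inf_of_coprime c ▸ index_dvd_of_le (inf_le_Cx_mul v u))))
  have l := le_Cx_of_normal_of_coprime (c.coprime_dvd_left d)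
  have hc : ∀ g, g * u * g⁻¹ ∈ Cx⟦u⟧ := fun g => (mul_mem_cancel_right (inv_mem (self_mem_Cx u))).1 (l (hN g))
  obtain ⟨g, hg⟩ : ∃ g, g * u * g⁻¹ * u⁻¹ ≠ 1 := by
    by_contra! e
    exact nz (mem_center_iff.2 fun g => by simpa [mul_inv_eq_iff_eq_mul] using e g)
  have pv : p ∣ cs⟦v⟧ := ((((hu'.conj g).mul hu'.inv (mem_Cx_iff_commute'.1 (hc g)).inv_right).dvd_orderOf hg).trans
    (orderOf_dvd_natCard _ (hN g))).trans d
  exact nz (key hu' u1 (pp.out.coprime_iff_not_dvd.1 (c.coprime_dvd_left pv)) hc (fun z o e => (h z o).resolve_right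
    fun k => pp.out.not_dvd_one (k.gcd_eq_one ▸ Nat.dvd_gcd e pv)) ⟨1, by simp [hv]⟩ pv)

theorem link (hZ : ¬ p ∣ Nat.card (center G)) {x y : G} (hx : p ∣ orderOf x) (hy : p ∣ orderOf y) :
    ∃ z : G, p ∣ orderOf z ∧ ¬ (cs⟦z⟧).Coprime cs⟦x⟧ ∧ ¬ (cs⟦z⟧).Coprime cs⟦y⟧ := by
  by_contra! h
  have hu := orderOf_pow_orderOf_div (orderOf_pos x).ne' hx
  have hv := orderOf_pow_orderOf_div (orderOf_pos y).ne' hy
  have h' : ∀ z : G, p ∣ orderOf z → (cs⟦z⟧).Coprime cs⟦x ^ (orderOf x / p)⟧ ∨ (cs⟦z⟧).Coprime cs⟦y ^ (orderOf y / p)⟧ :=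
    fun z o => (or_iff_not_imp_left.2 (h z o)).imp (fun e => Nat.Coprime.coprime_dvd_right (cs_pow_dvd _ _) e)
      fun e => Nat.Coprime.coprime_dvd_right (cs_pow_dvd _ _) e
  generalize x ^ (orderOf x / p) = u at *
  generalize y ^ (orderOf y / p) = v at *
  have hu' : IsPElt p u := ⟨1, by simp [hu]⟩
  have hv' : IsPElt p v := ⟨1, by simp [hv]⟩
  have nz : ¬ (cs⟦v⟧).Coprime cs⟦v⟧ := fun e =>
    hZ (hv ▸ orderOf_dvd_natCard _ (cs_eq_one_iff.1 ((Nat.coprime_self _).1 e)))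
  have c := (h' v hv.symm.dvd).resolve_right nz
  have cm : v * u = u * v := by
    by_cases d : p ∣ cs⟦u⟧
    · exact mem_Cx'.1 (comm hv' hu' (pp.out.coprime_iff_not_dvd.1 (c.symm.coprime_dvd_left d)) c.symm)
    · exact mem_Cx.1 (comm hu' hv' d c)
  rcases h' (v * u) ((hv'.mul hu' cm).dvd_orderOf fun e => nz (by
    rwa [← mul_eq_one_iff_inv_eq.1 e, cs_inv] at c)) with e | e
  · exact half hZ hu hv h' c e
  · exact half hZ hv hu (fun z o => (h' z o).symm) c.symm (cm ▸ e)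

end

/-- Let `G` be a finite group and `p` a prime not dividing the order of the centre of `G`. Consider the primes dividing the size of some conjugacy class of a `p`-singular element (an element of order divisible by `p`), two of them adjacent when their product divides such a class size. Then any two distinct such primes are joined by a path with at most 3 edges (the graph is connected of diameter at most 3). -/
theorem result {G : Type*} [Group G] [Finite G] (p : ℕ) [Fact p.Prime]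
    (hZ : ¬ p ∣ Nat.card ↥(Subgroup.center G)) (r s : ℕ) (hr : (r.Prime ∧ ∃ x : G, p ∣ orderOf x ∧ r ∣ (Subgroup.centralizer ({x} : Set G)).index)) (hs : (s.Prime ∧ ∃ x : G, p ∣ orderOf x ∧ s ∣ (Subgroup.centralizer ({x} : Set G)).index)) (hrs : r ≠ s) :
    (∃ x : G, p ∣ orderOf x ∧ r * s ∣ (Subgroup.centralizer ({x} : Set G)).index) ∨ (∃ t : ℕ, (t.Prime ∧ ∃ x : G, p ∣ orderOf x ∧ t ∣ (Subgroup.centralizer ({x} : Set G)).index) ∧ t ≠ r ∧ t ≠ s ∧ (∃ x : G, p ∣ orderOf x ∧ r * t ∣ (Subgroup.centralizer ({x} : Set G)).index) ∧ (∃ x : G, p ∣ orderOf x ∧ t * s ∣ (Subgroup.centralizer ({x} : Set G)).index)) ∨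
      (∃ t u : ℕ, (t.Prime ∧ ∃ x : G, p ∣ orderOf x ∧ t ∣ (Subgroup.centralizer ({x} : Set G)).index) ∧ (u.Prime ∧ ∃ x : G, p ∣ orderOf x ∧ u ∣ (Subgroup.centralizer ({x} : Set G)).index) ∧ t ≠ r ∧ u ≠ s ∧ t ≠ u ∧ (∃ x : G, p ∣ orderOf x ∧ r * t ∣ (Subgroup.centralizer ({x} : Set G)).index) ∧ (∃ x : G, p ∣ orderOf x ∧ t * u ∣ (Subgroup.centralizer ({x} : Set G)).index) ∧ (∃ x : G, p ∣ orderOf x ∧ u * s ∣ (Subgroup.centralizer ({x} : Set G)).index)) := by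
  obtain ⟨pr, x, hx, rx⟩ := hr
  obtain ⟨ps, y, hy, sy⟩ := hs
  obtain ⟨z, hz, h1, h2⟩ := link hZ hx hy
  obtain ⟨t, pt, tz, tx⟩ := Nat.Prime.not_coprime_iff_dvd.1 h1
  obtain ⟨w, pw, wz, wy⟩ := Nat.Prime.not_coprime_iff_dvd.1 h2
  have m : ∀ {a b n : ℕ}, a.Prime → b.Prime → a ≠ b → a ∣ n → b ∣ n → a * b ∣ n := fun ha hb ne =>
    ((Nat.coprime_primes ha hb).2 ne).mul_dvd_of_dvd_of_dvd
  by_cases e1 : s ∣ cs⟦x⟧
  · exact .inl ⟨x, hx, m pr ps hrs rx e1⟩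
  by_cases e2 : r ∣ cs⟦y⟧
  · exact .inl ⟨y, hy, m pr ps hrs e2 sy⟩
  have ts : t ≠ s := fun e => e1 (e ▸ tx)
  have wr : w ≠ r := fun e => e2 (e ▸ wy)
  rcases eq_or_ne t r with rfl | tr <;> rcases eq_or_ne w s with rfl | ws
  · exact .inl ⟨z, hz, m pr ps hrs tz wz⟩
  · exact .inr (.inl ⟨w, ⟨pw, z, hz, wz⟩, wr, ws, ⟨z, hz, m pr pw wr.symm tz wz⟩, y, hy, m pw ps ws wy sy⟩)
  · exact .inr (.inl ⟨t, ⟨pt, z, hz, tz⟩, tr, ts, ⟨x, hx, m pr pt tr.symm rx tx⟩, z, hz, m pt ps ts tz wz⟩)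
  rcases eq_or_ne t w with rfl | tw
  · exact .inr (.inl ⟨t, ⟨pt, z, hz, tz⟩, tr, ts, ⟨x, hx, m pr pt tr.symm rx tx⟩, y, hy, m pt ps ts wy sy⟩)
  · exact .inr (.inr ⟨t, w, ⟨pt, z, hz, tz⟩, ⟨pw, z, hz, wz⟩, tr, ws, tw, ⟨x, hx, m pr pt tr.symm rx tx⟩,
      ⟨z, hz, m pt pw tw tz wz⟩, y, hy, m pw ps ws wy sy⟩)

end Cfsg.Agent.S4321
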