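import Mathlib
import Cfsg.Agent.Lib.LargeExtra.Types
import Cfsg.Statements.S4416
-- import your own Cfsg.Agent.* helpers here

set_option autoImplicit false
open Cfsg

namespace Cfsg.Agent.S4416


/-- Classification of extraspecial 2-groups in intrinsic form. An extraspecial 2-group has order 2^(2m+1) for some m ≥ 1, and the number of its elements squaring to the identity is either 2^(2m) + 2^m or 2^(2m) − 2^m; two extraspecial 2-groups of the same order with the same number of such elements are isomorphic. (The two cases are the central products of m dihedral groups of order 8, and of m − 1 dihedral groups with one quaternion group.) -/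
theorem result (E : Type*) [Group E] [Finite E] (hE : Cfsg.IsExtraspecial 2 E) :
    (∃ m : ℕ, 1 ≤ m ∧ Nat.card E = 2 ^ (2 * m + 1) ∧
      (Nat.card {x : E // x ^ 2 = 1} = 2 ^ (2 * m) + 2 ^ m ∨ Nat.card {x : E // x ^ 2 = 1} = 2 ^ (2 * m) - 2 ^ m)) ∧
    ∀ (E' : Type*) [Group E'] [Finite E'], Cfsg.IsExtraspecial 2 E' → Nat.card E' = Nat.card E →
      Nat.card {x : E' // x ^ 2 = 1} = Nat.card {x : E // x ^ 2 = 1} → Nonempty (E ≃* E') := by
  obtain ⟨z, hz, V, _, _, _, P, n, hq, hm, hV, hcV, hc⟩ := H95.exists_pres_of_extraspecial hE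
  have h0 := P.card_sq_eq_one
  constructor
  · refine ⟨n, hm, hc, ?_⟩
    by_cases h : H66.IsPlusType P.q
    · left
      rw [H95.gauss_of_plus hq hV h, hcV] at h0
      exact_mod_cast h0
    · right
      rw [H95.gauss_of_not_plus hq hV h, hcV] at h0
      have : Nat.card {x : E // x ^ 2 = 1} + 2 ^ n = 2 ^ (2 * n) := by
        zify
        rw [h0]; push_cast; ring
      omega
  · intro E' _ _ hE' hc' hr
    obtain ⟨z', hz', V', _, _, _, P', m', hq', -, hV', hcV', hc''⟩ := H95.exists_pres_of_extraspecial hE'
    obtain rfl : n = m' := by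
      have := Nat.pow_right_injective le_rfl (hc.symm.trans (hc'.symm.trans hc''))
      omega
    have h1 := P'.card_sq_eq_one
    rw [hr, h0, hcV, hcV', add_right_inj] at h1
    have hp : (0 : ℤ) < 2 ^ n := by positivity
    obtain ⟨Φ, hΦ⟩ := H66.exists_equiv_of_isPlusType_iff hq hq' hV hV' (by
      by_cases h : H66.IsPlusType P.q <;> by_cases h' : H66.IsPlusType P'.q
      · simp [h, h']
      · rw [H95.gauss_of_plus hq hV h, H95.gauss_of_not_plus hq' hV' h'] at h1
        linarith
      · rw [H95.gauss_of_not_plus hq hV h, H95.gauss_of_plus hq' hV' h'] at h1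
        linarith
      · simp [h, h'])
    obtain ⟨φ, -⟩ := P.exists_equiv P' Φ hΦ
    exact ⟨φ⟩


end Cfsg.Agent.S4416
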