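import Cfsg.Statements.S4425
import Mathlib
import Cfsg.Agent.Base
import Cfsg.Agent.Lib.Block.Height

set_option autoImplicit false
open Cfsg

namespace Cfsg.Agent.S4425

/-- Let χ be an irreducible character of the finite group G, p a prime, p^a the p-part of the order of G and p^b the p-part of the degree χ(1). Let χ̃ be the class function equal to p^a · χ on p-regular elements and zero on p-singular elements. Then p^(−b) · χ̃ is a generalized character of G, while p^(−(b+1)) · χ̃ is not. -/
theorem result {G : Type*} [Group G] [Finite G] (p : ℕ) [Fact p.Prime] (χ : Cfsg.IrrCharacter G) : Cfsg.IsGeneralizedCharacter G (fun x : G => if p ∣ orderOf x then (0 : ℂ) else ((p ^ ((Nat.card G).factorization p - (Cfsg.charDegree (χ : G → ℂ)).factorization p) : ℕ) : ℂ) * (χ : G → ℂ) x) ∧ ¬ Cfsg.IsGeneralizedCharacter G (fun x : G => if p ∣ orderOf x then (0 : ℂ) else ((p ^ (Nat.card G).factorization p : ℕ) : ℂ) / ((p ^ ((Cfsg.charDegree (χ : G → ℂ)).factorization p + 1) : ℕ) : ℂ) * (χ : G → ℂ) x) := by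
  classical
  have := Fintype.ofFinite G
  have hp0 := H84.cast_p_ne_zero (p := p)
  have hle := H84.deg_factorization_le p χ
  rw [H84.tilde_eq, H84.tilde_eq]
  constructor
  · refine H6.isGen_of_inner (H6.isClassFunction_smul _
      (H84.isClassFunction_reg (H84.irr_class χ))) fun ψ hψ => ?_
    obtain ⟨t, ht⟩ := H84.pow_dvd_tl (p := p) χ (H6.irr_isGen hψ)
    refine ⟨t, ?_⟩
    have h1 := H84.cast_tl (p := p) (H84.irr_gen χ) (H6.irr_isGen hψ)
    rw [ht, ← Nat.add_sub_cancel' hle, pow_add, mul_assoc] at h1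
    push_cast at h1
    rw [H7.classInner_smul_left, mul_left_cancel₀ (pow_ne_zero _ hp0) h1]
    simp
  · intro h
    obtain ⟨ψ, hψ⟩ := H84.exists_not_pow_succ_dvd_tl (p := p) χ
    obtain ⟨t, ht⟩ := H6.gen_inner_int h (H84.irr_gen ψ)
    refine hψ ⟨t, Int.cast_injective (α := ℂ) ?_⟩
    rw [H84.cast_tl (H84.irr_gen χ) (H84.irr_gen ψ)]
    rw [H7.classInner_smul_left] at ht
    push_cast at ht ⊢
    rw [← ht]
    field_simp

end Cfsg.Agent.S4425
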