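import Cfsg.Statements.S4426
import Mathlib
import Cfsg.Agent.Base
import Cfsg.Agent.Lib.Block.Height

set_option autoImplicit false
open Cfsg

namespace Cfsg.Agent.S4426

/-- Let χ be an irreducible character in the p-block B of the finite group G (relative to a maximal ideal M of the algebraic integers containing p), let p^a be the p-part of the order of G, and let χ̃ be the class function equal to p^a · χ on p-regular elements and zero elsewhere. For ξ ∈ B the inner product [χ̃, ξ] is an integer. The following are equivalent: (a) χ has height zero in B; (b) for some ξ ∈ B the integer [χ̃, ξ] is nonzero and the exact power of p dividing it equals the exact power of p dividing ξ(1); (c) the same holds for every ξ ∈ B. -/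
theorem result {G : Type*} [Group G] [Fintype G] (p : ℕ) [Fact p.Prime] (M : Ideal Cfsg.AlgInt) (hM : Cfsg.IsPModular p M) (B : Set (Cfsg.IrrCharacter G)) (hB : Cfsg.IsPBlock M B) (χ : Cfsg.IrrCharacter G) (hχ : χ ∈ B) : (Cfsg.blockHeight p B (χ : G → ℂ) = 0 ↔ ∃ ξ ∈ B, ∃ n : ℤ, Cfsg.classInner (fun x : G => if p ∣ orderOf x then (0 : ℂ) else ((p ^ (Nat.card G).factorization p : ℕ) : ℂ) * (χ : G → ℂ) x) (ξ : G → ℂ) = (n : ℂ) ∧ n ≠ 0 ∧ padicValInt p n = (Cfsg.charDegree (ξ : G → ℂ)).factorization p) ∧ (Cfsg.blockHeight p B (χ : G → ℂ) = 0 ↔ ∀ ξ ∈ B, ∃ n : ℤ, Cfsg.classInner (fun x : G => if p ∣ orderOf x then (0 : ℂ) else ((p ^ (Nat.card G).factorization p : ℕ) : ℂ) * (χ : G → ℂ) x) (ξ : G → ℂ) = (n : ℂ) ∧ n ≠ 0 ∧ padicValInt p n = (Cfsg.charDegree (ξ : G → ℂ)).factorization p) := by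
  classical
  have := H33.isMaximal_of hM
  have hp : p.Prime := Fact.out
  have key : ∀ ξ ∈ B, (∃ n : ℤ, Cfsg.classInner (fun x : G => if p ∣ orderOf x then (0 : ℂ) else ((p ^ (Nat.card G).factorization p : ℕ) : ℂ) * (χ : G → ℂ) x) (ξ : G → ℂ) = (n : ℂ) ∧ n ≠ 0 ∧ padicValInt p n = (Cfsg.charDegree (ξ : G → ℂ)).factorization p) ↔ Cfsg.blockHeight p B (χ : G → ℂ) = 0 := by
    intro ξ hξ
    rw [← H84.not_dvd_tl_iff_height hM hB hξ hχ, H84.tilde_eq, H7.classInner_smul_left,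
      H84.tl_comm (H84.irr_gen ξ) (H84.irr_gen χ)]
    have h1 := H84.cast_tl (p := p) (H84.irr_gen χ) (H84.irr_gen ξ)
    have h2 := H84.pow_dvd_tl (p := p) ξ (H84.irr_gen χ)
    rw [H84.tl_comm (H84.irr_gen ξ) (H84.irr_gen χ)] at h2
    push_cast
    rw [← h1]
    constructor
    · rintro ⟨n, hn, hn0, hv⟩
      rw [Int.cast_injective hn, padicValInt_dvd_iff]
      omega
    · intro h
      rw [padicValInt_dvd_iff] at h h2
      exact ⟨_, rfl, by omega, by omega⟩
  refine ⟨⟨fun h => ⟨χ, hχ, (key χ hχ).2 h⟩, fun ⟨ξ, hξ, h⟩ => (key ξ hξ).1 h⟩,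
    ⟨fun h ξ hξ => (key ξ hξ).2 h, fun h => (key χ hχ).1 (h χ hχ)⟩⟩

end Cfsg.Agent.S4426
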