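import Mathlib
import Cfsg.Statements.S4427
import Cfsg.Agent.Lib.Jordan.ProjCover
-- import your own Cfsg.Agent.* helpers here

set_option autoImplicit false
set_option linter.style.haveILetI false
set_option linter.unusedVariables false
open Cfsg

namespace Cfsg.Agent.S4427

/-- Let G be a finite group of order p^a · q^b · r^c with p, q, r distinct primes, and suppose that G has exactly q^b · r^c elements of order not divisible by p. Then G has a normal p-complement: a normal subgroup of order q^b · r^c. -/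
theorem result {G : Type*} [Group G] [Finite G] (p q r a b c : ℕ) (hp : p.Prime) (hq : q.Prime) (hr : r.Prime) (hpq : p ≠ q) (hpr : p ≠ r) (hqr : q ≠ r) (hG : Nat.card G = p ^ a * q ^ b * r ^ c) (hcount : Nat.card {g : G // ¬ p ∣ orderOf g} = q ^ b * r ^ c) : ∃ N : Subgroup G, N.Normal ∧ Nat.card N = q ^ b * r ^ c := by
  haveI := Fact.mk hq
  haveI := Fact.mk hr
  obtain ⟨Q, hQ⟩ := Sylow.exists_subgroup_card_pow_prime (G := G) q (n := b)
    (by rw [hG]; exact (Dvd.intro_left _ rfl).mul_right _)
  obtain ⟨R, hR⟩ := Sylow.exists_subgroup_card_pow_prime (G := G) r (n := c)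
    (by rw [hG]; exact Dvd.intro_left _ rfl)
  obtain ⟨N, hN, hN'⟩ := H31.exists_normal_of_card_pRegular hp Q R
    (by rw [hQ]; exact fun h => hpq ((Nat.prime_dvd_prime_iff_eq hp hq).1 (hp.dvd_of_dvd_pow h)))
    (by rw [hR]; exact fun h => hpr ((Nat.prime_dvd_prime_iff_eq hp hr).1 (hp.dvd_of_dvd_pow h)))
    (by rw [hQ, hR]; exact Nat.Coprime.pow _ _ ((Nat.coprime_primes hq hr).2 hqr))
    (by rw [hQ, hR, hcount])
  refine ⟨N, hN, ?_⟩
  rw [← hcount]
  exact Nat.card_congr (Equiv.subtypeEquivRight hN')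

end Cfsg.Agent.S4427
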