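import Cfsg.Statements.S4431
import Mathlib
import Cfsg.Agent.Base
import Cfsg.Agent.Lib.Block.HeightBF

set_option autoImplicit false
open Cfsg

namespace Cfsg.Agent.S4431

/-- Let H be a subgroup of the finite group G and b a block of H whose induced block B₀ in G is defined (relative to a maximal ideal M of the algebraic integers containing p). Let χ be an irreducible character of G, ψ ∈ b, and let η be the class function on H equal to p^a · χ on the p-regular elements of H and zero elsewhere, p^a being the p-part of the order of H. Then (a) if χ ∉ B₀, the number [η, ψ]/ψ(1) lies in the local ideal at M; (b) if χ ∈ B₀ has height zero, it does not. -/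
theorem result {G : Type*} [Group G] [Fintype G] (p : ℕ) [Fact p.Prime] (M : Ideal Cfsg.AlgInt) (hM : Cfsg.IsPModular p M) (H : Subgroup G) [Fintype H] (b : Set (Cfsg.IrrCharacter H)) (B₀ : Set (Cfsg.IrrCharacter G)) (hind : Cfsg.IsInducedBlock M H b B₀) (χ : Cfsg.IrrCharacter G) (ψ : Cfsg.IrrCharacter H) (hψ : ψ ∈ b) : (χ ∉ B₀ → Cfsg.MemLocalIdeal M (Cfsg.classInner (fun h : H => if p ∣ orderOf h then (0 : ℂ) else ((p ^ (Nat.card H).factorization p : ℕ) : ℂ) * (χ : G → ℂ) h) (ψ : H → ℂ) / (ψ : H → ℂ) 1)) ∧ (χ ∈ B₀ → Cfsg.blockHeight p B₀ (χ : G → ℂ) = 0 → ¬ Cfsg.MemLocalIdeal M (Cfsg.classInner (fun h : H => if p ∣ orderOf h then (0 : ℂ) else ((p ^ (Nat.card H).factorization p : ℕ) : ℂ) * (χ : G → ℂ) h) (ψ : H → ℂ) / (ψ : H → ℂ) 1)) := by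
  have := H33.isMaximal_of hM
  have hg : IsGeneralizedCharacter H fun h : H => (χ : G → ℂ) h :=
    H6.isGen_restrict H (H84.irr_gen χ)
  have hm := H33.red_natCast_ne_zero hM (H84.not_dvd_mpart (p := p) H)
  have key : Cfsg.classInner (fun h : H => if p ∣ orderOf h then (0 : ℂ) else ((p ^ (Nat.card H).factorization p : ℕ) : ℂ) * (χ : G → ℂ) h) (ψ : H → ℂ) / (ψ : H → ℂ) 1 = H84.regA p (ψ : H → ℂ) (fun h : H => (χ : G → ℂ) h) / (H84.mpart p H : ℂ) := by
    rw [H84.tilde_eq _ (fun h : H => (χ : G → ℂ) h), H6.classInner_smul_left, H84.regA_eq,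
      H84.inner_reg_symm hg (H84.irr_gen ψ), H84.cast_card_eq p H]
    have := H33.ne_zero_of_red_ne_zero hm
    push_cast
    field_simp
  have hO := H84.regA_mem_O (M := M) (p := p) ψ hg
  rw [key, H33.memLocalIdeal_iff_red (H33.div_mem_O hO hm), H33.red_div hO hm]
  refine ⟨fun h => ?_, fun h h0 => ?_⟩
  · rw [H84.red_regA_res_eq_zero hM hind hψ h, zero_div]
  · exact div_ne_zero ((H84.red_regA_res_ne_zero_iff hM hind hψ h).2 h0)
      hm

end Cfsg.Agent.S4431
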