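import Cfsg.Statements.S4434
import Mathlib
import Cfsg.Agent.Base
import Cfsg.Agent.Lib.Block.Inert

set_option autoImplicit false
open Cfsg

namespace Cfsg.Agent.S4434

/-- Let N be a normal p-subgroup of the finite group G and write Ḡ = G/N; fix a maximal ideal M of the algebraic integers containing p. Then every block B of G contains a block B̄ of Ḡ (the inflation of every member of B̄ lies in B) whose defect groups are exactly the images in Ḡ of the defect groups of B. -/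
theorem result {G : Type*} [Group G] [Finite G] (p : ℕ) [Fact p.Prime] (M : Ideal Cfsg.AlgInt) (hM : Cfsg.IsPModular p M) (N : Subgroup G) [N.Normal] (hN : IsPGroup p N) (B : Set (Cfsg.IrrCharacter G)) (hB : Cfsg.IsPBlock M B) : ∃ Bbar : Set (Cfsg.IrrCharacter (G ⧸ N)), Cfsg.IsPBlock M Bbar ∧ (∀ χ ∈ Bbar, ∀ ψ : Cfsg.IrrCharacter G, (ψ : G → ℂ) = (χ : G ⧸ N → ℂ) ∘ QuotientGroup.mk → ψ ∈ B) ∧ ∀ Dbar : Subgroup (G ⧸ N), Cfsg.IsDefectGroup p M Bbar Dbar ↔ ∃ P : Subgroup G, Cfsg.IsDefectGroup p M B P ∧ Dbar = P.map (QuotientGroup.mk' N) := by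
  haveI := hM.2.1
  haveI := H33.charP hM
  obtain ⟨P, hP⟩ := (H86.isBlk_eB hB).exists_isDef p
  obtain ⟨Bb, hBb, hsub, hD⟩ := H35.exists_quot_block hM hN hB ((H86.isDefectGroup_iff hB P).mpr hP)
  refine ⟨Bb, hBb, fun χ hχ ψ e => ?_, fun D => ⟨fun h => ?_, ?_⟩⟩
  · have : ψ = H35.infl N χ := Subtype.ext e
    rw [this]
    exact hsub χ hχ
  · obtain ⟨k, -, rfl⟩ := ((H86.isDefectGroup_iff hBb _).mp hD).conj
      ((H86.isDefectGroup_iff hBb _).mp h)
    obtain ⟨g, rfl⟩ := QuotientGroup.mk'_surjective N k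
    exact ⟨H86.cs g P, (H86.isDefectGroup_iff hB _).mpr
      (hP.cs (H86.isBlk_eB hB).inv (Subgroup.mem_top g)), (H86.map_cs _ g P).symm⟩
  · rintro ⟨P', hP', rfl⟩
    obtain ⟨k, -, rfl⟩ := hP.conj ((H86.isDefectGroup_iff hB _).mp hP')
    rw [H86.map_cs, H86.isDefectGroup_iff hBb]
    exact ((H86.isDefectGroup_iff hBb _).mp hD).cs (H86.isBlk_eB hBb).inv (Subgroup.mem_top _)

end Cfsg.Agent.S4434
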