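import Mathlib
import Cfsg.Statements.S4440
import Cfsg.Agent.Lib.Block.FongSwan

set_option autoImplicit false
open Cfsg

namespace Cfsg.Agent.S4440

open ComplexConjugate

theorem inner_eq_zero {G : Type*} [Group G] [Fintype G] {p : ℕ} [Fact p.Prime]
    (hFS : LinearIndepOn ℂ id (H34.IPart p (Set.univ : Set (IrrCharacter G))))
    (U : Set (IrrCharacter G))
    (hU : ∀ x : G, p ∣ orderOf x → ∑ᶠ χ ∈ U, (χ : G → ℂ) 1 * (χ : G → ℂ) x = 0)
    {χ ψ : IrrCharacter G} (hχ : χ ∈ U) (hψ : ψ ∉ U) :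
    classInner (pRegularPart p (ψ : G → ℂ)) χ = 0 := by
  classical
  set α : G → ℂ := ∑ ξ ∈ H84.bset U, (ξ : G → ℂ) 1 • (ξ : G → ℂ) with hα
  have hreg : pRegularPart p α = α := H84.reg_eq_self fun g hg => by
    rw [← hU g hg, H84.finsum_mem_eq, hα]; simp
  have hn : ∀ ξ : IrrCharacter G, classInner (pRegularPart p (ξ : G → ℂ)) α =
      if ξ ∈ U then (ξ : G → ℂ) 1 else 0 := fun ξ => by
    rw [H84.inner_reg_comm, hreg, ← H7.conj_classInner, hα,
      H84.inner_sum_bset U (fun ξ => (ξ : G → ℂ) 1) ξ]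
    split_ifs
    · exact H84.conj_irr_one ξ
    · exact map_zero _
  set I1 := H34.IPart p U
  set I0 := H34.IPart p Uᶜ
  have hI : H34.IPart p (Set.univ : Set (IrrCharacter G)) = I1 ∪ I0 := by
    ext f
    constructor
    · rintro ⟨φ, -, h1, h2⟩
      by_cases h : φ ∈ U
      · exact Or.inl ⟨φ, h, h1, h2⟩
      · exact Or.inr ⟨φ, h, h1, h2⟩
    · rintro (⟨φ, -, h1, h2⟩ | ⟨φ, -, h1, h2⟩) <;> exact ⟨φ, trivial, h1, h2⟩
  have c1 : ∀ g ∈ AddSubmonoid.closure I1, classInner g α = g 1 := by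
    intro g hg
    induction hg using AddSubmonoid.closure_induction with
    | mem f hf => obtain ⟨φ, h, -, rfl⟩ := hf; rw [hn, if_pos h, H84.reg_one]
    | zero => exact H7.classInner_zero_left _
    | add a b _ _ ha hb => rw [H7.classInner_add_left, ha, hb, Pi.add_apply]
  have c0 : ∀ g ∈ AddSubmonoid.closure I0, classInner g α = 0 := by
    intro g hg
    induction hg using AddSubmonoid.closure_induction with
    | mem f hf => obtain ⟨φ, h, -, rfl⟩ := hf; rw [hn, if_neg h]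
    | zero => exact H7.classInner_zero_left _
    | add a b _ _ ha hb => rw [H7.classInner_add_left, ha, hb, add_zero]
  have cz : ∀ (A : Set (IrrCharacter G)), ∀ g ∈ AddSubmonoid.closure (H34.IPart p A),
      g 1 = 0 → g = 0 := by
    intro A g hg h1
    obtain ⟨β, hβ, rfl⟩ := H34.exists_char_of_mem_closure hg
    rw [H84.reg_one] at h1
    rw [H6.char_eq_zero_of_one hβ h1, H84.reg_zero]
  have hdisj : Disjoint (Submodule.span ℂ I1) (Submodule.span ℂ I0) := by
    refine ((linearIndepOn_id_union_iff ?_).1 (hI ▸ hFS)).2.2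
    rw [Set.disjoint_left]
    intro f h1 h0
    have := (c1 f (AddSubmonoid.subset_closure h1)).symm.trans
      (c0 f (AddSubmonoid.subset_closure h0))
    obtain ⟨φ, -, -, rfl⟩ := h1
    rw [H84.reg_one] at this
    exact H84.irr_one_ne_zero φ this
  have hle : ∀ I : Set (G → ℂ), ∀ g ∈ AddSubmonoid.closure I, g ∈ Submodule.span ℂ I :=
    fun I g hg => (AddSubmonoid.closure_le (S := (Submodule.span ℂ I).toAddSubmonoid)).2
      Submodule.subset_span hg
  have hdec : ∀ ξ : IrrCharacter G, ∃ a ∈ AddSubmonoid.closure I1, ∃ b ∈ AddSubmonoid.closure I0,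
      a + b = pRegularPart p (ξ : G → ℂ) := fun ξ => by
    have := H34.reg_mem_closure (p := p) (H84.irr_char ξ)
    rwa [hI, AddSubmonoid.closure_union, AddSubmonoid.mem_sup] at this
  have m1 : ∀ ξ ∈ U, pRegularPart p (ξ : G → ℂ) ∈ Submodule.span ℂ I1 := fun ξ hξ => by
    obtain ⟨a, ha, b, hb, e⟩ := hdec ξ
    have h1 := hn ξ
    rw [if_pos hξ, ← H84.reg_one (p := p) (ξ : G → ℂ), ← e, H7.classInner_add_left, c1 a ha, c0 b hb,
      Pi.add_apply, add_right_inj] at h1
    rw [← e, cz _ b hb h1.symm, add_zero]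
    exact hle _ a ha
  have m0 : ∀ ξ ∉ U, pRegularPart p (ξ : G → ℂ) ∈ Submodule.span ℂ I0 := fun ξ hξ => by
    obtain ⟨a, ha, b, hb, e⟩ := hdec ξ
    have h1 := hn ξ
    rw [if_neg hξ, ← e, H7.classInner_add_left, c1 a ha, c0 b hb, add_zero] at h1
    rw [← e, cz _ a ha h1, zero_add]
    exact hle _ b hb
  set f := pRegularPart p (ψ : G → ℂ) with hf
  have hfc : IsClassFunction G f := H84.isClassFunction_reg (H84.irr_class ψ)
  have e1 : f = ∑ ξ : IrrCharacter G, classInner f ξ • pRegularPart p (ξ : G → ℂ) := by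
    conv_lhs => rw [hf, ← H84.reg_reg, ← hf, H6.classFun_eq_sum_irr hfc, H84.reg_sum]
    exact Finset.sum_congr rfl fun ξ _ => H84.reg_smul _ _
  rw [← Finset.sum_filter_add_sum_filter_not Finset.univ (· ∈ U)] at e1
  have hA : ∑ ξ ∈ Finset.univ.filter (· ∈ U), classInner f ξ • pRegularPart p (ξ : G → ℂ) = 0 := by
    refine Submodule.disjoint_def.1 hdisj _ (Submodule.sum_mem _ fun ξ hξ =>
      Submodule.smul_mem _ _ (m1 ξ (Finset.mem_filter.1 hξ).2)) ?_
    rw [← sub_eq_iff_eq_add.2 e1]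
    exact Submodule.sub_mem _ (m0 ψ hψ) (Submodule.sum_mem _ fun ξ hξ =>
      Submodule.smul_mem _ _ (m0 ξ (Finset.mem_filter.1 hξ).2))
  have h2 := congrArg (fun g => classInner g (ψ : G → ℂ)) hA
  simp only [H7.classInner_sum_left, H7.classInner_smul_left, H7.classInner_zero_left] at h2
  have h3 : ∑ ξ ∈ Finset.univ.filter (· ∈ U), Complex.normSq (classInner f ξ) = 0 := by
    apply Complex.ofReal_injective
    rw [Complex.ofReal_sum, Complex.ofReal_zero, ← h2]
    refine Finset.sum_congr rfl fun ξ _ => ?_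
    rw [← Complex.mul_conj, hf, H84.conj_inner_reg]
  exact Complex.normSq_eq_zero.1 ((Finset.sum_eq_zero_iff_of_nonneg
    fun ξ _ => Complex.normSq_nonneg _).1 h3 χ (Finset.mem_filter.2 ⟨Finset.mem_univ _, hχ⟩))


/-- Let G be a finite p-solvable group and fix a maximal ideal M of the algebraic integers containing p. Let U be a set of irreducible characters of G such that the class function Σ_{χ ∈ U} χ(1)·χ vanishes at every p-singular element of G. Then U is a union of p-blocks: if χ ∈ U and ψ lies in the same block as χ, then ψ ∈ U. -/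
theorem result {G : Type*} [Group G] [Finite G] (p : ℕ) [Fact p.Prime] (M : Ideal Cfsg.AlgInt) (hM : Cfsg.IsPModular p M) (hsolv : Cfsg.IsPSolvable p G) (U : Set (Cfsg.IrrCharacter G)) (hU : ∀ x : G, p ∣ orderOf x → ∑ᶠ χ ∈ U, (χ : G → ℂ) 1 * (χ : G → ℂ) x = 0) (χ : Cfsg.IrrCharacter G) (hχ : χ ∈ U) (ψ : Cfsg.IrrCharacter G) (hψ : Cfsg.SameBlock M (χ : G → ℂ) (ψ : G → ℂ)) : ψ ∈ U := by
  haveI := hM.2.1
  haveI := Fintype.ofFinite G
  have hFS := H34.fong_swan hM G hsolv
  have hB := H84.isPBlock_blockOf (M := M) χ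
  have h1 := H84.mem_blockOf_self (M := M) χ
  have h2 : ψ ∈ blockOf M (χ : G → ℂ) := H84.mem_blockOf.2 hψ
  obtain ⟨ξ, hξ, h0⟩ := H84.exists_height_zero (p := p) (H84.block_nonempty hB)
  by_contra hn
  by_cases h : ξ ∈ U
  · exact H84.inner_reg_ne_zero_of_height hM hB h2 hξ h0 (inner_eq_zero hFS U hU h hn)
  · refine H84.inner_reg_ne_zero_of_height hM hB h1 hξ h0 ?_
    rw [← H84.conj_inner_reg, inner_eq_zero hFS U hU hχ h, map_zero]

end Cfsg.Agent.S4440
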