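import Cfsg.Statements.S4443
import Mathlib
import Cfsg.Agent.Lib.Blk86.Rob

set_option autoImplicit false
open Cfsg

namespace Cfsg.Agent.S4443

set_option linter.style.haveILetI false
set_option linter.unusedVariables false

open H86 H33
attribute [local irreducible] H33.instFieldF

/-- Let D be a normal p-subgroup of the finite group G, of order p^d, let p^a be the p-part of the order of G, and fix a Sylow p-subgroup S and a maximal ideal M of the algebraic integers containing p. Index by a finite type ι (via an injective map K) exactly the conjugacy classes of p-regular elements x of G for which D is a Sylow p-subgroup of C_G(x). For classes K_i, K_j let ω(i, j) be the number of pairs (y, z) ∈ K_i × K_j with z y⁻¹ ∈ S; this number is divisible by p^(a−d). Then the number of p-blocks of G having D as a defect group equals the rank over ℤ/pℤ of the matrix with (i, j) entry ω(i, j)/p^(a−d) reduced modulo p. -/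
theorem result {G : Type*} [Group G] [Finite G] (p : ℕ) [Fact p.Prime] (M : Ideal Cfsg.AlgInt) (hM : Cfsg.IsPModular p M) (D : Subgroup G) [D.Normal] (hD : IsPGroup p D) (S : Sylow p G) {ι : Type*} [Fintype ι] [DecidableEq ι] (K : ι → ConjClasses G) (hKinj : Function.Injective K) (hK : ∀ C : ConjClasses G, (∃ i, K i = C) ↔ ∃ x ∈ C.carrier, ¬ p ∣ orderOf x ∧ ∃ Q : Sylow p (Subgroup.centralizer ({x} : Set G)), (Q : Subgroup (Subgroup.centralizer ({x} : Set G))).map (Subgroup.centralizer ({x} : Set G)).subtype = D) : Nat.card {B : Set (Cfsg.IrrCharacter G) // Cfsg.IsPBlock M B ∧ Cfsg.IsDefectGroup p M B D} = (Matrix.of fun i j : ι => ((Nat.card {yz : G × G // yz.1 ∈ (K i).carrier ∧ yz.2 ∈ (K j).carrier ∧ yz.2 * yz.1⁻¹ ∈ (S : Subgroup G)} / p ^ ((Nat.card G).factorization p - (Nat.card D).factorization p) : ℕ) : ZMod p)).rank := by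
  classical
  haveI := isMaximal_of hM
  haveI := charP hM
  have hp : p.Prime := Fact.out
  haveI := Fintype.ofFinite (ConjClasses G)
  have hx : ∀ i, ∃ x ∈ (K i).carrier, ¬ p ∣ orderOf x ∧ IsSyl p (C1 x) D := fun i => by
    obtain ⟨x, h1, h2, Q, hQ⟩ := (hK (K i)).1 ⟨i, rfl⟩
    exact ⟨x, h1, h2, hQ ▸ isSyl_map Q⟩
  choose x hxK hxp hxS using hx
  have hxK' : ∀ i, ConjClasses.mk (x i) = K i := fun i => ConjClasses.mem_carrier_iff_mk_eq.1 (hxK i)
  have hmem : ∀ i y, y ∈ (K i).carrier ↔ IsConj (x i) y := fun i y => by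
    rw [ConjClasses.mem_carrier_iff_mk_eq, ← hxK', ConjClasses.mk_eq_mk_iff_isConj]
    exact ⟨fun h => h.symm, fun h => h.symm⟩
  simp only [hmem]
  let 𝓑 := {B : Set (IrrCharacter G) // IsPBlock M B ∧ IsDefectGroup p M B D}
  haveI : Fintype 𝓑 := Fintype.ofFinite _
  let a : Matrix ι 𝓑 (F M) := fun i B => red M (blockCoeff B.1 (x i))
  let A : Matrix 𝓑 ι (F M) := fun B j => red M (centralChar (repB B.1 : G → ℂ) (x j))
  have hAa : A * a = 1 := by
    ext B B'
    have h1 : lam M (repB B.1 : G → ℂ) (eB M B'.1) = (1 : Matrix 𝓑 𝓑 (F M)) B B' := by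
      rw [Matrix.one_apply]
      split_ifs with hBB
      · exact lam_eB_of_mem B'.2.1 (hBB ▸ repB_mem B.2.1)
      · exact lam_eB_of_not_mem B'.2.1 fun hm =>
          hBB (Subtype.ext (block_eq_of_mem B.2.1 B'.2.1 (repB_mem B.2.1) hm))
    rw [← h1, (isCent_eB (M := M) B'.1).eq_sum_classSum, map_sum, Matrix.mul_apply]
    simp only [map_smul, lam_irr_classSum, smul_eq_mul, coeff_eB]
    refine Fintype.sum_of_injective K hKinj _ _ (fun C hC => ?_) (fun i => ?_)
    · by_contra hne
      apply hC
      have h2 := left_ne_zero_of_mul hne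
      have h3 := right_ne_zero_of_mul hne
      obtain ⟨y, hy, hyC⟩ := exists_conj_mem_Cen_defect hM B.2.1 B.2.2 (repB_mem B.2.1) h3
      rw [blockCoeff_congr _ hy] at h2
      obtain ⟨Q, hQ⟩ := (isSyl_of_coeff hM B'.2.1 B'.2.2 h2 hyC).exists_sylow
      refine (hK C).2 ⟨y, ?_, not_dvd_orderOf_of_coeff_ne_zero hM (fB_mem_OG B'.2.1) h2, Q, hQ.symm⟩
      rw [ConjClasses.mem_carrier_iff_mk_eq]
      exact ((isConj_out_iff C y).1 hy).symm
    · have hc : IsConj (Quotient.out (K i)) (x i) := (isConj_out_iff _ _).2 (hxK' i).symm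
      rw [blockCoeff_congr _ hc, centralChar_congr (irr_isClassFunction _) hc, mul_comm]
  set a0 := (Nat.card G).factorization p
  set d := (Nat.card D).factorization p
  have hd : ∀ i, (Nat.card (C1 (x i))).factorization p = d := fun i => by
    simp only [d]
    rw [(hxS i).card_eq, Nat.factorization_pow_self hp]
  have hda : d ≤ a0 := by
    have := factorization_card_eq p D
    omega
  have hc : ∀ i, ∃ c : ℕ, ¬ p ∣ c ∧ Nat.card (C1 (x i)) = p ^ d * c := fun i => by
    rw [← hd i]
    exact natCast_eq_pow_mul hp Nat.card_pos.ne'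
  choose c hc hcc using hc
  have hT : ∀ i j, (robCount (S : Subgroup G) (x i) (x j) : ℂ) * c i =
      ((p ^ (a0 - d) : ℕ) : ℂ) * robT (S : Subgroup G) (x i) (x j) := fun i j => by
    have h1 := robCount_mul (S : Subgroup G) (x i) (x j)
    rw [hcc, S.card_eq_multiplicity] at h1
    have h2 : (p : ℂ) ^ d ≠ 0 := pow_ne_zero _ (Nat.cast_ne_zero.2 hp.ne_zero)
    have h3 : p ^ (Nat.card G).factorization p = p ^ d * p ^ (a0 - d) := by
      rw [← pow_add, Nat.add_sub_cancel' hda]
    rw [h3] at h1
    push_cast at h1 ⊢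
    apply mul_left_cancel₀ h2
    linear_combination h1
  have hp0 : ((p ^ (a0 - d) : ℕ) : ℂ) ≠ 0 := Nat.cast_ne_zero.2 (pow_ne_zero _ hp.ne_zero)
  have hc0 : ∀ i, (c i : ℂ) ≠ 0 := fun i => ne_zero_of_red_ne_zero (red_natCast_ne_zero hM (hc i))
  have hdvd : ∀ i j, p ^ (a0 - d) ∣ robCount (S : Subgroup G) (x i) (x j) := fun i j => by
    rcases Nat.eq_zero_or_pos (robCount (S : Subgroup G) (x i) (x j)) with h0 | h0
    · rw [h0]; exact dvd_zero _
    have h1 : (robCount (S : Subgroup G) (x i) (x j) : ℂ) / ((p ^ (a0 - d) : ℕ) : ℂ) ∈ O M := by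
      have : (robCount (S : Subgroup G) (x i) (x j) : ℂ) / ((p ^ (a0 - d) : ℕ) : ℂ) =
          robT (S : Subgroup G) (x i) (x j) * (c i : ℂ)⁻¹ := by
        have := hc0 i
        field_simp
        linear_combination hT i j
      rw [this]
      exact (O M).mul_mem (robT_mem_O _ _ _) (natCast_inv_mem_O hM (hc i))
    rw [natCast_div_mem_O_iff hM h0.ne' (pow_ne_zero _ hp.ne_zero),
      Nat.factorization_pow_self hp] at h1
    exact (hp.pow_dvd_iff_le_factorization h0.ne').2 h1
  rw [← rank_map_field (ZMod.castHom (dvd_refl p) (F M))]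
  have hW : (Matrix.of fun i j : ι => ((robCount (S : Subgroup G) (x i) (x j) / p ^ (a0 - d) : ℕ) :
      ZMod p)).map (ZMod.castHom (dvd_refl p) (F M)) =
      Matrix.diagonal (fun i => ((S : Subgroup G).index : F M) / (c i : F M)) * (a * A) := by
    ext i j
    rw [Matrix.map_apply, Matrix.of_apply, map_natCast, Matrix.diagonal_mul, Matrix.mul_apply]
    have hci : (c i : F M) ≠ 0 := fun h => hc i ((natCast_F_eq_zero_iff hM _).1 h)
    have h1 : ((robCount (S : Subgroup G) (x i) (x j) / p ^ (a0 - d) : ℕ) : ℂ) * c i =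
        robT (S : Subgroup G) (x i) (x j) := by
      apply mul_left_cancel₀ hp0
      rw [← hT, ← mul_assoc, ← Nat.cast_mul, Nat.mul_div_cancel' (hdvd i j)]
    have h2 := red_robT (M := M) (S : Subgroup G) (x i) (x j)
    rw [← h1, red_mul (natCast_mem _ _) (natCast_mem _ _), red_natCast, red_natCast] at h2
    rw [div_mul_eq_mul_div, eq_div_iff hci, h2, Finset.mul_sum]
    have h3 : ∀ B ∈ blocks M G, red M (piB (S : Subgroup G) B (x i)⁻¹) =
        ((S : Subgroup G).index : F M) * red M (blockCoeff B (x i)) := fun B hB => by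
      rw [piB_eq_blockCoeff hM (fB_mem_OG (mem_blocks.1 hB)) S (hxp i),
        red_mul (natCast_mem _ _) (blockCoeff_mem_O (mem_blocks.1 hB) _), red_natCast]
    rw [Finset.sum_congr rfl fun B hB => by rw [h3 B hB, mul_assoc]]
    rw [← Finset.sum_subtype ((blocks M G).filter fun B => IsDefectGroup p M B D)
      (p := fun B => IsPBlock M B ∧ IsDefectGroup p M B D)
      (by simp [mem_blocks]) (fun B => ((S : Subgroup G).index : F M) *
        (red M (blockCoeff B (x i)) * red M (centralChar (repB B : G → ℂ) (x j))))]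
    symm
    refine Finset.sum_subset (Finset.filter_subset _ _) fun B hB hn => ?_
    by_contra hne
    apply hn
    have hne' := right_ne_zero_of_mul hne
    have hB' := mem_blocks.1 hB
    refine Finset.mem_filter.2 ⟨hB, defect_of_centralChar hM hB' (repB_mem hB')
      (right_ne_zero_of_mul hne') (hxS j) ?_⟩
    rw [hd j, ← hd i]
    exact le_blockDefect_of_coeff hM hB' (left_ne_zero_of_mul hne')
  have hW' := hW
  simp only [robCount] at hW'
  rw [hW', Matrix.rank_mul_eq_right_of_det_ne_zero, rank_mul_of_mul_eq_one a A hAa,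
    Nat.card_eq_fintype_card]
  rw [Matrix.det_diagonal]
  refine Finset.prod_ne_zero_iff.2 fun i _ => div_ne_zero (fun h => ?_) fun h => ?_
  · exact S.not_dvd_index ((natCast_F_eq_zero_iff hM _).1 h)
  · exact hc i ((natCast_F_eq_zero_iff hM _).1 h)

end Cfsg.Agent.S4443
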