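import Mathlib
import Cfsg.Statements.S4444
import Cfsg.Agent.Lib.Glaub.PGroup
-- import your own Cfsg.Agent.* helpers here

set_option autoImplicit false
set_option linter.style.haveILetI false
open Cfsg

namespace Cfsg.Agent.S4444

/-- The Glauberman correspondence for a p-group of operators. Inside a finite group Γ let S normalise G with the orders of G and S coprime, S a p-group, and let C = G ⊓ C(S) be the fixed points. Call an irreducible character χ of G S-invariant when χ(s g s⁻¹) = χ(g) for s ∈ S, g ∈ G. Then: (i) for every S-invariant χ there is exactly one irreducible character β of C whose multiplicity [χ_C, β] in the restriction of χ is not divisible by p; (ii) that multiplicity is ≡ 1 or ≡ −1 (mod p); (iii) distinct S-invariant χ give distinct β; (iv) every irreducible character of C arises in this way. So χ ↦ β is a bijection from the S-invariant irreducible characters of G onto the irreducible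 characters of C. -/
theorem result {Γ : Type*} [Group Γ] [Fintype Γ] (G S : Subgroup Γ) [Fintype G] (hnorm : ∀ s ∈ S, ∀ g ∈ G, s * g * s⁻¹ ∈ G) (hcop : (Nat.card G).Coprime (Nat.card S)) (p : ℕ) (hp : p.Prime) (hS : IsPGroup p S) (C : Subgroup Γ) [Fintype C] (hC : C = G ⊓ Subgroup.centralizer (S : Set Γ)) (hCG : C ≤ G) : (∀ χ : Cfsg.IrrCharacter G, (∀ s ∈ S, ∀ g g' : G, (g' : Γ) = s * g * s⁻¹ → (χ : G → ℂ) g' = (χ : G → ℂ) g) → ∃! β : Cfsg.IrrCharacter C, ∃ m : ℕ, Cfsg.classInner (fun c : C => (χ : G → ℂ) ⟨c, hCG c.2⟩) (β : C → ℂ) = (m : ℂ) ∧ ¬ p ∣ m) ∧ (∀ χ : Cfsg.IrrCharacter G, (∀ s ∈ S, ∀ g g' : G, (g' : Γ) = s * g * s⁻¹ → (χ : G → ℂ) g' = (χ : G → ℂ) g) → ∀ β : Cfsg.IrrCharacter C, ∀ m : ℕ, Cfsg.classInner (fun c : C => (χ : G → ℂ) ⟨c, hCG c.2⟩) (β : C → ℂ) = (m : ℂ) → ¬ p ∣ m → ((m : ℤ) ≡ 1 [ZMOD p] ∨ (m : ℤ) ≡ -1 [ZMOD p])) ∧ (∀ χ χ' : Cfsg.IrrCharacter G, (∀ s ∈ S, ∀ g g' : G, (g' : Γ) = s * g * s⁻¹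 → (χ : G → ℂ) g' = (χ : G → ℂ) g) → (∀ s ∈ S, ∀ g g' : G, (g' : Γ) = s * g * s⁻¹ → (χ' : G → ℂ) g' = (χ' : G → ℂ) g) → ∀ β : Cfsg.IrrCharacter C, ∀ m m' : ℕ, Cfsg.classInner (fun c : C => (χ : G → ℂ) ⟨c, hCG c.2⟩) (β : C → ℂ) = (m : ℂ) → ¬ p ∣ m → Cfsg.classInner (fun c : C => (χ' : G → ℂ) ⟨c, hCG c.2⟩) (β : C → ℂ) = (m' : ℂ) → ¬ p ∣ m' → χ = χ') ∧ (∀ β : Cfsg.IrrCharacter C, ∃ χ : Cfsg.IrrCharacter G, (∀ s ∈ S, ∀ g g' : G, (g' : Γ) = s * g * s⁻¹ → (χ : G → ℂ) g' = (χ : G → ℂ) g) ∧ ∃ m : ℕ, Cfsg.classInner (fun c : C => (χ : G → ℂ) ⟨c, hCG c.2⟩) (β : C → ℂ) = (m : ℂ) ∧ ¬ p ∣ m) := by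
  letI := H88.conjAction G S hnorm
  haveI : Fact p.Prime := ⟨hp⟩
  have hres : ∀ χ : Cfsg.IrrCharacter G,
      IsCharacter C (fun c : C => (χ : G → ℂ) ⟨c, hCG c.2⟩) := fun χ =>
    H6.isCharacter_comp (Subgroup.inclusion hCG) (H6.irr_isCharacter χ.2)
  have hcast : ∀ (χ : Cfsg.IrrCharacter G) (β : Cfsg.IrrCharacter C),
      Cfsg.classInner (fun c : C => (χ : G → ℂ) ⟨c, hCG c.2⟩) (β : C → ℂ) =
        (H88.mult (fun c : C => χ.1 (Subgroup.inclusion hCG c)) β.1 : ℂ) := fun χ β =>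
    (H88.mult_cast (hres χ) (H6.irr_isCharacter β.2)).symm
  have hm : ∀ (χ : Cfsg.IrrCharacter G) (β : Cfsg.IrrCharacter C) (m : ℕ),
      Cfsg.classInner (fun c : C => (χ : G → ℂ) ⟨c, hCG c.2⟩) (β : C → ℂ) = m →
        H88.mult (fun c : C => χ.1 (Subgroup.inclusion hCG c)) β.1 = m := fun χ β m h =>
    H88.mult_eq_of_eq h
  by_cases hpG : p ∣ Nat.card G
  · -- then `S` is trivial and `C = G`
    have hS1 : Nat.card S = 1 := by
      obtain ⟨k, hk⟩ := IsPGroup.iff_card.1 hS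
      cases k with
      | zero => simpa using hk
      | succ k =>
        exfalso
        have : p ∣ Nat.gcd (Nat.card G) (Nat.card S) :=
          Nat.dvd_gcd hpG (hk ▸ dvd_pow_self p (Nat.succ_ne_zero k))
        rw [hcop] at this
        exact hp.one_lt.ne' (Nat.dvd_one.1 this)
    have hSb : S = ⊥ := Subgroup.eq_bot_of_card_eq S hS1
    have hsurj : Function.Bijective (Subgroup.inclusion hCG) := by
      refine ⟨Subgroup.inclusion_injective _, fun g => ⟨⟨g, hC ▸ ⟨g.2, ?_⟩⟩, rfl⟩⟩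
      subst hSb
      exact Subgroup.mem_centralizer_iff.2 fun s hs => by
        rw [Subgroup.mem_bot.1 hs]; simp
    let e : C ≃* G := MulEquiv.ofBijective (Subgroup.inclusion hCG) hsurj
    let r : Cfsg.IrrCharacter G → Cfsg.IrrCharacter C := fun χ =>
      ⟨fun c => χ.1 (e c), H6.isIrrCharacter_comp_equiv e χ.2⟩
    have hr : ∀ (χ : Cfsg.IrrCharacter G) (β : Cfsg.IrrCharacter C),
        Cfsg.classInner (fun c : C => (χ : G → ℂ) ⟨c, hCG c.2⟩) (β : C → ℂ) =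
        (open Classical in if r χ = β then 1 else 0) := fun χ β => H6.irr_inner' (r χ) β
    have hr1 : ∀ (χ : Cfsg.IrrCharacter G) (β : Cfsg.IrrCharacter C) (m : ℕ),
        Cfsg.classInner (fun c : C => (χ : G → ℂ) ⟨c, hCG c.2⟩) (β : C → ℂ) = m → ¬ p ∣ m →
        r χ = β ∧ m = 1 := by
      intro χ β m h1 h2
      rw [hr] at h1
      split_ifs at h1 with h3
      · exact ⟨h3, by exact_mod_cast h1.symm⟩
      · have : m = 0 := by exact_mod_cast h1.symm
        exact absurd (this ▸ dvd_zero p) h2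
    have hp1 : ¬ p ∣ 1 := fun h => hp.one_lt.ne' (Nat.dvd_one.1 h)
    refine ⟨fun χ _ => ⟨r χ, ⟨1, by rw [hr]; simp, hp1⟩, ?_⟩, ?_, ?_, ?_⟩
    · rintro β ⟨m, h1, h2⟩
      exact (hr1 χ β m h1 h2).1.symm
    · intro χ _ β m h1 h2
      left
      rw [(hr1 χ β m h1 h2).2]; rfl
    · intro χ χ' _ _ β m m' h1 h2 h3 h4
      have h5 := (hr1 χ β m h1 h2).1.trans (hr1 χ' β m' h3 h4).1.symm
      apply Subtype.ext
      funext g
      have := congrArg (fun ψ : Cfsg.IrrCharacter C => ψ.1 (e.symm g)) h5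
      simpa [r] using this
    · intro β
      refine ⟨⟨fun g => β.1 (e.symm g), H6.isIrrCharacter_comp_equiv e.symm β.2⟩, ?_, 1, ?_, hp1⟩
      · intro s hs g g' h
        rw [hSb, Subgroup.mem_bot] at hs
        subst hs
        have : g' = g := Subtype.ext (by simpa using h)
        rw [this]
      · rw [hr, if_pos]
        · simp
        · apply Subtype.ext
          funext c
          simp [r]
  have hs : H88.GlSetup p S (Subgroup.inclusion hCG) :=
    ⟨hS, hpG, Subgroup.inclusion_injective _, H88.conjAction_fix G S hnorm C hC hCG⟩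
  refine ⟨fun χ hχ => ?_, fun χ hχ β m h1 h2 => ?_, fun χ χ' hχ hχ' β m m' h1 h2 h3 h4 => ?_,
    fun β => ?_⟩
  · have hχ' := (H88.inv_conjAction_iff G S hnorm _).2 hχ
    obtain ⟨β, hβ⟩ := hs.exists_corr_right χ hχ'
    refine ⟨β, ⟨_, hcast χ β, hβ⟩, ?_⟩
    rintro γ ⟨m, h1, h2⟩
    exact hs.corr_unique_right χ hχ' γ β (by rwa [hm χ γ m h1]) hβ
  · have hχ' := (H88.inv_conjAction_iff G S hnorm _).2 hχ
    have := hs.corr_sq χ hχ' β (by rwa [hm χ β m h1])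
    rwa [hm χ β m h1] at this
  · exact hs.corr_unique_left χ χ' ((H88.inv_conjAction_iff G S hnorm _).2 hχ)
      ((H88.inv_conjAction_iff G S hnorm _).2 hχ') β (by rwa [hm χ β m h1]) (by rwa [hm χ' β m' h3])
  · obtain ⟨χ, hχ, h⟩ := hs.exists_corr_left β
    exact ⟨χ, (H88.inv_conjAction_iff G S hnorm _).1 hχ, _, hcast χ β, h⟩

end Cfsg.Agent.S4444
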