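import Mathlib
import Cfsg.Statements.S4445
import Cfsg.Agent.Lib.Glaub.Solvable
import Cfsg.Agent.Lib.Core.CoprimeBasic
-- import your own Cfsg.Agent.* helpers here

set_option autoImplicit false
open Cfsg

namespace Cfsg.Agent.S4445

/-- Inside a finite group Γ let the solvable subgroup S normalise G with the orders of G and S coprime. Then the number of S-invariant irreducible characters of G (χ(s g s⁻¹) = χ(g) for all s ∈ S, g ∈ G) equals the number of conjugacy classes of G mapped to themselves by conjugation by every element of S. -/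
theorem result {Γ : Type*} [Group Γ] [Fintype Γ] (G S : Subgroup Γ) [Fintype G] (hnorm : ∀ s ∈ S, ∀ g ∈ G, s * g * s⁻¹ ∈ G) (hcop : (Nat.card G).Coprime (Nat.card S)) (hsolv : Group.IsSolvable S) : Nat.card {χ : Cfsg.IrrCharacter G // (∀ s ∈ S, ∀ g g' : G, (g' : Γ) = s * g * s⁻¹ → (χ : G → ℂ) g' = (χ : G → ℂ) g)} = Nat.card {K : ConjClasses G // ∀ s ∈ S, ∀ g g' : G, (g' : Γ) = s * g * s⁻¹ → ConjClasses.mk g = K → ConjClasses.mk g' = K} := by
  classical
  letI := H88.conjAction G S hnorm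
  let C : Subgroup Γ := G ⊓ Subgroup.centralizer (S : Set Γ)
  have hCG : C ≤ G := inf_le_left
  have h1 := H88.card_inv_irr (A := S) (G := G) hsolv hcop (Subgroup.inclusion hCG)
    (Subgroup.inclusion_injective hCG) (H88.conjAction_fix G S hnorm C rfl hCG)
  have h2 : Nat.card {χ : Cfsg.IrrCharacter G // (∀ s ∈ S, ∀ g g' : G, (g' : Γ) = s * g * s⁻¹ →
      (χ : G → ℂ) g' = (χ : G → ℂ) g)} = Nat.card {χ : Cfsg.IrrCharacter G // H88.Inv S χ.1} :=
    Nat.card_congr (Equiv.subtypeEquivRight fun χ => (H88.inv_conjAction_iff G S hnorm _).symm)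
  rw [h2, h1, H6.card_irr_eq_card_conjClasses]
  have hSG : S ≤ Subgroup.normalizer (G : Set Γ) := by
    intro s hs
    refine Subgroup.mem_normalizer_fintype ?_
    exact fun g hg => hnorm s hs g hg
  letI act : MulAction Γ Γ := MulAction.compHom Γ (ConjAct.toConjAct (G := Γ)).toMonoidHom
  have hact : ∀ a x : Γ, act.smul a x = a * x * a⁻¹ := fun a x => rfl
  refine Nat.card_congr (Equiv.ofBijective
    (fun K => ⟨ConjClasses.map (Subgroup.inclusion hCG) K, ?_⟩) ⟨?_, ?_⟩)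
  · obtain ⟨c, rfl⟩ := ConjClasses.mk_surjective K
    intro s hs g g' e hg
    rw [← hg]
    change ConjClasses.mk g = ConjClasses.mk (Subgroup.inclusion hCG c) at hg
    rw [hg]
    rw [ConjClasses.mk_eq_mk_iff_isConj, isConj_iff] at hg ⊢
    obtain ⟨x, hx⟩ := hg
    have hx' : (x : Γ) * g * (x : Γ)⁻¹ = c := congrArg Subtype.val hx
    refine ⟨⟨s * x * s⁻¹, hnorm s hs x x.2⟩, Subtype.ext ?_⟩
    change s * x * s⁻¹ * g' * (s * x * s⁻¹)⁻¹ = c
    have hc : s * c = c * s := Subgroup.mem_centralizer_iff.1 c.2.2 s hs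
    calc s * x * s⁻¹ * g' * (s * x * s⁻¹)⁻¹ = s * (x * g * (x : Γ)⁻¹) * s⁻¹ := by
          rw [e]; group
      _ = c := by rw [hx', hc]; group
  · intro K L hKL
    obtain ⟨c, rfl⟩ := ConjClasses.mk_surjective K
    obtain ⟨d, rfl⟩ := ConjClasses.mk_surjective L
    have h : ConjClasses.mk (Subgroup.inclusion hCG c) = ConjClasses.mk (Subgroup.inclusion hCG d) :=
      congrArg Subtype.val hKL
    rw [ConjClasses.mk_eq_mk_iff_isConj, isConj_iff] at h ⊢
    obtain ⟨x, hx⟩ := h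
    have hx' : (x : Γ) * c * (x : Γ)⁻¹ = d := congrArg Subtype.val hx
    have fx : ∀ y : C, ∀ a ∈ S, a * (y : Γ) * a⁻¹ = y := fun y a ha => by
      rw [Subgroup.mem_centralizer_iff.1 y.2.2 a ha]; group
    obtain ⟨y, hy, hy2⟩ := @H2.exists_centralizer_smul_eq Γ _ _ S G hSG hcop.symm (Or.inl hsolv)
      Γ act c (fun a ha => fx c a ha) x x.2 (fun a ha => by
        change a * ((x : Γ) * c * (x : Γ)⁻¹) * a⁻¹ = x * c * (x : Γ)⁻¹
        rw [hx']; exact fx d a ha)
    refine ⟨⟨y, hy⟩, Subtype.ext ?_⟩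
    exact (hy2 : y * (c : Γ) * y⁻¹ = x * c * (x : Γ)⁻¹).trans hx'
  · rintro ⟨K, hK⟩
    obtain ⟨g, rfl⟩ := ConjClasses.mk_surjective K
    obtain ⟨k, hk, hk2⟩ := @H2.exists_fixed_point Γ _ _ S G hSG hcop.symm (Or.inl hsolv)
      Γ act g (fun a ha => by
        have := hK a ha g ⟨a * g * a⁻¹, hnorm a ha g g.2⟩ rfl rfl
        rw [ConjClasses.mk_eq_mk_iff_isConj, isConj_iff] at this
        obtain ⟨x, hx⟩ := this
        exact ⟨x, x.2, congrArg Subtype.val hx⟩)
    have hmem : k * g * k⁻¹ ∈ C := by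
      refine ⟨G.mul_mem (G.mul_mem hk g.2) (G.inv_mem hk), ?_⟩
      refine Subgroup.mem_centralizer_iff.2 fun a ha => ?_
      have : a * (k * g * k⁻¹) * a⁻¹ = k * g * k⁻¹ := hk2 a ha
      exact mul_inv_eq_iff_eq_mul.1 this
    refine ⟨ConjClasses.mk ⟨_, hmem⟩, Subtype.ext ?_⟩
    change ConjClasses.mk (Subgroup.inclusion hCG ⟨_, hmem⟩) = ConjClasses.mk g
    rw [eq_comm, ConjClasses.mk_eq_mk_iff_isConj, isConj_iff]
    exact ⟨⟨k, hk⟩, Subtype.ext rfl⟩

end Cfsg.Agent.S4445
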