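import Mathlib
import Cfsg.Statements.S4447
import Cfsg.Agent.Lib.Glaub.Over
-- import your own Cfsg.Agent.* helpers here

set_option autoImplicit false
set_option linter.style.haveILetI false
open Cfsg

namespace Cfsg.Agent.S4447

/-- Inside a finite group Γ let S normalise G and also normalise a normal subgroup N of G, with the order of S coprime to the index of N in G and S or G/N solvable. Then for every S-invariant irreducible character χ of G, the restriction of χ to N has an S-invariant irreducible constituent. -/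
theorem result {Γ : Type*} [Group Γ] [Fintype Γ] (G S N : Subgroup Γ) [Fintype G] [Fintype N] (hnorm : ∀ s ∈ S, ∀ g ∈ G, s * g * s⁻¹ ∈ G) (hNG : N ≤ G) [hNn : (N.subgroupOf G).Normal] (hNS : ∀ s ∈ S, ∀ n ∈ N, s * n * s⁻¹ ∈ N) (hcop : (N.relIndex G).Coprime (Nat.card S)) (hsolv : Group.IsSolvable S ∨ Group.IsSolvable (G ⧸ N.subgroupOf G)) (χ : Cfsg.IrrCharacter G) (hinv : (∀ s ∈ S, ∀ g g' : G, (g' : Γ) = s * g * s⁻¹ → (χ : G → ℂ) g' = (χ : G → ℂ) g)) : ∃ θ : Cfsg.IrrCharacter N, Cfsg.classInner (fun n : N => (χ : G → ℂ) ⟨n, hNG n.2⟩) (θ : N → ℂ) ≠ 0 ∧ (∀ s ∈ S, ∀ g g' : N, (g' : Γ) = s * g * s⁻¹ → (θ : N → ℂ) g' = (θ : N → ℂ) g) := by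
  classical
  letI := H88.conjAction G S hnorm
  haveI : Fintype (N.subgroupOf G) := Fintype.ofFinite _
  obtain ⟨θ, h1, h2⟩ := H88.exists_inv_under (A := S) (N.subgroupOf G)
    (fun a k hk => hNS a a.2 k hk) hcop hsolv χ.2 ((H88.inv_conjAction_iff G S hnorm _).2 hinv)
  refine ⟨⟨_, H7.isIrr_of_subgroupOf hNG θ.2⟩, ?_, ?_⟩
  · rw [← H6.classInner_comp_equiv (Subgroup.subgroupOfEquivOfLe hNG).symm.toEquiv] at h2
    exact h2
  · intro s hs g g' e
    have := h1 ⟨s, hs⟩ ⟨⟨g, hNG g.2⟩, g.2⟩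
    refine Eq.trans ?_ this
    exact congrArg θ.1 (Subtype.ext (Subtype.ext e))

end Cfsg.Agent.S4447
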