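import Mathlib
import Cfsg.Statements.S4451
import Cfsg.Agent.Lib.Glaub.Cyclic

set_option autoImplicit false
open Cfsg

namespace Cfsg.Agent.S4451

set_option linter.style.haveILetI false


/-- Let the finite group Γ be generated by a normal subgroup G and a cyclic subgroup S of coprime orders such that every non-identity element of S has the same centraliser C = G ⊓ C(S) in G. Let χ be an S-invariant irreducible character of G, χ̂ its canonical extension to Γ (determinantal order coprime to the order of S), and β the irreducible character of C with χ̂(c s) = ε₀ β(c) for c ∈ C and generators s of S (ε₀ = ±1). Then there are a sign ε = ±1, which may differ from ε₀, and a linear character μ of S with μ² = 1, such that: (a) χ̂(c x) = ε β(c) μ(x) for all c ∈ C and all x ∈ S other than 1; (b) the restriction of χ to C equals |S|·ϑ + ε β for some character ϑ of C or ϑ = 0; (c) |S| divides χ(1) −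 ε β(1). -/
theorem result {Γ : Type*} [Group Γ] [Fintype Γ] (G S : Subgroup Γ) [Fintype G] (hnorm : ∀ s ∈ S, ∀ g ∈ G, s * g * s⁻¹ ∈ G) (hcop : (Nat.card G).Coprime (Nat.card S)) (htop : G ⊔ S = ⊤) (hcyc : IsCyclic S) (C : Subgroup Γ) [Fintype C] (hC : C = G ⊓ Subgroup.centralizer (S : Set Γ)) (hCG : C ≤ G) (hfpf : ∀ x ∈ S, x ≠ 1 → G ⊓ Subgroup.centralizer ({x} : Set Γ) = C) (χ : Cfsg.IrrCharacter G) (hinv : (∀ s ∈ S, ∀ g g' : G, (g' : Γ) = s * g * s⁻¹ → (χ : G → ℂ) g' = (χ : G → ℂ) g)) (χh : Cfsg.IrrCharacter Γ) (hext : (∀ g : G, (χh : Γ → ℂ) g = (χ : G → ℂ) g)) (hdet : (Cfsg.detOrder (χh : Γ → ℂ)).Coprime (Nat.card S)) (β : Cfsg.IrrCharacter C) (ε₀ : ℤ) (hε₀ : ε₀ = 1 ∨ ε₀ = -1) (hβ : ∀ c : C, ∀ s : Γ, Subgroup.zpowers s = S → (χh : Γ → ℂ) ((c : Γ) * s) = (ε₀ : ℂ) * (β : C → ℂ) c) : ∃ ε : ℤ, (ε = 1 ∨ ε = -1) ∧ (∃ μ : S → ℂ, Cfsg.IsCharacter S μ ∧ μ 1 = 1 ∧ (∀ x : S, μ x * μ x = 1) ∧ ∀ c : C,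 ∀ x : S, x ≠ 1 → (χh : Γ → ℂ) ((c : Γ) * x) = (ε : ℂ) * (β : C → ℂ) c * μ x) ∧ (∃ ϑ : C → ℂ, Cfsg.IsCharacter C ϑ ∧ (fun c : C => (χ : G → ℂ) ⟨c, hCG c.2⟩) = fun c => (Nat.card S : ℂ) * ϑ c + (ε : ℂ) * (β : C → ℂ) c) ∧ (Nat.card S : ℤ) ∣ (Cfsg.charDegree (χ : G → ℂ) : ℤ) - ε * (Cfsg.charDegree (β : C → ℂ) : ℤ) := by
  classical
  haveI hG := H88.normal_of_sup hnorm htop
  haveI := Fintype.ofFinite S
  obtain ⟨s, hs⟩ := (Subgroup.isCyclic_iff_exists_zpowers_eq_top S).1 hcyc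
  have hsS : s ∈ S := hs ▸ Subgroup.mem_zpowers s
  have hCS : ∀ (c : C) (x : S), Commute (c : Γ) x := fun c x =>
    (Subgroup.mem_centralizer_iff.1 ((hC.le c.2).2) x x.2).symm
  have hirr : IsIrrCharacter G fun g : G => χh.1 g := by
    rw [funext hext]; exact χ.2
  have hχc := H6.irr_isCharacter χh.2
  suffices h : ∃ ε : ℤ, (ε = 1 ∨ ε = -1) ∧ (∃ μ : S → ℂ, Cfsg.IsCharacter S μ ∧ μ 1 = 1 ∧
      (∀ x : S, μ x * μ x = 1) ∧ ∀ c : C, ∀ x : S, x ≠ 1 →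
        (χh : Γ → ℂ) ((c : Γ) * x) = (ε : ℂ) * (β : C → ℂ) c * μ x) ∧
      (∃ ϑ : C → ℂ, Cfsg.IsCharacter C ϑ ∧ (fun c : C => (χ : G → ℂ) ⟨c, hCG c.2⟩) =
        fun c => (Nat.card S : ℂ) * ϑ c + (ε : ℂ) * (β : C → ℂ) c) by
    obtain ⟨ε, h1, h2, ϑ, h3, h4⟩ := h
    refine ⟨ε, h1, h2, ⟨ϑ, h3, h4⟩, ?_⟩
    obtain ⟨k, hk⟩ := H6.char_one_nat h3
    obtain ⟨d, hd⟩ := H6.char_one_nat (H6.irr_isCharacter χ.2)
    obtain ⟨e, he⟩ := H6.char_one_nat (H6.irr_isCharacter β.2)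
    have h5 : χ.1 1 = _ := congrFun h4 1
    rw [hk, hd, he] at h5
    refine ⟨k, ?_⟩
    have h6 : (d : ℤ) = Nat.card S * k + ε * e := by exact_mod_cast h5
    simp only [charDegree, hd, he, Complex.natCast_re, Nat.floor_natCast, h6]
    ring
  by_cases hs1 : s = 1
  · have h1 : ∀ x : S, x = 1 := fun x => Subtype.ext (by
      have := hs.ge x.2
      rwa [hs1, Subgroup.zpowers_one_eq_bot, Subgroup.mem_bot] at this)
    refine ⟨ε₀, hε₀, ⟨fun _ => 1, H6.isCharacter_one, rfl, fun _ => mul_one _,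
      fun _ x hx => absurd (h1 x) hx⟩, 0, H6.isCharacter_zero, funext fun c => ?_⟩
    rw [← hext, ← hβ c s hs, hs1]
    simp
  let ψ : IrrCharacter C → S → ℂ := fun γ x => classInner (fun c : C => χh.1 (c * x)) γ.1
  have hψ : ∀ γ, IsCharacter S (ψ γ) := fun γ =>
    H88.isCharacter_partial C S hCS hχc (H6.irr_isCharacter γ.2)
  have hcf : ∀ x : S, IsClassFunction C fun c : C => χh.1 (c * x) := fun x =>
    H88.isClassFunction_partial C (fun c => hCS c x) (H6.irr_isClassFunction χh.2)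
  have hexp : ∀ (c : C) (x : S), χh.1 (c * x) = ∑ γ, ψ γ x * γ.1 c := fun c x =>
    H6.classFun_apply_eq_sum_irr (hcf x) c
  have hnorm1 : ∀ x : S, x ≠ 1 → ∑ γ, ‖ψ γ x‖ ^ 2 = 1 := fun x hx => by
    have h1 := H88.inner_partial_ext (C := C) (y := x)
      (hcop.coprime_dvd_right (S.orderOf_dvd_natCard x.2))
      (hfpf x x.2 fun h => hx (Subtype.ext h)).symm χh.2 hirr
    rw [H6.parseval (hcf x)] at h1
    simp only [Complex.mul_conj'] at h1
    exact_mod_cast h1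
  have htot : ∑ γ, ∑ x ∈ Finset.univ.erase 1, ‖ψ γ x‖ ^ 2 = (Nat.card S : ℝ) - 1 := by
    rw [Finset.sum_comm, Finset.sum_congr rfl fun x hx => hnorm1 x (Finset.ne_of_mem_erase hx),
      Finset.sum_const, Finset.card_erase_of_mem (Finset.mem_univ _), nsmul_eq_mul, mul_one,
      Nat.cast_sub Finset.univ_nonempty.card_pos, Finset.card_univ, Nat.card_eq_fintype_card,
      Nat.cast_one]
  have hβs : ψ β ⟨s, hsS⟩ = ε₀ := by
    have h1 := H6.classInner_smul_left (ε₀ : ℂ) β.1 β.1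
    rw [H6.irr_inner_self β.2, mul_one] at h1
    simp only [ψ, hβ _ s hs]
    exact h1
  have hs1' : (⟨s, hsS⟩ : S) ≠ 1 := fun h => hs1 (congrArg Subtype.val h)
  have hε2 : (ε₀ : ℂ) * ε₀ = 1 := by rcases hε₀ with rfl | rfl <;> simp
  obtain ⟨h1, h2⟩ := H88.char_comm_cases (H88.comm_of_isCyclic hcyc) (hψ β) ⟨_, hs1', by
    rw [hβs]; exact left_ne_zero_of_mul_eq_one hε2⟩
  have hnn : ∀ γ, 0 ≤ ∑ x ∈ Finset.univ.erase 1, ‖ψ γ x‖ ^ 2 := fun γ =>
    Finset.sum_nonneg fun _ _ => sq_nonneg _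
  rw [← Finset.add_sum_erase _ _ (Finset.mem_univ β)] at htot
  have h3 := Finset.sum_nonneg (s := Finset.univ.erase β) fun γ _ => hnn γ
  obtain ⟨a, ε, μ, hε, h4, h5⟩ := h2 (by linarith)
  have h6 : ∀ γ, γ ≠ β → ∀ x, x ≠ 1 → ψ γ x = 0 := fun γ hγ x hx => by
    have h7 := (Finset.sum_eq_zero_iff_of_nonneg fun γ _ => hnn γ).1
      (show ∑ γ ∈ Finset.univ.erase β, _ = 0 by linarith) γ (by simpa using hγ)
    simpa using (Finset.sum_eq_zero_iff_of_nonneg fun _ _ => sq_nonneg _).1 h7 x (by simpa using hx)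
  have hε3 : (ε : ℂ) * ε = 1 := by rcases hε with rfl | rfl <;> simp
  refine ⟨ε, hε, ⟨fun x => μ x, H6.isCharacter_hom μ, by simp, fun x => ?_, fun c x hx => ?_⟩, ?_⟩
  · have h7 : (μ ⟨s, hsS⟩ : ℂ) * μ ⟨s, hsS⟩ = 1 := by
      have := h5 _ hs1'
      rw [hβs] at this
      rw [this] at hε2
      linear_combination hε2 - (μ ⟨s, hsS⟩ : ℂ) * μ ⟨s, hsS⟩ * hε3
    obtain ⟨k, hk⟩ := (mem_powers_iff_mem_zpowers (x := s) (y := x)).2 (hs.symm ▸ x.2)
    have : x = ⟨s, hsS⟩ ^ k := Subtype.ext hk.symm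
    beta_reduce
    rw [this, map_pow, Units.val_pow_eq_pow_val, ← mul_pow, h7, one_pow]
  · rw [hexp, Finset.sum_eq_single β (fun γ _ hγ => by rw [h6 γ hγ x hx, zero_mul]) (by simp),
      h5 x hx]
    ring
  · have h7 : ∀ γ, ∃ b : ℕ, ψ γ 1 = Nat.card S * b + if γ = β then (ε : ℂ) else 0 := fun γ => by
      split_ifs with hγ
      · exact ⟨a, hγ ▸ h4⟩
      · simpa using H88.exists_one_eq_of_vanish (hψ γ) (h6 γ hγ)
    choose b hb using h7
    refine ⟨_, H6.isCharacter_sum_irr b, funext fun c => ?_⟩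
    have := hexp c 1
    rw [OneMemClass.coe_one, mul_one] at this
    rw [← hext, this]
    simp only [hb, add_mul, Finset.sum_add_distrib, ite_mul, zero_mul, Finset.sum_ite_eq',
      Finset.mem_univ, if_true, Finset.sum_apply, Pi.smul_apply, smul_eq_mul, Finset.mul_sum,
      mul_assoc]

end Cfsg.Agent.S4451
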