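import Mathlib
import Cfsg.Statements.S4453
import Cfsg.Agent.Lib.Glaub.OddMain

set_option autoImplicit false
open Cfsg

namespace Cfsg.Agent.S4453

set_option linter.style.haveILetI false


/-- Inside a finite group Γ let S normalise the solvable subgroup G of odd order with the orders of G and S coprime, let C = G ⊓ C(S), and let L ≤ K be S-invariant normal subgroups of G with K/L abelian, G = KC and H = LC (so C ≤ H ≤ G). Then for each S-invariant irreducible character χ of G there is exactly one S-invariant irreducible character ψ of H whose multiplicity in the restriction of χ to H is odd, and χ ↦ ψ is a bijection from the S-invariant irreducible characters of G onto those of H (distinct χ give distinct ψ, and every S-invariant ψ arises). -/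
theorem result {Γ : Type*} [Group Γ] [Fintype Γ] (G S : Subgroup Γ) [Fintype G] (hnorm : ∀ s ∈ S, ∀ g ∈ G, s * g * s⁻¹ ∈ G) (hcop : (Nat.card G).Coprime (Nat.card S)) (hGsolv : Group.IsSolvable G) (hodd : Odd (Nat.card G)) (C : Subgroup Γ) [Fintype C] (hC : C = G ⊓ Subgroup.centralizer (S : Set Γ)) (hCG : C ≤ G) (K L H : Subgroup Γ) [Fintype H] (hLK : L ≤ K) (hKG : K ≤ G) (hKn : ∀ g ∈ G, ∀ k ∈ K, g * k * g⁻¹ ∈ K) (hLn : ∀ g ∈ G, ∀ l ∈ L, g * l * g⁻¹ ∈ L) (hKS : ∀ s ∈ S, ∀ k ∈ K, s * k * s⁻¹ ∈ K) (hLS : ∀ s ∈ S, ∀ l ∈ L, s * l * s⁻¹ ∈ L) (hab : ∀ a ∈ K, ∀ b ∈ K, a * b * a⁻¹ * b⁻¹ ∈ L) (hGKC : K ⊔ C = G) (hH : H = L ⊔ C) (hHG : H ≤ G) : (∀ χ : Cfsg.IrrCharacter G, (∀ s ∈ S, ∀ g g' : G, (g' : Γ) = s * g * s⁻¹ → (χ : G → ℂ) g' = (χ : G → ℂ) g) → ∃! ψ : Cfsg.IrrCharacter H, (∀ s ∈ S, ∀ g g' : H, (g' : Γ) = s * g * s⁻¹ → (ψ : H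 → ℂ) g' = (ψ : H → ℂ) g) ∧ ∃ m : ℕ, Cfsg.classInner (fun h : H => (χ : G → ℂ) ⟨h, hHG h.2⟩) (ψ : H → ℂ) = (m : ℂ) ∧ Odd m) ∧ (∀ χ χ' : Cfsg.IrrCharacter G, (∀ s ∈ S, ∀ g g' : G, (g' : Γ) = s * g * s⁻¹ → (χ : G → ℂ) g' = (χ : G → ℂ) g) → (∀ s ∈ S, ∀ g g' : G, (g' : Γ) = s * g * s⁻¹ → (χ' : G → ℂ) g' = (χ' : G → ℂ) g) → ∀ ψ : Cfsg.IrrCharacter H, (∀ s ∈ S, ∀ g g' : H, (g' : Γ) = s * g * s⁻¹ → (ψ : H → ℂ) g' = (ψ : H → ℂ) g) → ∀ m m' : ℕ, Cfsg.classInner (fun h : H => (χ : G → ℂ) ⟨h, hHG h.2⟩) (ψ : H → ℂ) = (m : ℂ) → Odd m → Cfsg.classInner (fun h : H => (χ' : G → ℂ) ⟨h, hHG h.2⟩) (ψ : H → ℂ) = (m' : ℂ) → Odd m' → χ = χ') ∧ (∀ ψ : Cfsg.IrrCharacter H, (∀ s ∈ S, ∀ g g' : H, (g' : Γ) = s * g * s⁻¹ → (ψ : H → ℂ) g' = (ψ : H → ℂ) g) → ∃ χ : Cfsg.IrrCharacter G, (∀ s ∈ S, ∀ g g' : G, (g' : Γ) = s * g * s⁻¹ → (χ : G → ℂ) g' = (χ :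 G → ℂ) g) ∧ ∃ m : ℕ, Cfsg.classInner (fun h : H => (χ : G → ℂ) ⟨h, hHG h.2⟩) (ψ : H → ℂ) = (m : ℂ) ∧ Odd m) := by
  classical
  have hCm : ∀ c, c ∈ C ↔ c ∈ G ∧ ∀ s ∈ S, s * c * s⁻¹ = c := fun c => by
    rw [hC, Subgroup.mem_inf, Subgroup.mem_centralizer_iff]
    exact and_congr Iff.rfl (forall₂_congr fun s _ => mul_inv_eq_iff_eq_mul.symm)
  have hdec : ∀ N : Subgroup Γ, (∀ g ∈ G, ∀ k ∈ N, g * k * g⁻¹ ∈ N) → ∀ x ∈ N ⊔ C,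
      ∃ k ∈ N, ∃ c ∈ C, x = k * c := by
    intro N hN x hx
    have h1 : C ≤ Subgroup.normalizer (N : Set Γ) := fun c hc =>
      Subgroup.mem_normalizer_fintype fun n hn => hN c (hCG hc) n hn
    have h2 : x ∈ ((N ⊔ C : Subgroup Γ) : Set Γ) := hx
    rw [Subgroup.coe_mul_of_right_le_normalizer_left N C h1] at h2
    obtain ⟨k, hk, c, hc, rfl⟩ := h2
    exact ⟨k, hk, c, hc, rfl⟩
  have hLH : L ≤ H := hH ▸ le_sup_left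
  have hCH : C ≤ H := hH ▸ le_sup_right
  have hHfix : ∀ s ∈ S, ∀ x ∈ H, s * x * s⁻¹ * x⁻¹ ∈ L := by
    intro s hs x hx
    obtain ⟨l, hl, c, hc, rfl⟩ := hdec L hLn x (hH ▸ hx)
    have : s * (l * c) * s⁻¹ * (l * c)⁻¹ = s * l * s⁻¹ * (s * c * s⁻¹ * c⁻¹) * l⁻¹ := by group
    rw [this, ((hCm c).1 hc).2 s hs, mul_inv_cancel, mul_one]
    exact L.mul_mem (hLS s hs l hl) (L.inv_mem hl)
  have hHS : ∀ s ∈ S, ∀ x ∈ H, s * x * s⁻¹ ∈ H := fun s hs x hx => by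
    simpa using H.mul_mem (hLH (hHfix s hs x hx)) hx
  letI := H88.conjAction G S hnorm
  letI := H88.conjAction H S hHS
  haveI : (K.subgroupOf G).Normal := ⟨fun k hk g => hKn g g.2 k hk⟩
  haveI : ((K ⊓ H).subgroupOf G).Normal := ⟨fun x hx g => by
    refine ⟨hKn g g.2 x hx.1, ?_⟩
    obtain ⟨k, hk, c, hc, e⟩ := hdec K hKn g (hGKC ▸ g.2)
    have h1 : c * x * c⁻¹ ∈ H := H.mul_mem (H.mul_mem (hCH hc) hx.2) (H.inv_mem (hCH hc))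
    have h2 := H.mul_mem (hLH (hab k hk _ (hKn c (hCG hc) x hx.1))) h1
    change (g : Γ) * x * (g : Γ)⁻¹ ∈ H
    rw [e]
    simpa [mul_assoc] using h2⟩
  have hinvL : ∀ (a : S), ∀ k ∈ (K ⊓ H).subgroupOf G, a • k ∈ (K ⊓ H).subgroupOf G :=
    fun a k hk => ⟨hKS a a.2 k hk.1, hHS a a.2 k hk.2⟩
  have hs : H88.OddSetup S (K.subgroupOf G) ((K ⊓ H).subgroupOf G) (Subgroup.inclusion hHG) := by
    refine ⟨hodd, hcop, hGsolv, fun x hx => hx.1,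
      fun x hx y hy => ⟨hLK (hab x hx y hy), hLH (hab x hx y hy)⟩, fun a k hk => hKS a a.2 k hk,
      hinvL, Subgroup.inclusion_injective _, fun a d => rfl, fun g => ⟨?_, fun hg => ?_⟩,
      fun g => ?_, fun d hd => ⟨hd, d.2⟩⟩
    · rintro ⟨d, rfl⟩ a
      exact ⟨hLK (hHfix a a.2 d d.2), hLH (hHfix a a.2 d d.2)⟩
    · obtain ⟨c, hc1, hc2⟩ := H88.exists_fixed_in_coset _ hinvL
        (Nat.Coprime.coprime_dvd_left (Subgroup.card_subgroup_dvd_card _) hcop) inferInstance hg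
      have h1 : (c : Γ) ∈ C := (hCm c).2 ⟨c.2, fun s hs => congrArg Subtype.val (hc2 ⟨s, hs⟩)⟩
      refine ⟨⟨g, ?_⟩, rfl⟩
      simpa using H.mul_mem (H.inv_mem hc1.2) (hCH h1)
    · obtain ⟨k, hk, c, hc, e⟩ := hdec K hKn g (hGKC ▸ g.2)
      exact ⟨⟨k, hKG hk⟩, hk, ⟨c, hCH hc⟩, Subtype.ext e⟩
  have hb := hs.bijRel
  have hR : ∀ (χ : Cfsg.IrrCharacter G) (ψ : Cfsg.IrrCharacter H),
      (∃ m : ℕ, Cfsg.classInner (fun h : H => (χ : G → ℂ) ⟨h, hHG h.2⟩) (ψ : H → ℂ) = (m : ℂ) ∧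
        Odd m) ↔ ¬ 2 ∣ H88.mult (fun d => χ.1 (Subgroup.inclusion hHG d)) ψ.1 := by
    intro χ ψ
    rw [← even_iff_two_dvd, Nat.not_even_iff_odd]
    constructor
    · rintro ⟨m, h1, h2⟩
      exact (H88.mult_eq_of_eq (m := m) h1).symm ▸ h2
    · intro h
      exact ⟨_, (H88.mult_cast (H6.isCharacter_comp (Subgroup.inclusion hHG)
        (H6.irr_isCharacter χ.2)) (H6.irr_isCharacter ψ.2)).symm, h⟩
  simp only [← H88.inv_conjAction_iff G S hnorm, ← H88.inv_conjAction_iff H S hHS]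
  refine ⟨fun χ hχ => ?_, fun χ χ' hχ hχ' ψ hψ m m' h1 h2 h3 h4 => ?_, fun ψ hψ => ?_⟩
  · obtain ⟨ψ, hψ, r⟩ := hb.right χ hχ
    exact ⟨ψ, ⟨hψ, (hR χ ψ).2 r⟩, fun ψ' hψ' =>
      hb.right_unique χ ψ' ψ hχ hψ'.1 hψ ((hR χ ψ').1 hψ'.2) r⟩
  · exact hb.left_unique χ χ' ψ hχ hχ' hψ ((hR χ ψ).1 ⟨m, h1, h2⟩) ((hR χ' ψ).1 ⟨m', h3, h4⟩)
  · obtain ⟨χ, hχ, r⟩ := hb.left ψ hψ
    exact ⟨χ, hχ, (hR χ ψ).2 r⟩

end Cfsg.Agent.S4453
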