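import Mathlib
import Cfsg.Statements.S4454
import Cfsg.Agent.Lib.Glaub.Cyclic
import Cfsg.Agent.Lib.Glaub.Relative

set_option autoImplicit false
open Cfsg

namespace Cfsg.Agent.S4454

set_option linter.style.haveILetI false

open scoped ComplexConjugate

/-- Let N ≤ G be normal subgroups of the finite group Γ with Γ/G cyclic and Γ/N a Frobenius group with kernel G/N: G ≠ Γ, N ≠ G, and no element of Γ outside G fixes a non-identity coset of N in G under conjugation. Let ϑ be an irreducible character of N invariant under conjugation by Γ and suppose ϑ is fully ramified in G: the character of G induced from ϑ equals e·χ for an irreducible character χ of G and a natural number e. Then the index of G in Γ divides e − 1 or e + 1. -/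
theorem result {Γ : Type*} [Group Γ] [Fintype Γ] (G N : Subgroup Γ) [hG : G.Normal] [hN : N.Normal] [Fintype G] [Fintype N] (hNG : N ≤ G) (hGlt : G ≠ ⊤) (hNlt : N ≠ G) (hcyc : IsCyclic (Γ ⧸ G)) (hfrob : ∀ x : Γ, x ∉ G → ∀ g : Γ, g ∈ G → x * g * x⁻¹ * g⁻¹ ∈ N → g ∈ N) (θ : Cfsg.IrrCharacter N) (hinv : ∀ (x : Γ) (n : N), (θ : N → ℂ) ⟨x * n * x⁻¹, hN.conj_mem n n.2 x⟩ = (θ : N → ℂ) n) (χ : Cfsg.IrrCharacter G) (e : ℕ) (hram : Cfsg.indFun (N.subgroupOf G) (fun n : N.subgroupOf G => (θ : N → ℂ) ⟨(n : G), n.2⟩) = fun g => (e : ℂ) * (χ : G → ℂ) g) : (G.index : ℤ) ∣ (e : ℤ) - 1 ∨ (G.index : ℤ) ∣ (e : ℤ) + 1 := by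
  classical
  obtain ⟨q, hq⟩ := hcyc.exists_generator
  obtain ⟨x, rfl⟩ := QuotientGroup.mk_surjective q
  have hx : x ∉ G := fun h => hGlt (eq_top_iff.2 fun y _ => by
    obtain ⟨k, hk⟩ := hq y
    rw [(QuotientGroup.eq_one_iff x).2 h] at hk
    exact (QuotientGroup.eq_one_iff y).1 (by simpa using hk.symm))
  let H := N ⊔ Subgroup.zpowers x
  have hNH : N ≤ H := le_sup_left
  have hmem : ∀ y ∈ H, ∃ n ∈ N, ∃ k : ℤ, n * x ^ k = y := fun y hy => by
    obtain ⟨n, hn, _, ⟨k, rfl⟩, h⟩ := Subgroup.mem_sup_of_normal_left.1 hy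
    exact ⟨n, hn, k, h⟩
  have hHG : ∀ y ∈ H, y ∈ G → y ∈ N := fun y hy hyG => by
    obtain ⟨n, hn, k, rfl⟩ := hmem y hy
    refine N.mul_mem hn (hfrob x hx _ ((G.mul_mem_cancel_left (hNG hn)).1 hyG) ?_)
    rw [show x * x ^ k * x⁻¹ * (x ^ k)⁻¹ = 1 by group]
    exact N.one_mem
  let xH : H := ⟨x, Subgroup.mem_sup_right (Subgroup.mem_zpowers x)⟩
  have hQ : IsCyclic (H ⧸ N.subgroupOf H) := ⟨⟨(xH : H ⧸ N.subgroupOf H), fun q => by
    obtain ⟨y, rfl⟩ := QuotientGroup.mk_surjective q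
    obtain ⟨n, hn, k, h⟩ := hmem y y.2
    refine ⟨k, ?_⟩
    have : y = ⟨n, hNH hn⟩ * xH ^ k := Subtype.ext h.symm
    rw [this, QuotientGroup.mk_mul, (QuotientGroup.eq_one_iff (⟨n, hNH hn⟩ : H)).2 hn, one_mul]
    rfl⟩⟩
  have hcard : Nat.card (H ⧸ N.subgroupOf H) = G.index := by
    have h1 : N.subgroupOf H = G.subgroupOf H := by
      ext y
      exact ⟨fun h => hNG h, fun h => hHG y y.2 h⟩
    have h2 : G ⊔ H = ⊤ := eq_top_iff.2 fun y _ => by
      obtain ⟨k, hk⟩ := hq y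
      have : (x ^ k)⁻¹ * y ∈ G := QuotientGroup.eq.1 hk
      rw [← mul_inv_cancel_left (x ^ k) y]
      exact mul_mem (Subgroup.mem_sup_right (H.zpow_mem xH.2 k)) (Subgroup.mem_sup_left this)
    rw [← Subgroup.index, h1, ← Subgroup.relIndex, ← Subgroup.relIndex_sup_left, h2,
      Subgroup.relIndex_top_right]
  have hθ' : ∀ n : N, (N.relIndex G : ℂ) * θ.1 n = e * χ.1 ⟨n, hNG n.2⟩ := fun n =>
    (H7.indFun_normal_apply_of_invariant (N.subgroupOf G)
      (fun n : N.subgroupOf G => θ.1 ⟨(n : G), n.2⟩) (fun g n => hinv g ⟨_, n.2⟩)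
      ⟨⟨n, hNG n.2⟩, n.2⟩).symm.trans (congrFun hram _)
  have he0 : (e : ℂ) ≠ 0 := fun h => by
    have := hθ' 1
    rw [h, zero_mul] at this
    exact mul_ne_zero (H7.index_ne_zero' _) (H6.irr_one_ne_zero θ.2) this
  have hχ0 : ∀ g : G, (g : Γ) ∉ N → χ.1 g = 0 := fun g hg =>
    (mul_eq_zero.1 ((congrFun hram g).symm.trans
      (H7.indFun_eq_zero_of_not_mem_normal _ _ le_rfl _ hg))).resolve_left he0
  have hχN : ∀ n : N, χ.1 ⟨n, hNG n.2⟩ = e * θ.1 n := by
    have h1 := H7.classInner_indFun_right (N.subgroupOf G)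
      (fun n : N.subgroupOf G => θ.1 ⟨(n : G), n.2⟩) (H6.irr_isClassFunction χ.2)
    have h2 := H6.classInner_smul_right (e : ℂ) χ.1 χ.1
    rw [H6.irr_inner_self χ.2, map_natCast, mul_one] at h2
    rw [hram] at h1
    have h3 : (e : ℂ) = N.relIndex G / e := h2.symm.trans (h1.trans
      (H31.inner_res_of_eq_mul (N.subgroupOf G) (e := N.relIndex G / e) (β := χ.1)
      (H6.isIrrCharacter_comp_equiv (Subgroup.subgroupOfEquivOfLe hNG) θ.2) (fun n => by
        rw [div_mul_eq_mul_div, eq_div_iff he0, mul_comm]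
        exact (hθ' ⟨_, n.2⟩).symm)))
    intro n
    refine mul_left_cancel₀ he0 ?_
    rw [← hθ', ← mul_assoc, (eq_div_iff he0).1 h3]
  obtain ⟨χh, hχh, hext⟩ := H31.extends_of_isCyclic G hcyc χ.2 (fun g y => by
    by_cases hy : (y : Γ) ∈ N
    · rw [hχN ⟨y, hy⟩, ← hinv g, ← hχN]
    · rw [hχ0 y hy, hχ0 _ fun h => hy (by simpa [mul_assoc] using hN.conj_mem _ h g⁻¹)])
  have hχG : IsIrrCharacter G fun g : G => χh g := by rw [funext hext]; exact χ.2
  obtain ⟨η, hη, hηθ⟩ := H31.extends_le_of_isCyclic hNH hQ θ.2 fun g _ =>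
    H7.mem_inertia'.2 (hinv g)
  have hηN := H88.cg_res_irr hNH θ.2 hηθ
  have hres := H6.isCharacter_restrict H (H6.irr_isCharacter hχh)
  have hχη : ∀ n : N.subgroupOf H, χh (n : H) = e * η n := fun n =>
    (hext ⟨_, hNG n.2⟩).trans ((hχN ⟨_, n.2⟩).trans (congrArg _ (hηθ ⟨_, n.2⟩).symm))
  have hβ : ∀ ξ : IrrCharacter H, ∃ β : H → ℂ, IsCharacter H β ∧
      (∀ n ∈ N.subgroupOf H, β n = β 1) ∧
      ∀ y, classInner (fun h : H => χh h) ξ.1 * ξ.1 y = β y * η y := fun ξ => by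
    by_cases h0 : classInner (fun h : H => χh h) ξ.1 = 0
    · exact ⟨0, H6.isCharacter_zero, fun _ _ => rfl, fun y => by simp [h0]⟩
    have h1 := H31.eq_smul_of_add_eq_smul (c := e)
      (H6.isCharacter_restrict (N.subgroupOf H) (H6.irr_isCharacter ξ.2))
      (H6.isCharacter_restrict (N.subgroupOf H) (H6.isCharacter_sub_of_inner_ne_zero hres ξ.2 h0))
      hηN (funext fun n => by simpa using hχη n)
    obtain ⟨β, h2, h3, h4⟩ := H31.gallagher_surj _ (H6.irr_isCharacter hη) hηN ξ.2 fun h => by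
      rw [h, zero_smul] at h1
      exact H6.irr_one_ne_zero ξ.2 (congrFun h1 1)
    obtain ⟨m, hm⟩ := H6.char_inner_nat hres (H6.irr_isCharacter ξ.2)
    exact ⟨(m : ℂ) • β, H6.isCharacter_natCast_smul m (H6.irr_isCharacter h2),
      fun n hn => by simp [h3 n hn], fun y => by rw [hm, h4]; simp [mul_assoc]⟩
  choose β hβ1 hβ2 hβ3 using hβ
  obtain ⟨ψ, hψ, hψ2⟩ := H6.exists_char_quotient (H6.isCharacter_sum Finset.univ fun ξ _ => hβ1 ξ)
    (N.subgroupOf H) fun n hn => by simp only [Finset.sum_apply, hβ2 _ n hn]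
  have hmul : ∀ y : H, χh y = ψ y * η y := fun y => by
    rw [hψ2, Finset.sum_apply, Finset.sum_mul,
      H6.classFun_apply_eq_sum_irr (H6.char_isClassFunction hres) y]
    exact Finset.sum_congr rfl fun ξ _ => hβ3 ξ y
  have hψ1 : ψ 1 = e := by
    have h1 := hχη 1
    rw [hmul] at h1
    exact mul_right_cancel₀ (H6.irr_one_ne_zero hη) h1
  have hnorm : ∀ q, q ≠ 1 → ‖ψ q‖ ^ 2 = 1 := fun q hq1 => by
    obtain ⟨y, rfl⟩ := QuotientGroup.mk_surjective q
    have hy : (y : Γ) ∉ G := fun h => hq1 ((QuotientGroup.eq_one_iff y).2 (hHG y y.2 h))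
    have h1 := H88.avg_coset_eq G N hNG (y := y) (fun g hg => hG.conj_mem g hg y)
      (fun g hg d hd d' hd' h => N.inv_mem_iff.1 (hfrob y hy g⁻¹ (G.inv_mem hg) (by
        have : (y : Γ) * g⁻¹ * (y : Γ)⁻¹ * g⁻¹⁻¹ = d⁻¹ * (g⁻¹ * d' * g⁻¹⁻¹) := by
          calc _ = d⁻¹ * g⁻¹ * (g * (d * y) * g⁻¹) * (y : Γ)⁻¹ * g := by group
            _ = _ := by rw [h]; group
        rw [this]
        exact N.mul_mem (N.inv_mem hd) (hN.conj_mem _ hd' _))))
      (fun x => χh x * conj (χh x)) fun g _ x => by rw [H6.irr_isClassFunction hχh]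
    have h2 := congrFun ((S0868.result G χh hχh hχG χh hχh _ rfl).2.2 rfl) y
    have h3 := congrFun ((S0868.result _ η hη hηN η hη _ rfl).2.2 rfl) y
    rw [h2, ← (Subgroup.subgroupOfEquivOfLe hNH).toEquiv.sum_comp,
      ← Nat.card_congr (Subgroup.subgroupOfEquivOfLe hNH).toEquiv,
      Finset.sum_congr rfl (g := fun n : N.subgroupOf H => ψ y * conj (ψ y) *
        (η (n * y) * conj (η (n * y)))) (fun n _ => by
          have : χh ((n : H) * y) = ψ y * η (n * y) := by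
            rw [← Subgroup.coe_mul, hmul, QuotientGroup.mk_mul, (QuotientGroup.eq_one_iff _).2 n.2,
              one_mul]
          change χh ((n : H) * y) * conj (χh ((n : H) * y)) = _
          rw [this, map_mul]
          ring), ← Finset.mul_sum, mul_left_comm, h3, mul_one, Complex.mul_conj'] at h1
    exact_mod_cast h1
  haveI := Fintype.ofFinite (H ⧸ N.subgroupOf H)
  have hx1 : (xH : H ⧸ N.subgroupOf H) ≠ 1 := fun h => hx (hNG ((QuotientGroup.eq_one_iff xH).1 h))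
  obtain ⟨a, ε, -, hε, h1, -⟩ := (H88.char_comm_cases hQ.isMulCommutative.is_comm.comm hψ
    ⟨_, hx1, fun h => by simpa [h] using hnorm _ hx1⟩).2 (by
      rw [Finset.sum_congr rfl fun q hq => hnorm q (Finset.ne_of_mem_erase hq), Finset.sum_const,
        Finset.card_erase_of_mem (Finset.mem_univ _), nsmul_eq_mul, mul_one,
        Nat.cast_sub Finset.univ_nonempty.card_pos, Finset.card_univ, Nat.card_eq_fintype_card,
        Nat.cast_one])
  rw [hψ1, hcard] at h1
  have h2 : (e : ℤ) = G.index * a + ε := by exact_mod_cast h1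
  rcases hε with rfl | rfl
  · exact Or.inl ⟨a, by omega⟩
  · exact Or.inr ⟨a, by omega⟩

end Cfsg.Agent.S4454
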