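import Mathlib
import Cfsg.Statements.S4457
import Cfsg.Agent.Lib.Deg.FewDeg3

set_option autoImplicit false
open Cfsg

namespace Cfsg.Agent.S4457

open H87

/-- Let G be a finite group whose irreducible character degrees are exactly 1 and m (m ≠ 1). Then either G has an abelian normal subgroup of index m, or m is a power of a prime p and G is the direct product of a p-group and an abelian group: there are normal subgroups P and A with P a p-group, A abelian, P ⊓ A = 1 and P ⊔ A = G. -/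
theorem result {G : Type*} [Group G] [Finite G] (m : ℕ) (hcd : ∀ χ : Cfsg.IrrCharacter G, Cfsg.charDegree (χ : G → ℂ) = 1 ∨ Cfsg.charDegree (χ : G → ℂ) = m) (hm : ∃ χ : Cfsg.IrrCharacter G, Cfsg.charDegree (χ : G → ℂ) = m) (hm1 : m ≠ 1) : (∃ A : Subgroup G, A.Normal ∧ (∀ a ∈ A, ∀ b ∈ A, a * b = b * a) ∧ A.index = m) ∨ ∃ p e : ℕ, p.Prime ∧ m = p ^ e ∧ ∃ P A : Subgroup G, P.Normal ∧ A.Normal ∧ IsPGroup p P ∧ (∀ a ∈ A, ∀ b ∈ A, a * b = b * a) ∧ P ⊓ A = ⊥ ∧ P ⊔ A = ⊤ := by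
  have h : ∀ χ, IsIrrCharacter G χ → charDegree χ = 1 ∨ charDegree χ = m :=
    fun χ hχ => hcd ⟨χ, hχ⟩
  obtain ⟨χ, hχ⟩ := hm
  rcases cases_of_cd h fun hc => hm1 (hχ.symm.trans
    (deg_eq_one_of_commutator_le χ.2 (hc.trans bot_le))) with h1 | ⟨K, p, Z, τ, hK, hA, h0⟩
  · exact Or.inl h1
  have := hK.normal
  have := Fact.mk hA.prime
  obtain ⟨⟨e, he⟩, h1, h2⟩ := hA.of_cd h
  obtain ⟨P⟩ : Nonempty (Sylow p G) := inferInstance
  have h3 := H4.pResidual_sup_sylow P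
  obtain ⟨j, hj⟩ := IsPGroup.iff_card.1 P.isPGroup'
  exact Or.inr ⟨p, e + 1, hA.prime, he, P, _, normal_of_sup_eq_top h0 h3,
    H4.pResidual_normal p G, P.isPGroup', h2, Subgroup.inf_eq_bot_of_coprime
      (hj ▸ ((Nat.Prime.coprime_iff_not_dvd hA.prime).2 h1).pow_left j), (sup_comm _ _).trans h3⟩

end Cfsg.Agent.S4457
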