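import Mathlib
import Cfsg.Statements.S4459
import Cfsg.Agent.Lib.Deg.FewDeg3

set_option autoImplicit false
open Cfsg

namespace Cfsg.Agent.S4459

open H87

/-- Let G be a non-abelian finite group and p a prime. Then the irreducible character degrees of G are exactly 1 and p if and only if either G has an abelian normal subgroup of index p or the centre of G has index p³. -/
theorem result {G : Type*} [Group G] [Finite G] (hG : ∃ a b : G, a * b ≠ b * a) (p : ℕ) (hp : p.Prime) : ((∀ χ : Cfsg.IrrCharacter G, Cfsg.charDegree (χ : G → ℂ) = 1 ∨ Cfsg.charDegree (χ : G → ℂ) = p) ∧ ∃ χ : Cfsg.IrrCharacter G, Cfsg.charDegree (χ : G → ℂ) = p) ↔ ((∃ A : Subgroup G, A.Normal ∧ (∀ a ∈ A, ∀ b ∈ A, a * b = b * a) ∧ A.index = p) ∨ (Subgroup.center G).index = p ^ 3) := by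
  obtain ⟨a, b, hab⟩ := hG
  constructor
  · rintro ⟨hcd, χ, hχ⟩
    have h : ∀ χ, IsIrrCharacter G χ → charDegree χ = 1 ∨ charDegree χ = p :=
      fun χ hχ => hcd ⟨χ, hχ⟩
    rcases cases_of_cd h fun hc => hp.ne_one (hχ.symm.trans
      (deg_eq_one_of_commutator_le χ.2 (hc.trans bot_le))) with h1 | ⟨K, q, Z, τ, hK, hA, h0⟩
    · exact Or.inl h1
    have := hK.normal
    obtain ⟨⟨e, he⟩, -⟩ := hA.of_cd h
    obtain rfl := (Nat.prime_dvd_prime_iff_eq hA.prime hp).1 (he ▸ dvd_pow_self q e.succ_ne_zero)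
    exact hA.index_center hK h0 h
  · intro h
    have h1 : ∀ χ, IsIrrCharacter G χ → charDegree χ = 1 ∨ charDegree χ = p := fun χ hχ => by
      rcases h with ⟨A, hA, h1, h2⟩ | h
      · exact (Nat.dvd_prime hp).1 (h2 ▸ deg_dvd_index_of_comm A h1 hχ)
      · obtain ⟨j, -, e⟩ := (Nat.dvd_prime_pow hp).1 (h ▸ deg_dvd_index_center hχ)
        have := deg_sq_le_index hχ (Z := Subgroup.center G) fun z hz =>
          norm_eq_of_mem_center hχ hz
        rw [h, e, ← pow_mul, Nat.pow_le_pow_iff_right hp.one_lt] at this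
        obtain rfl | rfl : j = 0 ∨ j = 1 := by omega
        exacts [Or.inl e, Or.inr (e.trans (pow_one p))]
    refine ⟨fun χ => h1 _ χ.2, not_not.1 fun hn => hab (comm_of_forall_deg_eq_one
      (fun χ hχ => (h1 χ hχ).resolve_right fun e => hn ⟨⟨χ, hχ⟩, e⟩) a b)⟩

end Cfsg.Agent.S4459
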