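import Mathlib
import Cfsg.Statements.S4462
import Cfsg.Agent.Lib.Deg.Taketa

set_option autoImplicit false
open Cfsg

namespace Cfsg.Agent.S4462

universe u

theorem aux (n : ℕ) : ∀ (G : Type u) [Group G] [Finite G], Group.IsSolvable G →
    (Cfsg.charDegrees G).ncard ≤ n + 1 → ∃ N : ℕ → Subgroup G, N 0 = ⊥ ∧ N (n + 1) = ⊤ ∧
      Monotone N ∧ (∀ i, (N i).Normal) ∧
      ∀ i, ∃ k, Subgroup.lowerCentralSeries (N (i + 1)) k ≤ N i := by
  induction n with
  | zero =>
    intro G _ _ hs h
    have h1 : ∀ a b : G, a * b = b * a := H87.comm_of_forall_deg_eq_one fun χ hχ =>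
      (Set.ncard_le_one H87.finite_charDegrees).1 h _ (H87.mem_charDegrees hχ) _
        H87.one_mem_charDegrees
    refine ⟨fun i => if i = 0 then ⊥ else ⊤, rfl, rfl, monotone_nat_of_le_succ fun i => by simp,
      fun i => by beta_reduce; split_ifs <;> infer_instance, fun i => ⟨1, ?_⟩⟩
    exact Subgroup.commutator_le.2 fun a _ b _ => by
      rw [commutatorElement_eq_one_iff_mul_comm.2 (h1 a b)]; exact one_mem _
  | succ n ih =>
    intro G _ _ hs h
    let F := Cfsg.fittingSubgroup G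
    have hf := QuotientGroup.mk'_surjective F
    obtain ⟨N, h1, h2, h3, h4, h5⟩ := ih (G ⧸ F) inferInstance (by
      by_cases hF : F = ⊤
      · have : Subsingleton (G ⧸ F) := by rw [hF]; exact QuotientGroup.subsingleton_quotient_top
        refine le_trans ((Set.ncard_le_one H87.finite_charDegrees).2 ?_) (by omega)
        rintro _ ⟨χ, rfl⟩ _ ⟨ψ, rfl⟩
        rw [H87.deg_eq_one_of_comm (fun _ _ => Subsingleton.elim _ _) χ.2,
          H87.deg_eq_one_of_comm (fun _ _ => Subsingleton.elim _ _) ψ.2]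
      obtain ⟨b, hb1, hb2⟩ := Set.exists_max_image _ id (H87.finite_charDegrees (G := G))
        ⟨1, H87.one_mem_charDegrees⟩
      refine Nat.lt_succ_iff.1 (lt_of_lt_of_le (Set.ncard_lt_ncard
        ⟨H87.charDegrees_quotient_subset F, fun hs => ?_⟩ H87.finite_charDegrees) h)
      obtain ⟨χ, rfl⟩ := hs hb1
      have hk := H87.le_charKer_infl F (χ : G ⧸ F → ℂ)
      obtain ⟨ψ, h1, h2, -⟩ := H87.broline_garrison (H87.isIrr_infl F χ.2) (by
        by_cases h1 : H6.charKer (fun g : G => (χ : G ⧸ F → ℂ) g) ≤ F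
        · exact Or.inr ⟨le_antisymm h1 hk, inferInstance, fun e => hF (eq_top_iff.2 (e ▸ h1))⟩
        · exact Or.inl h1)
      exact h2.not_ge (hb2 _ (H87.mem_charDegrees h1)))
    have e0 : (N 0).comap (QuotientGroup.mk' F) = F := by
      rw [h1, MonoidHom.comap_bot, QuotientGroup.ker_mk']
    refine ⟨fun i => Nat.casesOn i ⊥ fun j => (N j).comap (QuotientGroup.mk' F), rfl,
      by simp [h2], monotone_nat_of_le_succ fun i => ?_, fun i => ?_, fun i => ?_⟩
    · rcases i with _ | i
      · exact bot_le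
      · exact Subgroup.comap_mono (h3 i.le_succ)
    · rcases i with _ | i
      · exact (inferInstance : (⊥ : Subgroup G).Normal)
      · exact (h4 i).comap _
    · rcases i with _ | i
      · obtain ⟨k, hk⟩ := (Subgroup.isNilpotent_iff_lowerCentralSeries F).1 inferInstance
        exact ⟨k, by simp only [e0]; exact hk.le⟩
      · obtain ⟨k, hk⟩ := h5 i
        refine ⟨k, Subgroup.map_le_iff_le_comap.1 ?_⟩
        rw [Subgroup.map_lowerCentralSeries, Subgroup.map_comap_eq_self_of_surjective hf]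
        exact hk

/-- Let G be a finite solvable group with exactly n distinct irreducible character degrees. Then G has normal subgroups 1 = N₀ ≤ N₁ ≤ ⋯ ≤ Nₙ = G with every quotient N_{i+1}/N_i nilpotent (the nilpotent length of G is at most n). -/
theorem result {G : Type*} [Group G] [Finite G] (hsolv : Group.IsSolvable G) (n : ℕ) (hcd : Nat.card {d : ℕ // ∃ χ : Cfsg.IrrCharacter G, Cfsg.charDegree (χ : G → ℂ) = d} = n) : ∃ N : Fin (n + 1) → Subgroup G, N 0 = ⊥ ∧ N (Fin.last n) = ⊤ ∧ Monotone N ∧ (∀ i, (N i).Normal) ∧ ∀ i : Fin n, ∀ h : (N i.castSucc).subgroupOf (N i.succ) |>.Normal, Group.IsNilpotent (↥(N i.succ) ⧸ (N i.castSucc).subgroupOf (N i.succ)) := by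
  rcases n with _ | n
  · exact absurd hcd (Nat.card_ne_zero.2 ⟨⟨1, H87.one_mem_charDegrees⟩,
      H87.finite_charDegrees (G := G)⟩)
  obtain ⟨N, h1, h2, h3, h4, h5⟩ := aux n G hsolv (le_of_eq hcd)
  refine ⟨fun i => N i, h1, h2, fun i j h => h3 h, fun i => h4 i, fun i h => ?_⟩
  obtain ⟨k, hk⟩ := h5 i
  refine Subgroup.nilpotent_iff_lowerCentralSeries.2 ⟨k, ?_⟩
  rw [← Subgroup.map_top_of_surjective _ (QuotientGroup.mk'_surjective _),
    ← Subgroup.map_lowerCentralSeries, Subgroup.map_eq_bot_iff, QuotientGroup.ker_mk']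
  refine Subgroup.map_le_iff_le_comap.1 ?_
  rw [Subgroup.top_subtype_lowerCentralSeries]
  exact hk

end Cfsg.Agent.S4462
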