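import Cfsg.Statements.S4471
import Mathlib
import Cfsg.Agent.Base
import Cfsg.Agent.Lib.Lin35.TwoP

set_option autoImplicit false
open Cfsg

namespace Cfsg.Agent.S4471

/-- Let p ≥ 7 be a prime and let the finite group G have a faithful irreducible character of degree n with n < 2p and n ≠ p. If the Sylow p-subgroups of G are non-abelian then p² does not divide the index of O_p(G) in G; consequently, in every case G/O_p(G) has abelian Sylow p-subgroups. -/
theorem result {G : Type*} [Group G] [Finite G] (χ : Cfsg.IrrCharacter G) (hfaith : ∀ g : G, (χ : G → ℂ) g = (χ : G → ℂ) 1 → g = 1) (n : ℕ) (hn : Cfsg.charDegree (χ : G → ℂ) = n) (p : ℕ) (hp : p.Prime) (h7 : 7 ≤ p) (hn2 : n < 2 * p) (hnp : n ≠ p) : ((∃ P : Sylow p G, ∃ x ∈ (P : Subgroup G), ∃ y ∈ (P : Subgroup G), x * y ≠ y * x) → ¬ p ^ 2 ∣ (Cfsg.pCore p G).index) ∧ ∀ Q : Sylow p (G ⧸ Cfsg.pCore p G), ∀ x ∈ (Q : Subgroup (G ⧸ Cfsg.pCore p G)), ∀ y ∈ (Q : Subgroup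 (G ⧸ Cfsg.pCore p G)), x * y = y * x := by
  haveI := Fact.mk hp
  have h1 := H35L.one_eq_of_charDegree (H6.irr_isCharacter χ.2) hn
  have key := H35L.not_sq_dvd_index χ.2 hfaith h1 h7 hn2 hnp
  refine ⟨fun ⟨P, x, hx, y, hy, h⟩ => key P fun h' => h (congrArg Subtype.val (h' ⟨x, hx⟩ ⟨y, hy⟩)),
    fun Q x hx y hy => ?_⟩
  obtain ⟨P, rfl⟩ := Sylow.mapSurjective_surjective (QuotientGroup.mk'_surjective (pCore p G)) p Q
  by_cases hab : ∀ a b : P, a * b = b * a
  · obtain ⟨a, ha, rfl⟩ := hx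
    obtain ⟨b, hb, rfl⟩ := hy
    rw [← map_mul, ← map_mul]
    exact congrArg _ (congrArg Subtype.val (hab ⟨a, ha⟩ ⟨b, hb⟩))
  set Q := P.mapSurjective (QuotientGroup.mk'_surjective (pCore p G))
  obtain ⟨k, hk⟩ := Q.isPGroup'.exists_card_eq
  have hk1 : k ≤ 1 := by
    by_contra h
    exact key P hab ((pow_dvd_pow p (by omega)).trans (hk ▸ Subgroup.card_subgroup_dvd_card _))
  haveI : IsCyclic Q := isCyclic_of_card_dvd_prime (p := p) (by
    rw [hk]; simpa using pow_dvd_pow p hk1)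
  exact congrArg Subtype.val (IsCyclic.commGroup.mul_comm (⟨x, hx⟩ : Q) ⟨y, hy⟩)

end Cfsg.Agent.S4471
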