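import Mathlib
import Cfsg.Statements.S4476
import Cfsg.Agent.Lib.Deg.FS2

set_option autoImplicit false
open Cfsg

namespace Cfsg.Agent.S4476



/-- Let G be a finite group of even order g with exactly t involutions, and put α = (g − 1)/t (a rational number). Then (a) some non-identity element x of G has at most α² conjugates; and (b) some non-principal real-valued irreducible character of G has degree at most α. -/
theorem result {G : Type*} [Group G] [Fintype G] (heven : Even (Nat.card G)) (t : ℕ) (ht : Nat.card {x : G // orderOf x = 2} = t) : (∃ x : G, x ≠ 1 ∧ ((Subgroup.centralizer ({x} : Set G)).index : ℚ) ≤ (((Nat.card G : ℚ) - 1) / t) ^ 2) ∧ ∃ χ : Cfsg.IrrCharacter G, (χ : G → ℂ) ≠ (fun _ => 1) ∧ (∀ g : G, ((χ : G → ℂ) g).im = 0) ∧ (Cfsg.charDegree (χ : G → ℂ) : ℚ) ≤ ((Nat.card G : ℚ) - 1) / t := by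
  classical
  have ht0 : (0 : ℚ) < t := by
    rw [← ht]; exact_mod_cast H87.card_invol_pos heven
  set R := (Finset.univ.erase (H87.irrOne G)).filter (fun χ : IrrCharacter G => H87.IsReal (χ : G → ℂ)) with hR
  have h1 : (t : ℚ) ≤ ∑ χ ∈ R, (charDegree (χ : G → ℂ) : ℚ) := by
    rw [← ht]; exact_mod_cast H87.card_invol_le_sum
  have h2 : ∑ χ ∈ R, (charDegree (χ : G → ℂ) : ℚ) ^ 2 ≤ (Nat.card G : ℚ) - 1 := by
    have h := H87.sum_erase_deg_sq (G := G)
    have h' : ∑ χ ∈ R, charDegree (χ : G → ℂ) ^ 2 ≤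
        ∑ χ ∈ Finset.univ.erase (H87.irrOne G), charDegree (χ : G → ℂ) ^ 2 :=
      Finset.sum_le_sum_of_subset (Finset.filter_subset _ _)
    have h'' : ∑ χ ∈ R, charDegree (χ : G → ℂ) ^ 2 + 1 ≤ Nat.card G := by omega
    have : ((∑ χ ∈ R, charDegree (χ : G → ℂ) ^ 2 + 1 : ℕ) : ℚ) ≤ Nat.card G := by exact_mod_cast h''
    push_cast at this
    linarith
  have hg : (1 : ℚ) < Nat.card G := by
    have : 2 ≤ Nat.card G := Nat.le_of_dvd Nat.card_pos heven.two_dvd
    exact_mod_cast this
  set α : ℚ := ((Nat.card G : ℚ) - 1) / t with hα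
  have hα0 : 0 < α := div_pos (by linarith) ht0
  have hαt : α * t = (Nat.card G : ℚ) - 1 := div_mul_cancel₀ _ ht0.ne'
  constructor
  · by_contra hcon
    push Not at hcon
    have h3 : (t : ℚ) ^ 2 ≤ R.card * ((Nat.card G : ℚ) - 1) :=
      calc (t : ℚ) ^ 2 ≤ (∑ χ ∈ R, (charDegree (χ : G → ℂ) : ℚ)) ^ 2 := by gcongr
        _ ≤ R.card * ∑ χ ∈ R, (charDegree (χ : G → ℂ) : ℚ) ^ 2 := sq_sum_le_card_mul_sum_sq
        _ ≤ _ := by gcongr
    have h4 : (R.card : ℚ) + 1 ≤ Nat.card (ConjClasses G) := by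
      rw [← H6.card_irr_eq_card_conjClasses, Nat.card_eq_fintype_card]
      have a1 : R.card ≤ (Finset.univ.erase (H87.irrOne G)).card :=
        Finset.card_le_card (Finset.filter_subset _ _)
      have a2 := Finset.card_erase_add_one (Finset.mem_univ (H87.irrOne G))
      rw [Finset.card_univ] at a2
      exact_mod_cast (by omega : R.card + 1 ≤ Fintype.card (IrrCharacter G))
    have h5 : ∑ g ∈ Finset.univ.erase (1 : G),
        (Nat.card (Subgroup.centralizer ({g} : Set G)) : ℚ) + Nat.card G =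
        Nat.card G * Nat.card (ConjClasses G) := by
      have h := H87.sum_card_centralizer (G := G)
      rw [← Finset.sum_erase_add _ _ (Finset.mem_univ (1 : G))] at h
      have e : Subgroup.centralizer ({1} : Set G) = ⊤ := by
        ext x; simp [Subgroup.mem_centralizer_iff]
      rw [e, Subgroup.card_top] at h
      exact_mod_cast h
    have hne : (Finset.univ.erase (1 : G)).Nonempty := by
      obtain ⟨x, hx⟩ := exists_prime_orderOf_dvd_card' 2 heven.two_dvd
      exact ⟨x, by simpa using (H87.orderOf_eq_two_iff'.1 hx).2⟩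
    have h6 : ∑ g ∈ Finset.univ.erase (1 : G),
        (Nat.card (Subgroup.centralizer ({g} : Set G)) : ℚ) * α ^ 2 <
        ∑ g ∈ Finset.univ.erase (1 : G), (Nat.card G : ℚ) := by
      refine Finset.sum_lt_sum_of_nonempty hne fun g hg => ?_
      have a := hcon g (Finset.ne_of_mem_erase hg)
      have b : (Nat.card G : ℚ) = Nat.card (Subgroup.centralizer ({g} : Set G)) *
          (Subgroup.centralizer ({g} : Set G)).index := by
        exact_mod_cast (Subgroup.card_mul_index _).symm
      have c : (0 : ℚ) < Nat.card (Subgroup.centralizer ({g} : Set G)) := by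
        exact_mod_cast Nat.card_pos
      rw [b]; gcongr
    rw [← Finset.sum_mul, Finset.sum_const, Finset.card_erase_of_mem (Finset.mem_univ _),
      Finset.card_univ, ← Nat.card_eq_fintype_card, nsmul_eq_mul,
      Nat.cast_sub (Nat.succ_le_of_lt Nat.card_pos)] at h6
    set S := ∑ g ∈ Finset.univ.erase (1 : G), (Nat.card (Subgroup.centralizer ({g} : Set G)) : ℚ)
    set g : ℚ := (Nat.card G : ℚ)
    have h7 : g * R.card ≤ S := by nlinarith
    have h8 : g * R.card * α ^ 2 < (g - 1) * g := by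
      have : g * R.card * α ^ 2 ≤ S * α ^ 2 := by gcongr
      simpa using this.trans_lt h6
    have h9 : R.card * α ^ 2 < g - 1 := by nlinarith
    have h10 : (g - 1) ^ 2 ≤ R.card * (g - 1) * α ^ 2 := by
      rw [← hαt, mul_pow, mul_comm (α ^ 2), hαt]; gcongr
    nlinarith
  · by_contra hcon
    push Not at hcon
    have hne : R.Nonempty := by
      by_contra h
      rw [Finset.not_nonempty_iff_eq_empty] at h
      rw [h, Finset.sum_empty] at h1
      linarith
    have h3 : ∑ χ ∈ R, α * (charDegree (χ : G → ℂ) : ℚ) <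
        ∑ χ ∈ R, (charDegree (χ : G → ℂ) : ℚ) ^ 2 := by
      refine Finset.sum_lt_sum_of_nonempty hne fun χ hχ => ?_
      obtain ⟨a, b⟩ := Finset.mem_filter.1 hχ
      have c := hcon χ (fun e => Finset.ne_of_mem_erase a (H87.eq_irrOne_iff.2 e)) b
      rw [pow_two]
      have d : (0 : ℚ) < charDegree (χ : G → ℂ) := by exact_mod_cast H87.deg_pos χ.2
      gcongr
    rw [← Finset.mul_sum] at h3
    have : α * t ≤ α * ∑ χ ∈ R, (charDegree (χ : G → ℂ) : ℚ) := by gcongr
    linarith

end Cfsg.Agent.S4476
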