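import Mathlib
import Cfsg.Statements.S4478
import Cfsg.Agent.Lib.Deg.FS2
import Cfsg.Agent.Lib.Deg.DefectZero

set_option autoImplicit false
open Cfsg

namespace Cfsg.Agent.S4478



/-- Let G be a finite group of even order and χ an irreducible character of G whose degree x is divisible by the full power of 2 dividing the order of G and, for every odd prime p such that G has an element of order 2p, by the full power of p dividing the order of G. Then all involutions of G are conjugate, the centralizer of every involution has order exactly x with x coprime to its index, and the Frobenius–Schur indicator of χ equals 1. -/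
theorem result {G : Type*} [Group G] [Fintype G] (heven : Even (Nat.card G)) (χ : Cfsg.IrrCharacter G) (h2 : 2 ^ (Nat.card G).factorization 2 ∣ Cfsg.charDegree (χ : G → ℂ)) (hp : ∀ p : ℕ, p.Prime → p ≠ 2 → (∃ g : G, orderOf g = 2 * p) → p ^ (Nat.card G).factorization p ∣ Cfsg.charDegree (χ : G → ℂ)) : (∀ s t : G, orderOf s = 2 → orderOf t = 2 → IsConj s t) ∧ (∀ s : G, orderOf s = 2 → Nat.card (Subgroup.centralizer ({s} : Set G)) = Cfsg.charDegree (χ : G → ℂ) ∧ (Nat.card (Subgroup.centralizer ({s} : Set G))).Coprime (Subgroup.centralizer ({s} : Set G)).index) ∧ (Nat.card G : ℂ)⁻¹ * ∑ g : G, (χ : G → ℂ) (g * g) = 1 := by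
  classical
  set x := charDegree (χ : G → ℂ) with hx
  set t := Nat.card {s : G // orderOf s = 2} with ht
  have hG0 : Nat.card G ≠ 0 := Nat.card_pos.ne'
  have hx2 : 2 ∣ x := (dvd_pow_self 2 (Nat.Prime.factorization_pos_of_dvd Nat.prime_two hG0
    heven.two_dvd).ne').trans h2
  have hx0 : 0 < x := H87.deg_pos χ.2
  have ht0 : 0 < t := H87.card_invol_pos heven
  have hne : (χ : G → ℂ) ≠ fun _ => 1 := fun e => by
    rw [hx, e, H87.deg_one] at hx2; omega
  have hsum : ∑ g, (χ : G → ℂ) g = 0 := by
    have := H6.irr_inner_ne χ.2 H6.isIrrCharacter_one hne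
    rw [H6.classInner_one_right] at this
    exact (mul_eq_zero.1 this).resolve_left (inv_ne_zero H6.card_ne_zero)
  have hev : ∀ g : G, 2 ∣ orderOf g → (χ : G → ℂ) g = 0 := fun g hg =>
    H87.eq_zero_of_pow_factorization_dvd χ.2 Nat.prime_two h2 hg
  have hodd : ∑ g ∈ Finset.univ.filter (fun g : G => ¬ 2 ∣ orderOf g), (χ : G → ℂ) (g * g) = 0 := by
    rw [← hsum, ← Finset.sum_filter_add_sum_filter_not Finset.univ (fun g : G => 2 ∣ orderOf g),
      Finset.sum_eq_zero (s := Finset.univ.filter (fun g : G => 2 ∣ orderOf g))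
        (fun g hg => hev g (Finset.mem_filter.1 hg).2), zero_add]
    have key : ∀ g : G, ¬ 2 ∣ orderOf g → orderOf (g * g) = orderOf g := fun g hg => by
      rw [← pow_two]
      exact Nat.Coprime.orderOf_pow ((Nat.Prime.coprime_iff_not_dvd Nat.prime_two).2 hg).symm
    have key2 : ∀ g : G, ¬ 2 ∣ orderOf g → g ^ (2 * ((orderOf g + 1) / 2)) = g := fun g hg => by
      rw [Nat.mul_div_cancel' (by omega), pow_succ, pow_orderOf_eq_one, one_mul]
    refine Finset.sum_nbij' (fun g => g * g) (fun g => g ^ ((orderOf g + 1) / 2)) ?_ ?_ ?_ ?_ ?_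
    · intro g hg
      simp only [Finset.mem_filter, Finset.mem_univ, true_and] at hg ⊢
      rwa [key g hg]
    · intro g hg
      simp only [Finset.mem_filter, Finset.mem_univ, true_and] at hg ⊢
      exact fun h => hg (h.trans (orderOf_pow_dvd _))
    · intro g hg
      simp only [Finset.mem_filter, Finset.mem_univ, true_and] at hg
      rw [key g hg, ← pow_two, ← pow_mul, key2 g hg]
    · intro g hg
      simp only [Finset.mem_filter, Finset.mem_univ, true_and] at hg
      rw [← pow_two, ← pow_mul, mul_comm, key2 g hg]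
    · intro g _; rfl
  have heven' : ∑ g ∈ Finset.univ.filter (fun g : G => 2 ∣ orderOf g), (χ : G → ℂ) (g * g) =
      t * x := by
    have e : ∀ g ∈ Finset.univ.filter (fun g : G => 2 ∣ orderOf g), (χ : G → ℂ) (g * g) =
        if orderOf g = 2 then (x : ℂ) else 0 := fun g hg => by
      have hg := (Finset.mem_filter.1 hg).2
      split_ifs with h
      · rw [(H87.orderOf_eq_two_iff'.1 h).1, hx, H87.deg_cast']
      · obtain ⟨m, hm⟩ := hg
        have ho : orderOf (g * g) = m := by
          rw [← pow_two, orderOf_pow' _ two_ne_zero, hm]; simp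
        have hm1 : m ≠ 1 := by rintro rfl; exact h hm
        obtain ⟨p, hp1, hp2⟩ := Nat.exists_prime_and_dvd hm1
        by_cases hp3 : p = 2
        · exact hev _ (by rw [ho, ← hp3]; exact hp2)
        · refine H87.eq_zero_of_pow_factorization_dvd χ.2 hp1 (hp p hp1 hp3 ?_) (ho ▸ hp2)
          exact ⟨g ^ (orderOf g / (2 * p)), orderOf_pow_orderOf_div (orderOf_pos g).ne'
            (by rw [hm]; exact Nat.mul_dvd_mul_left 2 hp2)⟩
    rw [Finset.sum_congr rfl e, ← Finset.sum_filter, Finset.filter_filter, Finset.sum_const,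
      nsmul_eq_mul, ht, Nat.card_eq_fintype_card, Fintype.card_subtype]
    congr 3
    exact Finset.filter_congr fun g _ => ⟨fun h => h.2, fun h => ⟨h ▸ dvd_rfl, h⟩⟩
  have hnu : (Nat.card G : ℂ) * H87.nu (χ : G → ℂ) = t * x := by
    rw [H87.card_mul_nu, ← Finset.sum_filter_add_sum_filter_not Finset.univ
      (fun g : G => 2 ∣ orderOf g), hodd, heven', add_zero]
  have hnu1 : H87.nu (χ : G → ℂ) = 1 := by
    have hpos : 0 < t * x := Nat.mul_pos ht0 hx0
    rcases H87.nu_trichotomy χ.2 with h | h | h
    · rw [h, mul_zero] at hnu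
      have : t * x = 0 := by exact_mod_cast hnu.symm
      omega
    · exact h
    · rw [h] at hnu
      have : ((t * x + Nat.card G : ℕ) : ℂ) = 0 := by push_cast; linear_combination -hnu
      have : t * x + Nat.card G = 0 := by exact_mod_cast this
      omega
  have hcard : Nat.card G = t * x := by
    rw [hnu1, mul_one] at hnu; exact_mod_cast hnu
  have hprime : ∀ s : G, orderOf s = 2 → ∀ p : ℕ, p.Prime →
      p ∣ Nat.card (Subgroup.centralizer ({s} : Set G)) → p ^ (Nat.card G).factorization p ∣ x :=
    fun s hs p hp1 hp2 => by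
      by_cases hp3 : p = 2
      · rw [hp3]; exact h2
      · have := Fact.mk hp1
        obtain ⟨y, hy⟩ := exists_prime_orderOf_dvd_card' p hp2
        refine hp p hp1 hp3 ⟨s * y, ?_⟩
        have hc : Commute s y := Subgroup.mem_centralizer_iff.1 y.2 s rfl
        rw [hc.orderOf_mul_eq_mul_orderOf_of_coprime, hs, Subgroup.orderOf_coe, hy]
        rw [hs, Subgroup.orderOf_coe, hy]
        exact (Nat.coprime_primes Nat.prime_two hp1).2 (Ne.symm hp3)
  have hdvd : ∀ s : G, orderOf s = 2 → Nat.card (Subgroup.centralizer ({s} : Set G)) ∣ x :=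
    fun s hs => by
      refine (Nat.dvd_iff_prime_pow_dvd_dvd _ _).2 fun p k hp1 hk => ?_
      rcases Nat.eq_zero_or_pos k with rfl | hk0
      · simp
      refine Dvd.dvd.trans ?_ (hprime s hs p hp1 ((dvd_pow_self p hk0.ne').trans hk))
      exact pow_dvd_pow p ((hp1.pow_dvd_iff_le_factorization hG0).1
        (hk.trans (Subgroup.card_subgroup_dvd_card _)))
  have hsub : ∀ s : G, orderOf s = 2 → {u : G | IsConj s u} ⊆ {u : G | orderOf u = 2} :=
    fun s hs u hu => by
      obtain ⟨c, rfl⟩ := isConj_iff.1 hu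
      show orderOf (c * s * c⁻¹) = 2
      rw [← hs]; exact (MulAut.conj c).orderOf_eq s
  have hidx : ∀ s : G, orderOf s = 2 → (Subgroup.centralizer ({s} : Set G)).index = t ∧
      Nat.card (Subgroup.centralizer ({s} : Set G)) = x := fun s hs => by
    have a1 : (Subgroup.centralizer ({s} : Set G)).index ≤ t := by
      rw [← H6.card_isConj_eq_index]
      exact Nat.card_mono (Set.toFinite _) (hsub s hs)
    have a2 := Nat.le_of_dvd hx0 (hdvd s hs)
    have a3 := (Subgroup.centralizer ({s} : Set G)).index_mul_card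
    rw [hcard] at a3
    have a4 : (Subgroup.centralizer ({s} : Set G)).index = t := by
      by_contra h
      have : (Subgroup.centralizer ({s} : Set G)).index < t := lt_of_le_of_ne a1 h
      nlinarith
    rw [a4] at a3
    exact ⟨a4, Nat.eq_of_mul_eq_mul_left ht0 a3⟩
  refine ⟨fun s u hs hu => ?_, fun s hs => ⟨(hidx s hs).2, ?_⟩, hnu1⟩
  · have := Set.eq_of_subset_of_ncard_le (hsub s hs) (by
      rw [← Nat.card_coe_set_eq, ← Nat.card_coe_set_eq]
      exact le_of_eq (ht.symm.trans ((hidx s hs).1.symm.trans (H6.card_isConj_eq_index s).symm)))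
    exact (this ▸ hu : u ∈ {u : G | IsConj s u})
  · rw [Nat.coprime_iff_gcd_eq_one]
    by_contra h
    obtain ⟨p, hp1, hp2⟩ := Nat.exists_prime_and_dvd h
    have b1 := hprime s hs p hp1 (hp2.trans (Nat.gcd_dvd_left _ _))
    have b2 := hp2.trans (Nat.gcd_dvd_right _ _)
    rw [(hidx s hs).1] at b2
    have b3 : p ^ ((Nat.card G).factorization p + 1) ∣ Nat.card G := by
      nth_rewrite 2 [hcard]
      rw [pow_succ']; exact Nat.mul_dvd_mul b2 b1
    exact Nat.pow_succ_factorization_not_dvd hG0 hp1 b3

end Cfsg.Agent.S4478
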