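import Cfsg.Statements.S4489
import Mathlib
import Cfsg.Agent.Base
import Cfsg.Agent.Lib.Lin35.Field

set_option autoImplicit false
open Cfsg

namespace Cfsg.Agent.S4489

/-- Let P be a finite p-group of order p^a with a > 0, and χ a faithful irreducible character of P of degree f whose field of values ℚ(χ) has degree (p − 1)·p^t over ℚ. Then a ≤ (f − 1)/(p − 1) + (t + 1)·f; in integer form, (p − 1)·a ≤ (f − 1) + (p − 1)(t + 1)·f. -/
theorem result {P : Type*} [Group P] [Finite P] (p a : ℕ) (hp : p.Prime) (ha : 0 < a) (hP : Nat.card P = p ^ a) (χ : Cfsg.IrrCharacter P) (hfaith : ∀ g : P, (χ : P → ℂ) g = (χ : P → ℂ) 1 → g = 1) (f t : ℕ) (hf : Cfsg.charDegree (χ : P → ℂ) = f) (hfield : Module.finrank ℚ (IntermediateField.adjoin ℚ (Set.range (χ : P → ℂ))) = (p - 1) * p ^ t) : (p - 1) * a ≤ (f - 1) + (p - 1) * (t + 1) * f := by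
  obtain ⟨q, rfl⟩ : ∃ q, p = q + 1 := ⟨p - 1, (Nat.succ_pred_eq_of_pos hp.pos).symm⟩
  have hq : 1 ≤ q := by have := hp.two_le; omega
  simp only [Nat.add_sub_cancel] at hfield ⊢
  haveI : FiniteDimensional ℚ (IntermediateField.adjoin ℚ (Set.range (χ : P → ℂ))) :=
    Module.finite_of_finrank_pos (by rw [hfield]; positivity)
  obtain ⟨h1, h2⟩ := H35L.index_gstab_le (χ : P → ℂ)
  have := H35L.pgroup_bound (t := t) hp _ P rfl a hP χ χ.2 hfaith f
    (H35L.one_eq_of_charDegree (H6.irr_isCharacter χ.2) hf) h1 (hfield ▸ h2)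
  obtain ⟨n, hn, hn'⟩ := H6.irr_one_pos χ.2
  have hfn : f = n := by
    exact_mod_cast (H35L.one_eq_of_charDegree (H6.irr_isCharacter χ.2) hf).symm.trans hn'
  omega

end Cfsg.Agent.S4489
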