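import Cfsg.Statements.S4497
import Mathlib
import Cfsg.Agent.Base
import Cfsg.Agent.Lib.Block.SelfCen

set_option autoImplicit false
open Cfsg

namespace Cfsg.Agent.S4497

/-- Let the finite group G contain an element x of prime order p with C_G(x) = ⟨x⟩, let t be the number of conjugacy classes of elements of order p, and let S* = O_{p′}(G) be the largest normal subgroup of order prime to p. Then S* ≤ G′; if t ≠ p − 1 the quotient G′/S* is simple (in particular non-trivial); if t = p − 1 then G′ = S*. -/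
theorem result {G : Type*} [Group G] [Finite G] (p : ℕ) (hp : p.Prime) (x : G) (hx : orderOf x = p) (hC : Subgroup.centralizer ({x} : Set G) = Subgroup.zpowers x) (t : ℕ) (ht : Nat.card {C : ConjClasses G // ∃ g ∈ C.carrier, orderOf g = p} = t) : Cfsg.pPrimeCore p G ≤ commutator G ∧ (t ≠ p - 1 → ∀ h : ((Cfsg.pPrimeCore p G).subgroupOf (commutator G)).Normal, IsSimpleGroup (↥(commutator G) ⧸ (Cfsg.pPrimeCore p G).subgroupOf (commutator G))) ∧ (t = p - 1 → commutator G = Cfsg.pPrimeCore p G) := by
  haveI := Fact.mk hp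
  have h : H84.SC p x := ⟨hx, hC⟩
  have hd := H1.not_dvd_card_pPrimeCore (p := p) (G := G)
  have hle := h.le_commutator_top hd
  refine ⟨hle, fun h1 hn => ?_, fun h1 => le_antisymm (H1.le_pPrimeCore_of_not_dvd
    (h.index_commutator ((h.relIndex_eq_one_iff ht).2 h1)).2) hle⟩
  have hx' := h.mem_commutator fun e => h1 ((h.relIndex_eq_one_iff ht).1 e)
  have h' := h.subgroup hx'
  have hnt : Nontrivial (commutator G ⧸ (pPrimeCore p G).subgroupOf (commutator G)) :=
    ⟨(⟨x, hx'⟩ : commutator G), 1, fun e => hd (h.dvd_of_mem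
      (Subgroup.mem_subgroupOf.1 ((QuotientGroup.eq_one_iff _).1 e)))⟩
  refine ⟨fun N hN => ?_⟩
  have hs := QuotientGroup.mk'_surjective ((pPrimeCore p G).subgroupOf (commutator G))
  obtain ⟨K, hK, hle', rfl⟩ : ∃ K : Subgroup (commutator G), K.Normal ∧
      (pPrimeCore p G).subgroupOf (commutator G) ≤ K ∧ N = K.map (QuotientGroup.mk' _) :=
    ⟨N.comap (QuotientGroup.mk' _), inferInstance, by
      simpa using Subgroup.ker_le_comap (QuotientGroup.mk' _) N,
      (Subgroup.map_comap_eq_self_of_surjective hs N).symm⟩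
  by_cases hK' : p ∣ Nat.card K
  · right
    have hxK := h'.mem_of_dvd hK'
    suffices K = ⊤ by rw [this, Subgroup.map_top_of_surjective _ hs]
    rw [eq_top_iff]
    rintro g -
    by_cases h2 : p ∣ Nat.card (⁅commutator G, commutator G⁆ : Subgroup G)
    · have h3 := h.commutator_le (h.mem_of_dvd h2) g.2
      rw [← Subgroup.map_subtype_commutator] at h3
      obtain ⟨g', hg', e⟩ := h3
      rw [← Subtype.ext e]
      exact h'.commutator_le hxK hg'
    · obtain ⟨a, ha, y, hy, e⟩ := h.exists_of_commutator_mem hd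
        (H1.le_pPrimeCore_of_not_dvd h2 (Subgroup.commutator_mem_commutator g.2 hx'))
      obtain ⟨n, rfl⟩ := hy
      have : g = ⟨a, hle ha⟩ * (⟨x, hx'⟩ : commutator G) ^ n := Subtype.ext e
      rw [this]
      exact K.mul_mem (hle' ha) (K.zpow_mem hxK n)
  · left
    rw [Subgroup.map_eq_bot_iff, QuotientGroup.ker_mk']
    intro g hg
    exact H1.map_subtype_pPrimeCore_le (commutator G) ⟨g, H1.le_pPrimeCore_of_not_dvd hK' hg, rfl⟩

end Cfsg.Agent.S4497
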