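import Cfsg.Statements.S4498
import Mathlib
import Cfsg.Agent.S4731

set_option autoImplicit false
open Cfsg

namespace Cfsg.Agent.S4498

set_option linter.style.haveILetI false
set_option linter.unusedVariables false

open H33

/-- Let p and q be distinct primes dividing the order of the finite group G, and suppose G has no element of order p·q. Fix maximal ideals M_p over p and M_q over q of the algebraic integers. Then the principal p-block and the principal q-block of G have a non-principal irreducible character in common. -/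
theorem result {G : Type*} [Group G] [Finite G] (p q : ℕ) [Fact p.Prime] [Fact q.Prime] (hpq : p ≠ q) (hp : p ∣ Nat.card G) (hq : q ∣ Nat.card G) (hno : ∀ g : G, orderOf g ≠ p * q) (Mp Mq : Ideal Cfsg.AlgInt) (hMp : Cfsg.IsPModular p Mp) (hMq : Cfsg.IsPModular q Mq) : ∃ χ : Cfsg.IrrCharacter G, (χ : G → ℂ) ≠ (fun _ => 1) ∧ χ ∈ Cfsg.principalBlock Mp G ∧ χ ∈ Cfsg.principalBlock Mq G := by
  haveI := isMaximal_of hMp; haveI := isMaximal_of hMq
  have hq' : q.Prime := Fact.out
  by_contra hn
  push Not at hn
  obtain ⟨y, hy⟩ := exists_prime_orderOf_dvd_card' p hp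
  obtain ⟨ω, hω⟩ := Cfsg.Agent.S4731.result p q hpq Mp Mq hMp hMq hno _ rfl _
    isPBlock_principalBlock _ isPBlock_principalBlock y (hy ▸ dvd_rfl)
  have h1 : principalBlock Mp G ∩ principalBlock Mq G = {oneIrr G} := by
    refine Set.eq_singleton_iff_unique_mem.2
      ⟨⟨oneIrr_mem_principalBlock, oneIrr_mem_principalBlock⟩, fun χ hχ => Subtype.ext ?_⟩
    by_contra h
    exact hn χ h hχ.1 hχ.2
  rw [h1, finsum_mem_singleton, ← irr_one_eq_charDegree, oneIrr_apply, oneIrr_apply, mul_one] at hω
  have h2 := congrArg (red Mq) hω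
  rw [red_one, red_mul (pow_mem (natCast_mem _ _) _) (algInt_mem_O Mq ω),
    red_pow (natCast_mem _ _), (red_natCast_eq_zero_iff hMq q).2 dvd_rfl,
    zero_pow (hq'.factorization_pos_of_dvd Nat.card_pos.ne' hq).ne', zero_mul] at h2
  exact one_ne_zero h2

end Cfsg.Agent.S4498
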