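import Cfsg.Statements.S4500
import Mathlib
import Cfsg.Agent.Base
import Cfsg.Agent.Lib.Block.HeightBF
import Cfsg.Agent.Lib.Block.Apps
import Cfsg.Agent.Lib.Char.BurnsidePQ

set_option autoImplicit false
open Cfsg

namespace Cfsg.Agent.S4500

theorem aux {G : Type*} [Group G] [Finite G] [Nontrivial G] (p q r a b c : ℕ) (hp : p.Prime)
    (hq : q.Prime) (hr : r.Prime) (hpq : p ≠ q) (hpr : p ≠ r) (ha : a ≤ 2)
    (hG : Nat.card G = p ^ a * q ^ b * r ^ c) :
    ∃ χ : IrrCharacter G, (χ : G → ℂ) ≠ (fun _ => 1) ∧ ∃ k : ℕ, charDegree (χ : G → ℂ) = q ^ k := by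
  classical
  rcases Nat.eq_zero_or_pos a with rfl | ha0
  · have : Group.IsSolvable G :=
      H8.isSolvable_of_card_dvd hq hr (a := b) (b := c) (by rw [hG]; simp)
    have hne : commutator G ≠ ⊤ := (Group.IsSolvable.commutator_lt_top_of_nontrivial G).ne
    have : Nontrivial (Abelianization G) := by
      rw [← Finite.one_lt_card_iff_nontrivial]
      exact Subgroup.one_lt_index_of_ne_top hne
    obtain ⟨x, hx⟩ := exists_ne (1 : Abelianization G)
    have : NeZero (Monoid.exponent (Abelianization G)) := ⟨Monoid.exponent_ne_zero_of_finite⟩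
    obtain ⟨l, hl⟩ := CommGroup.exists_apply_ne_one_of_hasEnoughRootsOfUnity _ ℂ hx
    obtain ⟨g, rfl⟩ := QuotientGroup.mk_surjective x
    refine ⟨⟨_, H6.isIrrCharacter_hom (l.comp Abelianization.of)⟩, fun h => hl ?_, 0,
      H84.charDegree_eq_of (by simp)⟩
    exact Units.ext (congrFun h g)
  haveI := Fact.mk hp
  letI := Fintype.ofFinite G
  obtain ⟨M, hM⟩ := H33.exists_isPModular p
  haveI := hM.2.1
  have hfa : (Nat.card G).factorization p = a := by
    rw [hG, Nat.factorization_mul (by have := hp.pos; have := hq.pos; positivity)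
      (pow_ne_zero _ hr.ne_zero), Nat.factorization_mul (pow_ne_zero _ hp.ne_zero)
      (pow_ne_zero _ hq.ne_zero)]
    simp [hp.factorization_pow, hq.factorization_pow, hr.factorization_pow, hpq, hpr]
  have hpG : p ∣ Nat.card G := by
    rw [hG, mul_assoc]; exact (dvd_pow_self p ha0.ne').mul_right _
  have hB := H84.isPBlock_principal (M := M) (G := G)
  by_contra! h
  have key : ∀ χ ∈ principalBlock M G, χ ≠ H84.irrOne G → r ∣ charDegree (χ : G → ℂ) := by
    intro χ hχ h1
    by_contra hrd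
    have hpd : ¬ p ∣ charDegree (χ : G → ℂ) := fun hpd => by
      have h2 := H84.deg_factorization_add_defect (p := p) hχ
      have h3 := (hp.dvd_iff_one_le_factorization (H84.deg_ne_zero χ)).1 hpd
      have h4 := H84.height_add_two_le hM hB hχ
      rw [H33.blockDefect_principalBlock] at h2 h4
      omega
    have h2 := H84.deg_dvd_card χ
    rw [hG, mul_assoc] at h2
    have h3 := ((hp.coprime_iff_not_dvd.2 hpd).symm.pow_right a).dvd_of_dvd_mul_left h2
    have h4 := ((hr.coprime_iff_not_dvd.2 hrd).symm.pow_right c).dvd_of_dvd_mul_right h3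
    obtain ⟨k, -, hk⟩ := (Nat.dvd_prime_pow hq).1 h4
    exact h χ (fun e => h1 (Subtype.ext e)) k hk
  obtain ⟨g, hg⟩ := exists_prime_orderOf_dvd_card' p hpG
  have h0 := H84.sum_deg_mul_eq_zero hM hB (g := g) (by rw [hg])
  rw [← Finset.add_sum_erase _ _ (H84.mem_bset.2 H84.irrOne_mem_principal)] at h0
  have h1 : IsIntegral ℤ ((r : ℂ)⁻¹) := by
    have h2 : (r : ℂ)⁻¹ = -∑ χ ∈ (H84.bset (principalBlock M G)).erase (H84.irrOne G),
        ((charDegree (χ : G → ℂ) / r : ℕ) : ℂ) * (χ : G → ℂ) g := by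
      have hr0 : (r : ℂ) ≠ 0 := Nat.cast_ne_zero.2 hr.ne_zero
      refine inv_eq_of_mul_eq_one_right ?_
      rw [mul_neg, Finset.mul_sum, Finset.sum_congr rfl fun χ hχ => by
        rw [← mul_assoc, ← Nat.cast_mul, Nat.mul_div_cancel' (key χ (H84.mem_bset.1
          (Finset.mem_of_mem_erase hχ)) (Finset.ne_of_mem_erase hχ)), H84.cast_deg]]
      simp only [H84.irrOne_coe, mul_one] at h0
      linear_combination -h0
    rw [h2]
    exact (IsIntegral.sum _ fun χ _ => (isIntegral_natCast _).mul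
      (H8.IsIrrCharacter_isIntegral χ.2 g)).neg
  have h2 : IsIntegral ℤ ((r : ℚ)⁻¹) := by
    rw [← isIntegral_algebraMap_iff (algebraMap ℚ ℂ).injective]
    simpa using h1
  obtain ⟨z, hz⟩ := IsIntegrallyClosed.isIntegral_iff.1 h2
  have h3 : (r : ℤ) * z = 1 := by
    have : (r : ℚ) ≠ 0 := Nat.cast_ne_zero.2 hr.ne_zero
    apply Int.cast_injective (α := ℚ)
    push_cast
    rw [show (z : ℚ) = (r : ℚ)⁻¹ from hz, mul_inv_cancel₀ this]
  exact hr.one_lt.ne' (by exact_mod_cast Int.eq_one_of_mul_eq_one_right (by positivity) h3)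

/-- Let G be a non-trivial finite group of order p^a · q^b · r^c with p, q, r distinct primes and a ≤ 2. Then G has a non-principal irreducible character whose degree is a power of q, and a non-principal irreducible character whose degree is a power of r; the power may be the zeroth, so a non-principal linear character serves for both. -/
theorem result {G : Type*} [Group G] [Finite G] [Nontrivial G] (p q r a b c : ℕ) (hp : p.Prime) (hq : q.Prime) (hr : r.Prime) (hpq : p ≠ q) (hpr : p ≠ r) (hqr : q ≠ r) (ha : a ≤ 2) (hG : Nat.card G = p ^ a * q ^ b * r ^ c) : (∃ χ : Cfsg.IrrCharacter G, (χ : G → ℂ) ≠ (fun _ => 1) ∧ ∃ k : ℕ, Cfsg.charDegree (χ : G → ℂ) = q ^ k) ∧ ∃ χ : Cfsg.IrrCharacter G, (χ : G → ℂ) ≠ (fun _ => 1) ∧ ∃ k : ℕ, Cfsg.charDegree (χ : G → ℂ) = r ^ k := by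
  exact ⟨aux p q r a b c hp hq hr hpq hpr ha hG,
    aux p r q a c b hp hr hq hpr hpq ha (by rw [hG]; ring)⟩

end Cfsg.Agent.S4500
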