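import Cfsg.Statements.S4502
import Mathlib
import Cfsg.Agent.Base
import Cfsg.Agent.Lib.Block.DefOne
import Cfsg.Agent.Lib.Block.Induced
import Cfsg.Agent.Lib.Block.Apps

set_option autoImplicit false
open Cfsg

namespace Cfsg.Agent.S4502

theorem card_eq_sum {G : Type*} [Group G] [Finite G] {M : Ideal AlgInt} [M.IsMaximal]
    (S : IrrCharacter G → Prop) (𝓑 : Finset (Set (IrrCharacter G))) (h𝓑 : ∀ B ∈ 𝓑, IsPBlock M B)
    (h : ∀ χ : IrrCharacter G, S χ ↔ blockOf M (χ : G → ℂ) ∈ 𝓑) :
    Nat.card {χ // S χ} = ∑ B ∈ 𝓑, Nat.card B := by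
  classical
  rw [Nat.card_eq_fintype_card, Fintype.card_subtype,
    Finset.card_eq_sum_card_fiberwise (f := fun χ : IrrCharacter G => blockOf M (χ : G → ℂ)) (t := 𝓑)
      fun χ hχ => (h χ).mp (Finset.mem_filter.mp hχ).2]
  refine Finset.sum_congr rfl fun B hB => ?_
  rw [← H84.card_bset]
  congr 1
  ext χ
  simp only [Finset.mem_filter, Finset.mem_univ, true_and, H84.mem_bset, h]
  constructor
  · rintro ⟨-, rfl⟩; exact H33.mem_blockOf_self χ
  · intro hχ
    have := H33.block_eq_blockOf (h𝓑 B hB) hχ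
    exact ⟨this ▸ hB, this.symm⟩

theorem card_root {G : Type*} [Group G] [Finite G] {p : ℕ} [Fact p.Prime] {M : Ideal AlgInt}
    [M.IsMaximal] (hM : IsPModular p M) {P : Subgroup G} (hP : Nat.card P = p) (hi : ¬ p ∣ P.index)
    {B : Set (IrrCharacter G)} (hD : IsDefectGroup p M B P) {C : Subgroup G} (hC : C = H86.Cen P)
    {b : Set (IrrCharacter C)} (hb : IsInducedBlock M C b B) {θ : IrrCharacter C} (hθ : θ ∈ b)
    (hker : ∀ c : C, (c : G) ∈ P → (θ : C → ℂ) c = (θ : C → ℂ) 1) {T : Subgroup G}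
    (hT : ∀ g : G, g ∈ T ↔ (g ∈ H86.Nor P ∧ ∀ c c' : C, (c' : G) = g * c * g⁻¹ →
      (θ : C → ℂ) c' = (θ : C → ℂ) c)) :
    Nat.card B = C.relIndex T + (p - 1) / C.relIndex T := by
  letI := Fintype.ofFinite G
  subst hC
  obtain ⟨L⟩ := H84.nonempty_log hP hi
  obtain ⟨D⟩ := L.nonempty_defOne hM hD hb hθ hker
  rw [L.relIndex_eq_card_H θ hT, D.natCard]

/-- Let G be a finite group whose order is divisible by the prime p exactly once, and let P be a Sylow p-subgroup. Then the number of irreducible characters of G of degree not divisible by p equals the number of conjugacy classes of the normalizer of P. -/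
theorem result {G : Type*} [Group G] [Finite G] (p : ℕ) [Fact p.Prime] (hdiv : p ∣ Nat.card G) (hsq : ¬ p ^ 2 ∣ Nat.card G) (P : Sylow p G) : Nat.card {χ : Cfsg.IrrCharacter G // ¬ p ∣ Cfsg.charDegree (χ : G → ℂ)} = Nat.card (ConjClasses (Subgroup.normalizer ((P : Subgroup G) : Set G))) := by
  classical
  letI := Fintype.ofFinite G
  have hp : p.Prime := Fact.out
  obtain ⟨M, hM⟩ := H33.exists_isPModular p
  haveI := H33.isMaximal_of hM
  have h1 : (Nat.card G).factorization p = 1 := by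
    have h2 := (hp.dvd_iff_one_le_factorization (Nat.card_pos (α := G)).ne').mp hdiv
    have h3 : ¬ 2 ≤ (Nat.card G).factorization p := fun h =>
      hsq ((hp.pow_dvd_iff_le_factorization (Nat.card_pos (α := G)).ne').mpr h)
    omega
  have hP : Nat.card P = p := by rw [P.card_eq_multiplicity, h1, pow_one]
  have hi := P.not_dvd_index
  generalize (P : Subgroup G) = Q at *
  obtain ⟨L⟩ := H84.nonempty_log hP hi
  have hQN : Q ≤ H86.Nor Q := Subgroup.le_normalizer
  have hCN := H86.Cen_le_Nor Q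
  have hP' : Nat.card (Q.subgroupOf (H86.Nor Q)) = p := by
    rw [← hP]; exact Nat.card_congr (Subgroup.subgroupOfEquivOfLe hQN).toEquiv
  have hi' : ¬ p ∣ (Q.subgroupOf (H86.Nor Q)).index := fun h =>
    hi (h.trans (Subgroup.relIndex_dvd_index_of_le hQN))
  have hdef : ∀ b : Set (IrrCharacter (H86.Nor Q)), IsPBlock M b →
      IsDefectGroup p M b (Q.subgroupOf (H86.Nor Q)) := fun b hb =>
    H33.defect_of_normal_sylow hM (H84.isSyl_of_card hP' hi') hb
  rw [← H6.card_irr_eq_card_conjClasses,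
    card_eq_sum (M := M) _ ((H33.blocks M G).filter fun B => IsDefectGroup p M B Q)
      (fun B hB => H33.mem_blocks.mp (Finset.mem_filter.mp hB).1),
    ← Nat.card_congr (Equiv.subtypeUnivEquiv (p := fun _ => True) fun _ => trivial),
    card_eq_sum (M := M) _ (H33.blocks M (H86.Nor Q)) (fun B hB => H33.mem_blocks.mp hB)
      fun χ => by simp [H33.mem_blocks, H33.isPBlock_blockOf]]
  · symm
    choose up h2 h3 h4 using fun (b : Set (IrrCharacter (H86.Nor Q))) (hb : b ∈ H33.blocks M _) =>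
      H33.first_main_exists hM (H33.mem_blocks.mp hb) (hdef b (H33.mem_blocks.mp hb))
    refine Finset.sum_bij up (fun b hb => Finset.mem_filter.mpr ⟨H33.mem_blocks.mpr (h2 b hb),
      h3 b hb⟩) (fun b hb b' hb' e => H33.first_main_unique hM (h3 b hb) (h4 b hb)
        (e ▸ h4 b' hb')) (fun B hB => ?_) fun f hf => ?_
    · obtain ⟨hB1, hB2⟩ := Finset.mem_filter.mp hB
      obtain ⟨b, hb1, -, hb3⟩ := H33.first_main_down hM (H33.mem_blocks.mp hB1) hB2
      exact ⟨b, H33.mem_blocks.mpr hb1, H84.induced_unique (h4 b _) hb3⟩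
    · have hf' := H33.mem_blocks.mp hf
      obtain ⟨b, θ, hb, hθ, hker⟩ := L.exists_root hM (h2 f hf) (h3 f hf)
      obtain ⟨f', hf''⟩ := H33.exists_inducedIn (H := H86.Nor Q) hM L.pgrp L.le_Cen inf_le_right
        (le_inf hCN hCN) hb.1
      obtain rfl : f' = f := H33.first_main_unique hM (h3 f hf)
        ((H33.isInducedBlock_iff_of_inducedIn hCN hf'').mp hb) (h4 f hf)
      let T : Subgroup G := (H84.inert θ).map (H86.Nor Q).subtype
      have hT : ∀ g : G, g ∈ T ↔ (g ∈ H86.Nor Q ∧ ∀ c c' : H86.Cen Q, (c' : G) = g * c * g⁻¹ →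
          (θ : H86.Cen Q → ℂ) c' = (θ : H86.Cen Q → ℂ) c) := by
        intro g
        constructor
        · rintro ⟨n, hn, rfl⟩
          refine ⟨n.2, fun c c' h => ?_⟩
          rw [show c' = H84.cE n c from Subtype.ext h]
          exact congrFun (congrArg Subtype.val hn) c
        · rintro ⟨hg, h⟩
          exact ⟨⟨g, hg⟩, Subtype.ext (funext fun c => h _ _ rfl), rfl⟩
      have hTN : T ≤ H86.Nor Q := fun g hg => ((hT g).mp hg).1
      rw [card_root hM hP hi (h3 f' hf) rfl hb hθ hker hT,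
        card_root hM hP' hi' (hdef f' hf') (H33.Cen_subgroupOf hQN).symm
          ((H33.isInducedBlockIn_iff_subgroupOf hCN hb.1 hf').mp hf'') ⟨θ, hθ, rfl⟩
          (T := T.subgroupOf (H86.Nor Q)), Subgroup.relIndex_subgroupOf hTN]
      · intro c hc
        exact hker ⟨_, c.2⟩ hc
      · intro g
        rw [Subgroup.mem_subgroupOf, hT, H33.Nor_subgroupOf hQN, Subgroup.mem_subgroupOf]
        refine and_congr_right fun hg => ⟨fun h c c' e => h ⟨_, c.2⟩ ⟨_, c'.2⟩
          (congrArg Subtype.val e), fun h c c' e => h ⟨⟨c, hCN c.2⟩, c.2⟩ ⟨⟨c', hCN c'.2⟩, c'.2⟩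
          (Subtype.ext e)⟩
  · intro χ
    have hB := H33.isPBlock_blockOf (M := M) χ
    have hm := H33.mem_blockOf_self (M := M) χ
    rw [Finset.mem_filter, H33.mem_blocks, and_iff_right hB, L.isDefectGroup_iff hM hB,
      hp.dvd_iff_one_le_factorization (H84.deg_ne_zero χ)]
    have a1 := H84.deg_factorization_add_defect (p := p) hm
    have a2 := H84.defect_le (p := p) (blockOf M (χ : G → ℂ))
    have a3 := H84.height_eq_zero_of_defect_le_one hM hB (h1 ▸ a2) hm
    omega

end Cfsg.Agent.S4502
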