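import Cfsg.Statements.S4505
import Mathlib
import Cfsg.Agent.Base
import Cfsg.Agent.Lib.Block.Defect

set_option autoImplicit false
open Cfsg

namespace Cfsg.Agent.S4505

/-- Let G be a finite group, p a prime and M a maximal ideal of the algebraic integers containing p. For every σ, the number of p-blocks of defect exactly σ is at most the number of conjugacy classes of p-regular elements whose centralizer has order divisible by p^σ but not by p^(σ+1). -/
theorem result {G : Type*} [Group G] [Finite G] (p : ℕ) [Fact p.Prime] (M : Ideal Cfsg.AlgInt) (hM : Cfsg.IsPModular p M) (σ : ℕ) : Nat.card {B : Set (Cfsg.IrrCharacter G) // Cfsg.IsPBlock M B ∧ Cfsg.blockDefect p B = σ} ≤ Nat.card {C : ConjClasses G // ∃ g : G, ConjClasses.mk g = C ∧ ¬ p ∣ orderOf g ∧ (Nat.card (Subgroup.centralizer ({g} : Set G))).factorization p = σ} := by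
  haveI := H33.isMaximal_of hM
  refine H33.card_blocks_le (M := M) _ _ (fun B h => h.1) fun B B' hB hB' χ hχ g h1 h2 =>
    ⟨g, rfl, H33.not_dvd_orderOf_of_coeff_ne_zero hM (H33.fB_mem_OG hB.1) h1, le_antisymm ?_ ?_⟩
  · exact hB.2 ▸ H33.le_blockDefect_of_coeff hM hB.1 h1
  · exact hB'.2 ▸ H33.blockDefect_le_of_centralChar hM hB'.1 hχ h2

end Cfsg.Agent.S4505
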