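import Cfsg.Statements.S4506
import Mathlib
import Cfsg.Agent.Base
import Cfsg.Agent.Lib.Block.PConj
import Cfsg.Agent.Lib.Block.DefVan
import Cfsg.Agent.Lib.Block.Apps
import Cfsg.Agent.Lib.Block.Height

set_option autoImplicit false
open Cfsg

namespace Cfsg.Agent.S4506

/-- Let G be a finite group, p a prime, p^a the p-part of the order of G and g′ its p′-part. Call two irreducible characters p-conjugate when one is obtained from the other by applying a field automorphism of ℂ that fixes the g′-th roots of unity, and let r be the number of characters p-conjugate to the irreducible character χ (χ included). Then the exponent of p in r·χ(1) is at most a; and if p^a divides r·χ(1) then p^a already divides χ(1). -/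
theorem result {G : Type*} [Group G] [Finite G] (p : ℕ) (hp : p.Prime) (χ : Cfsg.IrrCharacter G) (r : ℕ) (hr : Nat.card {ψ : Cfsg.IrrCharacter G // ∃ σ : ℂ ≃+* ℂ, σ (Complex.exp (2 * Real.pi * Complex.I / ((Nat.card G / p ^ (Nat.card G).factorization p) : ℕ))) = Complex.exp (2 * Real.pi * Complex.I / ((Nat.card G / p ^ (Nat.card G).factorization p) : ℕ)) ∧ (ψ : G → ℂ) = fun g => σ ((χ : G → ℂ) g)} = r) : (r * Cfsg.charDegree (χ : G → ℂ)).factorization p ≤ (Nat.card G).factorization p ∧ (p ^ (Nat.card G).factorization p ∣ r * Cfsg.charDegree (χ : G → ℂ) → p ^ (Nat.card G).factorization p ∣ Cfsg.charDegree (χ : G → ℂ)) := by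
  classical
  haveI := Fact.mk hp
  letI := Fintype.ofFinite G
  obtain ⟨M, hM⟩ := H33.exists_isPModular p
  haveI := hM.2.1
  have hB := H84.isPBlock_blockOf (M := M) χ
  have hχ := H84.mem_blockOf_self (M := M) χ
  generalize blockOf M (χ : G → ℂ) = B at hB hχ
  obtain ⟨O, hO, hOr, hχO⟩ : ∃ O : Set (IrrCharacter G), (∀ ψ ∈ O, ∃ (σ : ℂ →+* ℂ) (m : ℕ),
      m.Coprime (Nat.card G) ∧ m ≡ 1 [MOD ordCompl[p] (Nat.card G)] ∧
        H84.ActsAs σ (Nat.card G) m ∧ ∀ g, (ψ : G → ℂ) g = σ ((χ : G → ℂ) g)) ∧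
      Nat.card O = r ∧ χ ∈ O := by
    refine ⟨_, ?_, hr, RingEquiv.refl ℂ, rfl, rfl⟩
    rintro ψ ⟨σ, h1, h2⟩
    obtain ⟨m, h3, h4, h5⟩ := H84.exists_actsAs_of_fix (G := G) (p := p) (σ : ℂ →+* ℂ) h1
    exact ⟨σ, m, h3, h4, h5, congrFun h2⟩
  have hreg : ∀ ψ ∈ O, pRegularPart p (χ : G → ℂ) = pRegularPart p (ψ : G → ℂ) := by
    intro ψ hψ
    obtain ⟨σ, m, -, h4, h5, h6⟩ := hO ψ hψ
    exact H84.reg_ext fun g hg => by rw [h6, h5.char_of_reg h4 (H84.irr_char χ) hg]
  have hOB : O ⊆ B := fun ψ hψ => H84.mem_of_reg_eq hM hB hχ (hreg ψ hψ)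
  have hr0 : r ≠ 0 := by
    have : Nonempty O := ⟨⟨χ, hχO⟩⟩
    rw [← hOr]; exact Nat.card_pos.ne'
  rcases Nat.eq_zero_or_pos (blockDefect p B) with hd | hd
  · have h1 := (H33.blockDefect_eq_zero_iff_singleton hM hB hχ).1 hd
    obtain rfl : O = {χ} := (h1 ▸ hOB).antisymm (by simpa using hχO)
    rw [← hOr, Nat.card_unique, one_mul]
    exact ⟨H84.deg_factorization_le p χ, id⟩
  have hpr : p ^ r.factorization p ≤ r := Nat.ordProj_le p hr0
  have key : r.factorization p + blockHeight p B (χ : G → ℂ) < blockDefect p B := by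
    rw [← Nat.pow_lt_pow_iff_right hp.one_lt]
    by_cases hh : blockHeight p B (χ : G → ℂ) = 0
    · rw [hh, add_zero]
      refine hpr.trans_lt ?_
      choose! σ m h3 h4 h5 h6 using hO
      have : NeZero (p ^ blockDefect p B) := ⟨pow_ne_zero _ hp.ne_zero⟩
      have hpG : p ∣ Nat.card G :=
        (hp.dvd_iff_one_le_factorization Nat.card_pos.ne').2 (hd.trans_le (H84.defect_le B))
      have hinj : Function.Injective fun ψ : O => (m ψ : ZMod (p ^ blockDefect p B)) := by
        intro ψ ψ' e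
        refine Subtype.ext (Subtype.ext (funext fun g => ?_))
        rw [h6 _ ψ.2, h6 _ ψ'.2]
        by_cases h0 : (χ : G → ℂ) g = 0
        · simp [h0]
        obtain ⟨D, hD, hg⟩ := H34.exists_defect_of_ne_zero hM hB hχ h0
        rw [(h5 _ ψ.2).char (H84.irr_char χ), (h5 _ ψ'.2).char (H84.irr_char χ),
          H84.pow_eq_pPart_pow_mul (h4 _ ψ.2), H84.pow_eq_pPart_pow_mul (h4 _ ψ'.2),
          pow_eq_pow_iff_modEq.2 (((ZMod.natCast_eq_natCast_iff _ _ _).1 e).of_dvd
            (H33.defect_card hM hB hD ▸ D.orderOf_dvd_natCard hg))]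
      have hns : ¬ Function.Surjective fun ψ : O => (m ψ : ZMod (p ^ blockDefect p B)) := by
        intro hs
        obtain ⟨ψ, hψ⟩ := hs 0
        have := (dvd_pow_self p hd.ne').trans ((ZMod.natCast_eq_zero_iff _ _).1 hψ)
        exact hp.one_lt.ne' (Nat.eq_one_of_dvd_coprimes (h3 _ ψ.2) this hpG)
      letI := Fintype.ofFinite O
      have := Fintype.card_lt_of_injective_not_surjective _ hinj hns
      rwa [ZMod.card, ← Nat.card_eq_fintype_card, hOr] at this
    · have h1 : (p : ℤ) ^ (blockHeight p B (χ : G → ℂ) + 1) ∣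
          H84.contr p B (χ : G → ℂ) (χ : G → ℂ) := by
        by_contra h
        exact hh ((H84.not_pow_height_succ_dvd_contr_iff hM hB hχ hχ).1 h)
      have h2 := H84.sum_contr_sq hM hB hχ
      have h3 := H84.contr_self_pos hM hB hχ
      have h4 : ∀ ψ ∈ H84.bset O, H84.contr p B (χ : G → ℂ) (ψ : G → ℂ) ^ 2 =
          H84.contr p B (χ : G → ℂ) (χ : G → ℂ) ^ 2 := fun ψ hψ => by
        congr 1
        apply Int.cast_injective (α := ℂ)
        rw [H84.cast_contr hχ (H84.irr_gen _), H84.cast_contr hχ (H84.irr_gen _),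
          ← H84.inner_reg_reg, ← hreg ψ (H84.mem_bset.1 hψ), H84.inner_reg_reg]
      have h5 := Finset.sum_le_sum_of_subset_of_nonneg
        (f := fun ψ : IrrCharacter G => H84.contr p B (χ : G → ℂ) (ψ : G → ℂ) ^ 2)
        (s := H84.bset O) (t := H84.bset B)
        (fun ψ hψ => H84.mem_bset.2 (hOB (H84.mem_bset.1 hψ))) fun _ _ _ => sq_nonneg _
      rw [Finset.sum_congr rfl h4, h2, Finset.sum_const, H84.card_bset, hOr, nsmul_eq_mul, sq,
        ← mul_assoc] at h5
      have h6 := le_of_mul_le_mul_right h5 h3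
      have h7 := Int.le_of_dvd h3 h1
      have h8 : (r : ℤ) * p ^ (blockHeight p B (χ : G → ℂ) + 1) ≤ p ^ blockDefect p B :=
        (mul_le_mul_of_nonneg_left h7 (Int.natCast_nonneg r)).trans h6
      have h9 : r * p ^ (blockHeight p B (χ : G → ℂ) + 1) ≤ p ^ blockDefect p B := by
        exact_mod_cast h8
      refine lt_of_lt_of_le ?_ ((Nat.mul_le_mul_right _ hpr).trans h9)
      rw [← pow_add]
      exact Nat.pow_lt_pow_right hp.one_lt (by omega)
  have h1 := H84.deg_factorization_add_defect (p := p) hχ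
  have h2 : (r * charDegree (χ : G → ℂ)).factorization p < (Nat.card G).factorization p := by
    rw [Nat.factorization_mul hr0 (H84.deg_ne_zero χ), Finsupp.add_apply]; omega
  refine ⟨h2.le, fun h => absurd ?_ h2.not_ge⟩
  exact (hp.pow_dvd_iff_le_factorization (mul_ne_zero hr0 (H84.deg_ne_zero χ))).1 h

end Cfsg.Agent.S4506
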