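import Cfsg.Statements.S4507
import Mathlib
import Cfsg.Agent.Base
import Cfsg.Agent.Lib.Block.PConj

set_option autoImplicit false
open Cfsg

namespace Cfsg.Agent.S4507

/-- Let G be a finite group whose order g is divisible by the prime p exactly once, g′ = g/p, and fix a maximal ideal M of the algebraic integers containing p. Call two irreducible characters p-conjugate when a field automorphism of ℂ fixing the g′-th roots of unity carries one to the other. Let B be a p-block of positive defect (its defect group is a Sylow p-subgroup). Then B contains a subset Y (the exceptional family) such that: Y is a full p-conjugacy class (its members are pairwise p-conjugate and every p-conjugate of a member of Y lies in Y); every member of B outside Y is p-conjugate only to itself; the size t of Y divides p − 1 and B has exactly t + (p − 1)/t members; and there are signs δ_χ = ±1 (χ ∈ B) such that for every p-regular element x and every θ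 ∈ Y, Σ_{χ ∈ B ∖ Y} δ_χ χ(x) + δ_θ θ(x) = 0. -/
theorem result {G : Type*} [Group G] [Finite G] (p : ℕ) [Fact p.Prime] (M : Ideal Cfsg.AlgInt) (hM : Cfsg.IsPModular p M) (hdiv : p ∣ Nat.card G) (hsq : ¬ p ^ 2 ∣ Nat.card G) (B : Set (Cfsg.IrrCharacter G)) (hB : Cfsg.IsPBlock M B) (hd : 0 < Cfsg.blockDefect p B) : ∃ Y : Set (Cfsg.IrrCharacter G), Y ⊆ B ∧ Y.Nonempty ∧ (∀ θ ∈ Y, ∀ ψ : Cfsg.IrrCharacter G, (∃ σ : ℂ ≃+* ℂ, σ (Complex.exp (2 * Real.pi * Complex.I / ((Nat.card G / p ^ (Nat.card G).factorization p) : ℕ))) = Complex.exp (2 * Real.pi * Complex.I / ((Nat.card G / p ^ (Nat.card G).factorization p) : ℕ)) ∧ (ψ : G → ℂ) = fun g => σ ((θ : G → ℂ) g)) ↔ ψ ∈ Y) ∧ (∀ χ ∈ B, χ ∉ Y → ∀ ψ : Cfsg.IrrCharacter G, (∃ σ : ℂ ≃+* ℂ, σ (Complex.exp (2 * Real.pi * Complex.I / ((Nat.card G / p ^ (Nat.card G).factorization p) : ℕ))) = Complex.exp (2 * Real.pi * Complex.I / ((Nat.card G / p ^ (Nat.card G).factorization p) : ℕ)) ∧ (ψ : G → ℂ) = fun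 g => σ ((χ : G → ℂ) g)) → ψ = χ) ∧ Nat.card Y ∣ p - 1 ∧ Nat.card B = Nat.card Y + (p - 1) / Nat.card Y ∧ ∃ δ : Cfsg.IrrCharacter G → ℤ, (∀ χ ∈ B, δ χ = 1 ∨ δ χ = -1) ∧ ∀ x : G, ¬ p ∣ orderOf x → ∀ θ ∈ Y, (∑ᶠ χ ∈ B \ Y, (δ χ : ℂ) * (χ : G → ℂ) x) + (δ θ : ℂ) * (θ : G → ℂ) x = 0 := by
  classical
  letI := Fintype.ofFinite G
  haveI := H33.isMaximal_of hM
  have hp : p.Prime := Fact.out
  obtain ⟨P⟩ : Nonempty (Sylow p G) := inferInstance
  have hP : Nat.card P = p := by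
    have h1 : (Nat.card G).factorization p = 1 := by
      have h2 := (hp.dvd_iff_one_le_factorization (Nat.card_pos (α := G)).ne').mp hdiv
      have h3 : ¬ 2 ≤ (Nat.card G).factorization p := fun h =>
        hsq ((hp.pow_dvd_iff_le_factorization (Nat.card_pos (α := G)).ne').mpr h)
      omega
    rw [P.card_eq_multiplicity, h1, pow_one]
  obtain ⟨L⟩ := H84.nonempty_log (P := (P : Subgroup G)) hP P.not_dvd_index
  have hD := (L.isDefectGroup_iff hM hB).mpr hd
  obtain ⟨b, θ, hb, hθ, h⟩ := L.exists_root hM hB hD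
  obtain ⟨D⟩ := L.nonempty_defOne hM hD hb hθ h
  have hunit : ∀ m : ℕ, m.Coprime (Nat.card G) → ∃ k : (ZMod p)ˣ, (k : ZMod p) = m := fun m hm =>
    ⟨ZMod.unitOfCoprime m (hm.of_dvd_right hdiv), rfl⟩
  have he := L.card_H_dvd θ
  have hp1 : 0 < p - 1 := Nat.sub_pos_of_lt hp.one_lt
  refine ⟨Set.range D.ψ, ?_, ⟨_, 1, rfl⟩, ?_, ?_, ?_, ?_, ?_⟩
  · rintro _ ⟨i, rfl⟩; exact D.ψ_mem i
  · rintro _ ⟨i, rfl⟩ ψ
    constructor
    · rintro ⟨σ, h1, h2⟩
      obtain ⟨m, hm, hm1, hσ⟩ := H84.exists_actsAs_of_fix (G := G) (p := p) (σ : ℂ →+* ℂ) h1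
      obtain ⟨k, hk⟩ := hunit m hm
      exact ⟨i * k, Subtype.ext (h2 ▸ funext fun g => (D.map_ψ h hσ hm1 i k hk g).symm)⟩
    · rintro ⟨j, rfl⟩
      obtain ⟨σ, m, hm, hm1, hmk, hσ, h1⟩ := H84.exists_fix_modEq (G := G) (p := p)
        (k := ((i⁻¹ * j : (ZMod p)ˣ) : ZMod p).val) (by
          rw [← ZMod.natCast_eq_zero_iff, ZMod.natCast_zmod_val]; exact Units.ne_zero _)
      rw [L.factorization_card, pow_one, ← ZMod.natCast_eq_natCast_iff, ZMod.natCast_zmod_val]
        at hmk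
      refine ⟨σ, h1, funext fun g => ?_⟩
      have := D.map_ψ h hσ hm1 i _ hmk.symm g
      rw [mul_inv_cancel_left] at this
      exact this.symm
  · rintro χ hχ hn ψ ⟨σ, h1, h2⟩
    obtain ⟨m, hm, hm1, hσ⟩ := H84.exists_actsAs_of_fix (G := G) (p := p) (σ : ℂ →+* ℂ) h1
    have hX : χ ∈ D.X := ((D.mem_iff χ).mp hχ).resolve_right hn
    exact Subtype.ext (h2 ▸ funext fun g => D.map_X h hσ hm1 hX g)
  · rw [D.natCard_range]; exact Nat.div_dvd_of_dvd he
  · rw [D.natCard_range, D.natCard, Nat.div_div_self he hp1.ne', add_comm]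
  · refine ⟨fun χ => if χ ∈ D.X then D.εX χ else -D.ε, fun χ _ => ?_, ?_⟩
    · by_cases hχ : χ ∈ D.X
      · simpa [hχ] using D.signX χ hχ
      · rcases D.sign with h | h <;> simp [hχ, h]
    · rintro x hx _ ⟨i, rfl⟩
      rw [D.diff_range, finsum_mem_coe_finset]
      simp only [D.not_mem i, if_false]
      rw [Finset.sum_congr rfl fun χ hχ => by rw [if_pos hχ], ← D.reg_rel i hx]
      simp

end Cfsg.Agent.S4507
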