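import Cfsg.Statements.S4509
import Mathlib
import Cfsg.Agent.Base
import Cfsg.Agent.Lib.Block.SelfCen

set_option autoImplicit false
open Cfsg
open scoped commutatorElement

namespace Cfsg.Agent.S4509

/-- Let the finite group G contain an element x of prime order p with C_G(x) = ⟨x⟩; let t be the number of conjugacy classes of elements of order p and 1 + n·p the number of subgroups of order p. Then G has a normal subgroup of order 1 + n·p if and only if either t = p − 1, or t < p − 1 and G″ ≠ G′. Moreover, if t = p − 1 then G′ has order 1 + n·p and G/G′ is cyclic of order p; and if t < p − 1 and G″ ≠ G′ then G″ has order 1 + n·p and G′ has order p·(1 + n·p). -/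
theorem result {G : Type*} [Group G] [Finite G] (p : ℕ) (hp : p.Prime) (x : G) (hx : orderOf x = p) (hC : Subgroup.centralizer ({x} : Set G) = Subgroup.zpowers x) (t : ℕ) (ht : Nat.card {C : ConjClasses G // ∃ g ∈ C.carrier, orderOf g = p} = t) (n : ℕ) (hn : Nat.card {H : Subgroup G // Nat.card H = p} = 1 + n * p) : ((∃ S : Subgroup G, S.Normal ∧ Nat.card S = 1 + n * p) ↔ (t = p - 1 ∨ (t < p - 1 ∧ derivedSeries G 2 ≠ derivedSeries G 1))) ∧ (t = p - 1 → Nat.card (commutator G) = 1 + n * p ∧ IsCyclic (G ⧸ commutator G) ∧ (commutator G).index = p) ∧ (t < p - 1 → derivedSeries G 2 ≠ derivedSeries G 1 → Nat.card (derivedSeries G 2) = 1 + n * p ∧ Nat.card (commutator G) = p * (1 + n * p)) := by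
  haveI := Fact.mk hp
  have h : H84.SC p x := ⟨hx, hC⟩
  rw [H84.card_subgroups_eq h.card h.ind] at hn
  have hcard := h.card_eq
  rw [hn] at hcard
  have ht' := h.classes_le ht
  have he := h.relIndex_eq_one_iff ht
  have d1 : derivedSeries G 1 = commutator G := derivedSeries_one G
  have d2 : derivedSeries G 2 = ⁅commutator G, commutator G⁆ := by rw [derivedSeries_succ, d1]
  have hA : t = p - 1 → Nat.card (commutator G) = 1 + n * p ∧ IsCyclic (G ⧸ commutator G) ∧
      (commutator G).index = p := fun h1 => by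
    have h2 := (h.index_commutator (he.2 h1)).1
    refine ⟨?_, isCyclic_of_prime_card h2, h2⟩
    rw [he.2 h1, mul_one, ← (commutator G).index_mul_card, h2] at hcard
    exact Nat.eq_of_mul_eq_mul_left hp.pos hcard
  have hB : t < p - 1 → derivedSeries G 2 ≠ derivedSeries G 1 →
      Nat.card (derivedSeries G 2) = 1 + n * p ∧ Nat.card (commutator G) = p * (1 + n * p) := by
    intro h1 h2
    have hx' := h.mem_commutator fun e => h1.ne (he.1 e)
    have hle : derivedSeries G 2 ≤ commutator G := d2 ▸ Subgroup.commutator_le_left _ _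
    have hd : ¬ p ∣ Nat.card (derivedSeries G 2) := fun hd =>
      h2 (d1 ▸ le_antisymm hle (h.commutator_le (h.mem_of_dvd hd)))
    have h3 : commutator G = Subgroup.zpowers x ⊔ derivedSeries G 2 := by
      refine le_antisymm (fun g hg => ?_) (sup_le (Subgroup.zpowers_le.2 hx') hle)
      obtain ⟨a, ha, y, hy, rfl⟩ := h.exists_of_commutator_mem hd (g := g)
        (d2 ▸ Subgroup.commutator_mem_commutator hg hx')
      exact Subgroup.mul_mem _ (Subgroup.mem_sup_right ha) (Subgroup.mem_sup_left hy)
    have h4 : H86.Nor (Subgroup.zpowers x) ⊔ derivedSeries G 2 = ⊤ := by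
      rw [eq_top_iff, ← H84.Nor_sup_eq_top h.card h.ind (Subgroup.zpowers_le.2 hx'), h3]
      exact sup_le le_sup_left (sup_le_sup_right Subgroup.le_normalizer _)
    have h5 := h.card_mul_index_sup hd
    rw [h4, Subgroup.index_top, mul_one, hn] at h5
    refine ⟨h5, ?_⟩
    have h6 : (derivedSeries G 2).relIndex (commutator G) = p := by
      rw [h3, Subgroup.relIndex_sup_right, ← Subgroup.inf_relIndex_right, ← h.card,
        ← Subgroup.relIndex_bot_left]
      congr 1
      rw [eq_bot_iff]
      exact fun s hs => h.eq_one_of_mem hd hs.1 hs.2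
    rw [← h5, ← h6, Subgroup.relIndex, ← ((derivedSeries G 2).subgroupOf (commutator G)).index_mul_card,
      Nat.card_congr (Subgroup.subgroupOfEquivOfLe hle).toEquiv]
  refine ⟨⟨?_, ?_⟩, hA, hB⟩
  · rintro ⟨S, hS, hSc⟩
    refine ht'.eq_or_lt.imp_right fun h1 => ⟨h1, fun h2 => ?_⟩
    have hd : ¬ p ∣ Nat.card S := by
      rw [hSc, Nat.dvd_add_left (dvd_mul_left p n), Nat.dvd_one]
      exact hp.one_lt.ne'
    have h5 := h.card_mul_index_sup hd
    rw [hn, hSc, Nat.mul_eq_left (by omega), Subgroup.index_eq_one] at h5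
    -- modulo `S` the group is an image of the normalizer
    have hPN : ∀ a ∈ H86.Nor (Subgroup.zpowers x), ∀ b ∈ H86.Nor (Subgroup.zpowers x),
        ⁅a, b⁆ ∈ Subgroup.zpowers x := fun a ha b hb =>
      h.Cen_eq ▸ H84.commutator_mem_Cen h.card h.ind ha hb
    have hs := QuotientGroup.mk'_surjective S
    have h6 : (H86.Nor (Subgroup.zpowers x)).map (QuotientGroup.mk' S) = ⊤ := by
      rw [← Subgroup.map_top_of_surjective _ hs, ← h5, Subgroup.map_sup,
        (Subgroup.map_eq_bot_iff S).2 (by simp), sup_bot_eq]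
    have h7 : (commutator G).map (QuotientGroup.mk' S) ≤
        (Subgroup.zpowers x).map (QuotientGroup.mk' S) := by
      rw [commutator_def, Subgroup.map_commutator, Subgroup.map_top_of_surjective _ hs, ← h6,
        ← Subgroup.map_commutator]
      exact Subgroup.map_mono (Subgroup.commutator_le.2 hPN)
    have h8 : (derivedSeries G 2).map (QuotientGroup.mk' S) = ⊥ := by
      rw [d2, Subgroup.map_commutator, eq_bot_iff]
      refine (Subgroup.commutator_mono h7 h7).trans ?_
      rw [← Subgroup.map_commutator, Subgroup.commutator_eq_bot_iff_le_centralizer.2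
        (H84.le_Cen_of_card h.card), Subgroup.map_bot]
    rw [h2, d1, Subgroup.map_eq_bot_iff, QuotientGroup.ker_mk'] at h8
    exact hd (h.dvd_of_mem (h8 (h.mem_commutator fun e => h1.ne (he.1 e))))
  · rintro (h1 | ⟨h1, h2⟩)
    · exact ⟨_, inferInstance, (hA h1).1⟩
    · exact ⟨_, inferInstance, (hB h1 h2).1⟩

end Cfsg.Agent.S4509
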