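import Cfsg.Statements.S4510
import Mathlib
import Cfsg.Agent.Base
import Cfsg.Agent.Lib.Block.Defect

set_option autoImplicit false
open Cfsg

namespace Cfsg.Agent.S4510

/-- Let G be a finite group, p a prime, M a maximal ideal of the algebraic integers containing p, and call the defect of a conjugacy class the exponent of p in the order of the centralizer of its elements. Two irreducible characters lying in p-blocks of defect exactly d lie in the same block if and only if their central characters (class size times χ(x)/χ(1)) agree modulo the local ideal at M at every p-regular element x whose class has defect exactly d. -/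
theorem result {G : Type*} [Group G] [Finite G] (p : ℕ) [Fact p.Prime] (M : Ideal Cfsg.AlgInt) (hM : Cfsg.IsPModular p M) (d : ℕ) (χ ψ : Cfsg.IrrCharacter G) (hχ : Cfsg.blockDefect p (Cfsg.blockOf M (χ : G → ℂ)) = d) (hψ : Cfsg.blockDefect p (Cfsg.blockOf M (ψ : G → ℂ)) = d) : Cfsg.SameBlock M (χ : G → ℂ) (ψ : G → ℂ) ↔ ∀ x : G, ¬ p ∣ orderOf x → (Nat.card (Subgroup.centralizer ({x} : Set G))).factorization p = d → Cfsg.MemLocalIdeal M (Cfsg.centralChar (χ : G → ℂ) x - Cfsg.centralChar (ψ : G → ℂ) x) := by
  haveI := H33.isMaximal_of hM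
  refine ⟨fun h x _ _ => h x, fun h => ?_⟩
  have hB := H33.isPBlock_blockOf (M := M) ψ
  have hB' := H33.isPBlock_blockOf (M := M) χ
  refine H33.sameBlock_symm (H33.mem_blockOf.mp ((H33.lam_eB_eq_one_iff hB).mp ?_))
  rw [← H33.lam_eB_of_mem hB (H33.mem_blockOf_self ψ)]
  refine (H33.isCent_eB _).linearMap_eq' _ _ fun g hg => ?_
  rw [H33.coeff_eB] at hg
  rw [H33.lam_classSum M (H6.irr_isClassFunction χ.2), H33.lam_classSum M (H6.irr_isClassFunction ψ.2)]
  have h1 := H33.le_blockDefect_of_coeff hM hB hg
  rcases h1.eq_or_lt with h2 | h2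
  · exact (H33.mem_O_and_red_eq_of_sub (h g (H33.not_dvd_orderOf_of_coeff_ne_zero hM
      (H33.fB_mem_OG hB) hg) (h2.trans hψ)) (H33.centralChar_mem_O M ψ g)).2
  · have a1 : H33.red M (centralChar (χ : G → ℂ) g) = 0 := by
      by_contra hne
      have := H33.blockDefect_le_of_centralChar hM hB' (H33.mem_blockOf_self χ) hne
      omega
    have a2 : H33.red M (centralChar (ψ : G → ℂ) g) = 0 := by
      by_contra hne
      have := H33.blockDefect_le_of_centralChar hM hB (H33.mem_blockOf_self ψ) hne
      omega
    rw [a1, a2]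

end Cfsg.Agent.S4510
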