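import Cfsg.Statements.S4513
import Mathlib
import Cfsg.Agent.Base
import Cfsg.Agent.Lib.Block.SubCount
import Cfsg.Agent.Lib.Block.Bridge

set_option autoImplicit false
open Cfsg

namespace Cfsg.Agent.S4513

/-- Blocks of defect one for p = 2. Let M be a maximal ideal of the algebraic integers containing 2, B a 2-block of the finite group G whose defect group is the subgroup generated by an involution x, C = C_G(x), b a block of C inducing B and θ a member of b taking the same value at x as at 1 (there is exactly one). Then B consists of exactly two irreducible characters, which agree on every element of odd order, and they can be labelled χ₁, χ₂ with signs ε₁, ε₂ = ±1, ε₁ε₂ = −1, such that χᵢ(x y) = εᵢ θ(y) for every element y of C of odd order. -/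
theorem result {G : Type*} [Group G] [Finite G] (M : Ideal Cfsg.AlgInt) (hM : Cfsg.IsPModular 2 M) (x : G) (hx : orderOf x = 2)
    (B : Set (Cfsg.IrrCharacter G)) (hB : Cfsg.IsPBlock M B) (hBD : Cfsg.IsDefectGroup 2 M B (Subgroup.zpowers x))
    (b : Set (Cfsg.IrrCharacter ↥(Subgroup.centralizer ({x} : Set G)))) (hb : Cfsg.IsInducedBlock M (Subgroup.centralizer ({x} : Set G)) b B)
    (θ : Cfsg.IrrCharacter ↥(Subgroup.centralizer ({x} : Set G))) (hθ : θ ∈ b)
    (hθx : ∀ z : ↥(Subgroup.centralizer ({x} : Set G)), (z : G) = x → (θ : ↥(Subgroup.centralizer ({x} : Set G)) → ℂ) z = (θ : ↥(Subgroup.centralizer ({x} : Set G)) → ℂ) 1) :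
    Nat.card B = 2 ∧ (∀ χ ∈ B, ∀ ψ ∈ B, ∀ g : G, ¬ 2 ∣ orderOf g → (χ : G → ℂ) g = (ψ : G → ℂ) g) ∧
      ∃ χ₁ ∈ B, ∃ χ₂ ∈ B, χ₁ ≠ χ₂ ∧ ∃ ε₁ ε₂ : ℤ, (ε₁ = 1 ∨ ε₁ = -1) ∧ (ε₂ = 1 ∨ ε₂ = -1) ∧ ε₁ * ε₂ = -1 ∧
        ∀ y : ↥(Subgroup.centralizer ({x} : Set G)), ¬ 2 ∣ orderOf y →
          (χ₁ : G → ℂ) (x * y) = (ε₁ : ℂ) * (θ : ↥(Subgroup.centralizer ({x} : Set G)) → ℂ) y ∧ (χ₂ : G → ℂ) (x * y) = (ε₂ : ℂ) * (θ : ↥(Subgroup.centralizer ({x} : Set G)) → ℂ) y := by
  classical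
  letI := Fintype.ofFinite G
  haveI := H33.isMaximal_of hM
  have hC : H84.IsCen x (Subgroup.centralizer ({x} : Set G)) := H84.isCen_singleton x
  have hCz : H86.Cen (Subgroup.zpowers x) = Subgroup.centralizer ({x} : Set G) :=
    (H84.isCen_zpowers x).eq
  generalize Subgroup.centralizer ({x} : Set G) = C at *
  have hx1 : x ≠ 1 := fun h => by simp [h] at hx
  have hxp : H35.IsPElt 2 x := ⟨1, by rw [hx, pow_one]⟩
  have hx2 : x ^ 2 = 1 := hx ▸ pow_orderOf_eq_one x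
  have hd : blockDefect 2 B = 1 := by
    have := H33.defect_card hM hB hBD
    rw [Nat.card_zpowers, hx] at this
    exact (Nat.pow_right_injective le_rfl (this.symm.trans (pow_one 2).symm))
  have hle : Subgroup.zpowers x ≤ C := Subgroup.zpowers_le_of_mem hC.self_mem
  have hbD := H33.defect_of_induced hM hle hCz.le (hCz ▸ H86.Cen_le_Nor _) hb hBD
  have hmem : ∀ z : C, z ∈ (Subgroup.zpowers x).subgroupOf C → z = 1 ∨ (z : G) = x := by
    intro z hz
    obtain ⟨k, hk⟩ := (mem_powers_iff_mem_zpowers (x := x) (y := z)).mpr hz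
    have hk' : x ^ (k % 2) = z := by rw [← hx, pow_mod_orderOf]; exact hk
    rcases Nat.mod_two_eq_zero_or_one k with h | h <;> rw [h] at hk'
    · exact Or.inl (Subtype.ext (by simpa using hk'.symm))
    · exact Or.inr (by simpa using hk'.symm)
  have hcen : (Subgroup.zpowers x).subgroupOf C ≤ Subgroup.center C := fun z hz => by
    rcases hmem z hz with h | h
    · exact h ▸ one_mem _
    · exact (show z = ⟨x, hC.self_mem⟩ from Subtype.ext h) ▸ H84.mem_center_of_isCen hC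
  have hG := H35.sup_Cen_of_le_center hcen
  have hbase := H35.isBase_of_canonical hM hG hb.1 hbD hθ fun z hz => by
    rcases hmem z hz with h | h
    · rw [h]
    · exact hθx z h
  have hPp := H33.defect_isPGroup hbD
  have hreg : ∀ ψ ∈ b, pRegularPart 2 (ψ : C → ℂ) = pRegularPart 2 (θ : C → ℂ) := by
    intro ψ hψ
    rw [H33.block_eq_blockOf hb.1 hθ, hbase.blockOf_eq_range hM hPp hG] at hψ
    obtain ⟨ξ, rfl⟩ := hψ
    rw [H35.IsBase.coe_canonI, H35.reg_canon, H6.irr_one_eq_one_of_comm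
      (fun a b => Subtype.ext (Subgroup.mem_center_iff.mp (hcen b.2) a)) ξ.2, one_smul]
  have hnorm : 2 * classInner (pRegularPart 2 (θ : C → ℂ)) θ = 1 := by
    have := hbase.norm
    rwa [Nat.card_congr (Subgroup.subgroupOfEquivOfLe hle).toEquiv, Nat.card_zpowers, hx] at this
  have hdint : ∀ χ : IrrCharacter G, ∃ d : ℤ,
      H84.sub 2 x C b χ = (d : ℂ) • pRegularPart 2 (θ : C → ℂ) := by
    intro χ
    choose n hn using fun ψ : IrrCharacter C => H6.gen_inner_int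
      (H6.char_isGen (H6.isCharacter_restrict C (H84.irr_char χ))) (H84.irr_gen ψ)
    have : ∀ ψ : IrrCharacter C, ∃ e : ℤ, H84.cen x hC ψ = e := fun ψ => by
      rcases sq_eq_one_iff.mp (H84.cen_pow hC ψ hx2) with h | h
      · exact ⟨1, by simp [h]⟩
      · exact ⟨-1, by simp [h]⟩
    choose e he using this
    refine ⟨∑ ψ ∈ H84.bset b, e ψ * n ψ, ?_⟩
    rw [H84.sub_eq_sum hC, Int.cast_sum, Finset.sum_smul]
    exact Finset.sum_congr rfl fun ψ hψ => by
      rw [hreg ψ (H84.mem_bset.mp hψ), he, hn, Int.cast_mul]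
  choose d hdχ using hdint
  have hl := H84.blockRank_eq_one_of_sup hM hb.1 hbD hG
  have hk := H84.four_mul_card_le hM hB
  rw [hd] at hk
  have hsum := H84.rank_add_sum_le_card hM hxp hx1 hC hB
  have hlB := H84.blockRank_pos (p := 2) (H84.block_nonempty hB)
  have hbm := H84.mem_indBlocks.mpr hb
  rw [← Finset.add_sum_erase _ _ hbm, hl] at hsum
  have hk2 : Nat.card B = 2 := by omega
  have hind : H84.indBlocks M C B = {b} := by
    refine Finset.eq_singleton_iff_unique_mem.mpr ⟨hbm, fun b' hb' => ?_⟩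
    by_contra hne
    have h1 := Finset.single_le_sum (f := fun b => blockRank 2 b) (fun _ _ => Nat.zero_le _)
      (Finset.mem_erase.mpr ⟨hne, hb'⟩)
    have h2 := H84.blockRank_pos (p := 2) (H84.block_nonempty (H84.mem_indBlocks.mp hb').1)
    omega
  have hval : ∀ χ ∈ B, ∀ y : C, ¬ 2 ∣ orderOf y →
      (χ : G → ℂ) (x * y) = d χ * (θ : C → ℂ) y := by
    intro χ hχ y hy
    have := congrFun (H84.sum_indBlocks_sub hM hxp hC hB hχ) y
    rw [hind, Finset.sum_singleton, hdχ, Pi.smul_apply, H84.reg_of_reg _ hy,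
      H84.reg_of_reg _ hy] at this
    exact this.symm
  obtain ⟨χ₁, χ₂, hne, hBs⟩ := Finset.card_eq_two.mp ((H84.card_bset B).trans hk2)
  have m1 : χ₁ ∈ B := H84.mem_bset.mp (hBs ▸ by simp)
  have m2 : χ₂ ∈ B := H84.mem_bset.mp (hBs ▸ by simp)
  have hsq : d χ₁ ^ 2 + d χ₂ ^ 2 = 2 := by
    have := H84.sum_inner_sub_sub hM hxp hC hb
    rw [hBs, Finset.sum_pair hne, hdχ, hdχ, hl] at this
    simp only [H6.classInner_smul_left, H6.classInner_smul_right, H84.inner_reg_reg,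
      map_intCast] at this
    apply Int.cast_injective (α := ℂ)
    push_cast at this ⊢
    linear_combination 2 * this - ((d χ₁ : ℂ) ^ 2 + (d χ₂ : ℂ) ^ 2) * hnorm
  have hdeg : (charDegree (χ₁ : G → ℂ) : ℤ) * d χ₁ + (charDegree (χ₂ : G → ℂ) : ℤ) * d χ₂ = 0 := by
    have := H84.sum_deg_mul_eq_zero hM hB (g := x * (1 : C)) (by simp [hx])
    rw [hBs, Finset.sum_pair hne, hval _ m1 1 H35.not_dvd_orderOf_one,
      hval _ m2 1 H35.not_dvd_orderOf_one, ← H84.cast_deg χ₁, ← H84.cast_deg χ₂] at this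
    apply Int.cast_injective (α := ℂ)
    apply mul_right_cancel₀ (H84.irr_one_ne_zero θ)
    push_cast
    linear_combination this
  have p1 := H84.deg_pos χ₁
  have p2 := H84.deg_pos χ₂
  have b1 : -1 ≤ d χ₁ ∧ d χ₁ ≤ 1 := by constructor <;> nlinarith [sq_nonneg (d χ₂)]
  have b2 : -1 ≤ d χ₂ ∧ d χ₂ ≤ 1 := by constructor <;> nlinarith [sq_nonneg (d χ₁)]
  have hall : (d χ₁ = 1 ∨ d χ₁ = -1) ∧ (d χ₂ = 1 ∨ d χ₂ = -1) ∧ d χ₁ * d χ₂ = -1 ∧
      charDegree (χ₁ : G → ℂ) = charDegree (χ₂ : G → ℂ) := by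
    obtain ⟨b11, b12⟩ := b1
    obtain ⟨b21, b22⟩ := b2
    interval_cases h1 : d χ₁ <;> interval_cases h2 : d χ₂ <;> simp at hsq ⊢ <;> omega
  have hdg : ∀ χ ∈ B, (χ : G → ℂ) 1 = (χ₁ : G → ℂ) 1 := fun χ hχ => by
    have := H84.mem_bset.mpr hχ
    rw [hBs, Finset.mem_insert, Finset.mem_singleton] at this
    rcases this with rfl | rfl
    · rfl
    · rw [← H84.cast_deg, ← H84.cast_deg, hall.2.2.2]
  refine ⟨hk2, fun χ hχ ψ hψ g hg => ?_, χ₁, m1, χ₂, m2, hne, d χ₁, d χ₂, hall.1, hall.2.1,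
    hall.2.2.1, fun y hy => ⟨hval _ m1 y hy, hval _ m2 y hy⟩⟩
  obtain ⟨c, hc⟩ := (H85.blockRank_eq_one_iff hψ).mp (show blockRank 2 B = 1 by omega) χ hχ
  have h1 := congrFun hc 1
  have h2 := congrFun hc g
  rw [Pi.smul_apply, H84.reg_one, H84.reg_one, hdg χ hχ, hdg ψ hψ, smul_eq_mul,
    right_eq_mul₀ (H84.irr_one_ne_zero _)] at h1
  rwa [h1, one_smul, H84.reg_of_reg _ hg, H84.reg_of_reg _ hg] at h2

end Cfsg.Agent.S4513
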