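import Cfsg.Statements.S4633
import Mathlib
import Cfsg.Agent.Lib.Blk86.Cyc

set_option autoImplicit false
open Cfsg

namespace Cfsg.Agent.S4633

set_option linter.style.haveILetI false
set_option linter.unusedVariables false

open H86 H33

/-- Let B be a block of the finite group G relative to a maximal ideal M of the algebraic integers containing the prime p, with a nontrivial cyclic defect group P. Let c be a block of C_G(P) inducing B and T the stabilizer of c in N_G(P) (the elements of N_G(P) conjugating c to itself); T contains C_G(P). Then T/C_G(P) is cyclic of order dividing p − 1, and it acts freely on the non-identity elements of P: an element of T fixing some non-identity element of P under conjugation lies in C_G(P). -/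
theorem result {G : Type*} [Group G] [Finite G] (p : ℕ) [Fact p.Prime] (M : Ideal Cfsg.AlgInt) (hM : Cfsg.IsPModular p M) (B : Set (Cfsg.IrrCharacter G)) (hB : Cfsg.IsPBlock M B) (P : Subgroup G) (hPD : Cfsg.IsDefectGroup p M B P) (hP1 : P ≠ ⊥) (hcyc : IsCyclic P) (c : Set (Cfsg.IrrCharacter (Subgroup.centralizer (P : Set G)))) (hc : Cfsg.IsInducedBlock M (Subgroup.centralizer (P : Set G)) c B) (T : Subgroup G) (hT : ∀ g : G, g ∈ T ↔ (g ∈ Subgroup.normalizer (P : Set G) ∧ Cfsg.StabilizesBlock (Subgroup.centralizer (P : Set G)) c g)) [hn : ((Subgroup.centralizer (P : Set G)).subgroupOf T).Normal] : IsCyclic (T ⧸ (Subgroup.centralizer (P : Set G)).subgroupOf T) ∧ (Subgroup.centralizer (P : Set G)).relIndex T ∣ p - 1 ∧ ∀ g ∈ T, ∀ x ∈ P, x ≠ 1 → g * x * g⁻¹ = x → g ∈ Subgroup.centralizer (P : Set G) := by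
  haveI := isMaximal_of hM; haveI := charP hM; haveI := good hM G
  have hab := le_Cen_of_isCyclic hcyc
  have hm := isMaxPair_of_induced hM hPD hab hc
  have hT' := eq_St hc.1 hT
  have hd := hm.not_dvd (H86.isBlk_eB hB)
  rw [top_inf_eq, sup_eq_right.2 hab, ← hT'] at hd
  have hN : T ≤ Nor P := hT' ▸ St_le_Nor _ _ _
  obtain ⟨h1, h2⟩ := isCyclic_quot_of_isCyclic hcyc hm.pgrp hP1 hN hd
  exact ⟨h1, h2, fun g hg x hx hx1 h => free_of_isCyclic hcyc hm.pgrp hN hd hg hx hx1 h⟩

end Cfsg.Agent.S4633
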