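import Cfsg.Statements.S4634
import Mathlib
import Cfsg.Agent.Base
import Cfsg.Agent.Lib.Cyc.Iso
import Cfsg.Agent.Lib.Cyc.Frob
import Cfsg.Agent.Lib.Block.Apps

set_option autoImplicit false
open Cfsg

namespace Cfsg.Agent.S4634

/-- Let B be a block of the finite group G relative to a maximal ideal M of the algebraic integers containing the prime p, with a nontrivial cyclic defect group P, let c be a block of C_G(P) inducing B, T the stabilizer of c in N_G(P) and e the index of C_G(P) in T. Let F be any finite group of order #P · e having a cyclic subgroup Q of order #P that is its own centralizer (F is then the semidirect product of Q by a cyclic group of order e acting faithfully). Then there is a perfect isometry from the set of all irreducible characters of F onto B whose signs agree on all the characters of F that do not contain Q in their kernel. -/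
theorem result {G : Type*} [Group G] [Finite G] (p : ℕ) [Fact p.Prime] (M : Ideal Cfsg.AlgInt) (hM : Cfsg.IsPModular p M) (B : Set (Cfsg.IrrCharacter G)) (hB : Cfsg.IsPBlock M B) (P : Subgroup G) (hPD : Cfsg.IsDefectGroup p M B P) (hP1 : P ≠ ⊥) (hcyc : IsCyclic P) (c : Set (Cfsg.IrrCharacter (Subgroup.centralizer (P : Set G)))) (hc : Cfsg.IsInducedBlock M (Subgroup.centralizer (P : Set G)) c B) (T : Subgroup G) (hT : ∀ g : G, g ∈ T ↔ (g ∈ Subgroup.normalizer (P : Set G) ∧ Cfsg.StabilizesBlock (Subgroup.centralizer (P : Set G)) c g)) (e : ℕ) (he : (Subgroup.centralizer (P : Set G)).relIndex T = e) (F : Type*) [Group F] [Finite F] (hF : Nat.card F = Nat.card P * e) (Q : Subgroup F) (hQ : IsCyclic Q) (hQcard : Nat.card Q = Nat.card P) (hQC : Subgroup.centralizer (Q : Set F) = Q) : ∃ (I : Cfsg.IrrCharacter F → Cfsg.IrrCharacter G) (ε : Cfsg.IrrCharacter F → ℤ), Cfsg.IsPerfectIsometry p M (Set.univ : Set (Cfsg.IrrCharacter F)) B I ε ∧ ∀ η η' : Cfsg.IrrCharacter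 F, (∃ x ∈ Q, (η : F → ℂ) x ≠ (η : F → ℂ) 1) → (∃ x ∈ Q, (η' : F → ℂ) x ≠ (η' : F → ℂ) 1) → ε η = ε η' := by
  haveI := H33.isMaximal_of hM; haveI := H33.charP hM
  letI := Fintype.ofFinite G
  letI := Fintype.ofFinite F
  have hp : p.Prime := Fact.out
  have h₁ : H85.MP p M B P _ :=
    ⟨hM, hB, H86.isMaxPair_of_induced hM hPD (H86.le_Cen_of_isCyclic hcyc) hc⟩
  rw [H86.eq_St hc.1 hT] at he
  have hd := H35C.relIndex_dvd h₁ hcyc hP1
  rw [he] at hd
  have hle : e ≤ p - 1 := Nat.le_of_dvd (by have := hp.two_le; omega) hd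
  have hi : Q.index = e := Nat.eq_of_mul_eq_mul_left Nat.card_pos (by
    rw [Q.card_mul_index, hF, hQcard])
  have hi0 : e ≠ 0 := hi ▸ Q.index_ne_zero_of_finite
  have hpe : ¬ p ∣ Q.index := fun h => by
    have := Nat.le_of_dvd (Nat.pos_of_ne_zero hi0) (hi ▸ h); omega
  have hQp : IsPGroup p Q := by
    obtain ⟨a, ha⟩ := IsPGroup.iff_card.1 h₁.pgrp
    exact IsPGroup.of_card (hQcard.trans ha)
  have hQ1 : Q ≠ ⊥ := fun h0 => hP1 (Subgroup.card_eq_one.1 (by
    rw [← hQcard, h0, Subgroup.card_bot]))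
  let S : Sylow p F := hQp.toSylow hpe
  haveI : Q.Normal := by
    have h1 := Nat.le_of_dvd (Nat.pos_of_ne_zero hi0) (hi ▸ S.card_dvd_index)
    have h2 := card_sylow_modEq_one p F
    rw [Nat.ModEq, Nat.mod_eq_of_lt (by omega), Nat.mod_eq_of_lt hp.one_lt] at h2
    haveI := (Nat.card_eq_one_iff_unique.1 h2).1
    exact Sylow.normal_of_subsingleton S
  have hC : H86.Cen Q = Q := hQC
  have hN : ⊤ ≤ H86.Nor Q := (Subgroup.normalizer_eq_top Q).ge
  have hB₂ := H33.block_eq_univ_of_Cen hM hQp (hC.symm ▸ hQp)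
    (H33.isPBlock_principalBlock (M := M) (G := F))
  obtain ⟨b, h₂⟩ := H85.exists_mp hM (H33.isPBlock_principalBlock (M := M) (G := F))
    (H33.sylow_isDefectGroup_principalBlock hM S)
  rw [hB₂] at h₂
  replace h₂ : H85.MP p M Set.univ Q b := h₂
  have hb : b = 1 := by
    rw [← h₂.eS_top, H33.block_eq_univ_of_isPGroup hM (hC.symm ▸ hQp) (h₂.blk le_rfl), H86.eS,
      H33.eB_univ, map_one]
  have hSt : H86.St ⊤ Q b = ⊤ := top_le_iff.1 fun x hx => ⟨⟨trivial, hN hx⟩, by
    rw [hb]; exact map_one _⟩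
  have hn : (H86.Cen Q).relIndex (H86.St ⊤ Q b) = Q.index := by
    rw [hSt, Subgroup.relIndex_top_right, hC]
  obtain ⟨D, hD⟩ := H35C.exists_DL_frob hQp hQ1 hpe (fun x hx h1 => le_antisymm
    (fun g hg => hC ▸ H86.free_of_isCyclic hQ hQp hN (by rwa [Subgroup.relIndex_top_right, hC])
      trivial hx h1 (by rw [Subgroup.mem_centralizer_singleton_iff.1 hg, mul_inv_cancel_right]))
    fun g hg => Subgroup.mem_centralizer_singleton_iff.2 ((hC.ge hg) x hx).symm)
    (Subgroup.commutator_le.2 fun a _ b _ => by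
      simpa [commutatorElement_def] using hC.le
        (H35C.comm_mem_Cen hQ ⟨b⁻¹, hN trivial⟩ ⟨a⁻¹, hN trivial⟩))
  obtain ⟨I, s, h, hs⟩ := H35C.exists_perfect_cyclic h₁ h₂ hcyc hQ hP1 hQcard.symm
    (he.trans hi.symm) hn D
  have key : ∀ η : IrrCharacter F, (∃ x ∈ Q, (η : F → ℂ) x ≠ (η : F → ℂ) 1) → η ∈ D.Y :=
    fun η ⟨x, hx, h1⟩ => (hD η).2 fun h2 =>
      h1 ((H6.mem_charKer (H6.irr_isCharacter η.2)).1 (h2 hx))
  exact ⟨I, s, h, fun η η' h1 h2 => hs η (key η h1) η' (key η' h2)⟩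

end Cfsg.Agent.S4634
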