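import Cfsg.Statements.S4635
import Mathlib
import Cfsg.Agent.Base
import Cfsg.Agent.Lib.Cyc.Iso

set_option autoImplicit false
open Cfsg

namespace Cfsg.Agent.S4635

/-- Let B be a block of the finite group G relative to a maximal ideal M of the algebraic integers containing the prime p, with a nontrivial cyclic defect group P; let Z be the subgroup of order p of P and H = N_G(Z), which contains N_G(P). Let c be the block of H with defect group P that induces B. Then B and c contain the same number of irreducible characters, have the same p-regular rank, and there is a perfect isometry from c onto B. -/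
theorem result {G : Type*} [Group G] [Finite G] (p : ℕ) [Fact p.Prime] (M : Ideal Cfsg.AlgInt) (hM : Cfsg.IsPModular p M) (B : Set (Cfsg.IrrCharacter G)) (hB : Cfsg.IsPBlock M B) (P : Subgroup G) (hPD : Cfsg.IsDefectGroup p M B P) (hP1 : P ≠ ⊥) (hcyc : IsCyclic P) (Z : Subgroup G) (hZ : Z ≤ P) (hZcard : Nat.card Z = p) (H : Subgroup G) (hH : H = Subgroup.normalizer (Z : Set G)) (c : Set (Cfsg.IrrCharacter H)) (hcD : Cfsg.IsDefectGroup p M c (P.subgroupOf H)) (hc : Cfsg.IsInducedBlock M H c B) : Nat.card c = Nat.card B ∧ Cfsg.blockRank p c = Cfsg.blockRank p B ∧ ∃ (I : Cfsg.IrrCharacter H → Cfsg.IrrCharacter G) (ε : Cfsg.IrrCharacter H → ℤ), Cfsg.IsPerfectIsometry p M c B I ε := by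
  haveI := H33.isMaximal_of hM; haveI := H33.charP hM
  letI := Fintype.ofFinite G
  letI := Fintype.ofFinite H
  have hN : H86.Nor P ≤ H := hH ▸ H86.Nor_le_Nor_of_isCyclic hcyc hZ
  have hPH : P ≤ H := Subgroup.le_normalizer.trans hN
  obtain ⟨e, h₂⟩ := H85.exists_mp hM hc.1 hcD
  have h₁ := H35C.mp_of_induced hPH ((H86.Cen_le_Nor P).trans hN) hPD hc h₂
  have hn := H35C.relIndex_emb hPH hN e
  have φ := Subgroup.subgroupOfEquivOfLe hPH
  have c₂ : IsCyclic (P.subgroupOf H) := isCyclic_of_surjective _ φ.symm.surjective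
  have hq : Nat.card P = Nat.card (P.subgroupOf H) := Nat.card_congr φ.symm.toEquiv
  have h1 : P.subgroupOf H ≠ ⊥ := fun h0 => hP1 (Subgroup.card_eq_one.1 (by
    rw [hq, h0, Subgroup.card_bot]))
  obtain ⟨D⟩ := H35C.nonempty_DL h₂ c₂ h1
  obtain ⟨I, s, h, -⟩ := H35C.exists_perfect_cyclic h₁ h₂ hcyc c₂ hP1 hq hn.symm rfl D
  exact ⟨Nat.card_congr h.1.equiv, by
    rw [H35C.rank_of_cyclic h₁ hcyc hP1, H35C.rank_of_cyclic h₂ c₂ h1, hn], I, s, h⟩

end Cfsg.Agent.S4635
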