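import Mathlib
import Cfsg.Statements.S4636
-- import your own Cfsg.Agent.* helpers here

set_option autoImplicit false
open scoped Pointwise
open Cfsg

namespace Cfsg.Agent.S4636

/-- In a finite cyclic subgroup, a subgroup of order `n` contains every element killed by `n`. -/
theorem mem_of_pow_eq_one {G : Type*} [Group G] [Finite G] (P : Subgroup G) (hcyc : IsCyclic P)
    (Z : Subgroup G) (hZ : Z ≤ P) (x : G) (hx : x ∈ P) (h : x ^ Nat.card Z = 1) : x ∈ Z := by
  classical
  have := Fintype.ofFinite P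
  have hn : 0 < Nat.card Z := Nat.card_pos
  have h1 := IsCyclic.card_pow_eq_one_le (α := P) hn
  have h2 : (Finset.univ.filter (fun a : P => (a : G) ∈ Z)) ⊆
      (Finset.univ.filter (fun a : P => a ^ Nat.card Z = 1)) := by
    intro a ha
    simp only [Finset.mem_filter, Finset.mem_univ, true_and] at ha ⊢
    apply Subtype.ext
    have := pow_card_eq_one' (G := Z) (x := ⟨a, ha⟩)
    have h := congrArg Subtype.val this
    rw [Subgroup.coe_pow] at h
    rw [Subgroup.coe_pow]
    exact h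
  have h3 : (Finset.univ.filter (fun a : P => (a : G) ∈ Z)).card = Nat.card Z := by
    rw [← Fintype.card_subtype, ← Nat.card_eq_fintype_card]
    refine Nat.card_congr ⟨fun a => ⟨a.1, a.2⟩, fun z => ⟨⟨z, hZ z.2⟩, z.2⟩, fun a => rfl, fun z => rfl⟩
  have h4 := Finset.eq_of_subset_of_card_le h2 (by rw [h3]; exact h1)
  have h5 : (⟨x, hx⟩ : P) ∈ (Finset.univ.filter (fun a : P => a ^ Nat.card Z = 1)) := by
    simp only [Finset.mem_filter, Finset.mem_univ, true_and]
    exact Subtype.ext (by simpa using h)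
  rw [← h4] at h5
  simpa using h5

/-- Let P be a nontrivial cyclic p-subgroup of the finite group G and Z its subgroup of order p. For every x outside N_G(Z), P meets its conjugate xPx⁻¹ trivially; consequently N_G(Q) ≤ N_G(Z) for every nontrivial subgroup Q of P. -/
theorem result {G : Type*} [Group G] [Finite G] (p : ℕ) [Fact p.Prime] (P : Subgroup G) (hP : IsPGroup p P) (hP1 : P ≠ ⊥) (hcyc : IsCyclic P) (Z : Subgroup G) (hZ : Z ≤ P) (hZcard : Nat.card Z = p) : (∀ x : G, x ∉ Subgroup.normalizer (Z : Set G) → P ⊓ MulAut.conj x • P = ⊥) ∧ ∀ Q : Subgroup G, Q ≤ P → Q ≠ ⊥ → Subgroup.normalizer (Q : Set G) ≤ Subgroup.normalizer (Z : Set G) := by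
  have hp : p.Prime := Fact.out
  have key : ∀ x : G, ∀ y : G, y ≠ 1 → y ∈ P → x * y * x⁻¹ ∈ P →
      x ∈ Subgroup.normalizer (Z : Set G) := by
    intro x y hy1 hyP hxy
    -- an element of order p among the powers of y
    obtain ⟨k, hk⟩ := IsPGroup.iff_orderOf.mp hP ⟨y, hyP⟩
    rw [Subgroup.orderOf_mk] at hk
    have hk0 : k ≠ 0 := by
      rintro rfl
      exact hy1 (by simpa using hk)
    obtain ⟨j, rfl⟩ := Nat.exists_eq_succ_of_ne_zero hk0
    set w := y ^ (p ^ j) with hw
    have hwo : orderOf w = p := by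
      rw [hw, orderOf_pow' _ (pow_ne_zero _ hp.ne_zero), hk, pow_succ, Nat.gcd_mul_right_left,
        Nat.mul_div_cancel_left _ (pow_pos hp.pos _)]
    have hwP : w ∈ P := P.pow_mem hyP _
    have hwZ : w ∈ Z := mem_of_pow_eq_one P hcyc Z hZ w hwP (by rw [hZcard, ← hwo, pow_orderOf_eq_one])
    have hxwP : x * w * x⁻¹ ∈ P := by
      have := P.pow_mem hxy (p ^ j)
      rwa [conj_pow] at this
    have hxwZ : x * w * x⁻¹ ∈ Z := mem_of_pow_eq_one P hcyc Z hZ _ hxwP (by
      rw [hZcard, conj_pow, ← hwo, pow_orderOf_eq_one]; simp)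
    have hZeq : Subgroup.zpowers w = Z := by
      apply Subgroup.eq_of_le_of_card_ge (Subgroup.zpowers_le.mpr hwZ)
      rw [Nat.card_zpowers, hwo, hZcard]
    apply Subgroup.mem_normalizer_fintype
    intro n hn
    have hn' : n ∈ Subgroup.zpowers w := by rw [hZeq]; exact hn
    obtain ⟨m, rfl⟩ := hn'
    have := Z.zpow_mem hxwZ m
    rw [conj_zpow] at this
    exact this
  constructor
  · intro x hx
    by_contra hne
    obtain ⟨⟨z, hz⟩, hz1⟩ := (Subgroup.ne_bot_iff_exists_ne_one).mp hne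
    obtain ⟨hzP, hzx⟩ := Subgroup.mem_inf.mp hz
    rw [Subgroup.mem_smul_pointwise_iff_exists] at hzx
    obtain ⟨y, hy, rfl⟩ := hzx
    refine hx (key x y ?_ hy (by simpa using hzP))
    rintro rfl
    apply hz1
    ext
    simp
  · intro Q hQ hQ1 x hx
    obtain ⟨⟨y, hy⟩, hy1⟩ := (Subgroup.ne_bot_iff_exists_ne_one).mp hQ1
    refine key x y (fun h => hy1 (Subtype.ext h)) (hQ hy) (hQ ?_)
    exact (Subgroup.mem_normalizer_iff.mp hx y).mp hy

end Cfsg.Agent.S4636
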