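import Mathlib
import Cfsg.Statements.S4637
import Cfsg.Agent.Lib.H85.Rk2Blk
-- import your own Cfsg.Agent.* helpers here

set_option autoImplicit false
open Cfsg

namespace Cfsg.Agent.S4637

open H86 H85 H84

/-- Let B be a block of the finite group G relative to a maximal ideal M of the algebraic integers containing 2, with a Klein four defect group P. Let c be a block of C_G(P) inducing B, T the stabilizer of c in N_G(P) and e the index of C_G(P) in T (the inertial index). Then e is 1 or 3, B contains exactly four irreducible characters, and the 2-regular rank of B (its number of irreducible Brauer characters) equals e. -/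
theorem result {G : Type*} [Group G] [Finite G] (M : Ideal Cfsg.AlgInt) (hM : Cfsg.IsPModular 2 M) (B : Set (Cfsg.IrrCharacter G)) (hB : Cfsg.IsPBlock M B) (P : Subgroup G) (hPD : Cfsg.IsDefectGroup 2 M B P) (hV : IsKleinFour P) (c : Set (Cfsg.IrrCharacter (Subgroup.centralizer (P : Set G)))) (hc : Cfsg.IsInducedBlock M (Subgroup.centralizer (P : Set G)) c B) (T : Subgroup G) (hT : ∀ g : G, g ∈ T ↔ (g ∈ Subgroup.normalizer (P : Set G) ∧ Cfsg.StabilizesBlock (Subgroup.centralizer (P : Set G)) c g)) (e : ℕ) (he : (Subgroup.centralizer (P : Set G)).relIndex T = e) : (e = 1 ∨ e = 3) ∧ Nat.card B = 4 ∧ Cfsg.blockRank 2 B = e := by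
  haveI := H33.isMaximal_of hM; haveI := H33.charP hM; haveI := H86.good hM G
  haveI := Fintype.ofFinite G
  have h2 := H34.rk2_of_isKleinFour hV
  have h : MP 2 M B P (eS M (Cen P) c) :=
    ⟨hM, hB, isMaxPair_of_induced hM hPD h2.le_centralizer hc⟩
  have hT1 := eq_St hc.1 hT
  subst hT1
  rw [← card_inq] at he
  obtain ⟨h1, h3⟩ := h.counts_of_rk2 h2
  have h4 := h.card_inq_of_rk2 h2
  rw [he] at h1 h3 h4
  rw [hV.card_four] at h3
  refine ⟨h4, ?_, h1⟩
  rcases h4 with rfl | rfl <;> omega

end Cfsg.Agent.S4637
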