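import Mathlib
import Cfsg.Statements.S4638
import Cfsg.Agent.Lib.H85.Klein
-- import your own Cfsg.Agent.* helpers here

set_option autoImplicit false
open Cfsg

namespace Cfsg.Agent.S4638

open H86 H85 H84

/-- Let B be a block of the finite group G relative to a maximal ideal M of the algebraic integers containing 2, with a Klein four defect group P, and let c be its Brauer correspondent: the block of N_G(P) with defect group P that induces B. Then there is a perfect isometry from c onto B. -/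
theorem result {G : Type*} [Group G] [Finite G] (M : Ideal Cfsg.AlgInt) (hM : Cfsg.IsPModular 2 M) (B : Set (Cfsg.IrrCharacter G)) (hB : Cfsg.IsPBlock M B) (P : Subgroup G) (hPD : Cfsg.IsDefectGroup 2 M B P) (hV : IsKleinFour P) (c : Set (Cfsg.IrrCharacter (Subgroup.normalizer (P : Set G)))) (hcD : Cfsg.IsDefectGroup 2 M c (P.subgroupOf (Subgroup.normalizer (P : Set G)))) (hc : Cfsg.IsInducedBlock M (Subgroup.normalizer (P : Set G)) c B) : ∃ (I : Cfsg.IrrCharacter (Subgroup.normalizer (P : Set G)) → Cfsg.IrrCharacter G) (ε : Cfsg.IrrCharacter (Subgroup.normalizer (P : Set G)) → ℤ), Cfsg.IsPerfectIsometry 2 M c B I ε := by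
  haveI := H33.isMaximal_of hM; haveI := H33.charP hM
  letI := Fintype.ofFinite G
  letI := Fintype.ofFinite (Nor P)
  letI := Fintype.ofFinite P
  have hPH : P ≤ Nor P := Subgroup.le_normalizer
  obtain ⟨e, h₂⟩ := exists_mp hM hc.1 hcD
  have h₁ := H35C.mp_of_induced hPH (Cen_le_Nor P) hPD hc h₂
  have h2 := H34.rk2_of_isKleinFour hV
  have hf := h₁.free_of_rk2 h2
  have φ := Subgroup.subgroupOfEquivOfLe hPH
  have hV' : IsKleinFour (P.subgroupOf (Nor P)) :=
    ⟨(Nat.card_congr φ.toEquiv).trans hV.card_four,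
      (Monoid.exponent_eq_of_mulEquiv φ).trans hV.exponent_two⟩
  obtain ⟨D₁⟩ := h₁.nonempty_DL_klein hV
  have D₂ := h₂.nonempty_DL_klein hV'
  rw [card_inq, H35C.relIndex_emb hPH le_rfl e, ← card_inq, Nat.card_congr φ.toEquiv] at D₂
  obtain ⟨D₂⟩ := D₂
  obtain ⟨I, s, h, -⟩ := H35C.exists_perfect (h₁.af h2.le_centralizer hf)
    (h₂.af_subgroupOf le_rfl h2.le_centralizer hf) D₁ D₂ (h₁.not_dvd_card_inq h2.le_centralizer)
  exact ⟨I, s, h⟩

end Cfsg.Agent.S4638
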