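import Cfsg.Statements.S4640
import Mathlib
import Cfsg.Agent.Lib.Blk86.Major

set_option autoImplicit false
open Cfsg

namespace Cfsg.Agent.S4640

set_option linter.style.haveILetI false
set_option linter.unusedVariables false

open H86 H33
attribute [local irreducible] H33.instFieldF

/-- Let N be a normal subgroup of the finite group G of index a power of the prime p, M a maximal ideal of the algebraic integers containing p, b a block of N stabilized by every element of G, and B a block of G covering b (some member of B has a member of b as a constituent of its restriction to N). Suppose that B has a commutative defect group P. Then G = NP and P ∩ N is a defect group of b; every member of B restricts to a member of b; every member of b is the restriction of exactly [G : N] members of B; B contains exactly [G : N] times as many irreducible characters as b; and B and b have the same p-regular rank. -/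
theorem result {G : Type*} [Group G] [Fintype G] (p : ℕ) [Fact p.Prime] (M : Ideal Cfsg.AlgInt) (hM : Cfsg.IsPModular p M) (N : Subgroup G) [N.Normal] [Fintype N] (hNi : ∃ k : ℕ, N.index = p ^ k) (b : Set (Cfsg.IrrCharacter N)) (hb : Cfsg.IsPBlock M b) (hstab : ∀ g : G, Cfsg.StabilizesBlock N b g) (B : Set (Cfsg.IrrCharacter G)) (hB : Cfsg.IsPBlock M B) (hcov : ∃ χ ∈ B, ∃ θ ∈ b, Cfsg.classInner (fun n : N => (χ : G → ℂ) n) (θ : N → ℂ) ≠ 0) (P : Subgroup G) (hPD : Cfsg.IsDefectGroup p M B P) (hPab : ∀ x ∈ P, ∀ y ∈ P, x * y = y * x) : N ⊔ P = ⊤ ∧ Cfsg.IsDefectGroup p M b ((P ⊓ N).subgroupOf N) ∧ (∀ χ ∈ B, ∃ θ ∈ b, ∀ n : N, (χ : G → ℂ) n = (θ : N → ℂ) n) ∧ (∀ θ ∈ b, Nat.card {χ : Cfsg.IrrCharacter G // χ ∈ B ∧ ∀ n : N, (χ : G → ℂ) n = (θ : N → ℂ) n} = N.index) ∧ Nat.card B = N.index * Nat.card b ∧ Cfsg.blockRank p B = Cfsg.blockRank p b := by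
  classical
  haveI := isMaximal_of hM; haveI := charP hM; haveI := good hM G
  obtain ⟨k, hk⟩ := hNi
  have hn : ⊤ ≤ Nor N := (Subgroup.normalizer_eq_top N).ge
  have hq := pQuot_of_relIndex hn ((Subgroup.relIndex_top_right N).trans hk)
  have hbb : IsBlk ⊤ (eS M N b) := hq.isBlk le_top hn (isBlk_eS hb)
    (inv_iff_cj.2 fun x _ => ((stabilizesBlock_iff hb x).1 (hstab x)).2)
  have huniq : ∀ B', IsPBlock M B' → H35.Covers B' b → eB M B' = eS M N b := fun B' hB' h =>
    (H86.isBlk_eB hB').eq_of_mul_ne_zero hbb ((covers_iff hB' hb).1 h)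
  have hBe := huniq B hB hcov
  have hup : ∀ (χ : IrrCharacter G) (θ : IrrCharacter N),
      H35.Over (χ : G → ℂ) (θ : N → ℂ) → (χ ∈ B ↔ θ ∈ b) := fun χ θ h => by
    constructor
    · intro hχ
      have h1 := (covers_iff hB (isPBlock_blockOf θ)).1 ⟨χ, hχ, θ, mem_blockOf_self θ, h⟩
      rw [hBe] at h1
      rw [eS_inj hb (isPBlock_blockOf θ)
        ((isBlk_eS hb).eq_of_mul_ne_zero (isBlk_eS (isPBlock_blockOf θ)) h1)]
      exact mem_blockOf_self θ
    · intro hθ
      have h1 := huniq _ (isPBlock_blockOf χ) ⟨χ, mem_blockOf_self χ, θ, hθ, h⟩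
      rw [eq_of_eB_eq (fB_mem_OG hB) (fB_mem_OG (isPBlock_blockOf χ)) (hBe.trans h1.symm)]
      exact mem_blockOf_self χ
  have hP := (H86.isDefectGroup_iff hB P).1 hPD
  rw [hBe] at hP
  have hsup : N ⊔ P = ⊤ := sup_comm P N ▸ hP.sup_eq_of_pQuot hq le_top hn (isBlk_eS hb) hbb
  have hmul : ∀ g : G, ∃ u ∈ P, (g : G ⧸ N) = u := fun g => by
    have : g ∈ ((N ⊔ P : Subgroup G) : Set G) := by rw [hsup]; trivial
    rw [Subgroup.normal_mul] at this
    obtain ⟨n, hn, u, hu, rfl⟩ := this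
    exact ⟨u, hu, by simp [(QuotientGroup.eq_one_iff n).2 hn]⟩
  letI : CommGroup (G ⧸ N) := { (inferInstance : Group (G ⧸ N)) with
    mul_comm := fun a c => by
      obtain ⟨a, rfl⟩ := QuotientGroup.mk_surjective a
      obtain ⟨c, rfl⟩ := QuotientGroup.mk_surjective c
      obtain ⟨u, hu, h1⟩ := hmul a
      obtain ⟨v, hv, h2⟩ := hmul c
      rw [h1, h2, ← QuotientGroup.mk_mul, hPab u hu v hv, QuotientGroup.mk_mul] }
  haveI := Fintype.ofFinite (G ⧸ N)
  have hπ := QuotientGroup.mk'_surjective N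
  have hker := QuotientGroup.ker_mk' N
  have hfree : ∀ χ ∈ B, ∀ l : G ⧸ N →* ℂˣ, mulL χ (l.comp (QuotientGroup.mk' N)) = χ → l = 1 := by
    intro χ hχ l hl
    refine MonoidHom.ext fun a => ?_
    obtain ⟨a, rfl⟩ := QuotientGroup.mk_surjective a
    obtain ⟨u, hu, h1⟩ := hmul a
    obtain ⟨s, -, hs, h0⟩ := exists_ne_zero_of_major hM hB hPD hu (fun x hx => hPab u hu x hx) hχ
    have h2 := congrArg (fun ψ : IrrCharacter G => (ψ : G → ℂ) (u * s)) hl
    simp only [mulL_apply] at h2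
    have h3 := mul_left_cancel₀ h0 (h2.trans (mul_one _).symm)
    have h4 : (s : G ⧸ N) = 1 := (QuotientGroup.eq_one_iff s).2 (hq s trivial hs)
    simp only [MonoidHom.comp_apply, QuotientGroup.mk'_apply, QuotientGroup.mk_mul, h4, mul_one,
      Units.val_eq_one] at h3
    rw [h1, h3, MonoidHom.one_apply]
  have hres : ∀ χ ∈ B, ∃ θ ∈ b, ∀ n : N, (χ : G → ℂ) n = (θ : N → ℂ) n := fun χ hχ => by
    have h := isIrr_res_of_free hπ hker (hfree χ hχ)
    refine ⟨⟨_, h⟩, (hup χ _ ?_).1 hχ, fun _ => rfl⟩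
    change classInner _ _ ≠ 0
    rw [H6.irr_inner_self h]; exact one_ne_zero
  have hext : ∀ θ ∈ b, ∃ χ ∈ B, ∀ n : N, (χ : G → ℂ) n = (θ : N → ℂ) n := fun θ hθ => by
    obtain ⟨χ, h⟩ := H35.exists_over θ
    have hχ := (hup χ θ h).2 hθ
    exact ⟨χ, hχ, congrFun (H6.irr_eq_of_inner_ne_zero
      (isIrr_res_of_free hπ hker (hfree χ hχ)) θ.2 h)⟩
  have hcount : ∀ θ ∈ b, Nat.card {χ : IrrCharacter G //
      χ ∈ B ∧ ∀ n : N, (χ : G → ℂ) n = (θ : N → ℂ) n} = N.index := fun θ hθ => by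
    obtain ⟨χ, hχ, h⟩ := hext θ hθ
    rw [← card_res_eq_of_free hπ hker (hfree χ hχ)]
    refine Nat.card_congr (Equiv.subtypeEquivRight fun ψ => ⟨fun h1 n => (h1.2 n).trans (h n).symm,
      fun h1 => ⟨(hup ψ θ ?_).2 hθ, fun n => (h1 n).trans (h n)⟩⟩)
    change classInner _ _ ≠ 0
    rw [funext fun n => (h1 n).trans (h n), H6.irr_inner_self θ.2]; exact one_ne_zero
  refine ⟨hsup, (isDefectGroup_subgroupOf_iff hb inf_le_right).2
    (hP.stable le_top hn (isBlk_eS hb) hbb).2, hres, hcount, ?_,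
    blockRank_eq_of_res (fun g hg => hq g trivial hg) hres hext⟩
  choose r hr1 hr2 using hres
  haveI := Fintype.ofFinite b
  rw [Nat.card_congr (Equiv.sigmaFiberEquiv fun χ : B => (⟨r χ χ.2, hr1 χ χ.2⟩ : b)).symm,
    Nat.card_sigma, Finset.sum_congr rfl (g := fun _ => N.index), Finset.sum_const,
    Finset.card_univ, Nat.card_eq_fintype_card, smul_eq_mul, mul_comm]
  intro θ _
  rw [← hcount θ θ.2]
  refine Nat.card_congr ⟨fun χ => ⟨χ.1.1, χ.1.2, fun n => (hr2 _ χ.1.2 n).trans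
      (congrArg (fun x : b => ((x : IrrCharacter N) : N → ℂ) n) χ.2)⟩,
    fun χ => ⟨⟨χ.1, χ.2.1⟩, Subtype.ext <| Subtype.ext <| funext fun n =>
      (hr2 _ χ.2.1 n).symm.trans (χ.2.2 n)⟩, fun _ => rfl, fun _ => rfl⟩

end Cfsg.Agent.S4640
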