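import Cfsg.Statements.S4641
import Mathlib
import Cfsg.Agent.Lib.Blk86.IBr
import Cfsg.Agent.Lib.Block.HeightBF

set_option autoImplicit false
open Cfsg

namespace Cfsg.Agent.S4641

set_option linter.style.haveILetI false
set_option linter.unusedVariables false

open H86 H33
attribute [local irreducible] H33.instFieldF

/-- Let B be a block of the finite group G relative to a maximal ideal M of the algebraic integers containing the prime p, let p^a be the p-part of the order of G and p^d the order of a defect group D of B, and let g be the greatest common divisor of the degrees of the members of B. Then the p-part of g is exactly p^(a−d), and writing g = p^(a−d)·u there is a positive integer v, prime to p and at least the p-regular rank of B (its number of irreducible Brauer characters), with Σ_{χ ∈ B} χ(1)² = p^(2a−d)·u²·v. -/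
theorem result {G : Type*} [Group G] [Finite G] (p : ℕ) [Fact p.Prime] (M : Ideal Cfsg.AlgInt) (hM : Cfsg.IsPModular p M) (B : Set (Cfsg.IrrCharacter G)) (hB : Cfsg.IsPBlock M B) (D : Subgroup G) (hD : Cfsg.IsDefectGroup p M B D) (a d : ℕ) (ha : (Nat.card G).factorization p = a) (hd : Nat.card D = p ^ d) (g : ℕ) (hg1 : ∀ χ ∈ B, g ∣ Cfsg.charDegree (χ : G → ℂ)) (hg2 : ∀ g' : ℕ, (∀ χ ∈ B, g' ∣ Cfsg.charDegree (χ : G → ℂ)) → g' ∣ g) : g.factorization p = a - d ∧ ∃ v : ℕ, 0 < v ∧ ¬ p ∣ v ∧ Cfsg.blockRank p B ≤ v ∧ ∑ᶠ χ ∈ B, Cfsg.charDegree (χ : G → ℂ) ^ 2 = p ^ (2 * a - d) * (g / p ^ (a - d)) ^ 2 * v := by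
  haveI := isMaximal_of hM
  haveI := Fintype.ofFinite G
  have hp : p.Prime := Fact.out
  obtain ⟨W⟩ := H64.MR.exists_wedd (F M) G
  have hne := H84.block_nonempty hB
  have hd' : blockDefect p B = d :=
    Nat.pow_right_injective hp.two_le ((defect_card hM hB hD).symm.trans hd)
  have hmv := H84.minval_add_defect (p := p) hne
  rw [ha, hd'] at hmv
  obtain ⟨χ₀, hχ₀, hmin⟩ := H84.exists_minval (p := p) hne
  have hg0 : g ≠ 0 := by
    rintro rfl
    exact H84.deg_ne_zero χ₀ (zero_dvd_iff.1 (hg1 χ₀ hχ₀))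
  have hgf : g.factorization p = a - d := by
    refine le_antisymm ?_ ?_
    · have := (Nat.factorization_le_iff_dvd hg0 (H84.deg_ne_zero χ₀)).2 (hg1 χ₀ hχ₀) p
      omega
    · refine (hp.pow_dvd_iff_le_factorization hg0).1 (hg2 _ fun χ hχ => ?_)
      refine (hp.pow_dvd_iff_le_factorization (H84.deg_ne_zero χ)).2 ?_
      have := H84.minval_le (p := p) hχ
      omega
  refine ⟨hgf, ?_⟩
  obtain ⟨u, hu, hgu⟩ := natCast_eq_pow_mul hp hg0
  rw [hgf] at hgu
  have hdiv : g / p ^ (a - d) = u := by rw [hgu, Nat.mul_div_cancel_left _ (pow_pos hp.pos _)]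
  have h1 : ∀ j : ibr W B, ∃ x, W.d j = g * x := fun j => dvd_d hM hB j.2 hg1
  have h2 : ∀ j : ibr W B, ∃ y, y ≠ 0 ∧
      ∑ χ ∈ H84.bset B, dec W χ j * charDegree (χ : G → ℂ) = p ^ a * u * y := fun j => by
    have e1 : u ∣ ∑ χ ∈ H84.bset B, dec W χ j * charDegree (χ : G → ℂ) :=
      Finset.dvd_sum fun χ hχ =>
        ((Dvd.intro_left _ hgu.symm).trans (hg1 χ (H84.mem_bset.1 hχ))).mul_left _
    have e2 : p ^ a ∣ ∑ χ ∈ H84.bset B, dec W χ j * charDegree (χ : G → ℂ) := by
      obtain ⟨k, hk⟩ := H84.exists_one_eq_of_vanish (p := p)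
        (H6.char_isGen (isCharacter_Phi (W := W) j)) fun g hg => Phi_sing hM _ hg
      rw [Phi_one_bset hB j.2, ha] at hk
      rw [← Int.natCast_dvd_natCast]
      exact ⟨k, by exact_mod_cast hk⟩
    obtain ⟨y, hy⟩ := Nat.Coprime.mul_dvd_of_dvd_of_dvd
      (Nat.Coprime.pow_left a ((Nat.Prime.coprime_iff_not_dvd hp).2 hu)) e2 e1
    refine ⟨y, ?_, hy⟩
    rintro rfl
    obtain ⟨χ, hχ⟩ := exists_dec_ne_zero hM (j : Fin W.n)
    have := Finset.sum_eq_zero_iff.1 (hy.trans (mul_zero _)) χ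
      (H84.mem_bset.2 (mem_of_dec hB (mem_ibr.1 j.2) hχ))
    exact mul_ne_zero hχ (H84.deg_ne_zero χ) this
  choose x hx using h1
  choose y hy0 hy using h2
  have hsum : ∑ χ ∈ H84.bset B, charDegree (χ : G → ℂ) ^ 2 =
      p ^ (2 * a - d) * u ^ 2 * ∑ j : ibr W B, x j * y j := by
    rw [sum_deg_sq_eq W hB, ← Finset.sum_coe_sort, Finset.mul_sum]
    refine Finset.sum_congr rfl fun j _ => ?_
    rw [hx j, hy j, hgu, show 2 * a - d = (a - d) + a by omega, pow_add]
    ring
  have hle : blockRank p B ≤ ∑ j : ibr W B, x j * y j := by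
    rw [← card_ibr W hM hB, ← Fintype.card_coe, ← Finset.card_univ, Finset.card_eq_sum_ones]
    refine Finset.sum_le_sum fun j _ => Nat.one_le_iff_ne_zero.2 (mul_ne_zero ?_ (hy0 j))
    intro h
    exact W.d_ne j (by rw [hx j, h, mul_zero])
  have hf := H84.factorization_sum_deg_sq hM hB
  have hS : ∑ χ ∈ H84.bset B, charDegree (χ : G → ℂ) ^ 2 ≠ 0 := fun h =>
    pow_ne_zero 2 (H84.deg_ne_zero χ₀) (Finset.sum_eq_zero_iff.1 h χ₀ (H84.mem_bset.2 hχ₀))
  have hv : ∑ j : ibr W B, x j * y j ≠ 0 := fun h => hS (by rw [hsum, h, mul_zero])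
  refine ⟨∑ j : ibr W B, x j * y j, Nat.pos_of_ne_zero hv, fun hpv => ?_, hle, ?_⟩
  · have : p ^ (2 * a - d + 1) ∣ ∑ χ ∈ H84.bset B, charDegree (χ : G → ℂ) ^ 2 := by
      rw [hsum, pow_succ, mul_assoc]
      exact mul_dvd_mul_left _ (hpv.mul_left _)
    have := (hp.pow_dvd_iff_le_factorization hS).1 this
    omega
  · rw [H84.finsum_mem_eq, hsum, hdiv]

end Cfsg.Agent.S4641
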