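import Mathlib
import Cfsg.Statements.S4642
import Cfsg.Agent.Lib.Block.Fong

set_option autoImplicit false
open Cfsg

namespace Cfsg.Agent.S4642

/-- Let G be a finite group, p a prime, M a maximal ideal of the algebraic integers containing p, K the largest normal subgroup of G of order prime to p, and L the preimage in G of the largest normal p-subgroup of G/K. Let Q be a Sylow p-subgroup of L and suppose C_G(Q) ≤ L. Let θ be an irreducible character of K invariant under conjugation by every element of G, and let B be the set of irreducible characters of G whose restriction to K contains θ. Then B is a block of G, every Sylow p-subgroup of G is a defect group of B, and B is of principal type: for every p-subgroup R of G exactly one block of C_G(R) induces B. -/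
theorem result {G : Type*} [Group G] [Fintype G] (p : ℕ) [Fact p.Prime] (M : Ideal Cfsg.AlgInt) (hM : Cfsg.IsPModular p M) (K : Subgroup G) (hK : K = Cfsg.pPrimeCore p G) [Fintype K] (L : Subgroup G) (hL : L = Cfsg.pPrimePCore p G) (Q : Subgroup G) (hQL : Q ≤ L) (hQp : IsPGroup p Q) (hQS : ¬ p ∣ Q.relIndex L) (hCQ : Subgroup.centralizer (Q : Set G) ≤ L) (θ : Cfsg.IrrCharacter K) (hθ : ∀ g : G, Cfsg.IsConjCharOf K g (θ : K → ℂ) (θ : K → ℂ)) (B : Set (Cfsg.IrrCharacter G)) (hBdef : ∀ χ : Cfsg.IrrCharacter G, χ ∈ B ↔ Cfsg.classInner (fun k : K => (χ : G → ℂ) k) (θ : K → ℂ) ≠ 0) : Cfsg.IsPBlock M B ∧ (∀ S : Sylow p G, Cfsg.IsDefectGroup p M B S) ∧ ∀ R : Subgroup G, IsPGroup p R → ∃! f : Set (Cfsg.IrrCharacter (Subgroup.centralizer (R : Set G))), Cfsg.IsInducedBlock M (Subgroup.centralizer (R : Set G)) f B := by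
  haveI := hM.2.1
  haveI := H33.charP hM
  subst hK hL
  have hθ' : ∀ g : G, H35.cjI g θ = θ := fun g => Subtype.ext (funext fun k => hθ g k _ rfl)
  have hN' := H1.not_dvd_card_pPrimeCore (p := p) (G := G)
  obtain ⟨S, hS⟩ := (H86.isSyl_of_not_dvd hQL hQp hQS).exists_sylow
  have hG : H70.CharP p (⊤ : Subgroup (G ⧸ pPrimeCore p G)) := by
    rw [H70.charP_top_iff, ← H23.map_mk'_centralizer_sylow_pPrimePCore S, ← hS,
      ← H23.map_mk'_pPrimePCore]
    exact Subgroup.map_mono hCQ
  obtain rfl : B = H35.upSet G {θ} :=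
    Set.ext fun χ => (hBdef χ).trans H34.mem_upSet_singleton.symm
  have hB := H34.isPBlock_upSet hM hN' hG hθ'
  refine ⟨hB, fun P => (H34.isDefectGroup_iff_isSyl hM hN' hθ' hB _).2 (H86.isSyl_top P),
    fun R hR => ?_⟩
  have h1 := H34.isBlk_br_upSet hM hN' hG hθ' hR
  obtain ⟨f, hf, hfe⟩ := h1.exists_eS
  refine ⟨f, (H34.isInducedBlock_Cen_iff hM hR hf hB).2 (by rw [← hfe, h1.idem]), fun f' hf' => ?_⟩
  have h2 := (H34.isInducedBlock_Cen_iff hM hR hf'.1 hB).1 hf'
  have h3 := H86.isBlk_eS hf'.1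
  exact H86.eS_inj hf'.1 hf (hfe ▸ (h1.eq_of_mul_ne_zero h3 (by rw [h2]; exact h3.ne)).symm)

end Cfsg.Agent.S4642
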