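import Mathlib
import Cfsg.Statements.S4689
import Cfsg.Agent.Lib.H85.NilBP
-- import your own Cfsg.Agent.* helpers here

set_option autoImplicit false
open Cfsg

namespace Cfsg.Agent.S4689

open H86 H85 H84

/-- Fix a prime p and a maximal ideal M of the algebraic integers containing p, and a nilpotent p-block B of the finite group G. Then B has p-regular rank one (a single irreducible Brauer character), and some χ₀ ∈ B restricts to that Brauer character: every χ ∈ B agrees on the p-regular elements with a natural-number multiple of χ₀. -/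
theorem result {G : Type*} [Group G] [Fintype G] (p : ℕ) [Fact p.Prime] (M : Ideal Cfsg.AlgInt) (hM : Cfsg.IsPModular p M) (B : Set (Cfsg.IrrCharacter G)) (hnil : Cfsg.IsNilpotentBlock p M B) : Cfsg.blockRank p B = 1 ∧ ∃ χ₀ ∈ B, ∀ χ ∈ B, ∃ d : ℕ, ∀ x : G, Cfsg.pRegularPart p (χ : G → ℂ) x = (d : ℂ) * Cfsg.pRegularPart p (χ₀ : G → ℂ) x := by
  haveI := H33.isMaximal_of hM
  obtain ⟨P, hP⟩ := H33.exists_defectGroup p hnil.1
  obtain ⟨e, h⟩ := exists_mp hM hnil.1 hP
  have hc := h.ctrl_of_nil hnil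
  obtain ⟨χ, hχ, h0⟩ := exists_height_zero (p := p) (block_nonempty h.hB)
  refine ⟨h.blockRank_of_ctrl hc, χ, hχ, fun ψ hψ => ?_⟩
  obtain ⟨μ, hμ⟩ := h.exists_pstar_of_ctrl hc hχ h0 hψ
  obtain ⟨m, -, hm⟩ := H6.irr_one_pos μ.2
  exact ⟨m, fun x => by rw [hμ, h.reg_pstar (hc.stab (irr_class μ)) hχ, hm]; rfl⟩

end Cfsg.Agent.S4689
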