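import Cfsg.Statements.S4645
import Mathlib
import Cfsg.Agent.Lib.Blk86.Cyc
import Cfsg.Agent.S4689

set_option autoImplicit false
open Cfsg

namespace Cfsg.Agent.S4645

set_option linter.style.haveILetI false
set_option linter.unusedVariables false

open H86 H33

/-- Let B be a block of the finite group G relative to a maximal ideal M of the algebraic integers containing the prime p, with a nontrivial cyclic defect group P; let c be a block of C_G(P) inducing B and T the stabilizer of c in N_G(P). Let Q be a nontrivial subgroup of P (so C_G(P) ≤ C_G(Q)), f the block of C_G(Q) induced by c inside C_G(Q), and T' the stabilizer of f in N_G(Q). Then T' = T·C_G(Q), the index of C_G(Q) in T' equals the index of C_G(P) in T, f has p-regular rank 1, and f is a nilpotent block of C_G(Q). -/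
theorem result {G : Type*} [Group G] [Finite G] (p : ℕ) [Fact p.Prime] (M : Ideal Cfsg.AlgInt) (hM : Cfsg.IsPModular p M) (B : Set (Cfsg.IrrCharacter G)) (hB : Cfsg.IsPBlock M B) (P : Subgroup G) (hPD : Cfsg.IsDefectGroup p M B P) (hP1 : P ≠ ⊥) (hcyc : IsCyclic P) (c : Set (Cfsg.IrrCharacter (Subgroup.centralizer (P : Set G)))) (hc : Cfsg.IsInducedBlock M (Subgroup.centralizer (P : Set G)) c B) (T : Subgroup G) (hT : ∀ g : G, g ∈ T ↔ (g ∈ Subgroup.normalizer (P : Set G) ∧ Cfsg.StabilizesBlock (Subgroup.centralizer (P : Set G)) c g)) (Q : Subgroup G) (hQP : Q ≤ P) (hQ1 : Q ≠ ⊥) (f : Set (Cfsg.IrrCharacter (Subgroup.centralizer (Q : Set G)))) (hf : Cfsg.IsInducedBlockIn M (Subgroup.centralizer (Q : Set G)) (Subgroup.centralizer (P : Set G)) c f) (T' : Subgroup G) (hT' : ∀ g : G, g ∈ T' ↔ (g ∈ Subgroup.normalizer (Q : Set G) ∧ Cfsg.StabilizesBlock (Subgroup.centralizer (Q : Set G)) f g)) : T' = T ⊔ Subgroup.centralizer (Q : Set G) ∧ (Subgroup.centralizer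 (Q : Set G)).relIndex T' = (Subgroup.centralizer (P : Set G)).relIndex T ∧ Cfsg.blockRank p f = 1 ∧ Cfsg.IsNilpotentBlock p M f := by
  haveI := isMaximal_of hM; haveI := charP hM; haveI := good hM G
  have hab := le_Cen_of_isCyclic hcyc
  have hb := H86.isBlk_eB hB
  have hm := isMaxPair_of_induced hM hPD hab hc
  have hT1 := eq_St hc.1 hT
  have hT2 := eq_St hf.2.1 hT'
  have hd := hm.not_dvd hb
  rw [top_inf_eq, sup_eq_right.2 hab, ← hT1] at hd
  have hN : T ≤ Nor P := hT1 ▸ St_le_Nor _ _ _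
  have hns := nsub_of_inducedIn hM hm.pgrp hab hQP hf
  have hs := hns.sub
  have hNQ : T ≤ Nor Q := hN.trans (Nor_le_Nor_of_isCyclic hcyc hQP)
  have hTT : T ≤ T' := fun x hx => by
    rw [hT2]
    have hx' := hT1 ▸ hx
    exact ⟨⟨trivial, hNQ hx⟩, hs.cj_eq hm.toPair trivial (hN hx) (mem_St.1 hx').2.2 (hNQ hx)⟩
  have hCT : Cen Q ≤ T' := by
    have := hns.left.Cen_le_St
    rwa [top_inf_eq, ← hT2] at this
  have hmul : ∀ t ∈ T', ∃ a ∈ T, ∃ c ∈ Cen Q, t = a * c := fun t ht => by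
    obtain ⟨y, hy, c, hc, h⟩ := hs.exists_mul_of_ab hm hb hab (hs.mor_of_mem_St (hT2 ▸ ht))
    exact ⟨y, hT1 ▸ hy, c, hc.2, h⟩
  have hinf := inf_Cen_le_of_isCyclic hcyc hm.pgrp hN hd hQP hQ1
  have hPQ : P ≤ Cen Q := hab.trans (Cen_anti hQP)
  have hnil : Cfsg.IsNilpotentBlock p M f := by
    have hfb := isBlk_eS hf.2.1
    have h1 : IsDef p (Cen Q) (eS M (Cen Q) f) P := by
      have := (hs.isDef_iff_card hm hb (hT2 ▸ hCT) hfb).2 fun x _ _ => by
        rw [inf_eq_left.2 hPQ]; exact Subgroup.card_le_of_le inf_le_left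
      rwa [inf_eq_left.2 hPQ] at this
    have h2 := (hns.pairOf hPQ inf_le_right le_top).isMaxPair h1
    rw [isNilpotentBlock_sub_iff hf.2.1, isNil_iff_of_ab h2 hfb hab]
    intro x hx
    have hxT : x ∈ T := hT1 ▸ ⟨⟨trivial, hx.1.2⟩, hx.2⟩
    exact (hinf.le ⟨hx.1.1, hxT⟩).1
  refine ⟨le_antisymm (fun t ht => ?_) (sup_le hTT hCT), ?_, ?_, hnil⟩
  · obtain ⟨a, ha, c, hc, rfl⟩ := hmul t ht
    exact Subgroup.mul_mem_sup ha hc
  · rw [relIndex_eq_of_mul hTT hmul, ← Subgroup.inf_relIndex_right, hinf,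
      Subgroup.inf_relIndex_right]
  · haveI := Fintype.ofFinite (Cen Q)
    exact (Cfsg.Agent.S4689.result p M hM f hnil).1

end Cfsg.Agent.S4645
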