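import Cfsg.Statements.S4691
import Mathlib
import Cfsg.Agent.Lib.Blk86.GoodF
import Cfsg.Agent.S0071

set_option autoImplicit false
open Cfsg

namespace Cfsg.Agent.S4691

set_option linter.style.haveILetI false
set_option linter.unusedVariables false

open H86 H33

/-- Fix a prime p and a maximal ideal M of the algebraic integers containing p. A finite group G has a normal p-complement if and only if its principal p-block is nilpotent. -/
theorem result {G : Type*} [Group G] [Fintype G] (p : ℕ) [Fact p.Prime] (M : Ideal Cfsg.AlgInt) (hM : Cfsg.IsPModular p M) : Cfsg.HasNormalPComplement p G ↔ Cfsg.IsNilpotentBlock p M (Cfsg.principalBlock M G) := by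
  haveI := isMaximal_of hM
  haveI := charP hM
  rw [isNilpotentBlock_iff isPBlock_principalBlock, isNil_principal_iff
    (isBlk_eB isPBlock_principalBlock) (by rw [aug_eB_principal]; exact one_ne_zero)]
  constructor
  · rintro ⟨S, h⟩ Q - hQ x - hN ho
    obtain ⟨k, -, hk⟩ := (isSyl_top S).exists_le_cs le_top hQ
    have := (S0071.result S).1 h (cs k⁻¹ Q) (by rw [← cs_le_cs (x := k), cs_cs_inv]; exact hk)
      (k⁻¹ * x * k⁻¹⁻¹) (by change _ ∈ Nor _; rw [← cs_Nor, conj_mem_cs]; exact hN)
      (by rw [H35.orderOf_conj]; exact ((Fact.out : p.Prime).coprime_iff_not_dvd.2 ho).symm)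
    change _ ∈ Cen _ at this
    rwa [← cs_Cen, conj_mem_cs] at this
  · intro h
    obtain ⟨S⟩ := (inferInstance : Nonempty (Sylow p G))
    exact ⟨S, (S0071.result S).2 fun Q hQ x hN ho => h Q le_top (S.isPGroup'.to_le hQ) x trivial hN
      ((Fact.out : p.Prime).coprime_iff_not_dvd.1 ho.symm)⟩

end Cfsg.Agent.S4691
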