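import Cfsg.Statements.S4647
import Mathlib
import Cfsg.Agent.Lib.Blk86.MinDim

set_option autoImplicit false
open Cfsg

namespace Cfsg.Agent.S4647

set_option linter.style.haveILetI false
set_option linter.unusedVariables false

open H86 H33 MonoidAlgebra
attribute [local irreducible] H33.instFieldF

/-- Let B be a block of the finite group G relative to a maximal ideal M of the algebraic integers containing the prime p, p^a the p-part of the order of G and p^d the order of a defect group D of B. If Σ_{χ ∈ B} χ(1)² = p^(2a−d) (the least possible value), then B is nilpotent. -/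
theorem result {G : Type*} [Group G] [Finite G] (p : ℕ) [Fact p.Prime] (M : Ideal Cfsg.AlgInt) (hM : Cfsg.IsPModular p M) (B : Set (Cfsg.IrrCharacter G)) (hB : Cfsg.IsPBlock M B) (D : Subgroup G) (hD : Cfsg.IsDefectGroup p M B D) (a d : ℕ) (ha : (Nat.card G).factorization p = a) (hd : Nat.card D = p ^ d) (hmin : ∑ᶠ χ ∈ B, Cfsg.charDegree (χ : G → ℂ) ^ 2 = p ^ (2 * a - d)) : Cfsg.IsNilpotentBlock p M B := by
  haveI := isMaximal_of hM; haveI := charP hM
  have hp : p.Prime := Fact.out
  rw [isNilpotentBlock_iff hB]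
  have hb := H86.isBlk_eB hB
  have hi : IsCent (eB M B) := H86.isCent_iff_mem.2 hb.mem
  have hD' := (H86.isDefectGroup_iff hB D).1 hD
  intro Q e hQ g _ hg _ ho
  obtain ⟨S, hS, hQS⟩ := exists_isSyl_ge (K := ⊤) le_top hQ.pgrp
  obtain ⟨x, hx0, hx, hinj⟩ := exists_dc hS.pgrp hb.idem hb.ne hi
  have h1 := card_mul_card_le S x
  have h2 := hD'.card_le (R := S ⊓ cs x⁻¹ S) le_top (hS.pgrp.to_le inf_le_left)
    (res_ne_zero_iff.2 ⟨x, hx, hx0⟩)
  have h3 := hS.card_le le_top hD'.pgrp
  rw [hS.card_eq, Subgroup.card_top, ha] at h1 h3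
  rw [hd] at h2 h3
  have h4 := (Nat.pow_le_pow_iff_right hp.one_lt).1 h3
  have h5 : p ^ (2 * a - d) ≤ Nat.card (DC S x) := by
    refine Nat.le_of_mul_le_mul_right ?_ (pow_pos hp.pos d)
    rw [← pow_add, Nat.sub_add_cancel (by omega), two_mul, pow_add]
    exact h1.trans (Nat.mul_le_mul_left _ h2)
  have hli := linearIndependent_DC hinj
  have hsp : single g 1 * eB M B ∈
      Submodule.span (F M) (Set.range fun y : DC S x => single (y : G) (1 : F M) * eB M B) := by
    by_contra hn
    have h6 := card_le_sum_sq (fB_mem_OG hB) (fun o : Option (DC S x) => o.elim g Subtype.val) (by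
      rw [linearIndependent_option]
      exact ⟨hli, hn⟩)
    rw [← H84.finsum_mem_eq, hmin, Finite.card_option] at h6
    omega
  have hz : ∃ z ∈ DS (F M) S x, z * eB M B = single g 1 * eB M B := by
    refine Submodule.span_le (p := (DS (F M) S x).map (LinearMap.mulRight (F M) (eB M B))).2 ?_ hsp
    rintro _ ⟨y, rfl⟩
    exact ⟨_, single_mem_DS y.2, rfl⟩
  obtain ⟨z, hz, hzb⟩ := hz
  obtain ⟨y, hy, h⟩ := exists_act_of_span hi hx hinj hQS hQ.pgrp hQ.br_ne_zero hg hz hzb
  obtain ⟨k, hk⟩ := H35.isPElt_iff_pow.1 (H35.isPElt_of_mem hS.pgrp hy)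
  exact h.mem_Cen_of_pow hg ho (k := k) (hk ▸ (Cen Q).one_mem)

end Cfsg.Agent.S4647
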