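import Cfsg.Statements.S4648
import Mathlib
import Cfsg.Agent.Base
import Cfsg.Agent.Lib.Cyc.Small2
import Cfsg.Agent.S4649

set_option autoImplicit false
open Cfsg

namespace Cfsg.Agent.S4648

/-- Let B be a block of the finite group G relative to a maximal ideal M of the algebraic integers containing the prime p, with a nontrivial defect group D. If B has p-regular rank 1 and at most four irreducible characters, then B is nilpotent, D has exactly as many elements as B has irreducible characters, and p is 2 or 3. -/
theorem result {G : Type*} [Group G] [Finite G] (p : ℕ) [Fact p.Prime] (M : Ideal Cfsg.AlgInt) (hM : Cfsg.IsPModular p M) (B : Set (Cfsg.IrrCharacter G)) (hB : Cfsg.IsPBlock M B) (D : Subgroup G) (hD : Cfsg.IsDefectGroup p M B D) (hD1 : D ≠ ⊥) (hl : Cfsg.blockRank p B = 1) (hk : Nat.card B ≤ 4) : Cfsg.IsNilpotentBlock p M B ∧ Nat.card D = Nat.card B ∧ (p = 2 ∨ p = 3) := by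
  haveI := H33.isMaximal_of hM; haveI := H33.charP hM; letI := Fintype.ofFinite G
  obtain ⟨e, h⟩ := H85.exists_mp hM hB hD
  have hq := h.card_eq
  have h1 := H35C.rank_one_small hM hB hl (by omega)
  have h2 := (Subgroup.one_lt_card_iff_ne_bot D).2 hD1
  have h3 : p ∣ Nat.card D := hq ▸ dvd_pow_self p fun h0 => by rw [h0, pow_zero] at hq; omega
  have h4 : p = 2 ∨ p = 3 := by
    have h5 := (Nat.le_of_dvd (by omega) h3).trans (show Nat.card D ≤ 4 by omega)
    have h6 := (Fact.out : p.Prime)
    have h7 := h6.two_le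
    interval_cases p
    · exact .inl rfl
    · exact .inr rfl
    · exact absurd h6 (by decide)
  refine ⟨?_, by omega, h4⟩
  by_cases hc : IsCyclic D
  · exact (Cfsg.Agent.S4649.result p M hM B hB D hD hc).2 hl
  have h5 : Nat.card D = 4 := by
    by_contra h5
    obtain h6 | h6 : Nat.card D = 2 ∨ Nat.card D = 3 := by omega
    · exact hc (isCyclic_of_prime_card h6)
    · exact hc (isCyclic_of_prime_card h6)
  obtain rfl : p = 2 := h4.resolve_right fun h6 => by rw [h5, h6] at h3; omega
  have h6 := H34.rk2_of_isKleinFour (H35C.isKleinFour_of h5 hc)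
  rw [h.nil_iff h6.le_centralizer, ← Subgroup.relIndex_eq_one, ← H85.card_inq,
    ← (h.counts_of_rk2 h6).1, hl]

end Cfsg.Agent.S4648
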