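import Mathlib
import Cfsg.Statements.S4650
import Cfsg.Agent.Lib.H85.AbDef
-- import your own Cfsg.Agent.* helpers here

set_option autoImplicit false
open Cfsg

namespace Cfsg.Agent.S4650

open H86 H85 H84

/-- Let B be a block of the finite group G relative to a maximal ideal M of the algebraic integers containing the prime p, with a nontrivial commutative defect group P; let c be a block of C_G(P) inducing B and T the stabilizer of c in N_G(P). Then T/C_G(P) acts freely on the non-identity elements of P (an element of T fixing a non-identity element of P under conjugation lies in C_G(P)) if and only if, for every nontrivial subgroup Q of P, the block of C_G(Q) induced by c inside C_G(Q) is a nilpotent block of C_G(Q). -/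
theorem result {G : Type*} [Group G] [Finite G] (p : ℕ) [Fact p.Prime] (M : Ideal Cfsg.AlgInt) (hM : Cfsg.IsPModular p M) (B : Set (Cfsg.IrrCharacter G)) (hB : Cfsg.IsPBlock M B) (P : Subgroup G) (hPD : Cfsg.IsDefectGroup p M B P) (hPab : ∀ x ∈ P, ∀ y ∈ P, x * y = y * x) (hP1 : P ≠ ⊥) (c : Set (Cfsg.IrrCharacter (Subgroup.centralizer (P : Set G)))) (hc : Cfsg.IsInducedBlock M (Subgroup.centralizer (P : Set G)) c B) (T : Subgroup G) (hT : ∀ g : G, g ∈ T ↔ (g ∈ Subgroup.normalizer (P : Set G) ∧ Cfsg.StabilizesBlock (Subgroup.centralizer (P : Set G)) c g)) : (∀ g ∈ T, ∀ x ∈ P, x ≠ 1 → g * x * g⁻¹ = x → g ∈ Subgroup.centralizer (P : Set G)) ↔ ∀ Q : Subgroup G, Q ≤ P → Q ≠ ⊥ → ∀ f : Set (Cfsg.IrrCharacter (Subgroup.centralizer (Q : Set G))), Cfsg.IsInducedBlockIn M (Subgroup.centralizer (Q : Set G)) (Subgroup.centralizer (P : Set G)) c f → Cfsg.IsNilpotentBlock p M f := by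
  haveI := H33.isMaximal_of hM; haveI := H33.charP hM; haveI := H86.good hM G
  haveI := Fintype.ofFinite G
  have hab : P ≤ Cen P := fun x hx y hy => hPab y hy x hx
  have h : MP p M B P (eS M (Cen P) c) := ⟨hM, hB, isMaxPair_of_induced hM hPD hab hc⟩
  have hT1 := eq_St hc.1 hT
  subst hT1
  refine ⟨fun hf Q hQ hQ1 f hf' => ?_, fun hn g hg x hx hx1 hgx => ?_⟩
  · rw [h.eq_loc hf'.2.1 (nsub_of_inducedIn hM h.pgrp hab hQ hf').sub]
    exact h.nil_loc hab hf hQ hQ1
  · have hQ := Subgroup.zpowers_le.2 hx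
    have h1 := h.inducedIn hQ le_rfl hab
    rw [← h.eq_loc hc.1 Sub.refl] at h1
    refine (h.nil_loc_iff hab hQ).1 (hn _ hQ (by simpa using hx1) _ h1) ⟨hg, ?_⟩
    rw [Cen, H34.centralizer_zpowers_eq]
    exact Subgroup.mem_centralizer_singleton_iff.2 (mul_inv_eq_iff_eq_mul.1 hgx)

end Cfsg.Agent.S4650
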