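import Cfsg.Statements.S4651
import Mathlib
import Cfsg.Agent.Lib.Blk86.Chain

set_option autoImplicit false
open Cfsg

namespace Cfsg.Agent.S4651

set_option linter.style.haveILetI false
set_option linter.unusedVariables false

open H86 H33

/-- An alternating-sum identity over chains of p-subgroups (the character-count form behind the chain reformulation of Alperin's weight conjecture, which holds unconditionally for the difference k − l). Let b be a block of the finite group G relative to a maximal ideal M of the algebraic integers containing the prime p. Consider the nonempty chains s = {Q_0 < Q_1 < ⋯ < Q_m} of nontrivial p-subgroups of G in which every member is normal in the largest member; let N_G(s) be the intersection of the normalizers of the members (the stabilizer of the chain), and let b_s be the set of irreducible characters of N_G(s) lying in blocks of N_G(s) that induce b. Then #G · (k(b) − l(b)) equals the sum over all such chains s of (−1)^m · #N_G(s) · (k(b_s) − l(b_s)), where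 k counts irreducible characters and l is the p-regular rank; equivalently, k(b) − l(b) is the alternating sum of k(b_s) − l(b_s) over representatives of the conjugacy classes of such chains. -/
theorem result {G : Type*} [Group G] [Finite G] (p : ℕ) [Fact p.Prime] (M : Ideal Cfsg.AlgInt) (hM : Cfsg.IsPModular p M) (b : Set (Cfsg.IrrCharacter G)) (hb : Cfsg.IsPBlock M b) : (Nat.card G : ℤ) * ((Nat.card b : ℤ) - (Cfsg.blockRank p b : ℤ)) = ∑ᶠ s ∈ {s : Finset (Subgroup G) | s.Nonempty ∧ (∀ Q ∈ s, ∀ R ∈ s, Q ≤ R ∨ R ≤ Q) ∧ (∀ Q ∈ s, Q ≠ ⊥ ∧ IsPGroup p Q) ∧ ∃ T ∈ s, ∀ Q ∈ s, Q ≤ T ∧ T ≤ Subgroup.normalizer ((Q : Subgroup G) : Set G)}, (-1 : ℤ) ^ (s.card - 1) * (Nat.card (((⨅ Q ∈ s, Subgroup.normalizer ((Q : Subgroup G) : Set G) : Subgroup G))) : ℤ) * ((Nat.card {ψ : Cfsg.IrrCharacter (((⨅ Q ∈ s, Subgroup.normalizer ((Q : Subgroup G) : Set G) : Subgroup G))) | ∃ β : Set (Cfsg.IrrCharacter (((⨅ Q ∈ s, Subgroup.normalizer ((Q : Subgroup G) : Set G) : Subgroup G)))), ψ ∈ β ∧ Cfsg.IsInducedBlock M (((⨅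 Q ∈ s, Subgroup.normalizer ((Q : Subgroup G) : Set G) : Subgroup G))) β b} : ℤ) - (Cfsg.blockRank p {ψ : Cfsg.IrrCharacter (((⨅ Q ∈ s, Subgroup.normalizer ((Q : Subgroup G) : Set G) : Subgroup G))) | ∃ β : Set (Cfsg.IrrCharacter (((⨅ Q ∈ s, Subgroup.normalizer ((Q : Subgroup G) : Set G) : Subgroup G)))), ψ ∈ β ∧ Cfsg.IsInducedBlock M (((⨅ Q ∈ s, Subgroup.normalizer ((Q : Subgroup G) : Set G) : Subgroup G))) β b} : ℤ)) := by
  classical
  haveI := isMaximal_of hM
  haveI := Fintype.ofFinite G
  haveI := Fintype.ofFinite (Finset (Subgroup G))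
  have hB := fB_mem_OG hb
  have hset : {s : Finset (Subgroup G) | s.Nonempty ∧ (∀ Q ∈ s, ∀ R ∈ s, Q ≤ R ∨ R ≤ Q) ∧
      (∀ Q ∈ s, Q ≠ ⊥ ∧ IsPGroup p Q) ∧ ∃ T ∈ s, ∀ Q ∈ s, Q ≤ T ∧
        T ≤ Subgroup.normalizer ((Q : Subgroup G) : Set G)} =
      ((Finset.univ.filter (NCh p)).erase (∅ : Finset (Subgroup G)) : Finset (Finset (Subgroup G))) := by
    ext s
    rw [Set.mem_ofPred_eq, nch_iff]
    simp [and_comm]
  rw [hset, finsum_mem_coe_finset]
  apply Int.cast_injective (α := ℂ)
  push_cast
  simp only [← indU_block hb, mul_assoc]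
  have h1 := card_mul_sub_rank_chT hM b
  rw [card_mul_sub_rank hM hB]
  refine Eq.trans ?_ (Finset.sum_congr rfl fun s _ => by rw [h1 s]).symm
  simp only [Finset.mul_sum]
  rw [Finset.sum_comm]
  refine Finset.sum_congr rfl fun h _ => ?_
  split_ifs with hh
  · have h2 := sum_chT_eq_zero hM hB hh
    rw [← Finset.add_sum_erase _ _ (Finset.mem_filter.2 ⟨Finset.mem_univ _, nch_empty⟩),
      chT_empty hM hB, Finset.card_empty, pow_zero, one_mul, add_eq_zero_iff_eq_neg,
      ← Finset.sum_neg_distrib] at h2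
    rw [h2]
    refine Finset.sum_congr rfl fun s hs => ?_
    have h3 : s.card - 1 + 1 = s.card := Nat.sub_add_cancel
      (Finset.card_pos.2 (Finset.nonempty_iff_ne_empty.2 (Finset.mem_erase.1 hs).1))
    conv_lhs => rw [← h3, pow_succ]
    ring
  · simp

end Cfsg.Agent.S4651
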