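import Mathlib
import Cfsg.Statements.S4652
import Cfsg.Agent.Lib.H85.Prin
import Cfsg.Agent.Lib.Blk86.Syl
-- import your own Cfsg.Agent.* helpers here

set_option autoImplicit false
open Cfsg

namespace Cfsg.Agent.S4652

/-- Fix a prime p and a maximal ideal M of the algebraic integers containing p. The defect groups of the principal p-block of a finite group G are exactly the Sylow p-subgroups of G: a subgroup D is a defect group of the principal block if and only if D is a Sylow p-subgroup. -/
theorem result {G : Type*} [Group G] [Fintype G] (p : ℕ) [Fact p.Prime] (M : Ideal Cfsg.AlgInt) (hM : Cfsg.IsPModular p M) (D : Subgroup G) : Cfsg.IsDefectGroup p M (Cfsg.principalBlock M G) D ↔ ∃ S : Sylow p G, (S : Subgroup G) = D := by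
  classical
  have := H33.isMaximal_of hM
  have hB : IsPBlock M (principalBlock M G) := H33.isPBlock_principalBlock
  constructor
  · rintro ⟨g, ⟨-, -, h3⟩, P, rfl⟩
    have h4 := h3 _ H33.oneIrr_mem_principalBlock
    rw [H33.centralChar_oneIrr, H33.memLocalIdeal_natCast_iff hM] at h4
    have h5 := H86.isSyl_map P
    apply H86.IsSyl.exists_sylow_top
    refine H86.isSyl_of_not_dvd le_top h5.pgrp ?_
    rw [Subgroup.relIndex_top_right, ← Subgroup.relIndex_mul_index h5.le]
    intro h
    rcases (Nat.Prime.dvd_mul Fact.out).1 h with h | h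
    · exact h5.not_dvd_relIndex h
    · exact h4 h
  · rintro ⟨S, rfl⟩
    have hc : H33.red M (blockCoeff (principalBlock M G) 1) ≠ 0 := by
      rw [H85.red_blockCoeff_prin hM S (one_mem _)]
      apply inv_ne_zero
      rw [Ne, H33.natCast_F_eq_zero_iff hM]
      exact H85.not_dvd_card_sylO S
    refine ⟨1, ⟨H33.mem_O.1 (H33.blockCoeff_mem_O hB 1), ?_, ?_⟩, ?_⟩
    · rw [H33.memLocalIdeal_iff_red (H33.blockCoeff_mem_O hB 1)]; exact hc
    · intro χ hχ
      rw [H33.memLocalIdeal_iff_red (H33.centralChar_mem_O M χ 1),
        (H33.mem_principalBlock_iff χ).1 hχ 1, H33.natCast_F_eq_zero_iff hM]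
      exact H85.not_dvd_index_centralizer_of_mem S (one_mem _)
    · have h1 : H86.IsSyl p (Subgroup.centralizer ({1} : Set G)) (S : Subgroup G) := by
        have : Subgroup.centralizer ({1} : Set G) = ⊤ := by
          ext x; simp [Subgroup.mem_centralizer_singleton_iff]
        rw [this]; exact H86.isSyl_top S
      exact h1.exists_sylow

end Cfsg.Agent.S4652
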