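import Mathlib
import Cfsg.Statements.S4653
import Cfsg.Agent.Lib.Block.Vanish
-- import your own Cfsg.Agent.* helpers here

set_option autoImplicit false
open Cfsg

namespace Cfsg.Agent.S4653

set_option backward.isDefEq.respectTransparency false

/-- Fix a prime p and a maximal ideal M of the algebraic integers containing p. Let P be a normal p-subgroup of the finite group G and B a p-block of G. Then the idempotent of B is supported on C_G(P): its coefficient at every element of G outside C_G(P) is zero. -/
theorem result {G : Type*} [Group G] [Fintype G] (p : ℕ) [Fact p.Prime] (M : Ideal Cfsg.AlgInt) (hM : Cfsg.IsPModular p M) (P : Subgroup G) [P.Normal] (hP : IsPGroup p P) (B : Set (Cfsg.IrrCharacter G)) (hB : Cfsg.IsPBlock M B) (g : G) (hg : g ∉ Subgroup.centralizer (P : Set G)) : Cfsg.blockCoeff B g = 0 := by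
  classical
  have := H33.isMaximal_of hM
  have := H33.charP hM
  set C := Subgroup.centralizer (P : Set G) with hC
  set e := H33.eB M B with he
  have hec : H33.IsCent e := H33.isCent_eB _
  have hee : e * e = e := H33.eB_idem hB
  set b := H34.br P e with hb
  have hbb : b * b = b := by
    rw [hb, ← H34.br_mul hP (fun u _ g => hec g u) (fun u _ g => hec g u), hee]
  have hbe : b = e := by
    have h1 : IsNilpotent (e - b) := H34.isNilpotent_sub_br hP (fun u _ g => hec g u)
    have hc : b * e = e * b := hec.comm b
    have h3 : (e - b) ^ 3 = e - b := by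
      have e1 : e * (e * b) = e * b := by rw [← mul_assoc, hee]
      have e2 : b * (e * b) = e * b := by rw [← mul_assoc, hc, mul_assoc, hbb]
      have h2 : (e - b) * (e - b) = e - 2 * (e * b) + b := by
        rw [sub_mul, mul_sub, mul_sub, hee, hbb, hc, two_mul]; abel
      rw [pow_succ', pow_two, h2, sub_mul, mul_add, mul_add, mul_sub, mul_sub, hee, hbb, hc,
        two_mul, mul_add, mul_add, e1, e2]
      abel
    obtain ⟨n, hn⟩ := h1
    have h4 : ∀ k : ℕ, (e - b) ^ (2 * k + 1) = e - b := by
      intro k
      induction k with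
      | zero => simp
      | succ k ih =>
        rw [show 2 * (k + 1) + 1 = (2 * k + 1) + 2 by ring, pow_add, ih, ← pow_succ', h3]
    have h5 := h4 n
    rw [show 2 * n + 1 = n + (n + 1) by ring, pow_add, hn, zero_mul] at h5
    exact (sub_eq_zero.1 h5.symm).symm
  have hs : ∀ g, g ∉ C → e.coeff g = 0 := by
    intro g hg
    rw [← hbe, hb, H34.coeff_br_of_not_mem _ hg]
  have hit : H34.incl C (H34.trunc C e) = e := H34.incl_trunc_of_support hs
  have htc : H33.IsCent (H34.trunc C e) := H34.isCent_trunc C hec
  have htt : H34.trunc C e * H34.trunc C e = H34.trunc C e := by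
    apply H34.incl_injective C
    rw [map_mul, hit, hee]
  obtain ⟨h1, h2⟩ := H33.idem_eq_eB htc htt
  set A := {χ : IrrCharacter C | H33.lam M (χ : C → ℂ) (H34.trunc C e) = 1}
  have h3 : H34.incl C (H33.fB A) = H33.fB B := by
    apply H33.idem_eq_of_redA_eq (M := M) (H34.incl_mem_OG C h1) (H33.fB_mem_OG hB)
    · rw [← map_mul, H33.fB_idem]
    · exact H33.fB_idem B
    · exact (H33.isCent_fB B).comm _
    · rw [H34.redA_incl, ← H33.eB_def, ← h2, hit, ← H33.eB_def]
  rw [← H33.coeff_fB, ← h3, H34.coeff_incl_of_not_mem _ hg]

end Cfsg.Agent.S4653
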