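import Cfsg.Statements.S4654
import Mathlib
import Cfsg.Agent.Lib.Blk86.Cov

set_option autoImplicit false
open Cfsg

namespace Cfsg.Agent.S4654

set_option linter.style.haveILetI false
set_option linter.unusedVariables false

open H86 H33

/-- Fix a prime p and a maximal ideal M of the algebraic integers containing p. Let P be a normal p-subgroup of the finite group G, B a p-block of G and e a p-block of C_G(P) such that (P, e) is a Brauer pair of B (as P is normal, this says that e occurs in the idempotent of B, which is supported on C_G(P)). Let T be the stabilizer of e in G under conjugation. Then the idempotent of e is a block idempotent of T: some block E of T has, at every element of T, the same idempotent coefficient as e (zero off C_G(P)); and the idempotent of B is the sum of the distinct G-conjugates of the idempotent of e: its coefficient at g is the sum over all x in G of the coefficient of e at x⁻¹ g x, divided by the order of T. -/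
theorem result {G : Type*} [Group G] [Fintype G] (p : ℕ) [Fact p.Prime] (M : Ideal Cfsg.AlgInt) (hM : Cfsg.IsPModular p M) (P : Subgroup G) [P.Normal] (hP : IsPGroup p P) (B : Set (Cfsg.IrrCharacter G)) (e : Set (Cfsg.IrrCharacter (Subgroup.centralizer (P : Set G)))) (hBe : Cfsg.IsBrauerPairOf p M B P e) (T : Subgroup G) (hT : ∀ x : G, x ∈ T ↔ Cfsg.StabilizesBlock (Subgroup.centralizer (P : Set G)) e x) : (∃ E : Set (Cfsg.IrrCharacter T), Cfsg.IsPBlock M E ∧ ∀ t : T, Cfsg.blockCoeff E t = Cfsg.subgroupBlockCoeff (Subgroup.centralizer (P : Set G)) e (t : G)) ∧ ∀ g : G, Cfsg.blockCoeff B g = (Nat.card T : ℂ)⁻¹ * ∑ x : G, Cfsg.subgroupBlockCoeff (Subgroup.centralizer (P : Set G)) e (x⁻¹ * g * x) := by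
  haveI := isMaximal_of hM; haveI := charP hM; haveI := good hM G
  classical
  have hn : ⊤ ≤ Nor P := (Subgroup.normalizer_eq_top P).ge
  have hn' : ⊤ ≤ Nor (Cen P) := hn.trans (Nor_le_Nor_Cen P)
  have he := hBe.1.2
  have hB := hBe.2.1
  have hb := H86.isBlk_eB hB
  have hpo := pairOf_of_isBrauerPairOf hBe
  have he' := isBlk_eS he
  have hT' : ∀ x, x ∈ T ↔ cj x (eS M (Cen P) e) = eS M (Cen P) e := fun x => by
    rw [hT, stabilizesBlock_iff he, and_iff_right (hn' trivial)]
  have hTS : T = St ⊤ P (eS M (Cen P) e) := by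
    ext x; rw [hT', mem_St, and_iff_right (Subgroup.mem_top x),
      and_iff_right (mem_Nor_iff_cs.1 (hn trivial))]
  have hCT : Cen P ≤ T := fun x hx => (hT' x).2 (he'.inv.cj_eq hx)
  constructor
  · obtain ⟨E, hE, -, h⟩ := exists_block_eq he hCT (hTS ▸ hpo.isBlk_St)
    exact ⟨E, hE, h⟩
  · have h1 : eB M B = orbSum ⊤ (Cen P) (eS M (Cen P) e) := by
      have h2 := isBlk_orbSum hP le_top hn hpo.blk
      rw [top_inf_eq] at h2
      refine hb.eq_of_mul_ne_zero h2 ((mul_orbSum_ne_zero_iff hn' he' hb.inv).2 ?_)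
      rw [← br_eq_self hP le_top hn hb.mem hb.idem, hpo.br_mul]
      exact he'.ne
    haveI := Fintype.ofFinite (G ⧸ T)
    rw [orbSum_top_eq_sum hn' he' hT'] at h1
    have hO : ∀ x : G, cj x (fS (Cen P) e) ∈ OG M G := fun x => cj_mem_OG x (fS_mem_OG he)
    have hZ : ∀ x : G, cj x (fS (Cen P) e) ∈ Zc ℂ (Cen P) := fun x => by
      have := cj_mem_Fx (fS_mem_Zc (Cen P) e) x
      rwa [mem_Nor_iff_cs.1 (hn' trivial)] at this
    have hid : ∀ x : G, cj x (fS (Cen P) e) * cj x (fS (Cen P) e) = cj x (fS (Cen P) e) :=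
      fun x => by rw [← map_mul, fS_idem]
    have hred : ∀ x : G, redA M (cj x (fS (Cen P) e)) = cj x (eS M (Cen P) e) := fun x => by
      rw [redA_cj, redA_fS]
    have hst : ∀ t ∈ T, cj t (fS (Cen P) e) = fS (Cen P) e := fun t ht =>
      idem_eq_of_redA_eq (hO t) (fS_mem_OG he) (hid t) (fS_idem _ _)
        ((hZ t).2.comm (fS_mem_Zc _ _).1) (by rw [hred, redA_fS, (hT' t).1 ht])
    have h3 : fB B = ∑ q : G ⧸ T, cj q.out (fS (Cen P) e) := by
      refine idem_eq_of_redA_eq (fB_mem_OG hB) (Subring.sum_mem _ fun q _ => hO _) (fB_idem _) ?_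
        ((isCent_fB B).comm _).symm ?_
      · rw [Finset.sum_mul_sum]
        refine Finset.sum_congr rfl fun q _ => ?_
        rw [Finset.sum_eq_single q, hid]
        · intro q' _ hq
          refine eq_zero_of_idem_of_redA_eq_zero (M := M) (Subring.mul_mem _ (hO _) (hO _)) ?_ ?_
          · rw [← mul_assoc, mul_assoc (cj _ _) (cj q'.out _), ← (hZ _).2.comm (hZ _).1,
              ← mul_assoc, hid, mul_assoc, hid]
          · rw [redA_mul (hO _) (hO _), hred, hred]
            by_contra h0
            have := (he'.cj_of_mem_Nor (hn' trivial)).eq_of_mul_ne_zero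
              (he'.cj_of_mem_Nor (hn' trivial)) h0
            apply hq
            rw [← QuotientGroup.out_eq' q, ← QuotientGroup.out_eq' q', QuotientGroup.eq, hT',
              cj_mul, this, cj_inv_cj]
        · simp
      · rw [← eB_def, h1, redA_sum _ fun q _ => hO _]
        simp only [hred]
    intro g
    have hT0 : (Nat.card T : ℂ) ≠ 0 := Nat.cast_ne_zero.2 Nat.card_pos.ne'
    rw [← coeff_fB, h3, coeff_sum_apply, eq_inv_mul_iff_mul_eq₀ hT0, Finset.mul_sum,
      ← Finset.sum_fiberwise_of_maps_to (s := Finset.univ) (t := Finset.univ)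
        (g := fun x : G => (x : G ⧸ T)) (fun _ _ => Finset.mem_univ _)]
    refine Finset.sum_congr rfl fun q _ => ?_
    rw [Finset.sum_congr rfl (g := fun _ => (cj q.out (fS (Cen P) e)).coeff g), Finset.sum_const,
      nsmul_eq_mul]
    · congr 2
      rw [← Fintype.card_subtype, ← Nat.card_eq_fintype_card]
      refine Nat.card_congr ⟨fun t => ⟨q.out * t, by simp⟩,
        fun x => ⟨q.out⁻¹ * x, QuotientGroup.eq.1 ((QuotientGroup.out_eq' q).trans x.2.symm)⟩,
        fun t => by simp, fun x => by simp⟩
    · intro x hx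
      rw [← coeff_fS, ← coeff_cj, ← (Finset.mem_filter.1 hx).2]
      obtain ⟨t, ht⟩ := QuotientGroup.mk_out_eq_mul T x
      rw [ht, cj_mul, hst t t.2]

end Cfsg.Agent.S4654
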