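import Cfsg.Statements.S4657
import Mathlib
import Cfsg.Agent.Lib.Blk86.Dict

set_option autoImplicit false
open Cfsg

namespace Cfsg.Agent.S4657

open H86 H33

/-- Fix a prime p and a maximal ideal M of the algebraic integers containing p. Every Brauer pair (P, e) of the finite group G is a Brauer pair of exactly one p-block B of G. -/
theorem result {G : Type*} [Group G] [Fintype G] (p : ℕ) [Fact p.Prime] (M : Ideal Cfsg.AlgInt) (hM : Cfsg.IsPModular p M) (P : Subgroup G) (e : Set (Cfsg.IrrCharacter (Subgroup.centralizer (P : Set G)))) (hPe : Cfsg.IsBrauerPair p M P e) : ∃! B : Set (Cfsg.IrrCharacter G), Cfsg.IsBrauerPairOf p M B P e := by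
  haveI := isMaximal_of hM
  haveI := charP hM
  obtain ⟨x, hx, h⟩ := (pair_of_isBrauerPair hPe).exists_blk
  obtain ⟨B, hB, rfl⟩ := hx.exists_eB
  exact ⟨B, (isBrauerPairOf_iff hB hPe.2).2 h, fun B' h' => eB_injective h'.2.1 hB
    ((pairOf_of_isBrauerPairOf h').blk_unique h (isBlk_eB h'.2.1) hx)⟩

end Cfsg.Agent.S4657
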