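import Cfsg.Statements.S4658
import Mathlib
import Cfsg.Agent.Lib.Blk86.Dict

set_option autoImplicit false
open Cfsg

namespace Cfsg.Agent.S4658

open H86 H33

/-- Fix a prime p and a maximal ideal M of the algebraic integers containing p. Let (Q, f) ≤ (P, e) be Brauer pairs of the finite group G and B a p-block of G. Then (P, e) is a Brauer pair of B if and only if (Q, f) is. -/
theorem result {G : Type*} [Group G] [Fintype G] (p : ℕ) [Fact p.Prime] (M : Ideal Cfsg.AlgInt) (hM : Cfsg.IsPModular p M) (P Q : Subgroup G) (e : Set (Cfsg.IrrCharacter (Subgroup.centralizer (P : Set G)))) (f : Set (Cfsg.IrrCharacter (Subgroup.centralizer (Q : Set G)))) (hPe : Cfsg.IsBrauerPair p M P e) (hQf : Cfsg.IsBrauerPair p M Q f) (hle : Cfsg.SubpairLE p M Q f P e) (B : Set (Cfsg.IrrCharacter G)) (hB : Cfsg.IsPBlock M B) : Cfsg.IsBrauerPairOf p M B P e ↔ Cfsg.IsBrauerPairOf p M B Q f := by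
  haveI := isMaximal_of hM
  haveI := charP hM
  rw [isBrauerPairOf_iff hB hPe.2, isBrauerPairOf_iff hB hQf.2]
  exact ((sub_of_subpairLE hle).pairOf_iff (pair_of_isBrauerPair hPe) (isBlk_eB hB).mem
    (isBlk_eB hB).idem).symm

end Cfsg.Agent.S4658
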