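import Cfsg.Statements.S4662
import Mathlib
import Cfsg.Agent.Lib.Blk86.DictFus

set_option autoImplicit false
open Cfsg

namespace Cfsg.Agent.S4662

set_option linter.style.haveILetI false
set_option linter.unusedVariables false

open H86 H33

/-- Fix a prime p and a maximal ideal M of the algebraic integers containing p. Let (P, e) be a maximal Brauer pair of the p-block B of the finite group G, Q ≤ P, and f the p-block of C_G(Q) with (Q, f) ≤ (P, e). Let T be the stabilizer of f in N_G(Q). Then the idempotent of f is a block idempotent of T, and N_P(Q) is contained in a defect group of that block of T; moreover for some x in G the conjugate pair (x Q x⁻¹, conjugate of f) again lies below (P, e) and, with T' the stabilizer of the conjugate of f in N_G(x Q x⁻¹), N_P(x Q x⁻¹) is a defect group of the block of T' whose idempotent is that of the conjugate of f. -/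
theorem result {G : Type*} [Group G] [Fintype G] (p : ℕ) [Fact p.Prime] (M : Ideal Cfsg.AlgInt) (hM : Cfsg.IsPModular p M) (B : Set (Cfsg.IrrCharacter G)) (P Q : Subgroup G) (e : Set (Cfsg.IrrCharacter (Subgroup.centralizer (P : Set G)))) (f : Set (Cfsg.IrrCharacter (Subgroup.centralizer (Q : Set G)))) (hmax : Cfsg.IsMaximalBrauerPair p M B P e) (hQP : Q ≤ P) (hf : Cfsg.IsPBlock M f) (hle : Cfsg.SubpairLE p M Q f P e) (T : Subgroup G) (hT : ∀ y : G, y ∈ T ↔ y ∈ Subgroup.normalizer (Q : Set G) ∧ Cfsg.StabilizesBlock (Subgroup.centralizer (Q : Set G)) f y) : (∃ F : Set (Cfsg.IrrCharacter T), Cfsg.IsPBlock M F ∧ (∀ t : T, Cfsg.blockCoeff F t = Cfsg.subgroupBlockCoeff (Subgroup.centralizer (Q : Set G)) f (t : G)) ∧ ∃ D : Subgroup T, Cfsg.IsDefectGroup p M F D ∧ (P ⊓ Subgroup.normalizer (Q : Set G)).subgroupOf T ≤ D) ∧ ∃ x : G, Cfsg.SubpairLE p M (Q.map (MulAut.conj x).toMonoidHom) (Cfsg.conjBlock Q x f) P e ∧ ∀ (T' : Subgroup G), (∀ y : G, y ∈ T' ↔ y ∈ Subgroup.normalizer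 ((Q.map (MulAut.conj x).toMonoidHom) : Set G) ∧ Cfsg.StabilizesBlock (Subgroup.centralizer ((Q.map (MulAut.conj x).toMonoidHom) : Set G)) (Cfsg.conjBlock Q x f) y) → ∃ F' : Set (Cfsg.IrrCharacter T'), Cfsg.IsPBlock M F' ∧ (∀ t : T', Cfsg.blockCoeff F' t = Cfsg.subgroupBlockCoeff (Subgroup.centralizer ((Q.map (MulAut.conj x).toMonoidHom) : Set G)) (Cfsg.conjBlock Q x f) (t : G)) ∧ Cfsg.IsDefectGroup p M F' ((P ⊓ Subgroup.normalizer ((Q.map (MulAut.conj x).toMonoidHom) : Set G)).subgroupOf T') := by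
  haveI := isMaximal_of hM
  haveI := charP hM
  have hm := isMaxPair_of hmax
  have hb := isBlk_eB hmax.1.2.1
  have hs := sub_of_subpairLE hle
  have hQ := hs.left hm.toPair
  obtain rfl := eq_St hf hT
  constructor
  · obtain ⟨F', h1, h2, h3⟩ := exists_block_eq hf (by simpa using hQ.Cen_le_St) hQ.isBlk_St
    refine ⟨F', h1, h3, ?_⟩
    obtain ⟨D, h4, h5⟩ := hs.exists_isDef_ge hm.toPair (St_le_Nor _ _ _) hQ.isBlk_St
    exact exists_isDefectGroup_ge h1 (by rw [h2]; exact h4) ((inf_le_inf_right _ inf_le_left).trans h5)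
  · obtain ⟨x, -, h1, h2⟩ := hs.exists_full hm hb
    refine ⟨x, (subpairLE_conj_iff hf hmax.1.1.2 x).2 h1, fun T' hT' => ?_⟩
    have hf' := isPBlock_conjBlock x hf
    obtain rfl := eq_St (Q := cs x Q) hf' hT'
    rw [← eS_conjBlock] at h1 h2
    have hQ' := h1.left hm.toPair
    obtain ⟨F', h3, h4, h5⟩ := exists_block_eq (Q := cs x Q) hf' (by simpa using hQ'.Cen_le_St)
      hQ'.isBlk_St
    refine ⟨F', h3, h5, (isDefectGroup_subgroupOf_iff h3 (h1.inf_Nor_le_St hm.toPair)).2 ?_⟩
    rw [h4]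
    rwa [h1.inf_St hm.toPair] at h2

end Cfsg.Agent.S4662
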