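import Cfsg.Statements.S4664
import Mathlib
import Cfsg.Agent.Lib.Block.PConj
import Cfsg.Agent.Lib.Block.Strong

set_option autoImplicit false
open Cfsg

namespace Cfsg.Agent.S4664

set_option linter.style.haveILetI false
set_option linter.unusedVariables false

open H33

/-- Fix a prime p and a maximal ideal M of the algebraic integers containing p, and let B be a p-block of the finite group G. Let m be the p'-part of the order of G and η = exp(2πi/m). Then every coefficient of the idempotent of B lies in the cyclotomic field ℚ(η). -/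
theorem result {G : Type*} [Group G] [Fintype G] (p : ℕ) [Fact p.Prime] (M : Ideal Cfsg.AlgInt) (hM : Cfsg.IsPModular p M) (B : Set (Cfsg.IrrCharacter G)) (hB : Cfsg.IsPBlock M B) (g : G) : Cfsg.blockCoeff B g ∈ IntermediateField.adjoin ℚ ({Complex.exp (2 * Real.pi * Complex.I / ((Nat.card G / p ^ (Nat.card G).factorization p : ℕ) : ℂ))} : Set ℂ) := by
  haveI := isMaximal_of hM
  by_cases hg : p ∣ orderOf g
  · rw [H34.blockCoeff_eq_zero_of_dvd hM B (blockCoeff_mem_O hB) hg]; exact zero_mem _
  set m := Nat.card G / p ^ (Nat.card G).factorization p with hm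
  have hm0 : m ≠ 0 := H84.ordCompl_card_ne_zero
  haveI : NeZero m := ⟨hm0⟩
  have hη := Complex.isPrimitiveRoot_exp m hm0
  have hgm : g⁻¹ ^ m = 1 := by
    rw [inv_pow, inv_eq_one, ← orderOf_dvd_iff_pow_eq_one]
    exact Nat.dvd_ordCompl_of_dvd_not_dvd (orderOf_dvd_natCard g) hg
  rw [H84.blockCoeff_eq]
  refine mul_mem (inv_mem (natCast_mem _ _)) (sum_mem fun χ _ => mul_mem ?_ ?_)
  · rw [irr_one_eq_charDegree]; exact natCast_mem _ _
  · rw [← irr_inv]
    obtain ⟨n, ω, -, h1, h2⟩ := H6.char_pow_eq_sum (H84.irr_char χ) hm0 hgm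
    have := h2 1
    simp only [pow_one] at this
    rw [this]
    refine sum_mem fun i _ => ?_
    obtain ⟨k, -, hk⟩ := hη.eq_pow_of_pow_eq_one (h1 i)
    rw [← hk]
    exact pow_mem (IntermediateField.mem_adjoin_simple_self ℚ _) k

end Cfsg.Agent.S4664
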