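import Cfsg.Statements.S4668
import Mathlib
import Cfsg.Agent.Lib.Blk86.GoodF
import Cfsg.Agent.S4653

set_option autoImplicit false
open Cfsg

namespace Cfsg.Agent.S4668

set_option linter.style.haveILetI false
set_option linter.unusedVariables false

open H86 H33

theorem pxq {G : Type*} [Group G] [Finite G] {p : ℕ} [Fact p.Prime] {X A : Subgroup G}
    (hX : IsPGroup p X) (hAX : A ≤ X) {n : G} (ho : ¬ p ∣ orderOf n) (hn : n ∈ Nor X)
    (hA : n ∈ Cen A) (hC : n ∈ Cen (X ⊓ Cen A)) : n ∈ Cen X := by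
  set C := X ⊓ Cen (Subgroup.zpowers n) with hCdef
  have hmem : ∀ Y : Subgroup G, Y ≤ X → n ∈ Cen Y → Y ≤ C := fun Y h1 h2 =>
    le_inf h1 (le_Cen_zpowers.2 h2)
  have hnC : n ∈ Cen C := le_Cen_zpowers.1 inf_le_right
  by_contra hne
  have hlt : C < X := lt_of_le_of_ne inf_le_left fun h => hne (h ▸ hnC)
  have h1 := lt_inf_Nor hX hlt
  refine h1.not_ge (hmem _ inf_le_left (mem_Cen_of_comm (hX.to_le (inf_le_left : C ≤ X)) ho hnC
    fun q hq => hmem _ inf_le_left hC ⟨X.mul_mem (conj_mem_of_Nor hn hq.1) (X.inv_mem hq.1), ?_⟩))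
  refine Cen_anti (hmem A hAX hA) ?_
  have : q * n⁻¹ * q⁻¹ ∈ Cen C := conj_mem_of_Nor (Nor_le_Nor_Cen C hq.2) (inv_mem hnC)
  have := mul_mem hnC this
  simpa [mul_assoc] using this

/-- Fix a prime p and a maximal ideal M of the algebraic integers containing p. Let Q₀ < Q₁ < ⋯ < Q_m be a strictly increasing chain of p-subgroups of the finite group G and N the intersection of their normalizers. Then every block idempotent of N is supported on C_G(Q_m): for every p-block E of N, the idempotent coefficient of E vanishes at every element of N outside C_G(Q_m). -/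
theorem result {G : Type*} [Group G] [Fintype G] (p : ℕ) [Fact p.Prime] (M : Ideal Cfsg.AlgInt) (hM : Cfsg.IsPModular p M) (m : ℕ) (Q : Fin (m + 1) → Subgroup G) (hQ : StrictMono Q) (hQp : ∀ i, IsPGroup p (Q i)) (N : Subgroup G) (hN : ∀ g : G, g ∈ N ↔ ∀ i, g ∈ Subgroup.normalizer (Q i : Set G)) (E : Set (Cfsg.IrrCharacter N)) (hE : Cfsg.IsPBlock M E) (n : N) (hn : (n : G) ∉ Subgroup.centralizer (Q (Fin.last m) : Set G)) : Cfsg.blockCoeff E n = 0 := by
  haveI := isMaximal_of hM
  by_contra h0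
  have ho : ¬ p ∣ orderOf (n : G) := fun h => h0 (H34.blockCoeff_eq_zero_of_dvd hM E
    (fun g => blockCoeff_mem_O hE g) (by rwa [Subgroup.orderOf_coe] at h))
  haveI := Fintype.ofFinite N
  have hNi : ∀ i, N ≤ Nor (Q i) := fun i g hg => (hN g).1 hg i
  have h1 : ∀ i, (n : G) ∈ Cen (Q i ⊓ N) := fun i => by
    haveI : ((Q i).subgroupOf N).Normal := normal_subgroupOf (hNi i)
    by_contra hc
    refine h0 (Cfsg.Agent.S4653.result p M hM ((Q i).subgroupOf N) (isPGroup_subgroupOf (hQp i))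
      E hE n fun h => hc (mem_Cen.2 fun q hq => ?_))
    exact congrArg Subtype.val (mem_Cen.1 h ⟨q, hq.2⟩ hq.1)
  have h2 : ∀ i, (n : G) ∈ Cen (Q i) := by
    intro i
    induction i using Fin.induction with
    | zero =>
      refine Cen_anti (le_inf le_rfl fun g hg => (hN g).2 fun j => ?_) (h1 0)
      exact Subgroup.le_normalizer (hQ.monotone (Fin.zero_le j) hg)
    | succ i ih =>
      refine pxq (hQp _) (hQ.monotone (Fin.castSucc_le_succ i)) ho (hNi _ n.2) ih
        (Cen_anti (le_inf inf_le_left fun g hg => (hN g).2 fun j => ?_) (h1 i.succ))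
      rcases le_or_gt j i.castSucc with h | h
      · exact Cen_le_Nor _ (Cen_anti (hQ.monotone h) hg.2)
      · exact Subgroup.le_normalizer (hQ.monotone (Fin.castSucc_lt_iff_succ_le.1 h) hg.1)
  exact hn (h2 _)

end Cfsg.Agent.S4668
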