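import Cfsg.Statements.S4670
import Mathlib
import Cfsg.Agent.Lib.Blk86.Dict

set_option autoImplicit false
open Cfsg

namespace Cfsg.Agent.S4670

open H86 H33

/-- Fix a prime p and a maximal ideal M of the algebraic integers containing p. Let P be a p-subgroup of the finite group G and H a subgroup containing N_G(P). For every p-block B of G with defect group P there is exactly one p-block c of H with defect group P whose idempotent agrees with that of B, modulo the local ideal at M, at every element of C_G(P) (their Brauer-map images at P coincide); and every p-block c of H with defect group P arises in this way from exactly one such B. This is the Brauer correspondence over H. -/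
theorem result {G : Type*} [Group G] [Fintype G] (p : ℕ) [Fact p.Prime] (M : Ideal Cfsg.AlgInt) (hM : Cfsg.IsPModular p M) (P H : Subgroup G) (hP : IsPGroup p P) (hH : Subgroup.normalizer (P : Set G) ≤ H) : (∀ B : Set (Cfsg.IrrCharacter G), Cfsg.IsPBlock M B → Cfsg.IsDefectGroup p M B P → ∃! c : Set (Cfsg.IrrCharacter H), Cfsg.IsPBlock M c ∧ Cfsg.IsDefectGroup p M c (P.subgroupOf H) ∧ ∀ x : G, x ∈ Subgroup.centralizer (P : Set G) → Cfsg.MemLocalIdeal M (Cfsg.blockCoeff B x - Cfsg.subgroupBlockCoeff H c x)) ∧ (∀ c : Set (Cfsg.IrrCharacter H), Cfsg.IsPBlock M c → Cfsg.IsDefectGroup p M c (P.subgroupOf H) → ∃! B : Set (Cfsg.IrrCharacter G), Cfsg.IsPBlock M B ∧ Cfsg.IsDefectGroup p M B P ∧ ∀ x : G, x ∈ Subgroup.centralizer (P : Set G) → Cfsg.MemLocalIdeal M (Cfsg.blockCoeff B x - Cfsg.subgroupBlockCoeff H c x)) := by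
  haveI := isMaximal_of hM
  haveI := charP hM
  have hPH : P ≤ H := Subgroup.le_normalizer.trans hH
  have hHN : H ⊓ Nor P = ⊤ ⊓ Nor P := by rw [top_inf_eq, inf_eq_right.2 hH]
  have key : ∀ (B : Set (IrrCharacter G)) (c : Set (IrrCharacter H)), IsPBlock M B → IsPBlock M c →
      ((∀ x : G, x ∈ Subgroup.centralizer (P : Set G) →
        MemLocalIdeal M (blockCoeff B x - subgroupBlockCoeff H c x)) ↔
        br P (eB M B) = br P (eS M H c)) := by
    intro B c hB hc
    rw [← sub_eq_zero, ← map_sub, res_eq_zero_iff]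
    refine forall₂_congr fun x _ => ?_
    rw [memLocalIdeal_sub_iff (blockCoeff_mem_O hB x) (subgroupBlockCoeff_mem_O hc x),
      coeff_sub_apply, sub_eq_zero, coeff_eB, coeff_eS]
  constructor
  · intro B hB hD
    rw [isDefectGroup_iff hB] at hD
    obtain ⟨h1, h2⟩ := firstMain_down (isBlk_eB hB) hD
    rw [← hHN] at h1 h2
    obtain ⟨x, hx, h3, h4⟩ := firstMain_exists h1 h2
    obtain ⟨c, hc, rfl⟩ := hx.exists_eS
    refine ⟨c, ⟨hc, (isDefectGroup_subgroupOf_iff hc hPH).2 h3, (key B c hB hc).2 h4.symm⟩, ?_⟩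
    rintro c' ⟨hc', h5, h6⟩
    exact eS_inj hc' hc (blk_eq_of_br_eq hP hPH (isBlk_eS hc') hx
      ((isDefectGroup_subgroupOf_iff hc' hPH).1 h5).ne
      (by rw [h4, (key B c' hB hc').1 h6]))
  · intro c hc hD
    rw [isDefectGroup_subgroupOf_iff hc hPH] at hD
    obtain ⟨h1, h2⟩ := firstMain_down (isBlk_eS hc) hD
    rw [hHN] at h1 h2
    obtain ⟨x, hx, h3, h4⟩ := firstMain_exists h1 h2
    obtain ⟨B, hB, rfl⟩ := hx.exists_eB
    refine ⟨B, ⟨hB, (isDefectGroup_iff hB P).2 h3, (key B c hB hc).2 h4⟩, ?_⟩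
    rintro B' ⟨hB', h5, h6⟩
    exact eB_injective hB' hB (blk_eq_of_br_eq hP le_top (isBlk_eB hB') hx
      ((isDefectGroup_iff hB' P).1 h5).ne (by rw [h4, (key B' c hB' hc).1 h6]))

end Cfsg.Agent.S4670
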