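import Cfsg.Statements.S4673
import Mathlib
import Cfsg.Agent.Lib.Blk86.Cov

set_option autoImplicit false
open Cfsg

namespace Cfsg.Agent.S4673

set_option linter.style.haveILetI false
set_option linter.unusedVariables false

open H86 H33

/-- Fix a prime p and a maximal ideal M of the algebraic integers containing p. Let N ≤ L be normal subgroups of the finite group G with L/N a p-group, let B be a p-block of G covering the p-block c of N (some member of B has a constituent in c on restriction to N), and suppose that N contains a defect group of B. Then the stabilizer T of c in G satisfies T ∩ L = N. -/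
theorem result {G : Type*} [Group G] [Fintype G] (p : ℕ) [Fact p.Prime] (M : Ideal Cfsg.AlgInt) (hM : Cfsg.IsPModular p M) (N L : Subgroup G) [N.Normal] [L.Normal] [Fintype N] (hNL : N ≤ L) (hLN : ∃ k : ℕ, (N.subgroupOf L).index = p ^ k) (B : Set (Cfsg.IrrCharacter G)) (hB : Cfsg.IsPBlock M B) (c : Set (Cfsg.IrrCharacter N)) (hc : Cfsg.IsPBlock M c) (hcov : (∃ χ ∈ B, ∃ θ ∈ c, Cfsg.classInner (fun n : N => (χ : G → ℂ) n) (θ : N → ℂ) ≠ 0)) (hD : ∃ D : Subgroup G, Cfsg.IsDefectGroup p M B D ∧ D ≤ N) (T : Subgroup G) (hT : ∀ x : G, x ∈ T ↔ Cfsg.StabilizesBlock N c x) : T ⊓ L = N := by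
  haveI := isMaximal_of hM; haveI := charP hM; haveI := good hM G
  have hn : ⊤ ≤ Nor N := (Subgroup.normalizer_eq_top N).ge
  have hl : ⊤ ≤ Nor L := (Subgroup.normalizer_eq_top L).ge
  obtain ⟨k, hk⟩ := hLN
  obtain ⟨D, hD, hDN⟩ := hD
  have hD' := (H86.isDefectGroup_iff hB D).1 hD
  have hb := H86.isBlk_eB hB
  have hc' := isBlk_eS hc
  have hbc := (covers_iff hB hc).1 hcov
  have hq : PQuot p N L := pQuot_of_relIndex (le_top.trans hn) hk
  have hT' : ∀ x, x ∈ T ↔ cj x (eS M N c) = eS M N c := fun x => by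
    rw [hT, stabilizesBlock_iff hc, and_iff_right (hn trivial)]
  have hNT : N ≤ T ⊓ L := le_inf (fun x hx => (hT' x).2 (hc'.inv.cj_eq hx)) hNL
  have hq' : PQuot p N (T ⊓ L) := fun x hx => hq x hx.2
  have hi : Inv (T ⊓ L) (eS M N c) := inv_iff_cj.2 fun x hx => (hT' x).1 hx.1
  have h1 := hq'.isBlk hNT (le_top.trans hn) hc' hi
  obtain ⟨E, hE⟩ := h1.exists_isDef p
  have h2 := hE.sup_eq_of_pQuot hq' hNT (le_top.trans hn) hc' h1
  have h3 := hq.isBlk_orbSum hNL (le_top.trans hn) hc'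
  have hEL : E ≤ L := hE.le.trans inf_le_right
  have h4 : br E (orbSum L N (eS M N c)) ≠ 0 := fun h0 => hE.ne (by
    rw [← orbSum_mul_self (H := L) (le_top.trans hn) hc', br_mul hE.pgrp (h3.inv.anti hEL)
      (hi.anti hE.le), h0, zero_mul])
  have h5 := h3.br_ne_zero_of_cover le_top hl hb.mem hb.idem
    ((mul_orbSum_ne_zero_iff (le_top.trans hn) hc' (hb.inv.anti le_top)).2 hbc) hEL hE.pgrp h4
  obtain ⟨x, -, hx⟩ := hD'.big E le_top hE.pgrp h5
  have h6 : E ≤ N := hx.trans ((cs_mono x hDN).trans (mem_Nor_iff_cs.1 (hn trivial)).le)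
  rw [← h2, sup_eq_right.2 h6]

end Cfsg.Agent.S4673
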