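import Cfsg.Statements.S4674
import Mathlib
import Cfsg.Agent.Lib.Blk86.Cov

set_option autoImplicit false
open Cfsg

namespace Cfsg.Agent.S4674

set_option linter.style.haveILetI false
set_option linter.unusedVariables false

open H86 H33

/-- Fix a prime p and a maximal ideal M of the algebraic integers containing p. Let N be a normal subgroup of the finite group G, Q a p-subgroup of N, H = N_G(Q) and L = H ∩ N = N_N(Q). Let d be a p-block of N with defect group Q and e the p-block of L with defect group Q that induces d inside N (its Brauer correspondent). Then block induction from H to G is a bijection from the p-blocks of H covering e onto the p-blocks of G covering d: every block of H covering e induces exactly one block of G, and that block covers d; and every block of G covering d is induced by exactly one block of H covering e. -/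
theorem result {G : Type*} [Group G] [Fintype G] (p : ℕ) [Fact p.Prime] (M : Ideal Cfsg.AlgInt) (hM : Cfsg.IsPModular p M) (N : Subgroup G) [N.Normal] [Fintype N] (Q : Subgroup G) (hQ : IsPGroup p Q) (hQN : Q ≤ N) [Fintype ↥(Subgroup.normalizer (Q : Set G) ⊓ N)] (d : Set (Cfsg.IrrCharacter N)) (hd : Cfsg.IsPBlock M d) (hdQ : Cfsg.IsDefectGroup p M d (Q.subgroupOf N)) (e : Set (Cfsg.IrrCharacter ↥(Subgroup.normalizer (Q : Set G) ⊓ N))) (he : Cfsg.IsPBlock M e) (heQ : Cfsg.IsDefectGroup p M e (Q.subgroupOf (Subgroup.normalizer (Q : Set G) ⊓ N))) (hed : Cfsg.IsInducedBlockIn M N (Subgroup.normalizer (Q : Set G) ⊓ N) e d) : (∀ c : Set (Cfsg.IrrCharacter ↥(Subgroup.normalizer (Q : Set G))), Cfsg.IsPBlock M c → (∃ ψ ∈ c, ∃ ξ ∈ e, Cfsg.classInner (fun l : ↥(Subgroup.normalizer (Q : Set G) ⊓ N) => (ψ : ↥(Subgroup.normalizer (Q : Set G)) → ℂ) (Subgroup.inclusion inf_le_left l)) (ξ : ↥(Subgroup.normalizer (Q : Set G) ⊓ N) → ℂ) ≠ 0)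 → ∃! B : Set (Cfsg.IrrCharacter G), Cfsg.IsInducedBlock M (Subgroup.normalizer (Q : Set G)) c B ∧ (∃ χ ∈ B, ∃ θ ∈ d, Cfsg.classInner (fun n : N => (χ : G → ℂ) n) (θ : N → ℂ) ≠ 0)) ∧ (∀ B : Set (Cfsg.IrrCharacter G), Cfsg.IsPBlock M B → (∃ χ ∈ B, ∃ θ ∈ d, Cfsg.classInner (fun n : N => (χ : G → ℂ) n) (θ : N → ℂ) ≠ 0) → ∃! c : Set (Cfsg.IrrCharacter ↥(Subgroup.normalizer (Q : Set G))), (Cfsg.IsPBlock M c ∧ ∃ ψ ∈ c, ∃ ξ ∈ e, Cfsg.classInner (fun l : ↥(Subgroup.normalizer (Q : Set G) ⊓ N) => (ψ : ↥(Subgroup.normalizer (Q : Set G)) → ℂ) (Subgroup.inclusion inf_le_left l)) (ξ : ↥(Subgroup.normalizer (Q : Set G) ⊓ N) → ℂ) ≠ 0) ∧ Cfsg.IsInducedBlock M (Subgroup.normalizer (Q : Set G)) c B) := by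
  haveI := isMaximal_of hM; haveI := charP hM; haveI := good hM G
  have hn : ⊤ ≤ Nor N := (Subgroup.normalizer_eq_top N).ge
  have hd' := isBlk_eS hd
  have hQ' := (isDefectGroup_subgroupOf_iff hd hQN).1 hdQ
  have hQH : Q ≤ Nor Q := Subgroup.le_normalizer
  have hHL : Nor Q ≤ Nor (Nor Q ⊓ N) := fun x hx =>
    mem_Nor_inf (Subgroup.le_normalizer hx) (hn trivial)
  have he' : br Q (eS M N d) = eS M (Nor Q ⊓ N) e := by
    have h1 := (isInducedBlockIn_iff_br hM hQ (le_inf hQH hQN)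
      (le_inf (inf_le_right.trans (Cen_le_Nor Q)) inf_le_left) (inf_comm _ _).le he hd).1 hed
    have h2 := (firstMain_down hd' hQ').1
    rw [inf_comm] at h2
    exact h2.eq_of_mul_ne_zero (isBlk_eS he) (by rw [h1]; exact (isBlk_eS he).ne)
  have hcov : ∀ c : Set (Cfsg.IrrCharacter (Nor Q)), Cfsg.IsPBlock M c →
      (H35.CoversIn (inf_le_left : Nor Q ⊓ N ≤ Nor Q) c e ↔
        eS M (Nor Q) c * br Q (eS M N d) ≠ 0) := fun c hc => by
    rw [H86.coversIn_iff inf_le_left hHL hc he, he']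
  have hind : ∀ {c : Set (Cfsg.IrrCharacter (Nor Q))} {B : Set (Cfsg.IrrCharacter G)},
      Cfsg.IsPBlock M c → Cfsg.IsPBlock M B → (Cfsg.IsInducedBlock M (Nor Q) c B ↔
        br Q (eB M B) * eS M (Nor Q) c = eS M (Nor Q) c) := fun hc hB =>
    isInducedBlock_iff_br_eS hM hQ hQH (Cen_le_Nor Q) le_rfl hc hB
  constructor
  · intro c hc hce
    have hc' : IsBlk (⊤ ⊓ Nor Q) (eS M (Nor Q) c) := by rw [top_inf_eq]; exact isBlk_eS hc
    obtain ⟨b, hb, h1⟩ := exists_blk_over hQ le_top (inf_Cen_le_inf_Nor ⊤ Q) le_rfl hc'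
    obtain ⟨B, hB, rfl⟩ := hb.exists_eB
    refine ⟨B, ⟨(hind hc hB).2 h1, (covers_iff hB hd).2
      (cover_of_br_mul hd' hQ' le_top hn hb hc' ((hcov c hc).1 hce) h1)⟩, fun B' hB' => ?_⟩
    have hB'' := hB'.1.2.1
    exact eB_injective hB'' hB (blk_over_unique hQ (H86.isBlk_eB hB'') hb
      ((H86.isBlk_eB hB'').inv.anti le_top) (hb.inv.anti le_top) hc'.ne ((hind hc hB'').1 hB'.1) h1)
  · intro B hB hBd
    obtain ⟨h1, h2⟩ := isBlk_br_of_cover hd' hQ' le_top hn (H86.isBlk_eB hB)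
      ((covers_iff hB hd).1 hBd)
    rw [top_inf_eq] at h1
    obtain ⟨c, hc, hce⟩ := h1.exists_eS
    refine ⟨c, ⟨⟨hc, (hcov c hc).2 (hce ▸ h2)⟩, (hind hc hB).2 (by rw [← hce, h1.idem])⟩,
      fun c' hc' => eS_inj hc'.1.1 hc ?_⟩
    rw [← hce]
    refine (h1.eq_of_mul_ne_zero (isBlk_eS hc'.1.1) ?_).symm
    rw [(hind hc'.1.1 hB).1 hc'.2]
    exact (isBlk_eS hc'.1.1).ne

end Cfsg.Agent.S4674
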