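import Cfsg.Statements.S4679
import Mathlib
import Cfsg.Agent.Lib.Blk86.DictFus

set_option autoImplicit false
open Cfsg

namespace Cfsg.Agent.S4679

set_option linter.style.haveILetI false
set_option linter.unusedVariables false

open H86 H33

/-- Fix a prime p and a maximal ideal M of the algebraic integers containing p, a p-block B of the finite group G with maximal Brauer pair (P, e), its fusion system F on P, a Brauer pair (Q, f) ≤ (P, e), and let T be the stabilizer of f in N_G(Q). Then Q is fully normalized in F if and only if N_P(Q) is a defect group of the block of T whose idempotent is that of f. -/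
theorem result {G : Type*} [Group G] [Fintype G] (p : ℕ) [Fact p.Prime] (M : Ideal Cfsg.AlgInt) (hM : Cfsg.IsPModular p M) (B : Set (Cfsg.IrrCharacter G)) (P : Subgroup G) (e : Set (Cfsg.IrrCharacter (Subgroup.centralizer (P : Set G)))) (hmax : Cfsg.IsMaximalBrauerPair p M B P e) (F : Cfsg.FusionSystem P) (hF : Cfsg.IsBlockFusionSystemOn p M B P e F) (Q : Subgroup G) (f : Set (Cfsg.IrrCharacter (Subgroup.centralizer (Q : Set G)))) (hQP : Q ≤ P) (hf : Cfsg.IsPBlock M f) (hle : Cfsg.SubpairLE p M Q f P e) (T : Subgroup G) (hT : ∀ y : G, y ∈ T ↔ y ∈ Subgroup.normalizer (Q : Set G) ∧ Cfsg.StabilizesBlock (Subgroup.centralizer (Q : Set G)) f y) : F.IsFullyNormalized Q ↔ ∃ F' : Set (Cfsg.IrrCharacter T), Cfsg.IsPBlock M F' ∧ (∀ t : T, Cfsg.blockCoeff F' t = Cfsg.subgroupBlockCoeff (Subgroup.centralizer (Q : Set G)) f (t : G)) ∧ Cfsg.IsDefectGroup p M F' ((P ⊓ Subgroup.normalizer (Q : Set G)).subgroupOf T) := by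
  haveI := isMaximal_of hM
  haveI := charP hM
  have hm := isMaxPair_of hmax
  have hb := isBlk_eB hmax.1.2.1
  have hs := sub_of_subpairLE hle
  have hQ := hs.left hm.toPair
  obtain rfl := eq_St hf hT
  have hC : Cen Q ≤ St ⊤ Q (eS M (Cen Q) f) := by simpa using hQ.Cen_le_St
  have key : F.IsFullyNormalized Q ↔
      IsDef p (St ⊤ Q (eS M (Cen Q) f)) (eS M (Cen Q) f) (P ⊓ Nor Q) := by
    rw [← hs.inf_St hm.toPair, hs.isDef_iff_card hm hb le_rfl hQ.isBlk_St,
      FusionSystem.IsFullyNormalized, forall_isConj_iff hF hs]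
    simp only [hQP, true_and]
    refine forall₃_congr fun g hg h => ?_
    rw [cs_St_mem hg, h.inf_St hm.toPair, hs.inf_St hm.toPair]
    rfl
  rw [key]
  constructor
  · intro h
    obtain ⟨F', h1, h2, h3⟩ := exists_block_eq hf hC hQ.isBlk_St
    exact ⟨F', h1, h3, (isDefectGroup_subgroupOf_iff h1 (hs.inf_Nor_le_St hm.toPair)).2
      (by rw [h2]; exact h)⟩
  · rintro ⟨F', h1, h2, h3⟩
    rw [isDefectGroup_subgroupOf_iff h1 (hs.inf_Nor_le_St hm.toPair),
      (blockCoeff_eq_iff_sub h1 hf hC).1 h2] at h3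
    exact h3

end Cfsg.Agent.S4679
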