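import Cfsg.Statements.S4680
import Mathlib
import Cfsg.Agent.Lib.Blk86.DictFus

set_option autoImplicit false
open Cfsg

namespace Cfsg.Agent.S4680

set_option linter.style.haveILetI false
set_option linter.unusedVariables false

open H86 H33

/-- Fix a prime p and a maximal ideal M of the algebraic integers containing p, a p-block B of the finite group G with maximal Brauer pair (P, e), its fusion system F on P, and a Brauer pair (Q, f) ≤ (P, e). Then Q is centric in F if and only if Z(Q) is a defect group of f as a block of C_G(Q). -/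
theorem result {G : Type*} [Group G] [Fintype G] (p : ℕ) [Fact p.Prime] (M : Ideal Cfsg.AlgInt) (hM : Cfsg.IsPModular p M) (B : Set (Cfsg.IrrCharacter G)) (P : Subgroup G) (e : Set (Cfsg.IrrCharacter (Subgroup.centralizer (P : Set G)))) (hmax : Cfsg.IsMaximalBrauerPair p M B P e) (F : Cfsg.FusionSystem P) (hF : Cfsg.IsBlockFusionSystemOn p M B P e F) (Q : Subgroup G) (f : Set (Cfsg.IrrCharacter (Subgroup.centralizer (Q : Set G)))) (hQP : Q ≤ P) (hf : Cfsg.IsPBlock M f) (hle : Cfsg.SubpairLE p M Q f P e) : F.IsCentric Q ↔ Cfsg.IsDefectGroup p M f ((Q ⊓ Subgroup.centralizer (Q : Set G)).subgroupOf (Subgroup.centralizer (Q : Set G))) := by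
  haveI := isMaximal_of hM
  haveI := charP hM
  have hm := isMaxPair_of hmax
  have hb := isBlk_eB hmax.1.2.1
  have hs := sub_of_subpairLE hle
  have hQ := hs.left hm.toPair
  have hC : Cen Q ≤ St ⊤ Q (eS M (Cen Q) f) := by simpa using hQ.Cen_le_St
  rw [isDefectGroup_subgroupOf_iff hf inf_le_right, FusionSystem.IsCentric,
    forall_isConj_iff hF hs]
  simp only [hQP, true_and]
  constructor
  · intro h
    obtain ⟨D, hD⟩ := (isBlk_eS hf).exists_isDef p
    obtain ⟨x, hx, h1, h2, -⟩ := (hs.pairOf_left hb hm.toPairOf).exists_conj_isDef hm hb hC hD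
    have h3 : D ≤ Q := by
      rw [← cs_le_cs (x := x), ← h2, cs_Cen]
      exact h x hx h1
    have h4 : Q ⊓ Cen Q = D := hD.max inf_le_right (hQ.pgrp.to_le inf_le_left) (le_inf h3 hD.le)
      (hs.br_ne_zero hm.toPair (inf_le_left.trans hQP) (inf_le_left.trans Subgroup.le_normalizer))
    exact h4 ▸ hD
  · intro h x hx h1
    have h2 := h.cj x
    rw [cs_inf, cs_Cen] at h2
    exact (h1.eq_inf_of_isDef hm.toPair (Cen_le_Nor _) h2 (inf_le_left.trans h1.le)).le.trans
      inf_le_left

end Cfsg.Agent.S4680
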