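import Cfsg.Statements.S4681
import Mathlib
import Cfsg.Agent.Lib.Blk86.DictFus

set_option autoImplicit false
open Cfsg

namespace Cfsg.Agent.S4681

set_option linter.style.haveILetI false
set_option linter.unusedVariables false

open H86 H33

/-- Fix a prime p and a maximal ideal M of the algebraic integers containing p. Let B₀ be the principal p-block of the finite group G, P a Sylow p-subgroup and e₀ the principal p-block of C_G(P). Then (P, e₀) is a maximal Brauer pair of B₀, and the fusion system of B₀ on (P, e₀) is the fusion system of G on P: its maps from each subgroup of P are exactly the conjugation maps into P by elements of G. -/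
theorem result {G : Type*} [Group G] [Fintype G] (p : ℕ) [Fact p.Prime] (M : Ideal Cfsg.AlgInt) (hM : Cfsg.IsPModular p M) (S : Sylow p G) : Cfsg.IsMaximalBrauerPair p M (Cfsg.principalBlock M G) (S : Subgroup G) (Cfsg.principalBlock M (Subgroup.centralizer ((S : Subgroup G) : Set G))) ∧ ∀ F : Cfsg.FusionSystem (S : Subgroup G), Cfsg.IsBlockFusionSystemOn p M (Cfsg.principalBlock M G) (S : Subgroup G) (Cfsg.principalBlock M (Subgroup.centralizer ((S : Subgroup G) : Set G))) F → ∀ Q : Subgroup G, F.Hom Q = (Cfsg.groupFusionSystem (S : Subgroup G)).Hom Q := by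
  haveI := isMaximal_of hM
  haveI := charP hM
  have h0 : aug (eB M (principalBlock M G)) ≠ 0 := by rw [aug_eB_principal]; exact one_ne_zero
  have h1 : aug (eS M (Cen (S : Subgroup G)) (principalBlock M _)) ≠ 0 := by
    rw [aug_eS_principal]; exact one_ne_zero
  have hP := pair_of_isBrauerPair (M := M) (f := principalBlock M (Cen (S : Subgroup G)))
    ⟨S.isPGroup', isPBlock_principalBlock⟩
  refine ⟨(isMaximalBrauerPair_iff isPBlock_principalBlock isPBlock_principalBlock).2
    (hP.isMaxPair_of_aug (isSyl_top S) (isBlk_eB isPBlock_principalBlock) h0 h1), ?_⟩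
  intro F hF Q
  ext φ
  rw [mem_Hom_iff hF]
  constructor
  · rintro ⟨g, h2, h3⟩
    exact ⟨h2.le, fun x => h2.cs_le (by rw [h3]; exact conj_mem_cs.2 x.2), g, h3⟩
  · rintro ⟨h2, h3, g, h4⟩
    refine ⟨g, mor_of_aug hP h1 h2 trivial ?_, h4⟩
    rw [← range_eq_cs h4]
    rintro _ ⟨x, rfl⟩
    exact h3 x

end Cfsg.Agent.S4681
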