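import Cfsg.Statements.S4682
import Mathlib
import Cfsg.Agent.Lib.Blk86.GoodF

set_option autoImplicit false
open Cfsg

namespace Cfsg.Agent.S4682

set_option linter.style.haveILetI false
set_option linter.unusedVariables false

open H86 H33

/-- Fix a prime p and a maximal ideal M of the algebraic integers containing p, a p-block B of the finite group G with maximal Brauer pair (P, e), P abelian, and a Brauer pair (Q, f) ≤ (P, e). Let T_Q be the stabilizer of f in N_G(Q) and T_P the stabilizer of e in N_G(P). Then every element of T_Q is a product of an element of T_P and an element of C_G(Q); and the index of C_G(Q) in T_Q equals the index of T_P ∩ C_G(Q) in T_P ∩ N_G(Q). -/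
theorem result {G : Type*} [Group G] [Fintype G] (p : ℕ) [Fact p.Prime] (M : Ideal Cfsg.AlgInt) (hM : Cfsg.IsPModular p M) (B : Set (Cfsg.IrrCharacter G)) (P : Subgroup G) (e : Set (Cfsg.IrrCharacter (Subgroup.centralizer (P : Set G)))) (hmax : Cfsg.IsMaximalBrauerPair p M B P e) (hab : ∀ x ∈ P, ∀ y ∈ P, x * y = y * x) (Q : Subgroup G) (f : Set (Cfsg.IrrCharacter (Subgroup.centralizer (Q : Set G)))) (hQP : Q ≤ P) (hf : Cfsg.IsPBlock M f) (hle : Cfsg.SubpairLE p M Q f P e) (TQ : Subgroup G) (hTQ : ∀ y : G, y ∈ TQ ↔ y ∈ Subgroup.normalizer (Q : Set G) ∧ Cfsg.StabilizesBlock (Subgroup.centralizer (Q : Set G)) f y) (TP : Subgroup G) (hTP : ∀ y : G, y ∈ TP ↔ y ∈ Subgroup.normalizer (P : Set G) ∧ Cfsg.StabilizesBlock (Subgroup.centralizer (P : Set G)) e y) : (∀ x ∈ TQ, ∃ y ∈ TP, ∃ c ∈ Subgroup.centralizer (Q : Set G), x = y * c) ∧ ((Subgroup.centralizer (Q : Set G)).subgroupOf TQ).index = ((TP ⊓ Subgroup.centralizer (Q : Set G)).subgroupOf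 (TP ⊓ Subgroup.normalizer (Q : Set G))).index := by
  haveI := isMaximal_of hM
  haveI := charP hM
  have hm := isMaxPair_of hmax
  have hb := isBlk_eB hmax.1.2.1
  have hs := sub_of_subpairLE hle
  have hab' : P ≤ Cen P := fun x hx => mem_Cen.2 fun y hy => hab y hy x hx
  obtain rfl := eq_St hf hTQ
  obtain rfl := eq_St hmax.1.1.2 hTP
  have key : ∀ x ∈ St ⊤ Q (eS M (Cen Q) f), ∃ y ∈ St ⊤ P (eS M (Cen P) e), ∃ c ∈ Cen Q,
      x = y * c := fun x hx => by
    obtain ⟨y, hy, c, hc, h⟩ := hs.exists_mul_of_ab hm hb hab' (hs.mor_of_mem_St hx)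
    exact ⟨y, hy, c, hc.2, h⟩
  refine ⟨key, ?_⟩
  change (Cen Q).relIndex _ = Subgroup.relIndex _ _
  rw [relIndex_eq_of_mul (A := St ⊤ P (eS M (Cen P) e) ⊓ Nor Q) (fun x hx =>
    (mor_of_mem_St_top hm.toPair hQP hx.1).mem_St hm.toPair hs (mem_Nor_iff_cs.1 hx.2))
    (fun x hx => by
      obtain ⟨y, hy, c, hc, rfl⟩ := key x hx
      exact ⟨y, ⟨hy, ((Nor Q).mul_mem_cancel_right (Cen_le_Nor Q hc)).1 (St_le_Nor _ _ _ hx)⟩,
        c, hc, rfl⟩), ← Subgroup.inf_relIndex_right, ← Subgroup.inf_relIndex_right (_ ⊓ _)]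
  congr 1
  ext x
  simp only [Subgroup.mem_inf]
  exact ⟨fun h => ⟨h.2.1, h.1.1⟩,
    fun h => ⟨⟨h.2, h.1, Cen_le_Nor Q h.2⟩, h.1, Cen_le_Nor Q h.2⟩⟩

end Cfsg.Agent.S4682
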