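import Mathlib
import Cfsg.Statements.S4685
import Cfsg.Agent.Lib.H85.StarP
-- import your own Cfsg.Agent.* helpers here

set_option autoImplicit false
open Cfsg

namespace Cfsg.Agent.S4685

open H86 H85 H84

/-- Fix a prime p and a maximal ideal M of the algebraic integers containing p, a p-block B of the finite group G with maximal Brauer pair (P, e) and fusion system F on P. Then for every h the number of irreducible characters of height h in B is divisible by the index of Z(P) ∩ foc(F) in Z(P), where foc(F) is the focal subgroup of F. -/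
theorem result {G : Type*} [Group G] [Fintype G] (p : ℕ) [Fact p.Prime] (M : Ideal Cfsg.AlgInt) (hM : Cfsg.IsPModular p M) (B : Set (Cfsg.IrrCharacter G)) (P : Subgroup G) (e : Set (Cfsg.IrrCharacter (Subgroup.centralizer (P : Set G)))) (hmax : Cfsg.IsMaximalBrauerPair p M B P e) (F : Cfsg.FusionSystem P) (hF : Cfsg.IsBlockFusionSystemOn p M B P e F) (h : ℕ) : ((P ⊓ Subgroup.centralizer (P : Set G) ⊓ F.focalSubgroup).subgroupOf (P ⊓ Subgroup.centralizer (P : Set G))).index ∣ Nat.card {χ : Cfsg.IrrCharacter G // χ ∈ B ∧ Cfsg.blockHeight p B (χ : G → ℂ) = h} := by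
  haveI := H33.isMaximal_of hM
  haveI := H33.charP hM
  have hm : MP p M B P (eS M (Cen P) e) := ⟨hM, hmax.1.2.1, isMaxPair_of hmax⟩
  have hN : ∀ u v : P, Fus p P (eS M (Cen P) e) u v → u⁻¹ * v ∈ F.focalSubgroup.subgroupOf P := by
    rintro u v ⟨g, hg, huv⟩
    exact Subgroup.subset_closure ⟨_, conjHom _ g, ⟨u, Subgroup.mem_zpowers _⟩,
      (mem_Hom_iff hF _ _).2 ⟨g, hg, fun _ => rfl⟩, by
        rw [Subgroup.coe_subtype, Subgroup.coe_mul, huv]; rfl⟩
  have := hm.relIndex_dvd_card hN ((P ⊓ Cen P).subgroupOf P)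
    (fun n => n.factorization p - minval p B = h)
    fun χ hχ _ z hz => by
      letI := Fintype.ofFinite (Cen (Subgroup.zpowers (z : G)))
      refine sub_ne_zero_of_major hM (hm.isPElt z.2) (isCen_zpowers _) (hm.induced_z z.2)
        (hm.defect_loc (Subgroup.zpowers_le.2 z.2) fun x hx => ?_) hχ
      exact mem_Cen_zpowers.2 (hz.2 x hx).symm
  rw [Subgroup.relIndex_subgroupOf inf_le_left] at this
  rwa [Subgroup.inf_subgroupOf_left]

end Cfsg.Agent.S4685
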