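import Cfsg.Statements.S4686
import Mathlib
import Cfsg.Agent.Lib.Blk86.GoodF

set_option autoImplicit false
open Cfsg

namespace Cfsg.Agent.S4686

set_option linter.style.haveILetI false
set_option linter.unusedVariables false

open H86 H33

/-- Fix a prime p and a maximal ideal M of the algebraic integers containing p, a p-block B of the finite group G with maximal Brauer pair (P, e) and fusion system F on P. Then B is nilpotent (for every Brauer pair (Q, f) of B the stabilizer of f in N_G(Q) is C_G(Q) extended by a p-group) if and only if F is the inner fusion system of P: its maps from each subgroup of P are exactly the conjugations by elements of P. -/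
theorem result {G : Type*} [Group G] [Fintype G] (p : ℕ) [Fact p.Prime] (M : Ideal Cfsg.AlgInt) (hM : Cfsg.IsPModular p M) (B : Set (Cfsg.IrrCharacter G)) (P : Subgroup G) (e : Set (Cfsg.IrrCharacter (Subgroup.centralizer (P : Set G)))) (hmax : Cfsg.IsMaximalBrauerPair p M B P e) (F : Cfsg.FusionSystem P) (hF : Cfsg.IsBlockFusionSystemOn p M B P e F) : Cfsg.IsNilpotentBlock p M B ↔ ∀ Q : Subgroup G, F.Hom Q = (Cfsg.innerFusionSystem P).Hom Q := by
  haveI := isMaximal_of hM
  haveI := charP hM
  haveI := good hM G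
  rw [isNilpotentBlock_iff hmax.1.2.1, isNil_iff_act (isMaxPair_of hmax) (isBlk_eB hmax.1.2.1)]
  constructor
  · intro h Q
    ext φ
    rw [mem_Hom_iff hF]
    constructor
    · rintro ⟨g, h1, h2⟩
      obtain ⟨u, hu, h3⟩ := h Q g h1
      exact ⟨h1.le, u, hu, fun x => (h2 x).trans (h3 x x.2)⟩
    · rintro ⟨h1, u, hu, h2⟩
      exact ⟨u, mor_of_mem (isMaxPair_of hmax).toPair h1 hu, h2⟩
  · intro h Q g h1
    have : conjHom Q g ∈ F.Hom Q := (mem_Hom_iff hF Q _).2 ⟨g, h1, fun _ => rfl⟩
    rw [h] at this
    obtain ⟨-, u, hu, h2⟩ := this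
    exact ⟨u, hu, fun q hq => h2 ⟨q, hq⟩⟩

end Cfsg.Agent.S4686
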