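import Cfsg.Statements.S4687
import Mathlib
import Cfsg.Agent.Lib.Blk86.GoodF

set_option autoImplicit false
open Cfsg

namespace Cfsg.Agent.S4687

set_option linter.style.haveILetI false
set_option linter.unusedVariables false

open H86 H33

/-- Fix a prime p and a maximal ideal M of the algebraic integers containing p, and a p-block B of the finite group G with maximal Brauer pair (P, e), P abelian. Then B is nilpotent if and only if its inertial quotient is trivial: every element of N_G(P) stabilizing e centralizes P. -/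
theorem result {G : Type*} [Group G] [Fintype G] (p : ℕ) [Fact p.Prime] (M : Ideal Cfsg.AlgInt) (hM : Cfsg.IsPModular p M) (B : Set (Cfsg.IrrCharacter G)) (P : Subgroup G) (e : Set (Cfsg.IrrCharacter (Subgroup.centralizer (P : Set G)))) (hmax : Cfsg.IsMaximalBrauerPair p M B P e) (hab : ∀ x ∈ P, ∀ y ∈ P, x * y = y * x) : Cfsg.IsNilpotentBlock p M B ↔ ∀ x : G, x ∈ Subgroup.normalizer (P : Set G) → Cfsg.StabilizesBlock (Subgroup.centralizer (P : Set G)) e x → x ∈ Subgroup.centralizer (P : Set G) := by
  haveI := isMaximal_of hM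
  haveI := charP hM
  haveI := good hM G
  rw [isNilpotentBlock_iff hmax.1.2.1, isNil_iff_of_ab (isMaxPair_of hmax) (isBlk_eB hmax.1.2.1)
    fun x hx => mem_Cen.2 fun y hy => hab y hy x hx, St_top]
  exact ⟨fun h x h1 h2 => h ((mem_Nor_and_stabilizes_iff hmax.1.1.2 x).1 ⟨h1, h2⟩),
    fun h x hx => ((mem_Nor_and_stabilizes_iff hmax.1.1.2 x).2 hx).elim (h x)⟩

end Cfsg.Agent.S4687
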