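import Cfsg.Statements.S4688
import Mathlib
import Cfsg.Agent.Lib.Blk86.GoodF

set_option autoImplicit false
open Cfsg

namespace Cfsg.Agent.S4688

set_option linter.style.haveILetI false
set_option linter.unusedVariables false

open H86 H33

/-- Fix a prime p and a maximal ideal M of the algebraic integers containing p, and a nilpotent p-block B of the finite group G with maximal Brauer pair (P, e). Then for every Brauer pair (Q, f) of B, f is a nilpotent block of C_G(Q); and if moreover (Q, f) ≤ (P, e), then C_P(Q) is a defect group of f as a block of C_G(Q). -/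
theorem result {G : Type*} [Group G] [Fintype G] (p : ℕ) [Fact p.Prime] (M : Ideal Cfsg.AlgInt) (hM : Cfsg.IsPModular p M) (B : Set (Cfsg.IrrCharacter G)) (P : Subgroup G) (e : Set (Cfsg.IrrCharacter (Subgroup.centralizer (P : Set G)))) (hmax : Cfsg.IsMaximalBrauerPair p M B P e) (hnil : Cfsg.IsNilpotentBlock p M B) (Q : Subgroup G) (f : Set (Cfsg.IrrCharacter (Subgroup.centralizer (Q : Set G)))) (hQf : Cfsg.IsBrauerPairOf p M B Q f) : Cfsg.IsNilpotentBlock p M f ∧ (Cfsg.SubpairLE p M Q f P e → Cfsg.IsDefectGroup p M f ((P ⊓ Subgroup.centralizer (Q : Set G)).subgroupOf (Subgroup.centralizer (Q : Set G)))) := by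
  haveI := isMaximal_of hM
  haveI := charP hM
  haveI := good hM G
  have hb := isBlk_eB hmax.1.2.1
  rw [isNilpotentBlock_iff hmax.1.2.1] at hnil
  constructor
  · have := hnil.local hb (pairOf_of_isBrauerPairOf hQf)
    rw [top_inf_eq] at this
    exact (isNilpotentBlock_sub_iff hQf.1.2).2 this
  · intro h
    have := hnil.isDef_Cen (isMaxPair_of hmax) hb (sub_of_subpairLE h)
    rw [top_inf_eq] at this
    exact (isDefectGroup_subgroupOf_iff hQf.1.2 inf_le_right).2 this

end Cfsg.Agent.S4688
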