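import Mathlib
import Cfsg.Statements.S4690
import Cfsg.Agent.Lib.H85.NilBP
-- import your own Cfsg.Agent.* helpers here

set_option autoImplicit false
open Cfsg

namespace Cfsg.Agent.S4690

open H86 H85 H84

/-- Fix a prime p and a maximal ideal M of the algebraic integers containing p, and a nilpotent p-block B of the finite group G with defect group P. Then there is a bijection from B onto the irreducible characters of P carrying the height of each χ ∈ B to the exponent of p in the degree of its image. -/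
theorem result {G : Type*} [Group G] [Fintype G] (p : ℕ) [Fact p.Prime] (M : Ideal Cfsg.AlgInt) (hM : Cfsg.IsPModular p M) (B : Set (Cfsg.IrrCharacter G)) (hnil : Cfsg.IsNilpotentBlock p M B) (P : Subgroup G) (hP : Cfsg.IsDefectGroup p M B P) : ∃ Φ : B ≃ Cfsg.IrrCharacter P, ∀ χ : B, Cfsg.blockHeight p B ((χ : Cfsg.IrrCharacter G) : G → ℂ) = (Cfsg.charDegree ((Φ χ : Cfsg.IrrCharacter P) : P → ℂ)).factorization p := by
  haveI := H33.isMaximal_of hM
  obtain ⟨e, h⟩ := exists_mp hM hnil.1 hP
  have hc := h.ctrl_of_nil hnil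
  obtain ⟨χ, hχ, h0⟩ := exists_height_zero (p := p) (block_nonempty h.hB)
  obtain ⟨Φ, hΦ⟩ := h.exists_equiv_of_ctrl hc hχ h0
  refine ⟨Φ.symm, fun ψ => ?_⟩
  obtain ⟨μ, rfl⟩ := Φ.surjective ψ
  rw [hΦ, h.height_pstar (hc.stab (irr_class μ)) hχ, h0, Equiv.symm_apply_apply, add_zero]

end Cfsg.Agent.S4690
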