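import Cfsg.Statements.S4692
import Mathlib
import Cfsg.Agent.Lib.Blk86.GoodF

set_option autoImplicit false
open Cfsg

namespace Cfsg.Agent.S4692

set_option linter.style.haveILetI false
set_option linter.unusedVariables false

open H86 H33

/-- Fix a prime p and a maximal ideal M of the algebraic integers containing p. Let N be a normal subgroup of p-power index in the finite group G and c a p-block of N stable under conjugation by G, and let B be the p-block of G whose idempotent is that of c (it exists and is unique). Then c is nilpotent as a block of N if and only if B is nilpotent as a block of G. -/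
theorem result {G : Type*} [Group G] [Fintype G] (p : ℕ) [Fact p.Prime] (M : Ideal Cfsg.AlgInt) (hM : Cfsg.IsPModular p M) (N : Subgroup G) [N.Normal] (hN : ∃ k : ℕ, N.index = p ^ k) (c : Set (Cfsg.IrrCharacter N)) (hc : Cfsg.IsPBlock M c) (hst : ∀ x : G, Cfsg.StabilizesBlock N c x) (B : Set (Cfsg.IrrCharacter G)) (hB : Cfsg.IsPBlock M B) (hBc : ∀ g : G, Cfsg.blockCoeff B g = Cfsg.subgroupBlockCoeff N c g) : Cfsg.IsNilpotentBlock p M c ↔ Cfsg.IsNilpotentBlock p M B := by
  haveI := isMaximal_of hM
  haveI := charP hM
  haveI := good hM G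
  obtain ⟨k, hk⟩ := hN
  have hn : ⊤ ≤ Nor N := (Subgroup.normalizer_eq_top N).ge
  have h1 := (blockCoeff_eq_iff hc hB).1 hBc
  rw [isNilpotentBlock_iff hB, isNilpotentBlock_sub_iff hc, h1]
  exact isNil_iff_of_pQuot (pQuot_of_relIndex hn ((Subgroup.relIndex_top_right N).trans hk))
    le_top hn (isBlk_eS hc) (h1 ▸ isBlk_eB hB)

end Cfsg.Agent.S4692
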