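import Cfsg.Statements.S4693
import Mathlib
import Cfsg.Agent.Lib.Blk86.GoodF
import Cfsg.Agent.S4680

set_option autoImplicit false
open Cfsg

namespace Cfsg.Agent.S4693

set_option linter.style.haveILetI false
set_option linter.unusedVariables false

open H86 H33

/-- Fix a prime p and a maximal ideal M of the algebraic integers containing p, a p-block B of the finite group G with maximal Brauer pair (P, e) and fusion system F on P, and a Brauer pair (Q, f) ≤ (P, e) with Q centric in F. Suppose every element of G normalizes Q and stabilizes f. Then the idempotent of B agrees with that of f modulo M at every element of G, and f is the idempotent of a nilpotent block of Q·C_G(Q): some p-block of Q·C_G(Q) has the idempotent coefficients of f and is nilpotent. -/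
theorem result {G : Type*} [Group G] [Fintype G] (p : ℕ) [Fact p.Prime] (M : Ideal Cfsg.AlgInt) (hM : Cfsg.IsPModular p M) (B : Set (Cfsg.IrrCharacter G)) (P : Subgroup G) (e : Set (Cfsg.IrrCharacter (Subgroup.centralizer (P : Set G)))) (hmax : Cfsg.IsMaximalBrauerPair p M B P e) (F : Cfsg.FusionSystem P) (hF : Cfsg.IsBlockFusionSystemOn p M B P e F) (Q : Subgroup G) (f : Set (Cfsg.IrrCharacter (Subgroup.centralizer (Q : Set G)))) (hQP : Q ≤ P) (hf : Cfsg.IsPBlock M f) (hle : Cfsg.SubpairLE p M Q f P e) (hcen : F.IsCentric Q) (hG : ∀ x : G, x ∈ Subgroup.normalizer (Q : Set G) ∧ Cfsg.StabilizesBlock (Subgroup.centralizer (Q : Set G)) f x) : (∀ g : G, Cfsg.MemLocalIdeal M (Cfsg.blockCoeff B g - Cfsg.subgroupBlockCoeff (Subgroup.centralizer (Q : Set G)) f g)) ∧ ∃ F' : Set (Cfsg.IrrCharacter ↥(Q ⊔ Subgroup.centralizer (Q : Set G))), Cfsg.IsPBlock M F' ∧ (∀ t : ↥(Q ⊔ Subgroup.centralizer (Q : Set G)), Cfsg.blockCoeff F' t = Cfsg.subgroupBlockCoeff (Subgroup.centralizer (Q : Set G)) f (t : G)) ∧ Cfsg.IsNilpotentBlock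 p M F' := by
  haveI := isMaximal_of hM
  haveI := charP hM
  have hm := isMaxPair_of hmax
  have hB := hmax.1.2.1
  have hb := isBlk_eB hB
  have hs := sub_of_subpairLE hle
  have hQ := hs.pairOf_left hb hm.toPairOf
  have hD := (isDefectGroup_subgroupOf_iff hf inf_le_right).1
    ((S4680.result p M hM B P e hmax F hF Q f hQP hf hle).1 hcen)
  constructor
  · have h1 := hQ.eq_of_St_eq hb fun x _ => by
      rw [St_top]; exact (mem_Nor_and_stabilizes_iff hf x).1 (hG x)
    intro g
    rw [(blockCoeff_eq_iff hf hB).2 h1, sub_self]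
    exact memLocalIdeal_zero
  · have h1 := hQ.toPair.isNil_sup (by rw [top_inf_eq]; exact hD)
    have h2 := hQ.toPair.isBlk_of_between le_sup_left le_sup_right
      (sup_le hQ.toPair.le_St hQ.toPair.Cen_le_St)
    rw [top_inf_eq] at h1 h2
    obtain ⟨F', h3, h4, h5⟩ := exists_block_eq hf le_sup_right h2
    exact ⟨F', h3, h5, (isNilpotentBlock_sub_iff h3).2 (by rw [h4]; exact h1)⟩

end Cfsg.Agent.S4693
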