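import Cfsg.Statements.S4694
import Mathlib
import Cfsg.Agent.Lib.Blk86.Cov
import Cfsg.Agent.Lib.Blk86.Quot

set_option autoImplicit false
open Cfsg

namespace Cfsg.Agent.S4694

set_option linter.style.haveILetI false
set_option linter.unusedVariables false

open H86 H33

/-- Fix a prime p and a maximal ideal M of the algebraic integers containing p, a p-block B of the finite group G and a Brauer pair (Q, e) of B. Let T be the stabilizer of e in N_G(Q) and suppose that (Q, e) carries a weight: the block of T whose idempotent is that of e contains an irreducible character χ that is constant on the cosets of Q and whose degree has p-part equal to the p-part of the index of Q in T. Then Z(Q) is a defect group of e as a block of C_G(Q), and Q is the largest normal p-subgroup of T: every p-subgroup of T normalized by T lies in Q. -/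
theorem result {G : Type*} [Group G] [Fintype G] (p : ℕ) [Fact p.Prime] (M : Ideal Cfsg.AlgInt) (hM : Cfsg.IsPModular p M) (B : Set (Cfsg.IrrCharacter G)) (Q : Subgroup G) (e : Set (Cfsg.IrrCharacter (Subgroup.centralizer (Q : Set G)))) (hQe : Cfsg.IsBrauerPairOf p M B Q e) (T : Subgroup G) (hT : ∀ y : G, y ∈ T ↔ y ∈ Subgroup.normalizer (Q : Set G) ∧ Cfsg.StabilizesBlock (Subgroup.centralizer (Q : Set G)) e y) (F' : Set (Cfsg.IrrCharacter T)) (hF' : Cfsg.IsPBlock M F') (hF'e : ∀ t : T, Cfsg.blockCoeff F' t = Cfsg.subgroupBlockCoeff (Subgroup.centralizer (Q : Set G)) e (t : G)) (χ : Cfsg.IrrCharacter T) (hχ : χ ∈ F') (hχQ : ∀ q : G, q ∈ Q → ∀ t : T, ∀ t' : T, (t' : G) = q * (t : G) → (χ : T → ℂ) t' = (χ : T → ℂ) t) (hdeg : (Cfsg.charDegree (χ : T → ℂ)).factorization p + (Nat.card Q).factorization p = (Nat.card T).factorization p) : Cfsg.IsDefectGroup p M e ((Q ⊓ Subgroup.centralizer (Q : Set G)).subgroupOf (Subgroup.centralizer (Q : Set G))) ∧ ∀ R : Subgroup G, R ≤ T → IsPGroup p R → (∀ t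 ∈ T, t ∈ Subgroup.normalizer (R : Set G)) → R ≤ Q := by
  haveI := isMaximal_of hM; haveI := charP hM; haveI := good hM G; haveI := good hM T
  have he := hQe.1.2
  have hpo := pairOf_of_isBrauerPairOf hQe
  have hTS := eq_St he hT
  have hQT : Q ≤ T := hTS ▸ hpo.le_St
  have hCT : Cen Q ≤ T := by have := hpo.Cen_le_St; rwa [top_inf_eq, ← hTS] at this
  have hTN : T ≤ Nor Q := hTS ▸ St_le_Nor _ _ _
  have hFe := (blockCoeff_eq_iff_sub hF' he hCT).1 hF'e
  haveI hn : (Q.subgroupOf T).Normal := normal_subgroupOf hTN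
  haveI := good hM (T ⧸ Q.subgroupOf T)
  have hQp : IsPGroup p (Q.subgroupOf T) := isPGroup_subgroupOf hpo.pgrp
  obtain ⟨ψ, rfl⟩ := H35.exists_infl (N := Q.subgroupOf T) (χ := χ) fun n hn =>
    hχQ n hn 1 n (by simp)
  have hdef : Cfsg.IsDefectGroup p M (Cfsg.blockOf M (ψ : T ⧸ Q.subgroupOf T → ℂ)) ⊥ := by
    obtain ⟨D, hD⟩ := exists_defectGroup p (isPBlock_blockOf (M := M) ψ)
    have h1 := (blockDefect_eq_zero_iff hM (isPBlock_blockOf ψ) (mem_blockOf_self ψ)).2 (by
      have h2 := factorization_card_eq p (Q.subgroupOf T)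
      rw [Nat.card_congr (Subgroup.subgroupOfEquivOfLe hQT).toEquiv] at h2
      rw [H35.charDegree_infl] at hdeg
      change _ = ((Q.subgroupOf T).index).factorization p
      omega)
    rwa [(blockDefect_eq_zero_iff_bot hM (isPBlock_blockOf ψ) hD).1 h1] at hD
  constructor
  · have hker : (QuotientGroup.mk' (Q.subgroupOf T)).ker = Q.subgroupOf T := QuotientGroup.ker_mk' _
    have hmapC : (Cen (Q.subgroupOf T)).map T.subtype = Cen Q := by
      rw [Cen_subgroupOf hQT, Subgroup.subgroupOf_map_subtype, inf_eq_left.2 hCT]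
    have hC : IsBlk (Cen (Q.subgroupOf T)) (eB M F') := by
      rw [← isBlk_emb T.subtype_injective, hmapC]
      have := isBlk_eS he
      rwa [← hFe] at this
    have hL := H35.isBlk_sup_of_isBlk_Cen hQp hC
    have hN : Q.subgroupOf T ≤ Nor (Cen (Q.subgroupOf T)) :=
      Subgroup.le_normalizer.trans (Nor_le_Nor_Cen _)
    have hq : PQuot p (Cen (QuotientGroup.mk' (Q.subgroupOf T)).ker)
        (Q.subgroupOf T ⊔ Cen (Q.subgroupOf T)) := by rw [hker]; exact pQuot_sup hQp hN
    have h1 := hL.quot (by rwa [hker]) hq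
    obtain ⟨E, hE⟩ := h1.exists_isDef p
    have hb := H86.isBlk_eB (isPBlock_blockOf (M := M) ψ)
    have hc : IsCent (emb (QuotientGroup.mk' (Q.subgroupOf T)) (eB M F')) :=
      H34.isCent_proj _ (isCent_eB F')
    have h2 := (lam_eq_one_iff_mul (isPBlock_blockOf ψ) (mem_blockOf_self ψ) hc h1.idem).1
      ((H34.lam_infl ψ (isCent_eB F')).symm.trans (lam_eB_of_mem hF' hχ))
    have h3 : ⊤ ≤ Nor ((Q.subgroupOf T ⊔ Cen (Q.subgroupOf T)).map
        (QuotientGroup.mk' (Q.subgroupOf T))) := by
      rw [← top_map_mk]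
      rintro _ ⟨x, -, rfl⟩
      have hx : x ∈ Nor (Q.subgroupOf T) := by rw [Nor, Subgroup.normalizer_eq_top]; trivial
      exact map_mem_Nor_map (mem_Nor_sup hx (Nor_le_Nor_Cen _ hx))
    have h4 := h1.br_ne_zero_of_cover le_top h3 hb.mem hb.idem
      (by rw [hc.comm, h2]; exact hb.ne) hE.le hE.pgrp hE.ne
    obtain ⟨x, -, hx⟩ := ((H86.isDefectGroup_iff (isPBlock_blockOf ψ) ⊥).1 hdef).big E le_top
      hE.pgrp h4
    rw [cs_bot, le_bot_iff] at hx
    subst hx
    have h5 := hE.comap (by rwa [hker]) (by rw [hker]; exact le_sup_left) (hq.rs hL.mem hL.idem)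
    rw [MonoidHom.comap_bot, hker] at h5
    have h6 := (h5.stable le_sup_right (sup_le hN Subgroup.le_normalizer) hC hL).2
    rw [← isDef_emb T.subtype_injective, hmapC, map_inf_Cen T.subtype_injective,
      Subgroup.subgroupOf_map_subtype, inf_eq_left.2 hQT] at h6
    rw [isDefectGroup_subgroupOf_iff he inf_le_right, ← hFe]
    exact h6
  · intro R hRT hR hN
    haveI : (R.subgroupOf T).Normal := normal_subgroupOf hN
    haveI : ((R.subgroupOf T).map (QuotientGroup.mk' (Q.subgroupOf T))).Normal :=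
      Subgroup.Normal.map inferInstance _ (QuotientGroup.mk'_surjective _)
    have := normal_le_defect hM (isPBlock_blockOf ψ) hdef
      ((isPGroup_subgroupOf (K := T) hR).map (QuotientGroup.mk' (Q.subgroupOf T)))
    rw [le_bot_iff, Subgroup.map_eq_bot_iff, QuotientGroup.ker_mk'] at this
    exact fun r hr => this (show (⟨r, hRT hr⟩ : T) ∈ R.subgroupOf T from hr)

end Cfsg.Agent.S4694
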