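import Cfsg.Statements.S4697
import Mathlib
import Cfsg.Agent.Base
import Cfsg.Agent.Lib.Block.CycMin

set_option autoImplicit false
open Cfsg

namespace Cfsg.Agent.S4697

theorem card_le_mul {D : Type*} [CommGroup D] [Finite D] {x y z : D}
    (h : Subgroup.closure {x, y, z} = ⊤) : Nat.card D ≤ orderOf x * orderOf y * orderOf z := by
  simp only [← Nat.card_zpowers, ← Nat.card_prod]
  refine Nat.card_le_card_of_surjective
    (fun t : (Subgroup.zpowers x × Subgroup.zpowers y) × Subgroup.zpowers z =>
      (t.1.1 : D) * t.1.2 * t.2) fun g => ?_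
  have hg : g ∈ Subgroup.zpowers x ⊔ Subgroup.zpowers y ⊔ Subgroup.zpowers z := by
    simp only [Subgroup.zpowers_eq_closure, ← Subgroup.closure_union]
    rw [Set.union_assoc, Set.singleton_union, Set.singleton_union, h]
    trivial
  obtain ⟨a, ha, c, hc, rfl⟩ := Subgroup.mem_sup.1 hg
  obtain ⟨a, ha1, b, hb, rfl⟩ := Subgroup.mem_sup.1 ha
  exact ⟨((⟨a, ha1⟩, ⟨b, hb⟩), ⟨c, hc⟩), rfl⟩

/-- Let p be a prime, M a maximal ideal of the algebraic integers containing p, and B a p-block of the finite group G with an abelian defect group D of order p^d. If D has rank 2 (its least number of generators is 2) then B contains at most p^d irreducible characters; if D has rank 3 then the number k of irreducible characters in B satisfies k^3 ≤ p^(5d). -/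
theorem result {G : Type*} [Group G] [Finite G] (p : ℕ) [Fact p.Prime] (M : Ideal Cfsg.AlgInt) (hM : Cfsg.IsPModular p M) (B : Set (Cfsg.IrrCharacter G)) (hB : Cfsg.IsPBlock M B) (D : Subgroup G) (hBD : Cfsg.IsDefectGroup p M B D) (hab : IsMulCommutative D) (d : ℕ) (hDd : Nat.card D = p ^ d) : (Group.rank D = 2 → Nat.card B ≤ p ^ d) ∧ (Group.rank D = 3 → Nat.card B ^ 3 ≤ p ^ (5 * d)) := by
  classical
  haveI := hM.2.1
  have hp : p.Prime := Fact.out
  have hd : blockDefect p B = d :=
    Nat.pow_right_injective hp.two_le ((H33.defect_card hM hB hBD).symm.trans hDd)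
  obtain ⟨S, hS, hgen⟩ := Group.rank_spec D
  constructor
  · intro h
    obtain ⟨x, y, -, rfl⟩ := Finset.card_eq_two.1 (hS.trans h)
    rw [← hd]
    exact H84.card_le_of_two_gen hM hB hBD x y
      (Subgroup.mem_center_iff.2 fun g => mul_comm' g y) (by simpa using hgen)
  · intro h
    obtain ⟨x, y, z, -, -, -, rfl⟩ := Finset.card_eq_three.1 (hS.trans h)
    have h0 : Subgroup.closure {x, y, z} = ⊤ := by simpa using hgen
    have h1 := H84.card_mul_orderOf_le hM hB hBD x y z h0
    have h2 := H84.card_mul_orderOf_le hM hB hBD x z y (by rw [Set.pair_comm, h0])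
    have h3 := H84.card_mul_orderOf_le hM hB hBD z y x
      (by rw [← h0]; congr 1; ext; simp only [Set.mem_insert_iff, Set.mem_singleton_iff]; tauto)
    have h4 : Nat.card D ≤ orderOf x * orderOf y * orderOf z := by
      letI : CommGroup D := { (inferInstance : Group D) with mul_comm := mul_comm' }
      exact card_le_mul h0
    rw [hd] at h1 h2 h3
    rw [hDd] at h4
    refine Nat.le_of_mul_le_mul_right (c := p ^ d) ?_ (pow_pos hp.pos _)
    calc Nat.card B ^ 3 * p ^ d ≤ Nat.card B ^ 3 * (orderOf x * orderOf y * orderOf z) :=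
          Nat.mul_le_mul_left _ h4
      _ = (Nat.card B * orderOf x) * (Nat.card B * orderOf y) * (Nat.card B * orderOf z) := by ring
      _ ≤ p ^ (2 * d) * p ^ (2 * d) * p ^ (2 * d) := Nat.mul_le_mul (Nat.mul_le_mul h3 h2) h1
      _ = _ := by ring

end Cfsg.Agent.S4697
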