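import Cfsg.Statements.S4699
import Mathlib
import Cfsg.Agent.Base
import Cfsg.Agent.Lib.Cyc.Free

set_option autoImplicit false
open Cfsg

namespace Cfsg.Agent.S4699

/-- Let p be a prime and G a finite group whose Sylow p-subgroup P is cyclic of order p^n with n ≥ 2 and meets every other Sylow p-subgroup trivially. Then every faithful irreducible representation of G on a finite-dimensional space over a finite field of characteristic p has dimension at least p^n − (p − 1). -/
theorem result {G : Type*} [Group G] [Finite G] (p : ℕ) [Fact p.Prime] (P : Sylow p G) (hcyc : IsCyclic P) (n : ℕ) (hn : 2 ≤ n) (hPn : Nat.card P = p ^ n) (hTI : ∀ Q : Sylow p G, Q ≠ P → (P : Subgroup G) ⊓ (Q : Subgroup G) = ⊥) (F : Type*) [Field F] [Finite F] [CharP F p] (V : Type*) [AddCommGroup V] [Module F V] [FiniteDimensional F V] (ρ : Representation F G V) (hfaith : Function.Injective ρ) (hirr : ρ.IsIrreducible) : p ^ n - (p - 1) ≤ Module.finrank F V := by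
  classical
  have hp : p.Prime := Fact.out
  letI := Fintype.ofFinite G
  by_contra hlt
  have hd : Module.finrank F V + p ≤ p ^ n := by
    have := hp.one_le
    omega
  obtain ⟨⟨u, huP⟩, hu⟩ := hcyc.exists_generator
  have hPu : (P : Subgroup G) = Subgroup.zpowers u := by
    refine le_antisymm (fun x hx => ?_) (Subgroup.zpowers_le_of_mem huP)
    obtain ⟨m, hm⟩ := hu ⟨x, hx⟩
    exact ⟨m, congrArg Subtype.val hm⟩
  have hou : orderOf u = p ^ n := by rw [← Nat.card_zpowers, ← hPu]; exact hPn
  set X : Module.End F V := ρ u - 1 with hX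
  have hXq : X ^ p ^ n = 0 := by
    rw [hX, H35.sub_one_pow_char (k := F), ← map_pow, ← hou, pow_orderOf_eq_one, map_one, sub_self]
  have hXd : X ^ Module.finrank F V = 0 := by
    rw [← LinearMap.ker_eq_top, ← Module.End.ker_pow_eq_ker_pow_finrank_of_le (m := p ^ n)
      (by omega), hXq, LinearMap.ker_zero]
  have hinv : ∀ g : G, ρ g * ρ g⁻¹ = 1 := fun g => by rw [← map_mul, mul_inv_cancel, map_one]
  have hinv' : ∀ g : G, ρ g⁻¹ * ρ g = 1 := fun g => by rw [← map_mul, inv_mul_cancel, map_one]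
  let W : Submodule F V := LinearMap.range (X ^ p)
  let π := W.mkQ
  have hπ : ∀ δ : Module.End F V, ∀ v, π ((X ^ p * δ) v) = 0 := fun δ v =>
    (Submodule.Quotient.mk_eq_zero _).2 ⟨δ v, rfl⟩
  let τ : G → Module.End F V := fun g => ρ g * X ^ (p - 1) * ρ g⁻¹
  have hτmul : ∀ g h, τ (g * h) = ρ g * τ h * ρ g⁻¹ := by
    intro g h
    simp only [τ, mul_inv_rev, map_mul, mul_assoc]
  have hτP : ∀ g, ∀ h ∈ (P : Subgroup G), τ (g * h) = τ g := by
    intro g h hh
    rw [hτmul]
    simp only [τ]
    rw [hPu] at hh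
    obtain ⟨m, rfl⟩ := mem_powers_iff_mem_zpowers.mpr hh
    have h1 : Commute (ρ (u ^ m)) (X ^ (p - 1)) := by
      rw [map_pow]
      exact (((Commute.refl _).sub_right (Commute.one_right _)).pow_pow _ _)
    rw [h1.eq, mul_assoc (X ^ (p - 1)), hinv, mul_one]
  have hτout : ∀ (g : G) (q : G ⧸ (P : Subgroup G)), τ (g • q).out = τ (g * q.out) := by
    intro g q
    have h1 : ((g * q.out : G) : G ⧸ (P : Subgroup G)) = ((g • q).out : G) := by
      rw [QuotientGroup.out_eq', ← smul_eq_mul, ← MulAction.Quotient.smul_coe,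
        QuotientGroup.out_eq']
    have h2 := QuotientGroup.eq.mp h1
    rw [← hτP (g * q.out) _ h2, mul_inv_cancel_left]
  let T : Module.End F V := ∑ q : G ⧸ (P : Subgroup G), τ q.out
  have hTc : ∀ g, ρ g * T = T * ρ g := by
    intro g
    have : ρ g * T * ρ g⁻¹ = T := by
      simp only [T, Finset.mul_sum, Finset.sum_mul, ← hτmul, ← hτout]
      exact Fintype.sum_equiv (MulAction.toPerm g) _ _ fun _ => rfl
    conv_rhs => rw [← this]
    rw [mul_assoc, hinv', mul_one]
  have hfix : ∀ (h : G) (q : G ⧸ (P : Subgroup G)), h • q = q ↔ q.out⁻¹ * h * q.out ∈ (P : Subgroup G) := by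
    intro h q
    conv_lhs => rw [← QuotientGroup.out_eq' q]
    rw [MulAction.Quotient.smul_coe, eq_comm, QuotientGroup.eq, smul_eq_mul, mul_assoc]
  let Fx := Finset.univ.filter (fun q : G ⧸ (P : Subgroup G) => ∀ h : (P : Subgroup G), h • q = q)
  have hT : ∀ v, π (T v) = ∑ q ∈ Fx, π (τ q.out v) := by
    intro v
    simp only [T, LinearMap.sum_apply, map_sum]
    rw [← Finset.sum_filter_add_sum_filter_not Finset.univ
      (fun q : G ⧸ (P : Subgroup G) => ∀ h : (P : Subgroup G), h • q = q),
      H35.sum_free_eq_zero (P := (P : Subgroup G)) (fun q : G ⧸ (P : Subgroup G) => π (τ q.out v))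
        (Finset.univ.filter fun q => ¬ ∀ h : (P : Subgroup G), h • q = q), add_zero]
    · intro h q hq
      simp only [Finset.mem_filter, Finset.mem_univ, true_and] at hq ⊢
      intro h1
      apply hq
      have h2 := h1 h⁻¹
      rw [inv_smul_smul] at h2
      rwa [← h2] at h1
    · intro q hq h hh
      simp only [Finset.mem_filter, Finset.mem_univ, true_and] at hq
      by_contra h1
      apply hq
      have h2 : (h : G) ∈ (P : Subgroup G) ⊓ ((q.out • P : Sylow p G) : Subgroup G) := by
        refine Subgroup.mem_inf.2 ⟨h.2, ?_⟩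
        rw [Sylow.coe_subgroup_smul, Subgroup.mem_pointwise_smul_iff_inv_smul_mem]
        simpa using (hfix h q).1 hh
      have h3 : q.out • P = P := by
        by_contra h3
        rw [hTI _ h3, Subgroup.mem_bot] at h2
        exact h1 (Subtype.ext h2)
      intro k
      refine (hfix k q).2 ?_
      have h4 : (k : G) ∈ ((q.out • P : Sylow p G) : Subgroup G) := by rw [h3]; exact k.2
      rw [Sylow.coe_subgroup_smul, Subgroup.mem_pointwise_smul_iff_inv_smul_mem] at h4
      simpa using h4
    · intro q _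
      have h1 : ∀ h : (P : Subgroup G), τ (h • q).out = ρ h * τ q.out * ρ (h : G)⁻¹ := fun h => by
        rw [← hτmul, ← hτout]; rfl
      simp only [h1]
      rw [← map_sum, ← LinearMap.sum_apply,
        H35.sum_zpowers hPu (fun h => ρ h * τ q.out * ρ h⁻¹), hou]
      obtain ⟨δ, hδ⟩ := H35.exists_tr_eq (k := F) (hinv u) (hinv' u) n hXd hd (τ q.out)
      simp only [← inv_pow, map_pow]
      rw [hδ]
      exact hπ _ _
  have hFx : ∀ q ∈ Fx, ∀ v, π (τ q.out v) = π ((X ^ (p - 1)) v) := by
    intro q hq v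
    have h1 : ∀ h : (P : Subgroup G), h • q = q := (Finset.mem_filter.1 hq).2
    have h2 : q.out⁻¹ ∈ Subgroup.normalizer ((P : Subgroup G) : Set G) := by
      refine Subgroup.mem_normalizer_fintype fun x hx => ?_
      rw [inv_inv]
      exact (hfix x q).1 (h1 ⟨x, hx⟩)
    have h3 : q.out * u * q.out⁻¹ ∈ Subgroup.zpowers u := by
      rw [← hPu]
      exact (Subgroup.mem_normalizer_iff.1 (inv_mem_iff.1 h2) u).1 huP
    obtain ⟨a, ha⟩ := mem_powers_iff_mem_zpowers.mpr h3
    simp only at ha
    have h4 : ¬ p ∣ a := by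
      rintro ⟨b, rfl⟩
      have h5 : orderOf (u ^ (p * b)) = p ^ n := by
        rw [ha, ← hou]
        exact (MulAut.conj q.out).orderOf_eq u
      have h6 : (u ^ (p * b)) ^ p ^ (n - 1) = 1 := by
        rw [← pow_mul, mul_right_comm, ← pow_succ', Nat.sub_add_cancel (by omega), pow_mul, ← hou,
          pow_orderOf_eq_one, one_pow]
      have h7 := orderOf_dvd_of_pow_eq_one h6
      rw [h5, Nat.pow_dvd_pow_iff_le_right hp.one_lt] at h7
      omega
    obtain ⟨δ, hδ⟩ := H35.exists_pow_sub_one_pow (k := F) (ρ u) h4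
    have h5 : τ q.out = (ρ u ^ a - 1) ^ (p - 1) := by
      have h6 : ρ u ^ a - 1 = ρ q.out * X * ρ q.out⁻¹ := by
        rw [← map_pow, ha, hX, mul_sub, sub_mul, mul_one, hinv, map_mul, map_mul]
      rw [h6]
      simp only [τ]
      induction (p - 1) with
      | zero => simp [hinv]
      | succ m ih =>
        rw [pow_succ, pow_succ, ← ih]
        simp only [mul_assoc]
        rw [← mul_assoc (ρ q.out⁻¹), hinv', one_mul]
    rw [← sub_eq_zero, ← map_sub, ← LinearMap.sub_apply, h5, hδ]
    exact hπ _ _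
  have hcard : (Fx.card : F) ≠ 0 := by
    have h1 := P.isPGroup'.card_modEq_card_fixedPoints (G ⧸ (P : Subgroup G))
    have h2 : Nat.card (MulAction.fixedPoints (P : Subgroup G) (G ⧸ (P : Subgroup G))) = Fx.card := by
      rw [← Nat.card_eq_finsetCard]
      refine Nat.card_congr (Equiv.subtypeEquivRight fun q => ?_)
      simp only [Fx, Finset.mem_filter, Finset.mem_univ, true_and]
      rfl
    rw [h2] at h1
    intro h0
    rw [CharP.cast_eq_zero_iff F p] at h0
    exact P.not_dvd_index ((Nat.modEq_zero_iff_dvd.mp (h1.trans (Nat.modEq_zero_iff_dvd.mpr h0))))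
  have hT' : ∀ v, ∃ w, T v = (Fx.card : F) • (X ^ (p - 1)) v + (X ^ p) w := by
    intro v
    have h1 := hT v
    rw [Finset.sum_congr rfl fun q hq => hFx q hq v, Finset.sum_const, ← Nat.cast_smul_eq_nsmul F,
      ← map_smul] at h1
    obtain ⟨w, hw⟩ := (Submodule.Quotient.eq W).1 h1
    exact ⟨w, by rw [hw, add_sub_cancel]⟩
  have hnil : ∀ m, (∀ v, ∃ w, (X ^ m) v = (X ^ (m + 1)) w) → X ^ m = 0 := by
    intro m hm
    have h1 : ∀ j v, ∃ w, (X ^ m) v = (X ^ (m + j)) w := by
      intro j
      induction j with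
      | zero => exact fun v => ⟨v, rfl⟩
      | succ j ih =>
        intro v
        obtain ⟨w, hw⟩ := ih v
        obtain ⟨w', hw'⟩ := hm w
        refine ⟨w', ?_⟩
        rw [hw, add_comm m j, pow_add, Module.End.mul_apply, hw', ← Module.End.mul_apply, ← pow_add]
        congr 2
        omega
    ext v
    obtain ⟨w, hw⟩ := h1 (p ^ n) v
    rw [hw, pow_add, hXq, mul_zero]; rfl
  have hp1 : p - 1 + 1 = p := Nat.sub_add_cancel hp.one_le
  have hup : X ^ p = 0 → False := by
    intro h
    have h1 := H35.sub_one_pow_char (k := F) (p := p) (ρ u) 1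
    rw [pow_one, ← hX, h, eq_comm, sub_eq_zero, ← map_pow, ← map_one ρ] at h1
    have h2 := orderOf_dvd_of_pow_eq_one (hfaith h1)
    rw [hou] at h2
    have h3 := (Nat.pow_dvd_pow_iff_le_right hp.one_lt).1 (h2.trans (pow_one p).symm.dvd)
    omega
  let S : Subrepresentation ρ := ⟨LinearMap.range T, by
    rintro g _ ⟨v, rfl⟩
    exact ⟨ρ g v, (LinearMap.congr_fun (hTc g) v).symm⟩⟩
  rcases eq_bot_or_eq_top S with h | h
  · have h0 : LinearMap.range T = ⊥ := congrArg Subrepresentation.toSubmodule h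
    have h1 : X ^ (p - 1) = 0 := hnil _ fun v => by
      obtain ⟨w, hw⟩ := hT' v
      rw [LinearMap.range_eq_bot.1 h0, LinearMap.zero_apply] at hw
      refine ⟨(Fx.card : F)⁻¹ • (-w), ?_⟩
      rw [hp1, map_smul, map_neg, ← eq_neg_of_add_eq_zero_left hw.symm, smul_smul,
        inv_mul_cancel₀ hcard, one_smul]
    exact hup (by rw [← hp1, pow_succ, h1, zero_mul])
  · have h0 : LinearMap.range T = ⊤ := congrArg Subrepresentation.toSubmodule h
    have h1 : X ^ 0 = 0 := hnil _ fun v => by
      obtain ⟨v', rfl⟩ := LinearMap.range_eq_top.1 h0 v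
      obtain ⟨w, hw⟩ := hT' v'
      refine ⟨(Fx.card : F) • (X ^ (p - 2)) v' + (X ^ (p - 1)) w, ?_⟩
      have h2 : p - 1 = 1 + (p - 2) := by have := hp.two_le; omega
      rw [pow_zero, Module.End.one_apply, hw, zero_add, map_add, map_smul, ← Module.End.mul_apply,
        ← Module.End.mul_apply, ← pow_add, ← pow_add, ← h2, add_comm 1 (p - 1), hp1]
    exact hup (by rw [← one_mul (X ^ p), ← pow_zero X, h1, zero_mul])

end Cfsg.Agent.S4699
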