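import Cfsg.Statements.S4708
import Mathlib
import Cfsg.Agent.Lib.H85.Prin2
import Cfsg.Agent.Lib.Block.Cover2

set_option autoImplicit false
open Cfsg

namespace Cfsg.Agent.S4708

set_option linter.style.haveILetI false
set_option linter.unusedVariables false

open H33 H85
open scoped ComplexConjugate
attribute [local irreducible] H33.instFieldF

section
variable {G : Type*} [Group G] [Fintype G] {p : ℕ} [hp : Fact p.Prime] {M : Ideal AlgInt}
  [M.IsMaximal]

theorem sum_trunc (hM : IsPModular p M) (H : Subgroup G) [hH : H.Normal] [Fintype H] :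
    ∑ h : H, (H34.trunc H (H33.eB M (principalBlock M G))).coeff h ≠ 0 := by
  classical
  obtain ⟨P⟩ : Nonempty (Sylow p G) := inferInstance
  have := H33.charP hM
  have hec : H33.IsCent (H33.eB M (principalBlock M G)) := H33.isCent_eB _
  have h1 : ∑ h : H, (H34.trunc H (H33.eB M (principalBlock M G))).coeff h =
      ∑ g : G, if g ∈ H then (H33.eB M (principalBlock M G)).coeff g else 0 := by
    rw [← Finset.sum_filter, Finset.sum_subtype (Finset.univ.filter (· ∈ H)) (p := (· ∈ H))
      (by simp)]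
    rfl
  rw [h1, H34.sum_eq_sum_centralizer P.isPGroup' _ (by
    intro u hu g
    have : u * g * u⁻¹ ∈ H ↔ g ∈ H := ⟨fun h => by simpa [mul_assoc] using hH.conj_mem' _ h u,
      fun h => hH.conj_mem _ h u⟩
    simp only [this, hec g u])]
  have h2 : ∀ g : G, (if g ∈ Subgroup.centralizer ((P : Subgroup G) : Set G) then
      (if g ∈ H then (H33.eB M (principalBlock M G)).coeff g else 0) else 0) =
      if g ∈ sylO P ⊓ H then (Nat.card (sylO P) : H33.F M)⁻¹ else 0 := by
    intro g
    by_cases hg : g ∈ Subgroup.centralizer ((P : Subgroup G) : Set G)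
    · rw [if_pos hg, ← H34.coeff_br_of_mem _ hg, br_eB_prin hM P]
      by_cases h1 : g ∈ H
      · rw [if_pos h1]
        by_cases h2 : g ∈ sylO P
        · rw [coeff_avg_of_mem h2, if_pos ⟨h2, h1⟩]
        · rw [coeff_avg_of_not_mem h2, if_neg (fun h => h2 h.1)]
      · rw [if_neg h1, if_neg (fun h => h1 h.2)]
    · rw [if_neg hg, if_neg (fun h => hg h.1.1)]
  simp_rw [h2]
  rw [← Finset.sum_filter, Finset.sum_const, nsmul_eq_mul, ← Fintype.card_subtype,
    ← Nat.card_eq_fintype_card]
  refine mul_ne_zero ?_ (inv_ne_zero ?_)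
  · rw [Ne, H33.natCast_F_eq_zero_iff hM]
    exact fun h => not_dvd_card_sylO P (h.trans (Subgroup.card_dvd_of_le inf_le_left))
  · rw [Ne, H33.natCast_F_eq_zero_iff hM]
    exact not_dvd_card_sylO P

theorem exists_over (hM : IsPModular p M) (H : Subgroup G) [H.Normal] [Fintype H]
    {η : IrrCharacter H} (hη : η ∈ principalBlock M H) :
    ∃ χ ∈ principalBlock M G, H35.Over (χ : G → ℂ) (η : H → ℂ) := by
  have hB : IsPBlock M (principalBlock M G) := H33.isPBlock_principalBlock
  have hc := H34.isCent_trunc H (H33.isCent_fB (principalBlock M G))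
  have hO := H34.trunc_mem_OG H (H33.fB_mem_OG hB)
  have h1 : blockPart (principalBlock M G) (indFun H (η : H → ℂ)) 1 ≠ 0 := by
    rw [blockPart_indFun_one]
    refine mul_ne_zero (mul_ne_zero (Nat.cast_ne_zero.2 H.index_ne_zero_of_finite)
      (irr_one_ne_zero η)) (ne_zero_of_red_ne_zero (M := M) ?_)
    rw [H33.red_omega η hc hO, lam_prin hη (hc.redA M), H34.redA_trunc, ← H33.eB_def]
    exact sum_trunc hM H
  rw [H84.blockPart_apply] at h1
  obtain ⟨χ, hχ, h2⟩ := Finset.exists_ne_zero_of_sum_ne_zero h1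
  exact ⟨χ, H84.mem_bset.1 hχ,
    (H35.over_iff_indFun (H84.irr_class χ) _).2 (left_ne_zero_of_mul h2)⟩

omit hp [M.IsMaximal] in
theorem sum_le_deg (H : Subgroup G) [Fintype H] (χ : IrrCharacter G)
    [DecidablePred fun θ : IrrCharacter H => H35.Over (χ : G → ℂ) (θ : H → ℂ)] :
    ∑ θ : IrrCharacter H, (if H35.Over (χ : G → ℂ) (θ : H → ℂ) then charDegree (θ : H → ℂ) else 0)
      ≤ charDegree (χ : G → ℂ) := by
  have hc := H6.isCharacter_restrict H (H84.irr_char χ)
  choose m hm using fun θ : IrrCharacter H => H6.char_inner_nat hc (H84.irr_char θ)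
  have h := H6.classFun_apply_eq_sum_irr (H6.char_isClassFunction hc) 1
  simp only [hm, OneMemClass.coe_one, H33.irr_one_eq_charDegree] at h
  have h' : charDegree (χ : G → ℂ) = ∑ θ : IrrCharacter H, m θ * charDegree (θ : H → ℂ) := by
    exact_mod_cast h
  rw [h']
  refine Finset.sum_le_sum fun θ _ => ?_
  split_ifs with ho
  · exact Nat.le_mul_of_pos_left _ (Nat.pos_of_ne_zero fun h0 => ho (by rw [hm, h0, Nat.cast_zero]))
  · exact Nat.zero_le _

omit hp [M.IsMaximal] in
theorem cast_sum_sq (B : Set (IrrCharacter G)) :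
    ((∑ χ ∈ H84.bset B, charDegree (χ : G → ℂ) ^ 2 : ℕ) : ℂ) = Nat.card G * blockCoeff B 1 := by
  rw [H84.blockCoeff_eq, mul_inv_cancel_left₀ (Nat.cast_ne_zero.2 Nat.card_pos.ne')]
  push_cast
  refine Finset.sum_congr rfl fun χ _ => ?_
  rw [H33.irr_one_eq_charDegree, map_natCast, sq]

end

/-- Let p be a prime, M a maximal ideal of the algebraic integers containing p, G a finite group and H a normal subgroup. Write λ(X) for the sum of the squares of the degrees of the irreducible characters in the principal p-block of a group X. Then λ(H) ≤ λ(G) ≤ [G : H]·λ(H). -/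
theorem result {G : Type*} [Group G] [Finite G] (p : ℕ) [Fact p.Prime] (M : Ideal Cfsg.AlgInt) (hM : Cfsg.IsPModular p M) (H : Subgroup G) [H.Normal] : (∑ᶠ θ ∈ Cfsg.principalBlock M H, Cfsg.charDegree (θ : H → ℂ) ^ 2) ≤ (∑ᶠ χ ∈ Cfsg.principalBlock M G, Cfsg.charDegree (χ : G → ℂ) ^ 2) ∧ (∑ᶠ χ ∈ Cfsg.principalBlock M G, Cfsg.charDegree (χ : G → ℂ) ^ 2) ≤ H.index * ∑ᶠ θ ∈ Cfsg.principalBlock M H, Cfsg.charDegree (θ : H → ℂ) ^ 2 := by
  classical
  haveI := isMaximal_of hM
  haveI := Fintype.ofFinite G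
  simp only [H84.finsum_mem_eq]
  constructor
  · calc _ ≤ ∑ θ ∈ H84.bset (principalBlock M H), ∑ χ ∈ H84.bset (principalBlock M G),
          (if H35.Over (χ : G → ℂ) (θ : H → ℂ) then charDegree (θ : H → ℂ) else 0) ^ 2 := by
          refine Finset.sum_le_sum fun θ hθ => ?_
          obtain ⟨χ, hχ, ho⟩ := exists_over hM H (H84.mem_bset.1 hθ)
          refine le_trans (le_of_eq ?_) (Finset.single_le_sum (fun _ _ => Nat.zero_le _)
            (H84.mem_bset.2 hχ))
          rw [if_pos ho]
      _ ≤ _ := by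
          rw [Finset.sum_comm]
          refine Finset.sum_le_sum fun χ _ => ?_
          refine (Finset.sum_le_sum_of_subset (Finset.subset_univ _)).trans
            ((Finset.sum_sq_le_sq_sum_of_nonneg fun _ _ => Nat.zero_le _).trans ?_)
          exact Nat.pow_le_pow_left (sum_le_deg H χ) 2
  · have h1 : ∑ χ ∈ H84.bset (H35.upSet G (principalBlock M H)), charDegree (χ : G → ℂ) ^ 2 =
        H.index * ∑ θ ∈ H84.bset (principalBlock M H), charDegree (θ : H → ℂ) ^ 2 := by
      refine Nat.cast_injective (R := ℂ) ?_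
      rw [Nat.cast_mul, cast_sum_sq, cast_sum_sq, ← H35.blockCoeff_upSet_coe (G := G)
        (fun g θ hθ => cjI_mem_prin hM g hθ) 1, ← H.card_mul_index]
      push_cast; ring
    rw [← h1]
    refine Finset.sum_le_sum_of_subset fun χ hχ => H84.mem_bset.2 ?_
    obtain ⟨θ, ho⟩ := H35.exists_under H χ
    exact ⟨θ, mem_prin_of_over hM (H84.mem_bset.1 hχ) θ ho, ho⟩

end Cfsg.Agent.S4708
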