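import Mathlib
import Cfsg.Statements.S4709
import Cfsg.Agent.Lib.H85.AbFrob
-- import your own Cfsg.Agent.* helpers here

set_option autoImplicit false
open Cfsg

namespace Cfsg.Agent.S4709

open scoped IsMulCommutative ComplexConjugate

/-- Let p be a prime, M a maximal ideal of the algebraic integers containing p, and G a finite group with a nontrivial abelian Sylow p-subgroup P; put N = N_G(P), C = C_G(P). Suppose N/C is cyclic of order m with 1 < m < #P − 1 (C has index m in N and N is generated by C and one element), and C_G(y) ∩ N = C for every non-identity y ∈ P. Put r = (#P − 1)/m. Then there is s ≤ m such that the principal p-block is the disjoint union of a set X of s characters containing the principal character and a set Y of r characters, with integers a_χ ≠ 0 (χ ∈ X), d and a sign δ = ±1, such that: every χ ∈ X takes the value a_χ at every element whose p-part is a non-identity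 element of P; there is a map ζ from the non-principal linear characters ψ of P onto Y, constant on N-conjugacy classes, with ζ_ψ(z) = d + δ·Σ ψ'(y) for every z whose p-part y is a non-identity element of P, the sum running over the N-conjugates ψ' of ψ; (d − δ)^2 + (r − 1) d^2 + Σ_{χ ∈ X} a_χ^2 = m + 1; all members of Y agree on p-regular elements; and (r d − δ) η(g) + Σ_{χ ∈ X} a_χ χ(g) = 0 for every η ∈ Y and every p-regular g. -/
theorem result {G : Type*} [Group G] [Finite G] (p : ℕ) [Fact p.Prime] (M : Ideal Cfsg.AlgInt) (hM : Cfsg.IsPModular p M) (P : Sylow p G) (hab : IsMulCommutative P) (hP1 : Nat.card P ≠ 1) (m : ℕ) (hm1 : 1 < m) (hm2 : m + 1 < Nat.card P) (hCN : (Subgroup.centralizer ((P : Subgroup G) : Set G)).relIndex (Subgroup.normalizer ((P : Subgroup G) : Set G)) = m) (hcyc : ∃ g : G, g ∈ Subgroup.normalizer ((P : Subgroup G) : Set G) ∧ Subgroup.centralizer ((P : Subgroup G) :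 Set G) ⊔ Subgroup.zpowers g = Subgroup.normalizer ((P : Subgroup G) : Set G)) (hfrob : ∀ y : G, y ∈ (P : Subgroup G) → y ≠ 1 → Subgroup.centralizer ({y} : Set G) ⊓ Subgroup.normalizer ((P : Subgroup G) : Set G) = Subgroup.centralizer ((P : Subgroup G) : Set G)) : ∃ (s : ℕ) (X Y : Set (Cfsg.IrrCharacter G)), s ≤ m ∧ Cfsg.principalBlock M G = X ∪ Y ∧ Disjoint X Y ∧ Nat.card X = s ∧ Nat.card Y = (Nat.card P - 1) / m ∧ (∃ χ₁ ∈ X, (χ₁ : G → ℂ) = fun _ => 1) ∧ ∃ (a : Cfsg.IrrCharacter G → ℤ) (d δ : ℤ) (ζ : (↥(P : Subgroup G) →* ℂˣ) → Cfsg.IrrCharacter G), (δ = 1 ∨ δ = -1) ∧ (∀ χ ∈ X, a χ ≠ 0 ∧ ∀ z y : G, Cfsg.IsPPart p z y → y ∈ (P : Subgroup G) → y ≠ 1 → (χ : G → ℂ) z = (a χ : ℂ)) ∧ (∀ ψ : ↥(P : Subgroup G) →* ℂˣ, ψ ≠ 1 → ζ ψ ∈ Y) ∧ (∀ η ∈ Y, ∃ ψ : ↥(P : Subgroup G) →* ℂˣ, ψ ≠ 1 ∧ ζ ψ = η) ∧ (∀ ψ ψ' : ↥(P : Subgroup G) →* ℂˣ, ψ ≠ 1 → (∃ n : G, n ∈ Subgroup.normalizer ((P : Subgroup G) : Set G) ∧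 ∀ w w' : ↥(P : Subgroup G), (w' : G) = n * w * n⁻¹ → ψ' w' = ψ w) → ζ ψ' = ζ ψ) ∧ (∀ ψ : ↥(P : Subgroup G) →* ℂˣ, ψ ≠ 1 → ∀ (z : G) (y : ↥(P : Subgroup G)), Cfsg.IsPPart p z (y : G) → (y : G) ≠ 1 → (ζ ψ : G → ℂ) z = (d : ℂ) + (δ : ℂ) * ∑ᶠ ψ' ∈ {ψ' : ↥(P : Subgroup G) →* ℂˣ | ∃ n : G, n ∈ Subgroup.normalizer ((P : Subgroup G) : Set G) ∧ ∀ w w' : ↥(P : Subgroup G), (w' : G) = n * w * n⁻¹ → ψ' w' = ψ w}, ((ψ' y : ℂˣ) : ℂ)) ∧ ((d - δ) ^ 2 + ((Nat.card P - 1) / m - 1 : ℤ) * d ^ 2 + ∑ᶠ χ ∈ X, a χ ^ 2 = (m : ℤ) + 1) ∧ (∀ η ∈ Y, ∀ η' ∈ Y, ∀ g : G, ¬ p ∣ orderOf g → (η : G → ℂ) g = (η' : G → ℂ) g) ∧ (∀ η ∈ Y, ∀ g : G, ¬ p ∣ orderOf g → ((((Nat.card P - 1) / m : ℕ) : ℂ) * d - δ) * (η : G → ℂ) g + ∑ᶠ χ ∈ X, (a χ : ℂ) * (χ : G → ℂ) g = 0) := by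
  classical
  haveI := H33.isMaximal_of hM
  letI := Fintype.ofFinite (P : Subgroup G)
  letI := Fintype.ofFinite (H85.autz (P : Subgroup G))
  have hB := H33.isPBlock_principalBlock (M := M) (G := G)
  have hE : Nat.card (H85.autz (P : Subgroup G)) = m := by rw [H85.card_autz, hCN]
  have hF : H85.FrobAut (P : Subgroup G) := hfrob
  obtain ⟨δ, c, ζ, a, Y, h, -, hY, h1, ha1, ha⟩ := H85.abFrob hM P hF (by rw [hE]; exact hm2)
  have hcard := h.card
  rw [hE, ← Nat.card_eq_fintype_card] at hcard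
  have hYc : Y.card = (Nat.card P - 1) / m := by
    have : Nat.card P = Nat.card (P : Subgroup G) := rfl
    rw [this, ← hcard, Nat.mul_div_cancel _ (by omega)]
  set X := H84.bset (principalBlock M G) \ Y with hX
  have hXm : ∀ χ, χ ∈ X ↔ χ ∈ principalBlock M G ∧ χ ∉ Y := fun χ => by
    rw [hX, Finset.mem_sdiff, H84.mem_bset]
  have hsum : ∀ {A : Type} [AddCommMonoid A] (f : IrrCharacter G → A), (∀ χ, a χ = 0 → f χ = 0) →
      ∑ χ ∈ Yᶜ, f χ = ∑ χ ∈ X, f χ := by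
    intro A _ f hf
    refine (Finset.sum_subset (fun χ hχ => Finset.mem_compl.2 ((hXm χ).1 hχ).2) ?_).symm
    intro χ h1 h2
    apply hf
    by_contra h0
    exact h2 ((hXm χ).2 ⟨(ha χ (Finset.mem_compl.1 h1)).1 h0, Finset.mem_compl.1 h1⟩)
  have hnorm := h.norm
  rw [hsum _ (fun χ h => by simp [h]), hE] at hnorm
  have hsec : ∀ χ ∈ principalBlock M G, ∀ (z : G) (y : (P : Subgroup G)), IsPPart p z (y : G) →
      (y : G) ≠ 1 → (χ : G → ℂ) z = H85.valOn (principalBlock M G) P χ y := fun χ hχ z y hz hy => by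
    rw [H85.valOn_of_mem _ hχ]
    exact H85.principal_section_npc hM (hF.npc P y.2 hy) hz hχ
  have hrel : ∀ g : G, ¬ p ∣ orderOf g → ∀ u : (P : Subgroup G), u ≠ 1 →
      ∑ χ : IrrCharacter G, (χ : G → ℂ) g * conj (H85.valOn (principalBlock M G) P χ u) = 0 := by
    intro g hg u hu
    rw [H85.sum_mul_conj_valOn]
    refine H33.col_eq_zero hM hB ?_
    rw [H35.pPart_eq_one hg, H35.pPart_eq_self (H35.isPElt_of_mem P.isPGroup' u.2), isConj_one_right]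
    exact fun h => hu (Subtype.ext h)
  refine ⟨X.card, X, Y, ?_, ?_, ?_, by simp, by simp [hYc],
    ⟨_, (hXm _).2 ⟨H33.oneIrr_mem_principalBlock, h1⟩, rfl⟩, a, c, δ, ζ, h.sign,
    fun χ hχ => ⟨(ha χ ((hXm χ).1 hχ).2).2 ((hXm χ).1 hχ).1, fun z y hz hy hy1 => ?_⟩,
    fun ψ hψ => (h.mem _).2 ⟨ψ, hψ, rfl⟩, fun η hη => (h.mem _).1 hη, fun ψ ψ' hψ hψ' => ?_,
    fun ψ hψ z y hz hy => ?_, ?_, fun η hη η' hη' g hg => (h.rel _ (hrel g hg)).1 η hη η' hη',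
    fun η hη g hg => ?_⟩
  · have h2 : (X.card : ℤ) ≤ ∑ χ ∈ X, a χ ^ 2 := by
      rw [Finset.card_eq_sum_ones]
      push_cast
      refine Finset.sum_le_sum fun χ hχ => ?_
      have := (ha χ ((hXm χ).1 hχ).2).2 ((hXm χ).1 hχ).1
      exact (one_le_sq_iff_one_le_abs _).2 (Int.one_le_abs this)
    have h3 : (2 : ℤ) ≤ Y.card := by exact_mod_cast h.two_le
    have h4 : 1 ≤ (c - δ) ^ 2 + ((Y.card : ℤ) - 1) * c ^ 2 := by
      by_cases hc : c = 0
      · rcases h.sign with h | h <;> simp [h, hc]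
      · have := (one_le_sq_iff_one_le_abs _).2 (Int.one_le_abs hc)
        nlinarith [sq_nonneg (c - δ)]
    have : (X.card : ℤ) ≤ m := by linarith
    exact_mod_cast this
  · rw [← Finset.coe_union, hX, Finset.sdiff_union_of_subset hY, H84.coe_bset]
  · exact Finset.disjoint_coe.2 Finset.sdiff_disjoint
  · rw [hsec χ ((hXm χ).1 hχ).1 z ⟨y, hy⟩ hz hy1]
    exact h.const χ ((hXm χ).1 hχ).2 _ fun h => hy1 (congrArg Subtype.val h)
  · obtain ⟨e, he, rfl⟩ := (H85.conj_rel_iff ψ ψ').1 hψ'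
    exact ((h.eq_iff ψ _ hψ (H85.cmp_ne_one hψ e)).2 ⟨e, he, rfl⟩).symm
  · rw [H85.finsum_conj_rel hF hψ, hsec _ (H84.mem_bset.1 (hY ((h.mem _).2 ⟨ψ, hψ, rfl⟩))) z y hz hy]
    exact h.val ψ hψ y fun h => hy (congrArg Subtype.val h)
  · rw [finsum_mem_coe_finset, ← hnorm, hYc]
    push_cast [Nat.cast_sub (show 1 ≤ Nat.card P by omega)]
    rfl
  · have := (h.rel _ (hrel g hg)).2 η hη
    rw [hsum _ (fun χ h => by simp [h]), hYc] at this
    rw [finsum_mem_coe_finset]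
    exact this

end Cfsg.Agent.S4709
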