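import Mathlib
import Cfsg.Statements.S4711
import Cfsg.Agent.Lib.Blk88.TateLin
import Cfsg.Agent.S4432
import Cfsg.Agent.Lib.FGS.PLength
import Cfsg.Agent.Lib.Transfer.NormalComplement
import Cfsg.Agent.Lib.Char.Clifford

set_option autoImplicit false
open Cfsg

namespace Cfsg.Agent.S4711

open Finset H84 H35

theorem sum_deg_mul_inner {R : Type*} [Group R] [Fintype R] {p : ℕ} [hp : Fact p.Prime]
    {M : Ideal AlgInt} (hM : IsPModular p M) {B : Set (IrrCharacter R)} (hB : IsPBlock M B)
    {S : Subgroup R} [Fintype S] (hS : IsPGroup p S) (f : S → ℂ) (hf : f 1 = 1) :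
    ∑ ψ ∈ bset B, (ψ : R → ℂ) 1 * classInner (fun s : S => (ψ : R → ℂ) s) f =
      (Nat.card S : ℂ)⁻¹ * ∑ ψ ∈ bset B, (ψ : R → ℂ) 1 * (ψ : R → ℂ) 1 := by
  classical
  haveI := hM.2.1
  have h0 : ∀ s : S, s ≠ 1 → ∑ ψ ∈ bset B, (ψ : R → ℂ) 1 * (ψ : R → ℂ) s = 0 := fun s hs => by
    have h := H34.blockCoeff_eq_zero_of_dvd hM B (fun g => H33.blockCoeff_mem_O hB g)
      (g := (s : R)⁻¹) ((isPElt_of_mem hS s.2).inv.dvd_orderOf
        (inv_ne_one.2 fun e => hs (Subtype.ext e)))
    rw [H84.blockCoeff_eq, mul_eq_zero] at h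
    rw [← h.resolve_left (inv_ne_zero H6.card_ne_zero)]
    refine sum_congr rfl fun ψ _ => ?_
    rw [← H6.char_inv (irr_char ψ), inv_inv]
  simp only [H6.classInner_def, mul_sum]
  rw [sum_comm, sum_eq_single (1 : S)]
  · refine sum_congr rfl fun ψ _ => ?_
    rw [hf, map_one, OneMemClass.coe_one]; ring
  · intro s _ hs
    have : ∑ ψ ∈ bset B, (ψ : R → ℂ) 1 * ((Nat.card S : ℂ)⁻¹ * ((ψ : R → ℂ) s * starRingEnd ℂ (f s))) =
        (Nat.card S : ℂ)⁻¹ * starRingEnd ℂ (f s) * ∑ ψ ∈ bset B, (ψ : R → ℂ) 1 * (ψ : R → ℂ) s := by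
      rw [mul_sum]; exact sum_congr rfl fun ψ _ => by ring
    rw [this, h0 s hs, mul_zero]
  · simp

theorem npc {R : Type*} [Group R] [Fintype R] {p : ℕ} [hp : Fact p.Prime]
    {M : Ideal AlgInt} (hM : IsPModular p M) (S : Sylow p R) [Fintype (S : Subgroup R)]
    (h : ∀ ψ ∈ principalBlock M R,
      classInner (fun s : (S : Subgroup R) => (ψ : R → ℂ) s) (fun _ => 1) ≠ 0 → ψ = irrOne R) :
    HasNormalPComplement p R := by
  classical
  haveI := hM.2.1
  haveI := H4.pResidual_normal p R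
  rw [H4.hasNormalPComplement_iff_of_pResidual_le (le_refl (pResidual p R))]
  refine H88.tate_of_hom S _ fun x hx lam => ?_
  have h1 := sum_deg_mul_inner hM (isPBlock_principal (M := M) (G := R)) S.isPGroup' (fun _ => 1) rfl
  have h2 := sum_deg_mul_inner hM (isPBlock_principal (M := M) (G := R)) S.isPGroup'
    (fun s => (lam s : ℂ)) (by simp)
  rw [sum_eq_single_of_mem (irrOne R) (mem_bset.2 irrOne_mem_principal) fun ψ hψ hne => by
    rw [not_not.1 fun e => hne (h ψ (mem_bset.1 hψ) e), mul_zero]] at h1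
  simp only [irrOne_coe, H6.classInner_one_one, mul_one] at h1
  rw [← h1] at h2
  have hn : ∀ ψ : IrrCharacter R, ∃ n : ℕ,
      classInner (fun s : (S : Subgroup R) => (ψ : R → ℂ) s) (fun s => (lam s : ℂ)) = n :=
    fun ψ => H6.char_inner_nat (H7.isCharacter_res (irr_char ψ) _) (H6.isCharacter_hom lam)
  choose n hn using hn
  simp only [hn, ← cast_deg] at h2
  have h3 : ∑ ψ ∈ bset (principalBlock M R), charDegree (ψ : R → ℂ) * n ψ = 1 := by
    exact_mod_cast h2
  obtain ⟨ψ, hψ, h4⟩ := exists_ne_zero_of_sum_ne_zero (h3 ▸ one_ne_zero)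
  have h5 := single_le_sum (f := fun ψ : IrrCharacter R => charDegree (ψ : R → ℂ) * n ψ)
    (fun _ _ => Nat.zero_le _) hψ
  have h6 : charDegree (ψ : R → ℂ) * n ψ = 1 := by omega
  obtain ⟨μ, hμ⟩ := H6.exists_hom_of_char_one_eq_one (irr_char ψ)
    (by rw [← cast_deg, Nat.eq_one_of_mul_eq_one_right h6, Nat.cast_one])
  have h7 := hn ψ
  rw [Nat.eq_one_of_mul_eq_one_left h6, hμ] at h7
  have h8 := H6.hom_inner (μ.comp (S : Subgroup R).subtype) lam
  have h9 : μ.comp (S : Subgroup R).subtype = lam := by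
    by_contra hne
    rw [if_neg hne] at h8
    exact one_ne_zero (Nat.cast_one.symm.trans (h7.symm.trans h8))
  rw [← h9]
  show μ x = 1
  have hk : pResidual p R ≤ (μ ^ ordCompl[p] (Nat.card R)).ker := H4.pResidual_le_iff.2 fun g hg => by
    rw [MonoidHom.mem_ker, MonoidHom.pow_apply, ← map_pow, orderOf_dvd_iff_pow_eq_one.1
      (Nat.dvd_ordCompl_of_dvd_not_dvd (orderOf_dvd_natCard g)
        ((Nat.Prime.coprime_iff_not_dvd hp.out).1 hg.symm)), map_one]
  have h10 := hk hx
  rw [MonoidHom.mem_ker, MonoidHom.pow_apply] at h10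
  refine ((isPElt_of_mem S.isPGroup' x.2).map μ).eq_one_of_not_dvd fun hd => ?_
  exact Nat.not_dvd_ordCompl hp.out Nat.card_pos.ne' (hd.trans (orderOf_dvd_of_pow_eq_one h10))


/-- Let p be a prime, M a maximal ideal of the algebraic integers containing p, G a finite group, P a Sylow p-subgroup and N = N_G(P). Then G has p-length 1 (G = O_{p',p,p'}(G)) if and only if every irreducible character in the principal p-block of G restricts to an irreducible character of N. -/
theorem result {G : Type*} [Group G] [Finite G] (p : ℕ) [Fact p.Prime] (M : Ideal Cfsg.AlgInt) (hM : Cfsg.IsPModular p M) (P : Sylow p G) : Cfsg.PLengthLE p 1 G ↔ ∀ χ ∈ Cfsg.principalBlock M G, Cfsg.IsIrrCharacter ↥(Subgroup.normalizer ((P : Subgroup G) : Set G)) (fun n : ↥(Subgroup.normalizer ((P : Subgroup G) : Set G)) => (χ : G → ℂ) n) := by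
  classical
  haveI := hM.2.1
  haveI := Fintype.ofFinite G
  have hp := (Fact.out : p.Prime)
  constructor
  · intro h χ hχ
    obtain ⟨ψ, rfl⟩ := exists_infl (N := pPrimeCore p G) fun n hn =>
      H34.principal_apply_of_mem_pPrimeCore hM hχ hn
    refine H6.isIrrCharacter_comp_surjective
      ((QuotientGroup.mk' (pPrimeCore p G)).comp (Subgroup.subtype _)) ?_ ψ.2
    have h3 := H76.relQ_ups (p := p) (G := G) 1
    rw [H76.pLengthLE_iff.1 h, show 2 * 1 = 2 from rfl, H76.ups_two] at h3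
    have hPL : (P : Subgroup G) ≤ pPrimePCore p G := fun x hx => by
      obtain ⟨m, hm, hxm⟩ := h3 x trivial
      obtain ⟨k, hk⟩ := isPElt_iff_pow.1 (isPElt_of_mem P.isPGroup' hx)
      exact H76.mem_of_pow_mem_of_coprime (hm.pow_right k) hxm (hk ▸ Subgroup.one_mem _)
    have hmap : (P : Subgroup G).map (QuotientGroup.mk' (pPrimeCore p G)) =
        pCore p (G ⧸ pPrimeCore p G) :=
      le_antisymm (H23.map_mk'_pPrimePCore (p := p) (G := G) ▸ Subgroup.map_mono hPL)
        (H76.pCore_le_map_sylow (QuotientGroup.mk'_surjective _) P)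
    have := H23.map_normalizer_of_isPGroup (QuotientGroup.mk'_surjective (pPrimeCore p G))
      H23.coprime_card_ker_mk'_pPrimeCore P.isPGroup'
    rw [hmap, Subgroup.normalizer_eq_top (pCore p (G ⧸ pPrimeCore p G))] at this
    intro q
    obtain ⟨x, hx, e⟩ := this.ge (Subgroup.mem_top q)
    exact ⟨⟨x, hx⟩, e⟩
  · intro h
    let R := Subgroup.normalClosure ((P : Subgroup G) : Set G)
    have hPR : (P : Subgroup G) ≤ R := Subgroup.le_normalClosure
    have hR : HasNormalPComplement p R := by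
      refine npc hM (P.subtype hPR) fun ψ hψ h0 => ?_
      obtain ⟨χ, hχ, ho⟩ := Cfsg.Agent.S4432.result p M hM R _ isPBlock_principal _
        isPBlock_principal ⟨irrOne G, irrOne_mem_principal, irrOne R, irrOne_mem_principal, by
          simp only [irrOne_coe, H6.classInner_one_one]; exact one_ne_zero⟩ ψ hψ
      have h1 := H7.inner_comp_ne_zero_of_constituent
        ((P.subtype hPR : Sylow p R) : Subgroup R).subtype
        (H7.isCharacter_res (irr_char χ) R) ψ.2 ho H6.isCharacter_one h0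
      have h2 : classInner (fun s : (P : Subgroup G) => (χ : G → ℂ) s) (fun _ => 1) ≠ 0 := by
        rw [← H7.classInner_subgroupOf hPR]
        exact h1
      have hPN : (P : Subgroup G) ≤ Subgroup.normalizer ((P : Subgroup G) : Set G) :=
        Subgroup.le_normalizer
      haveI : ((P : Subgroup G).subgroupOf
        (Subgroup.normalizer ((P : Subgroup G) : Set G))).Normal := Subgroup.normal_in_normalizer
      have h3 : ∀ x ∈ (P : Subgroup G), (χ : G → ℂ) x = (χ : G → ℂ) 1 := fun x hx =>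
        H7.res_eq_const_of_inner_one_ne_zero (N := (P : Subgroup G).subgroupOf _) (h χ hχ)
          (by rw [← H7.classInner_subgroupOf hPN] at h2; exact h2) ⟨x, hPN hx⟩ hx
      have h4 : R ≤ H6.charKer (χ : G → ℂ) :=
        Subgroup.normalClosure_le_normal fun x hx => (H6.mem_charKer (irr_char χ)).2 (h3 x hx)
      have h5 : (fun n : R => (χ : G → ℂ) n) = (χ : G → ℂ) 1 • (irrOne R : R → ℂ) := by
        funext n
        rw [(H6.mem_charKer (irr_char χ)).1 (h4 n.2)]
        simp [irrOne_coe]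
      rw [h5, H6.classInner_smul_left] at ho
      by_contra hne
      exact ho (by
        rw [H6.irr_inner_ne (irrOne R).2 ψ.2 fun e => hne (Subtype.ext e.symm), mul_zero])
    have hK : (pResidual p R).map R.subtype ≤ pPrimeCore p G := by
      haveI := H4.pResidual_characteristic p R
      exact H1.le_pPrimeCore (hp.coprime_iff_not_dvd.2
        ((H4.hasNormalPComplement_iff_card_map R).1 hR)).symm
    have hRL : R ≤ pPrimePCore p G := H76.le_pPrimePCore_iff.2 fun x hx => by
      obtain ⟨k, hk⟩ := H4.exists_pow_mem_pResidual (⟨x, hx⟩ : R) p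
      exact ⟨k, hK ⟨_, hk, rfl⟩⟩
    rw [H76.pLengthLE_iff, eq_top_iff, H76.le_ups_odd_iff, show 2 * 1 = 2 from rfl, H76.ups_two]
    intro x _
    refine ⟨R.index, H4.coprime_index_of_sylow_le P hPR, hRL (Subgroup.pow_index_mem R x)⟩

end Cfsg.Agent.S4711
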