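import Cfsg.Statements.S4712
import Mathlib
import Cfsg.Agent.Lib.Blk86.IBr
import Cfsg.Agent.Lib.Block.PConj

set_option autoImplicit false
open Cfsg

namespace Cfsg.Agent.S4712

set_option linter.style.haveILetI false
set_option linter.unusedVariables false

open H86 H33 H84 H35 MonoidAlgebra
open scoped ComplexConjugate
attribute [local irreducible] H33.instFieldF

theorem exists_gen (p : ℕ) [hp : Fact p.Prime] (hodd : p ≠ 2) (a : ℕ) :
    ∃ k : ℕ, ¬ p ∣ k ∧ ∀ k' : ℕ, ¬ p ∣ k' → ∃ i, k' ≡ k ^ i [MOD p ^ a] := by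
  rcases Nat.eq_zero_or_pos a with rfl | ha
  · exact ⟨1, hp.out.not_dvd_one, fun k' _ => ⟨0, by rw [pow_zero, pow_zero]; exact Nat.modEq_one⟩⟩
  haveI := ZMod.isCyclic_units_of_prime_pow p hp.out hodd a
  haveI : NeZero (p ^ a) := ⟨pow_ne_zero _ hp.out.ne_zero⟩
  obtain ⟨γ, hγ⟩ := IsCyclic.exists_monoid_generator (α := (ZMod (p ^ a))ˣ)
  refine ⟨(γ : ZMod (p ^ a)).val, fun h => ?_, fun k' hk' => ?_⟩
  · have := ZMod.val_coe_unit_coprime γ
    exact hp.out.one_lt.ne' (Nat.eq_one_of_dvd_coprimes this h (dvd_pow_self p ha.ne'))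
  · obtain ⟨i, hi⟩ := hγ (ZMod.unitOfCoprime k'
      (((Nat.Prime.coprime_iff_not_dvd hp.out).2 hk').symm.pow_right a))
    refine ⟨i, (ZMod.natCast_eq_natCast_iff _ _ _).1 ?_⟩
    have := congrArg (fun x : (ZMod (p ^ a))ˣ => (x : ZMod (p ^ a))) hi
    simp only [Units.val_pow_eq_pow_val, ZMod.coe_unitOfCoprime] at this
    rw [← this, Nat.cast_pow, ZMod.natCast_zmod_val]

variable {G : Type*} [Group G] [Fintype G] {p : ℕ} [hp : Fact p.Prime] {M : Ideal AlgInt}
  [M.IsMaximal] {B : Set (IrrCharacter G)}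

theorem sum_inner_comp (hM : IsPModular p M) (hB : IsPBlock M B) {α : G →* G}
    (hα : Function.Injective α) : ∃ n : ℕ, ∑ ψ ∈ bset B,
      classInner (fun g => pRegularPart p (ψ : G → ℂ) (α g)) ψ = n := by
  obtain ⟨W⟩ := H64.MR.exists_wedd (F M) G
  choose r hr using fun j : Fin W.n => chiL_phi_nat hM j ((emb_mem_OG hα).2 (ide_mem j))
    (by rw [← map_mul, ide_idem])
  refine ⟨∑ j ∈ ibr W B, r j, ?_⟩
  have h1 : ∀ ψ ∈ bset B, classInner (fun g => pRegularPart p (ψ : G → ℂ) (α g)) ψ =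
      ∑ j ∈ ibr W B, classInner (fun g => phi p W j (α g)) ((dec W ψ j : ℂ) • (ψ : G → ℂ)) := by
    intro ψ hψ
    have : (fun g => pRegularPart p (ψ : G → ℂ) (α g)) =
        ∑ j ∈ ibr W B, (dec W ψ j : ℂ) • fun g => phi p W j (α g) := by
      funext g
      rw [reg_irr_eq_sum_ibr W hM hB (mem_bset.1 hψ), Finset.sum_apply, Finset.sum_apply]
      rfl
    rw [this, H6.classInner_sum_left]
    simp only [H6.classInner_smul_left, H6.classInner_smul_right, map_natCast]
  rw [Finset.sum_congr rfl h1, Finset.sum_comm, Nat.cast_sum]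
  refine Finset.sum_congr rfl fun j hj => ?_
  rw [← H6.classInner_sum_right, ← Phi_eq_sum_bset hB hj,
    inner_Phi (H6.isClassFunction_comp α (phi_class hM j)), ← hr, H85.chiL_emb]

theorem sum_sec (hM : IsPModular p M) (hB : IsPBlock M B) {u : G} (hu : IsPElt p u)
    {C : Subgroup G} [Fintype C] (hC : IsCen u C) {s t : C} (hs : ¬ p ∣ orderOf s)
    (ht : ¬ p ∣ orderOf t) : ∑ χ ∈ bset B, (χ : G → ℂ) (u * t) * conj ((χ : G → ℂ) (u * s)) =
      ∑ b ∈ indBlocks M C B, ∑ ψ ∈ bset b, (ψ : C → ℂ) t * conj ((ψ : C → ℂ) s) := by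
  have h1 : ∀ χ ∈ bset B, ∀ s : C, ¬ p ∣ orderOf s →
      (χ : G → ℂ) (u * s) = ∑ b ∈ indBlocks M C B, sub p u C b χ s := fun χ hχ s hs => by
    rw [← Finset.sum_apply, sum_indBlocks_sub hM hu hC hB (mem_bset.1 hχ), reg_of_reg _ hs]; rfl
  rw [Finset.sum_congr rfl fun χ hχ => by
    rw [h1 χ hχ t ht, h1 χ hχ s hs, map_sum, Finset.sum_mul_sum, Finset.sum_comm], Finset.sum_comm]
  refine Finset.sum_congr rfl fun b hb => ?_
  rw [Finset.sum_comm, Finset.sum_eq_single b (fun b' hb' hne => sum_sub_mul_conj_of_ne hM hu hC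
    (mem_indBlocks.1 hb) (mem_indBlocks.1 hb').1 hne s t) (fun h => absurd hb h),
    sum_sub_mul_conj hM hu hC (mem_indBlocks.1 hb) s ht]

open Classical in
theorem sum_fiber (hM : IsPModular p M) (hB : IsPBlock M B) {k : ℕ}
    (hk : k.Coprime (Nat.card G)) (hk1 : k ≡ 1 [MOD ordCompl[p] (Nat.card G)]) (u : G) :
    ∃ n : ℕ, ∑ g ∈ Finset.univ.filter (fun g : G => pPart p g = u),
      ∑ χ ∈ bset B, (χ : G → ℂ) (g ^ k) * conj ((χ : G → ℂ) g) = n := by
  by_cases hu : IsPElt p u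
  swap
  · refine ⟨0, ?_⟩
    rw [Finset.filter_false_of_mem fun g _ (h : pPart p g = u) => hu (h ▸ isPElt_pPart p g),
      Finset.sum_empty,
      Nat.cast_zero]
  by_cases hc : IsConj u (u ^ k)
  swap
  · refine ⟨0, ?_⟩
    rw [Nat.cast_zero]
    refine Finset.sum_eq_zero fun g hg => ?_
    rw [← finsum_mem_eq]
    refine H34.finsum_mul_conj_eq_zero hM B (H33.blockCoeff_mem_O hB) fun h => hc ?_
    rw [pPart_pow, (Finset.mem_filter.1 hg).2] at h
    exact h.symm
  obtain ⟨y, hy⟩ := isConj_iff.1 hc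
  have hC := isCen_singleton u
  set C := Subgroup.centralizer ({u} : Set G) with hCdef
  have hyC : ∀ s ∈ C, y⁻¹ * s * y ∈ C := fun s hs => by
    have h1 : Commute (y * u * y⁻¹) s := hy ▸ ((hC s).1 hs).pow_left k
    rw [hC]
    have := h1.eq
    calc u * (y⁻¹ * s * y) = y⁻¹ * (y * u * y⁻¹ * s) * y := by group
      _ = y⁻¹ * s * y * u := by rw [this]; group
  let α : C →* C := MonoidHom.mk' (fun s => ⟨y⁻¹ * s * y, hyC s s.2⟩) fun a b =>
    Subtype.ext (by simp only [Subgroup.coe_mul]; group)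
  have hα : Function.Injective α := fun a b h => Subtype.ext (by
    have : y⁻¹ * a * y = y⁻¹ * b * y := congrArg Subtype.val h
    simpa using this)
  have hord : ∀ s : C, orderOf (α s) = orderOf s := fun s => orderOf_injective α hα s
  choose! n hn using fun b (hb : b ∈ indBlocks M C B) =>
    sum_inner_comp hM (mem_indBlocks.1 hb).1 hα
  refine ⟨Nat.card C * ∑ b ∈ indBlocks M C B, n b, ?_⟩
  rw [sum_filter_pPart_eq p hu]
  have h1 : ∀ s ∈ Finset.univ.filter (fun s : C => ¬ p ∣ orderOf s),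
      ∑ χ ∈ bset B, (χ : G → ℂ) ((u * s) ^ k) * conj ((χ : G → ℂ) (u * s)) =
      ∑ b ∈ indBlocks M C B, ∑ ψ ∈ bset b, (ψ : C → ℂ) (α s) * conj ((ψ : C → ℂ) s) := by
    intro s hs
    have hs' := (Finset.mem_filter.1 hs).2
    rw [← sum_sec hM hB hu hC hs' (by rwa [hord])]
    refine Finset.sum_congr rfl fun χ _ => ?_
    congr 1
    rw [(hC.comm s).mul_pow, pow_eq_of_reg hk1 (g := (s : G)) (by rwa [Subgroup.orderOf_coe]), ← hy,
      ← irr_class χ (u * α s) y]
    refine congrArg (χ : G → ℂ) ?_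
    change _ = y * (u * (y⁻¹ * s * y)) * y⁻¹
    group
  rw [Finset.sum_congr rfl h1, Finset.sum_comm, Nat.cast_mul, Nat.cast_sum, Finset.mul_sum]
  refine Finset.sum_congr rfl fun b hb => ?_
  rw [← hn b hb, Finset.sum_comm, Finset.mul_sum]
  refine Finset.sum_congr rfl fun ψ _ => ?_
  rw [H6.card_mul_classInner, Finset.sum_filter]
  refine Finset.sum_congr rfl fun s _ => ?_
  rw [reg_apply, hord]
  split_ifs <;> simp

open Classical in
theorem rank_le (hM : IsPModular p M) (hB : IsPBlock M B) {k : ℕ}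
    (hk : k.Coprime (Nat.card G)) (hk1 : k ≡ 1 [MOD ordCompl[p] (Nat.card G)]) :
    blockRank p B ≤ ((bset B).filter fun χ : IrrCharacter G =>
      ∀ g, (χ : G → ℂ) (g ^ k) = (χ : G → ℂ) g).card := by
  choose n hn using sum_fiber hM hB hk hk1
  have h1 : ((((bset B).filter fun χ : IrrCharacter G =>
      ∀ g, (χ : G → ℂ) (g ^ k) = (χ : G → ℂ) g).card : ℕ) : ℂ) =
      ∑ χ ∈ bset B, classInner (fun g => (χ : G → ℂ) (g ^ k)) χ := by
    rw [Finset.card_filter, Nat.cast_sum]
    refine Finset.sum_congr rfl fun χ _ => ?_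
    rw [H6.irr_inner (H8.isIrrCharacter_pow χ.2 hk) χ.2]
    simp only [funext_iff]
    split_ifs <;> simp
  have h2 : (Nat.card G : ℂ) * ∑ χ ∈ bset B, classInner (fun g => (χ : G → ℂ) (g ^ k)) χ =
      ∑ u, (n u : ℂ) := by
    simp only [← hn, Finset.mul_sum, H6.card_mul_classInner]
    rw [Finset.sum_comm]
    exact (Finset.sum_fiberwise Finset.univ (pPart p) _).symm
  have h3 : (n 1 : ℂ) = Nat.card G * blockRank p B := by
    rw [← hn, blockRank_eq_sum hM hB, Finset.sum_comm, Finset.mul_sum]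
    refine Finset.sum_congr rfl fun χ _ => ?_
    rw [H6.card_mul_classInner, Finset.sum_filter]
    refine Finset.sum_congr rfl fun g _ => ?_
    rw [reg_apply]
    by_cases hg : p ∣ orderOf g
    · rw [if_pos hg, if_neg ((pPart_ne_one_iff p).2 hg), zero_mul]
    · rw [if_neg hg, if_pos ((pPart_eq_one_iff p).2 hg), pow_eq_of_reg hk1 hg]
  rw [← h1] at h2
  rw [← Nat.cast_mul, ← Nat.cast_sum] at h2
  have h4 := Nat.cast_injective (R := ℂ) h2
  have h5 : n 1 = Nat.card G * blockRank p B := by exact_mod_cast h3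
  refine Nat.le_of_mul_le_mul_left ?_ (Nat.card_pos (α := G))
  rw [h4, ← h5]
  exact Finset.single_le_sum (fun _ _ => Nat.zero_le _) (Finset.mem_univ 1)

/-- Let p be an odd prime, M a maximal ideal of the algebraic integers containing p, G a finite group of order n with p-part p^a, and B a p-block of G. Call an irreducible character χ p-rational when χ(g^k) = χ(g) for every g and every k coprime to n with k ≡ 1 modulo n/p^a (χ is fixed by the Galois automorphisms fixing the roots of unity of order prime to p). Then the number of p-rational irreducible characters in B is at least the p-regular rank of B (the number of irreducible Brauer characters in B). -/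
theorem result {G : Type*} [Group G] [Finite G] (p : ℕ) [Fact p.Prime] (hodd : p ≠ 2) (M : Ideal Cfsg.AlgInt) (hM : Cfsg.IsPModular p M) (B : Set (Cfsg.IrrCharacter G)) (hB : Cfsg.IsPBlock M B) : Cfsg.blockRank p B ≤ Nat.card {χ : Cfsg.IrrCharacter G // χ ∈ B ∧ ∀ k : ℕ, Nat.Coprime k (Nat.card G) → k ≡ 1 [MOD Nat.card G / p ^ (Nat.card G).factorization p] → ∀ g : G, (χ : G → ℂ) (g ^ k) = (χ : G → ℂ) g} := by
  classical
  haveI := isMaximal_of hM
  haveI := Fintype.ofFinite G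
  have hp : p.Prime := Fact.out
  obtain ⟨k₀, hk₀, hgen⟩ := exists_gen p hodd ((Nat.card G).factorization p)
  obtain ⟨-, k, hk, hk1, hk2, -⟩ := exists_fix_modEq (G := G) hk₀
  refine (rank_le hM hB hk hk1).trans (le_of_eq ?_)
  rw [← Fintype.card_coe, ← Nat.card_eq_fintype_card]
  refine Nat.card_congr (Equiv.subtypeEquivRight fun χ => ?_)
  rw [Finset.mem_filter, mem_bset]
  refine and_congr_right fun _ => ⟨fun h k' hk' hk1' g => ?_, fun h => h k hk hk1⟩
  have h1 : ∀ i g, (χ : G → ℂ) (g ^ k ^ i) = (χ : G → ℂ) g := fun i => by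
    induction i with
    | zero => simp
    | succ i ih => intro g; rw [pow_succ, pow_mul, h, ih]
  have h2 : ∃ i, k' ≡ k₀ ^ i [MOD ordProj[p] (Nat.card G)] := by
    by_cases ha : (Nat.card G).factorization p = 0
    · exact ⟨0, by rw [ha, pow_zero]; exact Nat.modEq_one⟩
    · refine hgen k' fun hd => hp.one_lt.ne' (Nat.eq_one_of_dvd_coprimes hk' hd ?_)
      exact Nat.dvd_of_factorization_pos ha
  obtain ⟨i, hi⟩ := h2
  have h3 : k' ≡ k ^ i [MOD Nat.card G] := by
    rw [← Nat.ordProj_mul_ordCompl_eq_self (Nat.card G) p,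
      ← Nat.modEq_and_modEq_iff_modEq_mul (Nat.coprime_ordCompl hp Nat.card_pos.ne' |>.pow_left _)]
    exact ⟨hi.trans (hk2.pow i).symm, hk1'.trans (by simpa using (hk1.pow i).symm)⟩
  rw [← h1 i g, pow_eq_pow_iff_modEq.2 (h3.of_dvd (orderOf_dvd_natCard g))]

end Cfsg.Agent.S4712
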