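import Mathlib
import Cfsg.Statements.S4713
import Cfsg.Agent.Lib.Deg.Ito

set_option autoImplicit false
open Cfsg

namespace Cfsg.Agent.S4713



/-- Let p be a prime and G a finite p-solvable group. Then G has a normal abelian Sylow p-subgroup if and only if the degree of every irreducible character of G is prime to p. -/
theorem result {G : Type*} [Group G] [Finite G] (p : ℕ) [Fact p.Prime] (hsolv : Cfsg.IsPSolvable p G) (P : Sylow p G) : ((P : Subgroup G).Normal ∧ IsMulCommutative P) ↔ ∀ χ : Cfsg.IrrCharacter G, ¬ p ∣ Cfsg.charDegree (χ : G → ℂ) := by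
  have hp : p.Prime := Fact.out
  refine ⟨fun ⟨h1, h2⟩ χ hd => P.not_dvd_index (hd.trans (H87.deg_dvd_index_of_comm (P : Subgroup G)
    (fun a ha b hb => congrArg Subtype.val (h2.is_comm.comm ⟨a, ha⟩ ⟨b, hb⟩)) χ.2)), fun h => ?_⟩
  have := H87.sylow_normal_of_not_dvd_deg (H3.isPiSeparable_of_isPSolvable hp hsolv)
    (fun χ hχ => h ⟨χ, hχ⟩) P
  exact ⟨this, ⟨⟨fun a b => Subtype.ext (H87.comm_of_normal_of_not_dvd P.isPGroup'
    (fun χ hχ => h ⟨χ, hχ⟩) a a.2 b b.2)⟩⟩⟩

end Cfsg.Agent.S4713
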