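import Cfsg.Statements.S4714
import Mathlib
import Cfsg.Agent.Base
import Cfsg.Agent.Lib.Block.Canon

set_option autoImplicit false
open Cfsg

namespace Cfsg.Agent.S4714

/-- Let p be a prime, M a maximal ideal of the algebraic integers containing p, D a p-subgroup of the finite group G with G = D·C_G(D), and B a p-block with defect group D. Let χ be a member of B having D in its kernel (there is exactly one, the canonical character of B). Then the irreducible characters in B are exactly the functions θ on G for which there is an irreducible character ζ of D such that θ(yx) = ζ(y)χ(x) whenever y ∈ D, x has order prime to p and x commutes with y, and θ(z) = 0 whenever the p-part of z does not lie in D. -/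
theorem result {G : Type*} [Group G] [Finite G] (p : ℕ) [Fact p.Prime] (M : Ideal Cfsg.AlgInt) (hM : Cfsg.IsPModular p M) (D : Subgroup G) (hD : IsPGroup p D) (hG : D ⊔ Subgroup.centralizer (D : Set G) = ⊤) (B : Set (Cfsg.IrrCharacter G)) (hB : Cfsg.IsPBlock M B) (hBD : Cfsg.IsDefectGroup p M B D) (χ : Cfsg.IrrCharacter G) (hχ : χ ∈ B) (hχD : ∀ y ∈ D, (χ : G → ℂ) y = (χ : G → ℂ) 1) : (∀ θ : Cfsg.IrrCharacter G, θ ∈ B ↔ ∃ ζ : Cfsg.IrrCharacter D, (∀ (y : D) (x : G), ¬ p ∣ orderOf x → Commute (y : G) x → (θ : G → ℂ) ((y : G) * x) = (ζ : D → ℂ) y * (χ : G → ℂ) x) ∧ (∀ z : G, (∀ y : G, Cfsg.IsPPart p z y → y ∉ D) → (θ : G → ℂ) z = 0)) ∧ ∀ ζ : Cfsg.IrrCharacter D, ∃ θ ∈ B, (∀ (y : D) (x : G), ¬ p ∣ orderOf x → Commute (y : G) x → (θ : G → ℂ) ((y : G) * x) = (ζ : D → ℂ) y * (χ : G → ℂ) x) ∧ (∀ z : G, (∀ y : G, Cfsg.IsPPart p z y → y ∉ D) → (θ : G → ℂ) z = 0) := by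
  haveI := H33.isMaximal_of hM
  haveI := Fintype.ofFinite G
  have hb := H35.isBase_of_canonical hM hG hB hBD hχ hχD
  have key : ∀ (θ : IrrCharacter G) (ζ : IrrCharacter D), θ = hb.canonI hM hD hG ζ ↔
      (∀ (y : D) (x : G), ¬ p ∣ orderOf x → Commute (y : G) x →
        (θ : G → ℂ) ((y : G) * x) = (ζ : D → ℂ) y * (χ : G → ℂ) x) ∧
      (∀ z : G, (∀ y : G, IsPPart p z y → y ∉ D) → (θ : G → ℂ) z = 0) := by
    intro θ ζ
    constructor
    · rintro rfl
      exact ⟨fun y x hx hc => H35.canon_mul hD _ _ y hx hc,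
        fun z hz => H35.canon_of_not_mem _ _ (hz _ (H35.isPPart_pPart p z))⟩
    · rintro ⟨h1, h2⟩
      refine Subtype.ext (H35.eq_canon (fun g hg => h2 g fun y hy => ?_) h1)
      rwa [← H35.pPart_eq_of_isPPart hy]
  rw [H84.block_eq_blockOf hB hχ, hb.blockOf_eq_range hM hD hG]
  refine ⟨fun θ => ⟨?_, ?_⟩, fun ζ => ⟨_, ⟨ζ, rfl⟩, (key _ ζ).mp rfl⟩⟩
  · rintro ⟨ζ, rfl⟩
    exact ⟨ζ, (key _ ζ).mp rfl⟩
  · rintro ⟨ζ, h⟩
    exact ⟨ζ, ((key θ ζ).mpr h).symm⟩

end Cfsg.Agent.S4714
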