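import Mathlib
import Cfsg.Statements.S4715
import Cfsg.Agent.Lib.Block.MajorSum

set_option autoImplicit false
open Cfsg

namespace Cfsg.Agent.S4715

/-- Let p be a prime, M a maximal ideal of the algebraic integers containing p, B a p-block of the finite group G with defect group D of order p^d, H = D·C_G(D), b a block of H inducing B, T the stabilizer of b in N_G(D) and e = [T : H] the inertial index of B; let n be the integer with p^n ≤ e < p^(n+1) and p^c the order of the centre of D. Then every irreducible character in B has height h with h + c ≤ n + d. -/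
theorem result {G : Type*} [Group G] [Finite G] (p : ℕ) [Fact p.Prime] (M : Ideal Cfsg.AlgInt) (hM : Cfsg.IsPModular p M) (B : Set (Cfsg.IrrCharacter G)) (hB : Cfsg.IsPBlock M B) (D : Subgroup G) (hBD : Cfsg.IsDefectGroup p M B D) (d : ℕ) (hDd : Nat.card D = p ^ d) (H : Subgroup G) (hH : H = D ⊔ Subgroup.centralizer (D : Set G)) (b : Set (Cfsg.IrrCharacter H)) (hind : Cfsg.IsInducedBlock M H b B) (T : Subgroup G) (hT : ∀ g : G, g ∈ T ↔ (g ∈ Subgroup.normalizer (D : Set G) ∧ ∀ θ ∈ b, ∀ θ' : Cfsg.IrrCharacter H, (∀ h h' : H, (h' : G) = g * h * g⁻¹ → (θ' : H → ℂ) h' = (θ : H → ℂ) h) → θ' ∈ b)) (e : ℕ) (he : H.relIndex T = e) (n : ℕ) (hn : p ^ n ≤ e ∧ e < p ^ (n + 1)) (c : ℕ) (hc : Nat.card (Subgroup.center D) = p ^ c) : ∀ χ ∈ B, Cfsg.blockHeight p B (χ : G → ℂ) + c ≤ n + d := by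
  intro χ hχ
  classical
  haveI := hM.2.1
  haveI := H33.charP hM
  let := Fintype.ofFinite G
  subst hH
  have hDp := H33.defect_isPGroup hBD
  have hm := (H35.pairOf_of_induced_sup hM hDp hind).isMaxPair ((H86.isDefectGroup_iff hB D).1 hBD)
  have hTe : T = H86.St ⊤ D (H86.eS M (D ⊔ H86.Cen D) b) :=
    H35.eq_St (fun g hg => by
      rw [H86.cs_sup, H86.cs_Cen, H86.mem_Nor_iff_cs.1 hg]) hind.1 hT
  have key := H34.card_center_mul_pow_height_le hM hB hm hχ
  have hp := (Fact.out : p.Prime)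
  have hd : blockDefect p B = d := by
    have := H33.defect_card hM hB hBD
    rw [hDd] at this
    exact (Nat.pow_right_injective hp.two_le this).symm
  have hZ : Nat.card (D ⊓ H86.Cen D : Subgroup G) = p ^ c := by
    rw [← hc, ← Subgroup.card_map_of_injective (K := Subgroup.center D) D.subtype_injective]
    congr 2
    ext x
    constructor
    · rintro ⟨h1, h2⟩
      exact ⟨⟨x, h1⟩, Subgroup.mem_center_iff.2 fun y => Subtype.ext (H86.mem_Cen.1 h2 y y.2), rfl⟩
    · rintro ⟨y, hy, rfl⟩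
      exact ⟨y.2, H86.mem_Cen.2 fun q hq =>
        congrArg Subtype.val (Subgroup.mem_center_iff.1 hy ⟨q, hq⟩)⟩
  rw [hZ, hd, ← hTe, he, ← pow_add] at key
  have h2 : p ^ (c + blockHeight p B (χ : G → ℂ)) < p ^ (d + (n + 1)) := by
    refine key.trans_lt ?_
    rw [pow_add]
    exact Nat.mul_lt_mul_of_pos_left hn.2 (pow_pos hp.pos _)
  have := (Nat.pow_lt_pow_iff_right hp.one_lt).1 h2
  omega

end Cfsg.Agent.S4715
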