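import Cfsg.Statements.S4717
import Mathlib
import Cfsg.Agent.Lib.Blk86.GoodF
import Cfsg.Agent.Lib.Block.Induced

set_option autoImplicit false
open Cfsg

namespace Cfsg.Agent.S4717

set_option linter.style.haveILetI false
set_option linter.unusedVariables false

open H86 H33

/-- Let p be a prime, M a maximal ideal of the algebraic integers containing p, and r a natural number; say that a finite group X has deficiency class r when X has no non-principal p-block of defect ≥ r. If G has deficiency class r then so does the centralizer of every p-element of G; conversely, if r > 0 and the centralizer of every element of order p has deficiency class r, then G has deficiency class r. -/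
theorem result {G : Type*} [Group G] [Finite G] (p : ℕ) [Fact p.Prime] (M : Ideal Cfsg.AlgInt) (hM : Cfsg.IsPModular p M) (r : ℕ) : ((∀ B' : Set (Cfsg.IrrCharacter G), Cfsg.IsPBlock M B' → B' ≠ Cfsg.principalBlock M G → Cfsg.blockDefect p B' < r) → ∀ y : G, (∃ k : ℕ, orderOf y = p ^ k) → (∀ B' : Set (Cfsg.IrrCharacter ↥(Subgroup.centralizer ({y} : Set G))), Cfsg.IsPBlock M B' → B' ≠ Cfsg.principalBlock M ↥(Subgroup.centralizer ({y} : Set G)) → Cfsg.blockDefect p B' < r)) ∧ (0 < r → (∀ y : G, orderOf y = p → (∀ B' : Set (Cfsg.IrrCharacter ↥(Subgroup.centralizer ({y} : Set G))), Cfsg.IsPBlock M B' → B' ≠ Cfsg.principalBlock M ↥(Subgroup.centralizer ({y} : Set G)) → Cfsg.blockDefect p B' < r)) → (∀ B' : Set (Cfsg.IrrCharacter G), Cfsg.IsPBlock M B' → B' ≠ Cfsg.principalBlock M G → Cfsg.blockDefect p B' < r)) := by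
  haveI := isMaximal_of hM; haveI := charP hM; haveI := good hM G
  constructor
  · intro h y hy B' hB' hne
    have hP : IsPGroup p (Subgroup.zpowers y) := H35.isPElt_iff_zpowers.1 hy
    have hC : Cen (Subgroup.zpowers y) = C1 y := Cen_zpowers y
    have hPC : Subgroup.zpowers y ≤ C1 y := by
      rw [Subgroup.zpowers_le, mem_C1]
    have hpair : Pair p ⊤ (Subgroup.zpowers y) (eS M (C1 y) B') :=
      ⟨le_top, hP, by rw [top_inf_eq, hC]; exact isBlk_eS hB'⟩
    obtain ⟨b, hb, hpo⟩ := hpair.exists_blk
    obtain ⟨B, hB, rfl⟩ := hb.exists_eB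
    have hind : Cfsg.IsInducedBlock M (C1 y) B' B :=
      (isInducedBlock_iff_br_eS hM hP hPC hC.le (hC ▸ Cen_le_Nor _) hB' hB).2 hpo.br_mul
    refine lt_of_le_of_lt (blockDefect_le_of_induced hM hind) (h B hB fun h0 => hne ?_)
    exact (eq_principal_sub_iff hB').2 (hpo.aug_ne_zero hb ((eq_principal_iff hB).1 h0))
  · intro hr h B hB hne
    by_contra hlt
    obtain ⟨D, hD⟩ := exists_defectGroup p hB
    have hcard := defect_card hM hB hD
    have hD' := (H86.isDefectGroup_iff hB D).1 hD
    have hD1 : D ≠ ⊥ := by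
      rw [Ne, ← blockDefect_eq_zero_iff_bot hM hB hD]; omega
    haveI : Nontrivial D := (Subgroup.nontrivial_iff_ne_bot D).2 hD1
    haveI := hD'.pgrp.center_nontrivial
    have hZ : IsPGroup p (Subgroup.center D) := hD'.pgrp.to_subgroup _
    obtain ⟨n, hn⟩ := IsPGroup.iff_card.1 hZ
    have hdvd : p ∣ Nat.card (Subgroup.center D) := by
      rw [hn]
      refine dvd_pow_self p fun h0 => ?_
      rw [h0, pow_zero] at hn
      exact (Finite.one_lt_card (α := Subgroup.center D)).ne' hn
    obtain ⟨z, hz⟩ := exists_prime_orderOf_dvd_card' p hdvd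
    set y : G := ((z : D) : G) with hy
    have hyo : orderOf y = p := by rw [hy, Subgroup.orderOf_coe, Subgroup.orderOf_coe, hz]
    have hyD : Subgroup.zpowers y ≤ D := by rw [Subgroup.zpowers_le]; exact (z : D).2
    have hP : IsPGroup p (Subgroup.zpowers y) := hD'.pgrp.to_le hyD
    have hC : Cen (Subgroup.zpowers y) = C1 y := Cen_zpowers y
    have hDC : D ≤ C1 y := fun d hd => by
      rw [mem_C1]
      exact congrArg Subtype.val (Subgroup.mem_center_iff.1 z.2 ⟨d, hd⟩)
    obtain ⟨e, he⟩ := hD'.exists_isMaxPair (H86.isBlk_eB hB)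
    obtain ⟨f, hf⟩ := he.toPair.exists_sub hyD
    have hfp := hf.pairOf_left (H86.isBlk_eB hB) he.toPairOf
    have hfb : IsBlk (C1 y) f := by have := hfp.blk; rwa [top_inf_eq, hC] at this
    obtain ⟨E, hE, hDE⟩ := hfb.exists_isDef_ge hDC hD'.pgrp
      (hf.br_ne_zero he.toPair le_rfl (hDC.trans (hC ▸ Cen_le_Nor _)))
    obtain ⟨B', hB', rfl⟩ := hfb.exists_eS
    have h1 := defect_card hM hB' ((isDefectGroup_subgroupOf_iff hB' hE.le).2 hE)
    rw [Nat.card_congr (Subgroup.subgroupOfEquivOfLe hE.le).toEquiv] at h1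
    have h2 := Subgroup.card_le_of_le hDE
    rw [h1, hcard, Nat.pow_le_pow_iff_right (Fact.out : p.Prime).one_lt] at h2
    refine absurd (h y hyo B' hB' fun h0 => hne ?_) (by omega)
    have h3 := (eq_principal_sub_iff hB').1 h0
    have h4 := congrArg aug hfp.br_mul
    rw [map_mul, aug_br hP ((H86.isBlk_eB hB).inv.anti le_top)] at h4
    rw [eq_principal_iff hB]
    intro h5
    rw [h5, zero_mul] at h4
    exact h3 h4.symm

end Cfsg.Agent.S4717
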