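import Mathlib
import Cfsg.Statements.S4718
import Cfsg.Agent.Lib.Char.Landau
import Cfsg.Agent.S4494
import Cfsg.Agent.Lib.Block.Reg
-- import your own Cfsg.Agent.* helpers here

set_option autoImplicit false
universe u
open Cfsg

namespace Cfsg.Agent.S4718

/-- Let p be a prime and a a natural number. There is a bound N such that every finite group whose Sylow p-subgroups have order p^a and whose only p-block (relative to a maximal ideal of the algebraic integers containing p) is the principal block has order at most N. -/
theorem result (p : ℕ) [Fact p.Prime] (a : ℕ) : ∃ N : ℕ, ∀ (G : Type u) [Group G] [Finite G] (M : Ideal Cfsg.AlgInt), Cfsg.IsPModular p M → (Nat.card G).factorization p = a → (∀ B : Set (Cfsg.IrrCharacter G), Cfsg.IsPBlock M B → B = Cfsg.principalBlock M G) → Nat.card G ≤ N := by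
  obtain ⟨N, hN⟩ := H31.landau_irr.{u} (p ^ (2 * a) + 4)
  refine ⟨N, fun G _ _ M hM ha h => hN G ?_⟩
  haveI := hM.2.1
  have h1 := Cfsg.Agent.S4494.result p M hM (principalBlock M G) H84.isPBlock_principal
  have h2 : principalBlock M G = Set.univ := by
    rw [Set.eq_univ_iff_forall]
    intro χ
    rw [← h _ (H84.isPBlock_blockOf χ)]
    exact H84.mem_blockOf_self χ
  have h3 : blockDefect p (principalBlock M G) ≤ a := by
    rw [← ha]; exact Nat.sub_le _ _
  have h4 := Nat.pow_le_pow_right (Fact.out : p.Prime).pos (Nat.mul_le_mul_left 2 h3)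
  rw [h2, Nat.card_congr (Equiv.Set.univ _)] at h1
  rw [h2] at h4
  omega

end Cfsg.Agent.S4718
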