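import Mathlib
import Cfsg.Statements.S4719
import Cfsg.Agent.Lib.Jordan.Neumann
import Cfsg.Agent.S4717
import Cfsg.Agent.S4718
import Cfsg.Agent.Lib.Blk86.Quot
import Cfsg.Agent.Lib.Wielandt.FixPoint
import Cfsg.Agent.Lib.Cls.Four
-- import your own Cfsg.Agent.* helpers here

set_option autoImplicit false
set_option linter.style.haveILetI false
set_option linter.unusedVariables false
universe u
open Cfsg

namespace Cfsg.Agent.S4719

open Subgroup

/-- Deficiency class. -/
def Defic (p : ℕ) (M : Ideal AlgInt) (G : Type*) [Group G] (r : ℕ) : Prop :=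
  ∀ B : Set (IrrCharacter G), IsPBlock M B → B ≠ principalBlock M G → blockDefect p B < r

theorem defic_quot {G : Type*} [Group G] [Finite G] {p : ℕ} [hp : Fact p.Prime]
    {M : Ideal AlgInt} (hM : IsPModular p M) {Z : Subgroup G} [Z.Normal] (hZ : Nat.card Z = p)
    (hc : Z ≤ center G) {r : ℕ} (h : Defic p M G (r + 1)) : Defic p M (G ⧸ Z) r := by
  haveI := H33.isMaximal_of hM
  intro B' hB' hne
  have hZp : IsPGroup p Z := IsPGroup.of_card (n := 1) (by rw [hZ, pow_one])
  obtain ⟨B, hB, rfl⟩ := H86.exists_quotSet_eq hM hZp (H86.pQuot_of_le_center hc) hB'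
  obtain ⟨E, hE⟩ := H33.exists_defectGroup p hB'
  have hD := H86.isDefectGroup_comap_of_quotSet hM hB hZp (H86.pQuot_of_le_center hc) hE
  have h1 := H33.defect_card hM hB hD
  rw [H1.card_comap_mk', H33.defect_card hM hB' hE, hZ] at h1
  have h2 : blockDefect p (H86.quotSet Z B) + 1 = blockDefect p B := by
    apply Nat.pow_right_injective hp.out.two_le
    simp only
    rw [← h1]; ring
  have h3 : B ≠ principalBlock M G := by
    rintro rfl
    apply hne
    refine H84.block_eq_of_mem hB' H84.isPBlock_principal (χ := H84.irrOne _) ?_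
      H84.irrOne_mem_principal
    rw [H86.mem_quotSet]
    exact H84.irrOne_mem_principal
  have := h B hB h3
  omega

theorem card_odd_le {G : Type*} [Group G] [Finite G] {s t : G} (hs : orderOf s = 2)
    (ht : orderOf t = 2) (hst : s ≠ t) (hc : s * t = t * s) (H : Subgroup G) [H.Normal]
    (hsol : Group.IsSolvable H) (hodd : (Nat.card H).Coprime 2) {m : ℕ}
    (h1 : Nat.card (centralizer ({s} : Set G)) ≤ m)
    (h2 : Nat.card (centralizer ({t} : Set G)) ≤ m)
    (h3 : Nat.card (centralizer ({s * t} : Set G)) ≤ m) : Nat.card H ≤ m ^ 3 := by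
  classical
  have hs1 : s ≠ 1 := by rintro rfl; simp at hs
  have ht1 : t ≠ 1 := by rintro rfl; simp at ht
  have hss : s * s = 1 := by rw [← sq, ← hs, pow_orderOf_eq_one]
  have htt : t * t = 1 := by rw [← sq, ← ht, pow_orderOf_eq_one]
  have hst1 : s * t ≠ 1 := fun h => hst (mul_left_cancel (hss.trans h.symm))
  have hstst : s * t * (s * t) = 1 := by
    rw [mul_assoc, ← mul_assoc t, ← hc, mul_assoc, htt, mul_one, hss]
  have hsto : orderOf (s * t) = 2 := orderOf_eq_prime (by rw [sq, hstst]) hst1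
  have hV := H19.isKleinFour_closure_pair hs1 ht1 hst hss htt hc
  set V := closure ({s, t} : Set G) with hVdef
  have hV4 : Nat.card V = 4 := hV.card_four
  have hmem : ∀ g, g ∈ V ↔ g = 1 ∨ g = s ∨ g = t ∨ g = s * t := fun g =>
    H19.mem_closure_pair_of_sq hss htt hc
  have hz : ∀ {u : G}, orderOf u = 2 → ∀ g, g ∈ zpowers u ↔ g = 1 ∨ g = u := by
    intro u hu g
    rw [mem_zpowers_iff_mem_range_orderOf, hu]
    simp [Finset.range_add_one, eq_comm, or_comm]
  have hsts : s * t ≠ s := by simpa using ht1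
  have hstt : s * t ≠ t := by simpa using hs1
  have key := H53.Wielandt.general V H (by rw [normalizer_eq_top]; exact le_top) hsol
    (by rw [hV4]; exact (hodd.pow_right 2).symm) ![⊥, ⊥, V]
    ![zpowers s, zpowers t, zpowers (s * t)]
    (by intro i; fin_cases i <;> simp)
    (by
      intro i
      fin_cases i <;> simp [hmem])
    (by
      intro g hg
      rw [Nat.card_eq_fintype_card, Nat.card_eq_fintype_card, Fintype.card_subtype,
        Fintype.card_subtype, Finset.card_filter, Finset.card_filter, Fin.sum_univ_three,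
        Fin.sum_univ_three]
      simp only [Matrix.cons_val_zero, Matrix.cons_val_one, Matrix.cons_val, mem_bot, hz hs, hz ht,
        hz hsto, hg]
      rcases (hmem g).1 hg with rfl | rfl | rfl | rfl <;>
        simp [hs1, ht1, hst, hst.symm, hst1, hsts, hstt, hsts.symm, hstt.symm])
  rw [Fin.prod_univ_three, Fin.prod_univ_three] at key
  simp only [Matrix.cons_val_zero, Matrix.cons_val_one, Matrix.cons_val, card_bot, pow_one,
    Nat.card_zpowers, hs, ht, hsto] at key
  have hb : H ⊓ centralizer ((⊥ : Subgroup G) : Set G) = H := by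
    rw [inf_eq_left]; intro x _; simp [mem_centralizer_iff]
  have hle : ∀ u : G, Nat.card (centralizer ({u} : Set G)) ≤ m →
      Nat.card ↥(H ⊓ centralizer (zpowers u : Set G)) ≤ m := fun u hu =>
    le_trans (card_le_of_le (inf_le_right.trans (centralizer_le (by simp)))) hu
  rw [hb] at key
  have hpos : 0 < Nat.card ↥(H ⊓ centralizer (V : Set G)) ^ Nat.card V :=
    pow_pos Nat.card_pos _
  have h4 : Nat.card H * Nat.card H ≤ m ^ 3 * m ^ 3 :=
    calc Nat.card H * Nat.card H ≤ _ := Nat.le_mul_of_pos_right _ hpos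
      _ = _ := key
      _ ≤ m ^ 2 * m ^ 2 * m ^ 2 := by
        gcongr
        exacts [hle _ h1, hle _ h2, hle _ h3]
      _ = _ := by ring
  exact Nat.mul_self_le_mul_self_iff.1 h4

theorem aux (a : ℕ) : ∃ N : ℕ, ∀ (G : Type u) [Group G] [Finite G] (M : Ideal AlgInt) (r : ℕ),
    IsPModular 2 M → (Nat.card G).factorization 2 ≤ a → Defic 2 M G r →
    (∃ E : Subgroup G, (∀ x ∈ E, x * x = 1) ∧ Nat.card E = 2 ^ (r + 1)) → Nat.card G ≤ N := by
  induction a with
  | zero =>
    refine ⟨0, fun G _ _ M r _ ha _ ⟨E, _, hE⟩ => ?_⟩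
    have h1 := card_subgroup_dvd_card E
    rw [hE, Nat.prime_two.pow_dvd_iff_le_factorization Nat.card_pos.ne'] at h1
    omega
  | succ a ih =>
    obtain ⟨N₁, hN₁⟩ := ih
    choose N₀ hN₀ using S4718.result.{u} 2
    obtain ⟨N₂, hN₂⟩ := H31.exists_bound_index_fitting_of_involution.{u} (N₁ * 2)
    refine ⟨(∑ i ∈ Finset.range (a + 2), N₀ i) + 2 ^ (a + 1) * (N₁ * 2) ^ 3 * N₂,
      fun G _ _ M r hM ha hdef ⟨E, hE2, hE⟩ => ?_⟩
    rcases r with _ | r
    · refine le_trans ?_ (Nat.le_add_right _ _)
      refine le_trans (hN₀ _ G M hM rfl fun B hB => ?_) (Finset.single_le_sum (f := N₀)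
        (fun _ _ => Nat.zero_le _) (Finset.mem_range.2 (by omega)))
      by_contra h
      exact absurd (hdef B hB h) (Nat.not_lt_zero _)
    refine le_trans ?_ (Nat.le_add_left _ _)
    have hcomm : ∀ x ∈ E, ∀ y ∈ E, x * y = y * x := by
      intro x hx y hy
      have h1 := hE2 _ (mul_mem hx hy)
      rw [← inv_eq_iff_mul_eq_one, mul_inv_rev, inv_eq_of_mul_eq_one_right (hE2 x hx),
        inv_eq_of_mul_eq_one_right (hE2 y hy)] at h1
      exact h1.symm
    have hord : ∀ t ∈ E, t ≠ 1 → orderOf t = 2 := fun t ht h1 =>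
      orderOf_eq_prime (by rw [sq, hE2 t ht]) h1
    have hC : ∀ t ∈ E, t ≠ 1 → Nat.card (centralizer ({t} : Set G)) ≤ N₁ * 2 := by
      intro t ht h1
      set C := centralizer ({t} : Set G) with hCdef
      have hEC : E ≤ C := fun x hx => mem_centralizer_singleton_iff.2 (hcomm x hx t ht)
      have hdC : Defic 2 M C (r + 1) :=
        (S4717.result 2 M hM (r + 1)).1 hdef t ⟨1, by rw [hord t ht h1]; rfl⟩
      set t' : C := ⟨t, hEC ht⟩ with ht'
      have hcen : zpowers t' ≤ center C := by
        rw [zpowers_le, mem_center_iff]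
        intro g
        exact Subtype.ext (mem_centralizer_singleton_iff.1 g.2)
      haveI : (zpowers t').Normal := ⟨fun x hx g => by
        rw [mem_center_iff.1 (hcen hx) g, mul_inv_cancel_right]; exact hx⟩
      have hZ : Nat.card (zpowers t') = 2 := by
        rw [Nat.card_zpowers, ← Subgroup.orderOf_coe, hord t ht h1]
      have hcard := card_eq_card_quotient_mul_card_subgroup (zpowers t')
      rw [hZ] at hcard
      rw [hcard]
      refine Nat.mul_le_mul_right _ (hN₁ _ M r hM ?_ (defic_quot hM hZ hcen hdC)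
        ⟨(E.subgroupOf C).map (QuotientGroup.mk' _), ?_, ?_⟩)
      · have h2 := (Nat.factorization_le_iff_dvd Nat.card_pos.ne' Nat.card_pos.ne').2
          (card_subgroup_dvd_card C) 2
        rw [hcard, Nat.factorization_mul Nat.card_pos.ne' two_ne_zero] at h2
        simp only [Finsupp.coe_add, Pi.add_apply, Nat.prime_two.factorization_self] at h2
        omega
      · rintro _ ⟨x, hx, rfl⟩
        rw [← map_mul, show x * x = 1 from Subtype.ext (hE2 x hx), map_one]
      · have h2 := H1.card_comap_mk' (zpowers t')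
          ((E.subgroupOf C).map (QuotientGroup.mk' (zpowers t')))
        rw [comap_map_eq_self (by
          rw [QuotientGroup.ker_mk', zpowers_le]; exact ht), hZ,
          Nat.card_congr (subgroupOfEquivOfLe hEC).toEquiv, hE] at h2
        have : 2 ^ (r + 1 + 1) = 2 ^ (r + 1) * 2 := by ring
        omega
    have hE4 : 2 < Nat.card E := by
      rw [hE]
      calc 2 < 2 ^ 2 := by norm_num
        _ ≤ _ := Nat.pow_le_pow_right two_pos (by omega)
    obtain ⟨s, hs, hs1, -⟩ := H19.exists_mem_ne_ne hE4 1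
    obtain ⟨t, ht, ht1, hts⟩ := H19.exists_mem_ne_ne hE4 s
    have hst1 : s * t ≠ 1 := fun h => hts (mul_left_cancel (h.trans (hE2 s hs).symm))
    set H := fittingSubgroup G ⊓ pPrimeCore 2 G with hH
    have hHle : Nat.card H ≤ (N₁ * 2) ^ 3 :=
      card_odd_le (hord s hs hs1) (hord t ht ht1) hts.symm (hcomm s hs t ht) H
        (by
          haveI := H1.isNilpotent_of_le_fitting (inf_le_left : H ≤ fittingSubgroup G)
          infer_instance)
        (H1.coprime_card_pPrimeCore.coprime_dvd_left (card_dvd_of_le inf_le_right))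
        (hC s hs hs1) (hC t ht ht1) (hC _ (mul_mem hs ht) hst1)
    have hF : fittingSubgroup G ≤ pCore 2 G ⊔ H := by
      intro x hx
      have h1 := H1.fitting_le_pCore_sup_pPrimeCore 2 hx
      rw [← SetLike.mem_coe, normal_mul] at h1
      obtain ⟨y, hy, z, hz, rfl⟩ := h1
      refine mul_mem (mem_sup_left hy) (mem_sup_right ⟨?_, hz⟩)
      exact (mul_mem_cancel_left (H1.pCore_le_fitting 2 hy)).1 hx
    have hO : Nat.card (pCore 2 G) ≤ 2 ^ (a + 1) := by
      obtain ⟨k, hk⟩ := (H1.isPGroup_pCore (p := 2) (G := G)).exists_card_eq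
      have h1 := card_subgroup_dvd_card (pCore 2 G)
      rw [hk, Nat.prime_two.pow_dvd_iff_le_factorization Nat.card_pos.ne'] at h1
      rw [hk]
      exact Nat.pow_le_pow_right two_pos (h1.trans ha)
    have hsup : Nat.card ↥(pCore 2 G ⊔ H) ≤ Nat.card (pCore 2 G) * Nat.card H := by
      exact Nat.le_of_dvd (Nat.mul_pos Nat.card_pos Nat.card_pos) (H1.card_sup_dvd_of_normal _ _)
    rw [← (fittingSubgroup G).card_mul_index]
    exact Nat.mul_le_mul ((card_le_of_le hF).trans (hsup.trans (Nat.mul_le_mul hO hHle)))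
      (hN₂ G s (hord s hs hs1) (hC s hs hs1))


/-- For every natural number a there is a bound N with the following property. Let G be a finite group with Sylow 2-subgroups of order 2^a and r ≥ 0 such that G has no non-principal 2-block (relative to a maximal ideal of the algebraic integers containing 2) of defect ≥ r, and suppose a Sylow 2-subgroup of G contains an elementary abelian subgroup of order 2^(r+1). Then the order of G is at most N. -/
theorem result (a : ℕ) : ∃ N : ℕ, ∀ (G : Type u) [Group G] [Finite G] (M : Ideal Cfsg.AlgInt) (r : ℕ) (P : Sylow 2 G), Cfsg.IsPModular 2 M → Nat.card P = 2 ^ a → (∀ B : Set (Cfsg.IrrCharacter G), Cfsg.IsPBlock M B → B ≠ Cfsg.principalBlock M G → Cfsg.blockDefect 2 B < r) → (∃ E : Subgroup G, E ≤ (P : Subgroup G) ∧ IsMulCommutative E ∧ (∀ x ∈ E, x * x = 1) ∧ Nat.card E = 2 ^ (r + 1)) → Nat.card G ≤ N := by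
  obtain ⟨N, hN⟩ := aux.{u} a
  refine ⟨N, fun G _ _ M r P hM hP hdef ⟨E, _, _, h2, hE⟩ => hN G M r hM ?_ hdef ⟨E, h2, hE⟩⟩
  rw [P.card_eq_multiplicity] at hP
  exact (Nat.pow_right_injective le_rfl hP).le

end Cfsg.Agent.S4719
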