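import Cfsg.Statements.S4720
import Mathlib
import Cfsg.Agent.Lib.Block.Column

set_option autoImplicit false
set_option linter.style.haveILetI false
open Cfsg

namespace Cfsg.Agent.S4720

/-- Let p be a prime, M a maximal ideal of the algebraic integers containing p, P a p-subgroup of the finite group G, N a subgroup with P ≤ N ≤ N_G(P), and U a nonempty subset of P normalized by N such that an element of U and an element of P that are conjugate in G are already conjugate in N, and such that λ(C_G(y)) = w·#C_N(y) for every y ∈ U with one rational number w, where λ(X) denotes the sum of the squares of the degrees of the irreducible characters in the principal p-block of X. For a complex function θ on P and χ in the principal block of G put a_χ(θ) = #P⁻¹ Σ_{y ∈ P} χ(y) θ(y⁻¹). Then for generalized characters θ, η of P with θ vanishing outside U, Σ_χ a_χ(θ)·conj(a_χ(η)) = (w/#P²)·Σ_{y ∈ P} θ(y)·conj(Σ_{x ∈ N} η(x y x⁻¹)) (η extended by zero off P; the conjugates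 lie in P), the first sum over the principal p-block of G. -/
theorem result {G : Type*} [Group G] [Finite G] (p : ℕ) [Fact p.Prime] (M : Ideal Cfsg.AlgInt) (hM : Cfsg.IsPModular p M) (P : Subgroup G) (hP : IsPGroup p P) (N : Subgroup G) (hPN : P ≤ N) (hNN : N ≤ Subgroup.normalizer (P : Set G)) (U : Set G) (hUne : U.Nonempty) (hUP : U ⊆ (P : Set G)) (hUN : ∀ n ∈ N, ∀ u ∈ U, n * u * n⁻¹ ∈ U) (hfus : ∀ u ∈ U, ∀ g : G, g * u * g⁻¹ ∈ (P : Set G) → ∃ n ∈ N, n * u * n⁻¹ = g * u * g⁻¹) (w : ℚ) (hw : ∀ y ∈ U, ((∑ᶠ ψ ∈ Cfsg.principalBlock M ↥(Subgroup.centralizer ({y} : Set G)), Cfsg.charDegree (ψ : ↥(Subgroup.centralizer ({y} : Set G)) → ℂ) ^ 2) : ℚ) = w * Nat.card ↥(N ⊓ Subgroup.centralizer ({y} : Set G))) (θ η : ↥P → ℂ) (hθ : Cfsg.IsGeneralizedCharacter ↥P θ) (hη : Cfsg.IsGeneralizedCharacter ↥P η) (hθU : ∀ y : ↥P, (y : G) ∉ U → θ y = 0) : ∑ᶠ χ ∈ Cfsg.principalBlock M G, ((Nat.card ↥P : ℂ)⁻¹ * ∑ᶠ y : ↥P, (χ : G → ℂ) (y : G) * θ y⁻¹) * (starRingEnd ℂ) ((Nat.card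 ↥P : ℂ)⁻¹ * ∑ᶠ y : ↥P, (χ : G → ℂ) (y : G) * η y⁻¹) = ((w : ℂ) / ((Nat.card ↥P : ℂ) ^ 2)) * ∑ᶠ y : ↥P, θ y * (starRingEnd ℂ) (∑ᶠ x : ↥N, Cfsg.extendByZero P η ((x : G) * (y : G) * (x : G)⁻¹)) := by
  classical
  haveI := H33.isMaximal_of hM
  letI := Fintype.ofFinite P
  letI := Fintype.ofFinite N
  have hinv : ∀ (χ : IrrCharacter G) (φ : P → ℂ), ∑ y : P, (χ : G → ℂ) (y : G) * φ y⁻¹ =
      ∑ y : P, (starRingEnd ℂ) ((χ : G → ℂ) (y : G)) * φ y := by
    intro χ φ
    rw [← Equiv.sum_comp (Equiv.inv P)]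
    refine Finset.sum_congr rfl fun y _ => ?_
    simp [H6.char_inv (H84.irr_char χ)]
  rw [H84.finsum_mem_eq]
  simp only [finsum_eq_sum_of_fintype, hinv]
  have key : ∀ y : P, (y : G) ∈ U →
      ∑ z : P, (starRingEnd ℂ) (η z) * ∑ χ ∈ H84.bset (principalBlock M G),
        (χ : G → ℂ) (z : G) * (starRingEnd ℂ) ((χ : G → ℂ) (y : G)) =
      (w : ℂ) * (starRingEnd ℂ) (∑ x : N, extendByZero P η ((x : G) * (y : G) * (x : G)⁻¹)) := by
    intro y hy
    have hmem : ∀ x : N, (x : G) * (y : G) * (x : G)⁻¹ ∈ P := fun x =>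
      hUP (hUN _ x.2 _ hy)
    have h1 : ∑ x : N, extendByZero P η ((x : G) * (y : G) * (x : G)⁻¹) =
        ∑ z : P, (Nat.card {x : N // (x : G) * (y : G) * (x : G)⁻¹ = z} : ℂ) * η z := by
      rw [← Finset.sum_fiberwise Finset.univ (fun x : N => (⟨_, hmem x⟩ : P))]
      refine Finset.sum_congr rfl fun z _ => ?_
      rw [Finset.sum_congr rfl (g := fun _ => η z), Finset.sum_const, nsmul_eq_mul,
        Nat.card_eq_fintype_card, Fintype.card_subtype]
      · congr 3
        ext x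
        simp [Subtype.ext_iff]
      · intro x hx
        rw [H7.extendByZero_of_mem P η (hmem x), (Finset.mem_filter.1 hx).2]
    rw [h1, map_sum, Finset.mul_sum]
    refine Finset.sum_congr rfl fun z _ => ?_
    by_cases hc : IsConj (y : G) z
    · rw [H33.col_principal_isConj hM (H35.isPElt_of_mem hP y.2) hc]
      obtain ⟨g, hg⟩ := isConj_iff.1 hc
      have h2 := hfus _ hy g (by rw [hg]; exact z.2)
      rw [hg] at h2
      rw [H33.card_conj_eq_in N h2]
      have h3 := hw _ hy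
      rw [H84.finsum_mem_eq] at h3
      have h4 : ((H33.lamB0 M (Subgroup.centralizer ({(y : G)} : Set G)) : ℚ) : ℂ) =
          ((w * Nat.card ↥(N ⊓ Subgroup.centralizer ({(y : G)} : Set G)) : ℚ) : ℂ) := by
        rw [← h3, H33.lamB0]
        push_cast
        rfl
      push_cast at h4
      rw [h4, map_mul, map_natCast]
      ring
    · rw [H33.col_eq_zero_of_pElt hM H84.isPBlock_principal (H35.isPElt_of_mem hP z.2)
        (H35.isPElt_of_mem hP y.2) (fun h => hc h.symm)]
      have : IsEmpty {x : N // (x : G) * (y : G) * (x : G)⁻¹ = z} :=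
        ⟨fun x => hc (isConj_iff.2 ⟨_, x.2⟩)⟩
      simp
  have h5 : ∀ y : P, θ y * (w : ℂ) *
      (starRingEnd ℂ) (∑ x : N, extendByZero P η ((x : G) * (y : G) * (x : G)⁻¹)) =
      θ y * ∑ z : P, (starRingEnd ℂ) (η z) * ∑ χ ∈ H84.bset (principalBlock M G),
        (χ : G → ℂ) (z : G) * (starRingEnd ℂ) ((χ : G → ℂ) (y : G)) := by
    intro y
    by_cases hy : (y : G) ∈ U
    · rw [key y hy, mul_assoc]
    · rw [hθU y hy]; simp
  calc _ = ((Nat.card P : ℂ) ^ 2)⁻¹ * ∑ y : P, θ y * ∑ z : P, (starRingEnd ℂ) (η z) *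
        ∑ χ ∈ H84.bset (principalBlock M G),
          (χ : G → ℂ) (z : G) * (starRingEnd ℂ) ((χ : G → ℂ) (y : G)) := by
        simp only [map_mul, map_inv₀, map_natCast, map_sum, Complex.conj_conj, Finset.mul_sum,
          Finset.sum_mul]
        rw [Finset.sum_comm]
        conv_rhs => rw [Finset.sum_comm]
        refine Finset.sum_congr rfl fun z _ => ?_
        rw [Finset.sum_comm]
        refine Finset.sum_congr rfl fun y _ => Finset.sum_congr rfl fun χ _ => ?_
        ring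
    _ = _ := by
        rw [← Finset.sum_congr rfl fun y _ => h5 y, Finset.mul_sum, Finset.mul_sum]
        refine Finset.sum_congr rfl fun y _ => ?_
        ring

end Cfsg.Agent.S4720
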