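import Mathlib
import Cfsg.Statements.S4721
import Cfsg.Agent.Lib.H85.AbFrob
import Cfsg.Agent.S0944
-- import your own Cfsg.Agent.* helpers here

set_option autoImplicit false
open Cfsg

namespace Cfsg.Agent.S4721

open scoped IsMulCommutative ComplexConjugate

theorem sq_of (x y z : ℕ) (sy sz : ℤ) (hx : 1 + (x : ℤ) = y + z)
    (h : (sy + sz) ^ 2 * y * z = x * (sy ^ 2 * z + sz ^ 2 * y)) (hne : sy ≠ 0 ∨ sz ≠ 0) :
    IsSquare (x * y * z) := by
  have hx' : (x : ℤ) = y + z - 1 := by linarith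
  have key : ∀ (s m : ℤ), s ≠ 0 → m ^ 2 = x * y * z * s ^ 2 → IsSquare (x * y * z) := by
    intro s m hs hm
    rw [← Rat.isSquare_natCast_iff]
    refine ⟨m / s, ?_⟩
    have hs' : (s : ℚ) ≠ 0 := by exact_mod_cast hs
    have hm' : (m : ℚ) ^ 2 = x * y * z * s ^ 2 := by exact_mod_cast hm
    field_simp
    push_cast
    linear_combination -hm'
  rcases hne with h0 | h0
  · refine key sy (y * (y - 1) * sz - y * z * sy) h0 ?_
    rw [hx'] at h ⊢
    linear_combination (-y * (y - 1)) * h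
  · refine key sz (z * (z - 1) * sy - y * z * sz) h0 ?_
    rw [hx'] at h ⊢
    linear_combination (-z * (z - 1)) * h

theorem not_pos2 (x y z : ℤ) (hx : 0 < x) (hy : 0 < y) (sx sy : ℤ) (h : z = 1 + x + y)
    (h' : sx ^ 2 * y * z + sy ^ 2 * x * z = (sx + sy) ^ 2 * x * y) (hne : sx ≠ 0 ∨ sy ≠ 0) : False := by
  subst h
  have h1 : sx ^ 2 * y + sy ^ 2 * x + (sx * y - sy * x) ^ 2 = 0 := by linear_combination h'
  have h2 := mul_nonneg (sq_nonneg sx) hy.le
  have h3 := mul_nonneg (sq_nonneg sy) hx.le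
  have h4 := sq_nonneg (sx * y - sy * x)
  rcases hne with h0 | h0
  · have := mul_pos (pow_pos (abs_pos.2 h0) 2) hy
    rw [sq_abs] at this
    linarith
  · have := mul_pos (pow_pos (abs_pos.2 h0) 2) hx
    rw [sq_abs] at this
    linarith

theorem num (a2 a3 a4 : ℤ) (h2 : a2 = 1 ∨ a2 = -1) (h3 : a3 = 1 ∨ a3 = -1) (h4 : a4 = 1 ∨ a4 = -1)
    (x2 x3 x4 : ℕ) (p2 : 0 < x2) (p3 : 0 < x3) (p4 : 0 < x4) (s2 s3 s4 : ℤ)
    (e1 : 1 + a2 * x2 + a3 * x3 + a4 * x4 = 0) (e2 : a2 * s2 + a3 * s3 + a4 * s4 = 0)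
    (e3 : a2 * s2 ^ 2 * x3 * x4 + a3 * s3 ^ 2 * x2 * x4 + a4 * s4 ^ 2 * x2 * x3 = 0)
    (n2 : s2 ≠ 0) (n3 : s3 ≠ 0) :
    (if a2 = -1 then 1 else 0) + (if a3 = -1 then 1 else 0) + (if a4 = -1 then 1 else 0) = 2 ∧
      IsSquare (x4 * (x2 * x3)) := by
  have q2 : (0 : ℤ) < x2 := by exact_mod_cast p2
  have q3 : (0 : ℤ) < x3 := by exact_mod_cast p3
  have q4 : (0 : ℤ) < x4 := by exact_mod_cast p4
  rcases h2 with rfl | rfl <;> rcases h3 with rfl | rfl <;> rcases h4 with rfl | rfl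
  · linarith
  · exact (not_pos2 x2 x3 x4 q2 q3 s2 s3 (by linarith) (by
      rw [show s2 + s3 = s4 by linarith]; linarith) (.inl n2)).elim
  · exact (not_pos2 x2 x4 x3 q2 q4 s2 s4 (by linarith) (by
      rw [show s2 + s4 = s3 by linarith]; linarith) (.inl n2)).elim
  · refine ⟨by simp, ?_⟩
    have := sq_of x2 x3 x4 s3 s4 (by linarith) (by
      rw [show s3 + s4 = s2 by linarith]; linarith) (.inl n3)
    rwa [show x4 * (x2 * x3) = x2 * x3 * x4 by ring]
  · exact (not_pos2 x3 x4 x2 q3 q4 s3 s4 (by linarith) (by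
      rw [show s3 + s4 = s2 by linarith]; linarith) (.inl n3)).elim
  · refine ⟨by simp, ?_⟩
    have := sq_of x3 x2 x4 s2 s4 (by linarith) (by
      rw [show s2 + s4 = s3 by linarith]; linarith) (.inl n2)
    rwa [show x4 * (x2 * x3) = x3 * x2 * x4 by ring]
  · refine ⟨by simp, ?_⟩
    have := sq_of x4 x2 x3 s2 s3 (by linarith) (by
      rw [show s2 + s3 = s4 by linarith]; linarith) (.inl n2)
    rwa [← mul_assoc]
  · exfalso
    have a := mul_pos (mul_pos (pow_pos (abs_pos.2 n2) 2) q3) q4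
    have b := mul_nonneg (mul_nonneg (sq_nonneg s3) q2.le) q4.le
    have c := mul_nonneg (mul_nonneg (sq_nonneg s4) q2.le) q3.le
    rw [sq_abs] at a
    linarith

theorem num2 (X2 X3 Y : ℤ) (h2 : 16 ∣ X2 - 1) (h3 : 16 ∣ X3 - 1) (n2 : X2 ≠ 1) (n3 : X3 ≠ 1)
    (e1 : 1 + X2 + X3 = Y) (e2 : (1 : ℝ) + 1 / X2 + 1 / X3 = 9 / Y) : False := by
  have key : ∀ X : ℤ, 16 ∣ X - 1 → X ≠ 1 → -(1 / 15 : ℝ) ≤ 1 / X ∧ (1 : ℝ) / X ≤ 1 / 15 := by
    intro X h hn
    rw [← abs_le, abs_div, abs_one]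
    refine one_div_le_one_div_of_le (by norm_num) ?_
    have : (15 : ℤ) ≤ |X| := by
      rcases abs_cases X with h | h <;> omega
    exact_mod_cast this
  obtain ⟨a2, b2⟩ := key X2 h2 n2
  obtain ⟨a3, b3⟩ := key X3 h3 n3
  have hY : (0 : ℝ) < Y := by
    by_contra h
    have := div_nonpos_of_nonneg_of_nonpos (show (0 : ℝ) ≤ 9 by norm_num) (not_lt.1 h)
    linarith
  have h4 : (13 / 15 : ℝ) ≤ 9 / Y := by linarith
  have h5 : (9 : ℝ) / Y ≤ 17 / 15 := by linarith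
  rw [le_div_iff₀ hY] at h4
  rw [div_le_iff₀ hY] at h5
  have h6 : (Y : ℝ) < 11 := by linarith
  have h7 : (7 : ℝ) < Y := by linarith
  have h6 : Y < 11 := by exact_mod_cast h6
  have h7 : 7 < Y := by exact_mod_cast h7
  omega

section
variable {G : Type*} [Group G] [Finite G]

theorem inv_eq_of_isConj {p : ℕ} [Fact p.Prime] (P : Sylow p G) [IsMulCommutative P]
    (hF : H85.FrobAut (P : Subgroup G)) (hE : Nat.card (H85.autz (P : Subgroup G)) = 3)
    {u : (P : Subgroup G)} (h : IsConj (u : G) (u : G)⁻¹) : u⁻¹ = u := by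
  by_cases hu : u = 1
  · simp [hu]
  obtain ⟨e, he, h1⟩ := H85.exists_autz_of_isConj P (v := u⁻¹) h
  have h2 : e * e = 1 := hF.free _ (Subgroup.mul_mem _ he he) u hu (by
    rw [MulAut.mul_apply, h1, map_inv, h1, inv_inv])
  have h3 : e ^ 3 = 1 := by
    have := pow_card_eq_one' (x := (⟨e, he⟩ : H85.autz (P : Subgroup G)))
    rw [hE] at this
    exact congrArg Subtype.val this
  have : e = 1 := by rwa [pow_succ, pow_two, h2, one_mul] at h3
  rw [← h1, this, MulAut.one_apply]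

theorem isConj_mul_pPart {s s' : G} (hs : s * s = 1) (hs' : s' * s' = 1) :
    IsConj s' (s * H35.pPart 2 (s * s')) := by
  set w := H35.pReg 2 (s * s') with hw
  have h1 : s * (s * s') * s⁻¹ = (s * s')⁻¹ := by
    rw [← mul_assoc, hs, one_mul, mul_inv_rev, inv_eq_of_mul_eq_one_right hs']
  have h2 : s * w * s⁻¹ = w⁻¹ := by rw [hw, ← H35.pReg_conj, h1, H35.pReg_inv]
  have hodd : Odd (orderOf w) := by
    rw [← Nat.not_even_iff_odd, even_iff_two_dvd]
    exact H35.not_dvd_orderOf_pReg 2 _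
  obtain ⟨k, hk⟩ := hodd
  have h3 : w ^ (k + 1) * w ^ (k + 1) = w := by
    rw [← pow_add, show k + 1 + (k + 1) = orderOf w + 1 by omega, pow_succ, pow_orderOf_eq_one, one_mul]
  have h4 : w ^ (k + 1) * s = s * (w ^ (k + 1))⁻¹ := by
    have : s * (w ^ (k + 1))⁻¹ * s⁻¹ = w ^ (k + 1) := by
      rw [← inv_pow, ← conj_pow, conj_inv.symm, h2, inv_inv]
    rw [eq_comm, ← mul_inv_eq_iff_eq_mul, this]
  have h5 : s' = s * (H35.pPart 2 (s * s') * w) := by
    rw [hw, H35.pPart_mul_pReg, ← mul_assoc, hs, one_mul]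
  have h6 : Commute (H35.pPart 2 (s * s')) (w ^ (k + 1)) := (H35.commute_pPart_pReg 2 _).pow_right _
  refine isConj_iff.2 ⟨w ^ (k + 1), ?_⟩
  generalize H35.pPart 2 (s * s') = v at h5 h6
  generalize w ^ (k + 1) = x at h3 h4 h6
  rw [h5, ← h3, ← mul_assoc, h4, ← mul_assoc v, h6.eq]
  group

theorem mem_of_pPart (P : Sylow 2 G) [IsMulCommutative P]
    (hF : H85.FrobAut (P : Subgroup G)) (hE : Nat.card (H85.autz (P : Subgroup G)) = 3)
    {t u : (P : Subgroup G)} (ht : t * t = 1) (a b : G)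
    (h : IsConj (H35.pPart 2 (a * t * a⁻¹ * (b * t * b⁻¹))) (H35.pPart 2 (u : G))) :
    ∃ e ∈ H85.autz (P : Subgroup G), ∃ f ∈ H85.autz (P : Subgroup G), e t * f t = u := by
  rw [H35.pPart_eq_self (H35.isPElt_of_mem P.isPGroup' u.2)] at h
  obtain ⟨c, hc⟩ := isConj_iff.1 h
  have ht' : (t : G) * t = 1 := congrArg Subtype.val ht
  set s := c * a * t * (c * a)⁻¹ with hs
  set s' := c * b * t * (c * b)⁻¹ with hs'
  have i1 : IsConj (t : G) s := isConj_iff.2 ⟨_, rfl⟩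
  have i2 : IsConj (t : G) s' := isConj_iff.2 ⟨_, rfl⟩
  have j1 := H33.mul_self_of_isConj ht' i1
  have j2 := H33.mul_self_of_isConj ht' i2
  have hu : H35.pPart 2 (s * s') = u := by
    rw [← hc, ← H35.pPart_conj]
    congr 1
    rw [hs, hs']
    group
  have i3 := i2.trans (isConj_mul_pPart j1 j2)
  have hinv := H33.inverts_pPart (p := 2) j1 j2
  rw [hu] at i3 hinv
  have h1 : (u : G)⁻¹ = u :=
    congrArg Subtype.val (inv_eq_of_isConj P hF hE (isConj_iff.2 ⟨s, hinv⟩))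
  have hsC : s ∈ Subgroup.centralizer ({(u : G)} : Set G) :=
    Subgroup.mem_centralizer_singleton_iff.2 (by rw [← mul_inv_eq_iff_eq_mul, hinv, h1])
  have hle := H85.le_cent_of_mem (P : Subgroup G) u.2
  have hse : H35.IsPElt 2 (⟨s, hsC⟩ : Subgroup.centralizer ({(u : G)} : Set G)) :=
    H35.isPElt_of_pow_eq_one (k := 1) (Subtype.ext (by simpa [pow_two] using j1))
  obtain ⟨x, hx⟩ := hse.exists_conj_mem (P.subtype hle)
  have hx' : (x : G) * s * (x : G)⁻¹ ∈ (P : Subgroup G) := hx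
  have hxu : (x : G) * u = u * x := Subgroup.mem_centralizer_singleton_iff.1 x.2
  obtain ⟨e, he, h2⟩ := H85.exists_autz_of_isConj P (u := t) (v := ⟨_, hx'⟩)
    (i1.trans (isConj_iff.2 ⟨x, rfl⟩))
  obtain ⟨f, hf, h3⟩ := H85.exists_autz_of_isConj P (u := t) (v := ⟨_, hx'⟩ * u)
    (i3.trans (isConj_iff.2 ⟨x, by
      show _ = (x : G) * s * (x : G)⁻¹ * u
      rw [mul_assoc ((x : G) * s) _ (u : G), (Commute.inv_left hxu).eq]; group⟩))
  refine ⟨e, he, f, hf, Subtype.ext ?_⟩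
  rw [h2, h3]
  show (x : G) * s * (x : G)⁻¹ * ((x : G) * s * (x : G)⁻¹ * u) = u
  calc _ = (x : G) * (s * s) * (x : G)⁻¹ * u := by group
    _ = u := by rw [j1]; group

end

theorem sum_cube {D : Type*} [CommGroup D] [Fintype D] {E : Subgroup (MulAut D)} [Fintype E]
    [DecidableEq (D →* ℂˣ)] (t u : D) (h : ∀ e ∈ E, ∀ f ∈ E, e t * f t ≠ u) :
    ∑ ψ ∈ Finset.univ.erase (1 : D →* ℂˣ), (∑ e : E, ((ψ ((e : MulAut D) t) : ℂˣ) : ℂ)) *
      (∑ e : E, ((ψ ((e : MulAut D) t) : ℂˣ) : ℂ)) * conj (∑ e : E, ((ψ ((e : MulAut D) u) : ℂˣ) : ℂ)) =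
      -(Nat.card E : ℂ) ^ 3 := by
  classical
  have h1 : ∀ e f g : E, ∑ ψ ∈ Finset.univ.erase (1 : D →* ℂˣ),
      ((ψ ((e : MulAut D) t * (f : MulAut D) t * ((g : MulAut D) u)⁻¹) : ℂˣ) : ℂ) = -1 := by
    intro e f g
    have := H85.sum_dual ((e : MulAut D) t * (f : MulAut D) t * ((g : MulAut D) u)⁻¹)
    rw [if_neg, ← Finset.add_sum_erase _ _ (Finset.mem_univ 1), MonoidHom.one_apply, Units.val_one] at this
    · exact eq_neg_of_add_eq_zero_right this
    · intro h'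
      apply h (g⁻¹ * e : E) (g⁻¹ * e).2 (g⁻¹ * f : E) (g⁻¹ * f).2
      apply (g : MulAut D).injective
      rw [← mul_inv_eq_one.1 h']
      simp
  simp only [map_sum, H85.conj_dual, Finset.sum_mul, Finset.mul_sum, ← Units.val_mul, ← map_mul]
  rw [Finset.sum_comm]
  simp only [fun g : E => Finset.sum_comm (s := Finset.univ.erase (1 : D →* ℂˣ)) (t := Finset.univ)
    (f := fun ψ (f : E) => ∑ e : E,
      ((ψ ((e : MulAut D) t * (f : MulAut D) t * ((g : MulAut D) u)⁻¹) : ℂˣ) : ℂ))]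
  simp only [fun g f : E => Finset.sum_comm (s := Finset.univ.erase (1 : D →* ℂˣ)) (t := Finset.univ)
    (f := fun ψ (e : E) =>
      ((ψ ((e : MulAut D) t * (f : MulAut D) t * ((g : MulAut D) u)⁻¹) : ℂˣ) : ℂ)), h1]
  simp [Nat.card_eq_fintype_card]
  ring

/-- Let p be a prime, M a maximal ideal of the algebraic integers containing p, and G a finite group with a nontrivial abelian Sylow p-subgroup P, N = N_G(P), C = C_G(P), such that N/C is cyclic of order 3, #P > 4, and C_G(y) ∩ N = C for every non-identity y ∈ P. Then the principal p-block is the disjoint union of a set X of exactly 3 characters containing the principal character and a set Y of (#P − 1)/3 characters, with signs a_χ = ±1 (χ ∈ X, a = 1 at the principal character) and δ = ±1 such that every χ ∈ X takes the value a_χ at every element whose p-part is a non-identity element of P, and there is a map ζ from the non-principal linear characters of P onto Y,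 constant on N-conjugacy classes, with ζ_ψ(z) = δ·Σ ψ'(y) over the N-orbit of ψ, for z with p-part y ≠ 1 in P. If moreover G has an involution lying in no proper normal subgroup of G, then exactly two of the three numbers −δ and a_χ (χ ∈ X non-principal) equal −1, and the product of the degrees of the two non-principal members of X and of any member of Y is a perfect square. -/
theorem result {G : Type*} [Group G] [Finite G] (p : ℕ) [Fact p.Prime] (M : Ideal Cfsg.AlgInt) (hM : Cfsg.IsPModular p M) (P : Sylow p G) (hab : IsMulCommutative P) (hP1 : Nat.card P ≠ 1) (hCN : (Subgroup.centralizer ((P : Subgroup G) : Set G)).relIndex (Subgroup.normalizer ((P : Subgroup G) : Set G)) = 3) (hcyc : ∃ g : G, g ∈ Subgroup.normalizer ((P : Subgroup G) : Set G) ∧ Subgroup.centralizer ((P : Subgroup G) : Set G) ⊔ Subgroup.zpowers g = Subgroup.normalizer ((P : Subgroup G) : Set G)) (hm2 : 3 + 1 < Nat.card P) (hfrob : ∀ y : G, y ∈ (P :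 Subgroup G) → y ≠ 1 → Subgroup.centralizer ({y} : Set G) ⊓ Subgroup.normalizer ((P : Subgroup G) : Set G) = Subgroup.centralizer ((P : Subgroup G) : Set G)) : ∃ (X Y : Set (Cfsg.IrrCharacter G)), Cfsg.principalBlock M G = X ∪ Y ∧ Disjoint X Y ∧ Nat.card X = 3 ∧ Nat.card Y = (Nat.card P - 1) / 3 ∧ (∃ χ₁ ∈ X, (χ₁ : G → ℂ) = fun _ => 1) ∧ ∃ (a : Cfsg.IrrCharacter G → ℤ) (δ : ℤ) (ζ : (↥(P : Subgroup G) →* ℂˣ) → Cfsg.IrrCharacter G), (δ = 1 ∨ δ = -1) ∧ (∀ χ ∈ X, (a χ = 1 ∨ a χ = -1) ∧ ∀ z y : G, Cfsg.IsPPart p z y → y ∈ (P : Subgroup G) → y ≠ 1 → (χ : G → ℂ) z = (a χ : ℂ)) ∧ (∀ ψ : ↥(P : Subgroup G) →* ℂˣ, ψ ≠ 1 → ζ ψ ∈ Y) ∧ (∀ η ∈ Y, ∃ ψ : ↥(P : Subgroup G) →* ℂˣ, ψ ≠ 1 ∧ ζ ψ = η) ∧ (∀ ψ ψ' : ↥(P : Subgroup G) →* ℂˣ, ψ ≠ 1 → (∃ n : G, n ∈ Subgroup.normalizer ((P : Subgroup G) : Set G) ∧ ∀ w w' : ↥(P : Subgroup G), (w' : G) = n * w * n⁻¹ → ψ' w' = ψ w) → ζ ψ' = ζ ψ) ∧ (∀ ψ : ↥(P : Subgroup G) →* ℂˣ, ψ ≠ 1 → ∀ (z : G) (y :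 ↥(P : Subgroup G)), Cfsg.IsPPart p z (y : G) → (y : G) ≠ 1 → (ζ ψ : G → ℂ) z = (δ : ℂ) * ∑ᶠ ψ' ∈ {ψ' : ↥(P : Subgroup G) →* ℂˣ | ∃ n : G, n ∈ Subgroup.normalizer ((P : Subgroup G) : Set G) ∧ ∀ w w' : ↥(P : Subgroup G), (w' : G) = n * w * n⁻¹ → ψ' w' = ψ w}, ((ψ' y : ℂˣ) : ℂ)) ∧ ((∃ t : G, orderOf t = 2 ∧ ∀ K : Subgroup G, K.Normal → t ∈ K → K = ⊤) → Nat.card {χ : Cfsg.IrrCharacter G // χ ∈ X ∧ (χ : G → ℂ) ≠ (fun _ => 1) ∧ a χ = -1} + (if δ = 1 then 1 else 0) = 2 ∧ ∀ η ∈ Y, IsSquare (Cfsg.charDegree (η : G → ℂ) * ∏ᶠ χ ∈ {χ : Cfsg.IrrCharacter G | χ ∈ X ∧ (χ : G → ℂ) ≠ fun _ => 1}, Cfsg.charDegree (χ : G → ℂ))) := by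
  classical
  have := H33.isMaximal_of hM
  let := Fintype.ofFinite (P : Subgroup G)
  let := Fintype.ofFinite (H85.autz (P : Subgroup G))
  have hB := H33.isPBlock_principalBlock (M := M) (G := G)
  have hE : Nat.card (H85.autz (P : Subgroup G)) = 3 := by rw [H85.card_autz, hCN]
  have hF : H85.FrobAut (P : Subgroup G) := hfrob
  obtain ⟨δ, c, ζ, a, Y, h, hc2, hY, h1, ha1, ha⟩ := H85.abFrob hM P hF (by rw [hE]; exact hm2)
  have hcard := h.card
  rw [hE, ← Nat.card_eq_fintype_card] at hcard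
  have hPP : Nat.card P = Nat.card (P : Subgroup G) := rfl
  obtain ⟨k, hk⟩ := IsPGroup.iff_card.1 P.isPGroup'
  have hYc : Y.card = (Nat.card P - 1) / 3 := by omega
  set X := H84.bset (principalBlock M G) \ Y with hX
  have hXm : ∀ χ, χ ∈ X ↔ χ ∈ principalBlock M G ∧ χ ∉ Y := fun χ => by
    rw [hX, Finset.mem_sdiff, H84.mem_bset]
  have h1X : H33.oneIrr G ∈ X := (hXm _).2 ⟨H33.oneIrr_mem_principalBlock, h1⟩
  have hsum : ∀ {A : Type} [AddCommMonoid A] (f : IrrCharacter G → A), (∀ χ, a χ = 0 → f χ = 0) →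
      ∑ χ ∈ Yᶜ, f χ = f (H33.oneIrr G) + ∑ χ ∈ X.erase (H33.oneIrr G), f χ := by
    intro A _ f hf
    rw [Finset.add_sum_erase _ _ h1X]
    refine (Finset.sum_subset (fun χ hχ => Finset.mem_compl.2 ((hXm χ).1 hχ).2) ?_).symm
    intro χ h1 h2
    apply hf
    by_contra h0
    exact h2 ((hXm χ).2 ⟨(ha χ (Finset.mem_compl.1 h1)).1 h0, Finset.mem_compl.1 h1⟩)
  have hnorm := h.norm
  rw [hsum _ (fun χ h => by simp [h]), hE, ha1] at hnorm
  have hsec : ∀ χ ∈ principalBlock M G, ∀ (z : G) (y : (P : Subgroup G)), IsPPart p z (y : G) →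
      (y : G) ≠ 1 → (χ : G → ℂ) z = H85.valOn (principalBlock M G) P χ y := fun χ hχ z y hz hy => by
    rw [H85.valOn_of_mem _ hχ]
    exact H85.principal_section_npc hM (hF.npc P y.2 hy) hz hχ
  have hrel : ∀ g : G, ¬ p ∣ orderOf g → ∀ u : (P : Subgroup G), u ≠ 1 →
      ∑ χ : IrrCharacter G, (χ : G → ℂ) g * conj (H85.valOn (principalBlock M G) P χ u) = 0 := by
    intro g hg u hu
    rw [H85.sum_mul_conj_valOn]
    refine H33.col_eq_zero hM hB ?_
    rw [H35.pPart_eq_one hg, H35.pPart_eq_self (H35.isPElt_of_mem P.isPGroup' u.2), isConj_one_right]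
    exact fun h => hu (Subtype.ext h)
  have hrel1 := h.rel _ (hrel 1 H35.not_dvd_orderOf_one)
  have hane : ∀ χ ∈ X.erase (H33.oneIrr G), 1 ≤ a χ ^ 2 := fun χ hχ => by
    have hχ := (hXm χ).1 (Finset.mem_of_mem_erase hχ)
    exact (one_le_sq_iff_one_le_abs _).2 (Int.one_le_abs ((ha χ hχ.2).2 hχ.1))
  have hnn : 0 ≤ ∑ χ ∈ X.erase (H33.oneIrr G), a χ ^ 2 := Finset.sum_nonneg fun _ _ => sq_nonneg _
  have h2Y : (2 : ℤ) ≤ Y.card := by exact_mod_cast h.two_le
  have hc0 : c = 0 := by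
    by_contra hc
    have hc1 := (one_le_sq_iff_one_le_abs _).2 (Int.one_le_abs hc)
    have hc7 : c ^ 2 ≤ ((Y.card : ℤ) - 1) * c ^ 2 := le_mul_of_one_le_left (sq_nonneg c) (by linarith)
    push_cast at hnorm
    have hc3 : c ^ 2 ≤ 3 := by linarith [sq_nonneg (c - δ)]
    have hc4 : -2 < c := by nlinarith
    have hc5 : c < 2 := by nlinarith
    have hcd : c = δ := by
      by_contra hcd
      have : (c - δ) ^ 2 = 4 := by
        rcases h.sign with rfl | rfl
        · obtain rfl : c = -1 := by omega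
          norm_num
        · obtain rfl : c = 1 := by omega
          norm_num
      linarith
    have hc6 : c ^ 2 = 1 := by rcases h.sign with rfl | rfl <;> simp [hcd]
    rw [hc6, hcd, sub_self] at hnorm
    have h3 : Y.card = 3 ∨ Y.card = 4 := by
      have : Y.card ≠ 2 := fun h => hc2 ⟨h, hcd⟩
      omega
    rcases h3 with h3 | h3
    · have h10 : p ^ k = 10 := by omega
      have hp : p.Prime := Fact.out
      have e2 := (Nat.prime_dvd_prime_iff_eq Nat.prime_two hp).1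
        (Nat.prime_two.dvd_of_dvd_pow (h10 ▸ (by norm_num : 2 ∣ 10)))
      have e5 := (Nat.prime_dvd_prime_iff_eq Nat.prime_five hp).1
        (Nat.prime_five.dvd_of_dvd_pow (h10 ▸ (by norm_num : 5 ∣ 10)))
      omega
    · obtain ⟨η, hη⟩ : Y.Nonempty := Finset.card_pos.1 (by omega)
      have e0 : X.erase (H33.oneIrr G) = ∅ := by
        by_contra hne
        obtain ⟨χ, hχ⟩ := Finset.nonempty_iff_ne_empty.2 hne
        have := Finset.single_le_sum (f := fun χ => a χ ^ 2) (fun _ _ => sq_nonneg _) hχ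
        have := hane χ hχ
        rw [h3] at hnorm
        push_cast at hnorm
        linarith
      have := hrel1.2 η hη
      rw [hsum _ (fun χ h => by simp [h]), e0, Finset.sum_empty, h3, ha1, hcd, H33.oneIrr_apply,
        ← H84.cast_deg] at this
      have e : ((4 * δ - δ) * charDegree (η : G → ℂ) + 1 : ℤ) = 0 := by
        apply Int.cast_injective (α := ℂ)
        push_cast at this ⊢
        linear_combination this
      rcases h.sign with rfl | rfl <;> omega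
  subst hc0
  have hδ2 : δ ^ 2 = 1 := by rcases h.sign with rfl | rfl <;> simp
  have hs2 : ∑ χ ∈ X.erase (H33.oneIrr G), a χ ^ 2 = 2 := by
    push_cast at hnorm
    nlinarith
  have hpm : ∀ χ ∈ X.erase (H33.oneIrr G), a χ = 1 ∨ a χ = -1 := fun χ hχ => by
    have h2 := Finset.single_le_sum (f := fun χ => a χ ^ 2) (fun _ _ => sq_nonneg _) hχ
    have h3 := hane χ hχ
    rw [hs2] at h2
    have : -2 < a χ := by nlinarith
    have : a χ < 2 := by nlinarith
    have : a χ ≠ 0 := by rintro h0; simp [h0] at h3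
    omega
  have hcX : (X.erase (H33.oneIrr G)).card = 2 := by
    rw [Finset.sum_congr rfl (g := fun _ => (1 : ℤ))
      fun χ hχ => by rcases hpm χ hχ with h | h <;> simp [h]] at hs2
    simp only [Finset.sum_const, nsmul_eq_mul, mul_one] at hs2
    exact_mod_cast hs2
  have hone' : ∀ χ : IrrCharacter G, (χ : G → ℂ) = (fun _ => 1) ↔ χ = H33.oneIrr G := fun χ =>
    ⟨fun h => Subtype.ext h, fun h => h ▸ rfl⟩
  have hvalX : ∀ χ ∈ X, ∀ u : (P : Subgroup G), u ≠ 1 → (χ : G → ℂ) u = a χ := fun χ hχ u hu => by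
    rw [← h.const χ ((hXm χ).1 hχ).2 u hu, H85.valOn_of_mem _ ((hXm χ).1 hχ).1]
  have hvalY : ∀ ψ, ψ ≠ 1 → ∀ u : (P : Subgroup G), u ≠ 1 → (ζ ψ : G → ℂ) u =
      δ * ∑ e : H85.autz (P : Subgroup G), ((ψ ((e : MulAut (P : Subgroup G)) u) : ℂˣ) : ℂ) := by
    intro ψ hψ u hu
    have := h.val ψ hψ u hu
    rwa [H85.valOn_of_mem _ (H84.mem_bset.1 (hY ((h.mem _).2 ⟨ψ, hψ, rfl⟩))), Int.cast_zero,
      zero_add] at this
  refine ⟨X, Y, ?_, ?_, ?_, by simp [hYc], ⟨_, h1X, rfl⟩, a, δ, ζ, h.sign,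
    fun χ hχ => ⟨?_, fun z y hz hy hy1 => ?_⟩,
    fun ψ hψ => (h.mem _).2 ⟨ψ, hψ, rfl⟩, fun η hη => (h.mem _).1 hη, fun ψ ψ' hψ hψ' => ?_,
    fun ψ hψ z y hz hy => ?_, ?_⟩
  · rw [← Finset.coe_union, hX, Finset.sdiff_union_of_subset hY, H84.coe_bset]
  · exact Finset.disjoint_coe.2 Finset.sdiff_disjoint
  · rw [Finset.card_erase_of_mem h1X] at hcX
    simp only [Finset.coe_sort_coe, Nat.card_eq_fintype_card, Fintype.card_coe]
    omega
  · by_cases h' : χ = H33.oneIrr G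
    · exact .inl (h' ▸ ha1)
    · exact hpm χ (Finset.mem_erase.2 ⟨h', hχ⟩)
  · rw [hsec χ ((hXm χ).1 hχ).1 z ⟨y, hy⟩ hz hy1]
    exact h.const χ ((hXm χ).1 hχ).2 _ fun h => hy1 (congrArg Subtype.val h)
  · obtain ⟨e, he, rfl⟩ := (H85.conj_rel_iff ψ ψ').1 hψ'
    exact ((h.eq_iff ψ _ hψ (H85.cmp_ne_one hψ e)).2 ⟨e, he, rfl⟩).symm
  · rw [H85.finsum_conj_rel hF hψ, hsec _ (H84.mem_bset.1 (hY ((h.mem _).2 ⟨ψ, hψ, rfl⟩))) z y hz hy,
      H85.valOn_of_mem _ (H84.mem_bset.1 (hY ((h.mem _).2 ⟨ψ, hψ, rfl⟩)))]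
    exact hvalY ψ hψ y fun h => hy (congrArg Subtype.val h)
  rintro ⟨t, ht, htK⟩
  obtain ⟨χ₂, χ₃, h23, hX23⟩ := Finset.card_eq_two.1 hcX
  have m2 : χ₂ ∈ X.erase (H33.oneIrr G) := by simp [hX23]
  have m3 : χ₃ ∈ X.erase (H33.oneIrr G) := by simp [hX23]
  have hker : ∀ χ : IrrCharacter G, χ ≠ H33.oneIrr G → (χ : G → ℂ) t ≠ (χ : G → ℂ) 1 := by
    intro χ hχ h'
    have := htK _ (H6.charKer_normal (χ : G → ℂ)) ((H6.mem_charKer (H84.irr_char χ)).2 h')
    have h3 : ∀ g, (χ : G → ℂ) g = (χ : G → ℂ) 1 := fun g =>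
      (H6.mem_charKer (H84.irr_char χ)).1 (this ▸ Subgroup.mem_top g)
    let := Fintype.ofFinite G
    refine hχ (Subtype.ext (H6.irr_eq_of_inner_ne_zero χ.2 H6.isIrrCharacter_one ?_))
    show classInner (χ : G → ℂ) (fun _ => 1) ≠ 0
    rw [H6.classInner_one_right, Finset.sum_congr rfl fun g _ => h3 g, Finset.sum_const,
      Finset.card_univ, ← Nat.card_eq_fintype_card, nsmul_eq_mul]
    exact mul_ne_zero (inv_ne_zero H6.card_ne_zero) (mul_ne_zero H6.card_ne_zero (H6.irr_one_ne_zero χ.2))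
  have ht2 : t * t = 1 := by rw [← pow_two, ← ht, pow_orderOf_eq_one]
  have hdeg : ∀ η ∈ Y, 1 + a χ₂ * charDegree (χ₂ : G → ℂ) + a χ₃ * charDegree (χ₃ : G → ℂ) +
      (-δ) * charDegree (η : G → ℂ) = 0 := fun η hη => by
    have := hrel1.2 η hη
    rw [hsum _ (fun χ h => by simp [h]), hX23, Finset.sum_pair h23, ha1, H33.oneIrr_apply] at this
    simp only [← H84.cast_deg] at this
    apply Int.cast_injective (α := ℂ)
    push_cast at this ⊢
    linear_combination this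
  have hd0 : ∀ χ : IrrCharacter G, ((charDegree (χ : G → ℂ) : ℕ) : ℂ) ≠ 0 := fun χ => by
    exact_mod_cast (H84.deg_pos χ).ne'
  by_cases hp2 : p = 2
  · exfalso
    subst hp2
    obtain ⟨x, hx⟩ := (show H35.IsPElt 2 t from ⟨1, by simp [ht]⟩).exists_conj_mem P
    set t' : (P : Subgroup G) := ⟨_, hx⟩ with ht'
    have htt : ∀ χ : IrrCharacter G, (χ : G → ℂ) t' = (χ : G → ℂ) t := fun χ => H84.irr_class χ t x
    have ht'2 : t' * t' = 1 := Subtype.ext (H33.mul_self_of_isConj ht2 (isConj_iff.2 ⟨x, rfl⟩))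
    have ht'1 : t' ≠ 1 := fun h => by
      have : t = 1 := by simpa [ht'] using congrArg Subtype.val h
      simp [this] at ht
    have hk4 : 4 ≤ k := by
      by_contra hk4
      have : k ≤ 3 := by omega
      interval_cases k <;> omega
    have h16 : 16 ∣ Nat.card (P : Subgroup G) := hk ▸ pow_dvd_pow 2 hk4
    obtain ⟨u, hu⟩ : ∃ u : (P : Subgroup G), ∀ e ∈ H85.autz (P : Subgroup G),
        ∀ f ∈ H85.autz (P : Subgroup G), e t' * f t' ≠ u := by
      by_contra hn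
      push Not at hn
      have := Nat.card_le_card_of_surjective (fun ef : H85.autz (P : Subgroup G) × H85.autz (P : Subgroup G) =>
        (ef.1 : MulAut (P : Subgroup G)) t' * (ef.2 : MulAut (P : Subgroup G)) t') (fun u => by
          obtain ⟨e, he, f, hf, h⟩ := hn u
          exact ⟨(⟨e, he⟩, ⟨f, hf⟩), h⟩)
      rw [Nat.card_prod, hE] at this
      have := Nat.le_of_dvd Nat.card_pos h16
      omega
    have hu1 : u ≠ 1 := fun h => hu 1 (Subgroup.one_mem _) 1 (Subgroup.one_mem _) (by simpa [h] using ht'2)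
    have e0 := H34.sum_mul_mul_conj_div_eq_zero hM hB (u := t') (v := t') (g := u) fun a b h => by
      obtain ⟨e, he, f, hf, h⟩ := mem_of_pPart P hF hE ht'2 a b h
      exact hu e he f hf h
    obtain ⟨η, hη⟩ : Y.Nonempty := Finset.card_pos.1 (by omega)
    have e1 := h.sum_Y hF.free (fun χ => (χ : G → ℂ) t' * (χ : G → ℂ) t' / (χ : G → ℂ) 1 *
      conj ((χ : G → ℂ) u))
    rw [Finset.sum_congr rfl (g := fun ψ => δ / (η : G → ℂ) 1 *
      ((∑ e : H85.autz (P : Subgroup G), ((ψ ((e : MulAut (P : Subgroup G)) t') : ℂˣ) : ℂ)) *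
      (∑ e : H85.autz (P : Subgroup G), ((ψ ((e : MulAut (P : Subgroup G)) t') : ℂˣ) : ℂ)) *
      conj (∑ e : H85.autz (P : Subgroup G), ((ψ ((e : MulAut (P : Subgroup G)) u) : ℂˣ) : ℂ)))),
      ← Finset.mul_sum, sum_cube t' u hu, hE] at e1
    swap
    · intro ψ hψ
      have hψ := Finset.ne_of_mem_erase hψ
      have hδc : (δ : ℂ) ^ 2 = 1 := by exact_mod_cast hδ2
      rw [hvalY ψ hψ t' ht'1, hvalY ψ hψ u hu1, hrel1.1 _ ((h.mem _).2 ⟨ψ, hψ, rfl⟩) η hη, map_mul,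
        map_intCast]
      linear_combination (δ / (η : G → ℂ) 1 *
        ((∑ e : H85.autz (P : Subgroup G), ((ψ ((e : MulAut (P : Subgroup G)) t') : ℂˣ) : ℂ)) *
        (∑ e : H85.autz (P : Subgroup G), ((ψ ((e : MulAut (P : Subgroup G)) t') : ℂˣ) : ℂ)) *
        conj (∑ e : H85.autz (P : Subgroup G), ((ψ ((e : MulAut (P : Subgroup G)) u) : ℂˣ) : ℂ)))) * hδc
    rw [← Finset.sum_sdiff hY, ← hX, ← Finset.add_sum_erase _ _ h1X, hX23, Finset.sum_pair h23,
      hvalX _ (Finset.mem_of_mem_erase m2) t' ht'1, hvalX _ (Finset.mem_of_mem_erase m2) u hu1,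
      hvalX _ (Finset.mem_of_mem_erase m3) t' ht'1, hvalX _ (Finset.mem_of_mem_erase m3) u hu1] at e0
    simp only [H33.oneIrr_apply, map_intCast, ← H84.cast_deg] at e0 e1
    have hcong : ∀ χ ∈ X.erase (H33.oneIrr G), 16 ∣ a χ * charDegree (χ : G → ℂ) - 1 ∧
        a χ * charDegree (χ : G → ℂ) ≠ 1 := fun χ hχ => by
      obtain ⟨n, hn⟩ := H33.sum_char_subgroup (H84.irr_char χ) (P : Subgroup G)
      rw [← Finset.add_sum_erase _ _ (Finset.mem_univ 1), Finset.sum_congr rfl fun x hx =>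
        hvalX χ (Finset.mem_of_mem_erase hχ) x (Finset.ne_of_mem_erase hx), Finset.sum_const,
        Finset.card_erase_of_mem (Finset.mem_univ _), Finset.card_univ, ← Nat.card_eq_fintype_card,
        Subgroup.coe_one, ← H84.cast_deg, nsmul_eq_mul, Nat.cast_sub Nat.card_pos] at hn
      obtain ⟨q, hq⟩ := h16
      rw [hq] at hn
      have hn' : (charDegree (χ : G → ℂ) : ℤ) + (16 * q - 1) * a χ = 16 * q * n := by exact_mod_cast hn
      have h5 := hker χ (Finset.ne_of_mem_erase hχ)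
      rw [← htt, hvalX χ (Finset.mem_of_mem_erase hχ) t' ht'1, ← H84.cast_deg] at h5
      have h6 : a χ ≠ charDegree (χ : G → ℂ) := fun h => h5 (by exact_mod_cast h)
      rcases hpm χ hχ with h | h <;> rw [h] at hn' h6 ⊢
      · exact ⟨⟨q * n - q, by linarith⟩, by omega⟩
      · exact ⟨⟨-q * n - q, by linarith⟩, by omega⟩
    refine num2 _ _ (δ * charDegree (η : G → ℂ)) (hcong _ m2).1 (hcong _ m3).1 (hcong _ m2).2
      (hcong _ m3).2 (by linarith [hdeg η hη]) ?_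
    apply Complex.ofReal_injective
    push_cast
    have := hd0 χ₂
    have := hd0 χ₃
    have := hd0 η
    generalize (∑ i ∈ Y, (i : G → ℂ) t' * (i : G → ℂ) t' / (charDegree (i : G → ℂ) : ℕ) *
      conj ((i : G → ℂ) u)) = S at e0 e1
    have e2 : S = -9 * δ / (charDegree (η : G → ℂ) : ℕ) := by
      push_cast at e1
      linear_combination (-1 / 3 : ℂ) * e1
    rw [e2] at e0
    rcases hpm _ m2 with h2 | h2 <;> rcases hpm _ m3 with h3 | h3 <;> rcases h.sign with h4 | h4 <;>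
      simp only [h2, h3, h4, map_one] at e0 ⊢ <;> push_cast at e0 ⊢ <;> field_simp at e0 ⊢ <;>
      linear_combination e0
  have hpt : ¬ p ∣ orderOf t := by
    rw [ht, Nat.prime_dvd_prime_iff_eq Fact.out Nat.prime_two]
    exact hp2
  have hrelt := h.rel _ (hrel t hpt)
  have hrel2 := h.rel (fun χ => (χ : G → ℂ) t ^ 2 / (χ : G → ℂ) 1) fun u hu => by
    rw [H85.sum_mul_conj_valOn]
    have hue := H35.isPElt_of_mem P.isPGroup' u.2
    have := H33.sum_invol_eq_zero hM hB ht2 hue.inv fun s _ hs => by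
      have h3 := inv_eq_of_isConj P hF hE (u := u) (isConj_iff.2 ⟨s, hs.trans (inv_inv _)⟩).symm
      have h4 : (u : G) ^ 2 = 1 := by
        rw [pow_two, ← inv_eq_iff_mul_eq_one]
        exact congrArg Subtype.val h3
      have h5 := hue.dvd_orderOf fun h => hu (Subtype.ext h)
      exact hp2 ((Nat.prime_dvd_prime_iff_eq Fact.out Nat.prime_two).1
        (h5.trans (orderOf_dvd_of_pow_eq_one h4)))
    rw [← this]
    refine Finset.sum_congr rfl fun χ _ => ?_
    rw [H6.char_inv (H84.irr_char χ)]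
    ring
  choose v hv _ using fun χ : IrrCharacter G => Cfsg.Agent.S0944.result χ t ht
  have key : ∀ η ∈ Y, (if a χ₂ = -1 then 1 else 0) + (if a χ₃ = -1 then 1 else 0) +
      (if -δ = -1 then 1 else 0) = 2 ∧
      IsSquare (charDegree (η : G → ℂ) * (charDegree (χ₂ : G → ℂ) * charDegree (χ₃ : G → ℂ))) := by
    intro η hη
    have f1 := hrelt.2 η hη
    have f2 := hrel2.2 η hη
    rw [hsum _ (fun χ h => by simp [h]), hX23, Finset.sum_pair h23, ha1] at f1 f2
    simp only [H33.oneIrr_apply, hv η, hv χ₂, hv χ₃, ← H84.cast_deg] at f1 f2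
    have f0 := hdeg η hη
    have f0' := congrArg (Int.cast : ℤ → ℂ) f0
    have hne : ∀ χ ∈ X.erase (H33.oneIrr G), v χ - charDegree (χ : G → ℂ) ≠ 0 := fun χ hχ h => by
      apply hker χ (Finset.ne_of_mem_erase hχ)
      rw [hv, ← H84.cast_deg, sub_eq_zero.1 h, Int.cast_natCast]
    refine num _ _ _ (hpm _ m2) (hpm _ m3) (by rcases h.sign with h | h <;> simp [h]) _ _ _
      (H84.deg_pos _) (H84.deg_pos _) (H84.deg_pos _) (v χ₂ - charDegree (χ₂ : G → ℂ))
      (v χ₃ - charDegree (χ₃ : G → ℂ)) (v η - charDegree (η : G → ℂ)) f0 ?_ ?_ (hne _ m2) (hne _ m3)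
    · apply Int.cast_injective (α := ℂ)
      push_cast at f1 f0' ⊢
      linear_combination f1 - f0'
    · apply Int.cast_injective (α := ℂ)
      have := hd0 χ₂
      have := hd0 χ₃
      have := hd0 η
      push_cast at f1 f2 f0' ⊢
      field_simp at f2
      linear_combination f2 + ((charDegree (η : G → ℂ) : ℕ) * (charDegree (χ₂ : G → ℂ) : ℕ) *
        (charDegree (χ₃ : G → ℂ) : ℕ) : ℂ) * (f0' - 2 * f1)
  have hset : ∀ χ : IrrCharacter G, (χ ∈ (X : Set (IrrCharacter G)) ∧ (χ : G → ℂ) ≠ fun _ => 1) ↔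
      χ ∈ ({χ₂, χ₃} : Finset (IrrCharacter G)) := fun χ => by
    rw [← hX23, Finset.mem_erase, Ne, hone', Finset.mem_coe, and_comm]
  obtain ⟨η, hη⟩ : Y.Nonempty := Finset.card_pos.1 (by omega)
  refine ⟨?_, fun η hη => ?_⟩
  · rw [Nat.subtype_card (({χ₂, χ₃} : Finset (IrrCharacter G)).filter fun χ => a χ = -1)
      (fun χ => by rw [Finset.mem_filter, ← hset, and_assoc]), Finset.card_filter, Finset.sum_pair h23,
      ← (key η hη).1]
    simp only [neg_inj]
  · have : {χ : IrrCharacter G | χ ∈ (X : Set (IrrCharacter G)) ∧ (χ : G → ℂ) ≠ fun _ => 1} =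
        ({χ₂, χ₃} : Finset (IrrCharacter G)) := Set.ext hset
    rw [this, finprod_mem_coe_finset, Finset.prod_pair h23]
    exact (key η hη).2

end Cfsg.Agent.S4721
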