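import Cfsg.Statements.S4722
import Mathlib
import Cfsg.Agent.Lib.Block.Column

set_option autoImplicit false
set_option linter.style.haveILetI false
open Cfsg

namespace Cfsg.Agent.S4722

/-- Let M be a maximal ideal of the algebraic integers containing 2, P a 2-subgroup of the finite group G, U a subset of P, and t an involution of G such that no element of U is inverted by any conjugate of t. Let θ be a generalized character of P vanishing outside U, and for χ in the principal 2-block B₀ put a_χ = #P⁻¹ Σ_{y ∈ P} χ(y) θ(y⁻¹). Then Σ_{χ ∈ B₀} a_χ χ(t)^2/χ(1) = 0, Σ_{χ ∈ B₀} a_χ χ(1) = 0 and Σ_{χ ∈ B₀} a_χ χ(t) = 0. If moreover #P⁻¹ Σ_{y ∈ P} θ(y) ≠ 0, then either at least two of the a_χ have positive real part and at least two have negative real part, or G has a proper normal subgroup containing O_2'(G) and t. -/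
theorem result {G : Type*} [Group G] [Finite G] (M : Ideal Cfsg.AlgInt) (hM : Cfsg.IsPModular 2 M) (P : Subgroup G) (hP : IsPGroup 2 P) (U : Set G) (hUP : U ⊆ (P : Set G)) (t : G) (ht : orderOf t = 2) (hinv : ∀ u ∈ U, ∀ g : G, (g * t * g⁻¹) * u * (g * t * g⁻¹)⁻¹ ≠ u⁻¹) (θ : ↥P → ℂ) (hθ : Cfsg.IsGeneralizedCharacter ↥P θ) (hθU : ∀ y : ↥P, (y : G) ∉ U → θ y = 0) : (∑ᶠ χ ∈ Cfsg.principalBlock M G, ((Nat.card ↥P : ℂ)⁻¹ * ∑ᶠ y : ↥P, (χ : G → ℂ) (y : G) * θ y⁻¹) * (χ : G → ℂ) t ^ 2 / (χ : G → ℂ) 1 = 0) ∧ (∑ᶠ χ ∈ Cfsg.principalBlock M G, ((Nat.card ↥P : ℂ)⁻¹ * ∑ᶠ y : ↥P, (χ : G → ℂ) (y : G) * θ y⁻¹) * (χ : G → ℂ) 1 = 0) ∧ (∑ᶠ χ ∈ Cfsg.principalBlock M G, ((Nat.card ↥P : ℂ)⁻¹ * ∑ᶠ y : ↥P, (χ : G → ℂ) (y : G) * θ y⁻¹) * (χ : G → ℂ) t = 0) ∧ ((Nat.card ↥P : ℂ)⁻¹ * ∑ᶠ y : ↥P, θ y ≠ 0 → (2 ≤ Nat.card {χ : Cfsg.IrrCharacter G // χ ∈ Cfsg.principalBlock M G ∧ 0 < (((Nat.card ↥P : ℂ)⁻¹ * ∑ᶠ y : ↥P, (χ : G → ℂ) (y : G) * θ y⁻¹)).re}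 ∧ 2 ≤ Nat.card {χ : Cfsg.IrrCharacter G // χ ∈ Cfsg.principalBlock M G ∧ (((Nat.card ↥P : ℂ)⁻¹ * ∑ᶠ y : ↥P, (χ : G → ℂ) (y : G) * θ y⁻¹)).re < 0}) ∨ ∃ K : Subgroup G, K.Normal ∧ K ≠ ⊤ ∧ Cfsg.pPrimeCore 2 G ≤ K ∧ t ∈ K) := by
  classical
  haveI := H33.isMaximal_of hM
  letI := Fintype.ofFinite P
  have ht2 : t * t = 1 := by rw [← sq, ← ht, pow_orderOf_eq_one]
  rw [H84.finsum_mem_eq, H84.finsum_mem_eq, H84.finsum_mem_eq]
  simp only [finsum_eq_sum_of_fintype]
  set a : IrrCharacter G → ℂ := fun χ => (Nat.card P : ℂ)⁻¹ * ∑ y : P, (χ : G → ℂ) (y : G) * θ y⁻¹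
    with ha
  have hU : ∀ y : P, θ y⁻¹ ≠ 0 → (y : G) ∈ U := fun y hy => by
    by_contra h
    exact hy (by rw [H6.gen_inv hθ, hθU y h, map_zero])
  have key : ∀ F : IrrCharacter G → ℂ, (∀ u ∈ U, ∑ χ ∈ H84.bset (principalBlock M G),
      (χ : G → ℂ) u * F χ = 0) → ∑ χ ∈ H84.bset (principalBlock M G), a χ * F χ = 0 := by
    intro F hF
    have : ∑ χ ∈ H84.bset (principalBlock M G), a χ * F χ = (Nat.card P : ℂ)⁻¹ * ∑ y : P, θ y⁻¹ *
        ∑ χ ∈ H84.bset (principalBlock M G), (χ : G → ℂ) (y : G) * F χ := by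
      simp only [ha, Finset.mul_sum, Finset.sum_mul]
      rw [Finset.sum_comm]
      exact Finset.sum_congr rfl fun y _ => Finset.sum_congr rfl fun χ _ => by ring
    rw [this, Finset.sum_eq_zero, mul_zero]
    intro y _
    by_cases hy : θ y⁻¹ = 0
    · rw [hy, zero_mul]
    · rw [hF _ (hU y hy), mul_zero]
  have hni : ∀ u ∈ U, ∀ s, IsConj t s → s * u * s⁻¹ ≠ u⁻¹ := fun u hu s hs => by
    obtain ⟨g, rfl⟩ := isConj_iff.1 hs
    exact hinv u hu g
  have hp : ∀ u ∈ U, H35.IsPElt 2 u := fun u hu => H35.isPElt_of_mem hP (hUP hu)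
  have e1 : ∑ χ ∈ H84.bset (principalBlock M G), a χ * (χ : G → ℂ) t ^ 2 / (χ : G → ℂ) 1 = 0 := by
    simp only [mul_div_assoc]
    refine key _ fun u hu => ?_
    simp only [← mul_div_assoc]
    exact H33.sum_invol_eq_zero hM H84.isPBlock_principal ht2 (hp u hu) (hni u hu)
  have e2 : ∑ χ ∈ H84.bset (principalBlock M G), a χ * (χ : G → ℂ) 1 = 0 := by
    refine key _ fun u hu => ?_
    have := H33.col_eq_zero_of_pElt hM H84.isPBlock_principal (hp u hu) H35.isPElt_one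
      (fun h => hni u hu t (IsConj.refl t) (by rw [isConj_one_left.1 h]; simp))
    simpa only [H84.conj_irr_one] using this
  have e3 : ∑ χ ∈ H84.bset (principalBlock M G), a χ * (χ : G → ℂ) t = 0 := by
    refine key _ fun u hu => ?_
    have := H33.col_eq_zero_of_pElt hM H84.isPBlock_principal (hp u hu) (h := t) ⟨1, by simp [ht]⟩
      (fun h => hni u hu u h.symm (by
        rw [mul_inv_cancel_right, eq_inv_iff_mul_eq_one]
        exact H33.mul_self_of_isConj ht2 h.symm))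
    simpa only [H33.irr_conj_of_mul_self _ ht2] using this
  refine ⟨e1, e2, e3, fun h0 => ?_⟩
  have hre : ∀ χ : IrrCharacter G, ((a χ).re : ℂ) = a χ := fun χ => by
    obtain ⟨n, hn⟩ := H6.gen_inner_int (H6.isGen_restrict P (H84.irr_gen χ)) hθ
    have : a χ = n := by
      rw [← hn, H6.classInner_def]
      simp only [ha, H6.gen_inv hθ]
    rw [this]; simp
  have htre : ∀ χ : IrrCharacter G, ((((χ : G → ℂ) t).re : ℝ) : ℂ) = (χ : G → ℂ) t := fun χ =>
    Complex.conj_eq_iff_re.1 (H33.irr_conj_of_mul_self χ ht2)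
  have h1 : a (H84.irrOne G) ≠ 0 := by
    simp only [ha, H84.irrOne_coe, one_mul]
    rwa [← Equiv.sum_comp (Equiv.inv P)] at h0
  set x : IrrCharacter G → ℝ := fun χ => charDegree (χ : G → ℂ) with hx
  set r : IrrCharacter G → ℝ := fun χ => ((χ : G → ℂ) t).re / x χ with hr
  have hxc : ∀ χ : IrrCharacter G, (x χ : ℂ) = (χ : G → ℂ) 1 := fun χ => by
    rw [← H84.cast_deg]; simp [hx]
  have hxpos : ∀ χ : IrrCharacter G, 0 < x χ := fun χ => by
    simpa [hx] using H84.deg_pos χ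
  have main : ∀ b : IrrCharacter G → ℝ, ∀ c : ℂ, c ≠ 0 → (∀ χ, (b χ : ℂ) = c * a χ) →
      ¬ 2 ≤ Nat.card {χ : IrrCharacter G // χ ∈ principalBlock M G ∧ 0 < b χ} →
      ∃ K : Subgroup G, K.Normal ∧ K ≠ ⊤ ∧ pPrimeCore 2 G ≤ K ∧ t ∈ K := by
    intro b c hc hb hcard
    obtain ⟨j, hj⟩ : ∃ j, ∀ i ∈ H84.bset (principalBlock M G), 0 < b i → i = j := by
      by_cases hne : ∃ i ∈ H84.bset (principalBlock M G), 0 < b i
      · obtain ⟨j, hj1, hj2⟩ := hne
        refine ⟨j, fun i hi1 hi2 => ?_⟩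
        have hsub : Subsingleton {χ : IrrCharacter G // χ ∈ principalBlock M G ∧ 0 < b χ} :=
          Finite.card_le_one_iff_subsingleton.1 (by omega)
        exact congrArg Subtype.val (hsub.elim ⟨i, H84.mem_bset.1 hi1, hi2⟩
          ⟨j, H84.mem_bset.1 hj1, hj2⟩)
      · exact ⟨H84.irrOne G, fun i hi1 hi2 => absurd ⟨i, hi1, hi2⟩ hne⟩
    have s0 : ∑ i ∈ H84.bset (principalBlock M G), b i * x i = 0 := by
      apply Complex.ofReal_injective
      push_cast
      simp only [hb, hxc, mul_assoc, ← Finset.mul_sum, e2, mul_zero]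
    have hall := H33.eq_of_three_sums _ b x r (fun i _ => hxpos i) s0 (by
      apply Complex.ofReal_injective
      push_cast
      rw [← mul_zero c, ← e3, Finset.mul_sum]
      refine Finset.sum_congr rfl fun χ _ => ?_
      have := H84.irr_one_ne_zero χ
      simp only [hr, Complex.ofReal_div, hb, hxc, htre]
      field_simp) (by
      apply Complex.ofReal_injective
      push_cast
      rw [← mul_zero c, ← e1, Finset.mul_sum]
      refine Finset.sum_congr rfl fun χ _ => ?_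
      have := H84.irr_one_ne_zero χ
      simp only [hr, Complex.ofReal_div, hb, hxc, htre]
      field_simp) j hj
    have hone := H84.mem_bset.2 (H84.irrOne_mem_principal (M := M) (G := G))
    have hb1 : b (H84.irrOne G) ≠ 0 := fun h => by
      have := hb (H84.irrOne G)
      rw [h, Complex.ofReal_zero] at this
      exact mul_ne_zero hc h1 this.symm
    obtain ⟨χ, hχ, hne, hbχ⟩ : ∃ χ ∈ H84.bset (principalBlock M G), χ ≠ H84.irrOne G ∧ b χ ≠ 0 := by
      by_contra hcon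
      push Not at hcon
      rw [Finset.sum_eq_single_of_mem _ hone (fun i hi hne => by rw [hcon i hi hne, zero_mul])] at s0
      exact mul_ne_zero hb1 (hxpos _).ne' s0
    have hr1 : r χ = 1 := by
      rw [hall χ hχ hbχ, ← hall _ hone hb1]
      simp [hr, hx, H84.deg_irrOne, H84.irrOne_coe, H84.charDegree_eq_of (n := 1)]
    have hker : (χ : G → ℂ) t = (χ : G → ℂ) 1 := by
      rw [← htre, ← hxc]
      congr 1
      exact (div_eq_one_iff_eq (hxpos χ).ne').1 hr1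
    refine ⟨H6.charKer (χ : G → ℂ), inferInstance, fun htop => hne ?_, fun n hn =>
      (H6.mem_charKer (H84.irr_char χ)).2
        (H34.principal_apply_of_mem_pPrimeCore hM (H84.mem_bset.1 hχ) hn),
      (H6.mem_charKer (H84.irr_char χ)).2 hker⟩
    have h2 : ∀ g, (χ : G → ℂ) g = (χ : G → ℂ) 1 := fun g =>
      (H6.mem_charKer (H84.irr_char χ)).1 (by rw [htop]; trivial)
    letI := Fintype.ofFinite G
    refine Subtype.ext (H6.irr_eq_of_inner_ne_zero χ.2 H6.isIrrCharacter_one ?_)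
    rw [H6.classInner_def]
    simp only [h2, H84.irrOne_coe, map_one, mul_one, Finset.sum_const, Finset.card_univ, nsmul_eq_mul]
    exact mul_ne_zero (inv_ne_zero H6.card_ne_zero)
      (mul_ne_zero (Nat.cast_ne_zero.2 Fintype.card_ne_zero) (H84.irr_one_ne_zero χ))
  by_cases c1 : 2 ≤ Nat.card {χ : IrrCharacter G // χ ∈ principalBlock M G ∧ 0 < (a χ).re}
  · by_cases c2 : 2 ≤ Nat.card {χ : IrrCharacter G // χ ∈ principalBlock M G ∧ (a χ).re < 0}
    · exact Or.inl ⟨c1, c2⟩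
    · refine Or.inr (main (fun χ => -(a χ).re) (-1) (by norm_num) (fun χ => ?_) (by simpa using c2))
      push_cast
      rw [hre]; ring
  · exact Or.inr (main (fun χ => (a χ).re) 1 one_ne_zero (fun χ => by rw [hre, one_mul]) c1)

end Cfsg.Agent.S4722
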