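import Cfsg.Statements.S4723
import Mathlib
import Cfsg.Agent.Lib.Blk86.Cov
import Cfsg.Agent.Lib.Block.Inert

set_option autoImplicit false
open Cfsg

namespace Cfsg.Agent.S4723

set_option linter.style.haveILetI false
set_option linter.unusedVariables false

open H86 H33
attribute [local irreducible] H33.instFieldF

/-- Let p be a prime, M a maximal ideal of the algebraic integers containing p, H a normal subgroup of the finite group G and b a p-block of H. Let T be the stabilizer of b in G. Then b contains a character θ of height zero whose own stabilizer in G (the elements g with θ(g h g⁻¹) = θ(h) for all h ∈ H) has index prime to p in T, i.e. contains a Sylow p-subgroup of T. -/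
theorem result {G : Type*} [Group G] [Finite G] (p : ℕ) [Fact p.Prime] (M : Ideal Cfsg.AlgInt) (hM : Cfsg.IsPModular p M) (H : Subgroup G) [H.Normal] (b : Set (Cfsg.IrrCharacter ↥H)) (hb : Cfsg.IsPBlock M b) (T : Subgroup G) (hT : (∀ g : G, g ∈ T ↔ ∀ θ ∈ b, ∀ θ' : Cfsg.IrrCharacter ↥H, (∀ h h' : ↥H, (h' : G) = g * h * g⁻¹ → (θ' : ↥H → ℂ) h' = (θ : ↥H → ℂ) h) → θ' ∈ b)) : ∃ θ ∈ b, Cfsg.blockHeight p b (θ : ↥H → ℂ) = 0 ∧ ∃ S : Subgroup G, S ≤ T ∧ (∀ g : G, g ∈ S ↔ (g ∈ T ∧ ∀ h h' : ↥H, (h' : G) = g * h * g⁻¹ → (θ : ↥H → ℂ) h' = (θ : ↥H → ℂ) h)) ∧ ¬ p ∣ S.relIndex T := by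
  classical
  haveI := isMaximal_of hM; haveI := charP hM; haveI := good hM G
  haveI := Fintype.ofFinite G
  have hp : p.Prime := Fact.out
  have hbb := isBlk_eS hb
  have hT' : ∀ g, g ∈ T ↔ cj g (eS M H b) = eS M H b := fun g =>
    (hT g).trans (H35.stab_iff_cj hb (H35.cs_eq_of_normal g))
  have hHT : H ≤ T := fun g hg => (hT' g).2 (hbb.inv.cj_eq hg)
  obtain ⟨P, hP⟩ := exists_isSyl p T
  have hn : ∀ K : Subgroup G, K ≤ Nor H := fun K => le_top.trans (Subgroup.normalizer_eq_top H).ge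
  have hq := pQuot_sup hP.pgrp (hn P)
  set L := P ⊔ H with hL
  have hHL : H ≤ L := le_sup_right
  have hLb : IsBlk L (eS M H b) := hq.isBlk hHL (hn L) hbb
    (inv_iff_cj.2 fun g hg => (hT' g).1 (sup_le hP.le hHT hg))
  obtain ⟨B, hB, hBe⟩ := hLb.exists_eS
  obtain ⟨D, hD⟩ := hLb.exists_isDef p
  have h1 := hD.sup_eq_of_pQuot hq hHL (hn L) hbb hLb
  have h2 := defect_card hM hb ((isDefectGroup_subgroupOf_iff hb inf_le_right).2
    (hD.stable hHL (hn L) hbb hLb).2)
  have h3 := defect_card hM hB ((isDefectGroup_subgroupOf_iff hB hD.le).2 (hBe ▸ hD))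
  rw [Nat.card_congr (Subgroup.subgroupOfEquivOfLe inf_le_right).toEquiv] at h2
  rw [Nat.card_congr (Subgroup.subgroupOfEquivOfLe hD.le).toEquiv, H35.card_eq_inf_mul D H,
    h2] at h3
  have h4 := H35.card_sup_normal D H
  rw [h1] at h4
  obtain ⟨χ, hχ, h0⟩ := H84.exists_height_zero (p := p) (H84.block_nonempty hB)
  obtain ⟨θ, hθ, ho⟩ := ((coversIn_iff hHL (hn L) hB hb).2 (by
    rw [← hBe, hbb.idem]; exact hbb.ne)).exists_under hHL hB hb hχ
  obtain ⟨e, he⟩ := H6.char_inner_nat (H7.isCharacter_res_le hHL (H84.irr_char χ)) (H84.irr_char θ)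
  have h5 := H7.clifford_degree_le hHL χ.2 θ.2 ho
  rw [he, irr_one_eq_charDegree, irr_one_eq_charDegree] at h5
  have h6 : charDegree (χ : L → ℂ) =
      e * (H7.inertia (θ : H → ℂ)).relIndex L * charDegree (θ : H → ℂ) := by exact_mod_cast h5
  have hne := charDegree_ne_zero χ
  rw [h6] at hne
  have h7 := H84.deg_factorization_add_defect (p := p) hχ
  have h8 := H84.deg_factorization_add_defect (p := p) hθ
  have hr : H.relIndex D ≠ 0 := Subgroup.index_ne_zero_of_finite
  have h9 := congrArg (fun n => n.factorization p) h3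
  simp only [Nat.factorization_mul (pow_pos hp.pos _).ne' hr, Finsupp.add_apply,
    hp.factorization_pow, Finsupp.single_eq_same] at h9
  rw [h0, h4, h6, Nat.factorization_mul Nat.card_pos.ne' hr,
    Nat.factorization_mul (left_ne_zero_of_mul hne) (right_ne_zero_of_mul hne),
    Nat.factorization_mul (left_ne_zero_of_mul (left_ne_zero_of_mul hne))
      (right_ne_zero_of_mul (left_ne_zero_of_mul hne))] at h7
  simp only [Finsupp.add_apply] at h7
  refine ⟨θ, hθ, by omega, T ⊓ H7.inertia (θ : H → ℂ), inf_le_left, fun g => ?_, ?_⟩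
  · rw [Subgroup.mem_inf, H7.mem_inertia']
    refine and_congr_right fun _ => ⟨fun h n n' hn' => ?_, fun h n => h n _ rfl⟩
    exact (congrArg _ (Subtype.ext hn')).trans (h n)
  · have h10 : ¬ p ∣ (H7.inertia (θ : H → ℂ)).relIndex L := fun h => by
      have := hp.factorization_pos_of_dvd (right_ne_zero_of_mul (left_ne_zero_of_mul hne)) h
      omega
    obtain ⟨Q, hQ⟩ := exists_isSyl p (H7.inertia (θ : H → ℂ) ⊓ L)
    have hQL : IsSyl p L Q := isSyl_of_not_dvd (hQ.le.trans inf_le_right) hQ.pgrp (by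
      rw [← Subgroup.relIndex_mul_relIndex _ _ _ hQ.le inf_le_right, Subgroup.inf_relIndex_right]
      exact fun h => (hp.dvd_mul.1 h).elim hQ.not_dvd_relIndex h10)
    have hQT := hP.of_card_le (hQL.le.trans (sup_le hP.le hHT)) hQ.pgrp
      (hQL.card_le le_sup_left hP.pgrp)
    exact fun h => hQT.not_dvd_relIndex (h.trans
      (Subgroup.relIndex_dvd_of_le_left _ (le_inf hQT.le (hQ.le.trans inf_le_left))))

end Cfsg.Agent.S4723
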