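import Mathlib
import Cfsg.Statements.S4724
import Cfsg.Agent.Lib.Prim88.TIEOdd
import Cfsg.Agent.Lib.Prim88.TIEEven
import Cfsg.Agent.S0806
import Cfsg.Agent.S0494
import Cfsg.Agent.S0253

set_option autoImplicit false
open Cfsg

namespace Cfsg.Agent.S4724

set_option linter.style.haveILetI false


/-- Let G be a transitive permutation group of prime degree p having exactly one irreducible character of degree p. Let P be a Sylow p-subgroup and suppose N_G(P) = P·E for a subgroup E with P ∩ E = 1, such that the normalizer of E has order 2·#E and E meets each of its conjugates by elements outside its normalizer trivially. Then p is 5, 7 or 11 and G is isomorphic to PSL(2, p). -/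
theorem result {α : Type*} [Fintype α] [DecidableEq α] {p : ℕ} [Fact p.Prime] (hα : Fintype.card α = p) (G : Subgroup (Equiv.Perm α)) [MulAction.IsPretransitive G α] (huniq : ∃! χ : Cfsg.IrrCharacter G, Cfsg.charDegree (χ : G → ℂ) = p) (P : Sylow p G) (E : Subgroup G) (hPE : (P : Subgroup G) ⊔ E = Subgroup.normalizer ((P : Subgroup G) : Set G)) (hPE' : (P : Subgroup G) ⊓ E = ⊥) (hNE : Nat.card (Subgroup.normalizer (E : Set G)) = 2 * Nat.card E) (hTI : ∀ g : G, g ∉ Subgroup.normalizer (E : Set G) → E ⊓ E.map (MulAut.conj g).toMonoidHom = ⊥) : (p = 5 ∨ p = 7 ∨ p = 11) ∧ ∃ (F : Type) (_ : Field F) (_ : Fintype F), Fintype.card F = p ∧ Nonempty (G ≃* Matrix.ProjectiveSpecialLinearGroup (Fin 2) F) := by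
  classical
  have hp : p.Prime := Fact.out
  have hα' : Nat.card α = p := by rw [Nat.card_eq_fintype_card, hα]
  obtain ⟨ψ, hψ, hu⟩ := huniq
  have hne : E ≠ ⊥ := by
    rintro rfl
    rw [Subgroup.card_bot, Subgroup.normalizer_eq_top_iff.2 inferInstance, Subgroup.card_top,
      mul_one] at hNE
    haveI := Fact.mk Nat.prime_two
    haveI := isCyclic_of_prime_card hNE
    have h1 := H6.irr_one_eq_one_of_comm (fun a b => (IsCyclic.commGroup (α := G)).mul_comm a b) ψ.2
    rw [Cfsg.charDegree, h1, Complex.one_re, Nat.floor_one] at hψ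
    exact hp.one_lt.ne hψ
  obtain ⟨T⟩ := H88.exists_TIE hα' P E hne hPE hPE' hNE hTI
  have hperf := T.commutator_eq_top ψ.2 hψ fun χ h1 h2 => congrArg Subtype.val (hu ⟨χ, h1⟩ h2)
  rcases Nat.even_or_odd (Nat.card T.E) with he | ho
  · obtain ⟨h5, h60⟩ := T.even_case hperf he
    haveI := T.isSimpleGroup hperf
    obtain ⟨e1⟩ := S0494.result h60
    haveI := Fact.mk Nat.prime_five
    obtain ⟨e2⟩ := S0253.result (F := ZMod 5) (ZMod.card 5)
    exact ⟨Or.inl h5, ZMod 5, inferInstance, inferInstance, by rw [ZMod.card, h5],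
      ⟨e1.trans e2.symm⟩⟩
  · obtain ⟨h7, ⟨e1⟩⟩ := T.odd_case hperf ho ψ.2 hψ
    refine ⟨?_, ZMod p, inferInstance, inferInstance, ZMod.card p, ⟨e1⟩⟩
    by_contra h
    have h1 : ((MulAction.stabilizer G (T.e 0)).comap e1.symm.toMonoidHom).index = p := by
      rw [Subgroup.index_comap_of_surjective _ e1.symm.surjective,
        MulAction.index_stabilizer_of_transitive, hα']
    have h2 := (S0806.result (F := ZMod p) (ZMod.card p) (by
      simp only [Finset.mem_insert, Finset.mem_singleton, not_or]
      refine ⟨by omega, by omega, by omega, by omega, ?_, by omega⟩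
      rintro rfl
      exact absurd hp (by decide))).1
        ((MulAction.stabilizer G (T.e 0)).comap e1.symm.toMonoidHom) (fun h3 => by
          rw [h3, Subgroup.index_top] at h1
          omega)
    omega

end Cfsg.Agent.S4724
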