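import Cfsg.Statements.S4725
import Mathlib
import Cfsg.Agent.Base
import Cfsg.Agent.Lib.Block.HeightBF
import Cfsg.Agent.Lib.Block.Defect

set_option autoImplicit false
open Cfsg

namespace Cfsg.Agent.S4725

/-- Let p be a prime, M a maximal ideal of the algebraic integers containing p, H a subgroup of the finite group G, and b a p-block of H inducing the p-block B of G, with b and B of the same defect. Then for every height-zero ζ ∈ b there is a height-zero χ ∈ B whose multiplicity in the character induced from ζ is not divisible by p. -/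
theorem result {G : Type*} [Group G] [Fintype G] (p : ℕ) [Fact p.Prime] (M : Ideal Cfsg.AlgInt) (hM : Cfsg.IsPModular p M) (H : Subgroup G) (b : Set (Cfsg.IrrCharacter ↥H)) (B : Set (Cfsg.IrrCharacter G)) (hind : Cfsg.IsInducedBlock M H b B) (hdef : Cfsg.blockDefect p b = Cfsg.blockDefect p B) (ζ : Cfsg.IrrCharacter ↥H) (hζ : ζ ∈ b) (hζ0 : Cfsg.blockHeight p b (ζ : ↥H → ℂ) = 0) : ∃ χ ∈ B, Cfsg.blockHeight p B (χ : G → ℂ) = 0 ∧ ∃ a : ℕ, Cfsg.classInner (Cfsg.indFun H (ζ : ↥H → ℂ)) (χ : G → ℂ) = (a : ℂ) ∧ ¬ p ∣ a := by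
  classical
  haveI := H33.isMaximal_of hM
  have hp : p.Prime := Fact.out
  have hB := hind.2.1
  obtain ⟨h0, h1⟩ := H84.factorization_blockPart_indFun hM hind hζ
  have hval : (charDegree (indFun H (ζ : H → ℂ))).factorization p = H84.minval p B := by
    rw [H84.charDegree_indFun, Nat.factorization_mul H.index_ne_zero_of_finite (H84.deg_ne_zero ζ),
      Finsupp.add_apply]
    have a1 := H84.deg_factorization_add_defect (p := p) hζ
    have a2 := H84.minval_add_defect (p := p) (H84.block_nonempty hB)
    have a3 := H33.factorization_card_eq p H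
    omega
  choose a ha using fun χ : IrrCharacter G =>
    H6.char_inner_nat (H7.isCharacter_indFun H (H84.irr_char ζ)) (H84.irr_char χ)
  by_contra hcon
  push Not at hcon
  have hsum : charDegree (blockPart B (indFun H (ζ : H → ℂ))) =
      ∑ χ ∈ H84.bset B, a χ * charDegree (χ : G → ℂ) := by
    refine H84.charDegree_eq_of ?_
    rw [H84.blockPart_apply, Nat.cast_sum]
    exact Finset.sum_congr rfl fun χ _ => by rw [ha, Nat.cast_mul, H84.cast_deg]
  have hdvd : p ^ (H84.minval p B + 1) ∣ charDegree (blockPart B (indFun H (ζ : H → ℂ))) := by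
    rw [hsum]
    refine Finset.dvd_sum fun χ hχ => ?_
    have hχ' := H84.mem_bset.mp hχ
    have a1 := H84.minval_add_height (p := p) hχ'
    by_cases hh : blockHeight p B (χ : G → ℂ) = 0
    · rw [pow_succ']
      exact mul_dvd_mul (hcon χ hχ' hh _ (ha χ))
        ((hp.pow_dvd_iff_le_factorization (H84.deg_ne_zero χ)).mpr (by omega))
    · exact Dvd.dvd.mul_left
        ((hp.pow_dvd_iff_le_factorization (H84.deg_ne_zero χ)).mpr (by omega)) _
  have := (hp.pow_dvd_iff_le_factorization h0).mp hdvd
  omega

end Cfsg.Agent.S4725
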