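import Cfsg.Statements.S4726
import Mathlib
import Cfsg.Agent.Lib.Blk86.Cov

set_option autoImplicit false
open Cfsg

namespace Cfsg.Agent.S4726

set_option linter.style.haveILetI false
set_option linter.unusedVariables false

open H86 H33

/-- Let p be a prime, M a maximal ideal of the algebraic integers containing p, H a subgroup of the finite group G and b a p-block of H with defect group D₀ such that C_G(D₀) ≤ H. Then b induces a block of G, and for every block B of G induced by b there is a defect group D of B with Z(D) ≤ Z(D₀) ≤ D₀ ≤ D (as subgroups of G). In particular, if the defect groups of B are abelian then D₀ is a defect group of B. -/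
theorem result {G : Type*} [Group G] [Finite G] (p : ℕ) [Fact p.Prime] (M : Ideal Cfsg.AlgInt) (hM : Cfsg.IsPModular p M) (H : Subgroup G) (b : Set (Cfsg.IrrCharacter ↥H)) (hb : Cfsg.IsPBlock M b) (D₀ : Subgroup ↥H) (hD₀ : Cfsg.IsDefectGroup p M b D₀) (hC : Subgroup.centralizer ((D₀.map H.subtype : Subgroup G) : Set G) ≤ H) : Cfsg.InducedBlockDefined M H b ∧ ∀ B : Set (Cfsg.IrrCharacter G), Cfsg.IsInducedBlock M H b B → (∃ D : Subgroup G, Cfsg.IsDefectGroup p M B D ∧ (Subgroup.center ↥D).map D.subtype ≤ ((Subgroup.center ↥D₀).map D₀.subtype).map H.subtype ∧ ((Subgroup.center ↥D₀).map D₀.subtype).map H.subtype ≤ D₀.map H.subtype ∧ D₀.map H.subtype ≤ D) ∧ (∀ D : Subgroup G, Cfsg.IsDefectGroup p M B D → IsMulCommutative ↥D → Cfsg.IsDefectGroup p M B (D₀.map H.subtype)) := by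
  haveI := isMaximal_of hM; haveI := charP hM; haveI := good hM G
  refine ⟨inducedBlockDefined_of_defect hM hb hD₀ hC, fun B hind => ?_⟩
  have hB := hind.2.1
  have hb' := isBlk_eS hb
  have hB' := H86.isBlk_eB hB
  have hP := (isDefectGroup_sub_iff hb D₀).1 hD₀
  set P := D₀.map H.subtype with hPdef
  obtain ⟨e, he⟩ := hP.exists_isMaxPair hb'
  have h1 := br_mul_br_of_induced hM hP.pgrp hP.le hC hind
  have hpo : PairOf p ⊤ (eB M B) P e :=
    ⟨he.toPair.change le_top (by rw [top_inf_eq, inf_eq_right.2 hC]), by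
      rw [← he.br_mul, ← mul_assoc, h1]⟩
  obtain ⟨D, g, hm, hs⟩ := hpo.exists_max hB'
  have hD := hm.isDef hB'
  have hR : P ⊔ D ⊓ Cen P ≤ D ⊓ Nor P :=
    sup_le (le_inf hs.le Subgroup.le_normalizer) (inf_le_inf_left _ (Cen_le_Nor P))
  have hRH : P ⊔ D ⊓ Cen P ≤ H := sup_le hP.le (inf_le_right.trans hC)
  have hRp : IsPGroup p (P ⊔ D ⊓ Cen P : Subgroup G) := hD.pgrp.to_le (hR.trans inf_le_left)
  have h2 : D ⊓ Cen P ≤ P := by
    refine sup_eq_left.1 (hP.max hRH hRp le_sup_left fun h0 => ?_)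
    apply hs.br_ne_zero hm.toPair (hR.trans inf_le_left) (hR.trans inf_le_right)
    rw [← he.br_mul, br_mul hRp ((br_mem_Fx hb'.mem).2.anti (le_inf hRH (hR.trans inf_le_right)))
      ((inv_St ⊤ P e).anti (hR.trans (hs.inf_Nor_le_St hm.toPair))), br_br_of_le le_sup_left, h0,
      zero_mul]
  constructor
  · refine ⟨D, (H86.isDefectGroup_iff hB D).2 hD, ?_, Subgroup.map_mono (Subgroup.map_subtype_le _),
      hs.le⟩
    rintro _ ⟨z, hz, rfl⟩
    have hz' : (z : G) ∈ Cen P := mem_Cen.2 fun q hq =>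
      congrArg Subtype.val (Subgroup.mem_center_iff.1 hz ⟨q, hs.le hq⟩)
    obtain ⟨y, hy, hyz⟩ := h2 ⟨z.2, hz'⟩
    refine ⟨y, ⟨⟨y, hy⟩, Subgroup.mem_center_iff.2 fun w => Subtype.ext (Subtype.ext ?_), rfl⟩, hyz⟩
    have := mem_Cen.1 hz' w ⟨w, w.2, rfl⟩
    rw [← show (y : G) = z from hyz] at this
    exact this
  · intro D' hD' hab
    obtain ⟨k, -, hk⟩ := ((H86.isDefectGroup_iff hB D').1 hD').conj hD
    have h3 : D' ≤ Cen D' := fun x hx => mem_Cen.2 fun q hq =>
      congrArg Subtype.val (hab.is_comm.comm (⟨q, hq⟩ : D') ⟨x, hx⟩)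
    have h4 : D ≤ Cen D := by rw [hk, ← cs_Cen]; exact cs_mono k h3
    have h5 : P = D := le_antisymm hs.le ((le_inf le_rfl (h4.trans (Cen_anti hs.le))).trans h2)
    rw [h5]
    exact (H86.isDefectGroup_iff hB D).2 hD

end Cfsg.Agent.S4726
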