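import Mathlib
import Cfsg.Statements.S4727
import Cfsg.Agent.Lib.Block.KerOn

set_option autoImplicit false
open Cfsg

namespace Cfsg.Agent.S4727

/-- Let p be a prime, π a set of primes containing p, M a maximal ideal of the algebraic integers containing p, and B a p-block of the finite group G with defect group D; let B₁ be the block of N_G(D) with defect group D that induces B (the Brauer correspondent of B). Suppose every element of O_π'(N_G(D)), the largest normal subgroup of N_G(D) whose order has no prime divisor in π, lies in the kernel of every member of B₁. If y is a p-element whose centralizer C has a normal Hall π'-subgroup (every element of C whose order has no prime divisor in π lies in O_π'(C)), then χ(y x) = χ(y) for every χ ∈ B and every x ∈ C whose order has no prime divisor in π. -/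
theorem result {G : Type*} [Group G] [Finite G] (p : ℕ) [Fact p.Prime] (M : Ideal Cfsg.AlgInt) (hM : Cfsg.IsPModular p M) (π : Set ℕ) (hpπ : p ∈ π) (B : Set (Cfsg.IrrCharacter G)) (hB : Cfsg.IsPBlock M B) (D : Subgroup G) (hBD : Cfsg.IsDefectGroup p M B D) (B₁ : Set (Cfsg.IrrCharacter ↥(Subgroup.normalizer (D : Set G)))) (hB₁ : Cfsg.IsInducedBlock M (Subgroup.normalizer (D : Set G)) B₁ B) (hB₁D : Cfsg.IsDefectGroup p M B₁ (D.subgroupOf (Subgroup.normalizer (D : Set G)))) (hker : ∀ n : ↥(Subgroup.normalizer (D : Set G)), n ∈ Cfsg.piCore {q | q ∉ π} ↥(Subgroup.normalizer (D : Set G)) → n ∈ Cfsg.blockKer B₁) (y : G) (hy : ∃ k : ℕ, orderOf y = p ^ k) (hC : ∀ x : ↥(Subgroup.centralizer ({y} : Set G)), (∀ q : ℕ, q.Prime → q ∣ orderOf x → q ∉ π) → x ∈ Cfsg.piCore {q | q ∉ π} ↥(Subgroup.centralizer ({y} : Set G))) : ∀ χ ∈ B, ∀ x : G, x ∈ Subgroup.centralizer ({y} : Set G) → (∀ q : ℕ, q.Prime → q ∣ orderOf x → q ∉ π) → (χ : G → ℂ) (y * x) = (χ : G → ℂ) y := by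
  haveI := hM.2.1
  haveI := H33.charP hM
  classical
  have hσ : p ∉ {q | q ∉ π} := fun h => h hpπ
  intro χ hχ x hx hxπ
  have hxp : ¬ p ∣ orderOf x := fun h => hxπ p Fact.out h hpπ
  have hc : Commute y x := (Subgroup.mem_centralizer_singleton_iff.1 hx).symm
  let y' : Subgroup.centralizer ({y} : Set G) := ⟨y, Subgroup.mem_centralizer_singleton_iff.2 rfl⟩
  let x' : Subgroup.centralizer ({y} : Set G) := ⟨x, hx⟩
  have h1 := H34.irr_eq_sum_blockPart hM hy hB hχ y' (H35.pPart_eq_self hy)
  have h2 := H34.irr_eq_sum_blockPart hM hy hB hχ (y' * x') (H35.pPart_mul_eq hy hxp hc)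
  refine h2.trans (Eq.trans ?_ h1.symm)
  letI := Fintype.ofFinite (Subgroup.centralizer ({y} : Set G))
  refine Finset.sum_congr rfl fun b hb => ?_
  have hind := (Finset.mem_filter.1 hb).2
  have hP : IsPGroup p (Subgroup.zpowers y) := H35.isPElt_iff_zpowers.1 hy
  have h3 := (H33.isInducedBlock_iff_br_eS hM hP (Subgroup.zpowers_le.2 y'.2)
    (H86.Cen_zpowers y).le ((H86.Cen_zpowers y).ge.trans (H86.Cen_le_Nor _)) hind.1 hB).1 hind
  have h4 := H34.kerOn_pair_of_correspondent hM hσ hB hBD hB₁ hB₁D hker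
    ⟨⟨le_top, hP, by rw [top_inf_eq, H86.Cen_zpowers]; exact H86.isBlk_eS hind.1⟩, h3⟩
  rw [H86.Cen_zpowers] at h4
  have h5 := H34.mem_blockKer_of_kerOn_eS hM hind.1
    (fun h => hσ (H1.isPiSubgroup_piCore p Fact.out h)) h4
    (hC x' (by rwa [Subgroup.orderOf_mk]))
  rw [H84.blockPart_apply, H84.blockPart_apply]
  refine Finset.sum_congr rfl fun ψ hψ => ?_
  rw [H6.classFun_mul_comm (H84.irr_class ψ),
    H6.char_mul_of_eq_one (H84.irr_char ψ) (h5 ψ (H84.mem_bset.1 hψ))]

end Cfsg.Agent.S4727
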