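import Mathlib
import Cfsg.Statements.S4728
import Cfsg.Agent.Lib.Block.KerOn
import Cfsg.Agent.Lib.Block.Inert
import Cfsg.Agent.Lib.TwoFusion.Isolated

set_option autoImplicit false
open Cfsg

namespace Cfsg.Agent.S4728

/-- Let p be a prime, π a set of primes containing p, M a maximal ideal of the algebraic integers containing p, B a p-block of the finite group G with defect group D, and B₁ the block of N_G(D) with defect group D inducing B. Let D₀ be a p-subgroup, H₀ = D₀·C_G(D₀), and b a block of H₀ inducing B. Write O_π'(X) for the largest normal subgroup of X whose order has no prime divisor in π. Suppose that O_π'(C_G(D₀)) is a normal Hall π'-subgroup of C_G(D₀) (it contains every element of C_G(D₀) whose order has no prime divisor in π) and that every element of it lies in the kernel of every member of b. Then every element of O_π'(N_G(D)) lies in the kernel of every member of B₁. -/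
theorem result {G : Type*} [Group G] [Finite G] (p : ℕ) [Fact p.Prime] (M : Ideal Cfsg.AlgInt) (hM : Cfsg.IsPModular p M) (π : Set ℕ) (hpπ : p ∈ π) (B : Set (Cfsg.IrrCharacter G)) (hB : Cfsg.IsPBlock M B) (D : Subgroup G) (hBD : Cfsg.IsDefectGroup p M B D) (B₁ : Set (Cfsg.IrrCharacter ↥(Subgroup.normalizer (D : Set G)))) (hB₁ : Cfsg.IsInducedBlock M (Subgroup.normalizer (D : Set G)) B₁ B) (hB₁D : Cfsg.IsDefectGroup p M B₁ (D.subgroupOf (Subgroup.normalizer (D : Set G)))) (D₀ : Subgroup G) (hD₀ : IsPGroup p D₀) (H₀ : Subgroup G) (hH₀ : H₀ = D₀ ⊔ Subgroup.centralizer (D₀ : Set G)) (b : Set (Cfsg.IrrCharacter ↥H₀)) (hb : Cfsg.IsInducedBlock M H₀ b B) (hcompl : ∀ x : ↥(Subgroup.centralizer (D₀ : Set G)), (∀ q : ℕ, q.Prime → q ∣ orderOf x → q ∉ π) → x ∈ Cfsg.piCore {q | q ∉ π} ↥(Subgroup.centralizer (D₀ : Set G))) (hkerb : ∀ x : ↥(Subgroup.centralizer (D₀ : Set G)), x ∈ Cfsg.piCore {q | q ∉ π} ↥(Subgroup.centralizer (D₀ : Set G)) → ∀ θ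 ∈ b, ∀ h : ↥H₀, (h : G) = (x : G) → (θ : ↥H₀ → ℂ) h = (θ : ↥H₀ → ℂ) 1) : ∀ n : ↥(Subgroup.normalizer (D : Set G)), n ∈ Cfsg.piCore {q | q ∉ π} ↥(Subgroup.normalizer (D : Set G)) → n ∈ Cfsg.blockKer B₁ := by
  haveI := hM.2.1
  haveI := H33.charP hM
  subst hH₀
  have hσ : p ∉ {q | q ∉ π} := fun h => h hpπ
  have hD := (H86.isDefectGroup_iff hB D).1 hBD
  have hD1 := (H86.isDefectGroup_subgroupOf_iff hB₁.1 Subgroup.le_normalizer).1 hB₁D
  have hb1 := H86.isBlk_eS hB₁.1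
  obtain ⟨e, he⟩ := H86.exists_pairOf hb1.mem hb1.idem hD1.le hD1.pgrp hD1.ne
  have h1 := H33.br_mul_br_of_induced hM hD.pgrp Subgroup.le_normalizer (H86.Cen_le_Nor D) hB₁
  have he' : H86.PairOf p ⊤ (H33.eB M B) D e :=
    ⟨he.toPair.change le_top (by rw [top_inf_eq, inf_of_le_right (H86.Cen_le_Nor D)]), by
      rw [← he.br_mul, ← mul_assoc, h1]⟩
  obtain ⟨a, -, hs⟩ := (H35.pairOf_of_induced_sup hM hD₀ hb).exists_conj_sub (he'.isMaxPair hD)
    (H86.isBlk_eB hB)
  have h2 := H34.Sub.fix_up hs {x | ∀ q : ℕ, q.Prime → q ∣ orderOf x → q ∉ π} fun k hk hS => by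
    have hk1 : a⁻¹ * k * a ∈ H86.Cen D₀ := by
      have := (Subgroup.mem_inf.1 hk).2
      rwa [← H86.cs_Cen, H86.mem_cs] at this
    have hk2 := H34.single_mul_eS (M := M) (b := b)
      (k := ⟨a⁻¹ * k * a, Subgroup.mem_sup_right hk1⟩) fun θ hθ =>
        hkerb ⟨_, hk1⟩ (hcompl _ (by
          rw [Subgroup.orderOf_mk, show a⁻¹ * k * a = a⁻¹ * k * a⁻¹⁻¹ by rw [inv_inv],
            H41.orderOf_conj]
          exact hS)) θ hθ _ rfl
    have := congrArg (H86.cj a) hk2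
    rwa [map_mul, H86.cj_single, show a * (a⁻¹ * k * a) * a⁻¹ = k by group] at this
  have h3 := H34.kerOn_of_br hb1 (H1.piCoreOf_le _) (H1.le_normalizer_piCoreOf _)
    (H34.not_dvd_card_piCoreOf hσ _) hD.pgrp (hD1.le.trans (H1.le_normalizer_piCoreOf _))
    (hb1.inv.anti hD1.le) he.br_mul he.blk.ne fun k hk => h2 k ⟨trivial, hk.2⟩ fun q hq hd =>
      H1.isPiSubgroup_piCoreOf _ q hq (hd.trans (H1.orderOf_dvd_card_of_mem hk.1))
  exact fun x hx => H34.mem_blockKer_of_kerOn_eS hM hB₁.1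
    (fun h => hσ (H1.isPiSubgroup_piCore p Fact.out h)) h3 hx

end Cfsg.Agent.S4728
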