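import Cfsg.Statements.S4729
import Mathlib
import Cfsg.Agent.Lib.H85.Prin
import Cfsg.Agent.Lib.Char.ExtDet
import Cfsg.Agent.Lib.Char.ExtLinear

set_option autoImplicit false
open Cfsg

namespace Cfsg.Agent.S4729

set_option linter.style.haveILetI false
set_option linter.unusedVariables false

open H33 ComplexConjugate
attribute [local irreducible] H33.instFieldF

theorem key {K : Type*} [Group K] [Finite K] {p : ℕ} [hp : Fact p.Prime] {M : Ideal AlgInt}
    (hM : IsPModular p M) (hK : ∀ a b : K, a * b = b * a) (hpK : ¬ p ∣ Nat.card K)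
    {θ : K → ℂ} (hθ : IsCharacter K θ) {n : ℕ} (hn : θ 1 = n) (hn0 : n ≠ 0) (hlt : n < 2 * p)
    (hcong : ∀ k, MemLocalIdeal M (θ k / n - 1)) (hdet : ∀ k, H31.detHom θ k = 1) (k : K) :
    θ k = n := by
  classical
  haveI := isMaximal_of hM
  haveI := charP hM
  haveI := Fintype.ofFinite K
  obtain ⟨m, hm⟩ := H6.char_eq_sum_irr hθ
  have hn' : (n : ℂ) ≠ 0 := Nat.cast_ne_zero.mpr hn0
  have hdvd : ∀ ψ : IrrCharacter K, ψ ≠ oneIrr K → p ∣ m ψ := by
    intro ψ hψ
    by_cases h0 : m ψ = 0
    · rw [h0]; exact dvd_zero p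
    have h1 : classInner θ ψ = m ψ := by rw [hm]; exact H6.inner_sum_irr (fun ψ => (m ψ : ℂ)) ψ
    have h2 : classInner (oneIrr K : K → ℂ) ψ = 0 := by
      rw [H6.irr_inner', if_neg (Ne.symm hψ)]
    have h3 : (m ψ : ℂ) / n = (Nat.card K : ℂ)⁻¹ * ∑ k, (θ k / n - 1) * conj ((ψ : K → ℂ) k) := by
      rw [← h1]
      simp only [sub_mul, Finset.sum_sub_distrib, mul_sub]
      unfold classInner at h2 ⊢
      simp only [oneIrr_apply] at h2
      rw [h2, sub_zero, mul_div_assoc, Finset.sum_div]
      congr 1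
      refine Finset.sum_congr rfl fun k _ => ?_
      ring
    have h4 : MemLocalIdeal M ((m ψ : ℂ) / n) := by
      rw [h3]
      refine memLocalIdeal_mul_left (natCast_inv_mem_O hM hpK) (memLocalIdeal_sum _ fun k _ => ?_)
      refine memLocalIdeal_mul_right (hcong k) (mem_O_of_isIntegral M ?_)
      exact H6.char_isIntegral (H6.isCharacter_conj (H6.irr_isCharacter ψ.2)) k
    rw [memLocalIdeal_natCast_div_iff hM h0 hn0] at h4
    exact (Nat.Prime.dvd_iff_one_le_factorization hp.out h0).mpr (by omega)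
  have hsum : ∑ ψ, m ψ = n := by
    have := congrFun hm 1
    rw [hn, Finset.sum_apply] at this
    simp only [Pi.smul_apply, smul_eq_mul] at this
    have h5 : ∀ ψ : IrrCharacter K, (ψ : K → ℂ) 1 = 1 := fun ψ => H6.irr_one_eq_one_of_comm hK ψ.2
    simp only [h5, mul_one] at this
    exact_mod_cast this.symm
  have hzero : ∀ ψ : IrrCharacter K, ψ ≠ oneIrr K → m ψ = 0 := by
    intro ψ hψ
    by_contra h0
    have hψp : p ≤ m ψ := Nat.le_of_dvd (Nat.pos_of_ne_zero h0) (hdvd ψ hψ)
    have hoth : ∀ φ : IrrCharacter K, φ ≠ oneIrr K → φ ≠ ψ → m φ = 0 := by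
      intro φ hφ hne
      by_contra h1
      have hφp : p ≤ m φ := Nat.le_of_dvd (Nat.pos_of_ne_zero h1) (hdvd φ hφ)
      have : ∑ x ∈ ({φ, ψ} : Finset (IrrCharacter K)), m x ≤ ∑ x, m x :=
        Finset.sum_le_sum_of_subset (Finset.subset_univ _)
      rw [Finset.sum_pair hne] at this
      omega
    have hle : m ψ ≤ ∑ x, m x := Finset.single_le_sum (f := m) (fun _ _ => Nat.zero_le _) (Finset.mem_univ ψ)
    have hmp : m ψ = p := by
      obtain ⟨c, hc⟩ := hdvd ψ hψ
      have : c < 2 := by
        by_contra hcc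
        push Not at hcc
        have : p * 2 ≤ p * c := Nat.mul_le_mul_left p hcc
        omega
      interval_cases c
      · omega
      · omega
    obtain ⟨lam, hlam⟩ := H6.irr_eq_hom_of_comm hK ψ.2
    have hd : ∀ k, lam k ^ p = 1 := by
      intro k
      have h6 := hdet k
      rw [hm, H31.detHom_sum _ (fun φ _ => H6.isCharacter_natCast_smul _ (H6.irr_isCharacter φ.2))] at h6
      rw [Finset.prod_eq_single ψ] at h6
      · rw [H31.detHom_nsmul (H6.irr_isCharacter ψ.2), hlam, H31.detHom_hom, hmp] at h6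
        exact h6
      · intro φ _ hne
        rw [H31.detHom_nsmul (H6.irr_isCharacter φ.2)]
        by_cases hφ : φ = oneIrr K
        · have : (φ : K → ℂ) = fun g => (((1 : K →* ℂˣ) g : ℂˣ) : ℂ) := by
            rw [hφ]; funext g; simp
          rw [this, H31.detHom_hom]; simp
        · rw [hoth φ hφ hne, pow_zero]
      · intro h; exact absurd (Finset.mem_univ _) h
    apply hψ
    apply Subtype.ext
    rw [hlam]
    funext k
    have h7 : lam k ^ Nat.card K = 1 := by rw [← map_pow, pow_card_eq_one', map_one]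
    have h8 : lam k = 1 := by
      have := (pow_gcd_eq_one (a := lam k)).mpr ⟨hd k, h7⟩
      rwa [((Nat.Prime.coprime_iff_not_dvd hp.out).mpr hpK).gcd_eq_one, pow_one] at this
    rw [h8]; simp
  have h9 : ∀ k, θ k = m (oneIrr K) := by
    intro k
    rw [hm, Finset.sum_apply, Finset.sum_eq_single (oneIrr K)]
    · simp
    · intro φ _ hne; simp [hzero φ hne]
    · intro h; exact absurd (Finset.mem_univ _) h
  rw [h9 k, ← h9 1, hn]

/-- Let p be a prime, M a maximal ideal of the algebraic integers containing p, G a finite perfect group and P a Sylow p-subgroup. If the principal p-block of G contains a faithful irreducible character of degree less than 2p, then the centralizer of P is a p-group. -/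
theorem result {G : Type*} [Group G] [Finite G] (p : ℕ) [Fact p.Prime] (M : Ideal Cfsg.AlgInt) (hM : Cfsg.IsPModular p M) (hperf : commutator G = ⊤) (P : Sylow p G) (χ : Cfsg.IrrCharacter G) (hχ : χ ∈ Cfsg.principalBlock M G) (hfaith : ∀ g : G, (χ : G → ℂ) g = (χ : G → ℂ) 1 → g = 1) (hdeg : Cfsg.charDegree (χ : G → ℂ) < 2 * p) : IsPGroup p ↥(Subgroup.centralizer ((P : Subgroup G) : Set G)) := by
  classical
  haveI := isMaximal_of hM
  haveI := charP hM
  have hn := irr_one_eq_charDegree χ
  have hn0 := charDegree_ne_zero χ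
  set n := charDegree (χ : G → ℂ) with hndef
  have hn' : (n : ℂ) ≠ 0 := Nat.cast_ne_zero.mpr hn0
  have hcong : ∀ x ∈ H85.sylO P, MemLocalIdeal M ((χ : G → ℂ) x / n - 1) := by
    intro x hx
    have h1 := (mem_principalBlock_iff χ).mp hχ x
    have h2 := H85.not_dvd_index_centralizer_of_mem P (H85.sylO_le P hx)
    have h3 : red M ((Subgroup.centralizer ({x} : Set G)).index : ℂ) ≠ 0 := red_natCast_ne_zero hM h2
    have h4 : (χ : G → ℂ) x / n = centralChar (χ : G → ℂ) x / ((Subgroup.centralizer ({x} : Set G)).index : ℂ) := by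
      unfold centralChar
      rw [hn]
      have := ne_zero_of_red_ne_zero h3
      field_simp
    rw [h4, memLocalIdeal_sub_iff (div_mem_O (centralChar_mem_O M χ x) h3) (O M).one_mem,
      red_div (centralChar_mem_O M χ x) h3, h1, red_one, red_natCast, div_self]
    rwa [red_natCast] at h3
  have hO : ∀ y ∈ H85.sylO P, y = 1 := by
    intro y hy
    have hle : Subgroup.zpowers y ≤ H85.sylO P := (Subgroup.zpowers_le).mpr hy
    have hθ := H6.isCharacter_restrict (Subgroup.zpowers y) (H6.irr_isCharacter χ.2)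
    have := key hM (K := Subgroup.zpowers y) (fun a b => mul_comm' a b)
      (by rw [Nat.card_zpowers]; exact hy.2) hθ (n := n) hn hn0 hdeg
      (fun k => hcong k (hle k.2))
      (fun k => by
        rw [H31.detHom_res _ (H6.irr_isCharacter χ.2)]
        exact H31.hom_eq_one_of_mem_commutator _ (by rw [hperf]; trivial))
      ⟨y, Subgroup.mem_zpowers y⟩
    exact hfaith y (by rw [hn]; exact this)
  rw [H35.isPGroup_iff_isPElt]
  intro x hx
  rw [← H35.pReg_eq_one_iff p]
  exact hO _ (H85.pReg_mem_sylO hx)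

end Cfsg.Agent.S4729
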