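import Cfsg.Statements.S4730
import Mathlib
import Cfsg.Agent.Lib.Block.Inert
import Cfsg.Agent.Lib.Char.Burnside
import Cfsg.Agent.Lib.Block.Bridge

set_option autoImplicit false
open Cfsg

namespace Cfsg.Agent.S4730

set_option linter.style.haveILetI false
set_option linter.unusedVariables false

open H86 H33 ComplexConjugate
attribute [local irreducible] H33.instFieldF

theorem red_omega_pElt {G : Type*} [Group G] [Fintype G] {p : ℕ} [hp : Fact p.Prime] {M : Ideal AlgInt}
    [M.IsMaximal] (hM : IsPModular p M) {B : Set (IrrCharacter G)} (hB : IsPBlock M B)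
    {D : Subgroup G} [Fintype D] (hD : IsDefectGroup p M B D) {χ : IrrCharacter G} (hχ : χ ∈ B) (c : G → ℕ)
    (hc : ∀ g h : G, c (h * g * h⁻¹) = c g) (hp' : ∀ g, c g ≠ 0 → H35.IsPElt p g) :
    red M (omega (χ : G → ℂ) (mk fun g => (c g : ℂ))) = ((∑ d : D, c d : ℕ) : F M) := by
  classical
  set H := D ⊔ Cen D with hH
  have hDp := defect_isPGroup hD
  have hHN : H ≤ Nor D := sup_le Subgroup.le_normalizer (Subgroup.centralizer_le_normalizer _)
  obtain ⟨b, hb⟩ := (exists_induced_iff_br hM hDp le_sup_left le_sup_right hHN hB).mpr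
    (defect_br_ne_zero hD)
  have hd := defect_of_induced hM le_sup_left le_sup_right hHN hb hD
  haveI := Fintype.ofFinite H
  have hG := H35.subgroupOf_sup_Cen D
  obtain ⟨θ, hθ, hker, -⟩ := H35.exists_canonical hM hG hb.1 hd
  haveI := H35.normal_of_sup_Cen hG
  have hz : IsCent (mk fun g => (c g : ℂ) : MonoidAlgebra ℂ G) := fun g h => by
    simp only [coeff_mk, hc]
  have hO : (mk fun g => (c g : ℂ) : MonoidAlgebra ℂ G) ∈ OG M G :=
    mk_mem_OG fun g => natCast_mem (O M) _
  rw [← H34.red_omega_trunc_of_induced hb hθ hχ hz hO, omega_eq_sum, ← red_natCast]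
  congr 1
  have h1 : (θ : H → ℂ) 1 ≠ 0 := H6.irr_one_ne_zero θ.2
  have h2 : ∀ g : H, (H34.trunc H (mk fun g => (c g : ℂ) : MonoidAlgebra ℂ G)).coeff g * (θ : H → ℂ) g /
      (θ : H → ℂ) 1 = if (g : G) ∈ D then (c g : ℂ) else 0 := by
    intro g
    rw [H34.coeff_trunc, coeff_mk]
    split_ifs with hg
    · rw [hker g hg]; field_simp
    · by_cases h0 : c g = 0
      · simp [h0]
      · have hpe : H35.IsPElt p g := (H35.isPElt_coe g).mp (hp' _ h0)
        rw [H35.irr_eq_zero_of_normal_defect hM hb.1 hd hθ (g := g)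
          (by rw [H35.pPart_eq_self hpe]; exact hg)]
        simp
  rw [Finset.sum_congr rfl fun g _ => h2 g, ← Finset.sum_filter]
  push_cast
  refine (Finset.sum_bij (fun (d : D) _ => (⟨d, (le_sup_left : D ≤ H) d.2⟩ : H)) ?_ ?_ ?_ ?_).symm
  · intro d _; simp
  · intro a _ b _ h; exact Subtype.ext (congrArg (fun x : H => (x : G)) h)
  · intro g hg
    exact ⟨⟨g, (Finset.mem_filter.mp hg).2⟩, Finset.mem_univ _, rfl⟩
  · intro d _; rfl

theorem card_center_eq {G : Type*} [Group G] (S : Subgroup G) :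
    Nat.card (Subgroup.center S) = Nat.card (S ⊓ Cen S : Subgroup G) := by
  refine Nat.card_congr ⟨fun z => ⟨z.1.1, z.1.2, mem_Cen.mpr fun q hq => ?_⟩,
    fun z => ⟨⟨z.1, z.2.1⟩, Subgroup.mem_center_iff.mpr fun q => Subtype.ext (mem_Cen.mp z.2.2 q q.2)⟩,
    fun z => rfl, fun z => rfl⟩
  exact congrArg Subtype.val (Subgroup.mem_center_iff.mp z.2 ⟨q, hq⟩)

theorem coe_smul_sylow {G : Type*} [Group G] {p : ℕ} (g : G) (S : Sylow p G) :
    ((g • S : Sylow p G) : Subgroup G) = cs g S := rfl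

/-- Let p be a prime, M a maximal ideal of the algebraic integers containing p, and G a finite group with trivial centre, Sylow p-subgroup P of order p^a and centre Z(P) of order p^b. If χ is a faithful irreducible character of G whose degree is a power of p, then the p-block of χ has defect at most a − b; in particular, if P is abelian then χ lies in a block of defect zero. -/
theorem result {G : Type*} [Group G] [Finite G] (p : ℕ) [Fact p.Prime] (M : Ideal Cfsg.AlgInt) (hM : Cfsg.IsPModular p M) (hZ : Subgroup.center G = ⊥) (P : Sylow p G) (a b : ℕ) (ha : Nat.card P = p ^ a) (hb : Nat.card (Subgroup.center ↥(P : Subgroup G)) = p ^ b) (χ : Cfsg.IrrCharacter G) (hfaith : ∀ g : G, (χ : G → ℂ) g = (χ : G → ℂ) 1 → g = 1) (n : ℕ) (hdeg : Cfsg.charDegree (χ : G → ℂ) = p ^ n) : Cfsg.blockDefect p (Cfsg.blockOf M (χ : G → ℂ)) ≤ a - b ∧ (IsMulCommutative ↥(P : Subgroup G) → Cfsg.blockDefect p (Cfsg.blockOf M (χ : G → ℂ)) = 0) := by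
  classical
  haveI := isMaximal_of hM
  haveI := charP hM
  haveI := Fintype.ofFinite G
  haveI := Fintype.ofFinite (Sylow p G)
  have hp : p.Prime := Fact.out
  have hB : IsPBlock M (blockOf M (χ : G → ℂ)) := ⟨χ, rfl⟩
  obtain ⟨D, hD⟩ := exists_defectGroup p hB
  haveI := Fintype.ofFinite D
  have hDp := defect_isPGroup hD
  let Z : Sylow p G → Subgroup G := fun S => (S : Subgroup G) ⊓ Cen S
  have hZcs : ∀ (g : G) (S : Sylow p G), Z (g • S) = cs g (Z S) := fun g S => by
    simp only [Z, coe_smul_sylow, cs_inf, cs_Cen]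
  have hvan : ∀ (S : Sylow p G), ∀ g ∈ Z S, g ≠ 1 → (χ : G → ℂ) g = 0 := by
    intro S g hg hg1
    obtain ⟨N, ρ, hirr, hρ⟩ := χ.2
    have hidx : ¬ p ∣ (Subgroup.centralizer ({g} : Set G)).index := by
      intro h
      have hle : (S : Subgroup G) ≤ Subgroup.centralizer ({g} : Set G) := le_C1_iff.mpr hg.2
      exact S.not_dvd_index (h.trans (Subgroup.index_dvd_of_le hle))
    have h1 : (χ : G → ℂ) 1 = (p ^ n : ℕ) := by rw [irr_one_eq_charDegree, hdeg]
    have hfr : Module.finrank ℂ (Fin N → ℂ) = p ^ n := by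
      have := h1
      rw [← hρ, Representation.char_one] at this
      exact_mod_cast this
    rcases H8.character_eq_zero_or_norm_eq ρ g (by
      rw [hfr]; exact Nat.Coprime.pow_left _ ((Nat.Prime.coprime_iff_not_dvd hp).mpr hidx)) with h | h
    · rw [← hρ]; exact h
    · exfalso
      have h2 : ‖(χ : G → ℂ) g‖ = ‖(χ : G → ℂ) 1‖ := by
        rw [h1, ← hρ, h, hfr]; simp
      obtain ⟨ω, hω⟩ := H6.char_mul_of_norm_eq (H6.irr_isCharacter χ.2) h2
      apply hg1
      have hc : g ∈ Subgroup.center G := by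
        rw [Subgroup.mem_center_iff]
        intro x
        have h3 : (χ : G → ℂ) (g * (x * g⁻¹ * x⁻¹)) = (χ : G → ℂ) 1 := by
          rw [hω, H6.irr_isClassFunction χ.2, ← hω, mul_inv_cancel]
        have h4 := hfaith _ h3
        calc x * g = g * (x * g⁻¹ * x⁻¹) * x * g := by rw [h4]; group
          _ = g * x := by group
      rwa [hZ, Subgroup.mem_bot] at hc
  let c : G → ℕ := fun g => ∑ S : Sylow p G, if g ∈ Z S then 1 else 0
  have hc : ∀ g h : G, c (h * g * h⁻¹) = c g := by
    intro g h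
    refine (Fintype.sum_equiv (MulAction.toPerm h) _ _ fun S => ?_).symm
    simp only [MulAction.toPerm_apply, hZcs, mem_cs]
    congr 2
    group
  have hp' : ∀ g, c g ≠ 0 → H35.IsPElt p g := by
    intro g hg
    obtain ⟨S, -, hS⟩ := Finset.exists_ne_zero_of_sum_ne_zero hg
    have : g ∈ Z S := by by_contra h; simp [h] at hS
    exact H35.isPElt_of_mem S.isPGroup' this.1
  have key := red_omega_pElt hM hB hD (mem_blockOf_self χ) c hc hp'
  have hom : omega (χ : G → ℂ) (mk fun g => (c g : ℂ)) = (Nat.card (Sylow p G) : ℕ) := by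
    rw [omega_eq_sum, Finset.sum_eq_single 1]
    · have h1 : (χ : G → ℂ) 1 ≠ 0 := H6.irr_one_ne_zero χ.2
      rw [coeff_mk, mul_div_assoc, div_self h1, mul_one]
      simp [c]
    · intro g _ hg
      rw [coeff_mk]
      by_cases h0 : c g = 0
      · simp [h0]
      · obtain ⟨S, -, hS⟩ := Finset.exists_ne_zero_of_sum_ne_zero h0
        have : g ∈ Z S := by by_contra h; simp [h] at hS
        rw [hvan S g this hg]; simp
    · intro h; exact absurd (Finset.mem_univ _) h
  have hsum : ∑ d : D, c d = ∑ S : Sylow p G, Nat.card (D ⊓ Z S : Subgroup G) := by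
    simp only [c]
    rw [Finset.sum_comm]
    refine Finset.sum_congr rfl fun S _ => ?_
    rw [Finset.sum_boole, Nat.cast_id, ← Fintype.card_subtype, ← Nat.card_eq_fintype_card]
    exact Nat.card_congr ⟨fun x => ⟨x.1.1, x.1.2, x.2⟩, fun x => ⟨⟨x.1, x.2.1⟩, x.2.2⟩,
      fun _ => rfl, fun _ => rfl⟩
  let Y : SubMulAction D (Sylow p G) :=
    { carrier := {S | D ⊓ Z S = ⊥}
      smul_mem' := by
        intro d S hS
        have hS' : D ⊓ Z S = ⊥ := hS
        show D ⊓ Z ((d : G) • S) = ⊥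
        have h := congrArg (cs (d : G)) hS'
        rwa [cs_inf, cs_eq_of_mem d.2, cs_bot, ← hZcs] at h }
  have hY : ¬ p ∣ Nat.card Y := by
    intro h
    have h1 : ((∑ S : Sylow p G, Nat.card (D ⊓ Z S : Subgroup G) : ℕ) : F M) = (Nat.card Y : ℕ) := by
      push_cast
      have h2 : ∀ S : Sylow p G, (Nat.card (D ⊓ Z S : Subgroup G) : F M) = if S ∈ Y then 1 else 0 := by
        intro S
        split_ifs with hS
        · have hS' : D ⊓ Z S = ⊥ := hS
          rw [hS']; simp
        · obtain ⟨k, hk⟩ := IsPGroup.iff_card.mp (hDp.to_le (inf_le_left : D ⊓ Z S ≤ D))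
          rw [natCast_F_eq_zero_iff hM, hk]
          refine dvd_pow_self p ?_
          rintro rfl
          exact hS (Subgroup.eq_bot_of_card_eq _ (by simpa using hk))
      rw [Finset.sum_congr rfl fun S _ => h2 S, Finset.sum_boole, ← Fintype.card_subtype,
        ← Nat.card_eq_fintype_card]
    rw [hom, hsum, h1, red_natCast, (natCast_F_eq_zero_iff hM _).mpr h, natCast_F_eq_zero_iff hM] at key
    exact not_dvd_card_sylow p G key
  obtain ⟨S, hS⟩ := hDp.nonempty_fixed_point_of_prime_not_dvd_card Y hY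
  have hDS : D ≤ (S.1 : Subgroup G) := by
    rw [← hDp.sylow_mem_fixedPoints_iff]
    intro d
    exact congrArg Subtype.val (hS d)
  have hS' : D ⊓ Z S.1 = ⊥ := S.2
  have hcard : Nat.card D * Nat.card (Z S.1) ≤ Nat.card (S.1 : Subgroup G) := by
    rw [← Nat.card_prod]
    refine Nat.card_le_card_of_injective
      (fun x : D × Z S.1 => (⟨x.1 * x.2, (S.1 : Subgroup G).mul_mem (hDS x.1.2) x.2.2.1⟩ : (S.1 : Subgroup G))) ?_
    rintro ⟨d, z⟩ ⟨d', z'⟩ h
    have h1 : (d : G) * z = d' * z' := congrArg Subtype.val h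
    have h2 : (d' : G)⁻¹ * d = z' * (z : G)⁻¹ := by
      calc (d' : G)⁻¹ * d = (d' : G)⁻¹ * (d * z) * (z : G)⁻¹ := by group
        _ = z' * (z : G)⁻¹ := by rw [h1]; group
    have h3 : (d' : G)⁻¹ * d ∈ D ⊓ Z S.1 :=
      ⟨D.mul_mem (D.inv_mem d'.2) d.2, h2 ▸ (Z S.1).mul_mem z'.2 ((Z S.1).inv_mem z.2)⟩
    rw [hS', Subgroup.mem_bot] at h3
    have h4 : d = d' := Subtype.ext (by rw [inv_mul_eq_one] at h3; exact h3.symm)
    subst h4
    have h5 : z = z' := Subtype.ext (mul_left_cancel h1)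
    rw [h5]
  have hZb : Nat.card (Z S.1) = p ^ b := by
    rw [← hb, ← card_center_eq]
    exact Nat.card_congr (Subgroup.centerCongr (Sylow.equiv S.1 P)).toEquiv
  have hSa : Nat.card (S.1 : Subgroup G) = p ^ a := by
    rw [← ha]; exact Nat.card_congr (Sylow.equiv S.1 P).toEquiv
  rw [defect_card hM hB hD, hZb, hSa, ← pow_add, Nat.pow_le_pow_iff_right hp.one_lt] at hcard
  refine ⟨by omega, fun hcomm => ?_⟩
  have : Nat.card (Subgroup.center ↥(P : Subgroup G)) = Nat.card P := by
    have h : Subgroup.center ↥(P : Subgroup G) = ⊤ := by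
      rw [eq_top_iff]; intro x _; exact Subgroup.mem_center_iff.mpr fun y => mul_comm' y x
    rw [h, Subgroup.card_top]
  rw [ha, hb] at this
  have := Nat.pow_right_injective hp.two_le this
  omega

end Cfsg.Agent.S4730
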