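import Mathlib
import Cfsg.Statements.S4732
import Cfsg.Agent.Lib.Jordan.Modular
import Cfsg.Agent.Lib.Jordan.Main
-- import your own Cfsg.Agent.* helpers here

set_option autoImplicit false
set_option linter.style.haveILetI false
set_option linter.unusedVariables false
universe u v
open Cfsg

namespace Cfsg.Agent.S4732

/-- Let p be a prime. There is a function f of two natural-number arguments such that every finite group G admitting a faithful representation of degree n over a field of characteristic p, with Sylow p-subgroups of order p^m, has a normal abelian subgroup A with [G : A] < f(m, n). -/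
theorem result (p : ℕ) [Fact p.Prime] : ∃ f : ℕ → ℕ → ℕ, ∀ (G : Type u) [Group G] [Finite G] (F : Type v) [Field F] [CharP F p] (n : ℕ) (ρ : Representation F G (Fin n → F)), Function.Injective ρ → ∀ m : ℕ, (Nat.card G).factorization p = m → ∃ A : Subgroup G, A.Normal ∧ IsMulCommutative A ∧ A.index < f m n := by
  choose c hc using H31.exists_modJordan.{u, v} p
  refine ⟨fun m n => (c m n).factorial + 1, fun G _ _ F _ _ n ρ hρ m hm => ?_⟩
  let K := AlgebraicClosure F
  let σ : Representation K G (Fin n → K) :=
    (Matrix.toLinAlgEquiv' (R := K) (n := Fin n)).toMonoidHom.comp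
      ((algebraMap F K).mapMatrix.toMonoidHom.comp
        ((LinearMap.toMatrixAlgEquiv' (R := F) (n := Fin n)).toMonoidHom.comp ρ))
  have hσ : Function.Injective σ :=
    (Matrix.toLinAlgEquiv' (R := K) (n := Fin n)).injective.comp
      ((Matrix.map_injective (algebraMap F K).injective).comp
        ((LinearMap.toMatrixAlgEquiv' (R := F) (n := Fin n)).injective.comp hρ))
  obtain ⟨A, h1, h2⟩ := hc m n G K (Fin n → K) σ hσ (by simp)
    (hm ▸ Nat.pow_succ_factorization_not_dvd Nat.card_pos.ne' Fact.out)
  refine ⟨A.normalCore, inferInstance, ⟨⟨fun x y => Subtype.ext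
    (h1 _ (A.normalCore_le x.2) _ (A.normalCore_le y.2))⟩⟩, Nat.lt_succ_of_le ?_⟩
  exact (Nat.le_of_dvd (Nat.factorial_pos _) (H31.index_normalCore_dvd_factorial A)).trans
    (Nat.factorial_le h2)

end Cfsg.Agent.S4732
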