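import Mathlib
import Cfsg.Statements.S4734
import Cfsg.Agent.Lib.Block.KerOn

set_option autoImplicit false
open Cfsg

namespace Cfsg.Agent.S4734

/-- Let p be a prime, π a set of primes containing p, M a maximal ideal of the algebraic integers containing p, B a p-block of the finite group G with defect group D, and B₁ the block of N_G(D) with defect group D inducing B. Write O_π'(X) for the largest normal subgroup of X whose order has no prime divisor in π, and suppose every element of O_π'(N_G(D)) lies in the kernel of every member of B₁. Let G₀ be a subgroup and B₀ a block of G₀ with defect group D₀ such that C_G(D₀) ≤ G₀ and B₀ induces B. Then every element of O_π'(G₀) lies in the kernel of every member of B₀. -/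
theorem result {G : Type*} [Group G] [Finite G] (p : ℕ) [Fact p.Prime] (M : Ideal Cfsg.AlgInt) (hM : Cfsg.IsPModular p M) (π : Set ℕ) (hpπ : p ∈ π) (B : Set (Cfsg.IrrCharacter G)) (hB : Cfsg.IsPBlock M B) (D : Subgroup G) (hBD : Cfsg.IsDefectGroup p M B D) (B₁ : Set (Cfsg.IrrCharacter ↥(Subgroup.normalizer (D : Set G)))) (hB₁ : Cfsg.IsInducedBlock M (Subgroup.normalizer (D : Set G)) B₁ B) (hB₁D : Cfsg.IsDefectGroup p M B₁ (D.subgroupOf (Subgroup.normalizer (D : Set G)))) (hker : ∀ n : ↥(Subgroup.normalizer (D : Set G)), n ∈ Cfsg.piCore {q | q ∉ π} ↥(Subgroup.normalizer (D : Set G)) → n ∈ Cfsg.blockKer B₁) (G₀ : Subgroup G) (B₀ : Set (Cfsg.IrrCharacter ↥G₀)) (hB₀ : Cfsg.IsInducedBlock M G₀ B₀ B) (D₀ : Subgroup ↥G₀) (hD₀ : Cfsg.IsDefectGroup p M B₀ D₀) (hC : Subgroup.centralizer ((D₀.map G₀.subtype : Subgroup G) : Set G) ≤ G₀) : ∀ x : ↥G₀, x ∈ Cfsg.piCore {q | q ∉ π} ↥G₀ → x ∈ Cfsg.blockKer B₀ := by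
  haveI := hM.2.1
  haveI := H33.charP hM
  have hσ : p ∉ {q | q ∉ π} := fun h => h hpπ
  have hb := H86.isBlk_eS hB₀.1
  have hD := (H86.isDefectGroup_sub_iff hB₀.1 D₀).1 hD₀
  obtain ⟨f, hf⟩ := H86.exists_pairOf hb.mem hb.idem hD.le hD.pgrp hD.ne
  have h1 := H33.br_mul_br_of_induced hM hD.pgrp hD.le hC hB₀
  have hf' : H86.PairOf p ⊤ (H33.eB M B) (D₀.map G₀.subtype) f :=
    ⟨hf.toPair.change le_top (by rw [top_inf_eq, inf_of_le_right hC]), by
      rw [← hf.br_mul, ← mul_assoc, h1]⟩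
  have h2 := H34.kerOn_pair_of_correspondent hM hσ hB hBD hB₁ hB₁D hker hf'
  have h3 := H34.kerOn_of_br hb (H1.piCoreOf_le _) (H1.le_normalizer_piCoreOf _)
    (H34.not_dvd_card_piCoreOf hσ G₀) hD.pgrp (hD.le.trans (H1.le_normalizer_piCoreOf _))
    (hb.inv.anti hD.le) hf.br_mul hf.blk.ne (h2.mono (H1.piCoreOf_inf_le hC))
  exact fun x hx => H34.mem_blockKer_of_kerOn_eS hM hB₀.1
    (fun h => hσ (H1.isPiSubgroup_piCore p Fact.out h)) h3 hx

end Cfsg.Agent.S4734
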