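import Cfsg.Statements.S4735
import Mathlib
import Cfsg.Agent.Lib.Block.Quot
import Cfsg.Agent.Lib.H85.Prin
import Cfsg.Agent.Lib.Char.Galois

set_option autoImplicit false
open Cfsg

namespace Cfsg.Agent.S4735

set_option linter.style.haveILetI false
set_option linter.unusedVariables false

open H33
open scoped ComplexConjugate

theorem cast_sum {G : Type*} [Group G] [Finite G] (s : Finset (IrrCharacter G)) (x : G) :
    ((∑ χ ∈ s, Complex.normSq ((χ : G → ℂ) x) : ℝ) : ℂ) =
      ∑ χ ∈ s, (χ : G → ℂ) x * conj ((χ : G → ℂ) x) := by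
  push_cast
  exact Finset.sum_congr rfl fun χ _ => (Complex.mul_conj _).symm

theorem map_reg {G : Type*} [Group G] (p : ℕ) (σ : ℂ ≃+* ℂ) (χ : G → ℂ) (g : G) :
    pRegularPart p (fun g => σ (χ g)) g = σ (pRegularPart p χ g) := by
  rw [H84.reg_apply, H84.reg_apply]
  split_ifs <;> simp

/-- Let p be a prime, M a maximal ideal of the algebraic integers containing p, G a finite group, H = O_p'(G) and Ḡ = G/H. For x ∈ G write λ(G, x) for the sum of |χ(x)|^2 over the irreducible characters χ in the principal p-block of G. Then λ(G, x) is a positive integer, λ(G, x) = λ(Ḡ, x̄) where x̄ is the image of x, and λ(G, x) ≤ #C_Ḡ(x̄). Moreover λ(G, 1) = [G : H] if and only if the principal block is the only p-block of Ḡ. -/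
theorem result {G : Type*} [Group G] [Finite G] (p : ℕ) [Fact p.Prime] (M : Ideal Cfsg.AlgInt) (hM : Cfsg.IsPModular p M) (x : G) : (∃ n : ℕ, 0 < n ∧ ∑ᶠ χ ∈ Cfsg.principalBlock M G, Complex.normSq ((χ : G → ℂ) x) = n) ∧ ∑ᶠ χ ∈ Cfsg.principalBlock M G, Complex.normSq ((χ : G → ℂ) x) = ∑ᶠ ψ ∈ Cfsg.principalBlock M (G ⧸ Cfsg.pPrimeCore p G), Complex.normSq ((ψ : G ⧸ Cfsg.pPrimeCore p G → ℂ) (QuotientGroup.mk x)) ∧ ∑ᶠ χ ∈ Cfsg.principalBlock M G, Complex.normSq ((χ : G → ℂ) x) ≤ (Nat.card ↥(Subgroup.centralizer ({(QuotientGroup.mk x : G ⧸ Cfsg.pPrimeCore p G)} : Set (G ⧸ Cfsg.pPrimeCore p G))) : ℝ) ∧ ((∑ᶠ χ ∈ Cfsg.principalBlock M G, Cfsg.charDegree (χ : G → ℂ) ^ 2) = (Cfsg.pPrimeCore p G).index ↔ ∀ B : Set (Cfsg.IrrCharacter (G ⧸ Cfsg.pPrimeCore p G)), Cfsg.IsPBlock M B → B = Cfsg.principalBlock M (G ⧸ Cfsg.pPrimeCore p G)) := by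
  classical
  haveI := isMaximal_of hM
  haveI := Fintype.ofFinite G
  have hN : ¬ p ∣ Nat.card (pPrimeCore p G) := H34.kerSub_principal (G := G) hM ▸
    H34.not_dvd_card_kerSub hM isPBlock_principalBlock
  simp only [H84.finsum_mem_eq]
  have h2 : ∑ χ ∈ H84.bset (principalBlock M G), Complex.normSq ((χ : G → ℂ) x) =
      ∑ ψ ∈ H84.bset (principalBlock M (G ⧸ pPrimeCore p G)),
        Complex.normSq ((ψ : G ⧸ pPrimeCore p G → ℂ) (QuotientGroup.mk x)) :=
    H34.sum_principal_eq_quot hM hN _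
  refine ⟨?_, h2, ?_, ?_⟩
  · obtain ⟨z, hz⟩ := H8.exists_int_of_forall_ringEquiv (x := ∑ χ ∈ H84.bset (principalBlock M G),
      (χ : G → ℂ) x * (χ : G → ℂ) x⁻¹) (IsIntegral.sum _ fun χ _ =>
        (irr_isIntegral χ _).mul (irr_isIntegral χ _)) fun σ => by
      rw [map_sum]
      have key : ∀ (τ : ℂ ≃+* ℂ), ∀ χ ∈ H84.bset (principalBlock M G),
          (⟨_, H8.isIrrCharacter_ringEquiv_comp χ.2 τ⟩ : IrrCharacter G) ∈
            H84.bset (principalBlock M G) := fun τ χ hχ => by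
        rw [H84.mem_bset, H85.mem_prin_iff hM] at hχ ⊢
        simp only [map_reg]
        rwa [← map_sum, map_ne_zero_iff _ τ.injective]
      refine Finset.sum_bij' (fun χ _ => ⟨_, H8.isIrrCharacter_ringEquiv_comp χ.2 σ⟩)
        (fun χ _ => ⟨_, H8.isIrrCharacter_ringEquiv_comp χ.2 σ.symm⟩) (key σ) (key σ.symm)
        (fun χ _ => Subtype.ext (funext fun g => by simp))
        (fun χ _ => Subtype.ext (funext fun g => by simp)) fun χ _ => map_mul _ _ _
    simp only [irr_inv] at hz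
    rw [← cast_sum] at hz
    have h1 : ∑ χ ∈ H84.bset (principalBlock M G), Complex.normSq ((χ : G → ℂ) x) = z := by
      exact_mod_cast hz
    have h3 := Finset.single_le_sum (f := fun χ : IrrCharacter G => Complex.normSq ((χ : G → ℂ) x))
      (fun χ _ => Complex.normSq_nonneg _) (H84.mem_bset.2 (oneIrr_mem_principalBlock (M := M)))
    rw [h1] at h3 ⊢
    simp only [oneIrr_apply, map_one] at h3
    have h4 : 1 ≤ z := by exact_mod_cast h3
    refine ⟨z.toNat, by omega, ?_⟩
    have : (z.toNat : ℤ) = z := by omega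
    exact_mod_cast this.symm
  · rw [h2]
    refine (Finset.sum_le_sum_of_subset_of_nonneg (Finset.subset_univ _)
      fun χ _ _ => Complex.normSq_nonneg _).trans (le_of_eq ?_)
    have := (cast_sum Finset.univ _).trans
      (H6.column_orthogonality_self (QuotientGroup.mk x : G ⧸ pPrimeCore p G))
    exact_mod_cast this
  · rw [H34.sum_principal_eq_quot hM hN]
    have h3 : ∑ ψ : IrrCharacter (G ⧸ pPrimeCore p G), charDegree (ψ : G ⧸ pPrimeCore p G → ℂ) ^ 2 =
        (pPrimeCore p G).index := by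
      have := H6.sum_irr_one_sq (G := G ⧸ pPrimeCore p G)
      simp only [irr_one_eq_charDegree] at this
      rw [Subgroup.index]
      exact_mod_cast this
    rw [← h3]
    change ∑ ψ ∈ H84.bset (principalBlock M (G ⧸ pPrimeCore p G)),
      charDegree (ψ : G ⧸ pPrimeCore p G → ℂ) ^ 2 = _ ↔ _
    constructor
    · intro h B hB
      obtain ⟨χ, hχ⟩ := block_nonempty hB
      refine block_eq_of_mem hB isPBlock_principalBlock hχ ?_
      by_contra hn
      refine absurd h (ne_of_lt (Finset.sum_lt_sum_of_subset (Finset.subset_univ _)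
        (Finset.mem_univ χ) (fun h => hn (H84.mem_bset.1 h)) (pow_pos (charDegree_pos χ) 2)
        fun _ _ _ => Nat.zero_le _))
    · intro h
      congr 1
      refine Finset.eq_univ_of_forall fun χ => H84.mem_bset.2 ?_
      rw [← h _ (isPBlock_blockOf χ)]; exact mem_blockOf_self χ

end Cfsg.Agent.S4735
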