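import Mathlib
import Cfsg.Statements.S4736
import Cfsg.Agent.Lib.Block.FongInd
import Cfsg.Agent.Lib.Deg.Ito

set_option autoImplicit false
open Cfsg

namespace Cfsg.Agent.S4736

/-- Let p be a prime, M a maximal ideal of the algebraic integers containing p, and G a finite p-solvable group with Sylow p-subgroup P. Then P is abelian if and only if every irreducible character in the principal p-block of G has height zero. -/
theorem result {G : Type*} [Group G] [Finite G] (p : ℕ) [Fact p.Prime] (M : Ideal Cfsg.AlgInt) (hM : Cfsg.IsPModular p M) (hsolv : Cfsg.IsPSolvable p G) (P : Sylow p G) : IsMulCommutative P ↔ ∀ χ ∈ Cfsg.principalBlock M G, Cfsg.blockHeight p (Cfsg.principalBlock M G) (χ : G → ℂ) = 0 := by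
  classical
  haveI := hM.2.1
  haveI := Fintype.ofFinite G
  have hp : p.Prime := Fact.out
  constructor
  · intro hP χ hχ
    have h := H34.height_le_center_index hM hsolv H84.isPBlock_principal
      (H33.sylow_isDefectGroup_principalBlock hM P) hχ
    have hc : Subgroup.center P = ⊤ := by
      rw [eq_top_iff]; intro a _
      exact Subgroup.mem_center_iff.2 fun b => hP.is_comm.comm b a
    rw [hc, Subgroup.index_top] at h
    simpa using h
  · intro h
    set N := pPrimeCore p G with hNdef
    have hN : ¬ p ∣ Nat.card N := H1.not_dvd_card_pPrimeCore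
    have hB := H34.isPBlock_upSet (θ := H84.irrOne N) hM hN
      (H23.IsPConstrained.charP_top (H23.isPConstrained_of_isPSolvable hsolv)) H35.cjI_irrOne
    have hBe : principalBlock M G = H35.upSet G {H84.irrOne N} :=
      H84.block_eq_of_mem H84.isPBlock_principal hB H84.irrOne_mem_principal
        (H34.mem_upSet_singleton.2 ((H35.over_one_iff _).2 fun n _ => rfl))
    have hdeg : ∀ ψ, IsIrrCharacter (G ⧸ N) ψ → ¬ p ∣ charDegree ψ := by
      intro ψ hψ hd
      have hm : H35.infl N ⟨ψ, hψ⟩ ∈ principalBlock M G := by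
        rw [hBe]
        exact H34.mem_upSet_singleton.2 ((H35.over_one_iff _).2 fun n hn => H35.infl_of_mem _ hn)
      have h1 := (H84.height_eq_zero_iff_le hm).1 (h _ hm) _ H84.irrOne_mem_principal
      rw [H84.deg_irrOne, H35.charDegree_infl, Nat.factorization_one] at h1
      have := hp.factorization_pos_of_dvd (H84.deg_ne_zero ⟨ψ, hψ⟩) hd
      simp only [Finsupp.coe_zero, Pi.zero_apply] at h1
      exact absurd h1 (not_le.2 this)
    set Q := P.mapSurjective (QuotientGroup.mk'_surjective N)
    haveI := H87.sylow_normal_of_not_dvd_deg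
      (H3.isPiSeparable_of_isPSolvable hp (H76.isPSolvable_quotient hsolv N)) hdeg Q
    have hc := H87.comm_of_normal_of_not_dvd Q.isPGroup' hdeg
    refine ⟨⟨fun a b => ?_⟩⟩
    have h1 : (a * b * (b * a)⁻¹ : P).1 ∈ N ⊓ (P : Subgroup G) := by
      refine Subgroup.mem_inf.2 ⟨?_, Subtype.property _⟩
      rw [← QuotientGroup.eq_one_iff, ← QuotientGroup.mk'_apply]
      simp only [Subgroup.coe_mul, Subgroup.coe_inv, map_mul, map_inv]
      rw [hc _ ⟨a, a.2, rfl⟩ _ ⟨b, b.2, rfl⟩, mul_inv_cancel]
    rw [H34.inf_eq_bot_of_not_dvd hN P.isPGroup', Subgroup.mem_bot] at h1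
    exact mul_inv_eq_one.1 (Subtype.ext h1)

end Cfsg.Agent.S4736
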