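import Mathlib
import Cfsg.Statements.S4955
import Cfsg.Agent.Lib.Char.Burnside
import Cfsg.Agent.Lib.Char.Ortho
import Cfsg.Agent.Lib.H85.CharAux
import Cfsg.Agent.S0169
import Cfsg.Agent.Lib.Block.PPart

set_option autoImplicit false
open Cfsg

namespace Cfsg.Agent.S4955

set_option linter.style.haveILetI false


/-- Let X be a finite group with an abelian normal Sylow p-subgroup V (a normal p-subgroup of index prime to p in which any two elements commute), and let G be a complement to V in X. Then for every v in V, writing C for the centralizer of v in G, the number k(X) of conjugacy classes of X satisfies k(X) ≤ (order of C)·(order of V) − ((order of G) − k(G)); the statement is written with the subtracted term moved to the left. In particular, if some v in V is centralized by no nonidentity element of G, then k(X) is at most the order of V. -/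
theorem result {X : Type*} [Group X] [Finite X] (p : ℕ) [Fact p.Prime] (V : Subgroup X) [V.Normal] (hVp : IsPGroup p V) (hidx : ¬ p ∣ V.index) (hab : ∀ a ∈ V, ∀ b ∈ V, a * b = b * a) (G : Subgroup X) (hGV : Subgroup.IsComplement' V G) (v : X) (hv : v ∈ V) : Nat.card (ConjClasses X) + Nat.card G ≤ Nat.card ↥(G ⊓ Subgroup.centralizer ({v} : Set X)) * Nat.card V + Nat.card (ConjClasses G) := by
  classical
  haveI := Fintype.ofFinite X
  obtain ⟨M, hM⟩ := H85.exists_isPModular (Fact.out : p.Prime)
  haveI := H33.isMaximal_of hM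
  have hne : ∀ χ : IrrCharacter X, χ.1 v ≠ 0 := by
    intro χ h0
    obtain ⟨j, hj⟩ := H35.isPElt_of_mem hVp hv
    have h1 := H85.red_char_pElt hM (H6.irr_isCharacter χ.2) hj
    rw [h0, H33.red_zero, eq_comm, H33.natCast_F_eq_zero_iff hM] at h1
    apply hidx (h1.trans _)
    obtain ⟨χ, n, ρ, hρ, rfl⟩ := χ
    have := S0169.result ρ V hab
    simpa [charDegree] using this
  -- characters with `V` in the kernel
  let e : G ≃* X ⧸ V := hGV.symm.QuotientMulEquiv.symm
  let ι : IrrCharacter G → IrrCharacter X := fun ψ => ⟨fun x => ψ.1 (e.symm (x : X ⧸ V)),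
    H6.isIrrCharacter_comp_surjective (e.symm.toMonoidHom.comp (QuotientGroup.mk' V))
      (e.symm.surjective.comp (QuotientGroup.mk'_surjective V)) ψ.2⟩
  have hι : Function.Injective ι := fun ψ ψ' h => Subtype.ext (funext fun g => by
    obtain ⟨x, hx⟩ := QuotientGroup.mk_surjective (e g)
    have := congrFun (congrArg Subtype.val h) x
    simpa [ι, hx] using this)
  have h1 : ∑ χ : IrrCharacter X, ‖χ.1 v‖ ^ 2 = Nat.card (Subgroup.centralizer ({v} : Set X)) := by
    apply Complex.ofReal_injective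
    rw [Complex.ofReal_natCast, ← H6.column_orthogonality_self]
    push_cast
    exact Finset.sum_congr rfl fun χ _ => (Complex.mul_conj' _).symm
  have h2 : ∑ χ ∈ Finset.univ.image ι, ‖χ.1 v‖ ^ 2 = Nat.card G := by
    rw [Finset.sum_image fun a _ b _ h => hι h]
    apply Complex.ofReal_injective
    rw [Complex.ofReal_natCast, ← H6.sum_irr_one_sq]
    push_cast
    refine Finset.sum_congr rfl fun ψ _ => ?_
    obtain ⟨n, hn⟩ := H6.char_one_nat (H6.irr_isCharacter ψ.2)
    simp [ι, (QuotientGroup.eq_one_iff v).2 hv, hn]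
  have h3 : (((Finset.univ.image ι)ᶜ.card : ℕ) : ℝ) ≤ ∑ χ ∈ (Finset.univ.image ι)ᶜ, ‖χ.1 v‖ ^ 2 := by
    refine H8.card_le_sum_of_one_le_prod _ _ (fun χ _ => pow_pos (norm_pos_iff.2 (hne χ)) 2) ?_
    rw [Finset.prod_pow, ← norm_prod]
    refine one_le_pow₀ (H8.one_le_norm_of_isIntegral_fixed
      (IsIntegral.prod _ fun χ _ => H6.char_isIntegral (H6.irr_isCharacter χ.2) v)
      (Finset.prod_ne_zero_iff.2 fun χ _ => hne χ) fun σ => ?_)
    rw [map_prod]
    let τ : (ℂ ≃+* ℂ) → IrrCharacter X → IrrCharacter X :=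
      fun σ χ => ⟨_, H8.isIrrCharacter_ringEquiv_comp χ.2 σ⟩
    have hτ : ∀ σ χ, τ σ.symm (τ σ χ) = χ := fun σ χ => Subtype.ext (funext fun x => by simp [τ])
    have hm : ∀ σ, ∀ χ ∈ (Finset.univ.image ι)ᶜ, τ σ χ ∈ (Finset.univ.image ι)ᶜ := by
      intro σ χ hχ
      rw [Finset.mem_compl, Finset.mem_image] at hχ ⊢
      rintro ⟨ψ, -, h⟩
      refine hχ ⟨⟨_, H8.isIrrCharacter_ringEquiv_comp ψ.2 σ.symm⟩, Finset.mem_univ _, ?_⟩
      rw [← hτ σ χ, ← h]
    exact Finset.prod_bij' (fun χ _ => τ σ χ) (fun χ _ => τ σ.symm χ) (hm σ) (hm σ.symm)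
      (fun χ _ => hτ σ χ) (fun χ _ => hτ σ.symm χ) fun _ _ => rfl
  have h4 : Nat.card (Subgroup.centralizer ({v} : Set X)) ≤
      Nat.card ↥(G ⊓ Subgroup.centralizer ({v} : Set X)) * Nat.card V := by
    rw [← Nat.card_prod]
    have hVC : V ≤ Subgroup.centralizer {v} := fun a ha =>
      Subgroup.mem_centralizer_singleton_iff.2 (hab a ha v hv)
    refine Nat.card_le_card_of_surjective (fun q => ⟨q.2 * q.1,
      Subgroup.mul_mem _ (hVC q.2.2) q.1.2.2⟩) fun c => ?_
    obtain ⟨⟨a, g⟩, h⟩ := hGV.2 c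
    refine ⟨(⟨g, g.2, ?_⟩, a), Subtype.ext h⟩
    have : (g : X) = (a : X)⁻¹ * c := by rw [← h]; simp
    rw [this]
    exact Subgroup.mul_mem _ (Subgroup.inv_mem _ (hVC a.2)) c.2
  rw [← Finset.sum_add_sum_compl (Finset.univ.image ι), h2] at h1
  have h5 := Finset.card_add_card_compl (Finset.univ.image ι)
  rw [Finset.card_image_of_injective _ hι, Finset.card_univ, ← Nat.card_eq_fintype_card,
    ← Nat.card_eq_fintype_card, H6.card_irr_eq_card_conjClasses,
    H6.card_irr_eq_card_conjClasses] at h5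
  have h6 : Nat.card G + (Finset.univ.image ι)ᶜ.card ≤
      Nat.card (Subgroup.centralizer ({v} : Set X)) := by
    have : (Nat.card G : ℝ) + (Finset.univ.image ι)ᶜ.card ≤
      Nat.card (Subgroup.centralizer ({v} : Set X)) := by linarith
    exact_mod_cast this
  omega

end Cfsg.Agent.S4955
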