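import Mathlib
import Cfsg.Statements.S4956
import Cfsg.Agent.Lib.Core.CoprimeExt

set_option autoImplicit false
open Cfsg

namespace Cfsg.Agent.S4956

set_option linter.style.haveILetI false

theorem card_ker {A V : Type*} [Group A] [Finite A] [CommGroup V] [Finite V] (φ : A →* MulAut V)
    (hcop : (Nat.card A).Coprime (Nat.card V)) (a b : A) :
    Nat.card {q : V × V // q.1 * φ a q.2 = q.2 * φ b q.1} =
      Nat.card V * Nat.card {v : V // φ a v = v ∧ φ b v = v} := by
  let f : V × V →* V := ((MonoidHom.id V)⁻¹ * (φ b).toMonoidHom).coprod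
    ((MonoidHom.id V)⁻¹ * (φ a).toMonoidHom)⁻¹
  have hf : ∀ u v, f (u, v) = u⁻¹ * φ b u * (v⁻¹ * φ a v)⁻¹ := fun _ _ => rfl
  let B := Subgroup.closure ({a, b} : Set A)
  have ha : a ∈ B := Subgroup.subset_closure (by simp)
  have hb : b ∈ B := Subgroup.subset_closure (by simp)
  have h1 : f.range = H2.actComm φ ⊤ B := by
    refine le_antisymm ?_ (H2.actComm_le.2 fun g hg => ?_)
    · rintro _ ⟨⟨u, v⟩, rfl⟩
      exact mul_mem (H2.mem_actComm hb trivial) (inv_mem (H2.mem_actComm ha trivial))
    · induction hg using Subgroup.closure_induction with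
      | mem g hg =>
        rcases hg with rfl | rfl
        · exact fun x _ => ⟨(1, x⁻¹), by simp [hf, mul_comm]⟩
        · exact fun x _ => ⟨(x, 1), by simp [hf]⟩
      | one => simp
      | mul g h _ _ hg hh =>
        intro x _
        have := mul_mem (hh x trivial) (hg (φ h x) trivial)
        simpa [mul_assoc] using this
      | inv g _ hg =>
        intro x _
        have := inv_mem (hg (φ g⁻¹ x) trivial)
        simpa [mul_comm] using this
  have hc := H2.coprime_subgroups (U := ⊤) (B := B) hcop
  have h2 := H2.ext_actComm_sup_fixSub (φ := φ) (K := ⊤) (B := B) (fun _ _ _ _ => trivial) hc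
    (Or.inr inferInstance)
  have h3 := H2.ext_actComm_inf_fixSub_le (φ := φ) (K := ⊤) (B := B) (fun _ _ _ _ => trivial) hc
  rw [top_inf_eq, ← h1] at h2
  rw [← h1, (Subgroup.commutator_eq_bot_iff_le_centralizer).2
    (fun x _ y _ => mul_comm y x)] at h3
  have h4 := (Subgroup.isComplement'_of_disjoint_and_mul_eq_univ (disjoint_iff_inf_le.2 h3)
    (by rw [← Subgroup.mul_normal, h2]; rfl)).card_mul
  have h5 : Nat.card {v : V // φ a v = v ∧ φ b v = v} = Nat.card (H2.fixSub φ B) := by
    refine Nat.card_congr (Equiv.subtypeEquivRight fun v => ?_)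
    rw [H2.mem_fixSub]
    refine ⟨fun h g hg => ?_, fun h => ⟨h a ha, h b hb⟩⟩
    have : B ≤ (MulAction.stabilizer (MulAut V) v).comap φ := by
      rw [Subgroup.closure_le]
      rintro g (rfl | rfl)
      exacts [h.1, h.2]
    exact this hg
  have h6 : Nat.card {q : V × V // q.1 * φ a q.2 = q.2 * φ b q.1} = Nat.card f.ker := by
    refine Nat.card_congr (Equiv.subtypeEquivRight fun q => ?_)
    rw [MonoidHom.mem_ker, hf, mul_inv_eq_one, inv_mul_eq_iff_eq_mul, mul_left_comm,
      eq_inv_mul_iff_mul_eq, eq_comm]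
  have h7 := f.ker.card_mul_index
  rw [Subgroup.index_ker, Nat.card_prod] at h7
  rw [h5, h6]
  refine Nat.eq_of_mul_eq_mul_right (Nat.card_pos (α := f.range)) ?_
  rw [h7, mul_assoc, mul_comm _ (Nat.card f.range), h4]

theorem card_eq_sum {α : Type*} [Fintype α] (p : α → Prop) [DecidablePred p] :
    Nat.card {x // p x} = ∑ x, if p x then 1 else 0 := by
  rw [Nat.card_eq_fintype_card, Fintype.card_subtype, Finset.card_filter]

/-- Let X be a finite group, V an abelian normal subgroup of X (any two elements of V commute) and G a complement to V in X whose order is coprime to that of V. Let S be a set of representatives of the orbits of G on V under conjugation: S lies in V and every element of V is conjugate under G to exactly one member of S. Then the number of conjugacy classes of X equals the sum, over s in S, of the number of conjugacy classes of the centralizer of s in G. -/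
theorem result {X : Type*} [Group X] [Finite X] (V : Subgroup X) [V.Normal] (hab : ∀ a ∈ V, ∀ b ∈ V, a * b = b * a) (G : Subgroup X) (hGV : Subgroup.IsComplement' V G) (hcop : (Nat.card V).Coprime (Nat.card G)) (S : Finset X) (hSV : ∀ s ∈ S, s ∈ V) (hrep : ∀ v ∈ V, ∃! s, s ∈ S ∧ ∃ g ∈ G, g * v * g⁻¹ = s) : Nat.card (ConjClasses X) = ∑ s ∈ S, Nat.card (ConjClasses ↥(G ⊓ Subgroup.centralizer ({s} : Set X))) := by
  classical
  haveI := Fintype.ofFinite X
  let F : X → ℕ := fun w => ∑ a : G, ∑ b : G,
    if Commute (a : X) b ∧ Commute (a : X) w ∧ Commute (b : X) w then 1 else 0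
  have hF : ∀ w, F w = Nat.card (ConjClasses ↥(G ⊓ Subgroup.centralizer ({w} : Set X))) *
      Nat.card ↥(G ⊓ Subgroup.centralizer ({w} : Set X)) := by
    intro w
    simp only [F]
    rw [← card_comm_eq_card_conjClasses_mul_card, ← Fintype.sum_prod_type', ← card_eq_sum]
    refine Nat.card_congr ⟨fun q => ⟨(⟨q.1.1, q.1.1.2, Subgroup.mem_centralizer_singleton_iff.2 q.2.2.1⟩,
      ⟨q.1.2, q.1.2.2, Subgroup.mem_centralizer_singleton_iff.2 q.2.2.2⟩), Subtype.ext q.2.1⟩,
      fun q => ⟨(⟨q.1.1, q.1.1.2.1⟩, ⟨q.1.2, q.1.2.2.1⟩), congrArg Subtype.val q.2.eq,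
        Subgroup.mem_centralizer_singleton_iff.1 q.1.1.2.2,
        Subgroup.mem_centralizer_singleton_iff.1 q.1.2.2.2⟩, fun _ => rfl, fun _ => rfl⟩
  have hFc : ∀ w, ∀ g ∈ G, F (g * w * g⁻¹) = F w := by
    intro w g hg
    simp only [F]
    rw [← Equiv.sum_comp (MulAut.conj (⟨g, hg⟩ : G)).toEquiv]
    refine Finset.sum_congr rfl fun a _ => ?_
    rw [← Equiv.sum_comp (MulAut.conj (⟨g, hg⟩ : G)).toEquiv]
    refine Finset.sum_congr rfl fun b _ => if_congr ?_ rfl rfl
    have key : ∀ x y : X, Commute (g * x * g⁻¹) (g * y * g⁻¹) ↔ Commute x y := fun x y =>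
      commute_map_iff (f := MulAut.conj g) (MulAut.conj g).injective
    exact and_congr (key _ _) (and_congr (key _ _) (key _ _))
  have h1 : Nat.card (ConjClasses X) * Nat.card X = Nat.card V * ∑ w : V, F w := by
    letI : CommGroup V := { (inferInstance : Group V) with
      mul_comm := fun a b => Subtype.ext (hab a a.2 b b.2) }
    let φ : G →* MulAut V := (MulAut.conjNormal (H := V)).comp G.subtype
    let e : V × G ≃ X := Equiv.ofBijective _ hGV
    rw [← card_comm_eq_card_conjClasses_mul_card, card_eq_sum, Fintype.sum_prod_type,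
      ← e.sum_comp, Fintype.sum_prod_type, Finset.sum_comm]
    simp only [F]
    rw [Finset.sum_comm (s := (Finset.univ : Finset V)), Finset.mul_sum]
    refine Finset.sum_congr rfl fun a _ => ?_
    rw [Finset.sum_congr rfl fun u _ => (e.sum_comp _).symm.trans (Fintype.sum_prod_type_right _),
      Finset.sum_comm, Finset.sum_comm (s := (Finset.univ : Finset V)), Finset.mul_sum]
    refine Finset.sum_congr rfl fun b _ => ?_
    have key : ∀ u v : V, Commute (e (u, a)) (e (v, b)) ↔
        Commute (a : X) b ∧ u * φ a v = v * φ b u := by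
      intro u v
      have e1 : e (u, a) * e (v, b) = e (u * φ a v, a * b) := by
        change (u : X) * a * (v * b) = u * (a * v * (a : X)⁻¹) * (a * b)
        group
      have e2 : e (v, b) * e (u, a) = e (v * φ b u, b * a) := by
        change (v : X) * b * (u * a) = v * (b * u * (b : X)⁻¹) * (b * a)
        group
      rw [commute_iff_eq, e1, e2, e.apply_eq_iff_eq, Prod.mk.injEq, and_comm, Subtype.ext_iff]
      rfl
    simp only [key]
    by_cases hc : Commute (a : X) b
    · simp only [hc, true_and]
      rw [← Fintype.sum_prod_type', ← card_eq_sum, ← card_eq_sum, card_ker φ hcop.symm]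
      congr 1
      refine Nat.card_congr (Equiv.subtypeEquivRight fun v => ?_)
      simp only [Subtype.ext_iff, commute_iff_eq, ← mul_inv_eq_iff_eq_mul]
      rfl
    · simp [hc]
  have h2 : ∑ w : V, F w = Nat.card G *
      ∑ s ∈ S, Nat.card (ConjClasses ↥(G ⊓ Subgroup.centralizer ({s} : Set X))) := by
    choose r hr hr' using hrep
    rw [← Finset.sum_fiberwise_of_maps_to (s := Finset.univ) (t := S) (g := fun v : V => r v v.2)
      (fun v _ => (hr v v.2).1), Finset.mul_sum]
    refine Finset.sum_congr rfl fun s hs => ?_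
    rw [Finset.sum_congr rfl (g := fun _ => F s) (fun v hv => by
      obtain ⟨g, hg, h⟩ := (hr v v.2).2
      rw [← (Finset.mem_filter.1 hv).2, ← h, hFc _ g hg]), Finset.sum_const, smul_eq_mul, hF,
      mul_comm (Nat.card (ConjClasses _)), ← mul_assoc]
    congr 1
    letI : MulAction G X := MulAction.compHom X (MulAut.conj.comp G.subtype)
    have h3 := (MulAction.stabilizer G s).index_mul_card
    rw [MulAction.index_stabilizer] at h3
    rw [← h3]
    congr 1
    · rw [← Set.ncard_coe_finset, ← Set.ncard_image_of_injective _ Subtype.val_injective]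
      congr 1
      ext x
      constructor
      · rintro ⟨v, hv, rfl⟩
        obtain ⟨g, hg, h⟩ := (hr v v.2).2
        refine ⟨⟨g, hg⟩⁻¹, ?_⟩
        change g⁻¹ * s * g⁻¹⁻¹ = v
        rw [← (Finset.mem_filter.1 hv).2, ← h]
        group
      · rintro ⟨g, rfl⟩
        refine ⟨⟨g * s * (g : X)⁻¹, ‹V.Normal›.conj_mem _ (hSV s hs) _⟩, ?_, rfl⟩
        exact Finset.mem_filter.2 ⟨Finset.mem_univ _,
          (hr' _ _ s ⟨hs, (g : X)⁻¹, G.inv_mem g.2, by group⟩).symm⟩
    · rw [← Nat.card_congr (Subgroup.subgroupOfEquivOfLe (inf_le_left : G ⊓ _ ≤ G)).toEquiv]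
      congr 2
      ext g
      rw [Subgroup.mem_subgroupOf, Subgroup.mem_inf, Subgroup.mem_centralizer_singleton_iff,
        MulAction.mem_stabilizer_iff, ← mul_inv_eq_iff_eq_mul]
      exact ⟨fun h => h.2, fun h => ⟨g.2, h⟩⟩
  rw [h2, ← mul_assoc, hGV.card_mul, mul_comm (Nat.card X)] at h1
  exact Nat.eq_of_mul_eq_mul_right Nat.card_pos h1

end Cfsg.Agent.S4956
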