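import Cfsg.Statements.S4958
import Mathlib
import Cfsg.Agent.Lib.Blk86.Knorr2

set_option autoImplicit false
open Cfsg

namespace Cfsg.Agent.S4958

set_option linter.style.haveILetI false
set_option linter.unusedVariables false


/-- Let X be a finite group and V a normal subgroup of X in which every element has order dividing the prime p, whose index in X is prime to p and which is its own centralizer in X; so V is an elementary abelian normal Sylow p-subgroup, and any complement G to V in X is a group of order prime to p acting faithfully on the vector space V by conjugation (the coprime linear setting of the k(GV) problem). Let G be a complement to V in X and suppose that for some v in V the centralizer of v in G is abelian. Then the number of conjugacy classes of X is at most the order of V (the abelian-stabilizer criterion for the k(GV) problem). -/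
theorem result {X : Type*} [Group X] [Finite X] (p : ℕ) [Fact p.Prime] (V : Subgroup X) [V.Normal] (hVexp : ∀ v ∈ V, v ^ p = 1) (hidx : ¬ p ∣ V.index) (hself : Subgroup.centralizer (V : Set X) = V) (G : Subgroup X) (hGV : Subgroup.IsComplement' V G) (v : X) (hv : v ∈ V) (hab : ∀ a ∈ G ⊓ Subgroup.centralizer ({v} : Set X), ∀ b ∈ G ⊓ Subgroup.centralizer ({v} : Set X), a * b = b * a) : Nat.card (ConjClasses X) ≤ Nat.card V := by
  obtain ⟨M, hM⟩ := H85.exists_isPModular (Fact.out : p.Prime)
  haveI := H33.isMaximal_of hM
  have hcomm : ∀ a ∈ V, ∀ b ∈ V, a * b = b * a := fun a ha b hb =>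
    Subgroup.mem_centralizer_iff.1 (hself.ge hb) a ha
  have hU : G ⊓ Subgroup.centralizer ({v} : Set X) ≤ Subgroup.normalizer (V : Set X) :=
    Subgroup.le_normalizer_of_normal
  have hG : Nat.card G = V.index := hGV.symm.index_eq_card.symm
  haveI : IsMulCommutative ↥(G ⊓ Subgroup.centralizer ({v} : Set X)) :=
    ⟨⟨fun a b => Subtype.ext (hab a a.2 b b.2)⟩⟩
  letI : CommGroup V := { (inferInstance : Group V) with
    mul_comm := fun a b => Subtype.ext (hcomm a a.2 b b.2) }
  refine H86.knorr_of_knA hM hVexp hidx hcomm hGV hv
    (fun x => by rw [Subgroup.mem_inf, Subgroup.mem_centralizer_singleton_iff]) le_rfl hU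
    (fun h hh => ?_) (H86.knA_of_comm hM (fun h => hidx (hG ▸ h.trans
      (Subgroup.card_dvd_of_le inf_le_left))) _ rfl
      (fun x => ⟨1, Subtype.ext (by simpa using hVexp x x.2)⟩) _)
  have h1 : (h : X) ∈ V := hself.le (Subgroup.mem_centralizer_iff.2 fun u hu => by
    have h2 := H2.coe_conjAut_apply hU h ⟨u, hu⟩
    rw [hh] at h2
    exact (mul_inv_eq_iff_eq_mul.1 h2.symm).symm)
  exact Subtype.ext (Subgroup.disjoint_def.1 hGV.disjoint h1 h.2.1)

end Cfsg.Agent.S4958
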