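import Mathlib
import Cfsg.Statements.S4964
import Cfsg.Agent.Lib.Block.Quot
import Cfsg.Agent.Lib.Core.Coprime
import Cfsg.Agent.Lib.Core.Frattini

set_option autoImplicit false
open Cfsg

namespace Cfsg.Agent.S4964

set_option linter.style.haveILetI false

open scoped commutatorElement
open H33 H34

theorem mem_centralizer_of_mk {G : Type*} [Group G] [Finite G] {p : ℕ} [hp : Fact p.Prime]
    {D : Subgroup G} [D.Normal] (hD : IsPGroup p D) {y : G} (hy : ¬ p ∣ orderOf y)
    (h : (y : G ⧸ ⁅D, D⁆) ∈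
      Subgroup.centralizer ((D.map (QuotientGroup.mk' ⁅D, D⁆) : Subgroup (G ⧸ ⁅D, D⁆)) :
        Set (G ⧸ ⁅D, D⁆))) : y ∈ Subgroup.centralizer (D : Set G) := by
  have h1 : Subgroup.zpowers y ≤ Subgroup.centralizer (D : Set G) := by
    apply H2.le_centralizer_of_commutator_le_frattini Subgroup.le_normalizer_of_normal
    · rw [Nat.card_zpowers]
      obtain ⟨k, hk⟩ := IsPGroup.iff_card.1 (hD.to_subgroup (frattini D))
      rw [hk]
      exact Nat.Coprime.pow_right k ((Nat.Prime.coprime_iff_not_dvd hp.out).2 hy).symm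
    · refine le_trans ?_ ((H1.map_subtype_frattini_le_iff hD).1 le_rfl).1
      rw [Subgroup.commutator_le]
      intro d hd a ha
      have ha' : (a : G ⧸ ⁅D, D⁆) ∈ Subgroup.centralizer
          ((D.map (QuotientGroup.mk' ⁅D, D⁆) : Subgroup (G ⧸ ⁅D, D⁆)) : Set (G ⧸ ⁅D, D⁆)) := by
        obtain ⟨k, rfl⟩ := ha
        simpa using Subgroup.zpow_mem _ h k
      rw [← QuotientGroup.eq_one_iff]
      have h2 := Subgroup.mem_centralizer_iff.1 ha' _ ⟨d, hd, rfl⟩
      have h3 : QuotientGroup.mk' ⁅D, D⁆ ⁅d, a⁆ = 1 := by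
        rw [map_commutatorElement, commutatorElement_eq_one_iff_mul_comm]
        exact h2
      exact h3
  exact h1 (Subgroup.mem_zpowers y)

theorem sameBlock_of_infl {G : Type*} [Group G] [Finite G] {p : ℕ} [hp : Fact p.Prime]
    {M : Ideal AlgInt} [M.IsMaximal] (hM : IsPModular p M)
    {D : Subgroup G} [D.Normal] (hD : IsPGroup p D) {χ ψ : IrrCharacter (G ⧸ ⁅D, D⁆)}
    (h : SameBlock M (H35.infl ⁅D, D⁆ χ : G → ℂ) (H35.infl ⁅D, D⁆ ψ)) :
    SameBlock M (χ : G ⧸ ⁅D, D⁆ → ℂ) ψ := by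
  classical
  letI := Fintype.ofFinite G
  set N := ⁅D, D⁆ with hN
  have hND : N ≤ D := Subgroup.commutator_le_left D D
  have hb := isPBlock_blockOf (M := M) χ
  set b := blockOf M (χ : G ⧸ N → ℂ)
  haveI : (D.map (QuotientGroup.mk' N)).Normal :=
    Subgroup.Normal.map inferInstance _ (QuotientGroup.mk'_surjective N)
  let z : MonoidAlgebra (F M) G :=
    mk fun g => if p ∣ orderOf g then 0 else red M (blockCoeff b (g : G ⧸ N))
  have hzc : IsCent z := isCent_mk fun g k => by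
    simp only [H35.orderOf_conj, QuotientGroup.mk_mul, QuotientGroup.mk_inv, blockCoeff_conj]
  have hproj : proj N z = eB M b := by
    refine alg_ext fun q => ?_
    rw [coeff_proj, coeff_eB]
    by_cases hq0 : red M (blockCoeff b q) = 0
    · rw [hq0]
      refine Finset.sum_eq_zero fun g _ => ?_
      split_ifs with hg
      · rw [coeff_mk, hg, hq0, ite_self]
      · rfl
    · have hq : ¬ p ∣ orderOf q := fun hq => hq0 (by
        rw [blockCoeff_eq_zero_of_dvd hM b (fun g => blockCoeff_mem_O hb g) hq, red_zero])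
      have hc := mem_Cen_of_coeff hM hb (hD.map (QuotientGroup.mk' N)) hq0
      obtain ⟨y, hy, rfl⟩ := H35.exists_not_dvd_mk_eq p N hq
      have hyc := mem_centralizer_of_mk hD hy hc
      rw [Finset.sum_eq_single y]
      · rw [if_pos rfl, coeff_mk, if_neg hy]
      · intro g _ hg
        split_ifs with hgy
        · rw [coeff_mk, if_pos]
          by_contra hg'
          apply hg
          have hu : y⁻¹ * g ∈ D := hND (QuotientGroup.eq.1 hgy.symm)
          have hcm : Commute (y⁻¹ * g) y := Subgroup.mem_centralizer_iff.1 hyc _ hu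
          have h1 : H35.pPart p ((y⁻¹ * g) * y) = y⁻¹ * g :=
            H35.pPart_mul_eq (H35.isPElt_of_mem hD hu) hy hcm
          rw [hcm.eq, mul_inv_cancel_left, H35.pPart_eq_one hg'] at h1
          exact (inv_mul_eq_one.1 h1.symm).symm
        · rfl
      · simp
  have h1 : lam M (ψ : G ⧸ N → ℂ) (eB M b) = 1 := by
    rw [← hproj, ← lam_infl ψ hzc, ← lam_eq_of_sameBlock h, lam_infl χ hzc, hproj,
      lam_eB_of_mem hb (mem_blockOf_self χ)]
  exact (lam_eB_eq_one_iff hb).1 h1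

/-- Let D be a normal p-subgroup of the finite group G, let D′ be its commutator subgroup (normal in G), and fix a maximal ideal M of the algebraic integers containing p. Then (i) two irreducible characters of G ⧸ D′ lie in the same p-block if and only if their inflations to G do, and (ii) every p-block of G contains the inflation of some irreducible character of G ⧸ D′; so inflation induces a bijection between the p-blocks of G ⧸ D′ and the p-blocks of G. -/
theorem result {G : Type*} [Group G] [Finite G] (p : ℕ) [Fact p.Prime] (M : Ideal Cfsg.AlgInt) (hM : Cfsg.IsPModular p M) (D : Subgroup G) [D.Normal] (hD : IsPGroup p D) : (∀ χ ψ : Cfsg.IrrCharacter (G ⧸ ⁅D, D⁆), Cfsg.SameBlock M (χ : G ⧸ ⁅D, D⁆ → ℂ) (ψ : G ⧸ ⁅D, D⁆ → ℂ) ↔ Cfsg.SameBlock M ((χ : G ⧸ ⁅D, D⁆ → ℂ) ∘ QuotientGroup.mk) ((ψ : G ⧸ ⁅D, D⁆ → ℂ) ∘ QuotientGroup.mk)) ∧ ∀ B : Set (Cfsg.IrrCharacter G), Cfsg.IsPBlock M B → ∃ χ : Cfsg.IrrCharacter (G ⧸ ⁅D, D⁆), ∃ θ ∈ B, (θ : G → ℂ) = (χ : G ⧸ ⁅D,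 D⁆ → ℂ) ∘ QuotientGroup.mk := by
  haveI := hM.2.1
  refine ⟨fun χ ψ => ⟨fun h => H34.sameBlock_infl h, fun h => sameBlock_of_infl hM hD h⟩,
    fun B hB => ?_⟩
  obtain ⟨χ, hχ⟩ := H34.exists_infl_mem hM
    (hD.to_le (Subgroup.commutator_le_left D D)) hB
  exact ⟨χ, _, hχ, rfl⟩

end Cfsg.Agent.S4964
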