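import Mathlib
import Cfsg.Statements.S4965

set_option autoImplicit false
open Cfsg

namespace Cfsg.Agent.S4965

set_option linter.style.haveILetI false


/-- Let X be a finite group with an abelian normal subgroup V (any two elements of V commute), and let φ be the action of X ⧸ V on V induced by conjugation (well defined because V is abelian; the hypothesis hφ says that the class of x acts as conjugation by x). Then X has at most as many conjugacy classes as the semidirect product of V by X ⧸ V formed with this action: the split extension has the largest class number among extensions with the given action. -/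
theorem result {X : Type*} [Group X] [Finite X] (V : Subgroup X) [V.Normal] (hab : ∀ a ∈ V, ∀ b ∈ V, a * b = b * a) (φ : X ⧸ V →* MulAut ↥V) (hφ : ∀ (x : X) (v : ↥V), ((φ (QuotientGroup.mk x) v : ↥V) : X) = x * v * x⁻¹) : Nat.card (ConjClasses X) ≤ Nat.card (ConjClasses (SemidirectProduct ↥V (X ⧸ V) φ)) := by
  classical
  have hc : Nat.card (SemidirectProduct ↥V (X ⧸ V) φ) = Nat.card X := by
    rw [SemidirectProduct.card, mul_comm, Subgroup.card_eq_card_quotient_mul_card_subgroup V]
  haveI : Finite (SemidirectProduct ↥V (X ⧸ V) φ) := Nat.finite_of_card_ne_zero (hc ▸ Nat.card_pos.ne')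
  refine Nat.le_of_mul_le_mul_right ?_ (Nat.card_pos (α := X))
  conv_rhs => rw [← hc]
  rw [← card_comm_eq_card_conjClasses_mul_card, ← card_comm_eq_card_conjClasses_mul_card]
  haveI : Nonempty {q : X × X // Commute q.1 q.2} := ⟨⟨(1, 1), Commute.refl _⟩⟩
  let π : {q : X × X // Commute q.1 q.2} → (X ⧸ V) × (X ⧸ V) := fun q => (q.1.1, q.1.2)
  let r : {q : X × X // Commute q.1 q.2} → {q : X × X // Commute q.1 q.2} :=
    fun q => Function.invFun π (π q)
  have hr : ∀ q, π (r q) = π q := fun q => Function.invFun_eq ⟨q, rfl⟩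
  have h1 : ∀ q, q.1.1 * (r q).1.1⁻¹ ∈ V := fun q => by
    rw [← QuotientGroup.eq_one_iff, QuotientGroup.mk_mul, QuotientGroup.mk_inv, mul_inv_eq_one]
    exact (congrArg Prod.fst (hr q)).symm
  have h2 : ∀ q, q.1.2 * (r q).1.2⁻¹ ∈ V := fun q => by
    rw [← QuotientGroup.eq_one_iff, QuotientGroup.mk_mul, QuotientGroup.mk_inv, mul_inv_eq_one]
    exact (congrArg Prod.snd (hr q)).symm
  refine Nat.card_le_card_of_injective (fun q => ⟨(⟨⟨_, h1 q⟩, (π q).1⟩, ⟨⟨_, h2 q⟩, (π q).2⟩), ?_⟩) ?_
  · refine SemidirectProduct.ext (Subtype.ext ?_) ?_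
    · simp only [SemidirectProduct.mul_left, Subgroup.coe_mul]
      rw [← hr q]
      simp only [π, hφ]
      have e1 := q.2.eq
      have e2 := (r q).2.inv_inv.eq
      calc _ = (q.1.1 * q.1.2) * ((r q).1.2⁻¹ * (r q).1.1⁻¹) := by group
        _ = _ := by rw [e1, ← e2]; group
    · exact congrArg (QuotientGroup.mk (s := V)) q.2.eq
  · intro q q' h
    have e1 : q.1.1 * (r q).1.1⁻¹ = q'.1.1 * (r q').1.1⁻¹ := congrArg (·.1.1.left.1) h
    have e2 : q.1.2 * (r q).1.2⁻¹ = q'.1.2 * (r q').1.2⁻¹ := congrArg (·.1.2.left.1) h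
    have : r q = r q' := congrArg (Function.invFun π)
      (Prod.ext (congrArg (·.1.1.right) h) (congrArg (·.1.2.right) h))
    rw [this] at e1 e2
    exact Subtype.ext (Prod.ext (mul_right_cancel e1) (mul_right_cancel e2))

end Cfsg.Agent.S4965
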