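import Cfsg.Statements.S4967
import Mathlib
import Cfsg.Agent.Lib.Char.Basic

set_option autoImplicit false
open Cfsg

namespace Cfsg.Agent.S4967

set_option linter.style.haveILetI false
set_option linter.unusedVariables false

open Polynomial

theorem exists_field {F : Type*} [Field F] {H : Type*} [CommGroup H] {V : Type*} [AddCommGroup V]
    [Module F V] [Nontrivial V] (ρ : Representation F H V)
    (hirr : ∀ U : Submodule F V, (∀ h : H, ∀ u ∈ U, ρ h u ∈ U) → U = ⊥ ∨ U = ⊤) :
    ∃ (I : Ideal (MonoidAlgebra F H)) (_ : I.IsMaximal) (e : (MonoidAlgebra F H ⧸ I) ≃ₗ[F] V),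
      ∀ h k, e (Ideal.Quotient.mk I (MonoidAlgebra.of F H h) * k) = ρ h (e k) := by
  haveI : Nontrivial (Subrepresentation ρ) :=
    ⟨⊥, ⊤, fun e => bot_ne_top (congrArg Subrepresentation.toSubmodule e : (⊥ : Submodule F V) = ⊤)⟩
  haveI : ρ.IsIrreducible := ⟨fun U => (hirr U.toSubmodule fun h u hu =>
    U.apply_mem_toSubmodule h hu).imp (fun e => Subrepresentation.toSubmodule_injective e)
      fun e => Subrepresentation.toSubmodule_injective e⟩
  obtain ⟨I, hI, ⟨e⟩⟩ := isSimpleModule_iff_quot_maximal.1
    (inferInstance : IsSimpleModule (MonoidAlgebra F H) ρ.asModule)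
  refine ⟨I, hI, (e.symm.restrictScalars F).trans ρ.asModuleEquiv, fun h k => ?_⟩
  change ρ.asModuleEquiv (e.symm (MonoidAlgebra.of F H h • k)) = ρ h (ρ.asModuleEquiv (e.symm k))
  rw [map_smul, Representation.asModuleEquiv_map_smul, Representation.asAlgebraHom_of]

theorem core {F K H : Type*} [Field F] [Fintype F] [Field K] [Algebra F K] [FiniteDimensional F K]
    [CommGroup H] [Finite H] (ι : H →* K) (hι : Function.Injective ι)
    (hgen : Submodule.span F (Set.range ι) = ⊤) (h2 : 2 ≤ Module.finrank F K) :
    (∃ B : LinearMap.BilinForm F K, B.Nondegenerate ∧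
      ∀ h : H, ∀ x y : K, B (ι h * x) (ι h * y) = B x y) ↔
    (Even (Module.finrank F K) ∧ Nat.card H ∣ Fintype.card F ^ (Module.finrank F K / 2) + 1) := by
  haveI : Finite K := Module.finite_of_finite F
  set φ := FiniteField.frobeniusAlgEquivOfAlgebraic F K with hφ
  have hφj : ∀ (j : ℕ) (x : K), (φ ^ j) x = x ^ Fintype.card F ^ j := fun j x => by
    rw [AlgEquiv.coe_pow, hφ, FiniteField.coe_frobeniusAlgEquivOfAlgebraic_iterate]
  constructor
  · rintro ⟨B, hB, hinv⟩
    haveI : IsCyclic H := isCyclic_of_injective_ringHom ι hι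
    obtain ⟨g, hg⟩ := IsCyclic.exists_monoid_generator (α := H)
    have h1 : ∀ a b, B (ι g * a) b = B a (ι g⁻¹ * b) := fun a b => by
      rw [← hinv g a, ← mul_assoc, ← map_mul, mul_inv_cancel, map_one, one_mul]
    have h3 : ∀ (n : ℕ) a b, B (ι g ^ n * a) b = B a (ι g⁻¹ ^ n * b) := by
      intro n
      induction n with
      | zero => simp
      | succ n ih => intro a b; rw [pow_succ', mul_assoc, h1, ih, pow_succ, mul_assoc]
    have h4 : ∀ (q : F[X]) a b, B (aeval (ι g) q * a) b = B a (aeval (ι g⁻¹) q * b) := by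
      intro q a b
      induction q using Polynomial.induction_on' with
      | add p q hp hq => simp only [map_add, add_mul, LinearMap.add_apply, hp, hq]
      | monomial n c =>
        simp only [aeval_monomial, smul_mul_assoc, ← Algebra.smul_def, map_smul, LinearMap.smul_apply,
          h3]
    have h5 : aeval (ι g⁻¹) (minpoly F (ι g)) = 0 := hB.2 _ fun a => by
      have := h4 (minpoly F (ι g)) a 1
      rw [minpoly.aeval, zero_mul, mul_one] at this
      rw [← this]; simp
    obtain ⟨σ, hσ⟩ := (isConjRoot_of_aeval_eq_zero (Algebra.IsIntegral.isIntegral _)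
      h5).symm.exists_algEquiv
    have hσ' : ∀ h, σ (ι h) = ι h⁻¹ := fun h => by
      obtain ⟨k, rfl⟩ := hg h
      simp only [map_pow, hσ, ← inv_pow]
    obtain ⟨⟨j, hj⟩, rfl⟩ := (FiniteField.bijective_frobeniusAlgEquivOfAlgebraic_pow F K).2 σ
    simp only [← hφ] at hσ'
    have h6 : φ ^ (2 * j) = 1 := by
      have : (φ ^ (2 * j)).toLinearMap = LinearMap.id := LinearMap.ext_on_range hgen fun h => by
        change (φ ^ (2 * j)) (ι h) = ι h
        rw [two_mul, pow_add, AlgEquiv.mul_apply, hσ', hσ', inv_inv]
      exact AlgEquiv.ext fun x => LinearMap.congr_fun this x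
    have h7 := orderOf_dvd_of_pow_eq_one h6
    rw [hφ, FiniteField.orderOf_frobeniusAlgEquivOfAlgebraic] at h7
    have hj0 : j ≠ 0 := by
      rintro rfl
      have h8 : (⊤ : Submodule F K) ≤ Submodule.span F {1} := by
        rw [← hgen, Submodule.span_le]
        rintro _ ⟨h, rfl⟩
        have h9 : ι h * ι h = 1 := by
          have := hσ' h
          rw [pow_zero, AlgEquiv.one_apply] at this
          nth_rw 1 [this]
          rw [← map_mul, inv_mul_cancel, map_one]
        rcases mul_self_eq_one_iff.1 h9 with e | e <;> rw [e]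
        · exact Submodule.mem_span_singleton_self _
        · exact neg_mem (Submodule.mem_span_singleton_self _)
      have := Submodule.finrank_mono h8
      rw [finrank_top, finrank_span_singleton one_ne_zero] at this
      omega
    have h8 : Module.finrank F K = 2 * j := by
      obtain ⟨c, hc⟩ := h7
      rcases c with _ | _ | c
      · omega
      · omega
      · nlinarith
    refine ⟨⟨j, by omega⟩, ?_⟩
    rw [h8, Nat.mul_div_cancel_left _ two_pos, ← IsCyclic.exponent_eq_card]
    refine Monoid.exponent_dvd_of_forall_pow_eq_one fun h => hι ?_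
    rw [map_pow, pow_succ, ← hφj, hσ', ← map_mul, inv_mul_cancel]
  · rintro ⟨-, hd⟩
    set σ := φ ^ (Module.finrank F K / 2)
    have hσ : ∀ h, ι h * σ (ι h) = 1 := fun h => by
      rw [hφj, ← pow_succ', ← map_pow, orderOf_dvd_iff_pow_eq_one.1
        ((orderOf_dvd_natCard h).trans hd), map_one]
    refine ⟨(Algebra.traceForm F K).compRight σ.toLinearMap,
      LinearMap.BilinForm.Nondegenerate.ofSeparatingLeft fun x hx => ?_, fun h x y => ?_⟩
    · refine (traceForm_nondegenerate F K).1 x fun y => ?_
      simpa using hx (σ.symm y)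
    · simp only [LinearMap.BilinForm.compRight_apply, Algebra.traceForm_apply,
        AlgEquiv.toLinearMap_apply, map_mul]
      rw [mul_mul_mul_comm, hσ, one_mul]

/-- Let F be a finite field with r elements and of characteristic p, H a finite abelian group of order prime to p, and V a faithful irreducible representation of H over F of dimension n (faithful: distinct elements act differently; irreducible: the only H-invariant subspaces are 0 and V). Call V self-dual when it carries a nondegenerate H-invariant bilinear form. If n = 1 and V is self-dual then H has order at most 2. If n ≥ 2 then V is self-dual if and only if n is even and the order of H divides r^(n/2) + 1. -/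
theorem result {F : Type*} [Field F] [Fintype F] (p : ℕ) [Fact p.Prime] [CharP F p] {H : Type*} [CommGroup H] [Finite H] (hcop : ¬ p ∣ Nat.card H) {V : Type*} [AddCommGroup V] [Module F V] [FiniteDimensional F V] (ρ : Representation F H V) (hfaith : Function.Injective ρ) (hirr : ∀ U : Submodule F V, (∀ h : H, ∀ u ∈ U, ρ h u ∈ U) → U = ⊥ ∨ U = ⊤) : (Module.finrank F V = 1 → (∃ B : LinearMap.BilinForm F V, B.Nondegenerate ∧ ∀ h : H, ∀ x y : V, B (ρ h x) (ρ h y) = B x y) → Nat.card H ≤ 2) ∧ (2 ≤ Module.finrank F V → ((∃ B : LinearMap.BilinForm F V, B.Nondegenerate ∧ ∀ h : H, ∀ x y : V, B (ρ h x) (ρ h y) = B x y) ↔ (Even (Module.finrank F V) ∧ Nat.card H ∣ Fintype.card F ^ (Module.finrank F V / 2) + 1))) := by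
  refine ⟨fun h1 => ?_, fun h2 => ?_⟩
  · rintro ⟨B, hB, hinv⟩
    obtain ⟨v, hv0, hv⟩ := finrank_eq_one_iff'.1 h1
    have hBv : B v v ≠ 0 := fun e => hv0 (hB.1 v fun y => by
      obtain ⟨c, rfl⟩ := hv y
      rw [map_smul, e, smul_zero])
    have key : ∀ h : H, ρ h v = v ∨ ρ h v = -v := fun h => by
      obtain ⟨c, hc⟩ := hv (ρ h v)
      have := hinv h v v
      rw [← hc, map_smul, map_smul, LinearMap.smul_apply, smul_eq_mul, smul_eq_mul,
        ← mul_assoc] at this
      rcases mul_self_eq_one_iff.1 (mul_right_cancel₀ hBv (this.trans (one_mul _).symm)) with e | e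
      · left; rw [← hc, e, one_smul]
      · right; rw [← hc, e, neg_one_smul]
    classical
    refine (Nat.card_le_card_of_injective (β := Bool) (fun h => decide (ρ h v = v))
      fun a b e => hfaith (LinearMap.ext fun y => ?_)).trans (by simp)
    obtain ⟨c, rfl⟩ := hv y
    rw [map_smul, map_smul]
    congr 1
    have e' : ρ a v = v ↔ ρ b v = v := decide_eq_decide.1 e
    by_cases ha : ρ a v = v
    · rw [ha, e'.1 ha]
    · rw [(key a).resolve_left ha, (key b).resolve_left fun h => ha (e'.2 h)]
  · haveI : Nontrivial V := Module.nontrivial_of_finrank_pos (R := F) (by omega)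
    obtain ⟨I, hI, e, he⟩ := exists_field ρ hirr
    letI := Ideal.Quotient.field I
    haveI : FiniteDimensional F (MonoidAlgebra F H ⧸ I) := e.symm.finiteDimensional
    let ι : H →* MonoidAlgebra F H ⧸ I :=
      (Ideal.Quotient.mk I : MonoidAlgebra F H →* _).comp (MonoidAlgebra.of F H)
    have he' : ∀ h k, e (ι h * k) = ρ h (e k) := he
    rw [← e.finrank_eq] at h2 ⊢
    rw [← core ι (fun a b hab => hfaith (LinearMap.ext fun y => by
      rw [← e.apply_symm_apply y, ← he', ← he', hab])) ?_ h2]
    · constructor
      · rintro ⟨B, hB, hinv⟩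
        exact ⟨LinearMap.BilinForm.congr e.symm B, hB.congr _, fun h x y => by
          simp only [LinearMap.BilinForm.congr_apply, LinearEquiv.symm_symm, he', hinv]⟩
      · rintro ⟨B, hB, hinv⟩
        refine ⟨LinearMap.BilinForm.congr e B, hB.congr _, fun h x y => ?_⟩
        obtain ⟨x, rfl⟩ := e.surjective x
        obtain ⟨y, rfl⟩ := e.surjective y
        simp only [LinearMap.BilinForm.congr_apply, ← he', LinearEquiv.symm_apply_apply, hinv]
    · rw [eq_top_iff]
      rintro k -
      obtain ⟨a, rfl⟩ := Ideal.Quotient.mk_surjective k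
      induction a using MonoidAlgebra.induction_on with
      | of m => exact Submodule.subset_span ⟨m, rfl⟩
      | add a b ha hb => rw [map_add]; exact add_mem ha hb
      | smul c a ha => exact Submodule.smul_mem _ c ha

end Cfsg.Agent.S4967
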