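import Cfsg.Statements.S5005
import Mathlib
import Cfsg.Agent.Lib.Blk88.Single
import Cfsg.Agent.Lib.M24Geom.ClsM22

set_option autoImplicit false
open Cfsg

namespace Cfsg.Agent.S5005

open H96.Geo H15

set_option maxRecDepth 100000
set_option linter.style.haveILetI false

noncomputable def e22_1 : H54.Chain := .nil
noncomputable def e22_t0 : H54.Tr :=
 (.node 11 (.node 5 (.node 3 (.node 2 (.leaf 0x200480018424010000004288400000482040408080812002012512800002000100000015)
 (.leaf 0x480000420210202480208c00400082040000000042482450002400003000103000015))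
 (.node 4 (.leaf 0x10000000000212a009040880000000220004000804421a2012410000004000203000002)
 (.leaf 0x201008409804400004298420800041000005241a000c00008472110000005000403000012)))
 (.node 7 (.node 6 (.leaf 0x80420801021080090409900000000000011208044218003241a200006000203000014)
 (.leaf 0x200004080c0021201088c090000400402012400c8044248205340800000700030300000b))
 (.node 10 (.leaf 0x10c8420080020205200c60800041048004250048045002a00218000000a000303000011)
 (.leaf 0x201080420807420081080421900041002204041208085010200211220000b000201000002))))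
 (.node 16 (.node 13 (.node 12 (.leaf 0x48020042400021048840800000008200010000080048205101000000c000202000002)
 (.leaf 0x2210880088c00200002088020000400082050410c8004000240140400000d000203000010))
 (.node 15 (.leaf 0x200080000020010a4208c62000000048004000200000210805208400000f00030300000c)
 (.leaf 0x20040400045400001008042000001008204241a880c00022040484000010000102000015)))
 (.node 18 (.node 17 (.leaf 0x484208c740000424840100004104a0002412880c0008a442408000011000202000014)
 (.leaf 0x80409081400004090460800040000001240a08080000802018000001200030200000b))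
 (.node 20 (.leaf 0x2210004080c4020004098c208000410400010400000440008063100000014000101000015)
 (.leaf 0x15000000000015)))))
noncomputable def e22_0 : H54.Chain := .cons 21 0x37bcfc e22_t0
  [0xbd84b9c64c6b9f0a152831d4325420, 0xbda959b2112b9521352820de732c20, 0xbda119ae9523862919282a8ef6b020, 0xbd8669954d63a0f3c5285d242a9020]
  [] e22_1
noncomputable def e22 : H54.Chain := e22_0

theorem e22_low0 : H54.checkLow cfg24 e22_0 = true := by decide +kernel
theorem e22_low : H54.checkLow cfg24 e22 = true := e22_low0
theorem e22_up0 : H54.checkUp cfg24 e22_0 = true := by decide +kernel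
theorem e22_up : H54.checkUp cfg24 e22 = true := e22_up0
theorem e22_size : e22.size cfg24.n = 16 := by decide +kernel



theorem no_defect_zero (M : Ideal AlgInt) (hM : IsPModular 2 M) (χ : IrrCharacter Spor.M22) :
    (charDegree (χ : Spor.M22 → ℂ)).factorization 2 ≠ (Nat.card Spor.M22).factorization 2 := by
  classical
  intro h
  haveI := H33.isMaximal_of hM
  haveI : Fintype Spor.M22 := Fintype.ofFinite _
  have hv : ∀ g, 2 ∣ orderOf g → χ.1 g = 0 := fun g hg =>
    H33.irr_eq_zero_of_blockOf_eq_singleton hM (H33.blockOf_eq_singleton hM h) hg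
  have hχ := H6.irr_isCharacter χ.2
  have h1 := H33.irr_one_eq_charDegree χ
  have hne := H33.charDegree_ne_zero χ
  have hd : χ.1 1 = (charDegree χ.1 * 2 ^ 0 : ℕ) := by rw [h1]; simp
  have h11 := H88.sum_order_ge_of_vanish (p := 2) (q := 11) (by norm_num) (by norm_num) hχ hv
    (fun _ _ => one_dvd _) hd (H88.table_count2 M22.table (e := ⟨M22.c11A, 11, 2, 11, 99151830505818178⟩)
      (e' := ⟨M22.c11B, 11, 2, 11, 99151830505818178⟩) (m := 40320) (by simp [M22.cls]) (by simp [M22.cls])
      card_M22 rfl rfl M22.nc11A_11B)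
  have h7 := H88.sum_order_ge_of_vanish (p := 2) (q := 7) (by norm_num) (by norm_num) hχ hv
    (fun _ _ => one_dvd _) hd (H88.table_count2 M22.table (e := ⟨M22.c7A, 7, 3, 7, 111573071381498979⟩)
      (e' := ⟨M22.c7B, 7, 3, 7, 111573071381498979⟩) (m := 63360) (by simp [M22.cls]) (by simp [M22.cls])
      card_M22 rfl rfl M22.nc7A_7B)
  have h5 := H88.sum_order_ge_of_vanish (p := 2) (q := 5) (by norm_num) (by norm_num) hχ hv
    (fun _ _ => one_dvd _) hd (H88.table_count M22.table (e := ⟨M22.c5A, 5, 4, 5, 149467752573309060⟩)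
      (m := 88704) (by simp [M22.cls]) card_M22)
  have hle := H88.sum_orders_le χ.2 {3, 5, 7, 11} (by decide)
  rw [Finset.sum_insert (by decide), Finset.sum_insert (by decide), Finset.sum_insert (by decide),
    Finset.sum_singleton, h1, Complex.norm_natCast, card_M22] at hle
  have hnn : ∀ q : ℕ, 0 ≤ ∑ x ∈ Finset.univ.filter (fun x : Spor.M22 => orderOf x = q),
      ‖χ.1 x‖ ^ 2 := fun q => Finset.sum_nonneg fun _ _ => sq_nonneg _
  have hf : (443520 : ℕ).factorization 2 = 7 := by
    rw [show (443520 : ℕ) = 2 ^ 7 * 3465 by norm_num, Nat.factorization_mul (by norm_num) (by norm_num),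
      Nat.Prime.factorization_pow Nat.prime_two]
    simp [Nat.factorization_eq_zero_of_not_dvd (show ¬ 2 ∣ 3465 by norm_num)]
  rw [card_M22, hf] at h
  obtain ⟨m, hm⟩ := (Nat.prime_two.pow_dvd_iff_le_factorization hne).2 h.ge
  have hm2 : ¬ 2 ∣ m := fun ⟨k, hk⟩ => by
    have := (Nat.prime_two.pow_dvd_iff_le_factorization (k := 8) hne).1 ⟨k, by rw [hm, hk]; ring⟩
    omega
  have hm6 : m < 6 := by
    by_contra hlt
    have : (6 : ℝ) ≤ m := by exact_mod_cast not_lt.1 hlt
    rw [hm] at hle
    push_cast at hle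
    nlinarith [hnn 3, hnn 5, hnn 7, hnn 11]
  have h3 := hnn 3
  have hm3 : m = 3 := by
    rw [hm] at hle h11 h7 h5
    interval_cases m <;> first | rfl | omega | (norm_num at hle h11 h7 h5; linarith)
  subst hm3
  rw [hm] at hle h11 h7 h5
  norm_num at hle h11 h7 h5
  have h30 : ∑ x ∈ Finset.univ.filter (fun x : Spor.M22 => orderOf x = 3), ‖χ.1 x‖ ^ 2 = 0 := by
    linarith
  rw [Finset.sum_eq_zero_iff_of_nonneg fun _ _ => sq_nonneg _] at h30
  haveI : Fact (Nat.Prime 3) := ⟨by norm_num⟩
  have h9 := H33.degree_factorization_eq_of_vanish (p := 3) χ fun g hg hg1 => by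
    obtain ⟨e, he, ho, -⟩ := H88.table_data M22.table g
    obtain ⟨k, hk⟩ := hg
    have h3 : 3 ∣ orderOf g := by
      rw [hk]
      refine dvd_pow_self 3 fun h0 => hg1 ?_
      rwa [h0, pow_zero, orderOf_eq_one_iff] at hk
    have h2 : ¬ 2 ∣ orderOf g := fun h2 => by
      have := Nat.prime_two.dvd_of_dvd_pow (hk ▸ h2)
      omega
    have key : ∀ e ∈ M22.cls, 3 ∣ e.o → ¬ 2 ∣ e.o → e.o = 3 := by decide +kernel
    have := h30 g (Finset.mem_filter.2 ⟨Finset.mem_univ _, ho.trans (key e he (ho ▸ h3) (ho ▸ h2))⟩)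
    simpa using this
  have h9' : 3 ^ 2 ∣ charDegree χ.1 := by
    rw [(show Nat.Prime 3 by norm_num).pow_dvd_iff_le_factorization hne, h9,
      ← (show Nat.Prime 3 by norm_num).pow_dvd_iff_le_factorization Nat.card_pos.ne', card_M22]
    norm_num
  rw [hm] at h9'
  norm_num at h9'


/-- All irreducible complex characters of the Mathieu group `M₂₂` lie in a single 2-block: any two of them lie in the same block relative to every maximal ideal of the algebraic integers containing 2. -/
theorem result (M : Ideal Cfsg.AlgInt) (hM : Cfsg.IsPModular 2 M)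
    (χ ψ : Cfsg.IrrCharacter ↥Cfsg.Spor.M22) : Cfsg.SameBlock M (χ : ↥Cfsg.Spor.M22 → ℂ) (ψ : ↥Cfsg.Spor.M22 → ℂ) := by
  refine H88.sameBlock_of_data hM 16 (no_defect_zero M hM) (fun z hz => ?_) (fun g hg1 hg => ?_) χ ψ
  · obtain ⟨e, he, ho, -, k, hk, hkz⟩ := H88.table_data M22.table z
    have key : ∀ e ∈ M22.cls, e.o = 2 → e.c = M22.c2A := by decide +kernel
    rw [key e he (ho.symm.trans hz)] at hkz
    obtain ⟨E, h1, h2, h3⟩ := H88.exists_normal_of_chain M22.cent2A e22_low e22_up (k := 4) e22_size
      (by decide +kernel) (by decide +kernel) (by decide +kernel) hk hkz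
    exact ⟨E, h1, h2.ge, h3⟩
  · obtain ⟨e, he, ho, hz, -⟩ := H88.table_data M22.table g
    have key : ∀ e ∈ M22.cls, e.o ≠ 1 → ¬ 2 ∣ e.o → ¬ 2 ^ 4 ∣ e.z := by decide +kernel
    have h1 := key e he (fun h => hg1 (orderOf_eq_one_iff.1 (ho.trans h))) (ho ▸ hg)
    rw [← hz, Nat.prime_two.pow_dvd_iff_le_factorization Nat.card_pos.ne', not_le] at h1
    exact Nat.pow_lt_pow_right (by norm_num) h1

end Cfsg.Agent.S5005
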