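import Cfsg.Statements.S5006
import Mathlib
import Cfsg.Agent.Lib.Blk88.Single
import Cfsg.Agent.Lib.M24Geom.ClsM24

set_option autoImplicit false
open Cfsg

namespace Cfsg.Agent.S5006

open H96.Geo H15

set_option maxRecDepth 100000
set_option linter.style.haveILetI false

noncomputable def e24A_1 : H54.Chain := .nil
noncomputable def e24A_t0 : H54.Tr :=
 (.node 10 (.node 4 (.node 2 (.node 1 (.leaf 0x2010000200014202a00c80210000410000010102080c5018204050a000001000203000006)
 (.leaf 0x200084008024010810100018400010480042000000802122020412800002000303000013))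
 (.node 3 (.leaf 0x2000080088034010a40c88200000410000050402080c121a8040102000003000102000014)
 (.leaf 0x200884208c0420000210c208400400400012110c8085000042350080000400030300000b)))
 (.node 6 (.node 5 (.leaf 0x208400010a4008020080000000000000088001210a050102400005000103000014)
 (.leaf 0x10000208010002800884680c000100200101120804005a2052582c00006000100000014))
 (.node 9 (.leaf 0x22000000008300102005004b0400410400010412c0040248201040c000009000101000014)
 (.leaf 0x201008028840021004040c0908004100a005051088044208a01340800000a000203000003))))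
 (.node 15 (.node 12 (.node 11 (.leaf 0x20008401802420000080042840000048004000800084000000049280000b000201000006)
 (.leaf 0x2200000290c200102005840a000041040001011a48000248207040600000c00030200000b))
 (.node 14 (.leaf 0x1000401000000005218460900000002200200008000000844250020000e000303000011)
 (.leaf 0x22100042000102020100840a800041040001210208045002205241600000f000203000009)))
 (.node 17 (.node 16 (.leaf 0x104002180100022121000180000100a201011a0804104a042041a00001000040300000c)
 (.leaf 0x210004018044200002008228400400080002408000840000401004000011000202000009))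
 (.node 19 (.leaf 0x88020806401000200c608400000080010010000812000403180000013000202000006)
 (.leaf 0x14000000000014)))))
noncomputable def e24A_0 : H54.Chain := .cons 20 0x1bde7e e24A_t0
  [0xbdaa61c98e241b1489683d02f9a8a0, 0xbdaa9648622a9b333a883ade18c080, 0xbdaa33492473dab616283cd50a0440, 0xbdaa5149cc4c5b020de83868b54cc0]
  [] e24A_1
noncomputable def e24A : H54.Chain := e24A_0

theorem e24A_low0 : H54.checkLow cfg24 e24A_0 = true := by decide +kernel
theorem e24A_low : H54.checkLow cfg24 e24A = true := e24A_low0
theorem e24A_up0 : H54.checkUp cfg24 e24A_0 = true := by decide +kernel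
theorem e24A_up : H54.checkUp cfg24 e24A = true := e24A_up0
theorem e24A_size : e24A.size cfg24.n = 16 := by decide +kernel


noncomputable def e24B_3 : H54.Chain := .nil
noncomputable def e24B_t2 : H54.Tr :=
 (.node 9 (.node 0 (.leaf 0x2000080208c0420024008c000c20410000040100880850488043400480000000201000010)
 (.leaf 0x10004008020200200008421c30000000002012000050480011496600009000101000016))
 (.node 16 (.leaf 0x1080020001018c608820000080000408480050020041192400010000100000016)
 (.leaf 0x16000000000016)))
noncomputable def e24B_2 : H54.Chain := .cons 22 0x410201 e24B_t2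
  [0xbc2b4648b60b5d33a80859a23209e9, 0xba6b42482029d636aac8719f360a30]
  [] e24B_3
noncomputable def e24B_t1 : H54.Tr :=
 (.node 20 (.node 8 (.node 2 (.leaf 0x400080000200a00008010400000082010402000050580011000880002000103000014)
 (.leaf 0x80008804200802408411c00000000040400480850082401088a80008000100000014))
 (.node 18 (.leaf 0x200000090804000812480020800000480010400480c001a2440406400012000203000008)
 (.leaf 0x14000000000014)))
 (.node 25 (.node 24 (.leaf 0x80008804200802408411c00000000040400480850082401088a80018000000000000)
 (.leaf 0x8401800421084250441042001008004201a00084208a402488080019000000000000))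
 (.node 26 (.leaf 0x10004008020200200008421c3000000000201200005048001149660001a000000000000)
 (.leaf 0x400080000200a0000801040000008201040200005058001100088001b000000000000))))
noncomputable def e24B_1 : H54.Chain := .cons 20 0x140104 e24B_t1
  [0xba6a860a207acf372ad4698a324830, 0xb82a8988a909d6c6aa1471a241c9f6, 0xba6b42482029d636aac8719f360a30, 0xba6a29a1e08b5cc3aad2598241d0b0]
  [[8, 27, 18, 25, 24], [8, 24, 27, 18, 26, 27, 27, 8]] e24B_2
noncomputable def e24B_t0 : H54.Tr :=
 (.node 23 (.node 10 (.node 6 (.leaf 0x2000000080242002505044a100001048000001200084048a032486200006000100000017)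
 (.leaf 0x804010004002012900620820000000000000000c0048240018440000a000103000017))
 (.node 21 (.leaf 0x2000404000800000010800210060410082000000480000022002400000015000102000017)
 (.leaf 0x17000000000017)))
 (.node 26 (.node 25 (.leaf 0x480008c042002504082100000100820400008808504aa001100000019000000000000)
 (.leaf 0x200040400080000001080021006041008200000048000002200240000001a000000000000))
 (.node 28 (.leaf 0x8401800421084250441042001008004201a00084208a40248808001c000000000000)
 (.leaf 0x10004008020200200008421c3000000000201200005048001149660001d000000000000))))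
noncomputable def e24B_0 : H54.Chain := .cons 23 0xa00440 e24B_t0
  [0x35954249f08b5c33d5285dc33608a0, 0x359521d2307ace4755226dcac9a020, 0xac2f2652367b9b3598023a8a322029, 0x540c29a0b60b9ac5dc123d6241d1e9, 0xb82a8988a909d6c6aa1471a241c9f6, 0xba6b42482029d636aac8719f360a30]
  [[23, 6, 29, 26, 10, 10, 26, 10, 21], [23, 28, 26, 21], [21, 29, 26, 26, 21], [23, 29, 25, 6, 23, 21, 6, 10]] e24B_1
noncomputable def e24B : H54.Chain := e24B_0

theorem e24B_low0 : H54.checkLow cfg24 e24B_0 = true := by decide +kernel
theorem e24B_low : H54.checkLow cfg24 e24B = true := e24B_low0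
theorem e24B_up0 : H54.checkUp cfg24 e24B_0 = true := by decide +kernel
theorem e24B_up : H54.checkUp cfg24 e24B = true := e24B_up0
theorem e24B_size : e24B.size cfg24.n = 64 := by decide +kernel



theorem no_defect_zero (M : Ideal AlgInt) (hM : IsPModular 2 M) (χ : IrrCharacter M24) :
    (charDegree (χ : M24 → ℂ)).factorization 2 ≠ (Nat.card M24).factorization 2 := by
  classical
  intro h
  haveI := H33.isMaximal_of hM
  haveI : Fintype M24 := Fintype.ofFinite _
  have hv : ∀ g, 2 ∣ orderOf g → χ.1 g = 0 := fun g hg =>
    H33.irr_eq_zero_of_blockOf_eq_singleton hM (H33.blockOf_eq_singleton hM h) hg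
  have hχ := H6.irr_isCharacter χ.2
  have h1 := H33.irr_one_eq_charDegree χ
  have hne := H33.charDegree_ne_zero χ
  have hf : (244823040 : ℕ).factorization 2 = 10 := by
    rw [show (244823040 : ℕ) = 2 ^ 10 * 239085 by norm_num,
      Nat.factorization_mul (by norm_num) (by norm_num), Nat.Prime.factorization_pow Nat.prime_two]
    simp [Nat.factorization_eq_zero_of_not_dvd (show ¬ 2 ∣ 239085 by norm_num)]
  rw [card_M24, hf] at h
  obtain ⟨m, hm⟩ := (Nat.prime_two.pow_dvd_iff_le_factorization hne).2 h.ge
  have hm2 : ¬ 2 ∣ m := fun ⟨k, hk⟩ => by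
    have := (Nat.prime_two.pow_dvd_iff_le_factorization (k := 11) hne).1 ⟨k, by rw [hm, hk]; ring⟩
    omega
  have hj : ∀ (q j : ℕ), (∀ e ∈ M24.cls, e.o = q → 2 ^ j ∣ e.z) → ∀ x : M24, orderOf x = q →
      2 ^ j ∣ Nat.card (Subgroup.centralizer ({x} : Set M24)) := fun q j hq x hx => by
    obtain ⟨e, he, ho, hz, -⟩ := H88.table_data M24.table x
    exact hz ▸ hq e he (ho.symm.trans hx)
  have h23 := H88.sum_order_ge_of_vanish (p := 2) (q := 23) (by norm_num) (by norm_num) hχ hv
    (fun _ _ => one_dvd _) (j := 0) (d := 1024 * m) (by rw [h1, hm]; norm_num)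
    (H88.table_count2 M24.table (e := ⟨M24.c23A, 23, 1, 23, 37191016277640225⟩)
      (e' := ⟨M24.c23B, 23, 1, 23, 37191016277640225⟩) (m := 10644480) (by simp [M24.cls])
      (by simp [M24.cls]) card_M24 rfl rfl M24.nc23A_23B)
  have h11 := H88.sum_order_ge_of_vanish (p := 2) (q := 11) (by norm_num) (by norm_num) hχ hv
    (fun _ _ => one_dvd _) (j := 0) (d := 1024 * m) (by rw [h1, hm]; norm_num)
    (H88.table_count M24.table (e := ⟨M24.c11A, 11, 2, 11, 99151830505818178⟩)
      (m := 22256640) (by simp [M24.cls]) card_M24)
  have h7 := H88.sum_order_ge_of_vanish (p := 2) (q := 7) (by norm_num) (by norm_num) hχ hv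
    (hj 7 1 (by decide +kernel)) (d := 512 * m) (by rw [h1, hm]; push_cast; ring)
    (H88.table_count2 M24.table (e := ⟨M24.c7A, 7, 3, 42, 111573071381498979⟩)
      (e' := ⟨M24.c7B, 7, 3, 42, 111573071381498979⟩) (m := 5829120) (by simp [M24.cls])
      (by simp [M24.cls]) card_M24 rfl rfl M24.nc7A_7B)
  have h5 := H88.sum_order_ge_of_vanish (p := 2) (q := 5) (by norm_num) (by norm_num) hχ hv
    (hj 5 2 (by decide +kernel)) (d := 256 * m) (by rw [h1, hm]; push_cast; ring)
    (H88.table_count M24.table (e := ⟨M24.c5A, 5, 4, 60, 149467752573309060⟩)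
      (m := 4080384) (by simp [M24.cls]) card_M24)
  have hle := H88.sum_orders_le χ.2 {5, 7, 11, 23} (by decide)
  rw [Finset.sum_insert (by decide), Finset.sum_insert (by decide), Finset.sum_insert (by decide),
    Finset.sum_singleton, h1, Complex.norm_natCast, card_M24, hm] at hle
  have hnn : ∀ q : ℕ, 0 ≤ ∑ x ∈ Finset.univ.filter (fun x : M24 => orderOf x = q),
      ‖χ.1 x‖ ^ 2 := fun q => Finset.sum_nonneg fun _ _ => sq_nonneg _
  have hm6 : m < 16 := by
    by_contra hlt
    have : (16 : ℝ) ≤ m := by exact_mod_cast not_lt.1 hlt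
    push_cast at hle
    nlinarith [hnn 23, hnn 5, hnn 7, hnn 11]
  interval_cases m <;> first | omega | (norm_num at hle h11 h7 h5 h23; linarith)


/-- All irreducible complex characters of the Mathieu group `M₂₄` lie in a single 2-block: any two of them lie in the same block relative to every maximal ideal of the algebraic integers containing 2. -/
theorem result (M : Ideal Cfsg.AlgInt) (hM : Cfsg.IsPModular 2 M)
    (χ ψ : Cfsg.IrrCharacter ↥Cfsg.M24) : Cfsg.SameBlock M (χ : ↥Cfsg.M24 → ℂ) (ψ : ↥Cfsg.M24 → ℂ) := by
  refine H88.sameBlock_of_data hM 16 (no_defect_zero M hM) (fun z hz => ?_) (fun g hg1 hg => ?_) χ ψ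
  · obtain ⟨e, he, ho, -, k, hk, hkz⟩ := H88.table_data M24.table z
    have key : ∀ e ∈ M24.cls, e.o = 2 → e.c = M24.c2A ∨ e.c = M24.c2B := by decide +kernel
    rcases key e he (ho.symm.trans hz) with h | h <;> rw [h] at hkz
    · obtain ⟨E, h1, h2, h3⟩ := H88.exists_normal_of_chain M24.cent2A e24A_low e24A_up (k := 4)
        e24A_size (by decide +kernel) (by decide +kernel) (by decide +kernel) hk hkz
      exact ⟨E, h1, h2.ge, h3⟩
    · obtain ⟨E, h1, h2, h3⟩ := H88.exists_normal_of_chain M24.cent2B e24B_low e24B_up (k := 6)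
        e24B_size (by decide +kernel) (by decide +kernel) (by decide +kernel) hk hkz
      exact ⟨E, h1, by rw [h2]; norm_num, h3⟩
  · obtain ⟨e, he, ho, hz, -⟩ := H88.table_data M24.table g
    have key : ∀ e ∈ M24.cls, e.o ≠ 1 → ¬ 2 ∣ e.o → ¬ 2 ^ 4 ∣ e.z := by decide +kernel
    have h1 := key e he (fun h => hg1 (orderOf_eq_one_iff.1 (ho.trans h))) (ho ▸ hg)
    rw [← hz, Nat.prime_two.pow_dvd_iff_le_factorization Nat.card_pos.ne', not_le] at h1
    exact Nat.pow_lt_pow_right (by norm_num) h1

end Cfsg.Agent.S5006
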