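import Cfsg.Statements.S5014
import Mathlib
import Cfsg.Agent.Base
import Cfsg.Agent.Lib.Root.RankOne

set_option autoImplicit false
open Cfsg

namespace Cfsg.Agent.S5014

/-- Let X = ⟨A, B⟩ be a rank one group with unipotent subgroups A and B and let Ω be the set of conjugates of A under X. Then Ω has at least three members, X acts doubly transitively on Ω by conjugation (any two ordered pairs of distinct members are carried to one another by a single element of X), and A acts regularly on Ω with A removed: for C, D in Ω different from A there is exactly one element of A conjugating C to D. -/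
theorem result {G : Type*} [Group G] {A B : Subgroup G} (h : Cfsg.IsRankOnePair A B) :
    (∃ C₁ ∈ Cfsg.unipotentSubgroups A B, ∃ C₂ ∈ Cfsg.unipotentSubgroups A B, ∃ C₃ ∈ Cfsg.unipotentSubgroups A B,
      C₁ ≠ C₂ ∧ C₁ ≠ C₃ ∧ C₂ ≠ C₃) ∧
    (∀ C₁ ∈ Cfsg.unipotentSubgroups A B, ∀ C₂ ∈ Cfsg.unipotentSubgroups A B, ∀ D₁ ∈ Cfsg.unipotentSubgroups A B,
      ∀ D₂ ∈ Cfsg.unipotentSubgroups A B, C₁ ≠ C₂ → D₁ ≠ D₂ →
        ∃ x ∈ A ⊔ B, Cfsg.conjBy C₁ x = D₁ ∧ Cfsg.conjBy C₂ x = D₂) ∧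
    (∀ C ∈ Cfsg.unipotentSubgroups A B, ∀ D ∈ Cfsg.unipotentSubgroups A B, C ≠ A → D ≠ A →
      ∃! a : G, a ∈ A ∧ Cfsg.conjBy C a = D) := by
  have h' : H89.RO A B := h
  refine ⟨?_, ?_, ?_⟩
  · obtain ⟨a, ha, ha1⟩ := H89.exists_ne_one h'.left_ne_bot
    exact ⟨A, H89.left_mem_Om, B, h'.right_mem_Om, H89.cj a B, h'.cj_right_mem ha, h.ne,
      (h'.ro_left_cj ha).ne, (h'.cj_ne ha ha1).symm⟩
  · intro C₁ h1 C₂ h2 D₁ h3 D₂ h4 hC hD
    obtain ⟨x, hx, rfl, rfl⟩ := h'.exists_pair h1 h2 hC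
    obtain ⟨y, hy, rfl, rfl⟩ := h'.exists_pair h3 h4 hD
    refine ⟨y * x⁻¹, Subgroup.mul_mem _ hy (Subgroup.inv_mem _ hx), ?_, ?_⟩ <;>
    · rw [H89.conjBy_eq, H89.cj_cj, inv_mul_cancel_right]
  · intro C hC D hD hCA hDA
    rcases h'.mem_Om_iff.1 hC with e | ⟨a, ha, rfl⟩
    · exact absurd e hCA
    rcases h'.mem_Om_iff.1 hD with e | ⟨a', ha', rfl⟩
    · exact absurd e hDA
    refine ⟨a' * a⁻¹, ⟨A.mul_mem ha' (A.inv_mem ha), ?_⟩, ?_⟩
    · rw [H89.conjBy_eq, H89.cj_cj, inv_mul_cancel_right]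
    · rintro y ⟨hy, e⟩
      rw [H89.conjBy_eq, H89.cj_cj] at e
      rw [← h'.uniq_left (A.mul_mem hy ha) ha' e, mul_inv_cancel_right]

end Cfsg.Agent.S5014
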