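import Cfsg.Statements.S5015
import Mathlib
import Cfsg.Agent.Base
import Cfsg.Agent.Lib.Root.RankOne

set_option autoImplicit false
open Cfsg

namespace Cfsg.Agent.S5015

/-- Let a group Y act doubly transitively on a set Ω with at least three points, and suppose that the stabilizer of a point α contains a nilpotent subgroup A, normalized by that stabilizer, which acts regularly on the points other than α. Then for any y in Y moving α, the subgroups A and y A y⁻¹ are the unipotent subgroups of a rank one group, and the normal closure of A in Y (the subgroup generated by all conjugates of A) is generated by A and y A y⁻¹ alone. -/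
theorem result {Y Ω : Type*} [Group Y] [MulAction Y Ω]
    (h2 : MulAction.IsMultiplyPretransitive Y Ω 2) (hΩ : 3 ≤ ENat.card Ω) (α : Ω) (A : Subgroup Y)
    (hA : A ≤ MulAction.stabilizer Y α) (hAn : ∀ y ∈ MulAction.stabilizer Y α, Cfsg.conjBy A y = A)
    (hnil : Group.IsNilpotent A) (hreg : ∀ β γ : Ω, β ≠ α → γ ≠ α → ∃! a : Y, a ∈ A ∧ a • β = γ)
    (y : Y) (hy : y ∉ MulAction.stabilizer Y α) :
    Cfsg.IsRankOnePair A (Cfsg.conjBy A y) ∧ Subgroup.normalClosure (A : Set Y) = A ⊔ Cfsg.conjBy A y := by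
  classical
  -- points and conjugates of `A`
  have hstab : ∀ g : Y, g • α = α → H89.cj g A = A := fun g hg => hAn g hg
  have hyα : y • α ≠ α := hy
  have hAα : ∀ a ∈ A, a • α = α := fun a ha => hA ha
  have hfix : ∀ a ∈ A, ∀ β : Ω, β ≠ α → a • β = β → a = 1 := by
    intro a ha β hβ e
    obtain ⟨u, -, hu⟩ := hreg β β hβ hβ
    exact (hu a ⟨ha, e⟩).trans (hu 1 ⟨A.one_mem, one_smul _ _⟩).symm
  have hcj : ∀ g h : Y, g • α = h • α → H89.cj g A = H89.cj h A := by
    intro g h e
    rw [H89.cj_eq_cj_iff]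
    apply hstab
    rw [mul_smul, e, inv_smul_smul]
  -- a third point
  obtain ⟨γ, hγ1, hγ2⟩ : ∃ γ : Ω, γ ≠ α ∧ γ ≠ y • α := by
    by_contra hc
    push Not at hc
    have : (Set.univ : Set Ω) ⊆ {α, y • α} := by
      intro x _
      by_cases hx : x = α
      · exact Or.inl hx
      · exact Or.inr (hc x hx)
    have h3 := Set.encard_le_encard this
    rw [Set.encard_univ, Set.encard_pair hyα.symm] at h3
    have := hΩ.trans h3
    norm_num at this
  -- the conjugate fixes only `y • α`
  have hB : ∀ b ∈ H89.cj y A, b • y • α = y • α := by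
    intro b hb
    obtain ⟨a, ha, rfl⟩ := H89.exists_of_mem_cj hb
    rw [mul_smul, inv_smul_smul, mul_smul, hAα a ha]
  have hBreg : ∀ β : Ω, β ≠ y • α → ∃ b ∈ H89.cj y A, b • α = β := by
    intro β hβ
    obtain ⟨a, ⟨ha, e⟩, -⟩ := hreg (y⁻¹ • α) (y⁻¹ • β)
      (fun e => hyα (by rw [inv_smul_eq_iff] at e; exact e.symm))
      (fun e => hβ (by rw [inv_smul_eq_iff] at e; exact e))
    exact ⟨y * a * y⁻¹, H89.conj_mem_cj ha, by rw [mul_smul, mul_smul, e, smul_inv_smul]⟩
  have hBfix : ∀ b ∈ H89.cj y A, b • α = α → b = 1 := by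
    intro b hb e
    obtain ⟨a, ha, rfl⟩ := H89.exists_of_mem_cj hb
    have : a = 1 := hfix a ha (y⁻¹ • α) (fun e => hyα (by rw [inv_smul_eq_iff] at e; exact e.symm))
      (by rw [mul_smul, mul_smul, ← eq_inv_smul_iff] at e; exact e)
    simp [this]
  have hro : H89.RO A (H89.cj y A) := by
    refine H89.ro_of ?_ hnil (H89.isNilpotent_cj y hnil) ?_ ?_
    · intro e
      obtain ⟨a, ⟨ha, e2⟩, -⟩ := hreg (y • α) γ hyα hγ1
      have := hB a (e ▸ ha)
      exact hγ2 (e2.symm.trans this)
    · intro a ha ha1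
      have h1 : a • y • α ≠ y • α := fun e => ha1 (hfix a ha _ hyα e)
      obtain ⟨b, hb, e⟩ := hBreg _ h1
      refine ⟨b, hb, ?_, ?_⟩
      · rintro rfl
        rw [one_smul] at e
        apply hyα
        rw [← inv_smul_eq_iff, hAα _ (A.inv_mem ha)] at e
        exact e.symm
      · rw [H89.cj_cj]; apply hcj; rw [e, mul_smul]
    · intro b hb hb1
      have h1 : b • α ≠ α := fun e => hb1 (hBfix b hb e)
      obtain ⟨a, ⟨ha, e⟩, -⟩ := hreg (y • α) (b • α) hyα h1
      refine ⟨a, ha, ?_, ?_⟩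
      · rintro rfl
        rw [one_smul] at e
        have := hB _ (Subgroup.inv_mem _ hb)
        rw [e, inv_smul_smul] at this
        exact hyα (e.trans this.symm)
      · rw [H89.cj_cj]; apply hcj; rw [← e, mul_smul]
  refine ⟨hro, le_antisymm ?_ ?_⟩
  · rw [Subgroup.normalClosure, Subgroup.closure_le]
    intro x hx
    obtain ⟨a, ha, hc⟩ := Group.mem_conjugatesOfSet_iff.1 hx
    obtain ⟨g, rfl⟩ := isConj_iff.1 hc
    have hg : H89.cj g A ≤ A ⊔ H89.cj y A := by
      by_cases e : g • α = α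
      · rw [hstab g e]; exact le_sup_left
      · obtain ⟨u, ⟨hu, e2⟩, -⟩ := hreg (y • α) (g • α) hyα e
        rw [← hcj (u * y) g (by rw [mul_smul, e2]), ← H89.cj_cj]
        exact H89.cj_le_of_mem le_sup_right (H89.mem_sup_l hu)
    exact hg (H89.conj_mem_cj ha)
  · refine sup_le Subgroup.le_normalClosure ?_
    rw [H89.conjBy_eq, ← H89.cj_normal (N := Subgroup.normalClosure (A : Set Y)) y]
    exact H89.cj_mono y Subgroup.le_normalClosure

end Cfsg.Agent.S5015
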