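import Cfsg.Statements.S5019
import Mathlib
import Cfsg.Agent.Base
import Cfsg.Agent.Lib.Root.Special

set_option autoImplicit false
open Cfsg

namespace Cfsg.Agent.S5019

/-- Let X be a rank one group with abelian unipotent subgroups A and B, and suppose X acts on an abelian group N (written additively) in such a way that A acts quadratically, meaning a' • (a • n − n) = a • n − n for all a, a' in A and n in N, while X as a whole does not: y • (x • n − n) ≠ x • n − n for some x, y in X and n in N. Then X is a special rank one group. -/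
theorem result {X : Type*} [Group X] {A B : Subgroup X} (h : Cfsg.IsRankOneGroup X A B)
    (hab : Cfsg.HasAbelianUnipotents A B) {N : Type*} [AddCommGroup N] [DistribMulAction X N]
    (hq : ∀ a ∈ A, ∀ a' ∈ A, ∀ n : N, a' • (a • n - n) = a • n - n)
    (hX : ∃ x y : X, ∃ n : N, y • (x • n - n) ≠ x • n - n) : Cfsg.IsSpecialRankOnePair A B := by
  have h' : H89.RO A B := h.2
  refine h'.sp_of_quadratic (fun x => DistribMulAction.toAddMonoidHom N x)
    (fun x _ y _ n => mul_smul x y n) (fun n => one_smul X n) hq ?_
  by_contra hcon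
  push Not at hcon
  obtain ⟨x, y, n, hne⟩ := hX
  have hZ : ∀ u : N, (∀ a ∈ A, a • u = u) → ∀ g : X, g • u = u := by
    intro u hu g
    have hg : g ∈ A ⊔ B := by rw [h.1]; trivial
    revert g
    refine H89.sup_induction hu (hcon u hu) fun g _ g' _ h1 h2 => ?_
    rw [mul_smul, h2, h1]
  obtain ⟨t, -, ht⟩ := h'.exists_cj_left_eq_right
  have key : ∀ g ∈ A ⊔ B, ∀ (m : N) (z : X), z • (g • m - m) = g • m - m := by
    apply H89.sup_induction
    · intro a ha m
      exact hZ _ fun a' ha' => hq a ha a' ha' m
    · intro b hb m z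
      obtain ⟨a, ha, rfl⟩ := H89.exists_of_mem_cj (ht ▸ hb)
      have h1 := hZ _ fun a' ha' => hq a ha a' ha' (t⁻¹ • m)
      have h2 : (t * a * t⁻¹) • m - m = a • t⁻¹ • m - t⁻¹ • m := by
        rw [← h1 t, smul_sub, smul_inv_smul, mul_smul, mul_smul]
      rw [h2, h1]
    · intro g _ g' _ h1 h2 m z
      have : (g * g') • m - m = (g • (g' • m) - g' • m) + (g' • m - m) := by
        rw [mul_smul]; abel
      rw [this, smul_add, h1, h2]
  exact hne (key x (by rw [h.1]; trivial) n y)

end Cfsg.Agent.S5019
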