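import Cfsg.Statements.S5020
import Mathlib
import Cfsg.Agent.Base
import Cfsg.Agent.Lib.Root.MinSL2
import Cfsg.Agent.Lib.Root.Quasi

set_option autoImplicit false
open Cfsg

namespace Cfsg.Agent.S5020

/-- Let X be a special rank one group with abelian unipotent subgroups A and B, and H = N(A) ∩ N(B) its diagonal subgroup. Then either A has at most three elements and X is isomorphic to SL₂(2), SL₂(3) or PSL₂(3); or X = X' A with the commutator subgroup X' quasisimple and the commutator subgroup ⁅A, H⁆ having more than three elements. -/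
theorem result {X : Type*} [Group X] {A B : Subgroup X} (h : Cfsg.IsRankOneGroup X A B)
    (hs : Cfsg.IsSpecialRankOnePair A B) (hab : Cfsg.HasAbelianUnipotents A B) :
    (ENat.card A ≤ 3 ∧ (Nonempty (X ≃* Matrix.SpecialLinearGroup (Fin 2) (ZMod 2)) ∨
        Nonempty (X ≃* Matrix.SpecialLinearGroup (Fin 2) (ZMod 3)) ∨
        Nonempty (X ≃* Matrix.ProjectiveSpecialLinearGroup (Fin 2) (ZMod 3)))) ∨
    (commutator X ⊔ A = ⊤ ∧ Cfsg.IsQuasisimple (commutator X) ∧
      3 < ENat.card ↥(⁅A, Cfsg.rankOneDiagonal A B⁆ : Subgroup X)) := by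
  have hA := H89.cm_self_iff.1 hab.1
  have hB := H89.cm_self_iff.1 hab.2
  have hr := H89.SP.ro hs
  by_cases h4 : 3 < ENat.card A
  · right
    have hc : commutator X = ⊤ := by
      have := H89.SP.le_commutator hs hA h4
      rw [h.1] at this
      exact top_le_iff.1 this
    refine ⟨by rw [hc, top_sup_eq], ?_, h4.trans_le ?_⟩
    · exact H89.quasisimple_congr (Subgroup.topEquiv.symm.trans (MulEquiv.subgroupCongr hc.symm))
        (hr.quasisimple_top h.1 ⟨hc⟩)
    · exact ENat.card_le_card_of_injective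
        (Subgroup.inclusion_injective (H89.SP.le_commutator_diag hs hA h4))
  left
  rw [not_lt] at h4
  refine ⟨h4, ?_⟩
  haveI : Finite A := ENat.card_lt_top.1 (h4.trans_lt (by decide))
  have h3 : Nat.card A ≤ 3 := by
    rw [ENat.card_eq_coe_natCard] at h4
    exact_mod_cast h4
  have h1 : 1 < Nat.card A := (Subgroup.one_lt_card_iff_ne_bot A).2 hr.left_ne_bot
  have key : ∀ p : ℕ, [Fact p.Prime] → Nat.card A = p →
      Nonempty (X ≃* H89.SLt (ZMod p)) ∨ (Subgroup.center (H89.SLt (ZMod p)) ≠ ⊥ ∧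
        Nonempty (X ≃* Matrix.ProjectiveSpecialLinearGroup (Fin 2) (ZMod p))) := by
    intro p hp hc
    obtain ⟨a, ha, ha1⟩ := H89.exists_ne_one hr.left_ne_bot
    obtain ⟨b, hb, hb1, e⟩ := hr.exl ha ha1
    have hcB : Nat.card B = p := by
      obtain ⟨g, -, e⟩ := hr.exists_cj_left_eq_right
      rw [← e, H89.card_cj, hc]
    have gen : ∀ (C : Subgroup X) (c : X), Nat.card C = p → c ∈ C → c ≠ 1 →
        C ≤ Subgroup.zpowers c := by
      intro C c hC hc hc1 x hx
      obtain ⟨n, hn⟩ := mem_zpowers_of_prime_card (G := C) hC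
        (g := ⟨c, hc⟩) (g' := ⟨x, hx⟩) fun e => hc1 (congrArg Subtype.val e)
      exact ⟨n, by simpa using congrArg Subtype.val hn⟩
    have ht : Subgroup.closure ({a, b} : Set X) = ⊤ := by
      rw [eq_top_iff, ← h.1]
      exact sup_le ((gen A a hc ha ha1).trans (Subgroup.zpowers_le.2 (Subgroup.subset_closure (by simp))))
        ((gen B b hcB hb hb1).trans (Subgroup.zpowers_le.2 (Subgroup.subset_closure (by simp))))
    have hAp : ∀ x ∈ A, x ^ p = 1 := fun x hx => by
      have := pow_card_eq_one' (G := A) (x := ⟨x, hx⟩)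
      rw [hc] at this
      exact congrArg Subtype.val this
    have E : X ≃* Subgroup.closure ({a, b} : Set X) :=
      Subgroup.topEquiv.symm.trans (MulEquiv.subgroupCongr ht.symm)
    rcases H89.SP.min_sl2 hs hA hB hAp ha ha1 hb hb1 e with ⟨⟨f⟩⟩ | ⟨h0, ⟨f⟩⟩
    · exact Or.inl ⟨E.trans f⟩
    · exact Or.inr ⟨h0, ⟨E.trans f⟩⟩
  by_cases h2 : Nat.card A = 2
  · refine Or.inl ((key 2 h2).resolve_right fun h0 => h0.1 ?_)
    rw [eq_bot_iff]
    intro z hz
    rcases H89.center_sl2 hz with e | e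
    · exact e
    · rw [e]; exact H89.sl_ext rfl rfl rfl rfl
  · exact Or.inr ((key 3 (by omega)).imp_right And.right)

end Cfsg.Agent.S5020
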