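import Cfsg.Statements.S5021
import Mathlib
import Cfsg.Agent.Base
import Cfsg.Agent.Lib.Root.Special

set_option autoImplicit false
open Cfsg

namespace Cfsg.Agent.S5021

/-- In a special rank one group with abelian unipotent subgroups A and B, either A is an elementary abelian p-group for some prime p, or A is torsion-free and divisible (every element of A has an n-th root in A for every positive n). -/
theorem result {X : Type*} [Group X] {A B : Subgroup X} (h : Cfsg.IsRankOneGroup X A B)
    (hs : Cfsg.IsSpecialRankOnePair A B) (hab : Cfsg.HasAbelianUnipotents A B) :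
    (∃ p : ℕ, p.Prime ∧ Cfsg.IsElementaryAbelian p A) ∨
    ((∀ a ∈ A, a ≠ 1 → ¬ IsOfFinOrder a) ∧ ∀ a ∈ A, ∀ n : ℕ, 0 < n → ∃ c ∈ A, c ^ n = a) := by
  have hs' : H89.SP A B := hs
  rcases hs'.elementary_or_divisible (H89.cm_self_iff.1 hab.1) with ⟨p, hp, h1⟩ | h1
  · exact Or.inl ⟨p, hp, hab.1, h1⟩
  · exact Or.inr h1

end Cfsg.Agent.S5021
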