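import Cfsg.Statements.S5023
import Mathlib
import Cfsg.Agent.Base
import Cfsg.Agent.Lib.Root.Special
import Cfsg.Agent.S5019

set_option autoImplicit false
open Cfsg

namespace Cfsg.Agent.S5023

/-- Let X be a rank one group with unipotent subgroups A and B that acts faithfully on an abelian group V (written additively) with A acting quadratically: a' • (a • v − v) = a • v − v for all a, a' in A and v in V. Then A is either torsion-free or an elementary abelian p-group for some prime p. -/
theorem result {X : Type*} [Group X] {A B : Subgroup X} (h : Cfsg.IsRankOneGroup X A B)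
    {V : Type*} [AddCommGroup V] [DistribMulAction X V] (hf : ∀ x : X, (∀ v : V, x • v = v) → x = 1)
    (hq : ∀ a ∈ A, ∀ a' ∈ A, ∀ v : V, a' • (a • v - v) = a • v - v) :
    (∀ a ∈ A, a ≠ 1 → ¬ IsOfFinOrder a) ∨ ∃ p : ℕ, p.Prime ∧ Cfsg.IsElementaryAbelian p A := by
  have h' : H89.RO A B := h.2
  have hcomm : ∀ x y : X, (∀ v : V, x • (y • v - v) = y • v - v) →
      (∀ v : V, y • (x • v - v) = x • v - v) → x * y = y * x := by
    intro x y h1 h2
    have : (y * x)⁻¹ * (x * y) = 1 := by
      apply hf
      intro v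
      rw [mul_smul, inv_smul_eq_iff, mul_smul, mul_smul]
      have e1 := h1 v
      have e2 := h2 v
      rw [smul_sub, sub_eq_iff_eq_add] at e1 e2
      rw [e1, e2]; abel
    exact (inv_mul_eq_one.1 this).symm
  have hA : H89.Cm A A := fun a ha a' ha' => hcomm a a' (hq a' ha' a ha) (hq a ha a' ha')
  obtain ⟨t, -, ht⟩ := h'.exists_cj_left_eq_right
  have hB : H89.Cm B B := ht ▸ hA.conj t
  have hs : H89.SP A B := by
    refine Cfsg.Agent.S5019.result h ⟨H89.cm_self_iff.2 hA, H89.cm_self_iff.2 hB⟩ hq ?_
    by_contra hcon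
    push Not at hcon
    exact h'.not_cm fun a _ b _ => hcomm a b (hcon b a) (hcon a b)
  rcases hs.elementary_or_divisible hA with ⟨p, hp, h1⟩ | h1
  · exact Or.inr ⟨p, hp, H89.cm_self_iff.2 hA, h1⟩
  · exact Or.inl h1.1

end Cfsg.Agent.S5023
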