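import Cfsg.Statements.S5024
import Mathlib
import Cfsg.Agent.Base
import Cfsg.Agent.Lib.Root.RootSet

set_option autoImplicit false
open Cfsg

namespace Cfsg.Agent.S5024

/-- Let S be a set of abstract root subgroups of G, A and C members of S, B a rank one partner of A in S and D a rank one partner of C in S. If the rank one group ⟨A, B⟩ is contained in ⟨C, D⟩ then the two coincide, and C and D are conjugates of A inside ⟨A, B⟩. -/
theorem result {G : Type*} [Group G] {S : Set (Subgroup G)} (hS : Cfsg.IsRootSubgroupSet S)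
    {A B C D : Subgroup G} (hA : A ∈ S) (hC : C ∈ S) (hB : B ∈ Cfsg.rankOnePartners S A) (hD : D ∈ Cfsg.rankOnePartners S C)
    (hle : A ⊔ B ≤ C ⊔ D) : A ⊔ B = C ⊔ D ∧ C ∈ Cfsg.unipotentSubgroups A B ∧ D ∈ Cfsg.unipotentSubgroups A B := by
  have hS' := H89.rs_of hS
  have h1 : H89.RO A B := hB.2
  have h2 : H89.RO C D := hD.2
  have k1 : A ∈ H89.Om C D := by
    rcases hS'.cm_or_mem_Om h2 hC hD.1 hA (le_sup_left.trans hle) with h | h
    · exact absurd (h.mono le_rfl (le_sup_right.trans hle)) h1.not_cm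
    · exact h
  have k2 : B ∈ H89.Om C D := by
    rcases hS'.cm_or_mem_Om h2 hC hD.1 hB.1 (le_sup_right.trans hle) with h | h
    · exact absurd (h.mono le_rfl (le_sup_left.trans hle)) h1.symm.not_cm
    · exact h
  have e := h2.Om_eq k1 k2 h1.ne
  refine ⟨h2.sup_eq k1 k2 h1.ne, ?_, ?_⟩
  · show C ∈ H89.Om A B
    rw [e]; exact H89.left_mem_Om
  · show D ∈ H89.Om A B
    rw [e]; exact h2.right_mem_Om

end Cfsg.Agent.S5024
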