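import Cfsg.Statements.S5026
import Mathlib
import Cfsg.Agent.Base
import Cfsg.Agent.Lib.Root.RootSet

set_option autoImplicit false
open Cfsg

namespace Cfsg.Agent.S5026

/-- Let S be a degenerate set of abstract root subgroups of G (a set of abstract transvection groups) and let a, b be commuting non-identity elements of members of S with a b ≠ 1. Then the members of S centralizing a b are exactly those centralizing both a and b. -/
theorem result {G : Type*} [Group G] {S : Set (Subgroup G)} (hS : Cfsg.IsRootSubgroupSet S) (hdeg : Cfsg.IsDegenerateRootSet S)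
    {a b : G} (ha : a ∈ Cfsg.rootElements S) (hb : b ∈ Cfsg.rootElements S) (hab : a * b = b * a) (hab1 : a * b ≠ 1) :
    Cfsg.centralizingMembers S (Subgroup.zpowers (a * b)) =
      Cfsg.centralizingMembers S (Subgroup.zpowers a) ∩ Cfsg.centralizingMembers S (Subgroup.zpowers b) := by
  have hS' := H89.rs_of hS
  have hz : ∀ (C : Subgroup G) (x : G),
      C ≤ Subgroup.centralizer (Subgroup.zpowers x : Set G) ↔ ∀ c ∈ C, x * c = c * x := by
    intro C x
    rw [H89.cm_iff_le]
    constructor
    · intro h c hc; exact (h c hc x (Subgroup.mem_zpowers x)).symm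
    · rintro h c hc _ ⟨n, rfl⟩
      exact (Commute.zpow_left (h c hc) n).eq.symm
  obtain ⟨ha1, A, hA, haA⟩ := ha
  obtain ⟨hb1, B, hB, hbB⟩ := hb
  ext C
  simp only [Cfsg.centralizingMembers, Set.mem_inter_iff, Set.mem_setOf_eq, hz]
  constructor
  · rintro ⟨hC, h⟩
    have key : ∀ c ∈ C, a * c = c * a := by
      by_contra hcon
      have h1 : H89.RO A C := by
        rcases hS'.pair A hA C hC with h1 | h1 | h1
        · exact absurd (h1 a haA) hcon
        · exact h1
        · exact absurd h1 (hdeg A hA C hC)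
      have e : H89.cj b C = H89.cj a⁻¹ C := by
        rw [H89.cj_eq_cj_iff, inv_inv]; exact H89.cj_eq_of_comm h
      have h2 := hS'.mem_Om_of h1 hC hB hbB (A.inv_mem haA) (inv_ne_one.2 ha1) e
      have h3 : H89.cj b A = A := by
        refine h1.eq_of_mem (H89.cj_mem_Om H89.left_mem_Om (H89.le_of_mem_Om h2 hbB))
          H89.left_mem_Om ?_ haA ha1
        rw [H89.mem_cj, mul_assoc, hab, inv_mul_cancel_left]; exact haA
      have h4 := h1.eq_of_fix h2 H89.left_mem_Om hbB hb1 h3
      exact hab1 (h1.eq_one_of_comm (A.mul_mem haA (h4 ▸ hbB)) h)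
    refine ⟨⟨hC, key⟩, hC, fun c hc => ?_⟩
    calc b * c = a⁻¹ * (a * b * c) := by group
      _ = a⁻¹ * (c * a) * b := by rw [h c hc]; group
      _ = _ := by rw [← key c hc]; group
  · rintro ⟨⟨hC, h1⟩, -, h2⟩
    refine ⟨hC, fun c hc => ?_⟩
    rw [mul_assoc, h2 c hc, ← mul_assoc, h1 c hc, mul_assoc]

end Cfsg.Agent.S5026
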