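import Cfsg.Statements.S5027
import Mathlib
import Cfsg.Agent.Base
import Cfsg.Agent.Lib.Root.RootSet

set_option autoImplicit false
open Cfsg

namespace Cfsg.Agent.S5027

/-- Let S be a set of abstract root subgroups of G such that every member of S has a rank one partner in S (the graph of rank one pairs on S has no isolated vertex). Then the second centre of G equals its centre. -/
theorem result {G : Type*} [Group G] {S : Set (Subgroup G)} (hS : Cfsg.IsRootSubgroupSet S)
    (hF : ∀ A ∈ S, ¬ Cfsg.IsIsolatedIn (Cfsg.FAdj S) S A) : Subgroup.upperCentralSeries G 2 = Subgroup.center G := by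
  have hS' := H89.rs_of hS
  refine le_antisymm ?_ ?_
  · intro z hz
    have h1 : ∀ A ∈ S, A ≤ Subgroup.centralizer {z} := by
      intro A hA a ha
      obtain ⟨B, hB, h⟩ := (H89.ni_iff hA).1 (hF A hA)
      rw [Subgroup.mem_centralizer_singleton_iff]
      by_cases ha1 : a = 1
      · simp [ha1]
      have h2 := (Subgroup.mem_upperCentralSeries_succ_iff (n := 1).1 hz) a
      rw [Subgroup.upperCentralSeries_one, commutatorElement_def] at h2
      have := hS'.no_translate h hB (fun x _ => (Subgroup.mem_center_iff.1 h2 x).symm) ha ha1
        (hS'.cj_mem A hA z) (by rw [inv_mul_cancel_right]; exact H89.conj_mem_cj ha)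
      calc a * z = (z * a * z⁻¹ * a⁻¹) * (a * z) := by rw [this, one_mul]
        _ = _ := by group
    have h3 : (⊤ : Subgroup G) ≤ Subgroup.centralizer {z} := by
      rw [← hS.generates]; exact iSup₂_le h1
    rw [Subgroup.mem_center_iff]
    intro g
    exact Subgroup.mem_centralizer_singleton_iff.1 (h3 trivial)
  · rw [← Subgroup.upperCentralSeries_one]
    exact Subgroup.upperCentralSeries_mono G (by norm_num)

end Cfsg.Agent.S5027
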