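import Cfsg.Statements.S5029
import Mathlib
import Cfsg.Agent.Base
import Cfsg.Agent.Lib.Root.RootSet

set_option autoImplicit false
open Cfsg

namespace Cfsg.Agent.S5029

/-- Let S be a set of abstract root subgroups of G, A ∈ S having a rank one partner in S, and B ∈ S with C = ⁅A, B⁆ ∈ S. Then the members of S contained in AC are the conjugates of A by elements of B together with C, they partition AC, the members of S inside AC partition AC so that A is a line partner of C, and for every non-identity a ∈ A the map b ↦ a⁻¹ b⁻¹ a b is an isomorphism from B onto C. -/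
theorem result {G : Type*} [Group G] {S : Set (Subgroup G)} (hS : Cfsg.IsRootSubgroupSet S)
    {A B : Subgroup G} (hA : ¬ Cfsg.IsIsolatedIn (Cfsg.FAdj S) S A) (hAS : A ∈ S) (hB : B ∈ S) (hC : ⁅A, B⁆ ∈ S) :
    Cfsg.membersIn S (A ⊔ ⁅A, B⁆) = (fun b : G => Cfsg.conjBy A b) '' (B : Set G) ∪ {⁅A, B⁆} ∧
    Cfsg.IsSubgroupPartition (A ⊔ ⁅A, B⁆) (Cfsg.membersIn S (A ⊔ ⁅A, B⁆)) ∧
    A ∈ Cfsg.linePartners S ⁅A, B⁆ ∧
    ∀ a ∈ A, a ≠ 1 → ∃ φ : ↥B ≃* ↥⁅A, B⁆, ∀ b : ↥B, (φ b : G) = a⁻¹ * (b : G)⁻¹ * a * b := by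
  have hS' := H89.rs_of hS
  have hn := (H89.ni_iff hAS).1 hA
  have h := hS'.cc_of_mem hAS hB hC
  refine ⟨?_, hS'.cc_partition hAS hn h, hS'.cc_line hAS hn h, fun a ha ha1 => ?_⟩
  · ext E
    constructor
    · intro hE
      rcases hS'.cc_members hAS hn h hE.1 hE.2 with ⟨b, hb, e⟩ | e
      · exact Or.inl ⟨b, hb, e.symm⟩
      · exact Or.inr e
    · rintro (⟨b, hb, rfl⟩ | e)
      · exact ⟨hS'.cj_mem A hAS b, H89.cj_le_sup_comm hb⟩
      · rw [Set.mem_singleton_iff.1 e]; exact ⟨hC, le_sup_right⟩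
  · have hm : ∀ b : B, a⁻¹ * (b : G)⁻¹ * a * b ∈ ⁅A, B⁆ := fun b => by
      simpa using H89.comm_mem (A.inv_mem ha) (B.inv_mem b.2)
    let φ : B →* ↥⁅A, B⁆ := MonoidHom.mk' (fun b => ⟨_, hm b⟩) (fun b b' => by
      apply Subtype.ext
      have := h.hom_right (A.inv_mem ha) (B.inv_mem b.2) (B.inv_mem b'.2)
      have e := hS'.cm B hB _ b.2 _ b'.2
      simp only [Subgroup.coe_mul, inv_inv] at this ⊢
      rw [← this, e]; simp only [mul_inv_rev, inv_inv, e])
    refine ⟨MulEquiv.ofBijective φ ⟨?_, ?_⟩, fun b => rfl⟩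
    · rw [injective_iff_map_eq_one]
      intro b hb
      have e : a⁻¹ * (b : G)⁻¹ * a * b = 1 := congrArg Subtype.val hb
      apply Subtype.ext
      refine hS'.cc_inj hAS hn h ha ha1 b.2 ?_
      calc a * b = (b * a) * (a⁻¹ * (b : G)⁻¹ * a * b) := by group
        _ = _ := by rw [e, mul_one]
    · intro c
      obtain ⟨b, hb, e⟩ := h.surj_right (A.inv_mem ha) (inv_ne_one.2 ha1) c.2
      refine ⟨⟨b⁻¹, B.inv_mem hb⟩, Subtype.ext ?_⟩
      rw [e]; simp [φ]

end Cfsg.Agent.S5029
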