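import Cfsg.Statements.S5030
import Mathlib
import Cfsg.Agent.Base
import Cfsg.Agent.Lib.Root.Lines

set_option autoImplicit false
open Cfsg

namespace Cfsg.Agent.S5030

/-- Let S be a set of abstract root subgroups of G and A, B, C ∈ S with ⁅A, B⁆ ∈ S and ⁅B, C⁆ ∈ S, where A and C are different and commute. For a non-identity b ∈ B put X = ⟨A, b⁻¹ C b⟩ and Y = ⟨b⁻¹ A b, C⟩ and R = ⟨A, B, C⟩. Then X and Y are either both abelian or both nilpotent of class exactly two; X and Y commute elementwise; XY is normal in R with R = (XY) B; and R is nilpotent. -/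
theorem result {G : Type*} [Group G] {S : Set (Subgroup G)} (hS : Cfsg.IsRootSubgroupSet S)
    {A B C : Subgroup G} (hA : A ∈ S) (hB : B ∈ S) (hC : C ∈ S) (hAB : ⁅A, B⁆ ∈ S) (hBC : ⁅B, C⁆ ∈ S)
    (hAC : C ∈ Cfsg.commutingPartners S A)
    {b : G} (hb : b ∈ B) (hb1 : b ≠ 1) :
    ((IsMulCommutative ↥(A ⊔ Cfsg.conjBy C b⁻¹) ∧ IsMulCommutative ↥(Cfsg.conjBy A b⁻¹ ⊔ C)) ∨
      ((¬ IsMulCommutative ↥(A ⊔ Cfsg.conjBy C b⁻¹) ∧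
          ⁅⁅A ⊔ Cfsg.conjBy C b⁻¹, A ⊔ Cfsg.conjBy C b⁻¹⁆, A ⊔ Cfsg.conjBy C b⁻¹⁆ = ⊥) ∧
        (¬ IsMulCommutative ↥(Cfsg.conjBy A b⁻¹ ⊔ C) ∧
          ⁅⁅Cfsg.conjBy A b⁻¹ ⊔ C, Cfsg.conjBy A b⁻¹ ⊔ C⁆, Cfsg.conjBy A b⁻¹ ⊔ C⁆ = ⊥))) ∧
    ⁅A ⊔ Cfsg.conjBy C b⁻¹, Cfsg.conjBy A b⁻¹ ⊔ C⁆ = ⊥ ∧
    (∀ r ∈ A ⊔ B ⊔ C, Cfsg.conjBy ((A ⊔ Cfsg.conjBy C b⁻¹) ⊔ (Cfsg.conjBy A b⁻¹ ⊔ C)) r =
      (A ⊔ Cfsg.conjBy C b⁻¹) ⊔ (Cfsg.conjBy A b⁻¹ ⊔ C)) ∧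
    ((A ⊔ Cfsg.conjBy C b⁻¹) ⊔ (Cfsg.conjBy A b⁻¹ ⊔ C)) ⊔ B = A ⊔ B ⊔ C ∧
    Group.IsNilpotent ↥(A ⊔ B ⊔ C) := by
  have hS' := H89.rs_of hS
  have h1 := hS'.cc_of_mem hA hB hAB
  have h2 := (hS'.cc_of_mem hB hC hBC).symm
  have hcm : H89.Cm A C := H89.cm_iff.1 hAC.2.2
  simp only [H89.conjBy_eq]
  have hb' := B.inv_mem hb
  have hb1' := inv_ne_one.2 hb1
  have hA' := hS'.cj_mem A hA b⁻¹
  have hC' := hS'.cj_mem C hC b⁻¹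
  have hXY : H89.Cm (A ⊔ H89.cj b⁻¹ C) (H89.cj b⁻¹ A ⊔ C) :=
    ((h1.cm_cj (hS'.cm A hA) hb').sup_right hcm).sup_left
      ((hcm.symm.conj b⁻¹).sup_right (h2.cm_cj (hS'.cm C hC) hb').symm)
  have hX2 := hS'.cm_comm_of_not_ro hA hC' (hS'.chain_not_ro hA hC h1 hcm hb')
  have hY2 := hS'.cm_comm_of_not_ro hA' hC
    (fun h => hS'.chain_not_ro hC hA h2 hcm.symm hb' h.symm)
  have eN : (A ⊔ H89.cj b⁻¹ C) ⊔ (H89.cj b⁻¹ A ⊔ C) = (A ⊔ ⁅A, B⁆) ⊔ (C ⊔ ⁅C, B⁆) := by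
    rw [← h1.sup_cj hb' hb1', ← h2.sup_cj hb' hb1']
    ac_rfl
  have k1 : H89.Cm A (H89.cj b⁻¹ C) → H89.Cm (H89.cj b⁻¹ A) C := by
    intro h
    have h3 : H89.Cm A (H89.cj b C) := by
      have := hcm.sup_right h
      rw [h2.sup_cj hb' hb1'] at this
      exact this.mono le_rfl (H89.cj_le_sup_comm hb)
    have := h3.conj b⁻¹
    rwa [H89.cj_inv_cj] at this
  have k2 : H89.Cm (H89.cj b⁻¹ A) C → H89.Cm A (H89.cj b⁻¹ C) := by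
    intro h
    have h3 : H89.Cm (H89.cj b A) C := by
      have := hcm.sup_left h
      rw [h1.sup_cj hb' hb1'] at this
      exact this.mono (H89.cj_le_sup_comm hb) le_rfl
    have := h3.conj b⁻¹
    rwa [H89.cj_inv_cj] at this
  refine ⟨?_, H89.cm_iff.2 hXY, ?_, ?_, hS'.chain_nilpotent hA hB hC h1 h2 hcm⟩
  · by_cases h : H89.Cm A (H89.cj b⁻¹ C)
    · left
      refine ⟨H89.cm_self_iff.2 ?_, H89.cm_self_iff.2 ?_⟩
      · exact ((hS'.cm A hA).sup_right h).sup_left (h.symm.sup_right (hS'.cm _ hC'))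
      · exact ((hS'.cm _ hA').sup_right (k1 h)).sup_left ((k1 h).symm.sup_right (hS'.cm _ hC))
    · right
      refine ⟨⟨fun k => h ((H89.cm_self_iff.1 k).mono le_sup_left le_sup_right), H89.cm_iff.2 hX2⟩,
        fun k => h (k2 ((H89.cm_self_iff.1 k).mono le_sup_left le_sup_right)), H89.cm_iff.2 hY2⟩
  · rw [eN]
    refine H89.cj_eq_of_sup (H89.cj_eq_of_sup (fun a ha => H89.cj_self ?_) fun y hy => ?_)
      fun c hc => H89.cj_self ?_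
    · exact H89.mem_sup_l (H89.mem_sup_l ha)
    · rw [H89.cj_sup, h1.cj_sup hy, h2.cj_sup hy]
    · exact H89.mem_sup_r (H89.mem_sup_l hc)
  · refine le_antisymm (sup_le (sup_le (sup_le ?_ ?_) (sup_le ?_ ?_)) ?_) (sup_le (sup_le ?_ ?_) ?_)
    · exact le_sup_left.trans le_sup_left
    · exact H89.cj_le_of_mem le_sup_right (H89.mem_sup_l (H89.mem_sup_r hb'))
    · exact H89.cj_le_of_mem (le_sup_left.trans le_sup_left) (H89.mem_sup_l (H89.mem_sup_r hb'))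
    · exact le_sup_right
    · exact le_sup_right.trans le_sup_left
    · exact (le_sup_left.trans le_sup_left).trans le_sup_left
    · exact le_sup_right
    · exact (le_sup_right.trans le_sup_right).trans le_sup_left

end Cfsg.Agent.S5030
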