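import Cfsg.Statements.S5031
import Mathlib
import Cfsg.Agent.Base
import Cfsg.Agent.Lib.Root.Lines

set_option autoImplicit false
open Cfsg

namespace Cfsg.Agent.S5031

/-- Let S be a set of abstract root subgroups of G and let A, B ∈ S lie in different connected components of the graph of rank one pairs on S, each component having more than one member. Then B is not a line partner of A. -/
theorem result {G : Type*} [Group G] {S : Set (Subgroup G)} (hS : Cfsg.IsRootSubgroupSet S)
    {A B : Subgroup G} (hA : A ∈ S) (hB : B ∈ S)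
    (hne : Cfsg.componentOf (Cfsg.FAdj S) S A ≠ Cfsg.componentOf (Cfsg.FAdj S) S B)
    (hA2 : ∃ A' ∈ Cfsg.componentOf (Cfsg.FAdj S) S A, A' ≠ A) (hB2 : ∃ B' ∈ Cfsg.componentOf (Cfsg.FAdj S) S B, B' ≠ B) :
    B ∉ Cfsg.linePartners S A := by
  have hS' := H89.rs_of hS
  intro h
  obtain ⟨A', hA', e1⟩ := hA2
  obtain ⟨B', hB', e2⟩ := hB2
  have := hS'.fr_of_line hA h (H89.FR.ni hA'.2 e1) (H89.FR.ni hB'.2 e2)
  apply hne
  ext C
  exact ⟨fun k => ⟨k.1, this.symm.trans k.2⟩, fun k => ⟨k.1, this.trans k.2⟩⟩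

end Cfsg.Agent.S5031
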