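import Cfsg.Statements.S5033
import Mathlib
import Cfsg.Agent.Base
import Cfsg.Agent.Lib.Root.Classes
import Cfsg.Agent.Lib.Root.Quasi

set_option autoImplicit false
open Cfsg

namespace Cfsg.Agent.S5033

/-- Quasisimplicity criterion for groups generated by abstract root subgroups. Let S be a set of abstract root subgroups of G with more than one member such that: the graph of rank one pairs on S is connected; no two different members of S have the same set of commuting members of S; if S is degenerate then every member of S has more than three elements; and every rank one pair in S is special. Then for every A ∈ S one has G = G' A with A ∩ G' ≠ 1, and the commutator subgroup G' is quasisimple. Moreover G is perfect if S is non-degenerate, or if some rank one pair A, B in S generates a perfect group. -/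
theorem result {G : Type*} [Group G] {S : Set (Subgroup G)} (hS : Cfsg.IsRootSubgroupSet S) (h2 : ∃ A ∈ S, ∃ B ∈ S, A ≠ B)
    (h1 : Cfsg.IsConnectedFamily (Cfsg.FAdj S) S)
    (h2' : ∀ A ∈ S, ∀ C ∈ S, A ≠ C → Cfsg.centralizingMembers S A ≠ Cfsg.centralizingMembers S C)
    (h3 : Cfsg.IsDegenerateRootSet S → ∀ A ∈ S, 3 < ENat.card A)
    (h4 : ∀ A ∈ S, ∀ B ∈ Cfsg.rankOnePartners S A, Cfsg.IsSpecialRankOnePair A B) :
    (∀ A ∈ S, commutator G ⊔ A = ⊤ ∧ A ⊓ commutator G ≠ ⊥) ∧ Cfsg.IsQuasisimple ↥(commutator G) ∧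
    (Cfsg.IsNondegenerateRootSet S → commutator G = ⊤) ∧
    ((∃ A ∈ S, ∃ B ∈ Cfsg.rankOnePartners S A, Group.IsPerfect ↥(A ⊔ B)) → commutator G = ⊤) := by
  have hS' := H89.rs_of hS
  obtain ⟨A₀, hA₀, B₀, hB₀, hne₀⟩ := h2
  have hcl : Cfsg.IsConjClassOfSubgroups S :=
    ⟨⟨A₀, hA₀⟩, fun C hC D hD => H89.FR.exists_conj (h1 C hC D hD)⟩
  have hni := (hS'.connected_of_class hS.generates hcl hA₀ (H89.FR.ni (h1 A₀ hA₀ B₀ hB₀) hne₀.symm)).1
  have htop : ∀ N : Subgroup G, N.Normal → ∀ C ∈ S, C ≤ N → N = ⊤ := by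
    intro N hN C hC hle
    rw [eq_top_iff, ← hS.generates]
    refine iSup₂_le fun E hE => ?_
    obtain ⟨g, rfl⟩ := hcl.2 C hC E hE
    rw [← H89.cj_normal (N := N) g]; exact H89.cj_mono g hle
  have hcase : (∃ A ∈ S, ∃ B ∈ S, H89.CC S A B) ∨
      ∀ A ∈ S, ∀ B ∈ S, H89.RO A B → A ⊔ B ≤ ⁅A ⊔ B, A ⊔ B⁆ := by
    by_cases hd : Cfsg.IsDegenerateRootSet S
    · exact Or.inr fun A hA B hB h => H89.SP.le_commutator (h4 A hA B ⟨hB, h⟩) (hS'.cm A hA) (h3 hd A hA)
    · left
      by_contra hcon
      push Not at hcon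
      exact hd hcon
  have hperf : commutator G = ⊤ := by
    rcases hcase with ⟨A, hA, B, hB, h⟩ | h
    · exact htop _ inferInstance _ h.mem (Subgroup.commutator_mono le_top le_top)
    · obtain ⟨B, hB, k⟩ := hni A₀ hA₀
      exact htop _ inferInstance _ hA₀
        (le_sup_left.trans ((h _ hA₀ B hB k).trans (Subgroup.commutator_mono le_top le_top)))
  have hnorm : ∀ N : Subgroup G, N.Normal → N = ⊤ ∨ N ≤ Subgroup.center G := by
    intro N hN
    by_cases hT : N = ⊤
    · exact Or.inl hT
    right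
    have key : ∀ E ∈ S, ∀ F ∈ S, ⁅E, F⁆ ≤ N → H89.Cm E F := by
      intro E hE F hF hle
      rcases hS'.pair E hE F hF with k | k | k
      · exact k
      · exfalso
        have hX : ⁅E ⊔ F, E ⊔ F⁆ ≤ N := by
          have hc : H89.Cm ((E ⊔ F).map (QuotientGroup.mk' N)) ((E ⊔ F).map (QuotientGroup.mk' N)) := by
            have hm : ∀ P Q : Subgroup G, ⁅P, Q⁆ ≤ N →
                H89.Cm (P.map (QuotientGroup.mk' N)) (Q.map (QuotientGroup.mk' N)) := by
              intro P Q h
              rw [← H89.cm_iff, ← Subgroup.map_commutator, Subgroup.map_eq_bot_iff]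
              simpa using h
            have c1 := hm E E (by rw [H89.cm_iff.2 (hS'.cm E hE)]; exact bot_le)
            have c2 := hm F F (by rw [H89.cm_iff.2 (hS'.cm F hF)]; exact bot_le)
            have c3 := hm E F hle
            rw [Subgroup.map_sup]
            exact (c1.sup_right c3).sup_left (c3.symm.sup_right c2)
          rw [← H89.cm_iff, ← Subgroup.map_commutator, Subgroup.map_eq_bot_iff] at hc
          simpa using hc
        rcases hcase with hcc | h
        · obtain ⟨C, hC⟩ := hS'.exists_line_of_class hni hcl hcc hE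
          obtain ⟨⟨D, hD, hDF⟩, -⟩ := hS'.exists_line_cc hni hE hF k hC
          refine hT (htop N hN _ hDF.mem ?_)
          obtain ⟨x, hx, e⟩ := k.exists_cj_left_eq_right
          rw [Subgroup.commutator_le]
          intro d hd f hf
          obtain ⟨y, hy, rfl⟩ := H89.exists_of_mem_cj (e ▸ hf)
          have c1 := H89.cm_iff.1 hD.1.2.2 y hy d hd
          have hn : x * y * x⁻¹ * y⁻¹ ∈ N := hX (H89.comm_mem hx (H89.mem_sup_l hy))
          rw [commutatorElement_def]
          generalize hnn : x * y * x⁻¹ * y⁻¹ = n at hn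
          have e2 : x * y * x⁻¹ = n * y := by rw [← hnn]; group
          have e3 : d * (n * y) * d⁻¹ * (n * y)⁻¹ = (d * n * d⁻¹) * n⁻¹ := by
            calc d * (n * y) * d⁻¹ * (n * y)⁻¹ = (d * n * d⁻¹) * (d * y) * d⁻¹ * y⁻¹ * n⁻¹ := by group
              _ = _ := by rw [← c1]; group
          rw [e2, e3]
          exact N.mul_mem (hN.conj_mem n hn d) (N.inv_mem hn)
        · exact hT (htop N hN E hE (le_sup_left.trans ((h E hE F hF k).trans hX)))
      · exact absurd (htop N hN _ k.mem hle) hT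
    have key2 : ∀ A ∈ S, ∀ n ∈ N, ∀ E ∈ S, H89.Cm E A → H89.Cm E (H89.cj n A) := by
      intro A hA n hn E hE h
      refine key E hE _ (hS'.cj_mem A hA n) ?_
      rw [Subgroup.commutator_le]
      intro d hd f hf
      obtain ⟨y, hy, rfl⟩ := H89.exists_of_mem_cj hf
      have c1 := h d hd y hy
      have hn' : n * y * n⁻¹ * y⁻¹ ∈ N := by
        simpa [mul_assoc] using N.mul_mem hn (hN.conj_mem _ (N.inv_mem hn) y)
      rw [commutatorElement_def]
      generalize hnn : n * y * n⁻¹ * y⁻¹ = m at hn'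
      have e2 : n * y * n⁻¹ = m * y := by rw [← hnn]; group
      have e3 : d * (m * y) * d⁻¹ * (m * y)⁻¹ = (d * m * d⁻¹) * m⁻¹ := by
        calc d * (m * y) * d⁻¹ * (m * y)⁻¹ = (d * m * d⁻¹) * (d * y) * d⁻¹ * y⁻¹ * m⁻¹ := by group
          _ = _ := by rw [c1]; group
      rw [e2, e3]
      exact N.mul_mem (hN.conj_mem m hn' d) (N.inv_mem hn')
    have key3 : ∀ A ∈ S, ∀ n ∈ N, H89.cj n A = A := by
      intro A hA n hn
      by_contra hne
      refine h2' _ (hS'.cj_mem A hA n) A hA hne ?_
      ext E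
      constructor
      · rintro ⟨hE, h⟩
        have := key2 _ (hS'.cj_mem A hA n) _ (N.inv_mem hn) E hE (H89.cm_iff_le.1 h)
        rw [H89.cj_inv_cj] at this
        exact ⟨hE, H89.cm_iff_le.2 this⟩
      · rintro ⟨hE, h⟩
        exact ⟨hE, H89.cm_iff_le.2 (key2 A hA n hn E hE (H89.cm_iff_le.1 h))⟩
    intro n hn
    have h5 : ∀ A ∈ S, A ≤ Subgroup.centralizer {n} := by
      intro A hA a ha
      obtain ⟨B, hB, k⟩ := hni A hA
      rw [Subgroup.mem_centralizer_singleton_iff]
      have m1 : n * a * n⁻¹ * a⁻¹ ∈ A := A.mul_mem (key3 A hA n hn ▸ H89.conj_mem_cj ha) (A.inv_mem ha)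
      have m2 : n * a * n⁻¹ * a⁻¹ ∈ N := by
        simpa [mul_assoc] using N.mul_mem hn (hN.conj_mem _ (N.inv_mem hn) a)
      have := k.eq_one_left m1 (key3 B hB _ m2)
      calc a * n = (n * a * n⁻¹ * a⁻¹) * (a * n) := by rw [this, one_mul]
        _ = _ := by group
    have h6 : (⊤ : Subgroup G) ≤ Subgroup.centralizer {n} := by
      rw [← hS.generates]; exact iSup₂_le h5
    rw [Subgroup.mem_center_iff]
    intro g
    exact Subgroup.mem_centralizer_singleton_iff.1 (h6 trivial)
  have hq : Cfsg.IsQuasisimple G := by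
    refine H89.quasisimple_of ⟨hperf⟩ ?_ hnorm
    obtain ⟨B, hB, k⟩ := hni A₀ hA₀
    intro e
    apply k.not_cm
    intro a _ b _
    have : b ∈ Subgroup.center G := by rw [e]; trivial
    exact Subgroup.mem_center_iff.1 this a
  refine ⟨fun A hA => ⟨by rw [hperf, top_sup_eq], by rw [hperf, inf_top_eq]; exact hS.ne_bot A hA⟩, ?_,
    fun _ => hperf, fun _ => hperf⟩
  rw [hperf]
  exact H89.quasisimple_congr Subgroup.topEquiv.symm hq

end Cfsg.Agent.S5033
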