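import Cfsg.Statements.S5034
import Mathlib
import Cfsg.Agent.Base
import Cfsg.Agent.Lib.Root.Lines

set_option autoImplicit false
open Cfsg

namespace Cfsg.Agent.S5034

/-- Let S be a non-degenerate class of abstract root subgroups of G, A ∈ S and B a rank one partner of A. Then some line partner C of A has ⁅B, C⁆ ∈ S, and the rank one pair A, B is special. -/
theorem result {G : Type*} [Group G] {S : Set (Subgroup G)} (hS : Cfsg.IsRootSubgroupClass S) (hnd : Cfsg.IsNondegenerateRootSet S)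
    {A B : Subgroup G} (hA : A ∈ S) (hB : B ∈ Cfsg.rankOnePartners S A) :
    (∃ C ∈ Cfsg.linePartners S A, C ∈ Cfsg.commutatorPartners S B) ∧ Cfsg.IsSpecialRankOnePair A B := by
  have hS' := H89.rs_of hS.1
  have hni := (hS'.connected_of_class hS.1.generates hS.2 hA ⟨B, hB.1, hB.2⟩).1
  obtain ⟨C, hC⟩ := hS'.exists_line_of_class hni hS.2 hnd.2.2 hA
  obtain ⟨⟨D, hD, h⟩, hs⟩ := hS'.exists_line_cc hni hA hB.1 hB.2 hC
  exact ⟨⟨D, hD, hD.1.1, h.symm.mem⟩, hs⟩

end Cfsg.Agent.S5034
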