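import Cfsg.Statements.S5035
import Mathlib
import Cfsg.Agent.Base
import Cfsg.Agent.Lib.Root.Lines

set_option autoImplicit false
open Cfsg

namespace Cfsg.Agent.S5035

/-- Let S be a set of abstract root subgroups of G whose graph of rank one pairs is connected, and f a homomorphism from G onto a group H. Then either the images of the members of S form a set of abstract root subgroups of H whose graph of rank one pairs is again connected, or H equals the image of a member of S. -/
theorem result {G H : Type*} [Group G] [Group H] {S : Set (Subgroup G)} (hS : Cfsg.IsRootSubgroupSet S)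
    (hc : Cfsg.IsConnectedFamily (Cfsg.FAdj S) S) (f : G →* H) (hf : Function.Surjective f) :
    (Cfsg.IsRootSubgroupSet ((fun A : Subgroup G => A.map f) '' S) ∧
      Cfsg.IsConnectedFamily (Cfsg.FAdj ((fun A : Subgroup G => A.map f) '' S)) ((fun A : Subgroup G => A.map f) '' S)) ∨
    ∃ A ∈ S, A.map f = ⊤ := by
  have hS' := H89.rs_of hS
  by_cases hb : ∃ A ∈ S, A.map f = ⊥
  · right
    obtain ⟨A, hA, e⟩ := hb
    refine ⟨A, hA, ?_⟩
    have h1 : ∀ B ∈ S, B.map f = ⊥ := fun B hB => by
      obtain ⟨g, rfl⟩ := H89.FR.exists_conj (hc A hA B hB)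
      rw [H89.cj_map, e, H89.cj_bot]
    have h2 : (⊤ : Subgroup H) = ⊥ := by
      rw [← Subgroup.map_top_of_surjective f hf, ← hS.generates, Subgroup.map_iSup]
      simp only [Subgroup.map_iSup, iSup_eq_bot]
      exact h1
    rw [e, h2]
  left
  push Not at hb
  have hro : ∀ A ∈ S, ∀ B ∈ S, H89.RO A B → A.map f = B.map f ∨ H89.RO (A.map f) (B.map f) := by
    intro A hA B hB h
    have hN : ∀ x ∈ A ⊔ B, H89.cj x (f.ker ⊓ (A ⊔ B)) = f.ker ⊓ (A ⊔ B) := fun x hx => by
      rw [H89.cj_inf, H89.cj_normal, H89.cj_self hx]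
    rcases h.dichotomy inf_le_right hN with e | e
    · left
      have e2 : (A ⊔ B).map f = A.map f := by
        rw [← e, Subgroup.map_sup, (Subgroup.map_eq_bot_iff _).2 inf_le_left, bot_sup_eq]
      obtain ⟨x, hx, e3⟩ := h.exists_cj_left_eq_right
      rw [← e3, H89.cj_map, H89.cj_self]
      rw [← e2]; exact Subgroup.mem_map_of_mem f hx
    · exact Or.inr (h.map f fun x hx e1 => e x ⟨e1, hx⟩)
  have hcm : ∀ A B : Subgroup G, H89.Cm A B → H89.Cm (A.map f) (B.map f) := by
    rintro A B h _ ⟨a, ha, rfl⟩ _ ⟨b, hb, rfl⟩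
    rw [← map_mul, ← map_mul, h a ha b hb]
  refine ⟨H89.RS.isRootSubgroupSet ⟨?_, ?_, ?_, ?_⟩ ?_, ?_⟩
  · rintro _ ⟨A, hA, rfl⟩
    exact hcm A A (hS'.cm A hA)
  · rintro _ ⟨A, hA, rfl⟩
    exact hb A hA
  · rintro _ ⟨A, hA, rfl⟩ g
    obtain ⟨g, rfl⟩ := hf g
    exact ⟨_, hS'.cj_mem A hA g, H89.cj_map f g A⟩
  · rintro _ ⟨A, hA, rfl⟩ _ ⟨B, hB, rfl⟩
    rcases hS'.pair A hA B hB with h | h | h
    · exact Or.inl (hcm A B h)
    · rcases hro A hA B hB h with e | e
      · left
        show H89.Cm (A.map f) (B.map f)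
        rw [← e]; exact hcm A A (hS'.cm A hA)
      · exact Or.inr (Or.inl e)
    · right; right
      refine ⟨⟨_, h.mem, Subgroup.map_commutator _ _ _⟩, ?_, ?_, ?_⟩
      · rw [← Subgroup.map_commutator, ← Subgroup.map_sup]; exact hcm _ _ h.cm
      · rintro _ ⟨a, ha, rfl⟩ ha1
        rw [← Subgroup.map_commutator, ← h.2.2.1 a ha (by rintro rfl; simp at ha1),
          MonoidHom.map_closure, Subgroup.coe_map, Set.image_image, Set.image_image]
        simp
      · rintro _ ⟨b, hb, rfl⟩ hb1
        rw [← Subgroup.map_commutator, ← h.2.2.2 b hb (by rintro rfl; simp at hb1),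
          MonoidHom.map_closure, Subgroup.coe_map, Set.image_image, Set.image_image]
        simp
  · rw [iSup_image, ← Subgroup.map_top_of_surjective f hf, ← hS.generates]
    simp only [Subgroup.map_iSup]
  · rintro _ ⟨A, hA, rfl⟩ _ ⟨B, hB, rfl⟩
    have := hc A hA B hB
    clear hB
    induction this with
    | refl => exact Relation.ReflTransGen.refl
    | @tail P Q _ h2 ih =>
      rcases hro P h2.1 Q h2.2.1 h2.2.2 with e | e
      · show Relation.ReflTransGen _ _ (Q.map f)
        rw [← e]; exact ih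
      · exact ih.tail ⟨⟨P, h2.1, rfl⟩, ⟨Q, h2.2.1, rfl⟩, e⟩

end Cfsg.Agent.S5035
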