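import Cfsg.Statements.S5036
import Mathlib
import Cfsg.Agent.Base
import Cfsg.Agent.Lib.Root.Lines

set_option autoImplicit false
open Cfsg

namespace Cfsg.Agent.S5036

/-- Let S be a set of abstract root subgroups of G, A, B ∈ S with C = ⁅A, B⁆ ∈ S, and D ∈ S with ⁅D, C⁆ = A. Put X = ⟨B, D⟩ and N = AC. Then B, D form a rank one pair; the conjugates of A under X are the conjugates of C under X, namely the conjugates of A by elements of B together with C, equally the conjugates of C by elements of D together with A, and they partition N; and the centralizer of N in X is central in X. -/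
theorem result {G : Type*} [Group G] {S : Set (Subgroup G)} (hS : Cfsg.IsRootSubgroupSet S)
    {A B D : Subgroup G} (hA : A ∈ S) (hB : B ∈ S) (hC : ⁅A, B⁆ ∈ S) (hD : D ∈ S) (hDC : ⁅D, ⁅A, B⁆⁆ = A) :
    Cfsg.IsRankOnePair B D ∧
    {E | ∃ x ∈ B ⊔ D, E = Cfsg.conjBy A x} = {E | ∃ x ∈ B ⊔ D, E = Cfsg.conjBy ⁅A, B⁆ x} ∧
    {E | ∃ x ∈ B ⊔ D, E = Cfsg.conjBy A x} = (fun b : G => Cfsg.conjBy A b) '' (B : Set G) ∪ {⁅A, B⁆} ∧
    {E | ∃ x ∈ B ⊔ D, E = Cfsg.conjBy A x} = (fun d : G => Cfsg.conjBy ⁅A, B⁆ d) '' (D : Set G) ∪ {A} ∧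
    Cfsg.IsSubgroupPartition (A ⊔ ⁅A, B⁆) {E | ∃ x ∈ B ⊔ D, E = Cfsg.conjBy A x} ∧
    ∀ x ∈ (B ⊔ D) ⊓ Subgroup.centralizer ((A ⊔ ⁅A, B⁆ : Subgroup G) : Set G), ∀ y ∈ B ⊔ D, x * y = y * x := by
  have hS' := H89.rs_of hS
  have h1 := hS'.cc_of_mem hA hB hC
  have h2 : H89.CC S ⁅A, B⁆ D := (hS'.cc_of_mem hD hC (hDC.symm ▸ hA)).symm
  generalize hCdef : ⁅A, B⁆ = C at *
  have hCD : ⁅C, D⁆ = A := by rw [Subgroup.commutator_comm, hDC]
  have hAC : H89.Cm A C := hCdef ▸ h1.cm_left.symm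
  have hCB : H89.Cm C B := hCdef ▸ h1.cm_right
  have hAD : H89.Cm A D := hCD ▸ h2.cm_right
  have hnle : ¬ A ≤ C := fun h => hS'.cc_not_cm h1 (hCB.mono h le_rfl)
  have hNB : ∀ b ∈ B, H89.cj b (A ⊔ C) = A ⊔ C := fun b hb => hCdef ▸ h1.cj_sup hb
  have hND : ∀ d ∈ D, H89.cj d (A ⊔ C) = A ⊔ C := fun d hd => by
    have := h2.cj_sup hd
    rwa [hCD, sup_comm] at this
  have hro : H89.RO B D := by
    by_contra hn
    obtain ⟨d, hd, hd1⟩ := H89.exists_ne_one (hS'.ne_bot D hD)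
    have k1 := hS'.cm_cj_of_not_ro hD hB (fun h => hn h.symm) hd
    have k2 : C ⊔ H89.cj d C = A ⊔ C := by rw [h2.sup_cj hd hd1, hCD, sup_comm]
    have k3 : H89.cj d C ≤ C := by
      have e : H89.cj d C = ⁅A, H89.cj d B⁆ := by
        rw [← hCdef, H89.cj_commutator, hAD.symm.cj_eq hd]
      rw [e, Subgroup.commutator_le]
      intro a ha b' hb'
      have hm : a ∈ C ⊔ H89.cj d C := k2 ▸ H89.mem_sup_l ha
      obtain ⟨c, hc, c', hc', rfl⟩ := H89.mem_sup_of_cm (h2.cm_cj (hS'.cm C hC) hd) hm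
      have e1 := (hCB.conj d) c' hc' b' hb'
      have e2 : H89.cj b' C = C := by
        have e3 : H89.cj b' B = B := k1.symm.cj_eq hb'
        have e4 : H89.cj b' (A ⊔ C) = A ⊔ C := by
          obtain ⟨b, hb, rfl⟩ := H89.exists_of_mem_cj hb'
          exact H89.cj_mul_eq_self (H89.cj_mul_eq_self (hND d hd) (hNB b hb)) (H89.cj_inv_eq_self (hND d hd))
        have e5 : ⁅A ⊔ C, B⁆ = C := by
          refine le_antisymm ?_ (hCdef ▸ Subgroup.commutator_mono le_sup_left le_rfl)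
          rw [Subgroup.commutator_le]
          intro x hx b hb
          obtain ⟨a, ha, c, hc, rfl⟩ := H89.mem_sup_of_cm hAC hx
          have : a * c * b * (a * c)⁻¹ * b⁻¹ = a * b * a⁻¹ * b⁻¹ := by
            rw [mul_assoc a c b, hCB c hc b hb]; group
          rw [commutatorElement_def, this, ← hCdef]; exact H89.comm_mem ha hb
        rw [← e5, H89.cj_commutator, e3, e4]
      have : c * c' * b' * (c * c')⁻¹ * b'⁻¹ = c * (b' * c⁻¹ * b'⁻¹) := by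
        rw [mul_assoc c c' b', e1]; group
      rw [commutatorElement_def, this]
      exact C.mul_mem hc (e2 ▸ H89.conj_mem_cj (C.inv_mem hc))
    exact hnle (le_sup_left.trans (k2.ge.trans (sup_le le_rfl k3)))
  have niB : H89.NI S B := ⟨D, hD, hro⟩
  have niD : H89.NI S D := ⟨B, hB, hro.symm⟩
  have injB : ∀ b ∈ B, b ≠ 1 → ∀ a ∈ A, b * a = a * b → a = 1 := fun b hb hb1 a ha e =>
    hS'.cc_inj hB niB h1.symm hb hb1 ha e
  have injD : ∀ d ∈ D, d ≠ 1 → ∀ c ∈ C, d * c = c * d → c = 1 := fun d hd hd1 c hc e =>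
    hS'.cc_inj hD niD h2.symm hd hd1 hc e
  obtain ⟨b₀, hb₀, hb₀1⟩ := H89.exists_ne_one hro.left_ne_bot
  obtain ⟨d₀, hd₀, hd₀1⟩ := H89.exists_ne_one hro.right_ne_bot
  have eC : C = (A ⊔ C) ⊓ Subgroup.centralizer (B : Set G) := by
    refine le_antisymm (le_inf le_sup_right (H89.cm_iff_le.2 hCB)) fun x hx => ?_
    obtain ⟨a, ha, c, hc, rfl⟩ := H89.mem_sup_of_cm hAC hx.1
    have e := hx.2 b₀ hb₀
    rw [mul_assoc, hCB c hc b₀ hb₀, ← mul_assoc, ← mul_assoc] at e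
    rw [injB b₀ hb₀ hb₀1 a ha (mul_right_cancel e), one_mul]; exact hc
  have eA : A = (A ⊔ C) ⊓ Subgroup.centralizer (D : Set G) := by
    refine le_antisymm (le_inf le_sup_left (H89.cm_iff_le.2 hAD)) fun x hx => ?_
    obtain ⟨a, ha, c, hc, rfl⟩ := H89.mem_sup_of_cm hAC hx.1
    have e := hx.2 d₀ hd₀
    rw [← mul_assoc, ← hAD a ha d₀ hd₀, mul_assoc, mul_assoc] at e
    rw [injD d₀ hd₀ hd₀1 c hc (mul_left_cancel e), mul_one]; exact ha
  have hcent : ∀ (g : G) (K : Subgroup G), H89.cj g (Subgroup.centralizer (K : Set G)) =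
      Subgroup.centralizer (H89.cj g K : Set G) := by
    intro g K
    refine le_antisymm (H89.cm_iff_le.2 ((H89.cm_iff_le.1 le_rfl).conj g)) ?_
    rw [← H89.cj_le_cj_iff g⁻¹, H89.cj_inv_cj, H89.cm_iff_le, ← H89.cm_cj_iff g, H89.cj_cj_inv]
    exact H89.cm_iff_le.1 le_rfl
  have hNX : ∀ x ∈ B ⊔ D, H89.cj x (A ⊔ C) = A ⊔ C := H89.cj_eq_of_sup hNB hND
  -- conjugates of `A` and `C` correspond to unipotent subgroups
  have kA : ∀ x ∈ B ⊔ D, H89.cj x A = (A ⊔ C) ⊓ Subgroup.centralizer (H89.cj x D : Set G) := by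
    intro x hx
    conv_lhs => rw [eA, H89.cj_inf, hNX x hx, hcent]
  have kC : ∀ x ∈ B ⊔ D, H89.cj x C = (A ⊔ C) ⊓ Subgroup.centralizer (H89.cj x B : Set G) := by
    intro x hx
    conv_lhs => rw [eC, H89.cj_inf, hNX x hx, hcent]
  have s1 : {E | ∃ x ∈ B ⊔ D, E = Cfsg.conjBy A x} =
      {E | ∃ P ∈ H89.Om B D, E = (A ⊔ C) ⊓ Subgroup.centralizer (P : Set G)} := by
    ext E
    constructor
    · rintro ⟨x, hx, rfl⟩
      exact ⟨_, H89.cj_mem_Om hro.right_mem_Om hx, kA x hx⟩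
    · rintro ⟨P, hP, rfl⟩
      rw [← hro.Om_symm] at hP
      obtain ⟨x, hx, rfl⟩ := hP
      rw [sup_comm] at hx
      exact ⟨x, hx, (kA x hx).symm⟩
  have s2 : {E | ∃ x ∈ B ⊔ D, E = Cfsg.conjBy C x} =
      {E | ∃ P ∈ H89.Om B D, E = (A ⊔ C) ⊓ Subgroup.centralizer (P : Set G)} := by
    ext E
    constructor
    · rintro ⟨x, hx, rfl⟩
      exact ⟨_, H89.cj_mem_Om H89.left_mem_Om hx, kC x hx⟩
    · rintro ⟨P, ⟨x, hx, rfl⟩, rfl⟩
      exact ⟨x, hx, (kC x hx).symm⟩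
  have s3 : {E | ∃ x ∈ B ⊔ D, E = Cfsg.conjBy A x} =
      (fun b : G => Cfsg.conjBy A b) '' (B : Set G) ∪ {C} := by
    rw [s1]
    ext E
    constructor
    · rintro ⟨P, hP, rfl⟩
      rcases hro.mem_Om_iff.1 hP with rfl | ⟨b, hb, rfl⟩
      · exact Or.inr eC.symm
      · exact Or.inl ⟨b, hb, kA b (H89.mem_sup_l hb)⟩
    · rintro (⟨b, hb, rfl⟩ | e)
      · exact ⟨_, hro.cj_right_mem hb, kA b (H89.mem_sup_l hb)⟩
      · exact ⟨B, H89.left_mem_Om, (Set.mem_singleton_iff.1 e).trans eC⟩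
  have s4 : {E | ∃ x ∈ B ⊔ D, E = Cfsg.conjBy A x} =
      (fun d : G => Cfsg.conjBy C d) '' (D : Set G) ∪ {A} := by
    rw [s1]
    ext E
    constructor
    · rintro ⟨P, hP, rfl⟩
      rw [← hro.Om_symm] at hP
      rcases hro.symm.mem_Om_iff.1 hP with rfl | ⟨d, hd, rfl⟩
      · exact Or.inr eA.symm
      · exact Or.inl ⟨d, hd, kC d (H89.mem_sup_r hd)⟩
    · rintro (⟨d, hd, rfl⟩ | e)
      · exact ⟨_, H89.cj_mem_Om H89.left_mem_Om (H89.mem_sup_r hd), kC d (H89.mem_sup_r hd)⟩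
      · exact ⟨D, hro.right_mem_Om, (Set.mem_singleton_iff.1 e).trans eA⟩
  have hinf : A ⊓ C = ⊥ := by
    rw [Subgroup.eq_bot_iff_forall]
    intro x hx
    exact injB b₀ hb₀ hb₀1 x hx.1 (hCB x hx.2 b₀ hb₀).symm
  refine ⟨hro, s1.trans s2.symm, s3, s4, ⟨?_, ?_, ?_⟩, ?_⟩
  · rintro _ ⟨x, hx, rfl⟩
    rw [← hNX x hx]; exact H89.cj_mono x le_sup_left
  · intro x hx hx1
    rw [s3]
    obtain ⟨c, hc, a, ha, rfl⟩ := H89.mem_sup_of_cm hAC.symm (by rwa [sup_comm])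
    by_cases ha1 : a = 1
    · exact ⟨C, Or.inr rfl, by simpa [ha1] using hc⟩
    · obtain ⟨b, hb, e⟩ := h1.exists_conj ha ha1 (hCdef.symm ▸ hc)
      exact ⟨_, Or.inl ⟨b, hb, rfl⟩, e ▸ H89.conj_mem_cj ha⟩
  · rw [s1]
    rintro _ ⟨P, hP, rfl⟩ _ ⟨Q, hQ, rfl⟩ hne
    obtain ⟨x, hx, rfl, rfl⟩ := hro.exists_pair hP hQ (fun e => hne (by rw [e]))
    rw [← kA x hx, ← kC x hx, ← H89.cj_inf, inf_comm, hinf, H89.cj_bot]
  · have hN : ∀ x ∈ B ⊔ D, H89.cj x ((B ⊔ D) ⊓ Subgroup.centralizer ((A ⊔ C : Subgroup G) : Set G)) =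
        (B ⊔ D) ⊓ Subgroup.centralizer ((A ⊔ C : Subgroup G) : Set G) := fun x hx => by
      rw [H89.cj_inf, H89.cj_self hx, hcent, hNX x hx]
    rcases hro.dichotomy inf_le_left hN with e | e
    · exfalso
      have : H89.Cm (B ⊔ D) C := by
        rw [← e]
        exact ((H89.cm_iff_le.1 inf_le_right).mono le_rfl le_sup_right).sup_left hCB.symm
      exact hS'.cc_not_cm h2 (this.mono le_sup_right le_rfl).symm
    · exact e

end Cfsg.Agent.S5036
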