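import Cfsg.Statements.S5037
import Mathlib
import Cfsg.Agent.Base
import Cfsg.Agent.Lib.Root.Classes
import Cfsg.Agent.Lib.Root.Quasi

set_option autoImplicit false
open Cfsg

namespace Cfsg.Agent.S5037

/-- Let S be a class of abstract root subgroups of G that is either degenerate or non-degenerate (so either the commutator case never occurs, or all three cases occur), and A ≠ C members of S. If every member of S commuting with A commutes with C, then A and C have the same commuting members of S; and if every rank one partner of A is a rank one partner of C, then A and C commute and have the same rank one partners. -/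
theorem result {G : Type*} [Group G] {S : Set (Subgroup G)} (hS : Cfsg.IsRootSubgroupClass S)
    (hdn : Cfsg.IsDegenerateRootSet S ∨ Cfsg.IsNondegenerateRootSet S)
    {A C : Subgroup G} (hA : A ∈ S) (hC : C ∈ S) (hAC : A ≠ C) :
    (Cfsg.centralizingMembers S A ⊆ Cfsg.centralizingMembers S C →
      Cfsg.centralizingMembers S A = Cfsg.centralizingMembers S C) ∧
    (Cfsg.rankOnePartners S A ⊆ Cfsg.rankOnePartners S C →
      ⁅A, C⁆ = ⊥ ∧ Cfsg.rankOnePartners S A = Cfsg.rankOnePartners S C) := by
  have hS' := H89.rs_of hS.1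
  have hex : ∃ P ∈ S, H89.NI S P := by
    rcases hdn with hd | hd
    · by_contra hcon
      push Not at hcon
      obtain ⟨g, rfl⟩ := hS.2.2 A hA C hC
      apply hAC
      have : ∀ g ∈ ⨆ A ∈ S, A, H89.cj g A = A := by
        refine H89.iSup_induction' (fun E hE e he => ?_) (H89.cj_one _)
          fun x y h1 h2 => H89.cj_mul_eq_self h1 h2
        rcases hS'.pair E hE A hA with k | k | k
        · exact k.cj_eq he
        · exact absurd ⟨A, hA, k⟩ (hcon E hE)
        · exact absurd k (hd E hE A hA)
      exact (this g (by rw [hS.1.generates]; trivial)).symm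
    · obtain ⟨P, hP, Q, hQ, h⟩ := hd.2.1
      exact ⟨P, hP, Q, hQ, h⟩
  obtain ⟨P, hP, hn⟩ := hex
  have hni := (hS'.connected_of_class hS.1.generates hS.2 hP hn).1
  constructor
  · intro h
    refine Set.Subset.antisymm h fun E hE => ⟨hE.1, H89.cm_iff_le.2 ?_⟩
    exact hS'.cent_symm hA hC (hni C hC)
      (fun E hE k => H89.cm_iff_le.1 (h ⟨hE, H89.cm_iff_le.2 k⟩).2) E hE.1 (H89.cm_iff_le.1 hE.2)
  · intro h
    obtain ⟨h1, h2⟩ := hS'.opp_symm hni hA hC fun E hE k => (h ⟨hE, k⟩).2
    exact ⟨H89.cm_iff.2 h1, Set.Subset.antisymm h fun E hE => ⟨hE.1, h2 E hE.1 hE.2⟩⟩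

end Cfsg.Agent.S5037
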