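import Cfsg.Statements.S5038
import Mathlib
import Cfsg.Agent.Base
import Cfsg.Agent.Lib.Root.Lines

set_option autoImplicit false
open Cfsg

namespace Cfsg.Agent.S5038

/-- Let S be a set of abstract root subgroups of G in which every member has a rank one partner, A ∈ S and B a line partner of A. Then the subgroup generated by the members of S normalizing AB permutes the members of S inside AB doubly transitively by conjugation. -/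
theorem result {G : Type*} [Group G] {S : Set (Subgroup G)} (hS : Cfsg.IsRootSubgroupSet S)
    (hF : ∀ A ∈ S, ¬ Cfsg.IsIsolatedIn (Cfsg.FAdj S) S A) {A B : Subgroup G} (hA : A ∈ S) (hB : B ∈ Cfsg.linePartners S A) :
    ∀ C₁ ∈ Cfsg.membersIn S (A ⊔ B), ∀ C₂ ∈ Cfsg.membersIn S (A ⊔ B), ∀ D₁ ∈ Cfsg.membersIn S (A ⊔ B),
      ∀ D₂ ∈ Cfsg.membersIn S (A ⊔ B), C₁ ≠ C₂ → D₁ ≠ D₂ →
        ∃ x ∈ ⨆ E ∈ Cfsg.normalizingMembers S (A ⊔ B), E, Cfsg.conjBy C₁ x = D₁ ∧ Cfsg.conjBy C₂ x = D₂ := by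
  have hS' := H89.rs_of hS
  have hni : ∀ A ∈ S, H89.NI S A := fun A hA => (H89.ni_iff hA).1 (hF A hA)
  intro C₁ h1 C₂ h2 D₁ h3 D₂ h4 hC hD
  have hle : ∀ {P K Q : Subgroup G}, H89.Axis S (A ⊔ B) P K → Q ∈ S → Q ≤ A ⊔ B → Q ≠ P →
      K ≤ ⨆ E ∈ Cfsg.normalizingMembers S (A ⊔ B), E := by
    intro P K Q h hQ hQL hne
    refine le_iSup₂_of_le K ⟨h.1, fun κ hκ => H89.cj_eq_self_iff.1 (h.cj_line hQ hQL hne hκ)⟩ le_rfl
  obtain ⟨K, hK⟩ := hS'.exists_axis hni hA hB h3.1 h3.2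
  obtain ⟨x, hx, hxL, e⟩ : ∃ x ∈ ⨆ E ∈ Cfsg.normalizingMembers S (A ⊔ B), E,
      H89.cj x (A ⊔ B) = A ⊔ B ∧ H89.cj x C₁ = D₁ := by
    by_cases e : C₁ = D₁
    · exact ⟨1, Subgroup.one_mem _, H89.cj_one _, by rw [H89.cj_one, e]⟩
    obtain ⟨κ, hκ, hκ1⟩ := H89.exists_ne_one (hS'.ne_bot K hK.1)
    have hP := hS'.cj_mem C₁ h1.1 κ
    have hPL : H89.cj κ C₁ ≤ A ⊔ B := by
      rw [← hK.cj_line h1.1 h1.2 e hκ]; exact H89.cj_mono κ h1.2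
    have n1 : C₁ ≠ H89.cj κ C₁ := fun k =>
      hκ1 (hS'.cc_cj_ne (hni _ h1.1) (hK.2.2.2 C₁ h1.1 h1.2 e).1 hκ k.symm)
    have n2 : D₁ ≠ H89.cj κ C₁ := fun k => e (by
      rw [← H89.cj_inj κ, ← k, (hK.cm h1.1 h1.2 e).symm.cj_eq hκ])
    obtain ⟨K', hK'⟩ := hS'.exists_axis hni hA hB hP hPL
    obtain ⟨y, hy, e2⟩ := hS'.axis_trans hni hK' h1.1 h1.2 n1 h3.1 h3.2 n2
    exact ⟨y, hle hK' h1.1 h1.2 n1 hy, hK'.cj_line h1.1 h1.2 n1 hy, e2.symm⟩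
  have n3 : H89.cj x C₂ ≠ D₁ := fun k => hC (H89.cj_injective x (e.trans k.symm))
  have hL : H89.cj x C₂ ≤ A ⊔ B := by rw [← hxL]; exact H89.cj_mono x h2.2
  obtain ⟨y, hy, e2⟩ := hS'.axis_trans hni hK (hS'.cj_mem _ h2.1 x) hL n3 h4.1 h4.2 hD.symm
  refine ⟨y * x, Subgroup.mul_mem _ (hle hK h4.1 h4.2 hD.symm hy) hx, ?_, ?_⟩
  · rw [H89.conjBy_eq, ← H89.cj_cj, e, (hK.cm h4.1 h4.2 hD.symm).symm.cj_eq hy]
  · rw [H89.conjBy_eq, ← H89.cj_cj, e2]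

end Cfsg.Agent.S5038
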