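import Cfsg.Statements.S5039
import Mathlib
import Cfsg.Agent.Base
import Cfsg.Agent.Lib.Root.Degenerate

set_option autoImplicit false
universe u
open Cfsg

namespace Cfsg.Agent.S5039

/-- Let S be a class of abstract root subgroups of G containing two different commuting members. Suppose that, in case S is degenerate and every element of every member of S has order at most 3, the following holds: for every A ∈ S and every rank one partner B of A there are subgroups A₀ ≤ A and B₀ ≤ B generating an image of SL₂(k) with central kernel, k a field with at least four elements, A₀ and B₀ being the images of the unitriangular subgroups. Then every rank one pair A, B in S is special. -/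
theorem result {G : Type u} [Group G] {S : Set (Subgroup G)} (hS : Cfsg.IsRootSubgroupClass S)
    (hcomm : ∃ A ∈ S, ∃ C ∈ S, A ≠ C ∧ ⁅A, C⁆ = ⊥)
    (hH : Cfsg.IsDegenerateRootSet S → (∀ A ∈ S, ∀ a ∈ A, 0 < orderOf a ∧ orderOf a ≤ 3) →
      ∀ A ∈ S, ∀ B ∈ Cfsg.rankOnePartners S A, ∃ A₀ B₀ : Subgroup G, A₀ ≤ A ∧ B₀ ≤ B ∧
        ∃ (k : Type u) (_ : Field k), 3 < ENat.card k ∧ Cfsg.IsPSL2PairOver k A₀ B₀)
    {A B : Subgroup G} (hA : A ∈ S) (hB : B ∈ Cfsg.rankOnePartners S A) : Cfsg.IsSpecialRankOnePair A B := by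
  have hS' := H89.rs_of hS.1
  obtain ⟨hni, hc⟩ := hS'.connected_of_class hS.1.generates hS.2 hA ⟨B, hB.1, hB.2⟩
  by_cases hd : Cfsg.IsDegenerateRootSet S
  · obtain ⟨P, hP, Q, hQ, hne, hcm⟩ := hcomm
    obtain ⟨g, rfl⟩ := hS.2.2 P hP A hA
    exact hS'.sp_of_degenerate hA hB.1 hB.2 (fun R hR => hd _ hA R hR)
      (hc _ hA _ (hS'.cj_mem Q hQ g)) (fun e => hne (H89.cj_injective g e)) ((H89.cm_iff.1 hcm).conj g)
  · have hcc : ∃ A ∈ S, ∃ B ∈ S, H89.CC S A B := by
      by_contra hcon
      push Not at hcon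
      exact hd hcon
    obtain ⟨C, hC⟩ := hS'.exists_line_of_class hni hS.2 hcc hA
    exact (hS'.exists_line_cc hni hA hB.1 hB.2 hC).2

end Cfsg.Agent.S5039
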