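import Cfsg.Statements.S5040
import Mathlib
import Cfsg.Agent.Base
import Cfsg.Agent.Lib.Root.Classes
import Cfsg.Agent.Lib.Root.Quasi

set_option autoImplicit false
open Cfsg

namespace Cfsg.Agent.S5040

/-- Let S be a non-degenerate class of abstract root subgroups of G and Δ a weak TI-subset of S. Then the members of Δ commute with one another elementwise. -/
theorem result {G : Type*} [Group G] {S : Set (Subgroup G)} (hS : Cfsg.IsRootSubgroupClass S) (hnd : Cfsg.IsNondegenerateRootSet S)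
    {Δ : Set (Subgroup G)} (hΔ : Cfsg.IsWeakTISubset S Δ) : Cfsg.IsAbelianFamily Δ := by
  have hS' := H89.rs_of hS.1
  obtain ⟨A₀, hA₀, B₀, hB₀, h₀⟩ := hnd.2.1
  obtain ⟨hni, hc⟩ := hS'.connected_of_class hS.1.generates hS.2 hA₀ ⟨B₀, hB₀, h₀⟩
  obtain ⟨hsub, -, hne, hTI⟩ := hΔ
  -- the stabiliser of `Δ`
  let R : Subgroup G :=
    { carrier := {g | ∀ P, H89.cj g P ∈ Δ ↔ P ∈ Δ}
      mul_mem' := fun {x y} hx hy P => by rw [← H89.cj_cj, hx, hy]
      one_mem' := fun P => by rw [H89.cj_one]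
      inv_mem' := fun {x} hx P => by rw [← hx, H89.cj_cj_inv] }
  have hR : ∀ E ∈ S, ∀ P ∈ Δ, H89.Cm E P → E ≤ R := by
    intro E hE P hP hcm d hd
    by_cases hd1 : d = 1
    · rw [hd1]; exact R.one_mem
    rcases hTI d ⟨hd1, E, hE, hd⟩ with e | e
    · intro Q
      constructor
      · intro hQ
        rw [← e] at hQ
        obtain ⟨Q', hQ', e2⟩ := hQ
        rwa [← H89.cj_injective d e2]
      · intro hQ
        rw [← e]; exact ⟨Q, hQ, rfl⟩
    · exact absurd hP (Set.disjoint_left.1 e ⟨P, hP, hcm.cj_eq hd⟩)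
  have key : ∀ A ∈ Δ, ∀ B ∈ Δ, ¬ H89.RO A B := by
    intro A hA B hB h
    apply hne
    refine Set.Subset.antisymm hsub fun E hE => ?_
    obtain ⟨-, r, hr, rfl⟩ := hS'.generated_by_lines (R := R) hni
      (fun P hP => hS'.exists_line_of_class hni hS.2 hnd.2.2 hP) (hsub hA) (hsub hB) h
      (fun C hC => hR C hC.1.1 A hA (H89.cm_iff.1 hC.1.2.2).symm)
      (hR B (hsub hB) B hB (hS'.cm B (hsub hB))) (hc A (hsub hA) E hE)
    exact (hr A).2 hA
  intro A hA B hB
  rcases hS'.pair A (hsub hA) B (hsub hB) with k | k | k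
  · exact k
  · exact absurd k (key A hA B hB)
  · exfalso
    obtain ⟨K, hK, h1, h2⟩ := hS'.exists_cm_ro_of_cc hni (hsub hA) (hsub hB) k
    obtain ⟨κ, hκ, hκ1⟩ := H89.exists_ne_one h2.right_ne_bot
    exact key B hB _ ((hR K hK A hA h1.symm hκ B).2 hB) (h2.symm.ro_cj hκ hκ1)

end Cfsg.Agent.S5040
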