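import Cfsg.Statements.S5041
import Mathlib
import Cfsg.Agent.Base
import Cfsg.Agent.Lib.Root.Lines

set_option autoImplicit false
open Cfsg

namespace Cfsg.Agent.S5041

/-- Let S be a non-degenerate class of abstract root subgroups of G. Then the graph on S joining A to its line partners, and the commuting graph on S, are both connected. -/
theorem result {G : Type*} [Group G] {S : Set (Subgroup G)} (hS : Cfsg.IsRootSubgroupClass S) (hnd : Cfsg.IsNondegenerateRootSet S) :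
    Cfsg.IsConnectedFamily (Cfsg.EAdj S S) S ∧ Cfsg.IsConnectedFamily (Cfsg.DAdj S) S := by
  have hS' := H89.rs_of hS.1
  obtain ⟨A₀, hA₀, B₀, hB₀, h₀⟩ := hnd.2.1
  obtain ⟨hni, hc⟩ := hS'.connected_of_class hS.1.generates hS.2 hA₀ ⟨B₀, hB₀, h₀⟩
  have h1 : Cfsg.IsConnectedFamily (Cfsg.EAdj S S) S := by
    intro A hA B hB
    have := hc A hA B hB
    clear hB
    induction this with
    | refl => exact Relation.ReflTransGen.refl
    | @tail P Q _ h2 ih =>
      obtain ⟨C, hC⟩ := hS'.exists_line_of_class hni hS.2 hnd.2.2 h2.1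
      obtain ⟨⟨D, hD, h⟩, -⟩ := hS'.exists_line_cc hni h2.1 h2.2.1 h2.2.2 hC
      have k1 := hS'.cc_line hD.1.1 (hni _ hD.1.1) h
      have k2 := hS'.cc_line h2.2.1 (hni _ h2.2.1) h.symm
      rw [Subgroup.commutator_comm] at k2
      exact ((ih.tail ⟨h2.1, hD.1.1, hD⟩).tail ⟨hD.1.1, h.mem, H89.line_symm h.mem k1⟩).tail
        ⟨h.mem, h2.2.1, k2⟩
  refine ⟨h1, fun A hA B hB => Relation.ReflTransGen.mono ?_ _ _ (h1 A hA B hB)⟩
  intro P Q h
  exact ⟨h.1, h.2.1, h.2.2.1.2.1.symm, h.2.2.1.2.2⟩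

end Cfsg.Agent.S5041
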