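import Cfsg.Statements.S5042
import Mathlib
import Cfsg.Agent.Base
import Cfsg.Agent.Lib.Root.Classes
import Cfsg.Agent.Lib.Root.Quasi

set_option autoImplicit false
open Cfsg

namespace Cfsg.Agent.S5042

/-- Let S be a non-degenerate class of abstract root subgroups of G, A ∈ S and B a rank one partner of A. Then G is generated by the line partners of A together with B. -/
theorem result {G : Type*} [Group G] {S : Set (Subgroup G)} (hS : Cfsg.IsRootSubgroupClass S) (hnd : Cfsg.IsNondegenerateRootSet S)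
    {A B : Subgroup G} (hA : A ∈ S) (hB : B ∈ Cfsg.rankOnePartners S A) :
    (⨆ C ∈ Cfsg.linePartners S A, C) ⊔ B = ⊤ := by
  have hS' := H89.rs_of hS.1
  obtain ⟨hni, hc⟩ := hS'.connected_of_class hS.1.generates hS.2 hA ⟨B, hB.1, hB.2⟩
  rw [eq_top_iff, ← hS.1.generates]
  refine iSup₂_le fun E hE => ?_
  obtain ⟨h1, r, hr, rfl⟩ := hS'.generated_by_lines (R := (⨆ C ∈ Cfsg.linePartners S A, C) ⊔ B) hni
    (fun P hP => hS'.exists_line_of_class hni hS.2 hnd.2.2 hP) hA hB.1 hB.2
    (fun C hC => le_sup_of_le_left (le_iSup₂_of_le C hC le_rfl)) le_sup_right (hc A hA E hE)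
  exact H89.cj_le_of_mem h1 hr

end Cfsg.Agent.S5042
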