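import Cfsg.Statements.S5043
import Mathlib
import Cfsg.Agent.Base
import Cfsg.Agent.Lib.Root.Transv

set_option autoImplicit false
open Matrix
open Cfsg

namespace Cfsg.Agent.S5043

/-- Let k be a field and n a natural number. In SL_{n+3}(k) (so in every dimension at least 3) the conjugates of the root subgroup of elementary transvections 1 + c E₁₂ (c ∈ k) — that is, the groups of transvections attached to an incident point–hyperplane pair — form a non-degenerate class of abstract k-root subgroups of SL_{n+3}(k) whose graph of rank one pairs is connected. -/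
theorem result (k : Type*) [Field k] (n : ℕ) :
    Cfsg.IsRootSubgroupClass {A : Subgroup (Matrix.SpecialLinearGroup (Fin (n + 3)) k) |
        ∃ g : Matrix.SpecialLinearGroup (Fin (n + 3)) k,
          A = Cfsg.conjBy (Subgroup.closure {t : Matrix.SpecialLinearGroup (Fin (n + 3)) k |
            ∃ c : k, (t : Matrix (Fin (n + 3)) (Fin (n + 3)) k) = Matrix.transvection 0 1 c}) g} ∧
    Cfsg.IsNondegenerateRootSet {A : Subgroup (Matrix.SpecialLinearGroup (Fin (n + 3)) k) |
        ∃ g : Matrix.SpecialLinearGroup (Fin (n + 3)) k,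
          A = Cfsg.conjBy (Subgroup.closure {t : Matrix.SpecialLinearGroup (Fin (n + 3)) k |
            ∃ c : k, (t : Matrix (Fin (n + 3)) (Fin (n + 3)) k) = Matrix.transvection 0 1 c}) g} ∧
    Cfsg.IsKRootSubgroupSet k {A : Subgroup (Matrix.SpecialLinearGroup (Fin (n + 3)) k) |
        ∃ g : Matrix.SpecialLinearGroup (Fin (n + 3)) k,
          A = Cfsg.conjBy (Subgroup.closure {t : Matrix.SpecialLinearGroup (Fin (n + 3)) k |
            ∃ c : k, (t : Matrix (Fin (n + 3)) (Fin (n + 3)) k) = Matrix.transvection 0 1 c}) g} ∧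
    Cfsg.IsConnectedFamily (Cfsg.FAdj {A : Subgroup (Matrix.SpecialLinearGroup (Fin (n + 3)) k) |
        ∃ g : Matrix.SpecialLinearGroup (Fin (n + 3)) k,
          A = Cfsg.conjBy (Subgroup.closure {t : Matrix.SpecialLinearGroup (Fin (n + 3)) k |
            ∃ c : k, (t : Matrix (Fin (n + 3)) (Fin (n + 3)) k) = Matrix.transvection 0 1 c}) g})
      {A : Subgroup (Matrix.SpecialLinearGroup (Fin (n + 3)) k) |
        ∃ g : Matrix.SpecialLinearGroup (Fin (n + 3)) k,
          A = Cfsg.conjBy (Subgroup.closure {t : Matrix.SpecialLinearGroup (Fin (n + 3)) k |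
            ∃ c : k, (t : Matrix (Fin (n + 3)) (Fin (n + 3)) k) = Matrix.transvection 0 1 c}) g} := by
  have h01 : (0 : Fin (n + 3)) ≠ 1 := by simp
  have h02 : (0 : Fin (n + 3)) ≠ 2 := by
      simp only [ne_eq, Fin.ext_iff, Fin.val_two, Fin.val_zero, Fin.val_one]; omega
  have h12 : (1 : Fin (n + 3)) ≠ 2 := by
      simp only [ne_eq, Fin.ext_iff, Fin.val_two, Fin.val_zero, Fin.val_one]; omega
  rw [H89.sl_family_eq h01]
  have hL := H89.lf_sl (F := k) (ι := Fin (n + 3))
  have m01 := H89.single_mem_NSL (F := k) h01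
  have m02 := H89.single_mem_NSL (F := k) h02
  have m12 := H89.single_mem_NSL (F := k) h12
  have m10 := H89.single_mem_NSL (F := k) h01.symm
  refine ⟨⟨hL.rs.isRootSubgroupSet H89.sl_generated,
    H89.class_of_connectedFamily ⟨_, _, m01, rfl⟩ H89.sl_connected⟩, ⟨?_, ?_, ?_⟩,
    hL.kroot H89.sl_generated, H89.sl_connected⟩
  · refine ⟨_, ⟨_, m01, rfl⟩, _, ⟨_, m02, rfl⟩, fun e => ?_, H89.cm_iff.2 ((hL.cm_iff' m01 m02).2 ?_)⟩
    · obtain ⟨g, hg⟩ := hL.ex _ m01 1
      obtain ⟨c, hc⟩ := (H89.mem_Rg (hL.sq _ m02)).1 (e.le ((H89.mem_Rg (hL.sq _ m01)).2 ⟨_, hg⟩))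
      have e2 := add_left_cancel (hg.symm.trans hc)
      have := congrFun (congrFun e2 0) 1
      simp [h12.symm] at this
    · rw [single_mul_single_of_ne _ _ _ _ h01.symm, single_mul_single_of_ne _ _ _ _ h02.symm]
  · refine ⟨_, ⟨_, m01, rfl⟩, _, ⟨_, m10, rfl⟩, H89.ro_of_psl2 (hL.psl2 m01 m10 ⟨1, one_ne_zero, ?_, ?_⟩)⟩
    · simp
    · simp
  · refine ⟨_, ⟨_, m01, rfl⟩, _, ⟨_, m12, rfl⟩, hL.cc m01 m12 ?_ ?_ ?_⟩
    · rw [single_mul_single_same, single_mul_single_of_ne _ _ _ _ h02.symm]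
    · rw [single_mul_single_of_ne _ _ _ _ h02.symm, zero_mul]
    · rwa [single_mul_single_same, single_mul_single_of_ne _ _ _ _ h02.symm, sub_zero, mul_one]

end Cfsg.Agent.S5043
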