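import Cfsg.Statements.S5045
import Mathlib
import Cfsg.Agent.Base
import Cfsg.Agent.Lib.Root.Inv3

set_option autoImplicit false
open Cfsg

namespace Cfsg.Agent.S5045

/-- Let G be a finite group generated by a set D of root involutions, and W the set of members of D whose product with every other member of D has even order or is trivial (the isolated vertices of the odd-order-product graph on D). Then W is conjugation-invariant and generates a normal 2-subgroup of G meeting D in exactly W; the commutator of two members of D lying in different connected components of that graph, each with more than one member, lies in the subgroup generated by W; and for a in such a component, every member of D commuting with a, different from a and with product with a in D, lies in that component or in W. -/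
theorem result {G : Type*} [Group G] [Finite G] {D : Set G} (hD : Cfsg.IsRootInvolutionSet D) :
    (∀ w ∈ {w | Cfsg.IsIsolatedElem (Cfsg.OddAdj D) D w}, ∀ g : G, g * w * g⁻¹ ∈ {w | Cfsg.IsIsolatedElem (Cfsg.OddAdj D) D w}) ∧
    (Subgroup.closure {w | Cfsg.IsIsolatedElem (Cfsg.OddAdj D) D w}).Normal ∧
    IsPGroup 2 ↥(Subgroup.closure {w | Cfsg.IsIsolatedElem (Cfsg.OddAdj D) D w}) ∧
    (Subgroup.closure {w | Cfsg.IsIsolatedElem (Cfsg.OddAdj D) D w} : Set G) ∩ D = {w | Cfsg.IsIsolatedElem (Cfsg.OddAdj D) D w} ∧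
    (∀ a ∈ D, ∀ b ∈ D, (∃ a' ∈ Cfsg.elemComponentOf (Cfsg.OddAdj D) D a, a' ≠ a) →
      (∃ b' ∈ Cfsg.elemComponentOf (Cfsg.OddAdj D) D b, b' ≠ b) →
      Cfsg.elemComponentOf (Cfsg.OddAdj D) D a ≠ Cfsg.elemComponentOf (Cfsg.OddAdj D) D b →
        a * b * a⁻¹ * b⁻¹ ∈ Subgroup.closure {w | Cfsg.IsIsolatedElem (Cfsg.OddAdj D) D w}) ∧
    (∀ a ∈ D, (∃ a' ∈ Cfsg.elemComponentOf (Cfsg.OddAdj D) D a, a' ≠ a) →
      Cfsg.productPartners D a ⊆ Cfsg.elemComponentOf (Cfsg.OddAdj D) D a ∪ {w | Cfsg.IsIsolatedElem (Cfsg.OddAdj D) D w}) := by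
  have h := H89.ri_of hD
  have hW : {w | Cfsg.IsIsolatedElem (Cfsg.OddAdj D) D w} = {w | w ∈ D ∧ ¬ H89.NIso D w} :=
    Set.ext fun w => H89.isolated_iff
  rw [hW]
  have h1 : ∀ w ∈ {w | w ∈ D ∧ ¬ H89.NIso D w}, ∀ g : G, g * w * g⁻¹ ∈ {w | w ∈ D ∧ ¬ H89.NIso D w} :=
    fun w hw g => ⟨hD.conj_mem w hw.1 g, fun k => hw.2
      ((h.niso_conj_iff (hD.generates ▸ Subgroup.mem_top g)).1 k)⟩
  have h2 : (Subgroup.closure {w | w ∈ D ∧ ¬ H89.NIso D w}).Normal := by
    refine ⟨fun x hx g => ?_⟩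
    induction hx using Subgroup.closure_induction with
    | mem x hx => exact Subgroup.subset_closure (h1 x hx g)
    | one => simp
    | mul x y _ _ k1 k2 =>
      rw [show g * (x * y) * g⁻¹ = (g * x * g⁻¹) * (g * y * g⁻¹) by group]; exact mul_mem k1 k2
    | inv x _ k1 => rw [show g * x⁻¹ * g⁻¹ = (g * x * g⁻¹)⁻¹ by group]; exact inv_mem k1
  refine ⟨h1, h2, h.isPGroup_isolated, ?_, ?_, ?_⟩
  · ext d
    refine ⟨fun k => ⟨k.2, h.not_niso_of_mem_pgroup h.isPGroup_isolated (fun x hx p hp => ?_) k.1⟩,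
      fun k => ⟨Subgroup.subset_closure k, k.1⟩⟩
    simpa only [H89.iv (h.sq hx)] using h2.conj_mem p hp x
  · rintro a ha b hb ⟨a', ha', hne⟩ ⟨b', hb', hne'⟩ hcomp
    have hf : ¬ H89.FC D a b := fun k => hcomp (Set.ext fun y =>
      ⟨fun l => ⟨l.1, k.symm.trans' l.2⟩, fun l => ⟨l.1, k.trans' l.2⟩⟩)
    rw [H89.iv (h.sq ha), H89.iv (h.sq hb)]
    rcases h.cm_not_niso ha hb (H89.FC.niso ha'.2 hne) (H89.FC.niso hb'.2 hne') hf with k | k
    · exact (show a * b * a * b = 1 from k) ▸ one_mem _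
    · exact Subgroup.subset_closure k
  · rintro a ha ⟨a', ha', hne⟩ b hb
    by_cases k : H89.NIso D b
    · exact Or.inl ⟨hb.1.1, h.fc_of_line ha hb.1.1 (hb.1.2.1 ▸ hb.2) (H89.FC.niso ha'.2 hne) k⟩
    · exact Or.inr ⟨hb.1.1, k⟩

end Cfsg.Agent.S5045
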