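import Cfsg.Statements.S5047
import Mathlib
import Cfsg.Agent.Base
import Cfsg.Agent.Lib.Root.Inv3

set_option autoImplicit false
open Cfsg

namespace Cfsg.Agent.S5047

/-- Let G be a finite group generated by a set D of root involutions whose odd-order-product graph is connected, a ∈ D, and b a member of D different from a, commuting with a, with ab ∈ D, but not having the same commuting members as a. Then some member x of D with bx of order 4 has ax of order 3. -/
theorem result {G : Type*} [Group G] [Finite G] {D : Set G} (hD : Cfsg.IsRootInvolutionSet D)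
    (hc : Cfsg.IsConnectedSet (Cfsg.OddAdj D) D) {a b : G} (ha : a ∈ D) (hb : b ∈ Cfsg.productPartners D a)
    (hbE : b ∉ Cfsg.sameCommutingClass D a) : ∃ x ∈ Cfsg.fourPartners D b, orderOf (a * x) = 3 := by
  have h := H89.ri_of hD
  have hb' := hb.1.1
  obtain ⟨c, hcD, x, hx, k1, k2, k3, k4⟩ := h.exists_s4 hc ha hb' (hb.1.2.1 ▸ hb.2)
    fun e => hbE ⟨hb', (h.cent_eq_iff hc ha hb').2 e⟩
  refine ⟨x, ⟨hx, (h.four_iff hb' hx).2 ⟨fun k => k2 k.symm, fun k => h.ne_one hcD ?_⟩⟩,
    (h.od_of_s3 ha hx hb' hcD k1 k2 k3 k4).2⟩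
  rw [← k4, H89.cm_eq_one_iff (h.sq hx) (h.sq hb'), k]

end Cfsg.Agent.S5047
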