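import Cfsg.Statements.S5048
import Mathlib
import Cfsg.Agent.Base
import Cfsg.Agent.Lib.Root.Inv3

set_option autoImplicit false
open Cfsg

namespace Cfsg.Agent.S5048

/-- Let G be a finite group generated by a set D of root involutions whose odd-order-product graph is connected, with some product of two different commuting members of D again in D. Then the largest solvable normal subgroup of G is the preimage of the centre of G/O₂(G), and the quotient of G by it is a simple group. -/
theorem result {G : Type*} [Group G] [Finite G] {D : Set G} (hD : Cfsg.IsRootInvolutionSet D)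
    (hc : Cfsg.IsConnectedSet (Cfsg.OddAdj D) D) (hDD : (D ∩ Cfsg.commutingProducts D).Nonempty) :
    Cfsg.solvableRadical G = Cfsg.twoZCore G ∧ IsSimpleGroup (G ⧸ Cfsg.twoZCore G) := by
  have hcl := H89.class_of_connected hD hc
  have hl := H89.exists_line_of_class hD hcl hDD
  have hne : D.Nonempty := hDD.mono Set.inter_subset_left
  refine ⟨le_antisymm (H1.solvableRadical_le fun N hN hs => ?_)
    (H1.le_solvableRadical H89.isSolvable_twoZCore), H89.isSimpleGroup_quot hD hcl hl hne⟩
  refine (H89.normal_le_or_top hD hcl hl N).resolve_right fun e => ?_
  subst e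
  exact (H89.twoZCore_ne_top hD hcl hl hne).1 (H1.isSolvable_of_mulEquiv Subgroup.topEquiv hs)

end Cfsg.Agent.S5048
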