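import Cfsg.Statements.S5049
import Mathlib
import Cfsg.Agent.Base
import Cfsg.Agent.Lib.Root.Inv3

set_option autoImplicit false
open Cfsg

namespace Cfsg.Agent.S5049

/-- Let G be a finite group generated by a set D of odd transpositions (root involutions with no product of order 4), Q = O₂(G), and for a ∈ D let Q_a be the commutator subgroup of Q with a. Then every member of D commuting with a centralizes Q_a; and for b ∈ D with ab of odd order greater than 1, the centralizer of ab in Q is the intersection of the centralizers of a and b in Q. -/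
theorem result {G : Type*} [Group G] [Finite G] {D : Set G} (hD : Cfsg.IsOddTranspositionSet D) {a : G} (ha : a ∈ D) :
    (∀ e ∈ Cfsg.commutingMembers D a, ∀ q ∈ ⁅Cfsg.pCore 2 G, Subgroup.zpowers a⁆, e * q = q * e) ∧
    (∀ b ∈ Cfsg.oddPartners D a,
      Cfsg.pCore 2 G ⊓ Subgroup.centralizer {a * b} = Cfsg.pCore 2 G ⊓ Subgroup.centralizer {a} ⊓ Subgroup.centralizer {b}) := by
  have h := H89.ri_of hD.1
  have hP := H70.isPGroup_pCore 2 G
  have ha2 := h.sq ha
  have key : ∀ a ∈ D, ∀ e ∈ D, e * a = a * e → ∀ q ∈ Cfsg.pCore 2 G,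
      e * (q * a * q⁻¹) = (q * a * q⁻¹) * e := by
    intro a ha e he hc q hq
    have hx := hD.1.conj_mem a ha q
    by_contra hne
    refine hD.2 e he _ hx (h.orderOf_four he hx (H89.not_od_of_mem_pgroup hP (h.sq hx) ?_) hne)
    have hN := Cfsg.pCore_normal 2 G
    have e1 : e * (q * a * q⁻¹) * (e * (q * a * q⁻¹)) =
        (e * q * e⁻¹) * ((e * a) * q⁻¹ * (e * a)⁻¹) * (a * q * a⁻¹) * q⁻¹ := by
      simp only [mul_assoc, mul_inv_rev, H89.iv (h.sq ha), H89.iv (h.sq he), H89.ll (h.sq he),
        H89.ll (h.sq ha), H89.cl hc]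
    rw [e1]
    exact mul_mem (mul_mem (mul_mem (hN.conj_mem _ hq _) (hN.conj_mem _ (inv_mem hq) _))
      (hN.conj_mem _ hq _)) (inv_mem hq)
  refine ⟨fun e he q hq => ?_, fun b hb => ?_⟩
  · have : ⁅Cfsg.pCore 2 G, Subgroup.zpowers a⁆ ≤ Subgroup.centralizer {e} := by
      rw [Subgroup.commutator_le]
      rintro r hr _ ⟨k, rfl⟩
      rw [Subgroup.mem_centralizer_singleton_iff, commutatorElement_def]
      have c1 : Commute (r * a * r⁻¹) e := (key a ha e he.1 he.2 r hr).symm
      have c2 : Commute a e := he.2.symm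
      have := (c1.zpow_left k).mul_left (c2.zpow_left k).inv_left
      rwa [conj_zpow] at this
    exact (Subgroup.mem_centralizer_singleton_iff.1 (this hq)).symm
  · have hb' := hb.1
    have hb2 := h.sq hb'
    ext q
    simp only [Subgroup.mem_inf, Subgroup.mem_centralizer_singleton_iff]
    refine ⟨fun k => ?_, fun k => ⟨k.1.1, by rw [← mul_assoc, k.1.2, mul_assoc, k.2, mul_assoc]⟩⟩
    have c1 := key a ha a ha rfl q k.1
    have c2 := key b hb' b hb' rfl q k.1
    have hx := hD.1.conj_mem a ha q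
    have e1 : (q * a * q⁻¹) * (q * b * q⁻¹) = a * b := by
      calc _ = q * (a * b) * q⁻¹ := by group
        _ = _ := by rw [k.2]; group
    generalize hxx : q * a * q⁻¹ = x at c1 hx e1
    generalize hyy : q * b * q⁻¹ = y at c2 e1
    have e2 : y = x * (a * b) := by rw [← e1, H89.ll (h.sq hx)]
    have ht : a * x = 1 := by
      refine h.lemT ha hb' ⟨hb.2.1.symm, hb.2.2⟩ (by rw [mul_assoc, c1]) ?_ (by rwa [H89.ll ha2])
      rw [e2, mul_assoc, mul_assoc, hb2, mul_one, ← mul_assoc, ← mul_assoc, mul_assoc b, ← c1] at c2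
      rw [← H89.ll hb2 (a * x * b), ← mul_assoc b (a * x), c2]
    have e3 : x = a := by rw [← H89.ll ha2 x, ht, mul_one]
    rw [e3, H89.ll ha2] at e2
    exact ⟨⟨k.1, by rw [← mul_inv_eq_iff_eq_mul, hxx, e3]⟩, by rw [← mul_inv_eq_iff_eq_mul, hyy, e2]⟩

end Cfsg.Agent.S5049
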