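import Cfsg.Statements.S5055
import Mathlib
import Cfsg.Agent.Base
import Cfsg.Agent.Lib.Root.RST3

set_option autoImplicit false
open Cfsg

namespace Cfsg.Agent.S5055

/-- The Root Structure Theorem for root involutions. Let G be a finite group with O₂(G) = 1 and trivial centre, generated by a non-degenerate class D of root involutions such that for every d ∈ D the members of D with the same commuting members as d, together with 1, form a subgroup E(d). For d ∈ D let M_d be the subgroup generated by d and the members e ≠ d of D commuting with d with ed ∈ D, let W_d be the set of members of D commuting with d that have no partner with product of odd order among the members commuting with d, and let N_d be the subgroup generated by W_d. Then N_d = M_d; the members of D in N_d are d and the e just described; the commutator subgroup of N_d is E(d); and the members of D central in N_d are exactly those with the same commuting members as d. -/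
theorem result {G : Type*} [Group G] [Finite G] {D : Set G} (hD : Cfsg.IsNondegenerateRootInvolutionSet D)
    (hcl : Cfsg.IsRootInvolutionClass D) (hO : Cfsg.pCore 2 G = ⊥) (hZ : Subgroup.center G = ⊥)
    (hE : ∀ d ∈ D, (Cfsg.sameCommutingSubgroup D d : Set G) = Cfsg.sameCommutingClass D d ∪ {1}) {d : G} (hd : d ∈ D) :
    Subgroup.closure {w | Cfsg.IsIsolatedElem (Cfsg.OddAdj (Cfsg.commutingMembers D d)) (Cfsg.commutingMembers D d) w} =
      Subgroup.closure (Cfsg.productPartners D d ∪ {d}) ∧
    D ∩ (Subgroup.closure (Cfsg.productPartners D d ∪ {d}) : Set G) = Cfsg.productPartners D d ∪ {d} ∧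
    ⁅Subgroup.closure (Cfsg.productPartners D d ∪ {d}), Subgroup.closure (Cfsg.productPartners D d ∪ {d})⁆ =
      Cfsg.sameCommutingSubgroup D d ∧
    Cfsg.sameCommutingClass D d = {e | e ∈ D ∧ e ∈ Subgroup.closure (Cfsg.productPartners D d ∪ {d}) ∧
      ∀ y ∈ Subgroup.closure (Cfsg.productPartners D d ∪ {d}), e * y = y * e} := by
  obtain ⟨hc, h4⟩ := H89.nondeg_data' hD hcl
  have h := H89.rst_of (H89.ri_of hD.1) hc hE
  rw [H89.isolated_eq_ww, h.pp_eq_ww hd, sameCommutingSubgroup, H89.es_eq_scc h.ri hc hd]
  refine ⟨rfl, Set.ext fun w => ⟨fun k => h.mem_ww_of_closure k.1 k.2,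
    fun k => ⟨k.1, Subgroup.subset_closure k⟩⟩, h.commutator_ww h4 hd, Set.ext fun e => ⟨fun k =>
      ⟨k.1, Subgroup.subset_closure (h.ww_eq hd k ▸ (h.ww_iff k.1).2 ⟨k.1, Or.inl rfl⟩),
        fun y hy => (h.es_cent hd k hy).symm⟩, fun k => h.lemZ hd (h.mem_ww_of_closure k.1 k.2.1)
          fun f hf l => k.2.2 f (Subgroup.subset_closure ((h.ww_iff hd).2 ⟨hf, Or.inr l⟩))⟩⟩

end Cfsg.Agent.S5055
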