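import Cfsg.Statements.S5057
import Mathlib
import Cfsg.Agent.Base
import Cfsg.Agent.Lib.Root.Inv

set_option autoImplicit false
open Cfsg

namespace Cfsg.Agent.S5057

/-- The involutions of the alternating group of degree 6 form a class of root involutions (a single conjugacy class of involutions generating the group, any two of which commute, have product of odd order, or have product of order 4 whose square is again an involution of the class), and the product of any two of them has order at most 5. -/
theorem result :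
    Cfsg.IsRootInvolutionClass {g : ↥(alternatingGroup (Fin 6)) | orderOf g = 2} ∧
    ∀ d ∈ {g : ↥(alternatingGroup (Fin 6)) | orderOf g = 2}, ∀ e ∈ {g : ↥(alternatingGroup (Fin 6)) | orderOf g = 2},
      orderOf (d * e) ≤ 5 := by
  have key : ∀ g : alternatingGroup (Fin 6), (orderOf g = 2 ∧ g.1.cycleType = {2, 2}) ∨
      orderOf g = 1 ∨ orderOf g = 3 ∨ orderOf g = 5 ∨ orderOf g = 4 := by
    intro g
    have h1 := Equiv.Perm.sum_cycleType_le g.1
    have h2 : ∀ n ∈ g.1.cycleType, 2 ≤ n := fun n => Equiv.Perm.two_le_of_mem_cycleType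
    have h3 : Even (g.1.cycleType.sum + Multiset.card g.1.cycleType) := by
      have := Equiv.Perm.mem_alternatingGroup.1 g.2
      rwa [Equiv.Perm.sign_of_cycleType, neg_one_pow_eq_one_iff_even (by decide)] at this
    rw [← Subgroup.orderOf_coe, ← Equiv.Perm.lcm_cycleType]
    generalize g.1.cycleType = s at h1 h2 h3
    have h4 := Multiset.card_nsmul_le_sum h2
    rw [Fintype.card_fin] at h1
    rw [smul_eq_mul] at h4
    rw [Nat.even_iff] at h3
    obtain h | h | h | h : s.card = 0 ∨ s.card = 1 ∨ s.card = 2 ∨ s.card = 3 := by omega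
    · rw [Multiset.card_eq_zero.1 h]; simp
    · obtain ⟨a, rfl⟩ := Multiset.card_eq_one.1 h
      have := h2 a (by simp)
      simp only [Multiset.sum_singleton, Multiset.card_singleton] at h1 h3
      obtain rfl | rfl : a = 3 ∨ a = 5 := by omega
      all_goals simp
    · obtain ⟨a, b, rfl⟩ := Multiset.card_eq_two.1 h
      have := h2 a (by simp)
      have := h2 b (by simp)
      simp only [Multiset.insert_eq_cons, Multiset.sum_cons, Multiset.sum_singleton,
        Multiset.card_cons, Multiset.card_singleton] at h1 h3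
      obtain ⟨rfl, rfl⟩ | ⟨rfl, rfl⟩ | ⟨rfl, rfl⟩ | ⟨rfl, rfl⟩ :
        (a = 2 ∧ b = 2) ∨ (a = 3 ∧ b = 3) ∨ (a = 2 ∧ b = 4) ∨ (a = 4 ∧ b = 2) := by omega
      all_goals decide
    · omega
  let d : alternatingGroup (Fin 6) := ⟨Equiv.swap 0 1 * Equiv.swap 2 3, by
    rw [Equiv.Perm.mem_alternatingGroup]; decide⟩
  have hd : orderOf d = 2 := H9.orderOf_eq_two_of_mul_self (by decide) (by decide)
  have hc : ∀ d ∈ {g : alternatingGroup (Fin 6) | orderOf g = 2}, ∀ g : alternatingGroup (Fin 6),
      g * d * g⁻¹ ∈ {g : alternatingGroup (Fin 6) | orderOf g = 2} := fun d hd g =>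
    ((MulAut.conj g).orderOf_eq d).trans hd
  refine ⟨⟨⟨fun _ h => h, ?_, hc, fun a ha b hb => ?_⟩, ⟨d, hd⟩, fun a ha b hb => ?_⟩,
    fun a _ b _ => by have := key (a * b); omega⟩
  · have := alternatingGroup.isSimpleGroup (α := Fin 6) (by simp)
    have hn : (Subgroup.closure {g : alternatingGroup (Fin 6) | orderOf g = 2}).Normal :=
      ⟨fun n hn g => by
        induction hn using Subgroup.closure_induction with
        | mem x hx => exact Subgroup.subset_closure (hc x hx g)
        | one => simp
        | mul x y _ _ hx hy => rw [← conj_mul]; exact mul_mem hx hy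
        | inv x _ hx => rw [← conj_inv]; exact inv_mem hx⟩
    refine (hn.eq_bot_or_eq_top).resolve_left fun e => ?_
    exact H9.ne_one_of_orderOf_two hd (Subgroup.mem_bot.1 (e.le (Subgroup.subset_closure hd)))
  · have ia := inv_eq_of_mul_eq_one_right (H9.mul_self_of_orderOf_two ha)
    have ib := inv_eq_of_mul_eq_one_right (H9.mul_self_of_orderOf_two hb)
    rcases key (a * b) with k | k | k | k | k
    · left
      rw [← inv_eq_of_mul_eq_one_right (H9.mul_self_of_orderOf_two k.1), mul_inv_rev, ia, ib]
    · exact Or.inr (Or.inl (by rw [k]; decide))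
    · exact Or.inr (Or.inl (by rw [k]; decide))
    · exact Or.inr (Or.inl (by rw [k]; decide))
    · refine Or.inr (Or.inr ⟨k, ?_⟩)
      change orderOf _ = 2
      rw [orderOf_pow' _ two_ne_zero, k]; decide
  · have ha' : a.1.cycleType = {2, 2} := by
      have : orderOf a = 2 := ha
      rcases key a with k | k <;> first | exact k.2 | omega
    have hb' : b.1.cycleType = {2, 2} := by
      have : orderOf b = 2 := hb
      rcases key b with k | k <;> first | exact k.2 | omega
    obtain ⟨g, hg⟩ := isConj_iff.1 (alternatingGroup.isConj_of (σ := a) (τ := b)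
      (Equiv.Perm.isConj_iff_cycleType_eq.2 (ha'.trans hb'.symm))
      (by rw [← Equiv.Perm.sum_cycleType, ha']; simp))
    exact ⟨g, hg.symm⟩

end Cfsg.Agent.S5057
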