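import Cfsg.Statements.S5058
import Mathlib
import Cfsg.Agent.Base
import Cfsg.Agent.Lib.Root.Transv
import Cfsg.Agent.Lib.Root.Inv

set_option autoImplicit false
open Matrix
open Cfsg

namespace Cfsg.Agent.S5058

/-- Let F be a finite field of characteristic 2 and n a natural number. Then the transvections of SL_{n+3}(F) (so in every dimension at least 3) (the conjugates of the elementary matrices 1 + c E₁₂, c ≠ 0) form a class of root involutions of SL_{n+3}(F); when F has two elements they form a class of {3,4}⁺-transpositions (every product of odd order has order 1 or 3). -/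
theorem result (F : Type*) [Field F] [Fintype F] [CharP F 2] (n : ℕ) :
    Cfsg.IsRootInvolutionClass {t : Matrix.SpecialLinearGroup (Fin (n + 3)) F | ∃ c : F, c ≠ 0 ∧
        ∃ g : Matrix.SpecialLinearGroup (Fin (n + 3)) F, ((g⁻¹ * t * g : Matrix.SpecialLinearGroup (Fin (n + 3)) F) :
          Matrix (Fin (n + 3)) (Fin (n + 3)) F) = Matrix.transvection 0 1 c} ∧
    (Fintype.card F = 2 → Cfsg.IsThreeFourPlusTranspositionSet {t : Matrix.SpecialLinearGroup (Fin (n + 3)) F | ∃ c : F, c ≠ 0 ∧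
        ∃ g : Matrix.SpecialLinearGroup (Fin (n + 3)) F, ((g⁻¹ * t * g : Matrix.SpecialLinearGroup (Fin (n + 3)) F) :
          Matrix (Fin (n + 3)) (Fin (n + 3)) F) = Matrix.transvection 0 1 c}) := by
  have h01 : (0 : Fin (n + 3)) ≠ 1 := by simp
  have hL := H89.lf_sl (F := F) (ι := Fin (n + 3))
  have m01 := H89.single_mem_NSL (F := F) h01
  have hD : {t : Matrix.SpecialLinearGroup (Fin (n + 3)) F | ∃ c : F, c ≠ 0 ∧
        ∃ g : Matrix.SpecialLinearGroup (Fin (n + 3)) F, ((g⁻¹ * t * g : Matrix.SpecialLinearGroup (Fin (n + 3)) F) :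
          Matrix (Fin (n + 3)) (Fin (n + 3)) F) = Matrix.transvection 0 1 c} =
      {t | ∃ s ∈ H89.NSL (Fin (n + 3)) F, H89.slc _ F t = 1 + s} := by
    ext t
    constructor
    · rintro ⟨c, hc, g, e⟩
      refine ⟨_, hL.conj _ (hL.smul _ m01 c hc) g, ?_⟩
      rw [H89.transvection_eq, ← H89.slc_apply] at e
      rw [show t = g * (g⁻¹ * t * g) * g⁻¹ by group, map_mul, map_mul, e, mul_add, add_mul, mul_one,
        ← map_mul, mul_inv_cancel, map_one]
    · rintro ⟨s, hs, e⟩
      obtain ⟨g, hg⟩ := H89.FR.exists_conj (H89.sl_connected _ ⟨_, m01, rfl⟩ _ ⟨s, hs, rfl⟩)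
      have e' : H89.slc _ F t = 1 + (1 : F) • s := by rwa [one_smul]
      have ht := (H89.mem_Rg (hL.sq s hs)).2 ⟨_, e'⟩
      rw [hg, H89.mem_cj] at ht
      obtain ⟨c, hc, e2⟩ := hL.exists_of_ne_one m01 ht fun k =>
        hL.ne_one hs one_ne_zero e' (by rw [show t = g * (g⁻¹ * t * g) * g⁻¹ by group, k]; simp)
      exact ⟨c, hc, g, by rw [H89.transvection_eq]; exact e2⟩
  have hcl : ∀ t ∈ {t | ∃ s ∈ H89.NSL (Fin (n + 3)) F, H89.slc _ F t = 1 + s},
      ∃ g : Matrix.SpecialLinearGroup (Fin (n + 3)) F,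
        t = g * Matrix.SpecialLinearGroup.transvection h01 (1 : F) * g⁻¹ := by
    intro t ht
    rw [← hD] at ht
    obtain ⟨c, hc, g, e⟩ := ht
    have h20 : (2 : Fin (n + 3)) ≠ 0 := by
      simp only [ne_eq, Fin.ext_iff, Fin.val_two, Fin.val_zero, Fin.val_one]; omega
    have h21 : (2 : Fin (n + 3)) ≠ 1 := by
      simp only [ne_eq, Fin.ext_iff, Fin.val_two, Fin.val_zero, Fin.val_one]; omega
    let d : Fin (n + 3) → F := Function.update (Function.update 1 0 c) 2 c⁻¹
    have hd : (Matrix.diagonal d).det = 1 := by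
      rw [Matrix.det_diagonal, Finset.prod_update_of_mem (Finset.mem_univ _),
        Finset.prod_update_of_mem (by simp [h20.symm])]
      simp [hc]
    let D : Matrix.SpecialLinearGroup (Fin (n + 3)) F := ⟨_, hd⟩
    refine ⟨g * D, ?_⟩
    have : g⁻¹ * t * g * D = D * Matrix.SpecialLinearGroup.transvection h01 (1 : F) := by
      apply Subtype.ext
      change (g⁻¹ * t * g).1 * Matrix.diagonal d = Matrix.diagonal d * Matrix.transvection 0 1 1
      rw [e]
      ext i j
      simp only [Matrix.mul_diagonal, Matrix.diagonal_mul, Matrix.transvection, Matrix.add_apply,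
        Matrix.one_apply, Matrix.single_apply]
      by_cases h1 : i = j
      · subst h1
        have : ¬ (0 = i ∧ 1 = i) := fun k => h01 (k.1.trans k.2.symm)
        simp [this]
      · by_cases h2 : 0 = i ∧ 1 = j
        · obtain ⟨rfl, rfl⟩ := h2
          simp [d, h20.symm, h21.symm]
        · simp [h1, h2]
    rw [mul_assoc g, ← this]
    group
  have hR : Cfsg.IsRootInvolutionSet {t | ∃ s ∈ H89.NSL (Fin (n + 3)) F, H89.slc _ F t = 1 + s} := by
    refine ⟨?_, ?_, ?_, ?_⟩
    · rintro t ⟨s, hs, e⟩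
      have e' : H89.slc _ F t = 1 + (1 : F) • s := by rwa [one_smul]
      refine H9.orderOf_eq_two_of_mul_self (hL.ne_one hs one_ne_zero e') (hL.inj ?_)
      rw [map_mul, e', H89.one_add_mul (hL.sq s hs), CharTwo.add_self_eq_zero, zero_smul, add_zero,
        map_one]
    · rw [eq_top_iff, ← H89.sl_generated]
      refine iSup₂_le ?_
      rintro _ ⟨s, hs, rfl⟩ t ht
      by_cases h1 : t = 1
      · rw [h1]; exact one_mem _
      · obtain ⟨c, hc, e⟩ := hL.exists_of_ne_one hs ht h1
        exact Subgroup.subset_closure ⟨_, hL.smul s hs c hc, e⟩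
    · rintro t ⟨s, hs, e⟩ g
      exact ⟨_, hL.conj s hs g, by rw [map_mul, map_mul, e, mul_add, add_mul, mul_one,
        ← map_mul, mul_inv_cancel, map_one]⟩
    · rintro a ⟨s, hs, ha⟩ b ⟨t, ht, hb⟩
      exact (hL.pair_two hs ht ha hb).imp_right (Or.imp_left And.left)
  rw [hD]
  refine ⟨⟨hR, ⟨Matrix.SpecialLinearGroup.transvection h01 (1 : F), _, m01, rfl⟩, fun a ha b hb => ?_⟩,
    fun h2 => ⟨hR, ?_⟩⟩
  · obtain ⟨g, rfl⟩ := hcl a ha
    obtain ⟨g', rfl⟩ := hcl b hb
    exact ⟨g' * g⁻¹, by group⟩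
  · rintro a ha b hb ho
    have r := H89.ri_of hR
    obtain ⟨s, hs, ha'⟩ := id ha
    obtain ⟨t, ht, hb'⟩ := id hb
    rcases hL.pair_two hs ht ha' hb' with k | k | k
    · exact Or.inl (orderOf_eq_one_iff.2 (H89.eq_one_of_odd_of_pow ho (k := 1) (by
        rw [pow_one, pow_two]; exact H89.sq_eq_one_of_comm (r.sq ha) (r.sq hb) k)))
    · exact (Nat.dvd_prime Nat.prime_three).1
        (orderOf_dvd_of_pow_eq_one (k.2 (by rwa [Nat.card_eq_fintype_card])))
    · rw [k.1] at ho; exact absurd ho (by decide)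

end Cfsg.Agent.S5058
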