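import Cfsg.Statements.S5060
import Mathlib
import Cfsg.Agent.Base
import Cfsg.Agent.Lib.Root.SL2Gen

set_option autoImplicit false
open Cfsg

namespace Cfsg.Agent.S5060

/-- Let k ⊆ K be fields with the characteristic of k not 2 and k not of order 3, and let α ∈ K be a non-zero element algebraic over k. Then the subgroup of SL₂(K) generated by the upper unitriangular matrices with entry c and the lower unitriangular matrices with entry cα, c ranging over k, is exactly the group of matrices of SL₂(K) with all entries in k(α). -/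
theorem result {k K : Type*} [Field k] [Field K] [Algebra k K] (hk2 : ringChar k ≠ 2) (hk3 : Nat.card k ≠ 3)
    (α : K) (hα : IsAlgebraic k α) (hα0 : α ≠ 0) :
    (Subgroup.closure ({g : Matrix.SpecialLinearGroup (Fin 2) K | ∃ c : k, (g : Matrix (Fin 2) (Fin 2) K) = !![1, algebraMap k K c; 0, 1]} ∪
        {g : Matrix.SpecialLinearGroup (Fin 2) K | ∃ c : k, (g : Matrix (Fin 2) (Fin 2) K) = !![1, 0; algebraMap k K c * α, 1]}) :
      Set (Matrix.SpecialLinearGroup (Fin 2) K)) =
    {g : Matrix.SpecialLinearGroup (Fin 2) K | ∀ i j : Fin 2, (g : Matrix (Fin 2) (Fin 2) K) i j ∈ IntermediateField.adjoin k ({α} : Set K)} := by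
  set F := IntermediateField.adjoin k ({α} : Set K) with hF
  have hαF : α ∈ F := IntermediateField.mem_adjoin_simple_self k α
  ext g
  constructor
  · intro hg
    change ∀ i j : Fin 2, g.1 i j ∈ F
    have key : g.1 0 0 ∈ F ∧ g.1 0 1 ∈ F ∧ g.1 1 0 ∈ F ∧ g.1 1 1 ∈ F := by
      induction hg using Subgroup.closure_induction with
      | mem g hg =>
        rcases hg with ⟨c, e⟩ | ⟨c, e⟩
        · have e' : g = H89.xx (algebraMap k K c) := Subtype.ext e
          subst e'
          exact ⟨F.one_mem, F.algebraMap_mem c, F.zero_mem, F.one_mem⟩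
        · have e' : g = H89.yy (algebraMap k K c * α) := Subtype.ext e
          subst e'
          exact ⟨F.one_mem, F.zero_mem, F.mul_mem (F.algebraMap_mem c) hαF, F.one_mem⟩
      | one => exact ⟨F.one_mem, F.zero_mem, F.zero_mem, F.one_mem⟩
      | mul a b _ _ ha hb =>
        obtain ⟨a1, a2, a3, a4⟩ := ha
        obtain ⟨b1, b2, b3, b4⟩ := hb
        simp only [H89.ent]
        exact ⟨add_mem (mul_mem a1 b1) (mul_mem a2 b3), add_mem (mul_mem a1 b2) (mul_mem a2 b4),
          add_mem (mul_mem a3 b1) (mul_mem a4 b3), add_mem (mul_mem a3 b2) (mul_mem a4 b4)⟩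
      | inv a _ ha =>
        obtain ⟨a1, a2, a3, a4⟩ := ha
        simp only [H89.ent]
        exact ⟨a4, neg_mem a2, neg_mem a3, a1⟩
    intro i j
    fin_cases i <;> fin_cases j
    · exact key.1
    · exact key.2.1
    · exact key.2.2.1
    · exact key.2.2.2
  · intro hg
    have hg' : ∀ i j : Fin 2, g.1 i j ∈ F := hg
    set H := Subgroup.closure ({g : Matrix.SpecialLinearGroup (Fin 2) K | ∃ c : k, (g : Matrix (Fin 2) (Fin 2) K) = !![1, algebraMap k K c; 0, 1]} ∪
        {g : Matrix.SpecialLinearGroup (Fin 2) K | ∃ c : k, (g : Matrix (Fin 2) (Fin 2) K) = !![1, 0; algebraMap k K c * α, 1]}) with hH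
    have htop : H.comap (Matrix.SpecialLinearGroup.map (algebraMap F K)) = ⊤ := by
      refine H89.gen_top (α := (⟨α, hαF⟩ : F)) (H89.two_ne_zero_of_ringChar hk2) hk3 ?_
        (fun e => hα0 (congrArg Subtype.val e)) ?_ ?_ ?_
      · exact (IntermediateField.isAlgebraic_iff).2 hα
      · intro u
        have hu : u.1 ∈ (IntermediateField.adjoin k ({α} : Set K)).toSubalgebra := u.2
        rw [IntermediateField.adjoin_simple_toSubalgebra_of_isAlgebraic hα,
          Algebra.adjoin_singleton_eq_range_aeval] at hu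
        obtain ⟨p, hp⟩ := hu
        refine ⟨p, Subtype.ext ?_⟩
        rw [← hp]
        exact (Polynomial.aeval_algHom_apply F.val (⟨α, hαF⟩ : F) p).symm
      · intro c
        rw [Subgroup.mem_comap, H89.map_xx]
        exact Subgroup.subset_closure (Or.inl ⟨c, rfl⟩)
      · intro c
        rw [Subgroup.mem_comap, H89.map_yy]
        exact Subgroup.subset_closure (Or.inr ⟨c, rfl⟩)
    have : H89.mk2 (⟨_, hg' 0 0⟩ : F) ⟨_, hg' 0 1⟩ ⟨_, hg' 1 0⟩ ⟨_, hg' 1 1⟩
        (Subtype.ext (H89.sl_det g)) ∈ H.comap (Matrix.SpecialLinearGroup.map (algebraMap F K)) :=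
      htop ▸ Subgroup.mem_top _
    rw [Subgroup.mem_comap] at this
    change g ∈ H
    convert this using 1
    apply H89.sl_ext <;> rfl

end Cfsg.Agent.S5060
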