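import Cfsg.Statements.S5063
import Mathlib
import Cfsg.Agent.Base
import Cfsg.Agent.Lib.Root.Quad5

set_option autoImplicit false
universe u
open Cfsg

namespace Cfsg.Agent.S5063

/-- Let k be a field of characteristic not 2 with k not of order 3, M a finite-dimensional k-vector space and G ≤ GL(M) such that (G, M) is a quadratic pair (M irreducible for G, and G generated by its quadratically acting elements σ whose scalar family 1 + c(σ − 1), c ∈ k, lies in G). Write 𝒬_d for the quadratic elements of G of minimal commutator rank, E(σ) for the subgroup generated by the members of 𝒬_d with the same fixed space and commutator space as σ, and Σ for the set of these subgroups. Then G is a central product of finitely many quasisimple normal subgroups G₁, …, G_s (pairwise commuting and together generating G), each generated by the quadratic elements of G it contains, and every quadratic element of G lies in one of them. -/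
theorem result {k : Type u} [Field k] (hk2 : ringChar k ≠ 2) (hk3 : Nat.card k ≠ 3)
    {M : Type u} [AddCommGroup M] [Module k M] [FiniteDimensional k M]
    {G : Subgroup (LinearMap.GeneralLinearGroup k M)} (hG : Cfsg.IsQuadraticPair G) :
    ∃ (s : ℕ) (Gi : Fin s → Subgroup (LinearMap.GeneralLinearGroup k M)),
      (∀ i, Gi i ≤ G ∧ ∀ g ∈ G, Cfsg.conjBy (Gi i) g = Gi i) ∧ (∀ i j, i ≠ j → ⁅Gi i, Gi j⁆ = ⊥) ∧ (⨆ i, Gi i) = G ∧
      (∀ i, Cfsg.IsQuasisimple ↥(Gi i) ∧ Subgroup.closure (Cfsg.quadraticElements G ∩ (Gi i : Set (LinearMap.GeneralLinearGroup k M))) = Gi i) ∧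
      Cfsg.quadraticElements G ⊆ ⋃ i, (Gi i : Set (LinearMap.GeneralLinearGroup k M)) := by
  have hk := H89.fk_of hk2 hk3
  have hN := H89.nu_of_irreducible hG.1
  obtain ⟨𝒮, f1, f2, f3, f4, f5⟩ := hN.decomposition hk
  have hle : G ≤ ⨆ K ∈ 𝒮, K := by
    conv_lhs => rw [← hG.2]
    refine (Subgroup.closure_le _).2 fun g hg => ?_
    have h := (H89.mem_quadratic.1 hg).1
    rw [← H89.ex_dv h.sq]
    exact (f5 _ h).mem
  haveI := f1.to_subtype
  obtain ⟨r, ⟨e⟩⟩ := Finite.exists_equiv_fin 𝒮
  refine ⟨r, fun i => (e.symm i).1, fun i => ⟨f2 _ (e.symm i).2, fun g hg => ?_⟩, fun i j hij => ?_,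
    ?_, fun i => f4 _ (e.symm i).2, fun g hg => ?_⟩
  · refine H89.iSup_induction' (P := fun g => H89.cj g (e.symm i).1 = (e.symm i).1) ?_
      (H89.cj_one _) (fun x y => H89.cj_mul_eq_self) g (hle hg)
    intro T hT a ha
    by_cases h : T = (e.symm i).1
    · exact H89.cj_self (h ▸ ha)
    · exact (f3 T hT _ (e.symm i).2 h).cj_eq ha
  · exact H89.cm_iff.2 (f3 _ (e.symm i).2 _ (e.symm j).2
      fun h => hij (e.symm.injective (Subtype.ext h)))
  · refine le_antisymm (iSup_le fun i => f2 _ (e.symm i).2) (hle.trans (iSup₂_le fun K hK => ?_))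
    exact le_iSup_of_le (e ⟨K, hK⟩) (by simp)
  · have h := H89.mem_quadratic.1 hg
    rcases (f5 _ h.1).single hG.1 hle f3 with h0 | ⟨K, hK, hm⟩
    · exact absurd h0 h.2
    · rw [H89.ex_dv h.1.sq] at hm
      exact Set.mem_iUnion.2 ⟨e ⟨K, hK⟩, by simpa using hm⟩

end Cfsg.Agent.S5063
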