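import Cfsg.Statements.S5064
import Mathlib
import Cfsg.Agent.Base
import Cfsg.Agent.Lib.Root.Quad3

set_option autoImplicit false
universe u
open Cfsg

namespace Cfsg.Agent.S5064

/-- Let k be a field of characteristic not 2 with k not of order 3, M a finite-dimensional k-vector space and G ≤ GL(M) such that (G, M) is a quadratic pair (M irreducible for G, and G generated by its quadratically acting elements σ whose scalar family 1 + c(σ − 1), c ∈ k, lies in G). Write 𝒬_d for the quadratic elements of G of minimal commutator rank, E(σ) for the subgroup generated by the members of 𝒬_d with the same fixed space and commutator space as σ, and Σ for the set of these subgroups. If σ, τ ∈ 𝒬_d and the subgroup H generated by their two scalar families does not act unipotently on M, then H is isomorphic to SL₂ over a simple algebraic extension k(λ) of k. -/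
theorem result {k : Type u} [Field k] (hk2 : ringChar k ≠ 2) (hk3 : Nat.card k ≠ 3)
    {M : Type u} [AddCommGroup M] [Module k M] [FiniteDimensional k M]
    {G : Subgroup (LinearMap.GeneralLinearGroup k M)} (hG : Cfsg.IsQuadraticPair G)
    {σ τ : LinearMap.GeneralLinearGroup k M} (hσ : σ ∈ Cfsg.minimalQuadraticElements G) (hτ : τ ∈ Cfsg.minimalQuadraticElements G)
    (hH : ¬ Cfsg.IsUnipotentOn (Subgroup.closure (Cfsg.scalarFamily σ ∪ Cfsg.scalarFamily τ))) :
    ∃ (K : Type u) (_ : Field K) (_ : Algebra k K) (lam : K), IsAlgebraic k lam ∧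
      IntermediateField.adjoin k ({lam} : Set K) = ⊤ ∧
      Nonempty (↥(Subgroup.closure (Cfsg.scalarFamily σ ∪ Cfsg.scalarFamily τ)) ≃* Matrix.SpecialLinearGroup (Fin 2) K) := by
  have hk := H89.fk_of hk2 hk3
  have hs := H89.mem_minimal.1 hσ
  have ht := H89.mem_minimal.1 hτ
  have hfam : ∀ {ρ g : LinearMap.GeneralLinearGroup k M}, H89.Qd G (H89.dv ρ) →
      (g ∈ Cfsg.scalarFamily ρ ↔ ∃ c : k, g = H89.ex (c • H89.dv ρ)) := by
    intro ρ g h
    constructor
    · rintro ⟨c, hc⟩
      exact ⟨c, Units.ext (by rw [H89.ex_val (H89.smul_sq h.sq c)]; exact hc)⟩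
    · rintro ⟨c, rfl⟩
      exact ⟨c, H89.ex_val (H89.smul_sq h.sq c)⟩
  have hn : H89.dv σ * H89.dv τ * H89.dv σ ≠ 0 := by
    intro h
    apply hH
    refine H89.unip_mono (hs.unip hk ht h) ((Subgroup.closure_le _).2 ?_)
    rintro g (hg | hg)
    · obtain ⟨c, rfl⟩ := (hfam hs).1 hg
      exact H89.mem_sup_l (H89.ex_mem_Rt (Submodule.smul_mem _ c hs.1.mem_VV))
    · obtain ⟨c, rfl⟩ := (hfam ht).1 hg
      exact H89.mem_sup_r (H89.ex_mem_Rt (Submodule.smul_mem _ c ht.1.mem_VV))
  obtain ⟨f, hf, hfX, φ, hφ, hx, hy⟩ := hs.sl2_iso hk ht hn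
  have halg : IsAlgebraic k (AdjoinRoot.root f) :=
    (AdjoinRoot.isIntegral_root hf.out.ne_zero).isAlgebraic
  have hK : ∀ u : AdjoinRoot f, ∃ p : Polynomial k, Polynomial.aeval (AdjoinRoot.root f) p = u := by
    intro u
    obtain ⟨p, rfl⟩ := AdjoinRoot.mk_surjective u
    exact ⟨p, AdjoinRoot.aeval_eq p⟩
  refine ⟨AdjoinRoot f, inferInstance, inferInstance, AdjoinRoot.root f, halg, ?_, ?_⟩
  · rw [eq_top_iff]
    intro u _
    obtain ⟨p, rfl⟩ := hK u
    exact IntermediateField.algebra_adjoin_le_adjoin _ _ (Polynomial.aeval_mem_adjoin_singleton _ _)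
  · have e : Subgroup.closure (Cfsg.scalarFamily σ ∪ Cfsg.scalarFamily τ) = φ.range := by
      apply le_antisymm
      · refine (Subgroup.closure_le _).2 ?_
        rintro g (hg | hg)
        · obtain ⟨c, rfl⟩ := (hfam hs).1 hg
          exact ⟨_, hx c⟩
        · obtain ⟨c, rfl⟩ := (hfam ht).1 hg
          exact ⟨_, hy c⟩
      · have := H89.gen_top (H := (Subgroup.closure (Cfsg.scalarFamily σ ∪ Cfsg.scalarFamily τ)).comap φ)
          hk.two hk.three halg (fun e => hfX (AdjoinRoot.mk_eq_zero.1 e)) hK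
          (fun c => by
            rw [Subgroup.mem_comap, hx]
            exact Subgroup.subset_closure (Or.inl ((hfam hs).2 ⟨c, rfl⟩)))
          (fun c => by
            rw [Subgroup.mem_comap, hy]
            exact Subgroup.subset_closure (Or.inr ((hfam ht).2 ⟨c, rfl⟩)))
        rintro _ ⟨m, rfl⟩
        exact Subgroup.mem_comap.1 (this ▸ Subgroup.mem_top m)
    exact ⟨(MulEquiv.subgroupCongr e).trans (MonoidHom.ofInjective hφ).symm⟩

end Cfsg.Agent.S5064
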