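import Cfsg.Statements.S5065
import Mathlib
import Cfsg.Agent.Base
import Cfsg.Agent.Lib.Root.Quad3

set_option autoImplicit false
universe u
open Cfsg

namespace Cfsg.Agent.S5065

/-- Let k be a field of characteristic not 2 with k not of order 3, M a finite-dimensional k-vector space and G ≤ GL(M) such that (G, M) is a quadratic pair (M irreducible for G, and G generated by its quadratically acting elements σ whose scalar family 1 + c(σ − 1), c ∈ k, lies in G). Write 𝒬_d for the quadratic elements of G of minimal commutator rank, E(σ) for the subgroup generated by the members of 𝒬_d with the same fixed space and commutator space as σ, and Σ for the set of these subgroups. For σ, τ ∈ 𝒬_d put A = E(σ), B = E(τ) and X = ⟨A, B⟩. Then either X acts unipotently on M, or A and B are the unipotent subgroups of a special rank one group X; in the latter case X contains exactly one central involution acting as −1 on the commutator space [M, X] and trivially on the fixed space C_M(X), and M is the direct sum of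 C_M(X) and [M, X]. -/
theorem result {k : Type u} [Field k] (hk2 : ringChar k ≠ 2) (hk3 : Nat.card k ≠ 3)
    {M : Type u} [AddCommGroup M] [Module k M] [FiniteDimensional k M]
    {G : Subgroup (LinearMap.GeneralLinearGroup k M)} (hG : Cfsg.IsQuadraticPair G)
    {σ τ : LinearMap.GeneralLinearGroup k M} (hσ : σ ∈ Cfsg.minimalQuadraticElements G) (hτ : τ ∈ Cfsg.minimalQuadraticElements G) :
    Cfsg.IsUnipotentOn (Cfsg.sameActionSubgroup G σ ⊔ Cfsg.sameActionSubgroup G τ) ∨
    (Cfsg.IsSpecialRankOnePair (Cfsg.sameActionSubgroup G σ) (Cfsg.sameActionSubgroup G τ) ∧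
      (∃! i : LinearMap.GeneralLinearGroup k M, i ∈ Cfsg.sameActionSubgroup G σ ⊔ Cfsg.sameActionSubgroup G τ ∧ i ≠ 1 ∧ i * i = 1 ∧
        (∀ x ∈ Cfsg.sameActionSubgroup G σ ⊔ Cfsg.sameActionSubgroup G τ, i * x = x * i) ∧
        (∀ m ∈ Cfsg.commutatorSubmodule (Cfsg.sameActionSubgroup G σ ⊔ Cfsg.sameActionSubgroup G τ), (i : M →ₗ[k] M) m = -m) ∧
        (∀ m ∈ Cfsg.fixedSubmodule (Cfsg.sameActionSubgroup G σ ⊔ Cfsg.sameActionSubgroup G τ), (i : M →ₗ[k] M) m = m)) ∧
      IsCompl (Cfsg.fixedSubmodule (Cfsg.sameActionSubgroup G σ ⊔ Cfsg.sameActionSubgroup G τ))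
        (Cfsg.commutatorSubmodule (Cfsg.sameActionSubgroup G σ ⊔ Cfsg.sameActionSubgroup G τ))) := by
  have hk := H89.fk_of hk2 hk3
  have hs := H89.mem_minimal.1 hσ
  have ht := H89.mem_minimal.1 hτ
  rw [H89.sameAction_eq hs, H89.sameAction_eq ht]
  generalize H89.dv σ = s at hs
  generalize H89.dv τ = t at ht
  by_cases hn : s * t * s = 0
  · exact Or.inl (hs.unip hk ht hn)
  right
  refine ⟨hs.sp hk ht hn, ?_⟩
  obtain ⟨t', h1, h2, h3⟩ := hs.norm hk ht hn
  rw [← ht.Rt_eq h1 h2, h3.fixed hs.1 h1.1, h3.commutator hs.1 h1.1]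
  have hee : (s * t' + t' * s) * (s * t' + t' * s) = s * t' + t' * s := by
    simp only [H89.ncr, h3.rules]; abel
  have hi := h3.invol
  have hmem : H89.ex s * (H89.ex t')⁻¹ * H89.ex s ∈ H89.Rt G s ⊔ H89.Rt G t' :=
    mul_mem (H89.mul_mem_sup' (H89.ex_mem_Rt hs.1.mem_VV) (inv_mem (H89.ex_mem_Rt h1.1.mem_VV)))
      (H89.mem_sup_l (H89.ex_mem_Rt hs.1.mem_VV))
  have hes : (s * t' + t' * s) * s = s := h3.e_left hs.1.mem_VV
  have hC := h3.le_Crn (G := G)
  generalize s * t' + t' * s = e at hee hi hes hC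
  generalize H89.ex s * (H89.ex t')⁻¹ * H89.ex s = n at hi hmem
  have hcompl : IsCompl (LinearMap.ker e) (LinearMap.range e) :=
    (LinearMap.IsIdempotentElem.isCompl hee).symm
  refine ⟨⟨n * n, ⟨mul_mem hmem hmem, ?_, ?_, ?_, ?_, ?_⟩, ?_⟩, hcompl⟩
  · intro h
    rw [h, Units.val_one] at hi
    have := congrArg (· * s) hi
    simp only [H89.ncr, hes] at this
    apply hs.ne
    have h4 : (2 : k) • s = 0 := by rw [two_smul]; linear_combination (norm := abel) this
    exact (smul_eq_zero.1 h4).resolve_left hk.two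
  · apply Units.ext
    rw [Units.val_mul, hi]
    simp only [H89.ncr, hee, Units.val_one]; abel
  · intro x hx
    apply Units.ext
    rw [Units.val_mul, Units.val_mul x, hi, H89.val_eq_dv x]
    simp only [H89.ncr, (hC hx).1, (hC hx).2]; abel
  · rintro _ ⟨v, rfl⟩
    rw [hi, LinearMap.sub_apply, LinearMap.sub_apply, ← Module.End.mul_apply e e, hee]
    simp
  · intro v hv
    rw [hi, LinearMap.sub_apply, LinearMap.sub_apply, LinearMap.mem_ker.1 hv]
    simp
  · rintro j ⟨-, -, -, -, j1, j2⟩
    apply Units.ext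
    rw [hi]
    refine LinearMap.ext fun v => ?_
    have e1 := j1 (e v) ⟨v, rfl⟩
    have e2 := j2 (v - e v) (by rw [LinearMap.mem_ker, map_sub, ← Module.End.mul_apply e e, hee, sub_self])
    rw [map_sub, e1] at e2
    rw [LinearMap.sub_apply, LinearMap.sub_apply, Module.End.one_apply]
    linear_combination (norm := abel) e2

end Cfsg.Agent.S5065
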