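import Cfsg.Statements.S5067
import Mathlib
import Cfsg.Agent.Base
import Cfsg.Agent.Base

set_option autoImplicit false
open Cfsg

namespace Cfsg.Agent.S5067

open scoped commutatorElement in
theorem aux {P : Type*} [Group P] [Group.IsNilpotent P] (hna : ¬ IsMulCommutative P) {E : Subgroup P}
    (hE : IsMulCommutative ↥E) :
    Group.nilpotencyClass ↥(Subgroup.normalClosure (E : Set P)) < Group.nilpotencyClass P := by
  set N := Subgroup.normalClosure (E : Set P) with hN
  have hc : 2 ≤ Group.nilpotencyClass P := by
    by_contra h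
    exact hna (Group.IsNilpotent.nilpotencyClass_le_one_iff.1 (by omega))
  have hnorm : (E ⊔ commutator P).Normal := by
    refine ⟨fun x hx g => ?_⟩
    have : g * x * g⁻¹ = ⁅g, x⁆ * x := by simp [commutatorElement_def]
    rw [this]
    exact mul_mem (Subgroup.mem_sup_right
      (Subgroup.commutator_mem_commutator (Subgroup.mem_top g) (Subgroup.mem_top x))) hx
  have hle : N ≤ E ⊔ commutator P := Subgroup.normalClosure_le_normal (fun x hx => Subgroup.mem_sup_left hx)
  have h1 : N.lowerCentralSeries 1 ≤ (⊤ : Subgroup P).lowerCentralSeries 2 := by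
    rw [Subgroup.lowerCentralSeries_succ, Subgroup.lowerCentralSeries_zero, Subgroup.commutator_le]
    intro x hx y hy
    set K := (⊤ : Subgroup P).lowerCentralSeries 2 with hK
    have hz : ∀ u ∈ commutator P, ∀ g : P, (u : P ⧸ K) * (g : P ⧸ K) = g * u := by
      intro u hu g
      have : ⁅u, g⁆ ∈ K := Subgroup.commutator_mem_commutator hu (Subgroup.mem_top g)
      have h2 := (QuotientGroup.eq_one_iff _).2 this
      rw [commutatorElement_def, QuotientGroup.mk_mul, QuotientGroup.mk_mul, QuotientGroup.mk_mul,
        QuotientGroup.mk_inv, QuotientGroup.mk_inv] at h2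
      exact commutatorElement_eq_one_iff_mul_comm.1 h2
    obtain ⟨e, he, u, hu, rfl⟩ := Subgroup.mem_sup_of_normal_right.1 (hle hx)
    obtain ⟨f, hf, v, hv, rfl⟩ := Subgroup.mem_sup_of_normal_right.1 (hle hy)
    have hef : e * f = f * e := congrArg Subtype.val (hE.is_comm.comm (⟨e, he⟩ : E) ⟨f, hf⟩)
    rw [← QuotientGroup.eq_one_iff]
    change QuotientGroup.mk' K ⁅e * u, f * v⁆ = 1
    rw [map_commutatorElement, commutatorElement_eq_one_iff_mul_comm]
    have c1 : Commute (e : P ⧸ K) (f : P ⧸ K) := by
      change (e : P ⧸ K) * f = f * e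
      rw [← QuotientGroup.mk_mul, hef, QuotientGroup.mk_mul]
    have c2 : Commute (u : P ⧸ K) (f : P ⧸ K) := hz u hu f
    have c3 : Commute (u : P ⧸ K) (v : P ⧸ K) := hz u hu v
    have c4 : Commute (e : P ⧸ K) (v : P ⧸ K) := (hz v hv e).symm
    exact ((c1.mul_right c4).mul_left (c2.mul_right c3)).eq
  have h2 : ∀ j, N.lowerCentralSeries (j + 1) ≤ (⊤ : Subgroup P).lowerCentralSeries (j + 2) := by
    intro j
    induction j with
    | zero => exact h1
    | succ j ih => exact Subgroup.commutator_mono ih le_top
  obtain ⟨j, hj⟩ : ∃ j, Group.nilpotencyClass P = j + 2 := ⟨_, (Nat.sub_add_cancel hc).symm⟩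
  have h3 : N.lowerCentralSeries (j + 1) = ⊥ := by
    have := h2 j
    rw [← hj, Subgroup.lowerCentralSeries_nilpotencyClass] at this
    exact le_bot_iff.1 this
  have h4 : (⊤ : Subgroup N).lowerCentralSeries (j + 1) = ⊥ := by
    rw [← Subgroup.top_subtype_lowerCentralSeries] at h3
    exact (Subgroup.map_eq_bot_iff_of_injective _ N.subtype_injective).1 h3
  have := Subgroup.lowerCentralSeries_eq_bot_iff_nilpotencyClass_le.1 h4
  omega

/-- Let P be a non-abelian nilpotent p-group (every element of p-power order; P possibly infinite) generated by two abelian subgroups E and F. Then the normal closure of E in P, and likewise that of F, has nilpotency class strictly smaller than that of P. -/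
theorem result {P : Type*} [Group P] {p : ℕ} [Fact p.Prime] (hP : IsPGroup p P) [Group.IsNilpotent P]
    (hna : ¬ IsMulCommutative P) {E F : Subgroup P} (hE : IsMulCommutative ↥E) (hF : IsMulCommutative ↥F) (hgen : E ⊔ F = ⊤) :
    Group.nilpotencyClass ↥(Subgroup.normalClosure (E : Set P)) < Group.nilpotencyClass P ∧
    Group.nilpotencyClass ↥(Subgroup.normalClosure (F : Set P)) < Group.nilpotencyClass P := by
  exact ⟨aux hna hE, aux hna hF⟩

end Cfsg.Agent.S5067
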