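import Cfsg.Statements.S5069
import Mathlib
import Cfsg.Agent.Base
import Cfsg.Agent.Lib.Root.Quad5

set_option autoImplicit false
universe u
open Cfsg

namespace Cfsg.Agent.S5069

/-- Let k be a field of characteristic not 2 with k not of order 3, M a finite-dimensional k-vector space and G ≤ GL(M) such that (G, M) is a quadratic pair (M irreducible for G, and G generated by its quadratically acting elements σ whose scalar family 1 + c(σ − 1), c ∈ k, lies in G). Write 𝒬_d for the quadratic elements of G of minimal commutator rank, E(σ) for the subgroup generated by the members of 𝒬_d with the same fixed space and commutator space as σ, and Σ for the set of these subgroups. Then Σ is a disjoint union of finitely many parts Σ₁, …, Σ_r such that the subgroups G_i generated by the Σ_i commute pairwise, each G_i is quasisimple, and inside G_i the members of Σ_i form a class of abstract root subgroups in which every rank one pair A, B contains subgroups A₀ ≤ A, B₀ ≤ B generating an image of SL₂(k₁) with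 central kernel on unitriangular subgroups for some field k₁ with at least four elements. -/
theorem result {k : Type u} [Field k] (hk2 : ringChar k ≠ 2) (hk3 : Nat.card k ≠ 3)
    {M : Type u} [AddCommGroup M] [Module k M] [FiniteDimensional k M]
    {G : Subgroup (LinearMap.GeneralLinearGroup k M)} (hG : Cfsg.IsQuadraticPair G) :
    ∃ (r : ℕ) (part : Fin r → Set (Subgroup (LinearMap.GeneralLinearGroup k M))),
      (⋃ i, part i) = Cfsg.quadraticRootSubgroups G ∧ (∀ i j, i ≠ j → Disjoint (part i) (part j)) ∧ (∀ i, (part i).Nonempty) ∧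
      (∀ i j, i ≠ j → ⁅(⨆ A ∈ part i, A), (⨆ A ∈ part j, A)⁆ = ⊥) ∧
      (∀ i, Cfsg.IsQuasisimple ↥(⨆ A ∈ part i, A) ∧
        Cfsg.IsRootSubgroupClass ((fun A : Subgroup (LinearMap.GeneralLinearGroup k M) => A.subgroupOf (⨆ B ∈ part i, B)) '' (part i)) ∧
        ∀ A ∈ part i, ∀ B ∈ Cfsg.rankOnePartners (part i) A, ∃ A₀ B₀ : Subgroup (LinearMap.GeneralLinearGroup k M), A₀ ≤ A ∧ B₀ ≤ B ∧
          ∃ (k₁ : Type u) (_ : Field k₁), 3 < ENat.card k₁ ∧ Cfsg.IsPSL2PairOver k₁ A₀ B₀) := by
  have hk := H89.fk_of hk2 hk3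
  have hN := H89.nu_of_irreducible hG.1
  have hS := hN.rsk hk
  have hfin := hN.comp_finite hk
  haveI := hfin.to_subtype
  obtain ⟨r, ⟨e⟩⟩ := Finite.exists_equiv_fin
    (H89.Comp (Cfsg.quadraticRootSubgroups G) '' Cfsg.quadraticRootSubgroups G)
  have hrep : ∀ i, ∃ A ∈ Cfsg.quadraticRootSubgroups G,
      (e.symm i).1 = H89.Comp (Cfsg.quadraticRootSubgroups G) A := fun i => by
    obtain ⟨A, hA, h⟩ := (e.symm i).2
    exact ⟨A, hA, h.symm⟩
  choose f hf hf' using hrep
  have hne : ∀ i j, i ≠ j → H89.Comp (Cfsg.quadraticRootSubgroups G) (f i) ≠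
      H89.Comp (Cfsg.quadraticRootSubgroups G) (f j) := fun i j hij h =>
    hij (e.symm.injective (Subtype.ext (by rw [hf', hf', h])))
  refine ⟨r, fun i => H89.Comp (Cfsg.quadraticRootSubgroups G) (f i), ?_, ?_, ?_, ?_, ?_⟩
  · apply le_antisymm
    · exact Set.iUnion_subset fun i => H89.Comp_subset (hf i)
    · intro A hA
      refine Set.mem_iUnion.2 ⟨e ⟨_, A, hA, rfl⟩, ?_⟩
      rw [← hf', Equiv.symm_apply_apply]
      exact Relation.ReflTransGen.refl
  · intro i j hij
    rw [Set.disjoint_left]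
    intro A h1 h2
    exact hne i j hij ((H89.Comp_eq h1).trans (H89.Comp_eq h2).symm)
  · intro i
    exact ⟨f i, Relation.ReflTransGen.refl⟩
  · intro i j hij
    exact H89.cm_iff.2 (H89.cm_iSup (hN.comp_cm hk (hf i) (hf j) (hne i j hij)))
  · intro i
    refine ⟨hN.comp_quasisimple hk (hf i), hS.comp_class (hN.ni hk) (hf i), ?_⟩
    rintro A hA B ⟨hB, h⟩
    obtain ⟨s, hs, rfl⟩ := H89.mem_roots.1 (H89.Comp_subset (hf i) hA)
    obtain ⟨t, ht, rfl⟩ := H89.mem_roots.1 (H89.Comp_subset (hf i) hB)
    obtain ⟨A₀, B₀, h1, h2, h3⟩ := hs.psl2 hk ht (hs.opp_of_ro hk ht h)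
    exact ⟨A₀, B₀, h1, h2, k, inferInstance, H89.three_lt_card hk.two hk.three, h3⟩

end Cfsg.Agent.S5069
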