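import Cfsg.Statements.S5073
import Mathlib
import Cfsg.Agent.Base
import Cfsg.Agent.Lib.Root.Quad4

set_option autoImplicit false
universe u
open Cfsg

namespace Cfsg.Agent.S5073

/-- Let k be a field of characteristic not 2 with k not of order 3, M a finite-dimensional k-vector space and G ≤ GL(M) such that (G, M) is a quadratic pair (M irreducible for G, and G generated by its quadratically acting elements σ whose scalar family 1 + c(σ − 1), c ∈ k, lies in G). Write 𝒬_d for the quadratic elements of G of minimal commutator rank, E(σ) for the subgroup generated by the members of 𝒬_d with the same fixed space and commutator space as σ, and Σ for the set of these subgroups. Let E, F ∈ Σ. If some non-identity element of E commutes with some non-identity element of F, or some non-identity element of E normalizes F, then E and F commute elementwise. -/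
theorem result {k : Type u} [Field k] (hk2 : ringChar k ≠ 2) (hk3 : Nat.card k ≠ 3)
    {M : Type u} [AddCommGroup M] [Module k M] [FiniteDimensional k M]
    {G : Subgroup (LinearMap.GeneralLinearGroup k M)} (hG : Cfsg.IsQuadraticPair G)
    {E F : Subgroup (LinearMap.GeneralLinearGroup k M)} (hE : E ∈ Cfsg.quadraticRootSubgroups G) (hF : F ∈ Cfsg.quadraticRootSubgroups G)
    (h : (∃ e ∈ E, e ≠ 1 ∧ ∃ f ∈ F, f ≠ 1 ∧ e * f = f * e) ∨ E ⊓ Subgroup.normalizer (F : Set (LinearMap.GeneralLinearGroup k M)) ≠ ⊥) :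
    ⁅E, F⁆ = ⊥ := by
  have hk := H89.fk_of hk2 hk3
  obtain ⟨s, hs, rfl⟩ := H89.mem_roots.1 hE
  obtain ⟨t, ht, rfl⟩ := H89.mem_roots.1 hF
  apply H89.cm_iff.2
  rcases h with ⟨e, he, he1, f, hf, hf1, h⟩ | h
  · have e0 : H89.dv e ≠ 0 := fun h => he1 (H89.dv_eq_zero.1 h)
    have f0 : H89.dv f ≠ 0 := fun h => hf1 (H89.dv_eq_zero.1 h)
    rw [← hs.Rt_eq he e0, ← ht.Rt_eq hf f0]
    exact (hs.of_VV he e0).cm_of_comm hk (ht.of_VV hf f0) (H89.comm_iff_dv.1 h)
  · obtain ⟨e, ⟨he, hn⟩, he1⟩ := H89.exists_ne_one h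
    have hn' := H89.cj_eq_self_iff.2 hn
    by_cases h1 : s * t * s = 0
    · obtain ⟨s', hs', rfl⟩ := H89.exists_of_mem_Rt he
      have e0 : s' ≠ 0 := fun h => he1 (h ▸ H89.ex_zero)
      have q := hs.of_VV hs' e0
      rw [← hs.Rt_eq hs' e0]
      rw [H89.cj_Rt _ hs'.1.mem] at hn'
      exact q.cm_of_comm hk ht (q.norm_comm hk ht (hs.nil_change hk ht h1 hs' hs' ht.1.mem_VV)
        (H89.VV_eq_of_Rt_eq hn') ht.1.mem_VV)
    · exact absurd ((hs.ro hk ht h1).eq_one_left he hn') he1

end Cfsg.Agent.S5073
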