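import Cfsg.Statements.S5087
import Cfsg.Agent.Lib.Fusion.NormalSub

set_option autoImplicit false
open Cfsg

namespace Cfsg.Agent.S5087

/-- In a saturated fusion system over a finite p-group S, a subgroup Q is normal in the system if and only if every subgroup P that equals S or is essential contains Q and every element of Aut_F(P) maps Q onto itself. -/
theorem result {Ω : Type*} [Group Ω] {S : Subgroup Ω} [Finite S] (p : ℕ) [Fact p.Prime] (hS : IsPGroup p S) (F : Cfsg.FusionSystem S) (hF : F.IsSaturated p) (Q : Subgroup Ω) : F.IsNormal Q ↔ ∀ P : Subgroup Ω, (P = S ∨ F.IsEssential p P) → (Q ≤ P ∧ ∀ α ∈ F.autGroup P, (Q.subgroupOf P).map α.toMonoidHom = Q.subgroupOf P) := by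
  rw [H90.isNormal_iff_essential hS hF]
  refine forall₂_congr fun P hP => and_congr_right fun hQP => ?_
  have hPS := (H90.centric_radical_of_essential hS hF hP).1.1
  have := H90.finite_of_le hPS
  refine ⟨fun h α hα => ?_, fun h σ hσ x hx => ?_⟩
  · refine Subgroup.eq_of_le_of_card_ge ?_ (Subgroup.card_map_of_injective α.injective).ge
    rintro _ ⟨x, hx, rfl⟩
    have := h _ (H90.iso_extA hPS hα) x hx
    rwa [H90.extA_coe] at this
  · obtain ⟨α, hα, e⟩ := hσ.exists_aut
    have : α ⟨x, hQP hx⟩ ∈ Q.subgroupOf P := h α hα ▸ ⟨⟨x, hQP hx⟩, hx, rfl⟩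
    rwa [← e x (hQP hx), H90.extA_of_mem _ (hQP hx)]

end Cfsg.Agent.S5087
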