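import Cfsg.Statements.S5088
import Cfsg.Agent.Lib.Fusion.NormalSub

set_option autoImplicit false
open Cfsg

namespace Cfsg.Agent.S5088

/-- In a saturated fusion system over a finite p-group, a subgroup Q is normal in the system if and only if there is a chain of subgroups 1 = Q₀ ≤ Q₁ ≤ ⋯ ≤ Qₙ = Q such that each Qᵢ with i ≥ 1 is strongly closed in the system and [Q, Qᵢ] ≤ Qᵢ₋₁. -/
theorem result {Ω : Type*} [Group Ω] {S : Subgroup Ω} [Finite S] (p : ℕ) [Fact p.Prime] (hS : IsPGroup p S) (F : Cfsg.FusionSystem S) (hF : F.IsSaturated p) (Q : Subgroup Ω) : F.IsNormal Q ↔ ∃ (n : ℕ) (Qs : Fin (n + 1) → Subgroup Ω), Qs 0 = ⊥ ∧ Qs (Fin.last n) = Q ∧ Monotone Qs ∧ ∀ i : Fin n, F.StronglyClosed (Qs i.succ) ∧ ⁅Q, Qs i.succ⁆ ≤ Qs (Fin.castSucc i) := by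
  constructor
  · intro h
    have := H90.finite_of_le h.1
    obtain ⟨n, C, h0, hn, hm, hc, hch⟩ := H90.exists_char_central_series (hS.to_le h.1)
    exact ⟨n, C, h0, hn, hm, fun i => ⟨H91.IsNormal.stronglyClosed'
      (H90.isNormal_of_characteristic h (hch _).1 (hch _).2),
      (Subgroup.commutator_comm _ _).trans_le (hc i)⟩⟩
  · rintro ⟨n, C, h0, hn, hm, h⟩
    have hsc : ∀ i, F.StronglyClosed (C i) := fun i => by
      induction i using Fin.cases with
      | zero => exact h0 ▸ H90.stronglyClosed_bot F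
      | succ i => exact (h i).1
    exact H90.isNormal_of_central_series hS hF (hn ▸ hsc _) h0 hn hm
      (fun i => (Subgroup.commutator_comm _ _).trans_le (h i).2)
      fun i => H90.weaklyClosed_of_stronglyClosed (hsc _)

end Cfsg.Agent.S5088
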