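import Mathlib
import Cfsg.Statements.S5094
import Cfsg.Agent.Lib.ZStar.WClosed

set_option autoImplicit false
open Cfsg

namespace Cfsg.Agent.S5094

/-- Glauberman's Z*-Theorem in fusion language: for a finite group G with Sylow 2-subgroup S, the centre of the fusion system of G on S is the set of elements of S whose image in G/O(G) is central, O(G) being the largest normal subgroup of odd order. -/
theorem result {G : Type*} [Group G] [Finite G] (S : Sylow 2 G) : (Cfsg.groupFusionSystem (S : Subgroup G)).center = (S : Subgroup G) ⊓ (Subgroup.center (G ⧸ Cfsg.oddCore G)).comap (QuotientGroup.mk' (Cfsg.oddCore G)) := by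
  set Q := (S : Subgroup G) ⊓ (Subgroup.center (G ⧸ Cfsg.oddCore G)).comap
    (QuotientGroup.mk' (Cfsg.oddCore G)) with hQ
  have hmem : ∀ x : G, x ∈ (Subgroup.center (G ⧸ Cfsg.oddCore G)).comap
      (QuotientGroup.mk' (Cfsg.oddCore G)) ↔ ∀ g : G, x * g * x⁻¹ * g⁻¹ ∈ oddCore G := fun x => by
    rw [Subgroup.mem_comap, Subgroup.mem_center_iff, QuotientGroup.mk_surjective.forall]
    refine forall_congr' fun g => ?_
    rw [← QuotientGroup.eq_one_iff, QuotientGroup.mk_mul, QuotientGroup.mk_mul,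
      QuotientGroup.mk_mul, QuotientGroup.mk_inv, QuotientGroup.mk_inv, mul_inv_eq_one,
      mul_inv_eq_iff_eq_mul, eq_comm]
    rfl
  refine le_antisymm (sSup_le fun R hR x hx => ⟨hR.1 hx, (hmem x).2 ?_⟩) (le_sSup ⟨inf_le_left, ?_⟩)
  · refine H34.zstar_sylow S (hR.1 hx) fun g hg => ?_
    let φ : Subgroup.zpowers x →* G := (MulAut.conj g).toMonoidHom.comp (Subgroup.zpowers x).subtype
    obtain ⟨ψ, -, h1, h2⟩ := hR.2 (Subgroup.zpowers x) φ
      ⟨Subgroup.zpowers_le.2 (hR.1 hx), by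
        rintro ⟨_, n, rfl⟩
        change g * x ^ n * g⁻¹ ∈ _
        rw [← conj_zpow]
        exact (S : Subgroup G).zpow_mem hg n, g, fun _ => rfl⟩
    exact (h1 ⟨x, Subgroup.mem_zpowers x⟩).symm.trans (h2 ⟨x, hx⟩)
  · rintro P φ ⟨hP, hφ, g, hg⟩
    have hO : ¬ 2 ∣ Nat.card (oddCore G) := H1.not_dvd_card_pPrimeCore
    have hQp : IsPGroup 2 Q := S.isPGroup'.to_le inf_le_left
    have hc : ∀ q ∈ Q, ∀ s ∈ (S : Subgroup G), s * q = q * s := fun q hq s hs => by
      have h3 : q * s * q⁻¹ * s⁻¹ ∈ oddCore G ⊓ S := Subgroup.mem_inf.2 ⟨(hmem q).1 hq.2 s,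
        mul_mem (mul_mem (mul_mem hq.1 hs) (inv_mem hq.1)) (inv_mem hs)⟩
      rw [H4.inf_eq_bot_of_not_dvd_card hO S.isPGroup', Subgroup.mem_bot, mul_inv_eq_one,
        mul_inv_eq_iff_eq_mul] at h3
      exact h3.symm
    obtain ⟨k, ⟨hk, -⟩, h1⟩ := H34.exists_mul_mem_centralizer hO hQp
      (fun q hq => (hmem q).1 hq.2) (K := Subgroup.centralizer (P : Set G))
      (fun q hq => Subgroup.mem_centralizer_iff.2 fun y hy => hc q hq y (hP hy)) (g := g⁻¹)
      fun q hq => Subgroup.mem_centralizer_iff.2 fun y hy => by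
        have h2 := hc q hq _ (hφ ⟨y, hy⟩)
        rw [hg] at h2
        calc y * (g⁻¹ * q * g⁻¹⁻¹) = g⁻¹ * (g * y * g⁻¹ * q) * g := by group
          _ = _ := by rw [h2]; group
    have h2 : ∀ y ∈ P, g * k⁻¹ * y * (g * k⁻¹)⁻¹ = g * y * g⁻¹ := fun y hy => by
      have := Subgroup.mem_centralizer_iff.1 (inv_mem hk) y hy
      rw [mul_assoc g, ← this]
      group
    have h3 : ∀ q ∈ Q, g * k⁻¹ * q * (g * k⁻¹)⁻¹ = q := fun q hq => by
      have := Subgroup.mem_centralizer_iff.1 (inv_mem h1) q hq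
      rw [mul_inv_rev, inv_inv] at this
      rw [← this, mul_inv_cancel_right]
    refine ⟨(MulAut.conj (g * k⁻¹)).toMonoidHom.comp (P ⊔ Q).subtype,
      ⟨sup_le hP inf_le_left, ?_, g * k⁻¹, fun _ => rfl⟩, fun x => (h2 x x.2).trans (hg x).symm,
      fun x => h3 x x.2⟩
    have h4 : P ⊔ Q ≤ (S : Subgroup G).comap (MulAut.conj (g * k⁻¹)).toMonoidHom := by
      refine sup_le (fun y hy => ?_) fun q hq => ?_
      · change g * k⁻¹ * y * (g * k⁻¹)⁻¹ ∈ (S : Subgroup G)
        rw [h2 y hy, ← hg ⟨y, hy⟩]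
        exact hφ _
      · change g * k⁻¹ * q * (g * k⁻¹)⁻¹ ∈ (S : Subgroup G)
        rw [h3 q hq]
        exact hq.1
    exact fun x => h4 x.2

end Cfsg.Agent.S5094
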