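import Cfsg.Statements.S5106
import Cfsg.Agent.Lib.Fusion.NormalSub

set_option autoImplicit false
open Cfsg

namespace Cfsg.Agent.S5106

/-- In a saturated fusion system over a finite p-group S, a subgroup R ≤ S is normal in the system if and only if every map of the system whose source is a subgroup of R is the restriction of an element of Aut_F(R). -/
theorem result {Ω : Type*} [Group Ω] {S : Subgroup Ω} [Finite S] (p : ℕ) [Fact p.Prime] (hS : IsPGroup p S) (F : Cfsg.FusionSystem S) (hF : F.IsSaturated p) (R : Subgroup Ω) (hRS : R ≤ S) : F.IsNormal R ↔ ∀ (P : Subgroup Ω) (hPR : P ≤ R) (φ : P →* Ω), φ ∈ F.Hom P → ∃ α ∈ F.autGroup R, ∀ x : P, ((α (Subgroup.inclusion hPR x) : R) : Ω) = φ x := by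
  constructor
  · intro h P hPR φ hφ
    obtain ⟨σ, hσ, e⟩ := (H90.map_fn hφ).exists_perm
    obtain ⟨τ, hτ, e'⟩ := H91.IsNormal.exists_aut h hPR hσ
    obtain ⟨α, hα, e''⟩ := hτ.exists_aut
    refine ⟨α, hα, fun x => ?_⟩
    rw [← H90.fn_coe φ, ← e x x.2, e' x x.2, ← e'' x (hPR x.2), H90.extA_of_mem _ (hPR x.2)]
    rfl
  · intro h
    refine H90.isNormal_of_exists_aut hS hF hRS fun P φ hP hφ => ?_
    obtain ⟨α, hα, e⟩ := h P hP _ hφ.homOf_mem
    refine ⟨_, H90.iso_extA hRS hα, fun x hx => ?_⟩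
    rw [H90.extA_of_mem _ (hP hx)]
    exact (e ⟨x, hx⟩).symm

end Cfsg.Agent.S5106
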