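import Cfsg.Statements.S5107
import Mathlib
import Cfsg.Agent.Base
import Cfsg.Agent.Lib.Fusion.NormalSub
import Cfsg.Agent.Lib.Fusion.Group
import Cfsg.Agent.Lib.Fusion.Gen

set_option autoImplicit false
open Cfsg

namespace Cfsg.Agent.S5107

/-- If a Sylow p-subgroup S of a finite group G has nilpotency class at most two and its centre is strongly closed in S with respect to G, then every map of the fusion system of G on S is conjugation by an element of N_G(S), and S is the largest subgroup normal in that fusion system. -/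
theorem result {G : Type*} [Group G] [Finite G] (p : ℕ) [Fact p.Prime] (S : Sylow p G) (hcl : ⁅(S : Subgroup G), (S : Subgroup G)⁆ ≤ (S : Subgroup G) ⊓ Subgroup.centralizer ((S : Subgroup G) : Set G)) (hZ : Cfsg.IsStronglyClosed ((S : Subgroup G) ⊓ Subgroup.centralizer ((S : Subgroup G) : Set G)) (S : Subgroup G)) : (∀ (P : Subgroup G) (φ : P →* G), φ ∈ (Cfsg.groupFusionSystem (S : Subgroup G)).Hom P → ∃ g ∈ Subgroup.normalizer ((S : Subgroup G) : Set G), ∀ x : P, φ x = g * (x : G) * g⁻¹) ∧ (Cfsg.groupFusionSystem (S : Subgroup G)).core = S := by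
  have hF := H93.isSaturated_groupFusionSystem S
  have hZ' : (groupFusionSystem (S : Subgroup G)).StronglyClosed ((S : Subgroup G) ⊓ Subgroup.centralizer ((S : Subgroup G) : Set G)) :=
    H90.stronglyClosed_iff_map.2 ⟨hZ.1, fun P f hf x hx hxZ => by
      obtain ⟨-, hm, g, e⟩ := H90.map_group.1 hf
      have := hm x hx
      rw [e x hx] at this ⊢
      exact hZ.2 x hxZ g this⟩
  have hN : (groupFusionSystem (S : Subgroup G)).IsNormal S := by
    refine H90.isNormal_of_central_series S.isPGroup' hF (H90.stronglyClosed_top _) (n := 2)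
      (C := ![⊥, (S : Subgroup G) ⊓ Subgroup.centralizer ((S : Subgroup G) : Set G), S]) rfl rfl
      (Fin.monotone_iff_le_succ.2 fun i => ?_) (fun i => ?_) fun i => ?_
    · fin_cases i
      · exact bot_le
      · exact inf_le_left
    · fin_cases i
      · exact (Subgroup.commutator_eq_bot_iff_le_centralizer.2 inf_le_right).le
      · exact hcl
    · fin_cases i
      · exact H90.weaklyClosed_of_stronglyClosed (H90.stronglyClosed_bot _)
      · exact H90.weaklyClosed_of_stronglyClosed hZ'
  refine ⟨fun P φ hφ => ?_, le_antisymm (H91.core_le' _) (H91.IsNormal.le_core' hN)⟩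
  obtain ⟨σ, hσ, e⟩ := H93.isNormal_top_iff.1 hN P _ (H90.map_fn hφ)
  obtain ⟨-, hm, g, eg⟩ := H90.map_group.1 hσ.1
  refine ⟨g, H90.mem_normalizer_of_conj_mem fun x hx => eg x hx ▸ hm x hx, fun x => ?_⟩
  rw [← eg x (hφ.1 x.2), e x x.2, H90.fn_coe]

end Cfsg.Agent.S5107
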