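import Mathlib
import Cfsg.Statements.S5112
import Cfsg.Agent.Lib.Fusion.Alperin
import Cfsg.Agent.Lib.FrobC.Perfect
import Cfsg.Agent.S3116
-- import your own Cfsg.Agent.* helpers here

set_option autoImplicit false
open Cfsg

namespace Cfsg.Agent.S5112

/-- If S is a dihedral or generalized quaternion 2-group of order at least 16, then in every saturated fusion system over S (at the prime 2) the automorphism group Aut_F(S) consists of the inner automorphisms of S. -/
theorem result {Ω : Type*} [Group Ω] {S : Subgroup Ω} [Finite S] (n : ℕ) (hn : 4 ≤ n) (hshape : Nonempty (S ≃* DihedralGroup (2 ^ (n - 1))) ∨ Nonempty (S ≃* QuaternionGroup (2 ^ (n - 2)))) (F : Cfsg.FusionSystem S) (hF : F.IsSaturated 2) : F.autGroup S = Cfsg.Inn S := by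
  obtain ⟨m, rfl⟩ := Nat.exists_eq_add_of_le' hn
  have hS : IsPGroup 2 S := IsPGroup.of_card (n := m + 4) (by
    rcases hshape with ⟨⟨e⟩⟩ | ⟨⟨e⟩⟩
    · rw [Nat.card_congr e.toEquiv, DihedralGroup.nat_card, show m + 4 - 1 = m + 3 from rfl]; ring
    · rw [Nat.card_congr e.toEquiv, H82.card_quat, show m + 4 - 2 = m + 2 from rfl]; ring)
  refine H90.autGroup_top_eq_inn hS hF (IsPGroup.to_subgroup ?_ _)
  rcases hshape with h | ⟨⟨e⟩⟩
  · refine Cfsg.Agent.S3116.result hS (Or.inl ⟨_, ?_, h⟩)
    calc 4 = 2 ^ 2 := rfl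
      _ ≤ _ := Nat.pow_le_pow_right two_pos (by omega)
  · exact (H82.isPGroup_mulAut_quat m).of_equiv (MulAut.congr e).symm

end Cfsg.Agent.S5112
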