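import Mathlib
import Cfsg.Statements.S5119
import Cfsg.Agent.Lib.Fusion.NormalSys
-- import your own Cfsg.Agent.* helpers here

set_option autoImplicit false
open Cfsg

namespace Cfsg.Agent.S5119

open H90 H91 in
theorem sinv_iff {Ω : Type*} [Group Ω] {S : Subgroup Ω} [Finite S] (F : Cfsg.FusionSystem S)
    {T : Subgroup Ω} (E : Cfsg.FusionSystem T) (hT : T ≤ S) :
    SInv E F ↔ ∀ (P Q : Subgroup Ω) (hPQ : P ≤ Q) (_ : Q ≤ T) (φ : P →* Ω) (_ : φ ∈ E.Hom P) (hφQ : ∀ x : P, φ x ∈ Q) (ψ : Q →* Ω) (_ : ψ ∈ F.Hom Q), ∃ χ ∈ E.Hom ((P.subgroupOf Q).map ψ), ∀ (x : P) (hx : ψ (Subgroup.inclusion hPQ x) ∈ (P.subgroupOf Q).map ψ), χ ⟨ψ (Subgroup.inclusion hPQ x), hx⟩ = ψ ⟨φ x, hφQ x⟩ := by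
  have : Finite T := finite_of_le hT
  constructor
  · intro h P Q hPQ _ φ hφ hφQ ψ hψ
    obtain ⟨σ, hσ, e⟩ := exists_perm_of_hom hφ
    obtain ⟨τ, hτ, e'⟩ := exists_perm_of_hom hψ
    have h1 := h P Q σ τ hσ hτ hPQ fun x hx => by rw [← e ⟨x, hx⟩]; exact hφQ _
    rw [← map_subgroupOf_eq_im hPQ ψ e'] at h1
    refine ⟨_, h1.homOf_mem, fun x hx => ?_⟩
    rw [homOf_apply]
    simp only [Equiv.Perm.mul_apply]
    rw [e', e']
    simp only [Subgroup.coe_inclusion, pinv_apply, e]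
  · intro h P Q σ τ hσ hτ hPQ hm
    have hτ' := hτ.mono (inf_le_left : Q ⊓ T ≤ Q)
    have hP : P ≤ Q ⊓ T := le_inf hPQ hσ.le
    obtain ⟨χ, hχ, e⟩ := h P (Q ⊓ T) hP inf_le_right _ hσ.homOf_mem
      (fun x => ⟨hm x x.2, hσ.mem x.2⟩) _ hτ'.homOf_mem
    have e1 := map_subgroupOf_eq_im hP (homOf hτ'.homOn) (f := τ) fun _ => rfl
    rw [← e1]
    refine map_of_hom hχ ?_
    rintro ⟨y, hy⟩
    obtain ⟨x, hx, rfl⟩ := (hτ.mono hPQ).mem_im.1 (e1 ▸ hy)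
    simp only [Equiv.Perm.mul_apply, pinv_apply]
    exact e ⟨x, hx⟩ hy

/-- Let F be a saturated fusion system over a finite p-group S and E a subsystem of F over a subgroup T that is strongly closed in F. Then E is invariant in F (invariance under Aut_F(T) plus the Frattini condition) if and only if the strong invariance condition holds: for P ≤ Q ≤ T, every map φ of E from P into Q and every map ψ of F with source Q, the transported map ψ φ ψ⁻¹ on ψ(P) is a map of E. -/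
theorem result {Ω : Type*} [Group Ω] {S : Subgroup Ω} [Finite S] (p : ℕ) [Fact p.Prime] (hS : IsPGroup p S) (F : Cfsg.FusionSystem S) (hF : F.IsSaturated p) {T : Subgroup Ω} (E : Cfsg.FusionSystem T) (hE : E.IsSubsystemOf F) (hT : F.StronglyClosed T) : E.IsInvariantIn F ↔ ∀ (P Q : Subgroup Ω) (hPQ : P ≤ Q) (_ : Q ≤ T) (φ : P →* Ω) (_ : φ ∈ E.Hom P) (hφQ : ∀ x : P, φ x ∈ Q) (ψ : Q →* Ω) (_ : ψ ∈ F.Hom Q), ∃ χ ∈ E.Hom ((P.subgroupOf Q).map ψ), ∀ (x : P) (hx : ψ (Subgroup.inclusion hPQ x) ∈ (P.subgroupOf Q).map ψ), χ ⟨ψ (Subgroup.inclusion hPQ x), hx⟩ = ψ ⟨φ x, hφQ x⟩ := by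
  rw [← sinv_iff F E hT.1, H91.isInvariantIn_iff]
  exact ⟨fun h => h.sinv, fun h => h.inv hS hF hE hT⟩

end Cfsg.Agent.S5119
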