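import Cfsg.Statements.S5122
import Mathlib
import Cfsg.Agent.Lib.Fusion.Group

set_option autoImplicit false
open Cfsg

namespace Cfsg.Agent.S5122

/-- Let G be a finite group with Sylow p-subgroup S. Every subgroup P of S has a G-conjugate Q ≤ S such that N_S(Q) is a Sylow p-subgroup of N_G(Q); and for any Q ≤ S with that property, C_S(Q) is a Sylow p-subgroup of C_G(Q) and the automorphisms of Q induced by N_S(Q) form a Sylow p-subgroup of those induced by N_G(Q). -/
theorem result {G : Type*} [Group G] [Finite G] (p : ℕ) [Fact p.Prime] (S : Sylow p G) : (∀ P : Subgroup G, P ≤ S → ∃ g : G, P.map (MulAut.conj g).toMonoidHom ≤ S ∧ (∃ R : Sylow p ↥(Subgroup.normalizer ((P.map (MulAut.conj g).toMonoidHom : Subgroup G) : Set G)), (R : Subgroup ↥(Subgroup.normalizer ((P.map (MulAut.conj g).toMonoidHom : Subgroup G) : Set G))) = (Cfsg.FusionSystem.normalizerIn (S : Subgroup G) (P.map (MulAut.conj g).toMonoidHom)).subgroupOf (Subgroup.normalizer ((P.map (MulAut.conj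 g).toMonoidHom : Subgroup G) : Set G)))) ∧ ∀ Q : Subgroup G, Q ≤ S → (∃ R : Sylow p ↥(Subgroup.normalizer (Q : Set G)), (R : Subgroup ↥(Subgroup.normalizer (Q : Set G))) = (Cfsg.FusionSystem.normalizerIn (S : Subgroup G) Q).subgroupOf (Subgroup.normalizer (Q : Set G))) → (∃ R : Sylow p ↥(Subgroup.centralizer (Q : Set G)), (R : Subgroup ↥(Subgroup.centralizer (Q : Set G))) = (Cfsg.FusionSystem.centralizerIn (S : Subgroup G) Q).subgroupOf (Subgroup.centralizer (Q : Set G))) ∧ (∃ R : Sylow p ↥(Cfsg.autInducedBy ⊤ Q), (R : Subgroup ↥(Cfsg.autInducedBy ⊤ Q)) = (Cfsg.autInducedBy (S : Subgroup G) Q).subgroupOf (Cfsg.autInducedBy ⊤ Q)) := by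
  refine ⟨fun P hP => ?_, fun Q hQ hN => ?_⟩
  · obtain ⟨g, -, hg, hs⟩ := (H93.syl_top S).exists_conj_inf
      (L := Subgroup.normalizer (P : Set G)) le_top (S.isPGroup'.to_le hP) Subgroup.le_normalizer
    refine ⟨g, ?_, ?_⟩
    · rintro _ ⟨x, hx, rfl⟩
      exact hg x hx
    · rw [← H93.normalizer_map_conj] at hs
      exact hs.exists_sylow
  · have h1 := (H93.syl_iff (p := p) inf_le_right).2 hN
    refine ⟨(H93.syl_centralizer_of_syl_normalizer h1).exists_sylow, ?_⟩
    have hF := H93.groupFusionSystem_isRealizedBy (S : Subgroup G)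
    have h2 := H93.isFullyAutomized_of_syl (p := p) hF hQ
      (by rw [H93.imageAlong_subtype hQ, Subgroup.range_subtype]; exact h1)
    have h3 : (Cfsg.groupFusionSystem (S : Subgroup G)).autGroup Q = Cfsg.autInducedBy ⊤ Q := by
      ext α
      rw [H93.mem_autGroup _ hQ, H93.mem_autInducedBy]
      exact ⟨fun ⟨_, _, g, hg⟩ => ⟨g, trivial, hg⟩,
        fun ⟨g, _, hg⟩ => ⟨hQ, fun x => hQ (α x).2, g, hg⟩⟩
    have h4 := h2.2
    rw [h3] at h4
    exact h4

end Cfsg.Agent.S5122
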