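import Mathlib
import Cfsg.Statements.S5159
import Cfsg.Agent.Lib.Fusion.Solv
-- import your own Cfsg.Agent.* helpers here

set_option autoImplicit false
open Cfsg

namespace Cfsg.Agent.S5159

/-- Let F be a saturated fusion system over a finite p-group S, E a normal subsystem over T, and D the factor system of F modulo T (read through any homomorphism on S with kernel T). Then F is solvable if and only if E and D are solvable (solvable, for a system over a subgroup S: for every subgroup R other than S that is strongly closed in F, the factor system of F modulo R has a nontrivial subgroup normal in it). -/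
theorem result {Ω : Type*} [Group Ω] {S : Subgroup Ω} [Finite S] (p : ℕ) [Fact p.Prime] (hS : IsPGroup p S) (F : Cfsg.FusionSystem S) (hF : F.IsSaturated p) {T : Subgroup Ω} (E : Cfsg.FusionSystem T) (hE : E.IsNormalIn F p) {Ω' : Type*} [Group Ω'] {S' : Subgroup Ω'} (θ : S →* Ω') (D : Cfsg.FusionSystem S') (hD : F.IsFactorSystem T θ D) : F.IsSolvableSystem ↔ (E.IsSolvableSystem ∧ D.IsSolvableSystem) := by
  have hi := H91.IsNormalIn.inv hE
  haveI : Finite T := H90.finite_of_le hi.le
  have hq := H91.Quot.of_factor hi.sc hD
  haveI := hq.finite
  rw [H91.isSolvableSystem_iff hS hF, H91.isSolvableSystem_iff (hS.to_le hi.le) hE.1.1,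
    H91.isSolvableSystem_iff (hq.isPGroup hS) (hq.isSaturated hS hF)]
  constructor
  · intro h
    refine ⟨?_, ?_⟩
    · have := h.inf_sub hi.sub
      rwa [inf_eq_right.2 hi.le] at this
    · have := h.image hq
      rwa [hq.image_top] at this
  · rintro ⟨h₁, h₂⟩
    have := H91.SCS.preimage hS hF hq (by rw [H91.IsFactor.ker hD]; exact h₁.of_inv hi) h₂
    rwa [hq.preimage_top] at this

end Cfsg.Agent.S5159
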