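import Cfsg.Statements.S5163
import Cfsg.Agent.Lib.Spor55.FusSL

set_option autoImplicit false
open Cfsg

namespace Cfsg.Agent.S5163

/-- For a finite field K of characteristic p and n ≥ 3, the p-fusion system of the projective special linear group PSL_n(K) on a Sylow p-subgroup is simple. -/
theorem result {K : Type*} [Field K] [Fintype K] (p : ℕ) [Fact p.Prime] [CharP K p] (n : ℕ) (hn : 3 ≤ n) (S : Sylow p (Matrix.ProjectiveSpecialLinearGroup (Fin n) K)) : (Cfsg.groupFusionSystem (S : Subgroup (Matrix.ProjectiveSpecialLinearGroup (Fin n) K))).IsSimple p := by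
  obtain ⟨n, rfl⟩ : ∃ m, n = m + 3 := ⟨n - 3, by omega⟩
  exact H55.Fus.isSimple_of_quot (H55.Fus.cq_center H67.sl_centerOK)
    (S₀ := H10.unitriSylowSL (Fin (n + 3)) K p) (H55.Fus.crit_SL n) S

end Cfsg.Agent.S5163
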