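import Cfsg.Statements.S5171
import Cfsg.Agent.Lib.Spor55.FusPolar3
import Cfsg.Agent.Lib.AutCl.ClSp

set_option autoImplicit false
open Cfsg

namespace Cfsg.Agent.S5171

open H28 H67 H55.Fus in
theorem crit {K : Type*} [Field K] [Fintype K] (p : ℕ) [Fact p.Prime] [CharP K p] (m : ℕ)
    (hm : 2 ≤ m) (hex : m = 2 → 3 ≤ Fintype.card K) :
    ∃ U : Sylow p (Matrix.symplecticGroup (Fin m) K), Crit p U.toSubgroup := by
  have hy := spPQ_isHyp (m := m) (F := K)
  let i : Fin m := ⟨0, by omega⟩
  let j : Fin m := ⟨1, by omega⟩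
  have ij : i ≠ j := by simp [i, j]
  have D : Fr (spPQ m K) (Pi.single (Sum.inl i) 1) (-Pi.single (Sum.inr i) 1)
      (Pi.single (Sum.inl j) 1) (-Pi.single (Sum.inr j) 1) :=
    ⟨⟨trivial, trivial, by simpa using hy.ef i i⟩, ⟨trivial, trivial, by simpa using hy.ef j j⟩,
      hy.ee i j, by simpa [ij] using hy.ef i j, by simpa [ij, ij.symm] using hy.fe i j, hy.ff i j⟩
  refine Fr.crit (P := spPQ m K) (fun _ _ => trivial) spPQ_ne_bot D ?_ (spSetup K hm) fun g h1 h2 => ?_
  · by_cases h2 : (2 : K) = 0
    · refine Or.inr ⟨rfl, fun a => FiniteField.isSquare_of_char_two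
        ((ringChar.eq_iff).2 (CharTwo.of_one_ne_zero_of_two_eq_zero one_ne_zero h2)) a, ?_⟩
      by_cases h : m = 2
      · obtain ⟨b, b0, b1⟩ : ∃ b : K, b ≠ 0 ∧ b ≠ -1 := by
          classical
          by_contra hc
          push Not at hc
          have := Finset.card_le_card (s := (Finset.univ : Finset K)) (t := {0, -1}) fun b _ => by
            by_cases b0 : b = (0 : K)
            · simp [b0]
            · simp [hc b b0]
          have h3 := Finset.card_le_two (a := (0 : K)) (b := -1)
          have := hex h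
          simp only [Finset.card_univ] at *
          omega
        refine ⟨b • Pi.single (Sum.inl j) 1, by rw [map_smul, D.eu, smul_zero],
          by rw [map_smul, D.fu, smul_zero], by rw [map_smul, hy.ee, smul_zero], ?_, ?_⟩
        · simp [b0]
        · intro h
          have := congrFun h (Sum.inl j)
          exact b1 (by simp at this; linear_combination this)
      · let k : Fin m := ⟨2, by omega⟩
        have ik : k ≠ i := by simp [i, k]
        have jk : k ≠ j := by simp [j, k]
        refine ⟨Pi.single (Sum.inl k) 1, hy.ee _ _, by simpa [ik, ik.symm] using hy.fe i k,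
          hy.ee _ _, by simp, fun h => ?_⟩
        simpa [jk] using congrFun h (Sum.inl k)
    · refine Or.inl fun l _ => ⟨l / 2, ?_⟩
      change l = l / 2 - (-1) * (l / 2)
      field_simp
      ring
  · have hg : g ∈ H11.Sp.fixer K (Finset.univ.erase i) := fun k hk => by
      obtain rfl : k = i := by simpa using hk
      exact ⟨h1, neg_injective ((map_neg _ _).symm.trans h2)⟩
    rw [H11.Sp.fixer_eq_TW] at hg
    refine Subgroup.closure_mono ?_ hg
    rintro _ ⟨w, hw, c, rfl⟩
    refine ⟨?_, 1, by rw [pow_one, H11.Sp.tv_pow, CharP.cast_eq_zero, zero_mul, H11.Sp.tv_zero]⟩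
    refine (H11.Sp.tv_mulVec w c _).trans ?_
    rw [H11.Sp.form_single_inl_left, (hw i (by simp)).2]
    simp


/-- For a finite field K of characteristic p and m ≥ 2, excluding the case m = 2 with K of two elements, the p-fusion system of the projective symplectic group PSp_{2m}(K) on a Sylow p-subgroup is simple. -/
theorem result {K : Type*} [Field K] [Fintype K] (p : ℕ) [Fact p.Prime] [CharP K p] (m : ℕ) (hm : 2 ≤ m) (hex : m = 2 → 3 ≤ Fintype.card K) (S : Sylow p (Cfsg.PSp m K)) : (Cfsg.groupFusionSystem (S : Subgroup (Cfsg.PSp m K))).IsSimple p := by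
  obtain ⟨U, hU⟩ := crit p m hm hex
  exact H55.Fus.isSimple_of_quot (H55.Fus.cq_center (H67.spSetup K hm).centerOK) hU S

end Cfsg.Agent.S5171
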