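import Cfsg.Statements.S5172
import Cfsg.Agent.Lib.Spor55.FusPolar3
import Cfsg.Agent.Lib.AutCl.ClSU
import Cfsg.Agent.Lib.Unitary.Gen

set_option autoImplicit false
open Cfsg

namespace Cfsg.Agent.S5172

section
open H28 H67 H55.Fus H11.U Matrix Module

variable {F : Type*} [Field F] [Fintype F] {q n : ℕ} [IsSq F q]

theorem exists_hyp {i j : Fin n} (h : i ≠ j) : ∃ e ∈ coord F {i, j}, ∃ f ∈ coord F {i, j},
    Hyp (suPQ n F q) e f := by
  obtain ⟨e, he, e0, e1⟩ := (nondeg_coord (q := q) (F := F) {i, j}).exists_isotropic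
    (by rw [finrank_coord, Finset.card_pair h])
  obtain ⟨f, hf, f1, f2⟩ := (nondeg_coord (q := q) {i, j}).exists_partner he e0 e1 1 one_ne_zero
  exact ⟨e, he, f, hf, suPQ_q_mem.2 e1, suPQ_q_mem.2 f1, by rw [suPQ_B, form_eq_one_symm f2]⟩

theorem fix_single {i j : Fin n} (h : i ≠ j) {e f : Fin n → F} (he : e ∈ coord F {i, j})
    (hf : f ∈ coord F {i, j}) (hy : Hyp (suPQ n F q) e f) {g : SU n F q} (h1 : g.1.1 *ᵥ e = e)
    (h2 : g.1.1 *ᵥ f = f) {k : Fin n} (hk : k ∈ ({i, j} : Finset (Fin n))) :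
    g.1.1 *ᵥ Pi.single k 1 = Pi.single k 1 := by
  have li : LinearIndependent F ![e, f] := LinearIndependent.pair_iff.2 fun s t hst => by
    have e1 := congrArg ((suPQ n F q).B e) hst
    simp only [map_add, map_smul, hy.ee, hy.ef, smul_eq_mul, mul_zero, mul_one, zero_add,
      map_zero] at e1
    rw [e1, zero_smul, add_zero] at hst
    exact ⟨(smul_eq_zero.1 hst).resolve_right hy.e_ne, e1⟩
  have : Submodule.span F (Set.range ![e, f]) = coord F {i, j} :=
    Submodule.eq_of_le_of_finrank_eq (Submodule.span_le.2 (by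
      rintro _ ⟨k, rfl⟩; fin_cases k <;> simpa)) (by
      rw [finrank_span_eq_card li, finrank_coord, Finset.card_pair h]; rfl)
  have hm := single_mem_coord hk (1 : F)
  rw [← this, Matrix.range_cons_cons_empty] at hm
  obtain ⟨a, b, hab⟩ := Submodule.mem_span_pair.1 hm
  rw [← hab, mulVec_add, mulVec_smul, mulVec_smul, h1, h2]

theorem perp_coord {S T : Finset (Fin n)} (h : Disjoint S T) {x y : Fin n → F}
    (hx : x ∈ coord F S) (hy : y ∈ coord F T) : (suPQ n F q).B x y = 0 := by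
  rw [suPQ_B, form_def]
  refine Finset.sum_eq_zero fun i _ => ?_
  by_cases hi : i ∈ S
  · rw [hy i (Finset.disjoint_left.1 h hi), zero_mul]
  · rw [hx i hi, map_zero, mul_zero]

theorem uni_tv (p : ℕ) [Fact p.Prime] [CharP F p] (w : Fin n → F) (c : F) : Uni p (tv q w c) := by
  by_cases h : hermForm n F q w w = 0 ∧ cj q c = -c
  · have : ∀ k : ℕ, tv q w c ^ k = tv q w (k * c) := fun k => by
      induction k with
      | zero => simp [tv_zero]
      | succ k ih =>
        rw [pow_succ, ih, tv_mul h.1 (by simp [h.2]) h.2]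
        congr 1; push_cast; ring
    exact ⟨1, by rw [pow_one, this, CharP.cast_eq_zero, zero_mul, tv_zero]⟩
  · rw [tv_of_not h]; exact uni_one p

theorem crit (p : ℕ) [Fact p.Prime] [CharP F p] (hn : 4 ≤ n) :
    ∃ U : Sylow p (SU n F q), Crit p U.toSubgroup := by
  let i : Fin 4 → Fin n := Fin.castLE hn
  have hi : ∀ {a b}, a ≠ b → i a ≠ i b := fun h => (Fin.castLE_injective hn).ne h
  have h01 := hi (a := 0) (b := 1) (by decide)
  have h23 := hi (a := 2) (b := 3) (by decide)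
  obtain ⟨e, he, f, hf, hy⟩ := exists_hyp (F := F) (q := q) h01
  obtain ⟨u, hu, v, hv, hy'⟩ := exists_hyp (F := F) (q := q) h23
  have dj : Disjoint ({i 0, i 1} : Finset (Fin n)) {i 2, i 3} := by
    simp [hi (a := 2) (b := 0) (by decide), hi (a := 3) (b := 0) (by decide),
      hi (a := 2) (b := 1) (by decide), hi (a := 3) (b := 1) (by decide)]
  have D : Fr (suPQ n F q) e f u v := ⟨hy, hy', perp_coord dj he hu, perp_coord dj he hv,
    perp_coord dj hf hu, perp_coord dj hf hv⟩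
  let T := suSetup F q (n := n) (by omega)
  refine Fr.crit (fun v h => suPQ_q_mem.2 (by rwa [← suPQ_B])) suPQ_isU.ne_bot D
    (Or.inl fun l hl => ?_) T fun g h1 h2 => ?_
  · obtain ⟨c, hc⟩ := exists_trace_eq (map_one (cj q : F →+* F))
    have : l + cj q l = 0 := hl
    refine ⟨c * l, ?_⟩
    rw [suPQ_isU.eps, map_mul]
    linear_combination (-l) * hc + cj q c * this
  have hg : g ∈ suFixer F q {i 0, i 1}ᶜ := fun k hk =>
    fix_single h01 he hf hy h1 h2 (Finset.notMem_compl.1 hk)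
  have dc : Disjoint ({i 0, i 1} : Finset (Fin n)) {i 0, i 1}ᶜ := disjoint_compl_right
  have fx : ∀ {t x}, t ∈ TW q (coord F {i 0, i 1}ᶜ) → x ∈ coord F {i 0, i 1} → T.ρ t x = x :=
    fun ht hx => TW_fix ht fun w hw => by rw [← suPQ_B]; exact perp_coord dc.symm hw hx
  have hT : TW q (coord F {i 0, i 1}ᶜ) ≤ Subgroup.closure {y | T.ρ y e = e ∧ Uni p y} := by
    refine Subgroup.closure_mono ?_
    rintro _ ⟨w, hw, c, rfl⟩
    exact ⟨fx (tv_mem_TW hw c) he, uni_tv p w c⟩
  have cd : ({i 0, i 1}ᶜ : Finset (Fin n)).card = n - 2 := by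
    rw [Finset.card_compl, Finset.card_pair h01, Fintype.card_fin]
  by_cases h5 : n = 5
  swap
  · exact hT (suFixer_le_TW _ (Or.inl (by omega)) hg)
  have sub := coord_mono (F := F) (Finset.subset_compl_iff_disjoint_left.2 dj)
  obtain ⟨t, ht, -, tu⟩ := (nondeg_coord (q := q) (F := F) {i 0, i 1}ᶜ).rel_isotropic
    (by rw [finrank_coord]; omega) (mulVec_mem_coord (q := q) (A := g.1.1) g.2 hg (sub hu)) (sub hu)
    (su_ne_zero g hy'.e_ne) hy'.e_ne (by rw [su_form]; exact suPQ_q_mem.1 hy'.qe)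
    (suPQ_q_mem.1 hy'.qe)
  have a1 : T.ρ (t * g) u = u := (su_mul t g u).trans tu
  have a2 : T.ρ (t * g) e = e := by rw [T.mul_apply, h1, fx ht he]
  have a3 : T.ρ (t * g) f = f := by rw [T.mul_apply, h2, fx ht hf]
  obtain ⟨w, w1, w2, w3⟩ := hy'.decomp (T.ρ (t * g) v)
  rw [show (suPQ n F q).B u (T.ρ (t * g) v) = 1 by
    conv_lhs => rw [← a1, T.isoB, hy'.ef], one_smul] at w3
  obtain ⟨x, hx, x1, x2⟩ := T.exists_QG hy' w1 w2 (w3 ▸ T.sing _ hy'.qf)
  have fw : ∀ {y}, y ∈ coord F {i 0, i 1} → T.ρ (t * g) y = y → T.ρ x y = y := fun {y} hy h => by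
    have e1 := T.isoB (t * g) y v
    rw [h, w3, map_add, map_add, map_smul, perp_coord dj hy hu, perp_coord dj hy hv] at e1
    have e2 : (suPQ n F q).B w y = 0 := (suPQ n F q).eq_zero_symm (by simpa using e1)
    simp [x2, eichT_apply, perp_coord dj.symm hu hy, e2]
  have : x⁻¹ * (t * g) = 1 := eq_one_of_mem_suFixer (S := ({i 0, i 1} ∪ {i 2, i 3})ᶜ)
    (by rw [Finset.card_compl, Finset.card_union_of_disjoint dj, Finset.card_pair h01,
      Finset.card_pair h23, Fintype.card_fin]; omega) fun k hk => by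
    rcases Finset.mem_union.1 (Finset.notMem_compl.1 hk) with h | h
    · exact fix_single h01 he hf hy ((T.mul_apply _ _ _).trans (T.inv_eq (by rw [a2, fw he a2])))
        ((T.mul_apply _ _ _).trans (T.inv_eq (by rw [a3, fw hf a3]))) h
    · exact fix_single h23 hu hv hy' ((T.mul_apply _ _ _).trans (T.inv_eq (by rw [a1, hx.1])))
        ((T.mul_apply _ _ _).trans (T.inv_eq (by rw [x1, ← w3]))) h
  rw [show g = t⁻¹ * x by rw [inv_mul_eq_one.1 this]; group]
  exact Subgroup.mul_mem _ (hT (Subgroup.inv_mem _ ht))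
    (Subgroup.subset_closure ⟨fw he a2, T.uni_of_mem_QG hx⟩)

end


/-- For a finite field K with q² elements of characteristic p and n ≥ 4, the p-fusion system of the projective special unitary group PSU_n(q) (realised over K) on a Sylow p-subgroup is simple. -/
theorem result {K : Type*} [Field K] [Fintype K] (p q : ℕ) [Fact p.Prime] [CharP K p] (hK : Fintype.card K = q ^ 2) (n : ℕ) (hn : 4 ≤ n) (S : Sylow p (Cfsg.PSU n K q)) : (Cfsg.groupFusionSystem (S : Subgroup (Cfsg.PSU n K q))).IsSimple p := by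
  have : H11.U.IsSq K q := ⟨hK⟩
  obtain ⟨U, hU⟩ := crit (F := K) (q := q) p hn
  exact H55.Fus.isSimple_of_quot
    (H55.Fus.cq_center (H67.suSetup K q (n := n) (by omega)).centerOK) hU S

end Cfsg.Agent.S5172
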