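import Cfsg.Statements.S5351
import Mathlib
import Cfsg.Agent.Lib.ThreeTrans.Primitive

set_option autoImplicit false
open Cfsg

namespace Cfsg.Agent.S5351

/-- Let D be a conjugacy class of 3-transpositions generating the finite group G, with at least two members. Then for every prime p > 3 the largest normal p-subgroup of G is central, and exactly one of the following holds: the largest normal 2-subgroup of G is not central; the largest normal 3-subgroup of G is not central; the layer of G (the product of its components) is non-trivial. -/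
theorem result {G : Type*} [Group G] [Finite G] {D : Set G} (hD : Cfsg.IsThreeTranspositionClass D) (hD2 : ∃ a ∈ D, ∃ b ∈ D, a ≠ b) : (∀ p : ℕ, p.Prime → 3 < p → Cfsg.pCore p G ≤ Subgroup.center G) ∧ ((¬ Cfsg.pCore 2 G ≤ Subgroup.center G ∧ Cfsg.pCore 3 G ≤ Subgroup.center G ∧ Cfsg.layer G = ⊥) ∨ (Cfsg.pCore 2 G ≤ Subgroup.center G ∧ ¬ Cfsg.pCore 3 G ≤ Subgroup.center G ∧ Cfsg.layer G = ⊥) ∨ (Cfsg.pCore 2 G ≤ Subgroup.center G ∧ Cfsg.pCore 3 G ≤ Subgroup.center G ∧ Cfsg.layer G ≠ ⊥)) := by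
  haveI : Fact (Nat.Prime 2) := ⟨Nat.prime_two⟩
  haveI : Fact (Nat.Prime 3) := ⟨Nat.prime_three⟩
  refine ⟨fun p hp h3 => H94.pCore_le_center_of_three_lt (H94.group_of_class hD) hp h3, ?_⟩
  obtain ⟨d, hd, -⟩ := hD.2.1
  have hE : ∀ p : ℕ, [Fact p.Prime] → ¬ Cfsg.pCore p G ≤ Subgroup.center G → Cfsg.layer G = ⊥ := by
    intro p _ h
    by_contra h1
    exact h (H94.pCore_le_center_of_layer_ne_bot hD h1 p)
  by_cases h2 : Cfsg.pCore 2 G ≤ Subgroup.center G
  · by_cases h3 : Cfsg.pCore 3 G ≤ Subgroup.center G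
    · exact Or.inr (Or.inr ⟨h2, h3, H94.layer_ne_bot hD hD2 h2 h3⟩)
    · exact Or.inr (Or.inl ⟨h2, h3, hE 3 h3⟩)
  · refine Or.inl ⟨h2, ?_, hE 2 h2⟩
    rcases H94.vrel_trivial_or_wrel_trivial (D := D) (d := d) with h | h
    · exact absurd ((H94.pCore_two_le_center_iff hD hD2 hd).2 h) h2
    · exact (H94.pCore_three_le_center_iff hD hd).2 h

end Cfsg.Agent.S5351
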