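import Cfsg.Statements.S5355
import Cfsg.Agent.Lib.L0.Wd1

set_option autoImplicit false
open Cfsg

namespace Cfsg.Agent.S5355

/-- Let D be a conjugacy class of 3-transpositions generating the finite group G, with at least two members, and d a member of D. Suppose that every member of D commuting with d commutes with exactly the same members of D as d does, and that exactly one member of D other than d commutes with d. Then G is isomorphic to the symmetric group of degree 4. -/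
theorem result {G : Type*} [Group G] [Finite G] {D : Set G} (hD : Cfsg.IsThreeTranspositionClass D) (hD2 : ∃ a ∈ D, ∃ b ∈ D, a ≠ b) {d : G} (hd : d ∈ D) (hV : {y : G | y ∈ D ∧ Commute d y} = {v : G | v ∈ D ∧ ∀ e ∈ D, Commute v e ↔ Commute d e}) (hm : {y : G | y ∈ D ∧ Commute d y}.ncard = 2) : Nonempty (G ≃* Equiv.Perm (Fin 4)) := by
  have hT := H94.TT.ofClass hD
  have hV' : ∀ y ∈ D, Commute d y → H94.Vrel D d y := fun y hy hc e he => by
    have : y ∈ {v : G | v ∈ D ∧ ∀ e ∈ D, Commute v e ↔ Commute d e} := hV ▸ ⟨hy, hc⟩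
    exact (this.2 e he).symm
  -- uniqueness of the commuting partner
  have hu0 : ∀ y ∈ D, ∀ z ∈ D, Commute d y → Commute d z → y ≠ d → z ≠ d → y = z := by
    intro y hy z hz h1 h2 h3 h4
    obtain ⟨s, t, -, hst⟩ := Set.ncard_eq_two.1 hm
    have m1 : d ∈ ({s, t} : Set G) := hst ▸ ⟨hd, Commute.refl d⟩
    have m2 : y ∈ ({s, t} : Set G) := hst ▸ ⟨hy, h1⟩
    have m3 : z ∈ ({s, t} : Set G) := hst ▸ ⟨hz, h2⟩
    simp only [Set.mem_insert_iff, Set.mem_singleton_iff] at m1 m2 m3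
    rcases m1 with rfl | rfl <;> rcases m2 with rfl | rfl <;> rcases m3 with rfl | rfl <;> tauto
  have hu : ∀ x ∈ D, ∀ y ∈ D, ∀ z ∈ D, Commute x y → Commute x z → y ≠ x → z ≠ x → y = z := by
    intro x hx y hy z hz h1 h2 h3 h4
    obtain ⟨g, rfl⟩ := H94.exists_conj_of_class hD hd hx
    have := hu0 _ (hT.conj_inv_mem g hy) _ (hT.conj_inv_mem g hz)
      (by rw [← H94.conj_commute_iff g]; simpa [mul_assoc] using h1)
      (by rw [← H94.conj_commute_iff g]; simpa [mul_assoc] using h2)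
      (fun h => h3 (by rw [← h]; group)) (fun h => h4 (by rw [← h]; group))
    simpa using this
  obtain ⟨d', hd', hdd', hne⟩ : ∃ d' ∈ D, Commute d d' ∧ d ≠ d' := by
    by_contra hc
    push Not at hc
    have : {y : G | y ∈ D ∧ Commute d y} = {d} := by
      ext y
      exact ⟨fun hy => (hc y hy.1 hy.2).symm, by rintro rfl; exact ⟨hd, Commute.refl _⟩⟩
    rw [this, Set.ncard_singleton] at hm
    omega
  obtain ⟨a, ha, hda⟩ := H94.exists_not_commute hD hD2 hd
  obtain ⟨φ, hφ, h1, h2, h3⟩ := H94.TS.exists_perm4 hT.set hd ha hd' hne hdd' hda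
    (fun h => hda ((hV' d' hd' hdd' a ha).2 h.symm))
  have hsw : ∀ σ : Equiv.Perm (Fin 4), φ (σ * Equiv.swap 0 1 * σ⁻¹) ∈ D := fun σ => by
    rw [map_mul, map_mul, map_inv, h1]; exact hT.conj _ _ hd
  have m02 : φ (Equiv.swap 0 2) ∈ D := by
    convert hsw (Equiv.swap 1 2) using 2; decide
  have m13 : φ (Equiv.swap 1 3) ∈ D := by
    convert hsw (Equiv.swap 0 3 * Equiv.swap 1 0 * Equiv.swap 0 1) using 2; decide
  have m03 : φ (Equiv.swap 0 3) ∈ D := by
    convert hsw (Equiv.swap 1 3) using 2; decide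
  refine ⟨(MulEquiv.ofBijective φ ⟨hφ, ?_⟩).symm⟩
  rw [← MonoidHom.range_eq_top, eq_top_iff, ← hD.2.2, Subgroup.closure_le]
  intro b hb
  by_contra hbr
  have pair : ∀ σ τ : Equiv.Perm (Fin 4), φ σ ∈ D → φ τ ∈ D → Commute σ τ → σ ≠ τ →
      ¬ Commute (φ σ) b := by
    intro σ τ hσ hτ hc hne' hcb
    exact hbr ⟨τ, hu _ hσ _ hτ _ hb (hc.map φ) hcb (fun h => hne' (hφ h).symm)
      (fun h => hbr ⟨σ, h.symm⟩)⟩
  have n01 := pair (Equiv.swap 0 1) (Equiv.swap 2 3) (h1 ▸ hd) (h3 ▸ hd') (by unfold Commute SemiconjBy; decide) (by decide)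
  have n23 := pair (Equiv.swap 2 3) (Equiv.swap 0 1) (h3 ▸ hd') (h1 ▸ hd) (by unfold Commute SemiconjBy; decide) (by decide)
  have n12 := pair (Equiv.swap 1 2) (Equiv.swap 0 3) (h2 ▸ ha) m03 (by unfold Commute SemiconjBy; decide) (by decide)
  have n03 := pair (Equiv.swap 0 3) (Equiv.swap 1 2) m03 (h2 ▸ ha) (by unfold Commute SemiconjBy; decide) (by decide)
  have n02 := pair (Equiv.swap 0 2) (Equiv.swap 1 3) m02 m13 (by unfold Commute SemiconjBy; decide) (by decide)
  obtain ⟨p1, p2⟩ := H94.TS.string_partner hT.set (h1 ▸ hd) (h3 ▸ hd') hb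
    (fun h => absurd (hφ h) (by decide)) ((by unfold Commute SemiconjBy; decide : Commute _ _).map φ) n01 (fun h => n23 h.symm)
  obtain ⟨p3, p4⟩ := H94.TS.string_partner hT.set (h2 ▸ ha) m03 hb
    (fun h => absurd (hφ h) (by decide)) ((by unfold Commute SemiconjBy; decide : Commute _ _).map φ) n12 (fun h => n03 h.symm)
  have e := hu b hb _ (hT.conj _ _ hb) _ (hT.conj _ _ hb) p1 p3 p2 p4
  have e2 : Commute b (φ (Equiv.swap 0 2) * φ (Equiv.swap 1 3)) := by
    have e3 : φ (Equiv.swap 0 2) * φ (Equiv.swap 1 3) =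
        (φ (Equiv.swap 1 2) * φ (Equiv.swap 0 3))⁻¹ * (φ (Equiv.swap 0 1) * φ (Equiv.swap 2 3)) := by
      simp only [← map_mul, ← map_inv]; congr 1; decide
    rw [e3]
    symm
    rw [← H94.conj_eq_self_iff]
    calc _ = (φ (Equiv.swap 1 2) * φ (Equiv.swap 0 3))⁻¹ *
          (φ (Equiv.swap 0 1) * φ (Equiv.swap 2 3) * b * (φ (Equiv.swap 0 1) * φ (Equiv.swap 2 3))⁻¹) *
          (φ (Equiv.swap 1 2) * φ (Equiv.swap 0 3)) := by group
      _ = b := by rw [e]; group
  exact n02 ((H94.TS.commute_mul_iff hT.set m02 m13 hb (fun h => absurd (hφ h) (by decide))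
    ((by unfold Commute SemiconjBy; decide : Commute _ _).map φ)).1 e2).1.symm

end Cfsg.Agent.S5355
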