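import Cfsg.Statements.S5356
import Cfsg.Agent.Lib.L0.Wd1

set_option autoImplicit false
open Cfsg

namespace Cfsg.Agent.S5356

/-- Let D be a conjugacy class of 3-transpositions generating the finite group G, with at least two members, and d a member of D such that every member of D commuting with d commutes with exactly the same members of D as d. Then there is a Sylow 3-subgroup P of G normalized by d such that G is generated by d, P and the largest normal 2-subgroup of G. -/
theorem result {G : Type*} [Group G] [Finite G] {D : Set G} (hD : Cfsg.IsThreeTranspositionClass D) (hD2 : ∃ a ∈ D, ∃ b ∈ D, a ≠ b) {d : G} (hd : d ∈ D) (hV : {y : G | y ∈ D ∧ Commute d y} = {v : G | v ∈ D ∧ ∀ e ∈ D, Commute v e ↔ Commute d e}) : ∃ P : Sylow 3 G, d ∈ Subgroup.normalizer (P : Set G) ∧ Subgroup.zpowers d ⊔ (P : Subgroup G) ⊔ Cfsg.pCore 2 G = ⊤ := by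
  have hV' : ∀ y ∈ D, Commute d y → H94.Vrel D d y := fun y hy hc e he => by
    have : y ∈ {v : G | v ∈ D ∧ ∀ e ∈ D, Commute v e ↔ Commute d e} := hV ▸ ⟨hy, hc⟩
    exact (this.2 e he).symm
  obtain ⟨a, ha, hda⟩ := H94.exists_not_commute hD hD2 hd
  obtain ⟨P, hP⟩ := L0.W1.exists_sylow (H94.TT.ofClass hD) hd ha hda hV'
  exact ⟨P, hP, L0.W1.sup_eq_top hD hD2 hd hV' P⟩

end Cfsg.Agent.S5356
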