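import Cfsg.Statements.S5358
import Cfsg.Agent.Lib.L0.Refl3

set_option autoImplicit false
open scoped MatrixGroups
open Cfsg

namespace Cfsg.Agent.S5358

/-- Let Q be a non-degenerate quadratic form on the n-dimensional coordinate space over the field with three elements and u, v vectors of the same non-zero norm Q(u) = Q(v) spanning different lines (v ≠ u and v ≠ −u). Then the reflection matrices of u and v commute if and only if u and v are orthogonal for the polar form of Q. -/
theorem result (n : ℕ) (Q : QuadraticForm (ZMod 3) (Fin n → ZMod 3)) (hQ : (QuadraticMap.polarBilin Q).Nondegenerate) (u v : Fin n → ZMod 3) (hu : Q u ≠ 0) (huv : Q u = Q v) (h1 : v ≠ u) (h2 : v ≠ -u) : Commute (Cfsg.reflectionMatrix (⇑Q) u) (Cfsg.reflectionMatrix (⇑Q) v) ↔ QuadraticMap.polar (⇑Q) u v = 0 := by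
  let e := H12.isoEquiv Q (q := ⇑Q) (fun _ => rfl)
  have k : ∀ w, ((e.symm (H12.refl Q w) : GL (Fin n) (ZMod 3)) : Matrix (Fin n) (Fin n) (ZMod 3)) =
      Cfsg.reflectionMatrix (⇑Q) w := fun w => by
    rw [H12.isoEquiv_eq_iff Q (fun _ => rfl) _ _ (H12.reflectionMatrix_mulVec Q w)]
    exact e.apply_symm_apply _
  have h3 := L0.R3.commute_iff hu (huv ▸ hu)
  rw [← k u, ← k v]
  constructor
  · intro h
    have h4 : Commute (e.symm (H12.refl Q u)) (e.symm (H12.refl Q v)) :=
      Subtype.ext (Units.ext h)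
    have := h3.1 (h4.of_map e.symm.injective)
    tauto
  · intro h
    have h4 := (h3.2 (Or.inr (Or.inr h))).map e.symm
    exact congrArg (fun g : ↥(Cfsg.isometryGroup (ZMod 3) (⇑Q)) =>
      ((g : GL (Fin n) (ZMod 3)) : Matrix (Fin n) (Fin n) (ZMod 3))) h4

end Cfsg.Agent.S5358
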