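import Cfsg.Statements.S5363
import Mathlib
import Cfsg.Agent.Lib.ThreeTrans.Basic

set_option autoImplicit false
open Cfsg

namespace Cfsg.Agent.S5363

theorem conj_pow {G : Type*} [Group G] {a b : G} (ha : a * a = 1) (hb : b * b = 1) (k : ℕ) :
    a * (a * b) ^ k = ((a * b) ^ k)⁻¹ * a := by
  induction k with
  | zero => simp
  | succ k ih =>
    rw [pow_succ, ← mul_assoc, ih, ← pow_succ, pow_succ', mul_inv_rev, mul_inv_rev,
      H94.inv_eq_of_mul_self ha, H94.inv_eq_of_mul_self hb]
    simp only [mul_assoc, H94.mul_self_cancel ha, ha, mul_one]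


/-- Let D be a conjugation-invariant set of involutions of a finite group G. Then every product of two members of D has odd order or order 2 if and only if, for every a in D and every b in D different from a and commuting with a, the members of D commuting with a b are exactly those commuting with both a and b. -/
theorem result {G : Type*} [Group G] [Finite G] {D : Set G} (hinv : ∀ d ∈ D, orderOf d = 2) (hconj : ∀ g : G, ∀ d ∈ D, g * d * g⁻¹ ∈ D) : (∀ a ∈ D, ∀ b ∈ D, Odd (orderOf (a * b)) ∨ orderOf (a * b) = 2) ↔ ∀ a ∈ D, ∀ b ∈ D, b ≠ a → Commute a b → {y : G | y ∈ D ∧ Commute (a * b) y} = {y : G | y ∈ D ∧ Commute a y} ∩ {y : G | y ∈ D ∧ Commute b y} := by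
  have hs : ∀ d ∈ D, d * d = 1 := fun d hd => H94.mul_self_of_orderOf (hinv d hd)
  constructor
  · intro h a ha b hb hba hc
    have key : ∀ a ∈ D, ∀ b ∈ D, b ≠ a → Commute a b → ∀ y ∈ D, Commute (a * b) y → Commute a y := by
      intro a ha b hb hba hc y hy hcy
      by_contra hn
      have hodd : Odd (orderOf (a * y)) := by
        refine (h a ha y hy).resolve_right fun h2 => hn ?_
        rw [H94.commute_iff_sq (hs a ha) (hs y hy), ← h2, pow_orderOf_eq_one]
      have e1 : b * y = (a * b) * (a * y) := by
        rw [hc.eq, mul_assoc, H94.mul_self_cancel (hs a ha)]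
      have hcc : Commute (a * b) (a * y) :=
        (((Commute.refl a).mul_left hc.symm)).mul_right hcy
      have hab2 : orderOf (a * b) = 2 := by
        refine orderOf_eq_prime ((H94.commute_iff_sq (hs a ha) (hs b hb)).1 hc) fun h1 => hba ?_
        rw [← H94.inv_eq_of_mul_self (hs a ha)]; exact (inv_eq_of_mul_eq_one_right h1).symm
      have hord := hcc.orderOf_mul_eq_mul_orderOf_of_coprime
        (by rw [hab2]; exact Nat.coprime_two_left.2 hodd)
      rw [← e1, hab2] at hord
      rcases h b hb y hy with h2 | h2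
      · rw [hord] at h2; exact absurd h2 (by simp)
      · have : orderOf (a * y) = 1 := by omega
        rw [orderOf_eq_one_iff] at this
        apply hn
        rw [← inv_eq_of_mul_eq_one_right this]; exact (Commute.refl a).inv_right
    ext y
    simp only [Set.mem_ofPred_eq, Set.mem_inter_iff]
    refine ⟨fun ⟨hy, hcy⟩ => ⟨⟨hy, key a ha b hb hba hc y hy hcy⟩, hy,
      key b hb a ha hba.symm hc.symm y hy (hc.eq ▸ hcy)⟩, fun h' => ⟨h'.1.1, h'.1.2.mul_left h'.2.2⟩⟩
  · intro h a ha b hb
    by_contra hcon
    rw [not_or, Nat.not_odd_iff_even] at hcon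
    obtain ⟨⟨m, hm⟩, h2⟩ := hcon
    have sa := hs a ha
    have sb := hs b hb
    have hpos := orderOf_pos (a * b)
    have hz1 : (a * b) ^ m ≠ 1 := pow_ne_one_of_lt_orderOf (by omega) (by omega)
    have hz2 : (a * b) ^ m * (a * b) ^ m = 1 := by rw [← pow_add, ← hm, pow_orderOf_eq_one]
    have hza : Commute a ((a * b) ^ m) := by
      show _ = _
      rw [conj_pow sa sb, H94.inv_eq_of_mul_self hz2]
    have hzb : Commute ((a * b) ^ m) b := by
      have := hza.mul_left ((Commute.refl (a * b)).pow_right m)
      rw [H94.mul_self_cancel sa] at this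
      exact this.symm
    have hmem : a * (a * b) ^ m ∈ D := by
      rcases Nat.even_or_odd' m with ⟨k, rfl | rfl⟩
      · have := hconj ((a * b) ^ k)⁻¹ a ha
        rwa [inv_inv, ← conj_pow sa sb, mul_assoc, ← pow_add, ← two_mul] at this
      · have := hconj ((a * b) ^ k)⁻¹ b hb
        have e : ((a * b) ^ k)⁻¹ * b = a * (a * b) ^ (k + 1) := by
          rw [pow_succ, ← mul_assoc, conj_pow sa sb, mul_assoc, H94.mul_self_cancel sa]
        rwa [inv_inv, e, mul_assoc, ← pow_add, show k + 1 + k = 2 * k + 1 by omega] at this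
    have := h a ha _ hmem (fun h' => hz1 (by simpa using h')) ((Commute.refl a).mul_right hza)
    rw [H94.mul_self_cancel sa] at this
    have hb' : b ∈ {y : G | y ∈ D ∧ Commute ((a * b) ^ m) y} := ⟨hb, hzb⟩
    rw [this] at hb'
    have := orderOf_dvd_of_pow_eq_one ((H94.commute_iff_sq sa sb).1 hb'.1.2)
    have := Nat.le_of_dvd two_pos this
    omega

end Cfsg.Agent.S5363
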