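import Cfsg.Statements.S5364
import Mathlib
import Cfsg.Agent.Lib.ThreeTrans.Basic

set_option autoImplicit false
open Cfsg

namespace Cfsg.Agent.S5364

/-- Let D be a conjugation-invariant set of involutions of a finite group G and t an involution in the centre of G such that d t does not lie in D for any d in D. If the images of the members of D in G modulo the subgroup generated by t satisfy the 3-transposition order conditions (each has order 2 and any two have product of order at most 3), then so do the members of D. -/
theorem result {G : Type*} [Group G] [Finite G] {D : Set G} (hinv : ∀ d ∈ D, orderOf d = 2) (hconj : ∀ g : G, ∀ d ∈ D, g * d * g⁻¹ ∈ D) (t : G) (ht : orderOf t = 2) (htZ : t ∈ Subgroup.center G) (hDt : ∀ d ∈ D, d * t ∉ D) [(Subgroup.zpowers t).Normal] (himg : Cfsg.IsThreeTranspositionSet ((QuotientGroup.mk : G → G ⧸ Subgroup.zpowers t) '' D)) : Cfsg.IsThreeTranspositionSet D := by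
  classical
  have hs : ∀ d ∈ D, d * d = 1 := fun d hd => H94.mul_self_of_orderOf (hinv d hd)
  have hz : ∀ x : G, (QuotientGroup.mk x : G ⧸ Subgroup.zpowers t) = 1 → x = 1 ∨ x = t := by
    intro x hx
    rw [QuotientGroup.eq_one_iff, mem_zpowers_iff_mem_range_orderOf, ht] at hx
    obtain ⟨k, hk, rfl⟩ := Finset.mem_image.1 hx
    have : k < 2 := Finset.mem_range.1 hk
    interval_cases k <;> simp
  have hc : ∀ g, g * t = t * g := Subgroup.mem_center_iff.1 htZ
  refine ⟨hinv, fun d hd e he => ?_⟩
  have hdi := H94.inv_eq_of_mul_self (hs d hd)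
  have hei := H94.inv_eq_of_mul_self (hs e he)
  rcases himg.2 _ ⟨d, hd, rfl⟩ _ ⟨e, he, rfl⟩ with h | h
  · rcases hz ((d * e) ^ 2) (by simpa using h) with h1 | h1
    · exact Or.inl h1
    · exfalso
      apply hDt e he
      have : e * t = d * e * d⁻¹ := by
        rw [hc, ← h1, hdi, pow_two, ← mul_assoc, H94.mul_mul_self_cancel (hs e he)]
      rw [this]; exact hconj d e he
  · rcases hz ((d * e) ^ 3) (by simpa using h) with h1 | h1
    · exact Or.inr h1
    · exfalso
      apply hDt e he
      have : e * t = (d * e) * d * (d * e)⁻¹ := by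
        rw [hc, ← h1, mul_inv_rev, hdi, hei]
        simp only [pow_succ, pow_zero, one_mul, mul_assoc, hs e he, mul_one]
      rw [this]; exact hconj _ d hd

end Cfsg.Agent.S5364
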