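import Cfsg.Statements.S5365
import Cfsg.Agent.Base
import Cfsg.Agent.Lib.ThreeTrans.VW

set_option autoImplicit false
open Cfsg

namespace Cfsg.Agent.S5365

theorem s3_words : ∀ σ : Equiv.Perm (Fin 3), σ = 1 ∨ σ = Equiv.swap 0 1 ∨ σ = Equiv.swap 1 2 ∨
    σ = Equiv.swap 0 1 * Equiv.swap 1 2 ∨ σ = Equiv.swap 1 2 * Equiv.swap 0 1 ∨
    σ = Equiv.swap 0 1 * Equiv.swap 1 2 * Equiv.swap 0 1 := by decide

set_option synthInstance.maxSize 2000 in
set_option synthInstance.maxHeartbeats 400000 in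
theorem s3_a : ∀ x y : Equiv.Perm (Fin 3), x * x = 1 → x ≠ 1 → y * y = 1 → y ≠ 1 →
    x * y = y * x → x = y := by decide

set_option synthInstance.maxSize 2000 in
set_option synthInstance.maxHeartbeats 400000 in
theorem s3_b : ∀ x y z : Equiv.Perm (Fin 3), x * x = 1 → x ≠ 1 → y * y = 1 → y ≠ 1 →
    z * z = 1 → z ≠ 1 → x ≠ y → z = x ∨ z = y ∨ z = x * y * x := by decide

theorem s3_c : ∀ x : Equiv.Perm (Fin 3), x * Equiv.swap 0 1 = Equiv.swap 0 1 * x →
    x * Equiv.swap 1 2 = Equiv.swap 1 2 * x → x = 1 := by decide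

theorem s3_mem {G : Type*} [Group G] (φ : Equiv.Perm (Fin 3) →* G) (H : Subgroup G)
    (h1 : φ (Equiv.swap 0 1) ∈ H) (h2 : φ (Equiv.swap 1 2) ∈ H) (σ : Equiv.Perm (Fin 3)) :
    φ σ ∈ H := by
  rcases s3_words σ with rfl | rfl | rfl | rfl | rfl | rfl <;> try simp only [map_mul, map_one]
  exacts [one_mem _, h1, h2, mul_mem h1 h2, mul_mem h2 h1, mul_mem (mul_mem h1 h2) h1]

theorem s3_comm {G : Type*} [Group G] (φ : Equiv.Perm (Fin 3) →* G) {x : G}
    (h1 : Commute (φ (Equiv.swap 0 1)) x) (h2 : Commute (φ (Equiv.swap 1 2)) x)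
    (σ : Equiv.Perm (Fin 3)) : Commute (φ σ) x :=
  Subgroup.mem_centralizer_singleton_iff.1 (s3_mem φ (Subgroup.centralizer {x})
    (Subgroup.mem_centralizer_singleton_iff.2 h1) (Subgroup.mem_centralizer_singleton_iff.2 h2) σ)

/-- Let D be a non-empty conjugation-invariant set of involutions of a finite group G satisfying the 3-transposition order conditions, and suppose that for every d in D the members of D other than d commuting with d generate a subgroup isomorphic to the symmetric group of degree 3, and the largest normal 3-subgroup of the centralizer of d has order 3. Then the subgroup generated by D is isomorphic to the symmetric group of degree 5 or to the direct product of two symmetric groups of degree 3. -/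
theorem result {G : Type*} [Group G] [Finite G] {D : Set G} (hD : Cfsg.IsThreeTranspositionSet D) (hconj : ∀ g : G, ∀ d ∈ D, g * d * g⁻¹ ∈ D) (hne : D.Nonempty) (hloc : ∀ d ∈ D, Nonempty (↥(Subgroup.closure {y : G | y ∈ D ∧ y ≠ d ∧ Commute d y}) ≃* Equiv.Perm (Fin 3)) ∧ Nat.card (Cfsg.pCore 3 ↥(Subgroup.centralizer ({d} : Set G))) = 3) : Nonempty (↥(Subgroup.closure D) ≃* Equiv.Perm (Fin 5)) ∨ Nonempty (↥(Subgroup.closure D) ≃* Equiv.Perm (Fin 3) × Equiv.Perm (Fin 3)) := by
  have hT : H94.TT D := ⟨hD, hconj⟩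
  have emb : ∀ d ∈ D, ∃ (K : Subgroup G) (ψ : K ≃* Equiv.Perm (Fin 3)),
      K = Subgroup.closure {y : G | y ∈ D ∧ y ≠ d ∧ Commute d y} ∧
      ∀ y (hy : y ∈ K), y ∈ D → ψ ⟨y, hy⟩ * ψ ⟨y, hy⟩ = 1 ∧ ψ ⟨y, hy⟩ ≠ 1 := by
    intro d hd
    obtain ⟨ψ⟩ := (hloc d hd).1
    refine ⟨_, ψ, rfl, fun y hy hyD => ⟨?_, fun h => ?_⟩⟩
    · rw [← map_mul, ← map_one ψ]
      exact congrArg ψ (Subtype.ext (hT.mul_self hyD))
    · exact hT.ne_one hyD (congrArg Subtype.val ((map_eq_one_iff ψ ψ.injective).1 h))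
  have L1 : ∀ d ∈ D, ∀ x ∈ D, ∀ y ∈ D, x ≠ d → y ≠ d → Commute d x → Commute d y →
      Commute x y → x = y := by
    intro d hd x hx y hy h1 h2 h3 h4 h5
    obtain ⟨K, ψ, hK, hψ⟩ := emb d hd
    have mx : x ∈ K := hK ▸ Subgroup.subset_closure ⟨hx, h1, h3⟩
    have my : y ∈ K := hK ▸ Subgroup.subset_closure ⟨hy, h2, h4⟩
    have := s3_a _ _ (hψ x mx hx).1 (hψ x mx hx).2 (hψ y my hy).1 (hψ y my hy).2 (by
      rw [← map_mul, ← map_mul]; exact congrArg ψ (Subtype.ext h5))
    exact congrArg Subtype.val (ψ.injective this)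
  have L3 : ∀ d ∈ D, ∀ x ∈ D, ∀ y ∈ D, ∀ z ∈ D, x ≠ d → y ≠ d → z ≠ d → Commute d x →
      Commute d y → Commute d z → x ≠ y → z = x ∨ z = y ∨ z = x * y * x := by
    intro d hd x hx y hy z hz h1 h2 h3 h4 h5 h6 h7
    obtain ⟨K, ψ, hK, hψ⟩ := emb d hd
    have mx : x ∈ K := hK ▸ Subgroup.subset_closure ⟨hx, h1, h4⟩
    have my : y ∈ K := hK ▸ Subgroup.subset_closure ⟨hy, h2, h5⟩
    have mz : z ∈ K := hK ▸ Subgroup.subset_closure ⟨hz, h3, h6⟩
    have := s3_b _ _ _ (hψ x mx hx).1 (hψ x mx hx).2 (hψ y my hy).1 (hψ y my hy).2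
      (hψ z mz hz).1 (hψ z mz hz).2 (fun h => h7 (congrArg Subtype.val (ψ.injective h)))
    simp only [← map_mul, ψ.injective.eq_iff] at this
    rcases this with h | h | h
    exacts [Or.inl (congrArg Subtype.val h), Or.inr (Or.inl (congrArg Subtype.val h)),
      Or.inr (Or.inr (congrArg Subtype.val h))]
  have L2 : ∀ d ∈ D, ∀ t : G, ∃ x ∈ D, x ≠ d ∧ Commute d x ∧ x ≠ t := by
    intro d hd t
    by_contra hc
    push Not at hc
    obtain ⟨ψ⟩ := (hloc d hd).1
    have hle : Subgroup.closure {y : G | y ∈ D ∧ y ≠ d ∧ Commute d y} ≤ Subgroup.zpowers t := by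
      rw [Subgroup.closure_le]
      rintro y ⟨h1, h2, h3⟩
      rw [hc y h1 h2 h3]; exact Subgroup.mem_zpowers t
    have h1 : ψ.symm (Equiv.swap 0 1) * ψ.symm (Equiv.swap 1 2) =
        ψ.symm (Equiv.swap 1 2) * ψ.symm (Equiv.swap 0 1) := by
      obtain ⟨i, hi⟩ := hle (ψ.symm (Equiv.swap 0 1)).2
      obtain ⟨j, hj⟩ := hle (ψ.symm (Equiv.swap 1 2)).2
      apply Subtype.ext
      simp only [Subgroup.coe_mul, ← hi, ← hj]
      exact (Commute.refl t).zpow_zpow i j
    rw [← map_mul, ← map_mul, ψ.symm.injective.eq_iff] at h1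
    exact absurd h1 (by decide)
  obtain ⟨d, hd⟩ := hne
  obtain ⟨a, ha, had, hda, -⟩ := L2 d hd 1
  obtain ⟨b, hb, hbd, hdb, hba⟩ := L2 d hd a
  obtain ⟨e, he, hea, hae, hed⟩ := L2 a ha d
  have nab : ¬ Commute a b := fun h => hba (L1 d hd a ha b hb had hbd hda hdb h).symm
  have nde : ¬ Commute d e := fun h => hed (L1 a ha d hd e he had.symm hea hda.symm hae h).symm
  by_cases hbe : Commute b e
  · right
    have Dd : ∀ z ∈ D, z ≠ d → Commute d z → z = a ∨ z = b ∨ z = a * b * a := fun z hz h1 h2 =>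
      L3 d hd a ha b hb z hz had hbd h1 hda hdb h2 hba.symm
    have De : ∀ z ∈ D, z ≠ e → Commute e z → z = a ∨ z = b ∨ z = a * b * a := fun z hz h1 h2 =>
      L3 e he a ha b hb z hz hea.symm (fun h => nab (h ▸ hae)) h1 hae.symm hbe.symm h2 hba.symm
    have Da : ∀ z ∈ D, z ≠ a → Commute a z → z = d ∨ z = e ∨ z = d * e * d := fun z hz h1 h2 =>
      L3 a ha d hd e he z hz had.symm hea h1 hda.symm hae h2 hed.symm
    have Db : ∀ z ∈ D, z ≠ b → Commute b z → z = d ∨ z = e ∨ z = d * e * d := fun z hz h1 h2 =>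
      L3 b hb d hd e he z hz hbd.symm (fun h => nab (h ▸ hae)) h1 hdb.symm hbe h2 hed.symm
    have c1 : ∀ x z : G, Commute x a → Commute x b → (z = a ∨ z = b ∨ z = a * b * a) →
        Commute x z := by
      rintro x z h1 h2 (rfl | rfl | rfl)
      exacts [h1, h2, (h1.mul_right h2).mul_right h1]
    have c2 : ∀ x z : G, Commute x d → Commute x e → (z = d ∨ z = e ∨ z = d * e * d) →
        Commute x z := by
      rintro x z h1 h2 (rfl | rfl | rfl)
      exacts [h1, h2, (h1.mul_right h2).mul_right h1]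
    have Wab : H94.Wrel D a b := fun f hf =>
      ⟨fun h => ⟨fun h1 => nab (h1 ▸ h.2), c2 b f hdb.symm hbe (Da f hf h.1 h.2)⟩,
        fun h => ⟨fun h1 => nab (h1 ▸ h.2).symm, c2 a f hda.symm hae (Db f hf h.1 h.2)⟩⟩
    have Wde : H94.Wrel D d e := fun f hf =>
      ⟨fun h => ⟨fun h1 => nde (h1 ▸ h.2), c1 e f hae.symm hbe.symm (Dd f hf h.1 h.2)⟩,
        fun h => ⟨fun h1 => nde (h1 ▸ h.2).symm, c1 d f hda hdb (De f hf h.1 h.2)⟩⟩
    have Oab := hT.mul_mem_pCore_three ha hb Wab
    have Ode := hT.mul_mem_pCore_three hd he Wde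
    have hall : ∀ g ∈ D, (g = d ∨ g = e ∨ g = d * e * d) ∨ (g = a ∨ g = b ∨ g = a * b * a) := by
      intro g hg
      by_contra hc
      rw [not_or] at hc
      have n1 : ¬ Commute d g := fun h => hc.2 (Dd g hg (fun h => hc.1 (Or.inl h)) h)
      have n2 : ¬ Commute a g := fun h => hc.1 (Da g hg (fun h => hc.2 (Or.inl h)) h)
      obtain ⟨φ, -, h1, h2, h3⟩ := H94.TS.exists_perm4 hD hd hg ha had.symm hda n1
        (fun h => n2 h.symm)
      have cent : ∀ c ∈ Cfsg.pCore 3 G, Commute c d → ∃ k : ℤ, c = (a * b) ^ k := by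
        intro c hc hcd
        let C := Subgroup.centralizer ({d} : Set G)
        have m1 : c ∈ C := Subgroup.mem_centralizer_singleton_iff.2 hcd
        have m2 : a * b ∈ C :=
          Subgroup.mem_centralizer_singleton_iff.2 (hda.symm.mul_left hdb.symm)
        have m3 : (⟨c, m1⟩ : C) ∈ Cfsg.pCore 3 C := H1.pCore_subgroupOf_le C hc
        have m4 : (⟨a * b, m2⟩ : C) ∈ Cfsg.pCore 3 C := H1.pCore_subgroupOf_le C Oab
        haveI : Fact (Nat.Prime 3) := ⟨Nat.prime_three⟩
        have h5 := zpowers_eq_top_of_prime_card (G := Cfsg.pCore 3 C) (hloc d hd).2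
          (g := ⟨_, m4⟩) (by
            intro h
            have h6 : a * b = 1 := congrArg (fun x : Cfsg.pCore 3 C => ((x : C) : G)) h
            exact nab (by
              rw [eq_inv_of_mul_eq_one_left h6, hT.inv hb]))
        obtain ⟨k, hk⟩ : (⟨_, m3⟩ : Cfsg.pCore 3 C) ∈ Subgroup.zpowers ⟨_, m4⟩ :=
          h5 ▸ Subgroup.mem_top _
        exact ⟨k, (congrArg (fun x : Cfsg.pCore 3 C => ((x : C) : G)) hk).symm⟩
      have iab : (d * a) * (a * b) * (d * a)⁻¹ = (a * b)⁻¹ := by
        rw [mul_inv_rev, mul_inv_rev, hT.inv ha, hT.inv hb, hT.inv hd]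
        calc _ = d * ((a * a) * b * a) * d := by group
          _ = b * a := by
            rw [hT.mul_self ha, one_mul, (hdb.mul_right hda).eq, mul_assoc, hT.mul_self hd, mul_one]
      have ide : (d * a) * (d * e) * (d * a)⁻¹ = (d * e)⁻¹ := by
        rw [mul_inv_rev, mul_inv_rev, hT.inv ha, hT.inv he, hT.inv hd]
        calc _ = d * (a * (d * e) * a) * d := by group
          _ = e * d := by
            rw [(hda.symm.mul_right hae).eq, mul_assoc (d * e), hT.mul_self ha, mul_one,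
              ← mul_assoc, hT.mul_self hd, one_mul]
      have cc : Commute (d * e) (a * b) :=
        (hda.mul_left hae.symm).mul_right (hdb.mul_left hbe.symm)
      have I0 : ∀ x ∈ Cfsg.pCore 3 G, (d * a) * x * (d * a)⁻¹ = x⁻¹ := by
        intro x hx
        have hw := hT.conj x d hd
        have W := (hT.wrel_iff hd hw).2 (hT.mul_conj_mem hd hx)
        have h5 := (W a ha).1 ⟨had, hda⟩
        obtain ⟨i, hi⟩ : ∃ i : ℤ, x * d * x⁻¹ = (d * e) ^ i * d * ((d * e) ^ i)⁻¹ := by
          rcases Da _ hw h5.1.symm h5.2.symm with h | h | h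
          · exact ⟨0, by simp [h]⟩
          · exact ⟨1, by rw [h, zpow_one, hT.conj_mul_eq hd he nde]⟩
          · refine ⟨-1, ?_⟩
            rw [h, zpow_neg_one, inv_inv, mul_inv_rev, hT.inv hd, hT.inv he, hT.braid hd he nde]
            calc _ = e * d * (1 * e) := by group
              _ = _ := by rw [← hT.mul_self hd]; group
        obtain ⟨k, hk⟩ := cent (((d * e) ^ i)⁻¹ * x) (mul_mem (inv_mem (zpow_mem Ode i)) hx) (by
          rw [← H94.conj_eq_self_iff]
          calc _ = ((d * e) ^ i)⁻¹ * (x * d * x⁻¹) * (d * e) ^ i := by group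
            _ = d := by rw [hi]; group)
        have hx' : x = (d * e) ^ i * (a * b) ^ k := by rw [← hk]; group
        rw [hx']
        calc _ = ((d * a) * (d * e) * (d * a)⁻¹) ^ i * ((d * a) * (a * b) * (d * a)⁻¹) ^ k := by
              rw [conj_zpow, conj_zpow]; group
          _ = _ := by rw [iab, ide, (cc.zpow_zpow i k).eq, inv_zpow, inv_zpow, ← mul_inv_rev]
      have I1 : ∀ h x : G, x ∈ Cfsg.pCore 3 G →
          (h * (d * a) * h⁻¹) * x * (h * (d * a) * h⁻¹)⁻¹ = x⁻¹ := by
        intro h x hx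
        have := I0 (h⁻¹ * x * h⁻¹⁻¹) (Subgroup.Normal.conj_mem inferInstance _ hx _)
        calc _ = h * ((d * a) * (h⁻¹ * x * h⁻¹⁻¹) * (d * a)⁻¹) * h⁻¹ := by group
          _ = x⁻¹ := by rw [this]; group
      have e1 : φ (Equiv.swap 1 3) * (d * a) * (φ (Equiv.swap 1 3))⁻¹ =
          (d * a) * (g * (d * a) * g⁻¹) := by
        rw [← h1, ← h2, ← h3]
        simp only [← map_mul, ← map_inv]
        congr 1
        decide
      have e2 := I1 (φ (Equiv.swap 1 3)) _ Oab
      rw [e1] at e2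
      have e3 : (d * a) * (g * (d * a) * g⁻¹) * (a * b) * ((d * a) * (g * (d * a) * g⁻¹))⁻¹ =
          a * b := by
        calc _ = (d * a) * ((g * (d * a) * g⁻¹) * (a * b) * (g * (d * a) * g⁻¹)⁻¹) * (d * a)⁻¹ := by
              group
          _ = a * b := by rw [I1 g _ Oab, I0 _ (inv_mem Oab), inv_inv]
      rw [e3, mul_inv_rev, hT.inv ha, hT.inv hb] at e2
      exact nab e2
    obtain ⟨φ₁, p1, p2⟩ := H94.exists_hom_perm3 (hT.mul_self hd) (hT.mul_self he)
      (hT.braid hd he nde)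
    obtain ⟨φ₂, q1, q2⟩ := H94.exists_hom_perm3 (hT.mul_self ha) (hT.mul_self hb)
      (hT.braid ha hb nab)
    have i1 := H94.perm3_injective φ₁ (by rw [p1, p2]; exact hed.symm)
    have i2 := H94.perm3_injective φ₂ (by rw [q1, q2]; exact hba.symm)
    have hc : ∀ σ τ, Commute (φ₁ σ) (φ₂ τ) := fun σ τ =>
      s3_comm φ₁ (p1 ▸ (s3_comm φ₂ (q1 ▸ hda.symm) (q2 ▸ hdb.symm) τ).symm)
        (p2 ▸ (s3_comm φ₂ (q1 ▸ hae) (q2 ▸ hbe) τ).symm) σ
    let ψ := MonoidHom.noncommCoprod φ₁ φ₂ hc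
    have hψ : ∀ σ τ, ψ (σ, τ) = φ₁ σ * φ₂ τ := fun σ τ => rfl
    have inj : Function.Injective ψ := by
      rw [injective_iff_map_eq_one]
      rintro ⟨σ, τ⟩ h
      rw [hψ] at h
      have h1 : ∀ ρ, σ * ρ = ρ * σ := fun ρ => i1 (by
        rw [map_mul, map_mul, eq_inv_of_mul_eq_one_left h]
        exact (hc ρ τ).symm.inv_left)
      have h2 := s3_c σ (h1 _) (h1 _)
      rw [h2, map_one, one_mul] at h
      rw [h2, (map_eq_one_iff φ₂ i2).1 h]
      rfl
    have hr : Subgroup.closure D = ψ.range := by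
      apply le_antisymm
      · rw [Subgroup.closure_le]
        intro g hg
        have m1 : d ∈ ψ.range := ⟨(Equiv.swap 0 1, 1), by rw [hψ, p1, map_one, mul_one]⟩
        have m2 : e ∈ ψ.range := ⟨(Equiv.swap 1 2, 1), by rw [hψ, p2, map_one, mul_one]⟩
        have m3 : a ∈ ψ.range := ⟨(1, Equiv.swap 0 1), by rw [hψ, q1, map_one, one_mul]⟩
        have m4 : b ∈ ψ.range := ⟨(1, Equiv.swap 1 2), by rw [hψ, q2, map_one, one_mul]⟩
        rcases hall g hg with (rfl | rfl | rfl) | (rfl | rfl | rfl)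
        exacts [m1, m2, mul_mem (mul_mem m1 m2) m1, m3, m4, mul_mem (mul_mem m3 m4) m3]
      · rintro _ ⟨⟨σ, τ⟩, rfl⟩
        rw [hψ]
        exact mul_mem (s3_mem φ₁ _ (p1 ▸ Subgroup.subset_closure hd) (p2 ▸ Subgroup.subset_closure he) σ)
          (s3_mem φ₂ _ (q1 ▸ Subgroup.subset_closure ha) (q2 ▸ Subgroup.subset_closure hb) τ)
    exact ⟨(MulEquiv.subgroupCongr hr).trans (MonoidHom.ofInjective inj).symm⟩
  · left
    obtain ⟨φ, p1, p2, p3, p4⟩ := H94.exists_hom_perm5 (hT.mul_self ha) (hT.mul_self hb)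
      (hT.mul_self he) (hT.mul_self hd) (hT.braid ha hb nab) (hT.braid hb he hbe)
      (hT.braid he hd (fun h => nde h.symm)) hae hda.symm hdb.symm
    have inj := H94.perm_injective_of_five_le (by simp) φ
      (σ := Equiv.swap 0 1) (τ := Equiv.swap 1 2) ⟨0, 1, by decide, rfl⟩ ⟨1, 2, by decide, rfl⟩
      (by rw [p1, p2]; exact hba.symm)
    have hsw : ∀ i j : Fin 5, i ≠ j → φ (Equiv.swap i j) ∈ D := by
      intro i j hij
      obtain ⟨σ, hσ⟩ := H94.exists_conj_of_class (H94.class_swap (Fin 5))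
        (a := Equiv.swap 0 1) (b := Equiv.swap i j) ⟨0, 1, by decide, rfl⟩ ⟨i, j, hij, rfl⟩
      rw [← hσ, map_mul, map_mul, map_inv, p1]
      exact hT.conj _ _ ha
    have hr : Subgroup.closure D = φ.range := by
      apply le_antisymm
      · rw [Subgroup.closure_le]
        intro g hg
        by_contra hgr
        have pair : ∀ i j k l : Fin 5, i ≠ j → k ≠ l → k ≠ 4 →
            Equiv.swap k l ≠ Equiv.swap i j → Equiv.swap k 4 ≠ Equiv.swap i j →
            Equiv.swap i j * Equiv.swap k l = Equiv.swap k l * Equiv.swap i j →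
            Equiv.swap i j * Equiv.swap k 4 = Equiv.swap k 4 * Equiv.swap i j →
            Equiv.swap k l ≠ Equiv.swap k 4 → ¬ Commute (φ (Equiv.swap i j)) g := by
          intro i j k l h1 h2 h3 h4 h5 h6 h7 h8 hc
          rcases L3 _ (hsw i j h1) _ (hsw k l h2) _ (hsw k 4 h3) g hg (inj.ne h4) (inj.ne h5)
            (fun h => hgr ⟨_, h.symm⟩) (Commute.map h6 φ) (Commute.map h7 φ) hc (inj.ne h8) with
            h | h | h
          · exact hgr ⟨_, h.symm⟩
          · exact hgr ⟨_, h.symm⟩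
          · exact hgr ⟨_, by rw [h, ← map_mul, ← map_mul]⟩
        have sp : ∀ i j k l : Fin 5, i ≠ j → k ≠ l → Equiv.swap i j ≠ Equiv.swap k l →
            Equiv.swap i j * Equiv.swap k l = Equiv.swap k l * Equiv.swap i j →
            ¬ Commute (φ (Equiv.swap i j)) g → ¬ Commute (φ (Equiv.swap k l)) g →
            Commute g (φ (Equiv.swap i j * Equiv.swap k l) * g *
              (φ (Equiv.swap i j * Equiv.swap k l))⁻¹) ∧
            φ (Equiv.swap i j * Equiv.swap k l) * g * (φ (Equiv.swap i j * Equiv.swap k l))⁻¹ ≠ g := by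
          intro i j k l h1 h2 h3 h4 h5 h6
          rw [map_mul]
          exact H94.TS.string_partner hD (hsw i j h1) (hsw k l h2) hg (inj.ne h3)
            (Commute.map h4 φ) h5 (fun h => h6 h.symm)
        obtain ⟨a1, a2⟩ := sp 0 1 2 3 (by decide) (by decide) (by decide) (by decide)
          (pair 0 1 2 3 (by decide) (by decide) (by decide) (by decide) (by decide) (by decide)
            (by decide) (by decide))
          (pair 2 3 0 1 (by decide) (by decide) (by decide) (by decide) (by decide) (by decide)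
            (by decide) (by decide))
        obtain ⟨b1, b2⟩ := sp 0 2 1 3 (by decide) (by decide) (by decide) (by decide)
          (pair 0 2 1 3 (by decide) (by decide) (by decide) (by decide) (by decide) (by decide)
            (by decide) (by decide))
          (pair 1 3 0 2 (by decide) (by decide) (by decide) (by decide) (by decide) (by decide)
            (by decide) (by decide))
        obtain ⟨c1, c2⟩ := sp 0 3 1 2 (by decide) (by decide) (by decide) (by decide)
          (pair 0 3 1 2 (by decide) (by decide) (by decide) (by decide) (by decide) (by decide)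
            (by decide) (by decide))
          (pair 1 2 0 3 (by decide) (by decide) (by decide) (by decide) (by decide) (by decide)
            (by decide) (by decide))
        have e1 : φ (Equiv.swap 0 2 * Equiv.swap 1 3) =
            φ (Equiv.swap 0 1 * Equiv.swap 2 3) * φ (Equiv.swap 0 3 * Equiv.swap 1 2) := by
          rw [← map_mul]; congr 1; decide
        rw [e1] at b1 b2
        generalize φ (Equiv.swap 0 1 * Equiv.swap 2 3) = u at *
        generalize φ (Equiv.swap 0 3 * Equiv.swap 1 2) = w at *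
        have h1 := L1 g hg _ (hT.conj u g hg) _ (hT.conj (u * w) g hg) a2 b2 a1 b1 (by
          have := (H94.conj_commute_iff u _ _).2 c1
          simpa [mul_assoc] using this)
        apply c2
        calc _ = u⁻¹ * (u * w * g * (u * w)⁻¹) * u := by group
          _ = g := by rw [← h1]; group
      · rw [H94.range_eq_closure_of_swaps, Subgroup.closure_le]
        rintro _ ⟨i, rfl⟩
        exact Subgroup.subset_closure (hsw _ _ (Fin.castSucc_lt_succ).ne)
    exact ⟨(MulEquiv.subgroupCongr hr).trans (MonoidHom.ofInjective inj).symm⟩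

end Cfsg.Agent.S5365
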