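import Cfsg.Statements.S5366
import Cfsg.Agent.Lib.L0.FSpace

set_option autoImplicit false
open Cfsg

namespace Cfsg.Agent.S5366

/-- Let L be a nondegenerate Fischer space on the point type X (every point on a line). Then for every point x the map t(x) — sending a point collinear with x to the third point of their common line and fixing every other point — is a permutation of X of order 2 and an automorphism of the line system; and the set of all t(x) satisfies the 3-transposition order conditions in the permutation group of X (any two have product of order at most 3). -/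
theorem result {X : Type*} (L : Set (Set X)) (hL : Cfsg.IsFischerSpace L) (hnd : Cfsg.LineSystem.IsNondegenerate L) : (∀ x : X, ∃ σ : Equiv.Perm X, ⇑σ = Cfsg.LineSystem.lineMap L x ∧ orderOf σ = 2 ∧ Cfsg.LineSystem.IsIso L L σ) ∧ Cfsg.IsThreeTranspositionSet {σ : Equiv.Perm X | ∃ x : X, ⇑σ = Cfsg.LineSystem.lineMap L x} := by
  have key : ∀ σ : Equiv.Perm X, (∃ x : X, ⇑σ = Cfsg.LineSystem.lineMap L x) →
      ∃ x, σ = L0.FS.tp hL x := fun σ ⟨x, hx⟩ => ⟨x, Equiv.ext (congrFun hx)⟩
  refine ⟨fun x => ⟨L0.FS.tp hL x, rfl,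
    H94.orderOf_eq_two (L0.FS.tp_mul_self hL x) (L0.FS.tp_ne_one hL hnd x), L0.FS.tp_iso hL x⟩,
    H94.TS.mk' (fun d hd => ?_) (fun d hd => ?_) (fun d hd e he => ?_)⟩
  · obtain ⟨x, rfl⟩ := key d hd
    exact L0.FS.tp_mul_self hL x
  · obtain ⟨x, rfl⟩ := key d hd
    exact L0.FS.tp_ne_one hL hnd x
  · obtain ⟨x, rfl⟩ := key d hd
    obtain ⟨y, rfl⟩ := key e he
    exact L0.FS.tp_rel hL x y

end Cfsg.Agent.S5366
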