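import Cfsg.Statements.S5368
import Cfsg.Agent.Lib.Fischer.Final
import Cfsg.Agent.S5361

set_option autoImplicit false
open scoped MatrixGroups
open Cfsg

namespace Cfsg.Agent.S5368

/-- Fischer's Theorem on 3-transposition groups. Let D be a conjugacy class of 3-transpositions generating the finite group G, and suppose the centre of G is trivial and the commutator subgroup of G is simple (possibly of prime order). Then one of the following holds: (1) G is isomorphic to a symmetric group with D going to the transpositions; (2) G is isomorphic to a symplectic group over the field with two elements with D going to the transvections (elements g with g − 1 of rank one); (3) G is isomorphic to a projective special unitary group over the field with four elements with D going to the images of the unitary transvections; (4) G is isomorphic to the full isometry group of a hyperbolic or elliptic quadratic form over the field with two elements with D going to the orthogonal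 transvections; (5) G is isomorphic to the subgroup of the isometry group of a non-degenerate quadratic form over the field with three elements generated by the reflections in vectors of a fixed non-zero norm, taken modulo its centre, with D going to the images of those reflections; (6) G with D is of type M(22), M(23) or M(24). -/
theorem result {G : Type*} [Group G] [Finite G] {D : Set G} (hD : Cfsg.IsThreeTranspositionClass D) (hZ : Subgroup.center G = ⊥) (hsimple : IsSimpleGroup (commutator G)) : (∃ n : ℕ, ∃ e : G ≃* Equiv.Perm (Fin n), e '' D = {σ : Equiv.Perm (Fin n) | σ.IsSwap}) ∨ (∃ m : ℕ, ∃ e : G ≃* Matrix.symplecticGroup (Fin m) (ZMod 2), e '' D = {g : Matrix.symplecticGroup (Fin m) (ZMod 2) | ((g : Matrix (Fin m ⊕ Fin m) (Fin m ⊕ Fin m) (ZMod 2)) - 1).rank = 1}) ∨ (∃ (n : ℕ) (F : Type) (_ : Field F) (_ : Fintype F), Fintype.card F = 4 ∧ ∃ e : G ≃* Cfsg.PSU n F 2, e '' D = (QuotientGroup.mk : ↥(Cfsg.SU n F 2) → Cfsg.PSU n F 2) '' {g : ↥(Cfsg.SU n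 F 2) | (((g : Matrix.SpecialLinearGroup (Fin n) F) : Matrix (Fin n) (Fin n) F) - 1).rank = 1}) ∨ ((∃ m : ℕ, ∃ e : G ≃* ↥(Cfsg.isometryGroup (ZMod 2) (Cfsg.quadFormPlus m (ZMod 2))), e '' D = {g : ↥(Cfsg.isometryGroup (ZMod 2) (Cfsg.quadFormPlus m (ZMod 2))) | (((g : GL (Fin m ⊕ Fin m) (ZMod 2)) : Matrix (Fin m ⊕ Fin m) (Fin m ⊕ Fin m) (ZMod 2)) - 1).rank = 1}) ∨ (∃ m : ℕ, ∃ e : G ≃* ↥(Cfsg.isometryGroup (ZMod 2) (Cfsg.quadFormMinus m (ZMod 2) 1 1)), e '' D = {g : ↥(Cfsg.isometryGroup (ZMod 2) (Cfsg.quadFormMinus m (ZMod 2) 1 1)) | (((g : GL ((Fin m ⊕ Fin m) ⊕ Fin 2) (ZMod 2)) : Matrix ((Fin m ⊕ Fin m) ⊕ Fin 2) ((Fin m ⊕ Fin m) ⊕ Fin 2) (ZMod 2)) - 1).rank = 1})) ∨ (∃ n : ℕ, ∃ Q : QuadraticForm (ZMod 3) (Fin n → ZMod 3), (QuadraticMap.polarBilin Q).Nondegenerate ∧ ∃ c : ZMod 3, c ≠ 0 ∧ ∃ e : G ≃* ↥(Cfsg.reflectionSubgroup (⇑Q) c) ⧸ Subgroup.center ↥(Cfsg.reflectionSubgroup (⇑Q) c), e '' D = (QuotientGroup.mk : ↥(Cfsg.reflectionSubgroup (⇑Q) c) → _) '' {g :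 ↥(Cfsg.reflectionSubgroup (⇑Q) c) | (g : ↥(Cfsg.isometryGroup (ZMod 3) (⇑Q))) ∈ Cfsg.reflectionsOfNorm (⇑Q) c}) ∨ (Cfsg.IsOfTypeM22 G D ∨ Cfsg.IsOfTypeM23 G D ∨ Cfsg.IsOfTypeM24 G D) := by
  have hT := H56.TC.of_class hD
  by_cases hw : ∃ a ∈ D, ∃ b ∈ D, a ≠ b ∧ Commute a b
  swap
  · left
    have hw' : ∀ a ∈ D, ∀ b ∈ D, Commute a b → a = b := fun a ha b hb c => by_contra fun n => hw ⟨a, ha, b, hb, n, c⟩
    obtain ⟨a, ha, b, hb, n⟩ := hT.exists_ne ((Subgroup.nontrivial_iff_ne_bot _).1 inferInstance)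
    obtain ⟨L, hL, rfl, rfl⟩ := hT.q3.exists_ln ha hb fun c => n (hw' _ ha _ hb c)
    have : Fact (Nat.Prime 3) := ⟨Nat.prime_three⟩
    have hp : IsPGroup 3 (commutator G) :=
      H1.isPGroup_pCore.to_le (H56.commutator_le_pCore_of_width_one hT.isGroup ha hw')
    have c3 : Nat.card (commutator G) = 3 := by
      have := hp.center_nontrivial
      let _ := Group.commGroupOfCenterEqTop ((Subgroup.Normal.eq_bot_or_eq_top inferInstance).resolve_left
        ((Subgroup.nontrivial_iff_ne_bot (Subgroup.center (commutator G))).1 this))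
      have h1 := IsSimpleGroup.prime_card (α := commutator G)
      obtain ⟨k, hk⟩ := IsPGroup.iff_card.1 hp
      rw [hk] at h1 ⊢
      rw [h1.eq_one_of_pow, pow_one]
    have m : ∀ x ∈ D, x * (L 0)⁻¹ ∈ commutator G := fun x hx => by
      obtain ⟨g, rfl⟩ := hT.trans _ ha x hx
      exact Subgroup.commutator_mem_commutator (Subgroup.mem_top g) (Subgroup.mem_top _)
    have hb : Function.Bijective fun i => (⟨_, m _ (hL.mem i)⟩ : commutator G) :=
      (Nat.bijective_iff_injective_and_card _).2 ⟨fun i j e => hL.inj (by simpa using e), by simp [c3]⟩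
    have eD : L '' {i | True} = D := by
      ext x
      refine ⟨by rintro ⟨i, -, rfl⟩; exact hL.mem i, fun hx => ?_⟩
      obtain ⟨i, e⟩ := hb.2 ⟨_, m x hx⟩
      exact ⟨i, trivial, by simpa using e⟩
    let s : ZMod 3 → Equiv.Perm (Fin 3) := fun k : Fin 3 => Equiv.swap (k + 1) (k + 2)
    have eS : s '' {i | True} = {σ | σ.IsSwap} := by
      ext σ
      simp only [Set.mem_image, Set.mem_ofPred_eq, true_and, Equiv.Perm.IsSwap]
      revert σ; decide
    obtain ⟨e, he⟩ := H94.exists_equiv_of_center_eq_bot (fun _ => True) L s (fun i _ => hL.sq i) (by decide)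
      (fun i j _ _ => ⟨_, trivial, hL.refl i j, by revert i j; decide⟩)
      (fun i j _ _ => by rw [hL.inj.eq_iff]; revert i j; decide) (eD ▸ hT.gen) (eS ▸ Equiv.Perm.closure_isSwap) hZ
      (by rw [eq_bot_iff]; intro σ; rw [Subgroup.mem_center_iff, Subgroup.mem_bot]; revert σ; decide)
    exact ⟨3, e, by rw [← eD, ← eS, Set.image_image]; exact Set.image_congr he⟩
  have hp := (Cfsg.Agent.S5361.result hD hZ hw).1.1 hsimple
  have h := H56.FP.of_primitive hT.isGroup hp hw
  rcases h.locW_or with hW | ⟨φ, hφ⟩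
  swap
  · refine Or.inl ⟨5, φ.symm, ?_⟩
    ext σ
    exact ⟨by rintro ⟨y, hy, rfl⟩; exact (hφ _).1 (by simpa using hy), fun hσ => ⟨_, (hφ σ).2 hσ, by simp⟩⟩
  by_cases hV : H56.LocV D
  · rcases h.classify hp hZ hV hW with ⟨n, -, k⟩ | (⟨m, -, k⟩ | ⟨m, -, k⟩) | ⟨n, -, Q, hQ, k⟩ | k
    exacts [Or.inl ⟨n, k⟩, Or.inr (Or.inr (Or.inr (Or.inl (Or.inl ⟨m, k⟩)))),
      Or.inr (Or.inr (Or.inr (Or.inl (Or.inr ⟨m, k⟩)))),
      Or.inr (Or.inr (Or.inr (Or.inr (Or.inl ⟨n, Q, hQ, 1, one_ne_zero, k⟩)))),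
      Or.inr (Or.inr (Or.inr (Or.inr (Or.inr k))))]
  rcases h.sp_or_u hZ hV with k | ⟨n, -, e, he⟩
  · exact Or.inr (Or.inl k)
  · refine Or.inr (Or.inr (Or.inl ⟨n, H30.F4, inferInstance, inferInstance, rfl, e, he.trans ?_⟩))
    congr 1
    ext g
    exact H56.mem_TV_iff_rank

end Cfsg.Agent.S5368
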