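import Cfsg.Statements.S5381
import Mathlib
import Cfsg.Agent.Lib.Co1K.Three
import Cfsg.Agent.S1718

set_option autoImplicit false
open Cfsg

namespace Cfsg.Agent.S5381

open scoped commutatorElement in
open Subgroup H16 H40.Suz H95 in
theorem fin {G : Type*} [Group G] (e : G ≃* Spor.Co1) (X : Subgroup G)
    (hX : X.map e.toMonoidHom = zpowers (mk1 om)) [(X.subgroupOf (centralizer (X : Set G))).Normal] :
    IsQuasisimple (centralizer (X : Set G)) ∧
      Spor.IsoSuz (centralizer (X : Set G) ⧸ X.subgroupOf (centralizer (X : Set G))) := by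
  have memX : ∀ a : G, a ∈ X ↔ e a ∈ zpowers (mk1 om) := fun a => by
    rw [← hX]; exact (mem_map_iff_mem (f := e.toMonoidHom) e.injective).symm
  have memC : ∀ a : G, a ∈ centralizer (X : Set G) ↔ mk1 om * e a = e a * mk1 om := fun a => by
    constructor
    · intro h
      have := h (e.symm (mk1 om)) ((memX _).2 (by simp))
      simpa using congrArg e this
    · intro h b hb
      obtain ⟨n, hn⟩ := (memX b).1 hb
      apply e.injective
      rw [map_mul, map_mul, ← hn]
      exact (Commute.zpow_left h n).eq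
  let ρ : C6 →* centralizer (X : Set G) := ((e.symm.toMonoidHom.comp mk1).comp C6.subtype).codRestrict _
    fun g => (memC _).2 (by
      show mk1 om * e (e.symm (mk1 g)) = e (e.symm (mk1 g)) * mk1 om
      rw [e.apply_symm_apply, ← map_mul, ← map_mul, mem_C6.1 g.2])
  have hρ : ∀ g : C6, e (ρ g : G) = mk1 g := fun g => e.apply_symm_apply _
  have sρ : Function.Surjective ρ := fun a => by
    obtain ⟨g, hg⟩ := mk1_surj (e a)
    have := (memC _).1 a.2
    rw [← hg] at this
    refine ⟨⟨g, mem_C6.2 (comm_of_mk1 (by rw [orderOf_om]; decide) this.symm).symm⟩, Subtype.ext (e.injective ?_)⟩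
    rw [hρ, hg]
  obtain ⟨ξ, sξ, kξ⟩ := exists_cover
  let π := (QuotientGroup.mk' (X.subgroupOf (centralizer (X : Set G)))).comp ρ
  have sπ : Function.Surjective π := (QuotientGroup.mk'_surjective _).comp sρ
  have kπ : π.ker = N6 := by
    ext g
    rw [MonoidHom.mem_ker, MonoidHom.comp_apply, QuotientGroup.mk'_apply, QuotientGroup.eq_one_iff,
      mem_subgroupOf, memX, hρ, mem_subgroupOf, ← MonoidHom.map_zpowers, ← mem_comap, comap_map_eq,
      QuotientGroup.ker_mk']
  have iso : (centralizer (X : Set G) ⧸ X.subgroupOf (centralizer (X : Set G))) ≃* Spor.Suz :=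
    (QuotientGroup.quotientKerEquivOfSurjective π sπ).symm.trans
      ((QuotientGroup.quotientMulEquivOfEq (kπ.trans kξ.symm)).trans
        (QuotientGroup.quotientKerEquivOfSurjective ξ sξ))
  have hs := simple
  have nab : ¬ ∀ a b : Spor.Suz, a * b = b * a := fun h => by
    have hf := finite
    let _ : CommGroup Spor.Suz := { (inferInstance : Group Spor.Suz) with mul_comm := h }
    have := IsSimpleGroup.prime_card (α := Spor.Suz)
    rw [card] at this
    exact absurd (Nat.Prime.eq_two_or_odd' this) (by norm_num [Nat.odd_iff])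
  have p6 : commutator C6 = ⊤ := by
    have h1 : N6 ≤ commutator C6 := fun g hg => by
      rw [mem_subgroupOf, sup_eq] at hg
      obtain ⟨n, hn⟩ := hg
      have : g = (⟨z6, z6_mem⟩ : C6) ^ n := Subtype.ext hn.symm
      rw [this]; exact zpow_mem z6_mem_commutator n
    have h2 : commutator Spor.Suz = ⊤ := by
      refine (Normal.eq_bot_or_eq_top inferInstance).resolve_left fun h => nab fun a b => ?_
      have : ⁅a, b⁆ ∈ commutator Spor.Suz := commutator_mem_commutator (mem_top a) (mem_top b)
      rw [h, mem_bot, commutatorElement_eq_one_iff_mul_comm] at this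
      exact this
    have h3 : (commutator C6).map ξ = ⊤ := by
      rw [map_commutator_eq, MonoidHom.range_eq_top.2 sξ]; exact h2
    have := comap_map_eq ξ (commutator C6)
    rwa [h3, comap_top, kξ, sup_eq_left.2 h1, eq_comm] at this
  have hs' : IsSimpleGroup (centralizer (X : Set G) ⧸ X.subgroupOf (centralizer (X : Set G))) :=
    iso.isSimpleGroup
  have hz : center (centralizer (X : Set G)) = X.subgroupOf (centralizer (X : Set G)) := by
    have h1 : X.subgroupOf (centralizer (X : Set G)) ≤ center _ := fun a ha =>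
      mem_center_iff.2 fun b => Subtype.ext (b.2 a ha).symm
    have hn : ((center (centralizer (X : Set G))).map
      (QuotientGroup.mk' (X.subgroupOf (centralizer (X : Set G))))).Normal :=
      Normal.map inferInstance _ (QuotientGroup.mk'_surjective _)
    rcases hn.eq_bot_or_eq_top with h | h
    · rw [Subgroup.map_eq_bot_iff, QuotientGroup.ker_mk'] at h
      exact le_antisymm h h1
    · refine (nab fun a b => ?_).elim
      obtain ⟨a, rfl⟩ := iso.surjective a
      obtain ⟨b, rfl⟩ := iso.surjective b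
      obtain ⟨a, ha, rfl⟩ := h.ge (mem_top a)
      obtain ⟨b, rfl⟩ := QuotientGroup.mk'_surjective _ b
      rw [← map_mul, ← map_mul, ← map_mul, ← map_mul, mem_center_iff.1 ha b]
  refine ⟨⟨⟨?_⟩, (QuotientGroup.quotientMulEquivOfEq hz).isSimpleGroup⟩, ⟨iso⟩⟩
  have := map_commutator_eq C6 ρ
  rwa [p6, MonoidHom.range_eq_top.2 sρ, map_top_of_surjective _ sρ, eq_comm] at this


/-- Let G be a finite group of Conway type (involution z with generalized Fitting subgroup Q of its centralizer C extraspecial of order 2^9, C/Q the commutator subgroup of the isometry group of the hyperbolic quadratic form in dimension 8 over the field with two elements, z not weakly closed in Q), and let X be a subgroup of C of order 3 whose commutator subgroup with Q is non-abelian of order 8, contained in an elementary abelian subgroup Y of C of order 9 whose centralizer in Q is extraspecial of order 32 containing an elementary abelian subgroup of order 8. Then the centralizer of X in G is quasisimple and its quotient by X is isomorphic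 to the presented sporadic Suzuki group. -/
theorem result {G : Type*} [Group G] [Finite G] (z : G) (hz : orderOf z = 2) (Q : Subgroup (Subgroup.centralizer ({z} : Set G))) [Q.Normal] (hF : Cfsg.generalizedFittingSubgroup (Subgroup.centralizer ({z} : Set G)) = Q) (hQ : Cfsg.IsExtraspecial 2 Q) (hcard : Nat.card Q = 2 ^ 9) (e : (Subgroup.centralizer ({z} : Set G)) ⧸ Q ≃* Cfsg.Omega (ZMod 2) (Cfsg.quadFormPlus 4 (ZMod 2))) (hnwc : ∃ g : G, (∃ hq : g * z * g⁻¹ ∈ Subgroup.centralizer ({z} : Set G), (⟨g * z * g⁻¹, hq⟩ : Subgroup.centralizer ({z} : Set G)) ∈ Q) ∧ g * z * g⁻¹ ≠ z) (X : Subgroup (Subgroup.centralizer ({z} : Set G))) (hX : Nat.card X = 3) (hQX : Nat.card ↥⁅Q, X⁆ = 8) (hQXna : ¬ IsMulCommutative ↥⁅Q, X⁆) (Y₉ : Subgroup (Subgroup.centralizer ({z} : Set G))) (hXY : X ≤ Y₉) (hY₉ : Nat.card Y₉ = 9) (hY₉e : ∀ y ∈ Y₉, y ^ 3 = 1) (hCQ₉ : Cfsg.IsExtraspecial 2 ↥(Q ⊓ Subgroup.centralizer (Y₉ : Set (Subgroup.centralizer ({z} : Set G))))) (hCQ₉c : Nat.card ↥(Q ⊓ Subgroup.centralizer (Y₉ : Set (Subgroup.centralizer ({z}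 : Set G)))) = 32) (hCQ₉p : ∃ A : Subgroup (Subgroup.centralizer ({z} : Set G)), A ≤ Q ⊓ Subgroup.centralizer (Y₉ : Set (Subgroup.centralizer ({z} : Set G))) ∧ Cfsg.IsElementaryAbelian 2 A ∧ Nat.card A = 8) [((X.map (Subgroup.subtype (Subgroup.centralizer ({z} : Set G)))).subgroupOf (Subgroup.centralizer ((X.map (Subgroup.subtype (Subgroup.centralizer ({z} : Set G)))) : Set G))).Normal] : Cfsg.IsQuasisimple ↥(Subgroup.centralizer ((X.map (Subgroup.subtype (Subgroup.centralizer ({z} : Set G)))) : Set G)) ∧ Cfsg.Spor.IsoSuz (↥(Subgroup.centralizer ((X.map (Subgroup.subtype (Subgroup.centralizer ({z} : Set G)))) : Set G)) ⧸ (X.map (Subgroup.subtype (Subgroup.centralizer ({z} : Set G)))).subgroupOf (Subgroup.centralizer ((X.map (Subgroup.subtype (Subgroup.centralizer ({z} : Set G)))) : Set G))) := by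
  have h := H30.K.CT_of hz hF hQ hcard e
  obtain ⟨φ, hφ⟩ := h.exists_equiv (Cfsg.Agent.S1718.result z hz Q hF hQ hcard e hnwc) H30.K.oct
  have h' := hφ ▸ h.map φ
  have := Fact.mk Nat.prime_three
  obtain ⟨u, hu⟩ := (isCyclic_of_prime_card hX).exists_zpow_surjective
  have hXu : X = Subgroup.zpowers (u : Subgroup.centralizer ({z} : Set G)) := by
    refine le_antisymm (fun a ha => ?_) (by rw [Subgroup.zpowers_le]; exact u.2)
    obtain ⟨n, hn⟩ := hu ⟨a, ha⟩
    exact ⟨n, congrArg Subtype.val hn⟩
  have e1 : (X.map (Subgroup.subtype _)).map φ.toMonoidHom = Subgroup.zpowers (φ (u : G)) := by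
    rw [congrArg (fun Y : Subgroup (Subgroup.centralizer ({z} : Set G)) =>
      (Y.map (Subgroup.subtype _)).map φ.toMonoidHom) hXu, MonoidHom.map_zpowers, MonoidHom.map_zpowers]; rfl
  obtain ⟨g, hg⟩ := H30.K.core h' (u := φ (u : G))
    (by rw [← hφ, ← map_mul, ← map_mul, H95.mem_cent_iff.1 u.1.2])
    (by rw [← Nat.card_zpowers, ← e1, Subgroup.card_map_of_injective φ.injective, H95.card_map_cent, hX])
    (by rw [← e1, ← Subgroup.map_commutator, ← Subgroup.map_commutator,
      Subgroup.card_map_of_injective φ.injective, H95.card_map_cent, hQX])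
  refine fin (φ.trans (MulAut.conj g)) _ ?_
  rw [← hg, ← e1, Subgroup.map_map, Subgroup.map_map, Subgroup.map_map]; rfl

end Cfsg.Agent.S5381
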