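import Cfsg.Statements.S5385
import Mathlib
import Cfsg.Agent.Lib.Co1J.Syl
import Cfsg.Agent.S1718


set_option autoImplicit false
open Cfsg

namespace Cfsg.Agent.S5385

/-- Let G be a finite group of Conway type (involution z with generalized Fitting subgroup Q of its centralizer C extraspecial of order 2^9, C/Q the commutator subgroup of the isometry group of the hyperbolic quadratic form in dimension 8 over the field with two elements, z not weakly closed in Q), and let B be a subgroup of C of order 5 such that the centralizer of B in Q is extraspecial of order 32 containing no elementary abelian subgroup of order 8 (the quaternion-times-dihedral type). Then the layer L of the centralizer of B in G is isomorphic to the Hall–Janko group and the centralizer of L is isomorphic to the alternating group of degree 5. -/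
theorem result {G : Type*} [Group G] [Finite G] (z : G) (hz : orderOf z = 2) (Q : Subgroup (Subgroup.centralizer ({z} : Set G))) [Q.Normal] (hF : Cfsg.generalizedFittingSubgroup (Subgroup.centralizer ({z} : Set G)) = Q) (hQ : Cfsg.IsExtraspecial 2 Q) (hcard : Nat.card Q = 2 ^ 9) (e : (Subgroup.centralizer ({z} : Set G)) ⧸ Q ≃* Cfsg.Omega (ZMod 2) (Cfsg.quadFormPlus 4 (ZMod 2))) (hnwc : ∃ g : G, (∃ hq : g * z * g⁻¹ ∈ Subgroup.centralizer ({z} : Set G), (⟨g * z * g⁻¹, hq⟩ : Subgroup.centralizer ({z} : Set G)) ∈ Q) ∧ g * z * g⁻¹ ≠ z) (B : Subgroup (Subgroup.centralizer ({z} : Set G))) (hB : Nat.card B = 5) (hCQ : Cfsg.IsExtraspecial 2 ↥(Q ⊓ Subgroup.centralizer (B : Set (Subgroup.centralizer ({z} : Set G))))) (hCQcard : Nat.card ↥(Q ⊓ Subgroup.centralizer (B : Set (Subgroup.centralizer ({z} : Set G)))) = 32) (hminus : ∀ A : Subgroup (Subgroup.centralizer ({z} : Set G)), A ≤ Q ⊓ Subgroup.centralizer (B : Set (Subgroup.centralizer ({z} : Set G))) → Cfsg.IsElementaryAbelian 2 A → Nat.card A ≤ 4) : Cfsg.Spor.IsoJ2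 ↥(Cfsg.layer ↥(Subgroup.centralizer ((B.map (Subgroup.subtype (Subgroup.centralizer ({z} : Set G)))) : Set G))) ∧ Nonempty (↥(Subgroup.centralizer (((Cfsg.layer ↥(Subgroup.centralizer ((B.map (Subgroup.subtype (Subgroup.centralizer ({z} : Set G)))) : Set G))).map (Subgroup.subtype _)) : Set G)) ≃* alternatingGroup (Fin 5)) := by
  have h := H30.K.CT_of hz hF hQ hcard e
  obtain ⟨φ, hφ⟩ := h.exists_equiv (Cfsg.Agent.S1718.result z hz Q hF hQ hcard e hnwc) H15.oct0_mem
  have h' := hφ ▸ h.map φ
  have := Fact.mk Nat.prime_five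
  obtain ⟨u, hu⟩ := (isCyclic_of_prime_card hB).exists_zpow_surjective
  have hXu : B = Subgroup.zpowers (u : Subgroup.centralizer ({z} : Set G)) := by
    refine le_antisymm (fun a ha => ?_) (by rw [Subgroup.zpowers_le]; exact u.2)
    obtain ⟨n, hn⟩ := hu ⟨a, ha⟩
    exact ⟨n, congrArg Subtype.val hn⟩
  have e1 : (B.map (Subgroup.subtype _)).map φ.toMonoidHom = Subgroup.zpowers (φ (u : G)) := by
    rw [congrArg (fun Y : Subgroup (Subgroup.centralizer ({z} : Set G)) =>
      (Y.map (Subgroup.subtype _)).map φ.toMonoidHom) hXu, MonoidHom.map_zpowers, MonoidHom.map_zpowers]; rfl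
  obtain ⟨g, hg⟩ := H74.CoJ.core h' (u := φ (u : G))
    (by rw [H74.CoJ.ε, ← hφ, ← map_mul, ← map_mul, H95.mem_cent_iff.1 u.1.2])
    (by rw [← Nat.card_zpowers, ← e1, Subgroup.card_map_of_injective φ.injective, H95.card_map_cent, hB])
    (by
      rw [← hCQcard, ← H95.card_map_cent, ← Subgroup.card_map_of_injective (f := φ.toMonoidHom) φ.injective]
      congr 2
      ext v
      obtain ⟨v, rfl⟩ := φ.surjective v
      refine (Subgroup.mem_inf.trans ?_).trans (Subgroup.mem_map_iff_mem (f := φ.toMonoidHom) φ.injective).symm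
      rw [H95.mem_cent_iff, ← map_mul, ← map_mul, φ.injective.eq_iff]
      refine (and_congr_left' (Subgroup.mem_map_iff_mem (f := φ.toMonoidHom) φ.injective)).trans ⟨?_, ?_⟩
      · rintro ⟨⟨w, hw, rfl⟩, h2⟩
        refine ⟨w, ⟨hw, fun a ha => ?_⟩, rfl⟩
        obtain ⟨n, hn⟩ := hu ⟨a, ha⟩
        rw [show a = (u : Subgroup.centralizer ({z} : Set G)) ^ n from (congrArg Subtype.val hn).symm]
        exact ((show Commute w u from Subtype.ext h2).zpow_right n).eq.symm
      · rintro ⟨w, ⟨hw, h2⟩, rfl⟩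
        exact ⟨⟨w, hw, rfl⟩, congrArg Subtype.val (h2 _ u.2).symm⟩)
  refine H74.CoJ.layer_fin (φ.trans (MulAut.conj g)) ?_
  rw [← hg]
  refine Eq.trans ?_ (MonoidHom.map_zpowers (MulAut.conj g).toMonoidHom _)
  rw [← e1, Subgroup.map_map, Subgroup.map_map, Subgroup.map_map]; rfl

end Cfsg.Agent.S5385
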