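import Cfsg.Statements.S5386
import Mathlib
import Cfsg.Agent.Lib.Leech9.C7
import Cfsg.Agent.Lib.Leech9.C3D
import Cfsg.Agent.S1718

set_option autoImplicit false
open Cfsg

namespace Cfsg.Agent.S5386

/-- Let G be a finite group of Conway type (involution z with generalized Fitting subgroup Q of its centralizer C extraspecial of order 2^9, C/Q the commutator subgroup of the isometry group of the hyperbolic quadratic form in dimension 8 over the field with two elements, z not weakly closed in Q). Then G has a subgroup V of order 7 whose centralizer is isomorphic to the direct product of a cyclic group of order 7 and the alternating group of degree 7, and a subgroup W of order 3 whose normalizer is isomorphic to the direct product of the symmetric group of degree 3 and the alternating group of degree 9. -/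
theorem result {G : Type*} [Group G] [Finite G] (z : G) (hz : orderOf z = 2) (Q : Subgroup (Subgroup.centralizer ({z} : Set G))) [Q.Normal] (hF : Cfsg.generalizedFittingSubgroup (Subgroup.centralizer ({z} : Set G)) = Q) (hQ : Cfsg.IsExtraspecial 2 Q) (hcard : Nat.card Q = 2 ^ 9) (e : (Subgroup.centralizer ({z} : Set G)) ⧸ Q ≃* Cfsg.Omega (ZMod 2) (Cfsg.quadFormPlus 4 (ZMod 2))) (hnwc : ∃ g : G, (∃ hq : g * z * g⁻¹ ∈ Subgroup.centralizer ({z} : Set G), (⟨g * z * g⁻¹, hq⟩ : Subgroup.centralizer ({z} : Set G)) ∈ Q) ∧ g * z * g⁻¹ ≠ z) : (∃ V : Subgroup G, Nat.card V = 7 ∧ Nonempty (↥(Subgroup.centralizer (V : Set G)) ≃* Multiplicative (ZMod 7) × alternatingGroup (Fin 7))) ∧ ∃ W : Subgroup G, Nat.card W = 3 ∧ Nonempty (↥(Subgroup.normalizer (W : Set G)) ≃* Equiv.Perm (Fin 3) × alternatingGroup (Fin 9)) := by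
  obtain ⟨f⟩ := Cfsg.Agent.S1718.result z hz Q hF hQ hcard e hnwc
  obtain ⟨V, hV, ⟨a⟩⟩ := H9.Lch.cent7
  obtain ⟨W, hW, ⟨b⟩⟩ := H9.Lch.norm3
  obtain ⟨c⟩ := H9.Lch.cent_map f.symm V
  obtain ⟨d⟩ := H9.Lch.norm_map f.symm W
  exact ⟨⟨_, (Subgroup.card_map_of_injective f.symm.injective).trans hV, ⟨c.trans a⟩⟩,
    _, (Subgroup.card_map_of_injective f.symm.injective).trans hW, ⟨d.trans b⟩⟩

end Cfsg.Agent.S5386
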