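import Mathlib
import Cfsg.Statements.S5387
import Cfsg.Agent.S2088
import Cfsg.Agent.Lib.Schur.Main

set_option autoImplicit false
open Cfsg

namespace Cfsg.Agent.S5387

theorem key {P L : Type*} [Group P] [Finite P] [Group L] [Finite L] (K : Subgroup P)
    (hcard : Nat.card ↥(K ⊓ commutator P) ≤ 4) (π : P →* L) (t : Function.Surjective π)
    (hL : Group.IsPerfect L) (hc : Nat.card (Subgroup.center L) = 4)
    (hz : ∀ x, π x ∈ Subgroup.center L ↔ x ∈ K) : Nonempty (commutator P ≃* L) := by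
  have h1 : (commutator P).map π = ⊤ := by
    rw [commutator_def, Subgroup.map_commutator, Subgroup.map_top_of_surjective _ t]
    exact hL.commutator_eq_top
  have h2 : ∀ a, ∃ x ∈ commutator P, π x = a := fun a => by
    have : a ∈ (commutator P).map π := h1 ▸ Subgroup.mem_top a
    exact this
  let f : ↥(K ⊓ commutator P) → Subgroup.center L := fun x => ⟨π x, (hz _).mpr x.2.1⟩
  have h3 : Function.Surjective f := fun z => by
    obtain ⟨x, hx, hxz⟩ := h2 z
    exact ⟨⟨x, (hz x).mp (hxz ▸ z.2), hx⟩, Subtype.ext hxz⟩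
  have h4 : Function.Injective f :=
    ((Nat.bijective_iff_surjective_and_card f).mpr ⟨h3, le_antisymm (hc ▸ hcard)
      (Nat.card_le_card_of_surjective f h3)⟩).1
  refine ⟨MulEquiv.ofBijective (π.comp (commutator P).subtype) ⟨?_, fun a => ?_⟩⟩
  · refine (injective_iff_map_eq_one _).mpr fun x hx => ?_
    have hx' : π x = 1 := hx
    have := @h4 ⟨x, (hz _).mp (hx' ▸ Subgroup.one_mem _), x.2⟩ 1
      (Subtype.ext (by simpa [f] using hx'))
    have h5 := Subtype.ext_iff.mp this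
    exact Subtype.ext h5
  · obtain ⟨x, hx, hxa⟩ := h2 a
    exact ⟨⟨x, hx⟩, hxa⟩

/-- Up to isomorphism there is at most one quasisimple group whose centre is elementary abelian of order 4 and whose central quotient is isomorphic to the projective special linear group of dimension 3 over the field with four elements: any two such groups are isomorphic. -/
theorem result {L₁ L₂ : Type*} [Group L₁] [Finite L₁] [Group L₂] [Finite L₂] (F : Type) [Field F] [Fintype F] (hF : Fintype.card F = 4) (h₁ : Cfsg.IsQuasisimple L₁) (h₂ : Cfsg.IsQuasisimple L₂) (hc₁ : Nat.card (Subgroup.center L₁) = 4) (hc₂ : Nat.card (Subgroup.center L₂) = 4) (he₁ : ∀ x ∈ Subgroup.center L₁, x * x = 1) (he₂ : ∀ x ∈ Subgroup.center L₂, x * x = 1) (e₁ : L₁ ⧸ Subgroup.center L₁ ≃* Matrix.ProjectiveSpecialLinearGroup (Fin 3) F) (e₂ : L₂ ⧸ Subgroup.center L₂ ≃* Matrix.ProjectiveSpecialLinearGroup (Fin 3) F) : Nonempty (L₁ ≃* L₂) := by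
  classical
  have hA := Cfsg.Agent.S2088.result (F := F) hF
  let σ₁ := e₁.toMonoidHom.comp (QuotientGroup.mk' (Subgroup.center L₁))
  let σ₂ := e₂.toMonoidHom.comp (QuotientGroup.mk' (Subgroup.center L₂))
  have s₁ : Function.Surjective σ₁ := e₁.surjective.comp (QuotientGroup.mk'_surjective _)
  have s₂ : Function.Surjective σ₂ := e₂.surjective.comp (QuotientGroup.mk'_surjective _)
  have k₁ : ∀ x, σ₁ x = 1 ↔ x ∈ Subgroup.center L₁ := fun x => by simp [σ₁]
  have k₂ : ∀ x, σ₂ x = 1 ↔ x ∈ Subgroup.center L₂ := fun x => by simp [σ₂]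
  let P : Subgroup (L₁ × L₂) :=
    MonoidHom.eqLocus (σ₁.comp (MonoidHom.fst _ _)) (σ₂.comp (MonoidHom.snd _ _))
  have hP : ∀ x : P, σ₁ x.1.1 = σ₂ x.1.2 := fun x => x.2
  let π₁ : P →* L₁ := (MonoidHom.fst _ _).comp P.subtype
  let π₂ : P →* L₂ := (MonoidHom.snd _ _).comp P.subtype
  have t₁ : Function.Surjective π₁ := fun a => by
    obtain ⟨b, hb⟩ := s₂ (σ₁ a)
    exact ⟨⟨(a, b), hb.symm⟩, rfl⟩
  have t₂ : Function.Surjective π₂ := fun b => by
    obtain ⟨a, ha⟩ := s₁ (σ₂ b)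
    exact ⟨⟨(a, b), ha⟩, rfl⟩
  let ξ := σ₁.comp π₁
  have hk : ∀ x : P, x ∈ ξ.ker → x.1.1 ∈ Subgroup.center L₁ ∧ x.1.2 ∈ Subgroup.center L₂ :=
    fun x hx => ⟨(k₁ _).mp hx, (k₂ _).mp ((hP x).symm.trans hx)⟩
  obtain ⟨p, hp⟩ := H78.Schur.exists_surjective_ker_inf hA ξ (s₁.comp t₁) fun x hx =>
    Subgroup.mem_center_iff.mpr fun g => Subtype.ext (Prod.ext
      (Subgroup.mem_center_iff.mp (hk x hx).1 _) (Subgroup.mem_center_iff.mp (hk x hx).2 _))
  have hsq : ∀ x : ↥(ξ.ker ⊓ commutator P), x * x = 1 := fun x =>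
    Subtype.ext (Subtype.ext (Prod.ext (he₁ _ (hk _ x.2.1).1) (he₂ _ (hk _ x.2.1).2)))
  have hcard : Nat.card ↥(ξ.ker ⊓ commutator P) ≤ 4 := by
    have h1 : ∀ a : ZMod 3 × ZMod 4 × ZMod 4, ∃ b : Fin 2 × Fin 2, ∃ c,
        a = (0, (b.1.val : ZMod 4), (b.2.val : ZMod 4)) + (c + c) := by decide
    have h2 : Function.Surjective fun b : Fin 2 × Fin 2 =>
        p (Multiplicative.ofAdd (0, (b.1.val : ZMod 4), (b.2.val : ZMod 4))) := fun x => by
      obtain ⟨a, rfl⟩ := hp x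
      obtain ⟨b, c, h⟩ := h1 a.toAdd
      refine ⟨b, ?_⟩
      rw [← ofAdd_toAdd a, h, ofAdd_add, ofAdd_add, map_mul, map_mul, hsq, mul_one]
    simpa using Nat.card_le_card_of_surjective _ h2
  obtain ⟨f₁⟩ := key ξ.ker hcard π₁ t₁ h₁.1 hc₁ fun x => (k₁ _).symm
  obtain ⟨f₂⟩ := key ξ.ker hcard π₂ t₂ h₂.1 hc₂ fun x => (k₂ _).symm.trans (by
    rw [show σ₂ (π₂ x) = σ₁ (π₁ x) from (hP x).symm]; rfl)
  exact ⟨f₁.symm.trans f₂⟩

end Cfsg.Agent.S5387
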