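import Mathlib
import Cfsg.Statements.S5392
import Cfsg.Agent.Lib.Leech.Simple

set_option autoImplicit false
open Cfsg

namespace Cfsg.Agent.S5392

open H16

theorem pm_of {g : Co0} (h : ∀ v : leechLattice,
    ((g • v : leechLattice) : GolayPt → ℤ) - (v : GolayPt → ℤ) ∈ twoLeech) {y : leechLattice}
    (hy : y ∈ H16.Min) : g ∈ pmStab y := by
  have n1 : sqNorm ((g • y : leechLattice) : GolayPt → ℤ) = 32 := smul_mem_Min g hy
  have n2 : sqNorm (y : GolayPt → ℤ) = 32 := hy
  rcases short_congr' (g • y).2 (by omega) (by omega) (h y) with e | e | e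
  · exact Or.inl (Subtype.ext e)
  · exact Or.inr (Subtype.ext e)
  · omega

theorem oct_ok : isV (genC2 0xc75001) = true ∧ dotC (genC2 0xc75001) (genC2 0xc75001) = 32 ∧
    dotC (e8C 23) (genC2 0xc75001) = 16 := by decide +kernel

/-- The Leech lattice modulo twice itself is a faithful irreducible module for the first Conway group: an automorphism of the rank-24 lattice built from the length-24 code that moves every lattice vector only by twice a lattice vector lies in the centre of the automorphism group (the centre consists of ±1, which act trivially there, so the kernel is exactly the centre), and an additive subgroup lying between twice the lattice and the lattice that is invariant under all lattice automorphisms is one of the two. -/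
theorem result : (∀ g : ↥Cfsg.Co0, (∀ v : ↥Cfsg.leechLattice, ∃ w : ↥Cfsg.leechLattice, ((g • v : ↥Cfsg.leechLattice) : Cfsg.GolayPt → ℤ) - (v : Cfsg.GolayPt → ℤ) = 2 • (w : Cfsg.GolayPt → ℤ)) → g ∈ Subgroup.center ↥Cfsg.Co0) ∧ ∀ M : AddSubgroup (Cfsg.GolayPt → ℤ), (∀ v ∈ Cfsg.leechLattice, (2 : ℤ) • v ∈ M) → M ≤ Cfsg.leechLattice → (∀ g : ↥Cfsg.Co0, ∀ v : ↥Cfsg.leechLattice, (v : Cfsg.GolayPt → ℤ) ∈ M → ((g • v : ↥Cfsg.leechLattice) : Cfsg.GolayPt → ℤ) ∈ M) → (∀ x ∈ M, ∃ w ∈ Cfsg.leechLattice, x = (2 : ℤ) • w) ∨ M = Cfsg.leechLattice := by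
  refine ⟨fun g hg => ?_, fun M h2 hM hinv => ?_⟩
  · have h : ∀ y ∈ H16.Min, g ∈ pmStab y := fun y hy =>
      pm_of (fun v => (mem_twoLeech _).2 (by obtain ⟨w, hw⟩ := hg v; exact ⟨w, w.2, hw⟩)) hy
    rw [mem_center_iff]
    rcases h vU norm_U with e | e
    · exact Or.inl (eq_one_of_pm' norm_U e fun y hy _ => h y hy)
    · right
      have : negCo0 * g = 1 := eq_one_of_pm' norm_U (by rw [mul_smul, e, negCo0_smul, neg_neg])
        fun y hy _ => mul_mem (Or.inr (negCo0_smul y)) (h y hy)
      rw [← mul_right_inj negCo0, this, negCo0_mul_self]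
  · by_cases hx : ∀ x ∈ M, x ∈ twoLeech
    · left
      intro x hxM
      obtain ⟨z, hz, e⟩ := (mem_twoLeech _).1 (hx x hxM)
      exact ⟨z, hz, by rw [e]; rfl⟩
    right
    push Not at hx
    obtain ⟨x, hxM, hx⟩ := hx
    obtain ⟨y, hy, hn, e⟩ := exists_short_rep (hM hxM)
    have hyM : y ∈ M := by
      obtain ⟨z, hz, e'⟩ := (mem_twoLeech _).1 e
      have : y = x - (2 : ℤ) • z := by
        rw [show (2 : ℤ) • z = 2 • z from rfl, ← e']; abel
      rw [this]
      exact M.sub_mem hxM (h2 z hz)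
    have hy0 : y ≠ 0 := by
      rintro rfl
      exact hx (by simpa using e)
    have key : ∀ u : leechLattice, u ∈ H16.Min → (u : GolayPt → ℤ) ∈ M → M = leechLattice := by
      intro u hu huM
      refine le_antisymm hM ?_
      rw [← closure_min_vectors, AddSubgroup.closure_le]
      intro w hw
      obtain ⟨g, hg⟩ := min_trans hu (y := ⟨w, hw.1⟩) hw.2
      have := hinv g u huM
      rwa [hg] at this
    have h32 := le_sqNorm hy hy0
    have h16 := sixteen_dvd_sqNorm hy
    have hc : sqNorm y = 32 ∨ sqNorm y = 48 ∨ sqNorm y = 64 := by omega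
    rcases hc with hc | hc | hc
    · exact key ⟨y, hy⟩ hc hyM
    · have all : ∀ w : leechLattice, sqNorm (w : GolayPt → ℤ) = 48 → (w : GolayPt → ℤ) ∈ M := by
        intro w hw
        obtain ⟨a, ha⟩ := exists_smul_V (x := ⟨y, hy⟩) hc
        obtain ⟨b, hb⟩ := exists_smul_V hw
        have := hinv (b * a⁻¹) ⟨y, hy⟩ hyM
        rwa [← ha, mul_smul, inv_smul_smul, hb] at this
      refine key vUP norm_UP ?_
      have := M.sub_mem (all (vV + vUP) (by
        rw [AddSubgroup.coe_add, sqNorm_add, norm_V, norm_UP, dot_VUP]; norm_num)) (all vV norm_V)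
      rwa [AddSubgroup.coe_add, add_sub_cancel_left] at this
    · have all : ∀ w : leechLattice, sqNorm (w : GolayPt → ℤ) = 64 → (w : GolayPt → ℤ) ∈ M := by
        intro w hw
        obtain ⟨a, ha⟩ := exists_smul_e8 (x := ⟨y, hy⟩) hc
        obtain ⟨b, hb⟩ := exists_smul_e8 hw
        have := hinv (b * a⁻¹) ⟨y, hy⟩ hyM
        rwa [← ha, mul_smul, inv_smul_smul, hb] at this
      have c1 := code_lv oct_ok.1
      have c2 := code_e8C (i := 23) (by norm_num)
      refine key _ (c1.norm.trans oct_ok.2.1) ?_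
      have := M.sub_mem (all _ (sqNorm_e8 (H15.pt 23))) (all (e8 (H15.pt 23) - lv (genC2 0xc75001)) (by
        rw [AddSubgroup.coe_sub, sqNorm_sub, sqNorm_e8, c1.norm, c2.dot c1, oct_ok.2.1, oct_ok.2.2]
        norm_num))
      rwa [AddSubgroup.coe_sub, sub_sub_cancel] at this

end Cfsg.Agent.S5392
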