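import Mathlib
import Cfsg.Agent.Lib.LargeExtra.Types
import Cfsg.Statements.S5396
-- import your own Cfsg.Agent.* helpers here

set_option autoImplicit false
open Cfsg

namespace Cfsg.Agent.S5396


/-- For every n ≥ 1 there exist finite extraspecial 2-groups of order 2^(2n+1) whose 2-rank (the largest rank of an elementary abelian subgroup) is n, and ones whose 2-rank is n + 1 (so for each such order there are two non-isomorphic extraspecial 2-groups, told apart by their 2-rank). -/
theorem result (n : ℕ) (hn : 1 ≤ n) : ∀ r ∈ ({n, n + 1} : Set ℕ), ∃ (E : Type) (_ : Group E) (_ : Finite E), Cfsg.IsExtraspecial 2 E ∧ Nat.card E = 2 ^ (2 * n + 1) ∧ sSup {k : ℕ | ∃ A : Subgroup E, Cfsg.IsElementaryAbelian 2 A ∧ Nat.card A = 2 ^ k} = r := by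
  have key : ∀ {V : Type} [AddCommGroup V] [Module (ZMod 2) V] [Finite V] (q : QuadraticForm (ZMod 2) V),
      (QuadraticMap.polarBilin q).Nondegenerate → Module.finrank (ZMod 2) V = 2 * n → ∀ r : ℕ,
      (∀ {E : Type} [Group E] {z : E} (P : H95.Pres E z V), P.q = q → ∀ k, PRankLE 2 k E ↔ r ≤ k) → 1 ≤ r →
      ∃ (E : Type) (_ : Group E) (_ : Finite E), Cfsg.IsExtraspecial 2 E ∧ Nat.card E = 2 ^ (2 * n + 1) ∧
        sSup {k : ℕ | ∃ A : Subgroup E, Cfsg.IsElementaryAbelian 2 A ∧ Nat.card A = 2 ^ k} = r := by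
    intro V _ _ _ q hq hV r hr hr1
    obtain ⟨E, _, z, P, rfl⟩ := H95.exists_group_of_form q
    have := P.finite_group
    have : Nontrivial V := Module.nontrivial_of_finrank_pos (R := ZMod 2) (by omega)
    refine ⟨E, _, inferInstance, (P.ES_top hq.1).isExtraspecial_top, ?_, ?_⟩
    · rw [P.card_eq, Module.natCard_eq_pow_finrank (K := ZMod 2) (V := V), Nat.card_zmod, hV, pow_succ,
        mul_comm]
    · apply IsGreatest.csSup_eq
      constructor
      · obtain ⟨r, rfl⟩ := Nat.exists_eq_add_of_le' hr1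
        obtain _ | r := r
        · exact ⟨P.comap ⊥, P.elementary_comap fun u hu => by
            rw [(Submodule.mem_bot _).1 hu, map_zero], by rw [P.card_comap]; simp⟩
        have h1 := (hr P rfl (r + 1)).not.2 (by omega)
        have h2 := (hr P rfl (r + 1 + 1)).2 le_rfl
        rw [P.pRankLE_iff] at h1 h2
        push Not at h1
        obtain ⟨U, hU, hd⟩ := h1
        have := h2 U hU
        exact ⟨P.comap U, P.elementary_comap hU, by
          rw [P.card_comap, show Module.finrank (ZMod 2) U = r + 1 by omega]⟩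
      · rintro k ⟨A, hA, hc⟩
        have := (hr P rfl r).2 le_rfl A hA.1 hA.2
        rwa [hc, Nat.pow_le_pow_iff_right (by norm_num)] at this
  rintro r (rfl | rfl)
  · have hq := H66.qMinus_nd (F := ZMod 2) (r - 1) H95.aniso_one_one.disc_ne_zero
    have hV : Module.finrank (ZMod 2) ((Fin (r - 1) ⊕ Fin (r - 1)) ⊕ Fin 2 → ZMod 2) = 2 * r := by
      simp; omega
    exact key _ hq hV r (fun P hP k => P.rank_of_not_plus (hP ▸ hq) hV
      (hP ▸ H66.not_isPlusType_qMinus _ H95.aniso_one_one) k) hn
  · have hq := H66.qPlus_nd (F := ZMod 2) n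
    have hV : Module.finrank (ZMod 2) (Fin n ⊕ Fin n → ZMod 2) = 2 * n := by simp; omega
    exact key _ hq hV (n + 1) (fun P hP k => P.rank_of_plus (hP ▸ hq) hV
      (hP ▸ H66.isPlusType_qPlus _) k) (by omega)


end Cfsg.Agent.S5396
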