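import Mathlib
import Cfsg.Statements.S5398
import Cfsg.Agent.Lib.Fi22I.Inv
import Cfsg.Agent.Lib.Fischer.T22

set_option autoImplicit false
open Cfsg

namespace Cfsg.Agent.S5398

open H94 H96.F22

theorem nf_of {G : Type*} [Group G] {D : Set G} (M : Model22 G D) {m : ℕ} {x : G} (h1 : 1 ≤ m) (h3 : m ≤ 3)
    (h : IsProd D m x) : nf D (MulAut.conj x) = if m = 1 then 694 else if m = 2 then 182 else 54 := by
  interval_cases m
  · exact nf1 M h.one
  · obtain ⟨a, b, h', rfl⟩ := h.two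
    exact nf2 M h'
  · obtain ⟨a, b, c, h', rfl⟩ := h.three
    exact nf3 M h'


/-- Let G be a finite group with trivial centre generated by a conjugation-invariant set D of 3-transpositions on which it acts primitively, such that for some d in D the subgroup generated by the members of D other than d commuting with d has central largest normal 2- and 3-subgroups, and suppose G with D is of type M(22). Then G has exactly 3 conjugacy classes of involutions: every involution is a product of m distinct pairwise commuting members of D for some m between 1 and 3; for each such m these products form one non-empty conjugacy class; and the value of m is determined by the involution. -/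
theorem result {G : Type*} [Group G] [Finite G] {D : Set G} (hD : Cfsg.IsThreeTranspositionGroup D) (hprim : Cfsg.IsPrimitiveUnderConj D) (d : G) (hd : d ∈ D) (h3 : Cfsg.pCore 3 ↥(Subgroup.closure {y : G | y ∈ D ∧ y ≠ d ∧ Commute d y}) ≤ Subgroup.center ↥(Subgroup.closure {y : G | y ∈ D ∧ y ≠ d ∧ Commute d y})) (h2 : Cfsg.pCore 2 ↥(Subgroup.closure {y : G | y ∈ D ∧ y ≠ d ∧ Commute d y}) ≤ Subgroup.center ↥(Subgroup.closure {y : G | y ∈ D ∧ y ≠ d ∧ Commute d y})) (ht : Cfsg.IsOfTypeM22 G D) : (∀ x : G, orderOf x = 2 → ∃ m : ℕ, 1 ≤ m ∧ m ≤ 3 ∧ (∃ l : List G, l.Nodup ∧ l.length = m ∧ (∀ a ∈ l, a ∈ D) ∧ (∀ a ∈ l, ∀ b ∈ l, Commute a b) ∧ l.prod = x)) ∧ (∀ m : ℕ, 1 ≤ m → m ≤ 3 → (∃ x : G, orderOf x = 2 ∧ (∃ l : List G, l.Nodup ∧ l.length = m ∧ (∀ a ∈ l, a ∈ D) ∧ (∀ a ∈ l, ∀ b ∈ l, Commute a b) ∧ l.prod = x)) ∧ ∀ x y : G, (∃ l : List G, l.Nodup ∧ l.length = m ∧ (∀ a ∈ l, a ∈ D) ∧ (∀ a ∈ l, ∀ b ∈ l, Commute a b) ∧ l.prod = x) → (∃ l : List G,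 l.Nodup ∧ l.length = m ∧ (∀ a ∈ l, a ∈ D) ∧ (∀ a ∈ l, ∀ b ∈ l, Commute a b) ∧ l.prod = y) → IsConj x y) ∧ ∀ (m m' : ℕ) (x : G), 1 ≤ m → m ≤ 3 → 1 ≤ m' → m' ≤ 3 → (∃ l : List G, l.Nodup ∧ l.length = m ∧ (∀ a ∈ l, a ∈ D) ∧ (∀ a ∈ l, ∀ b ∈ l, Commute a b) ∧ l.prod = x) → (∃ l : List G, l.Nodup ∧ l.length = m' ∧ (∀ a ∈ l, a ∈ D) ∧ (∀ a ∈ l, ∀ b ∈ l, Commute a b) ∧ l.prod = x) → m = m' := by
  obtain ⟨M⟩ := model22_of_type hD hprim ht
  refine ⟨fun x hx => ?_, fun m h1 h3 => ⟨?_, fun x y hx hy => ?_⟩, fun m m' x h1 h3 h1' h3' hx hx' => ?_⟩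
  · obtain ⟨m, hm, hp⟩ := inv_G M (mul_self_of_orderOf hx)
    refine ⟨m, Nat.pos_of_ne_zero ?_, hm, hp⟩
    rintro rfl
    exact ne_one_of_orderOf hx hp.zero
  · have key : ∀ l : List ℕ, okP l = true → eqW (l ++ l) [] = true → eqW l [] = false →
        ∃ x : G, orderOf x = 2 ∧ IsProd D l.length x := fun l a b c => by
      obtain ⟨b1, b2, b3⟩ := okP_spec M a
      have v := (vG_iff l).2 b1
      refine ⟨w M l, orderOf_eq_two ?_ (w_ne M v rfl c), isProd_of M b1 b2 b3⟩
      rw [← w_append]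
      exact w_eq M ((vG_iff _).2 fun j hj => (List.mem_append.1 hj).elim (b1 j) (b1 j)) rfl b
    interval_cases m
    · exact key [43] (by decide +kernel) (by decide +kernel) (by decide +kernel)
    · exact key [43, 47] (by decide +kernel) (by decide +kernel) (by decide +kernel)
    · exact key [43, 47, 172] (by decide +kernel) (by decide +kernel) (by decide +kernel)
  · interval_cases m
    · exact isConj_iff.2 (exists_conj_of_class M.cls (IsProd.one hx) (IsProd.one hy))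
    · obtain ⟨a, b, h, rfl⟩ := IsProd.two hx
      obtain ⟨M, rfl, rfl⟩ := model2 M h
      obtain ⟨a, b, h, rfl⟩ := IsProd.two hy
      obtain ⟨g, rfl, rfl⟩ := trans2 M h
      exact isConj_iff.2 ⟨g, by group⟩
    · obtain ⟨a, b, c, h, rfl⟩ := IsProd.three hx
      obtain ⟨M, rfl, rfl, rfl⟩ := model3 M h
      obtain ⟨a, b, c, h, rfl⟩ := IsProd.three hy
      obtain ⟨g, rfl, rfl, rfl⟩ := trans3 M h
      exact isConj_iff.2 ⟨g, by group⟩
  · have := (nf_of M h1 h3 hx).symm.trans (nf_of M h1' h3' hx')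
    split_ifs at this <;> omega

end Cfsg.Agent.S5398
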