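import Mathlib
import Cfsg.Statements.S5399
import Cfsg.Agent.Lib.Fi23.Inv
-- import your own Cfsg.Agent.* helpers here

set_option autoImplicit false
open Cfsg

namespace Cfsg.Agent.S5399

open H7 H7.F23 H54 H94 H56


/-- Let G be a finite group with trivial centre generated by a conjugation-invariant set D of 3-transpositions on which it acts primitively, such that for some d in D the subgroup generated by the members of D other than d commuting with d has central largest normal 2- and 3-subgroups, and suppose G with D is of type M(23). Then G has exactly 3 conjugacy classes of involutions: every involution is a product of m distinct pairwise commuting members of D for some m between 1 and 3; for each such m these products form one non-empty conjugacy class; and the value of m is determined by the involution. -/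
theorem result {G : Type*} [Group G] [Finite G] {D : Set G} (hD : Cfsg.IsThreeTranspositionGroup D) (hprim : Cfsg.IsPrimitiveUnderConj D) (d : G) (hd : d ∈ D) (h3 : Cfsg.pCore 3 ↥(Subgroup.closure {y : G | y ∈ D ∧ y ≠ d ∧ Commute d y}) ≤ Subgroup.center ↥(Subgroup.closure {y : G | y ∈ D ∧ y ≠ d ∧ Commute d y})) (h2 : Cfsg.pCore 2 ↥(Subgroup.closure {y : G | y ∈ D ∧ y ≠ d ∧ Commute d y}) ≤ Subgroup.center ↥(Subgroup.closure {y : G | y ∈ D ∧ y ≠ d ∧ Commute d y})) (ht : Cfsg.IsOfTypeM23 G D) : (∀ x : G, orderOf x = 2 → ∃ m : ℕ, 1 ≤ m ∧ m ≤ 3 ∧ (∃ l : List G, l.Nodup ∧ l.length = m ∧ (∀ a ∈ l, a ∈ D) ∧ (∀ a ∈ l, ∀ b ∈ l, Commute a b) ∧ l.prod = x)) ∧ (∀ m : ℕ, 1 ≤ m → m ≤ 3 → (∃ x : G, orderOf x = 2 ∧ (∃ l : List G, l.Nodup ∧ l.length = m ∧ (∀ a ∈ l, a ∈ D) ∧ (∀ a ∈ l, ∀ b ∈ l, Commute a b) ∧ l.prod = x)) ∧ ∀ x y : G, (∃ l : List G, l.Nodup ∧ l.length = m ∧ (∀ a ∈ l, a ∈ D) ∧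 (∀ a ∈ l, ∀ b ∈ l, Commute a b) ∧ l.prod = x) → (∃ l : List G, l.Nodup ∧ l.length = m ∧ (∀ a ∈ l, a ∈ D) ∧ (∀ a ∈ l, ∀ b ∈ l, Commute a b) ∧ l.prod = y) → IsConj x y) ∧ ∀ (m m' : ℕ) (x : G), 1 ≤ m → m ≤ 3 → 1 ≤ m' → m' ≤ 3 → (∃ l : List G, l.Nodup ∧ l.length = m ∧ (∀ a ∈ l, a ∈ D) ∧ (∀ a ∈ l, ∀ b ∈ l, Commute a b) ∧ l.prod = x) → (∃ l : List G, l.Nodup ∧ l.length = m' ∧ (∀ a ∈ l, a ∈ D) ∧ (∀ a ∈ l, ∀ b ∈ l, Commute a b) ∧ l.prod = x) → m = m' := by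
  obtain ⟨M⟩ := model23_of_type hD hprim ht
  obtain ⟨-, e, he, f1, f2, f3⟩ := fp_of_M23 hD hprim ht
  obtain ⟨N⟩ := model22_of_type f1.toTC.isGroup f2 f3
  refine ⟨fun x hx => ?_, fun m h1 h3 => ⟨?_, ?_⟩, ?_⟩
  · obtain ⟨l, a, b, rfl⟩ := inv_prod M he N (mul_self_of_orderOf hx)
    refine ⟨_, Nat.pos_of_ne_zero fun c => ?_, b, l, a.nd, rfl, a.mem, a.cm, rfl⟩
    rw [List.length_eq_zero_iff.1 c] at hx
    exact ne_one_of_orderOf hx rfl
  · obtain ⟨l, a, rfl⟩ := exists_clq M (m := m) (by omega)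
    exact ⟨_, clq_orderOf M a h1 h3, l, a.nd, rfl, a.mem, a.cm, rfl⟩
  · rintro _ _ ⟨l, a1, rfl, a2, a3, rfl⟩ ⟨l', b1, b, b2, b3, rfl⟩
    obtain ⟨g, rfl⟩ := clq_conj M ⟨a1, a2, a3⟩ ⟨b1, b2, b3⟩ b (by omega)
    exact isConj_iff.2 ⟨g, (prod_map_conj g l).symm⟩
  · rintro _ _ _ - h3 - h3' ⟨l, a1, rfl, a2, a3, rfl⟩ ⟨l', b1, rfl, b2, b3, b⟩
    exact (clq_length M ⟨a1, a2, a3⟩ ⟨b1, b2, b3⟩ h3 h3' b).symm

end Cfsg.Agent.S5399
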