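import Mathlib
import Cfsg.Statements.S5400
import Cfsg.Agent.Lib.Fi24.Inv
import Cfsg.Agent.Lib.Fischer.T24

set_option autoImplicit false
open Cfsg

namespace Cfsg.Agent.S5400

open H7 H96.F24

/-- Let G be a finite group with trivial centre generated by a conjugation-invariant set D of 3-transpositions on which it acts primitively, such that for some d in D the subgroup generated by the members of D other than d commuting with d has central largest normal 2- and 3-subgroups, and suppose G with D is of type M(24). Then G has exactly 4 conjugacy classes of involutions: every involution is a product of m distinct pairwise commuting members of D for some m between 1 and 4; for each such m these products form one non-empty conjugacy class; and the value of m is determined by the involution. -/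
theorem result {G : Type*} [Group G] [Finite G] {D : Set G} (hD : Cfsg.IsThreeTranspositionGroup D) (hprim : Cfsg.IsPrimitiveUnderConj D) (d : G) (hd : d ∈ D) (h3 : Cfsg.pCore 3 ↥(Subgroup.closure {y : G | y ∈ D ∧ y ≠ d ∧ Commute d y}) ≤ Subgroup.center ↥(Subgroup.closure {y : G | y ∈ D ∧ y ≠ d ∧ Commute d y})) (h2 : Cfsg.pCore 2 ↥(Subgroup.closure {y : G | y ∈ D ∧ y ≠ d ∧ Commute d y}) ≤ Subgroup.center ↥(Subgroup.closure {y : G | y ∈ D ∧ y ≠ d ∧ Commute d y})) (ht : Cfsg.IsOfTypeM24 G D) : (∀ x : G, orderOf x = 2 → ∃ m : ℕ, 1 ≤ m ∧ m ≤ 4 ∧ (∃ l : List G, l.Nodup ∧ l.length = m ∧ (∀ a ∈ l, a ∈ D) ∧ (∀ a ∈ l, ∀ b ∈ l, Commute a b) ∧ l.prod = x)) ∧ (∀ m : ℕ, 1 ≤ m → m ≤ 4 → (∃ x : G, orderOf x = 2 ∧ (∃ l : List G, l.Nodup ∧ l.length = m ∧ (∀ a ∈ l, a ∈ D) ∧ (∀ a ∈ l, ∀ b ∈ l, Commute a b) ∧ l.prod = x)) ∧ ∀ x y : G, (∃ l : List G, l.Nodup ∧ l.length = m ∧ (∀ a ∈ l, a ∈ D) ∧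 (∀ a ∈ l, ∀ b ∈ l, Commute a b) ∧ l.prod = x) → (∃ l : List G, l.Nodup ∧ l.length = m ∧ (∀ a ∈ l, a ∈ D) ∧ (∀ a ∈ l, ∀ b ∈ l, Commute a b) ∧ l.prod = y) → IsConj x y) ∧ ∀ (m m' : ℕ) (x : G), 1 ≤ m → m ≤ 4 → 1 ≤ m' → m' ≤ 4 → (∃ l : List G, l.Nodup ∧ l.length = m ∧ (∀ a ∈ l, a ∈ D) ∧ (∀ a ∈ l, ∀ b ∈ l, Commute a b) ∧ l.prod = x) → (∃ l : List G, l.Nodup ∧ l.length = m' ∧ (∀ a ∈ l, a ∈ D) ∧ (∀ a ∈ l, ∀ b ∈ l, Commute a b) ∧ l.prod = x) → m = m' := by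
  obtain ⟨M⟩ := H94.model24_of_type hD hprim ht
  refine ⟨fun x hx => ?_, fun m h1 h4 => ⟨?_, ?_⟩, ?_⟩
  · obtain ⟨l, a, b, c⟩ := inv_prod M (H94.mul_self_of_orderOf hx)
    refine ⟨l.length, ?_, b, l, a.nd, rfl, a.mem, a.cm, c⟩
    rcases l with _ | ⟨y, l⟩
    · rw [← c, List.prod_nil, orderOf_one] at hx
      omega
    · simp
  · obtain ⟨l, a, rfl⟩ := exists_clq M (m := m) (by omega)
    exact ⟨_, clq_orderOf M a h1 h4, l, a.nd, rfl, a.mem, a.cm, rfl⟩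
  · rintro _ _ ⟨l, a1, a2, a3, a4, rfl⟩ ⟨l', b1, b2, b3, b4, rfl⟩
    obtain ⟨g, rfl⟩ := clq_conj M ⟨a1, a3, a4⟩ ⟨b1, b3, b4⟩ (b2.trans a2.symm) (by omega)
    rw [prod_map_conj]
    exact isConj_iff.2 ⟨g, rfl⟩
  · rintro _ _ _ - h4 - h4' ⟨l, a1, rfl, a3, a4, rfl⟩ ⟨l', b1, rfl, b3, b4, e⟩
    exact (clq_length M ⟨a1, a3, a4⟩ ⟨b1, b3, b4⟩ h4 h4' e).symm

end Cfsg.Agent.S5400
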