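import Cfsg.Statements.S5401
import Mathlib
import Cfsg.Agent.Lib.Refl3.Types
import Cfsg.Agent.Lib.CosetEnum.Fi24

set_option autoImplicit false
open Cfsg

namespace Cfsg.Agent.S5401

/-- Existence of the Fischer 3-transposition groups: there exist finite groups generated by a conjugacy class of 3-transpositions on which they act primitively that are of type M(22), of type M(23), and of type M(24) respectively. -/
theorem result : (∃ (X : Type) (_ : Group X) (_ : Finite X) (E : Set X), Cfsg.IsThreeTranspositionClass E ∧ Cfsg.IsPrimitiveUnderConj E ∧ Cfsg.IsOfTypeM22 X E) ∧ (∃ (X : Type) (_ : Group X) (_ : Finite X) (E : Set X), Cfsg.IsThreeTranspositionClass E ∧ Cfsg.IsPrimitiveUnderConj E ∧ Cfsg.IsOfTypeM23 X E) ∧ (∃ (X : Type) (_ : Group X) (_ : Finite X) (E : Set X), Cfsg.IsThreeTranspositionClass E ∧ Cfsg.IsPrimitiveUnderConj E ∧ Cfsg.IsOfTypeM24 X E) := by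
  have p := H18.Fi24.model.primitive_of_simple H18.Fi24.simple
  exact ⟨⟨_, inferInstance, H18.Fi22.model.finite, _, H18.Fi22.model.cls, H80.FI.primitive H18.Fi22.model,
      H18.Fi22.model.isOfType⟩,
    ⟨_, inferInstance, H18.Fi23.model.finite, _, H18.Fi23.model.cls, H18.Fi23.model.primitive,
      H18.Fi23.model.isOfType⟩,
    _, inferInstance, H18.Fi24.model.finite, _, H18.Fi24.model.cls, p, H18.Fi24.model.isOfType p⟩

end Cfsg.Agent.S5401
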