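import Cfsg.Statements.S5405
import Cfsg.Agent.Lib.Orth12.Bridge
import Cfsg.Agent.Lib.Orth12.Forms

set_option autoImplicit false
open scoped MatrixGroups
open Cfsg

namespace Cfsg.Agent.S5405

open H12 QuadraticMap Matrix

section
variable {V : Type*} [AddCommGroup V] [Module (ZMod 2) V] {Q : QuadraticForm (ZMod 2) V}

theorem two (x : V) : x + x = 0 := by
  rw [← two_smul (ZMod 2), show (2 : ZMod 2) = 0 from rfl, zero_smul]

theorem rf {a : V} (ha : Q a = 1) (x : V) : (refl Q a).1 x = x + polar Q x a • a := by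
  rw [refl_apply, ha, inv_one, one_mul, sub_eq_add_neg, neg_eq_of_add_eq_zero_left (two _)]

theorem pol {a b : V} (ha : Q a = 1) (hb : Q b = 1) : polar Q a b = Q (a + b) := by
  rw [Q_add, ha, hb, show (1 + 1 : ZMod 2) = 0 from rfl, zero_add]

theorem core [Fintype V] (hQ : Nondeg Q) (hG : Good Q) (f : Om Q → V)
    (hf : ∀ g h, f (g * h) = f g + g.1.1 (f h)) (k : ℕ) (hk : Fintype.card V = 4 ^ (k + 1))
    (a b : ℕ → V) (ht : V → ℕ)
    (h1 : ∀ i ≤ k, Q (a i) = 1 ∧ Q (b i) = 1 ∧ Q (a i + b i) = 1)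
    (h2 : ∀ i < k, Q (b i + a (i + 1)) = 1 ∧ Q (a i + a (i + 1)) = 0 ∧
      Q (a i + b (i + 1)) = 0 ∧ Q (b i + b (i + 1)) = 0)
    (h3 : ∀ x, (∀ i ≤ k, polar Q x (a i) = 0 ∧ polar Q x (b i) = 0) → x = 0)
    (h4 : ∀ v, Q v = 1 → ∃ i ≤ k, v = a i ∨ v = b i ∨
      Q (v + a i) = 1 ∧ ht (v + a i) < ht v ∨ Q (v + b i) = 1 ∧ ht (v + b i) < ht v) :
    ∃ x, ∀ g, f g = g.1.1 x - x := by
  have := Module.Finite.of_finite (R := ZMod 2) (M := V)
  have hm : ∀ {u v}, Q u = 1 → Q v = 1 → refl Q u * refl Q v ∈ Om Q := fun hu hv =>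
    refl_mul_refl_mem_Om hQ (hv ▸ one_ne_zero) one_ne_zero (by rw [hu, hv]; rfl)
  have f1 : f 1 = 0 := by simpa using hf 1 1
  let r : ∀ i : Fin (k + 1), Om Q := fun i =>
    ⟨_, hm (h1 i (Nat.lt_succ_iff.1 i.2)).1 (h1 i (Nat.lt_succ_iff.1 i.2)).2.1⟩
  obtain ⟨x, hx⟩ := ((Fintype.bijective_iff_injective_and_card fun x (i : Fin (k + 1)) =>
      (polar Q x (a i), polar Q x (b i))).2 ⟨fun x y e => sub_eq_zero.1 (h3 _ fun i hi => by
        have := Prod.ext_iff.1 (congrFun e ⟨i, Nat.lt_succ_of_le hi⟩)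
        simpa only [polar_sub_left, sub_eq_zero] using this), by simp [hk]⟩).2
    fun i => (polar Q (f (r i)) (a i) + polar Q (f (r i)) (b i), polar Q (f (r i)) (a i))
  let Z : Subgroup (O Q) := Subgroup.map (Om Q).subtype
    { carrier := {g | f g = g.1.1 x - x}
      one_mem' := by simp [f1]
      mul_mem' := fun {g h} hg hh => by
        change f (g * h) = g.1.1 (h.1.1 x) - x
        rw [hf, hg, hh, map_sub, add_comm, sub_add_sub_cancel]
      inv_mem' := fun {g} hg => g.1.1.injective (by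
        have := hf g g⁻¹
        rw [mul_inv_cancel, f1, hg] at this
        rw [eq_neg_of_add_eq_zero_right this.symm, map_sub, neg_sub]
        exact congrArg (· - g.1.1 x) (O.apply_inv_apply g.1 x).symm) }
  have hr : ∀ i ≤ k, refl Q (a i) * refl Q (b i) ∈ Z := fun i hi => by
    obtain ⟨ha, hb, hab⟩ := h1 i hi
    obtain ⟨e1, e2⟩ := Prod.ext_iff.1 (congrFun hx ⟨i, Nat.lt_succ_of_le hi⟩)
    refine ⟨r ⟨i, Nat.lt_succ_of_le hi⟩, ?_, rfl⟩
    dsimp only at e1 e2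
    generalize hs : r ⟨i, Nat.lt_succ_of_le hi⟩ = s at e1 e2
    rw [← pol ha hb] at hab
    have hba := (polar_comm _ _ _).trans hab
    have e : ∀ y, s.1.1 y = y + polar Q y (b i) • b i + (polar Q y (a i) + polar Q y (b i)) • a i :=
      fun y => by
        rw [← hs]
        change (refl Q (a i)).1 ((refl Q (b i)).1 y) = _
        rw [rf ha, rf hb, polar_add_left, B_smul_left, hba, mul_one]
    have paa : polar Q (a i) (a i) = 0 := by rw [pol ha ha, two, map_zero]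
    have pbb : polar Q (b i) (b i) = 0 := by rw [pol hb hb, two, map_zero]
    have e3 : ∀ y, s.1.1 (s.1.1 y) = y + (polar Q y (a i) + polar Q y (b i)) • b i +
        polar Q y (a i) • a i := fun y => by
      simp only [e, polar_add_left, B_smul_left, hab, hba, paa, pbb]
      generalize polar Q y (a i) = α, polar Q y (b i) = β
      match_scalars <;> revert α β <;> decide
    have e4 : s * s * s = 1 := Subtype.ext (O.ext fun y => by
      change s.1.1 (s.1.1 (s.1.1 y)) = y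
      rw [e3]
      simp only [e, polar_add_left, B_smul_left, hab, hba, paa, pbb]
      generalize polar Q y (a i) = α, polar Q y (b i) = β
      match_scalars <;> revert α β <;> decide)
    have e5 := congrArg f e4
    rw [hf, hf, f1] at e5
    change f s + s.1.1 (f s) + s.1.1 (s.1.1 (f s)) = 0 at e5
    change f s = s.1.1 x - x
    rw [e3, e] at e5
    rw [e, e1, e2, ← sub_eq_zero, ← e5]
    generalize polar Q (f s) (a i) = α, polar Q (f s) (b i) = β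
    match_scalars <;> revert α β <;> decide
  have cj : ∀ {u v g}, refl Q u * refl Q v ∈ Z → g ∈ Z → refl Q (g.1 u) * refl Q (g.1 v) ∈ Z :=
    fun hu hg => by
      rw [← refl_conj, ← refl_conj, conj_mul]
      exact mul_mem (mul_mem hg hu) (inv_mem hg)
  have sy : ∀ {u v}, refl Q u * refl Q v ∈ Z → refl Q v * refl Q u ∈ Z := fun hu => by
    simpa only [_root_.mul_inv_rev, refl_inv] using inv_mem hu
  have tr : ∀ {u v w}, refl Q u * refl Q v ∈ Z → refl Q v * refl Q w ∈ Z →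
      refl Q u * refl Q w ∈ Z := fun {u v w} hu hv => by
    simpa only [mul_assoc, ← mul_assoc (refl Q v), refl_mul_self, one_mul] using mul_mem hu hv
  have h5 : ∀ i ≤ k, refl Q (a 0) * refl Q (a i) ∈ Z := fun i hi => by
    induction i with
    | zero => exact refl_mul_self (Q := Q) _ ▸ one_mem Z
    | succ i ih =>
      obtain ⟨ha, hb, hab⟩ := h1 i (by omega)
      obtain ⟨hc, hd, hcd⟩ := h1 _ hi
      obtain ⟨e1, e2, e3, e4⟩ := h2 i hi
      rw [← pol ‹_› ‹_›] at e1 e2 e3 e4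
      have c1 := cj (hr i (by omega)) (hr _ hi)
      have c2 := cj (hr _ hi) (sy (hr i (by omega)))
      simp only [O.mul_apply, rf ha, rf hb, rf hc, rf hd, e1, e2, e3, e4, zero_smul, add_zero,
        one_smul, polar_comm Q (a (i + 1)), polar_comm Q (b (i + 1))] at c1 c2
      exact tr (tr (ih (by omega)) (tr c1 (add_comm (b i) _ ▸ c2))) (sy (hr _ hi))
  have h6 : ∀ n v, ht v = n → Q v = 1 → refl Q (a 0) * refl Q v ∈ Z := fun n => by
    induction n using Nat.strong_induction_on with | _ n ih => ?_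
    rintro v rfl hv
    have key : ∀ c, Q c = 1 → refl Q (a 0) * refl Q c ∈ Z → Q (v + c) = 1 ∧ ht (v + c) < ht v →
        refl Q (a 0) * refl Q v ∈ Z := fun c hc h ⟨e1, e2⟩ => by
      have e : (refl Q c).1 (v + c) = v := by
        rw [rf hc, pol e1 hc, add_assoc v c c, two, add_zero, hv, one_smul, add_assoc, two, add_zero]
      rw [← e, ← refl_conj, refl_inv, mul_assoc, ← mul_assoc]
      exact mul_mem h (tr (sy (ih _ e2 _ rfl e1)) h)
    obtain ⟨i, hi, e | e | e | e⟩ := h4 v hv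
    exacts [e ▸ h5 i hi, e ▸ tr (h5 i hi) (hr i hi), key _ (h1 i hi).1 (h5 i hi) e,
      key _ (h1 i hi).2.1 (tr (h5 i hi) (hr i hi)) e]
  have h7 : ∀ g, g ∈ Z ∨ refl Q (a 0) * g ∈ Z := refl_induction hQ hG (.inl Z.one_mem)
    fun v g hv h => by
      have := h6 _ v rfl ((by decide : ∀ c : ZMod 2, c ≠ 0 → c = 1) _ hv)
      refine h.symm.imp (fun h => ?_) fun h => mul_assoc (refl Q _) _ _ ▸ mul_mem this h
      simpa only [mul_assoc, ← mul_assoc (refl Q (a 0)), refl_mul_self, one_mul] using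
        mul_mem (sy this) h
  refine ⟨x, fun g => ?_⟩
  obtain ⟨g', h, e⟩ | ⟨g', -, e⟩ := h7 g
  · exact Subtype.ext e ▸ h
  · have := (Om Q).mul_mem g'.2 ((Om Q).inv_mem g.2)
    rw [show g'.1 = _ from e, mul_inv_cancel_right, Om_eq_ker_dk hQ hG rfl, MonoidHom.mem_ker,
      dk_refl hQ hG ((h1 0 k.zero_le).1 ▸ one_ne_zero)] at this
    exact absurd this (by decide)

end

variable {ι : Type} [Fintype ι] [DecidableEq ι]

def dec (e : ι → ℕ) (l : List ℕ) (n : ℕ) : ι → ZMod 2 := fun i => (l.getD n 0 / 2 ^ e i : ℕ)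

def tab (e : ι → ℕ) (T : ℕ) (v : ι → ZMod 2) : ℕ := T / 16 ^ (∑ i, (v i).val * 2 ^ e i) % 16

theorem core' (Q : QuadraticForm (ZMod 2) (ι → ZMod 2)) {q : (ι → ZMod 2) → ZMod 2} (h : ⇑Q = q)
    (H : ∀ f : Om Q → ι → ZMod 2, (∀ g h, f (g * h) = f g + g.1.1 (f h)) →
      ∃ x, ∀ g, f g = g.1.1 x - x) (f : Omega (ZMod 2) q → ι → ZMod 2)
    (hf : ∀ g h, f (g * h) = f g + g.1.1.val *ᵥ f h) : ∃ x, ∀ g, f g = g.1.1.val *ᵥ x - x := by
  let e := commCongr (isoEquiv Q (congrFun h))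
  obtain ⟨x, hx⟩ := H (f ∘ e.symm) fun g h => by
    obtain ⟨g, rfl⟩ := e.surjective g
    simp only [Function.comp, map_mul, hf, e.symm_apply_apply]
    rfl
  exact ⟨x, fun g => (congrArg f (e.symm_apply_apply g)).symm.trans (hx (e g))⟩


/-- Vanishing of first cohomology on the natural module for three small orthogonal groups over the field with two elements: for the commutator subgroup of the isometry group of the elliptic quadratic form in dimension 4, of the elliptic form in dimension 6, and of the hyperbolic form in dimension 8, every crossed homomorphism into the natural module (a map f with f(gh) = f(g) + g·f(h)) is principal (of the form g ↦ g·v − v). -/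
theorem result : (∀ f : ↥(Cfsg.Omega (ZMod 2) (Cfsg.quadFormMinus 1 (ZMod 2) 1 1)) → ((Fin 1 ⊕ Fin 1) ⊕ Fin 2 → ZMod 2), (∀ g h : ↥(Cfsg.Omega (ZMod 2) (Cfsg.quadFormMinus 1 (ZMod 2) 1 1)), f (g * h) = f g + Matrix.mulVec (((g : ↥(Cfsg.isometryGroup (ZMod 2) (Cfsg.quadFormMinus 1 (ZMod 2) 1 1))) : GL ((Fin 1 ⊕ Fin 1) ⊕ Fin 2) (ZMod 2)) : Matrix ((Fin 1 ⊕ Fin 1) ⊕ Fin 2) ((Fin 1 ⊕ Fin 1) ⊕ Fin 2) (ZMod 2)) (f h)) → ∃ v : (Fin 1 ⊕ Fin 1) ⊕ Fin 2 → ZMod 2, ∀ g : ↥(Cfsg.Omega (ZMod 2) (Cfsg.quadFormMinus 1 (ZMod 2) 1 1)), f g = Matrix.mulVec (((g : ↥(Cfsg.isometryGroup (ZMod 2) (Cfsg.quadFormMinus 1 (ZMod 2) 1 1))) : GL ((Fin 1 ⊕ Fin 1) ⊕ Fin 2) (ZMod 2)) : Matrix ((Fin 1 ⊕ Fin 1) ⊕ Fin 2) ((Fin 1 ⊕ Fin 1) ⊕ Fin 2) (ZMod 2)) v - v) ∧ (∀ f : ↥(Cfsg.Omega (ZMod 2) (Cfsg.quadFormMinus 2 (ZMod 2) 1 1)) → ((Fin 2 ⊕ Fin 2) ⊕ Fin 2 → ZMod 2), (∀ g h : ↥(Cfsg.Omega (ZMod 2) (Cfsg.quadFormMinus 2 (ZMod 2) 1 1)), f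 (g * h) = f g + Matrix.mulVec (((g : ↥(Cfsg.isometryGroup (ZMod 2) (Cfsg.quadFormMinus 2 (ZMod 2) 1 1))) : GL ((Fin 2 ⊕ Fin 2) ⊕ Fin 2) (ZMod 2)) : Matrix ((Fin 2 ⊕ Fin 2) ⊕ Fin 2) ((Fin 2 ⊕ Fin 2) ⊕ Fin 2) (ZMod 2)) (f h)) → ∃ v : (Fin 2 ⊕ Fin 2) ⊕ Fin 2 → ZMod 2, ∀ g : ↥(Cfsg.Omega (ZMod 2) (Cfsg.quadFormMinus 2 (ZMod 2) 1 1)), f g = Matrix.mulVec (((g : ↥(Cfsg.isometryGroup (ZMod 2) (Cfsg.quadFormMinus 2 (ZMod 2) 1 1))) : GL ((Fin 2 ⊕ Fin 2) ⊕ Fin 2) (ZMod 2)) : Matrix ((Fin 2 ⊕ Fin 2) ⊕ Fin 2) ((Fin 2 ⊕ Fin 2) ⊕ Fin 2) (ZMod 2)) v - v) ∧ (∀ f : ↥(Cfsg.Omega (ZMod 2) (Cfsg.quadFormPlus 4 (ZMod 2))) → (Fin 4 ⊕ Fin 4 → ZMod 2), (∀ g h : ↥(Cfsg.Omega (ZMod 2) (Cfsg.quadFormPlus 4 (ZMod 2))), f (g * h) = f g + Matrix.mulVec (((g : ↥(Cfsg.isometryGroup (ZMod 2) (Cfsg.quadFormPlus 4 (ZMod 2)))) : GL (Fin 4 ⊕ Fin 4) (ZMod 2)) : Matrix (Fin 4 ⊕ Fin 4) (Fin 4 ⊕ Fin 4) (ZMod 2)) (f h)) → ∃ v : Fin 4 ⊕ Fin 4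 → ZMod 2, ∀ g : ↥(Cfsg.Omega (ZMod 2) (Cfsg.quadFormPlus 4 (ZMod 2))), f g = Matrix.mulVec (((g : ↥(Cfsg.isometryGroup (ZMod 2) (Cfsg.quadFormPlus 4 (ZMod 2)))) : GL (Fin 4 ⊕ Fin 4) (ZMod 2)) : Matrix (Fin 4 ⊕ Fin 4) (Fin 4 ⊕ Fin 4) (ZMod 2)) v - v) := by
  refine ⟨core' _ (coe_QMinus 1 1 1) fun f hf => ?_, core' _ (coe_QMinus 2 1 1) fun f hf => ?_,
    core' _ (coe_QPlus 4) fun f hf => ?_⟩
  · let e : (Fin 1 ⊕ Fin 1) ⊕ Fin 2 → ℕ := Sum.elim (Sum.elim (·) (1 + ·)) (2 + ·)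
    refine core (nondeg_QMinus_of_disc (by decide) 1) (fun u v hu hv h => .inr ?_) f hf 1 (by simp)
      (dec e [10, 8]) (dec e [4, 5]) (tab e 76842806114529280) ?_ ?_ ?_ ?_
    · revert u v
      rw [coe_QMinus]
      set_option synthInstance.maxSize 999 in decide +kernel
    all_goals rw [coe_QMinus]; decide +kernel
  · let e : (Fin 2 ⊕ Fin 2) ⊕ Fin 2 → ℕ := Sum.elim (Sum.elim (·) (2 + ·)) (4 + ·)
    have hQ := nondeg_QMinus_of_disc (F := ZMod 2) (a := 1) (b := 1) (by decide) 2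
    refine core hQ (good_of_finrank_ne hQ (by simp)) f hf 2 (by simp)
      (dec e [16, 20, 24]) (dec e [32, 11, 49])
      (tab e 14479312585853504098337037067907857943646267900314053221881253048400585162752)
      ?_ ?_ ?_ ?_ <;> rw [coe_QMinus] <;> decide +kernel
  · let e : Fin 4 ⊕ Fin 4 → ℕ := Sum.elim (·) (4 + ·)
    refine core (nondeg_QPlus 4) (good_of_finrank_ne (nondeg_QPlus 4) (by simp)) f hf 3 (by simp)
      (dec e [54, 156, 168, 184]) (dec e [137, 202, 196, 141])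
      (tab e 1624235745767142896534841419638258666575594834474396766835144678039911766985215661012788747969460626658865128412929886737786984136152128574417460630051609589497078122866832211565769976351844249919193339730977717387892214123229684573393327050806855857642627928424208840903160890396198995348565256334856945664)
      ?_ ?_ ?_ ?_ <;> rw [coe_QPlus] <;> decide +kernel

end Cfsg.Agent.S5405
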