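import Mathlib
import Cfsg.Agent.Lib.MonType.Cross
import Cfsg.Statements.S5410
-- import your own Cfsg.Agent.* helpers here

set_option autoImplicit false
open Cfsg

namespace Cfsg.Agent.S5410


/-- Let G be a finite group of Monster type at the involution z with Q the extraspecial normal subgroup of order 2^25 of C = C_G(z) (so C/Q is identified with the first Conway group with Q modulo its centre the Leech lattice modulo 2, and z is not weakly closed in Q). Let g in G with s = g z g⁻¹ a member of Q other than z, let X be the image in C/Q of the centralizer of s in C, and let E be the image in C/Q of the intersection of g Q g⁻¹ with C. Then E is a normal subgroup of X, elementary abelian of order 2^11, and it has a complement in X isomorphic to the Mathieu group of degree 24 (the automorphism group of the length-24 binary Golay code). -/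
theorem result {G : Type*} [Group G] [Finite G] (z : G) (Q : Subgroup (Subgroup.centralizer ({z} : Set G))) [Q.Normal] (hM : Cfsg.IsOfMonsterType z Q) (s : G) (hsQ : ∃ hsc : s ∈ Subgroup.centralizer ({z} : Set G), (⟨s, hsc⟩ : Subgroup.centralizer ({z} : Set G)) ∈ Q) (hs : IsConj z s) (hs1 : s ≠ z) (g : G) (hg : g * z * g⁻¹ = s) (X E : Subgroup ((Subgroup.centralizer ({z} : Set G)) ⧸ Q)) (hX : X = ((Subgroup.centralizer ({z} : Set G) ⊓ Subgroup.centralizer ({s} : Set G)).subgroupOf (Subgroup.centralizer ({z} : Set G))).map (QuotientGroup.mk' Q)) (hE : E = (((Q.map (Subgroup.centralizer ({z} : Set G)).subtype).map (MulAut.conj g).toMonoidHom ⊓ Subgroup.centralizer ({z} : Set G)).subgroupOf (Subgroup.centralizer ({z} : Set G))).map (QuotientGroup.mk' Q)) : E ≤ X ∧ (∀ x ∈ X, ∀ y ∈ E, x * y * x⁻¹ ∈ E) ∧ Cfsg.IsElementaryAbelian 2 E ∧ Nat.card E = 2 ^ 11 ∧ ∃ K : Subgroup ((Subgroup.centralizer ({z} : Set G)) ⧸ Q), K ≤ X ∧ E ⊓ K = ⊥ ∧ E ⊔ K = X ∧ Nonempty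 (K ≃* Cfsg.M24) := by
  obtain ⟨hS, e₀, ψ, hψ⟩ := hM
  have M₀ := H95.mon_of hS hψ
  subst hg
  obtain ⟨v, hv, h1⟩ := M₀.norm64_of_isConj (H95.mem_map_cent.2 hsQ) hs hs1
  obtain ⟨δ, hδ⟩ := M₀.exists_twist h1 hv
  have M := M₀.twist δ
  have p := M₀.pair (H95.mem_map_cent.2 hsQ) hs1
  let e := e₀.trans (MulAut.conj (QuotientGroup.mk δ : Spor.Co1))
  let π := QuotientGroup.mk' (Subgroup.center Co0)
  have eX : X.map e.toMonoidHom = H16.monoGroup.map π := by
    rw [hX, Subgroup.map_map]; exact M.map_cent_eq hδ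
  have eE : E.map e.toMonoidHom = H95.epsGroup.map π := by
    rw [hE, Subgroup.map_map]; exact (M.card_E p (M.card_conj g) hδ).2
  have mX : ∀ x, x ∈ X ↔ e x ∈ H16.monoGroup.map π := fun x => by
    rw [← eX]; exact (Subgroup.mem_map_iff_mem e.injective).symm
  have mE : ∀ x, x ∈ E ↔ e x ∈ H95.epsGroup.map π := fun x => by
    rw [← eE]; exact (Subgroup.mem_map_iff_mem e.injective).symm
  have hEX : E ≤ X := fun x hx => (mX x).2 (Subgroup.map_mono H95.epsGroup_le ((mE x).1 hx))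
  have hsq : ∀ a ∈ E, a * a = 1 := by
    intro a ha
    obtain ⟨_, ⟨c, hc, rfl⟩, h⟩ := (mE a).1 ha
    apply e.injective
    rw [map_mul, ← h, ← map_mul, H16.eps_mul_self, map_one, map_one]
  let κ : M24 →* _ := e.symm.toMonoidHom.comp (π.comp H16.permHom)
  have hκ : ∀ σ, e (κ σ) = π (H16.permHom σ) := fun σ => e.apply_symm_apply _
  have hone : ∀ σ, κ σ ∈ E → σ = 1 := by
    intro σ h
    rw [mE, hκ] at h
    obtain ⟨_, ⟨c, hc, rfl⟩, h⟩ := h
    rcases H95.mk_eq_mk.1 h with f | f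
    · exact Subtype.ext (H16.mono_inj (hσ := σ.2) (hc := H16.empty_mem_code) f).1
    · rw [H16.negCo0, H16.eps_mul_eps] at f
      exact Subtype.ext (H16.mono_inj (hσ := σ.2) (hc := H16.empty_mem_code) f).1
  have hKX : κ.range ≤ X := by
    rintro _ ⟨σ, rfl⟩
    rw [mX, hκ]
    exact Subgroup.mem_map_of_mem _ (H16.permHom_mem σ)
  refine ⟨hEX, ?_, ⟨⟨⟨fun a b => Subtype.ext ?_⟩⟩, fun a ha => by rw [pow_two, hsq a ha]⟩, ?_,
    κ.range, hKX, ?_, ?_, ⟨(MonoidHom.ofInjective ?_).symm⟩⟩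
  · intro x hx y hy
    obtain ⟨_, ⟨σ, hσ, c, hc, rfl⟩, h⟩ := (mX x).1 hx
    obtain ⟨_, ⟨d, hd, rfl⟩, h'⟩ := (mE y).1 hy
    rw [mE, map_mul, map_mul, map_inv, ← h, ← h', ← map_inv, ← map_mul, ← map_mul]
    apply Subgroup.mem_map_of_mem
    rw [H16.mono_eq_eps_mul, mul_assoc (H16.eps c hc), H16.permHom_mul_eps, mul_inv_rev,
      ← mul_assoc, ← mul_assoc, mul_inv_cancel_right]
    exact mul_mem (mul_mem ⟨_, _, rfl⟩ ⟨_, _, rfl⟩) (inv_mem ⟨_, _, rfl⟩)
  · have hab := hsq _ (Subgroup.mul_mem _ a.2 b.2)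
    simp only [Subgroup.coe_mul]
    rw [← inv_eq_of_mul_eq_one_right hab, mul_inv_rev, inv_eq_of_mul_eq_one_right (hsq _ a.2),
      inv_eq_of_mul_eq_one_right (hsq _ b.2)]
  · rw [← Subgroup.card_map_of_injective (f := e.toMonoidHom) e.injective, eE,
      H95.card_map_epsGroup]
  · rw [eq_bot_iff]
    rintro _ ⟨h, σ, rfl⟩
    rw [hone σ h, map_one]; exact one_mem _
  · refine le_antisymm (sup_le hEX hKX) fun x hx => ?_
    obtain ⟨_, ⟨σ, hσ, c, hc, rfl⟩, h⟩ := (mX x).1 hx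
    have : x = e.symm (π (H16.eps c hc)) * κ ⟨σ, hσ⟩ := by
      apply e.injective
      rw [map_mul, hκ, e.apply_symm_apply, ← map_mul, ← H16.mono_eq_eps_mul, h]
    rw [this]
    refine Subgroup.mul_mem_sup ?_ ⟨_, rfl⟩
    rw [mE, e.apply_symm_apply]
    exact Subgroup.mem_map_of_mem _ ⟨_, _, rfl⟩
  · rw [injective_iff_map_eq_one]
    exact fun σ h => hone σ (h ▸ one_mem _)


end Cfsg.Agent.S5410
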