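import Mathlib
import Cfsg.Agent.Lib.MonType.Baby
import Cfsg.Statements.S5412
-- import your own Cfsg.Agent.* helpers here

set_option autoImplicit false
open Cfsg

namespace Cfsg.Agent.S5412


/-- Let G be a finite group of Monster type at the involution z with Q the extraspecial normal subgroup of order 2^25 of C = C_G(z) (so C/Q is identified with the first Conway group with Q modulo its centre the Leech lattice modulo 2, and z is not weakly closed in Q). Let t be an involution of Q not conjugate to z in G. Then the centralizer of t modulo the subgroup generated by t is a group of Baby Monster type (an involution whose centralizer D has generalized Fitting subgroup R extraspecial of order 2^23 with D/R identified with the second Conway group acting on R modulo its centre as on the vectors of the Leech lattice modulo 2 orthogonal to a short vector, modulo that vector; the involution not weakly closed in R). -/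
theorem result {G : Type*} [Group G] [Finite G] (z : G) (Q : Subgroup (Subgroup.centralizer ({z} : Set G))) [Q.Normal] (hM : Cfsg.IsOfMonsterType z Q) (t : G) (htQ : ∃ htc : t ∈ Subgroup.centralizer ({z} : Set G), (⟨t, htc⟩ : Subgroup.centralizer ({z} : Set G)) ∈ Q) (ht2 : orderOf t = 2) (ht : ¬ IsConj z t) [hn : ((Subgroup.zpowers t).subgroupOf (Subgroup.centralizer ({t} : Set G))).Normal] : Cfsg.IsOfBabyMonsterType (↥(Subgroup.centralizer ({t} : Set G)) ⧸ (Subgroup.zpowers t).subgroupOf (Subgroup.centralizer ({t} : Set G))) := by
  obtain ⟨hS, e, ψ, hψ⟩ := hM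
  have M := H95.mon_of hS hψ
  obtain ⟨-, -, g, hg, hne⟩ := H95.L3_of_setting hS
  obtain ⟨w, hw, h2⟩ := M.type_of_invol (H95.mem_map_cent.2 htQ) (H95.ne_one_of_orderOf_eq_two ht2)
    (by rintro rfl; exact ht (IsConj.refl _)) (H95.mul_self_of_orderOf_eq_two ht2)
  obtain ⟨δ, hδ⟩ := Cfsg.Agent.S0400.result w Spor.leechU
    (h2.resolve_right fun h => ht (M.isConj_of_norm64 hg (H95.isConj_of_conj rfl) hne hw h))
    H95.sqNorm_leechU
  exact (M.twist δ).baby hg (H95.isConj_of_conj rfl) hne (by simpa [← hδ] using hw) ht


end Cfsg.Agent.S5412
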