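import Mathlib
import Cfsg.Agent.Lib.MonType.Std
import Cfsg.Agent.Lib.MonType.C5A
import Cfsg.Statements.S5413
-- import your own Cfsg.Agent.* helpers here

set_option autoImplicit false
open Cfsg

namespace Cfsg.Agent.S5413


/-- Let G be a finite group of Monster type at the involution z with Q the extraspecial normal subgroup of order 2^25 of C = C_G(z) (so C/Q is identified with the first Conway group with Q modulo its centre the Leech lattice modulo 2, and z is not weakly closed in Q). Let s be a conjugate of z in Q other than z and let B be a Sylow 5-subgroup of the joint centralizer of z and s. Then the centralizer of B modulo B is a group of Harada–Norton type (an involution whose centralizer D has generalized Fitting subgroup R extraspecial of order 2^9 with D/R the wreath product of the alternating group of degree 5 by a group of order 2, the involution not weakly closed in R). -/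
theorem result {G : Type*} [Group G] [Finite G] (z : G) (Q : Subgroup (Subgroup.centralizer ({z} : Set G))) [Q.Normal] (hM : Cfsg.IsOfMonsterType z Q) (s : G) (hsQ : ∃ hsc : s ∈ Subgroup.centralizer ({z} : Set G), (⟨s, hsc⟩ : Subgroup.centralizer ({z} : Set G)) ∈ Q) (hs : IsConj z s) (hs1 : s ≠ z) (B : Subgroup G) (hB : B ≤ Subgroup.centralizer ({z, s} : Set G)) (hBp : Nat.card B = 5 ^ (Nat.card ↥(Subgroup.centralizer ({z, s} : Set G))).factorization 5) [hn : (B.subgroupOf (Subgroup.centralizer (B : Set G))).Normal] : Cfsg.IsOfHaradaNortonType (↥(Subgroup.centralizer (B : Set G)) ⧸ B.subgroupOf (Subgroup.centralizer (B : Set G))) := by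
  obtain ⟨hS, e, ψ, hψ⟩ := hM
  obtain ⟨Λ, h1, h2, h3⟩ := (H95.mon_of hS hψ).cent_std (H95.mem_map_cent.2 hsQ) hs hs1
  have : Fact (Nat.Prime 5) := ⟨by norm_num⟩
  rw [H95.factorization_top h1 h2 (by norm_num), H15.card_M24,
    show (244823040 : ℕ).factorization 5 = 1 by decide +kernel, pow_one] at hBp
  obtain ⟨b, ob, eB⟩ := H95.exists_zpowers_of_le hB hBp
  have odd : Odd (orderOf b) := by rw [ob]; decide
  obtain ⟨c, hc, o, -, hj⟩ := H95.M24_class (Λ b)
  rw [H95.orderOf_map_of_odd h2 odd, ob] at o
  have ec : c.c = H96.Geo.M24.c5A := by revert hc o; generalize c = c; revert c; decide +kernel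
  rw [ec] at hj
  obtain ⟨θ, D⟩ := H95.data5A
  obtain ⟨y, Θ, s1, s2, -⟩ := h3 b odd _ (hj _) 4 _ θ D H95.pCore_wreath B eB
  exact ⟨y, Θ.ker, inferInstance, s2, ⟨QuotientGroup.quotientKerEquivOfSurjective Θ s1⟩⟩


end Cfsg.Agent.S5413
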