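import Mathlib
import Cfsg.Agent.Lib.MonType.Std
import Cfsg.Agent.Lib.MonType.C3A
import Cfsg.Statements.S5415
-- import your own Cfsg.Agent.* helpers here

set_option autoImplicit false
open Cfsg

namespace Cfsg.Agent.S5415


/-- Let G be a finite group of Monster type at the involution z with Q the extraspecial normal subgroup of order 2^25 of C = C_G(z) (so C/Q is identified with the first Conway group with Q modulo its centre the Leech lattice modulo 2, and z is not weakly closed in Q). Let s be a conjugate of z in Q other than z and let Y be a subgroup of order 3 of the joint centralizer L of z and s that is 3-central in L (Y lies in the centre of some Sylow 3-subgroup of L). Then the centralizer of Y modulo Y is a group of large Fischer type (an involution whose centralizer D has generalized Fitting subgroup R extraspecial of order 2^13 and normal subgroups R ≤ N ≤ M with N/R of order 3, M/N the projective special unitary group of dimension 4 over the field with nine elements and M of index 2 in D; the involution not weakly closed in R).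 -/
theorem result {G : Type*} [Group G] [Finite G] (z : G) (Q : Subgroup (Subgroup.centralizer ({z} : Set G))) [Q.Normal] (hM : Cfsg.IsOfMonsterType z Q) (s : G) (hsQ : ∃ hsc : s ∈ Subgroup.centralizer ({z} : Set G), (⟨s, hsc⟩ : Subgroup.centralizer ({z} : Set G)) ∈ Q) (hs : IsConj z s) (hs1 : s ≠ z) (Y : Subgroup G) (hY : Y ≤ Subgroup.centralizer ({z, s} : Set G)) (hY3 : Nat.card Y = 3) (hc : ∃ P : Sylow 3 ↥(Subgroup.centralizer ({z, s} : Set G)), Y.subgroupOf (Subgroup.centralizer ({z, s} : Set G)) ≤ (Subgroup.center ↥(P : Subgroup ↥(Subgroup.centralizer ({z, s} : Set G)))).map (P : Subgroup ↥(Subgroup.centralizer ({z, s} : Set G))).subtype) [hn : (Y.subgroupOf (Subgroup.centralizer (Y : Set G))).Normal] : Cfsg.IsOfLargeFischerType (↥(Subgroup.centralizer (Y : Set G)) ⧸ Y.subgroupOf (Subgroup.centralizer (Y : Set G))) := by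
  obtain ⟨hS, e, ψ, hψ⟩ := hM
  obtain ⟨Λ, h1, h2, h3⟩ := (H95.mon_of hS hψ).cent_std (H95.mem_map_cent.2 hsQ) hs hs1
  have : Fact (Nat.Prime 3) := ⟨by norm_num⟩
  obtain ⟨b, ob, eB⟩ := H95.exists_zpowers_of_le hY hY3
  have odd : Odd (orderOf b) := by rw [ob]; decide
  obtain ⟨c, hc', o, oc, hj⟩ := H95.M24_class (Λ b)
  rw [H95.orderOf_map_of_odd h2 odd, ob] at o
  have hb : (244823040 : ℕ).factorization 3 ≤ c.z.factorization 3 := by
    rw [← oc, ← H95.factorization_cent h1 h2 odd (by norm_num), ← H15.card_M24,
      ← H95.factorization_top h1 h2 (by norm_num), ← H95.exists_sylow_center_iff ob]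
    obtain ⟨P, hP⟩ := hc
    exact ⟨P, le_trans (Subgroup.zpowers_le.2 (eB.ge (Subgroup.mem_zpowers _))) hP⟩
  have ec : c.c = H96.Geo.M24.c3A := by
    revert hc' o hb; generalize c = c; revert c; decide +kernel
  rw [ec] at hj
  obtain ⟨T, θ, D, hT, M, φ, a1, a2, a3, a4⟩ := H95.data3A
  obtain ⟨y, Θ, s1, s2, -⟩ := h3 b odd _ (hj _) 6 _ θ D hT Y eB
  exact H95.largeFischer_of Θ s1 s2 a1 φ a2 a3 a4


end Cfsg.Agent.S5415
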