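import Mathlib
import Cfsg.Agent.Lib.LargeExtra.Large
import Cfsg.Statements.S5421
-- import your own Cfsg.Agent.* helpers here

set_option autoImplicit false
open Cfsg

namespace Cfsg.Agent.S5421


/-- Let Q be an extraspecial 2-subgroup of the finite group G whose centralizer in G is its centre Z and which is normal in the centralizer of Z. If some involution b of Q outside Z has Z inside the largest normal 2-subgroup of the centralizer of b, then Q is a large extraspecial 2-subgroup of G. -/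
theorem result {G : Type*} [Group G] [Finite G] (Q : Subgroup G) (hL1 : Cfsg.IsExtraspecial 2 ↥Q) (hL2 : Subgroup.centralizer (Q : Set G) = ((Subgroup.center ↥Q).map Q.subtype)) (hL3 : Subgroup.centralizer (((Subgroup.center ↥Q).map Q.subtype) : Set G) ≤ Subgroup.normalizer (Q : Set G)) (b : G) (hbQ : b ∈ Q) (hbZ : b ∉ ((Subgroup.center ↥Q).map Q.subtype)) (hb : orderOf b = 2) (hZ : ((Subgroup.center ↥Q).map Q.subtype) ≤ (Cfsg.pCore 2 ↥(Subgroup.centralizer ({b} : Set G))).map (Subgroup.centralizer ({b} : Set G)).subtype) : Cfsg.IsLargeExtraspecial Q := by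
  obtain ⟨z, hz⟩ := H95.exists_L3 hL1 hL2 hL3
  rw [hz.center_eq] at hbZ hZ
  rw [hz.mem_zpowers, not_or] at hbZ
  refine hz.isLarge_of_invol hbQ hbZ.1 hbZ.2 (H95.mul_self_of_orderOf_eq_two hb)
    (H1.isPGroup_pCore.map _) (hZ (Subgroup.mem_zpowers z)) ?_
  rintro g hg _ ⟨x, hx, rfl⟩
  exact ⟨_, (Cfsg.pCore_normal 2 _).conj_mem x hx ⟨g, H95.mem_cent_iff.2 hg⟩, rfl⟩

end Cfsg.Agent.S5421
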