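import Mathlib
import Cfsg.Agent.Lib.LargeExtra.Pair
import Cfsg.Statements.S5422
-- import your own Cfsg.Agent.* helpers here

set_option autoImplicit false
open Cfsg

namespace Cfsg.Agent.S5422


/-- Let Q be an extraspecial 2-subgroup of the finite group G whose centralizer in G is its centre Z and which is normal in the centralizer of Z; suppose Q has width at least 2 (order 2^(2w+1) with w ≥ 2) and g is an element of G not normalizing Z with g Z g⁻¹ inside Q. Then Z lies inside g Q g⁻¹; writing V for the subgroup generated by Z and g Z g⁻¹ (a four-group), the normalizer of V induces on V its full automorphism group, that is, the centralizer of V has index 6 in the normalizer of V; and Q is a large extraspecial 2-subgroup of G. -/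
theorem result {G : Type*} [Group G] [Finite G] (Q : Subgroup G) (hL1 : Cfsg.IsExtraspecial 2 ↥Q) (hL2 : Subgroup.centralizer (Q : Set G) = ((Subgroup.center ↥Q).map Q.subtype)) (hL3 : Subgroup.centralizer (((Subgroup.center ↥Q).map Q.subtype) : Set G) ≤ Subgroup.normalizer (Q : Set G)) (w : ℕ) (hw : 2 ≤ w) (hcard : Nat.card ↥Q = 2 ^ (2 * w + 1)) (g : G) (hg : g ∉ Subgroup.normalizer (((Subgroup.center ↥Q).map Q.subtype) : Set G)) (hZg : (((Subgroup.center ↥Q).map Q.subtype)).map (MulAut.conj g).toMonoidHom ≤ Q) : ((Subgroup.center ↥Q).map Q.subtype) ≤ (Q).map (MulAut.conj g).toMonoidHom ∧ (Subgroup.centralizer ((((Subgroup.center ↥Q).map Q.subtype) ⊔ (((Subgroup.center ↥Q).map Q.subtype)).map (MulAut.conj g).toMonoidHom : Subgroup G) : Set G)).relIndex (Subgroup.normalizer ((((Subgroup.center ↥Q).map Q.subtype) ⊔ (((Subgroup.center ↥Q).map Q.subtype)).map (MulAut.conj g).toMonoidHom : Subgroup G) : Set G)) = 6 ∧ Cfsg.IsLargeExtraspecial Q := by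
  obtain ⟨z, hz⟩ := H95.exists_L3 hL1 hL2 hL3
  rw [hz.center_eq] at hg hZg ⊢
  have hc : 8 < Nat.card Q := by
    rw [hcard]
    calc 8 < 2 ^ (2 * 2 + 1) := by norm_num
      _ ≤ _ := Nat.pow_le_pow_right two_pos (by omega)
  have e1 : (Subgroup.zpowers z).map (MulAut.conj g).toMonoidHom = Subgroup.zpowers (g * z * g⁻¹) := by
    rw [MonoidHom.map_zpowers]; rfl
  rw [e1] at hZg ⊢
  have hs : g * z * g⁻¹ ∈ Q := hZg (Subgroup.mem_zpowers _)
  have hne : g * z * g⁻¹ ≠ z := fun e => hg (by
    rw [Subgroup.mem_normalizer_iff_map_conj_eq]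
    exact e1.trans (by rw [e]))
  have p := hz.pair hc hs hne
  refine ⟨by simpa using p.zQ, ?_, hz.isLarge_of_conj_mem hc hs hne⟩
  have e2 : Subgroup.zpowers z ⊔ Subgroup.zpowers (g * z * g⁻¹) = Subgroup.closure {z, g * z * g⁻¹} := by
    rw [Subgroup.zpowers_eq_closure, Subgroup.zpowers_eq_closure, ← Subgroup.closure_union]
    rfl
  rw [e2]
  obtain ⟨θ, h1, h2, -⟩ := p.exists_hom
  have hk : θ.ker = (Subgroup.centralizer _).subgroupOf _ := Subgroup.ext fun x => h1 x
  rw [Subgroup.relIndex, ← hk, Subgroup.index_ker,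
    MonoidHom.range_eq_top.2 fun σ => (h2 σ).imp fun _ h => h.1, Subgroup.card_top]
  rw [Nat.card_perm]
  simp [Nat.factorial]

end Cfsg.Agent.S5422
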