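import Cfsg.Statements.S5423
import Cfsg.Agent.Lib.LEx73.Heis

set_option autoImplicit false
open Cfsg Subgroup H95 H73.LX Matrix

namespace Cfsg.Agent.S5423

/-- the linear part of the affine action -/
def act {n : ℕ} (h : HB n) (v : ZMod 2 × (Fin n → ZMod 2)) : ZMod 2 × (Fin n → ZMod 2) :=
  (v.1 + h.a ⬝ᵥ v.2, h.A.1 *ᵥ v.2)

theorem act_add {n : ℕ} (h : HB n) (v w : ZMod 2 × (Fin n → ZMod 2)) :
    act h (v + w) = act h v + act h w :=
  Prod.ext (by simp only [act, Prod.fst_add, Prod.snd_add, dotProduct_add]; ring)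
    (by simp only [act, Prod.snd_add, mulVec_add])

theorem act_mul {n : ℕ} (g h : HB n) (v : ZMod 2 × (Fin n → ZMod 2)) :
    act (g * h) v = act g (act h v) :=
  Prod.ext (by simp only [act, HB.mul_a, add_dotProduct, dotProduct_mulVec]; ring)
    (by simp only [act, HB.mul_A, slm, mulVec_mulVec])

theorem act_one {n : ℕ} (v : ZMod 2 × (Fin n → ZMod 2)) : act (1 : HB n) v = v :=
  Prod.ext (by simp [act, HB.one_a]) (by simp only [act, HB.one_A, sl1, one_mulVec])

theorem tau_mul {n : ℕ} (g h : HB n) :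
    ((g * h).c, (g * h).b) = (g.c, g.b) + act g (h.c, h.b) :=
  Prod.ext (by simp only [act, HB.mul_c, Prod.fst_add]; ring) rfl

theorem exists_beta {U : Type*} [Group U] [Finite U] {n : ℕ} (hc : IsMulCommutative U)
    (h2 : ∀ u : U, u ^ 2 = 1) (hcard : Nat.card U = 2 ^ (n + 1)) {z : U} (hz : z ≠ 1) :
    ∃ β : (ZMod 2 × (Fin n → ZMod 2)) ≃ U, (∀ v w, β (v + w) = β v * β w) ∧ β (1, 0) = z := by
  let _ : CommGroup U := { (inferInstance : Group U) with mul_comm := hc.is_comm.comm }
  let _ : Module (ZMod 2) (Additive U) := AddCommGroup.zmodModule (fun x => h2 x.toMul)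
  have hfin : Module.Finite (ZMod 2) (Additive U) := Module.Finite.of_finite
  have hz' : (Additive.ofMul z : Additive U) ≠ 0 := hz
  obtain ⟨W, hW⟩ := Submodule.exists_isCompl (Submodule.span (ZMod 2) {Additive.ofMul z})
  have hr : Module.finrank (ZMod 2) (Additive U) = n + 1 := by
    have := Module.natCard_eq_pow_finrank (K := ZMod 2) (V := Additive U)
    rw [Nat.card_zmod, show Nat.card (Additive U) = Nat.card U from rfl, hcard] at this
    exact (Nat.pow_right_injective le_rfl this).symm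
  have hrW : Module.finrank (ZMod 2) (Fin n → ZMod 2) = Module.finrank (ZMod 2) W := by
    have := Submodule.finrank_add_eq_of_isCompl hW
    rw [finrank_span_singleton hz', hr] at this
    rw [Module.finrank_fin_fun]
    omega
  let e := ((LinearEquiv.toSpanNonzeroSingleton (ZMod 2) (Additive U) _ hz').prodCongr
    (LinearEquiv.ofFinrankEq _ _ hrW)).trans (Submodule.prodEquivOfIsCompl _ _ hW)
  refine ⟨e.toEquiv.trans Additive.toMul, fun v w => ?_, ?_⟩
  · show Additive.toMul (e (v + w)) = _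
    rw [map_add]
    rfl
  · show Additive.toMul (e (1, 0)) = z
    simp [e]

theorem exists_coord {n : ℕ} (ψ : ZMod 2 × (Fin n → ZMod 2) → ZMod 2 × (Fin n → ZMod 2))
    (h1 : ∀ v w, ψ (v + w) = ψ v + ψ w) (h2 : ψ (1, 0) = (1, 0)) :
    ∃ (a : Fin n → ZMod 2) (A : Matrix (Fin n) (Fin n) (ZMod 2)),
      ∀ v, ψ v = (v.1 + a ⬝ᵥ v.2, A *ᵥ v.2) := by
  let f := (AddMonoidHom.mk' ψ h1).toZModLinearMap 2
  have hf : ∀ v, f v = ψ v := fun _ => rfl
  refine ⟨fun j => (f (0, Pi.single j 1)).1,
    LinearMap.toMatrix' ((LinearMap.snd _ _ _).comp (f.comp (LinearMap.inr _ _ _))), fun v => ?_⟩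
  have e : v = v.1 • ((1, 0) : ZMod 2 × (Fin n → ZMod 2)) + (0, v.2) := by simp
  have e2 : ((0, v.2) : ZMod 2 × (Fin n → ZMod 2)) =
      ∑ j, v.2 j • ((0, Pi.single j 1) : ZMod 2 × (Fin n → ZMod 2)) := by
    refine Prod.ext (by simp [Prod.fst_sum]) ?_
    rw [Prod.snd_sum]
    exact pi_eq_sum_univ' v.2
  rw [← hf, LinearMap.toMatrix'_mulVec]
  conv_lhs => rw [e, map_add, map_smul, hf (1, 0), h2]
  refine Prod.ext ?_ (by simp)
  rw [Prod.fst_add, e2, map_sum, Prod.fst_sum]
  simp only [map_smul, Prod.smul_fst, smul_eq_mul, mul_one, dotProduct, mul_comm]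

theorem SL_equiv_GL (n : ℕ) : Nonempty (Matrix.SpecialLinearGroup (Fin n) (ZMod 2) ≃*
    Matrix.GeneralLinearGroup (Fin n) (ZMod 2)) := by
  refine ⟨MulEquiv.ofBijective Matrix.SpecialLinearGroup.toGL
    ⟨Matrix.SpecialLinearGroup.toGL_injective, fun g => ⟨⟨g.1, ?_⟩, Units.ext rfl⟩⟩⟩
  have h : ∀ a b : ZMod 2, a * b = 1 → a = 1 := by decide
  apply h _ (g⁻¹).1.det
  rw [← det_mul, Units.mul_inv, det_one]

theorem auto_lemmas_S5423 : True := by
  have := @act.eq_1
  trivial

/-- Let G be a finite group that is the split extension of an elementary abelian normal subgroup U of order 2^(n+1), n ≥ 1, by its full automorphism group: U has a complement M in G whose conjugation action on U is faithful and realizes every automorphism of U. Let Z be a subgroup of U of order 2 and Q the largest normal 2-subgroup of the centralizer C of Z. Then Q is extraspecial of order 2^(2n+1) with an elementary abelian subgroup of order 2^(n+1) (plus type), Q is a large extraspecial 2-subgroup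 of G, and C is the split extension of Q by the general linear group of degree n over the field with two elements. -/
theorem result {G : Type*} [Group G] [Finite G] (n : ℕ) (hn : 1 ≤ n) (U M : Subgroup G) [U.Normal] (hU : Cfsg.IsElementaryAbelian 2 U) (hUcard : Nat.card ↥U = 2 ^ (n + 1)) (hUM : U ⊓ M = ⊥) (hUM' : U ⊔ M = ⊤) (hfaith : ∀ m ∈ M, (∀ u ∈ U, m * u * m⁻¹ = u) → m = 1) (hfull : ∀ φ : ↥U ≃* ↥U, ∃ m ∈ M, ∀ u : ↥U, ((φ u : ↥U) : G) = m * u * m⁻¹) (Z : Subgroup G) (hZU : Z ≤ U) (hZ : Nat.card ↥Z = 2) (Q : Subgroup G) (hQ : Q = (Cfsg.pCore 2 ↥(Subgroup.centralizer (Z : Set G))).map (Subgroup.centralizer (Z : Set G)).subtype) : Cfsg.IsExtraspecial 2 ↥Q ∧ Nat.card ↥Q = 2 ^ (2 * n + 1) ∧ (∃ E : Subgroup G, E ≤ Q ∧ Cfsg.IsElementaryAbelian 2 E ∧ Nat.card ↥E = 2 ^ (n + 1)) ∧ Cfsg.IsLargeExtraspecial Q ∧ ∃ K : Subgroup G, K ≤ Subgroup.centralizer (Z : Set G) ∧ Q ⊓ K = ⊥ ∧ Q ⊔ K = Subgroup.centralizer (Z : Set G) ∧ Nonempty (↥K ≃* Matrix.GeneralLinearGroup (Fin n) (ZMod 2))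 := by
  obtain ⟨⟨z, hzZ⟩, hz1, hzu⟩ := (Nat.card_eq_two_iff' (1 : Z)).1 hZ
  have z1 : z ≠ 1 := fun e => hz1 (Subtype.ext e)
  have hZm : ∀ x ∈ Z, x = 1 ∨ x = z := fun x hx => by
    by_cases e : x = 1
    · exact Or.inl e
    · exact Or.inr (congrArg Subtype.val (hzu ⟨x, hx⟩ (fun f => e (congrArg Subtype.val f))))
  have hC : centralizer (Z : Set G) = centralizer ({z} : Set G) := by
    ext g
    rw [mem_cent_iff, mem_centralizer_iff]
    refine ⟨fun h => (h z hzZ).symm, fun h x hx => ?_⟩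
    rcases hZm x hx with e | e
    · rw [e]; simp
    · rw [e, h]
  rw [hC] at hQ ⊢
  obtain ⟨β, hβ, hβz⟩ := exists_beta (n := n) hU.1 (fun u => Subtype.ext (hU.2 u u.2)) hUcard
    (z := ⟨z, hZU hzZ⟩) (fun e => z1 (congrArg Subtype.val e))
  have hβ0 : β 0 = 1 := by
    have := hβ 0 0
    rw [add_zero] at this
    exact (mul_eq_left.1 this.symm)
  have hμ : ∀ h : HB n, ∃ m ∈ M, ∀ v, m * β v * m⁻¹ = β (act h v) := by
    intro h
    obtain ⟨m, hm, e⟩ := hfull
      { toFun := fun u => β (act h (β.symm u))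
        invFun := fun u => β (act h⁻¹ (β.symm u))
        left_inv := fun u => by simp [← act_mul, act_one]
        right_inv := fun u => by simp [← act_mul, act_one]
        map_mul' := fun u w => by
          rw [← hβ, ← act_add]
          congr 2
          apply β.injective
          rw [hβ]
          simp }
    refine ⟨m, hm, fun v => ?_⟩
    rw [← e]
    simp
  choose μ hμM hμ using hμ
  have huniq : ∀ m ∈ M, ∀ h : HB n, (∀ v, m * β v * m⁻¹ = β (act h v)) → m = μ h := by
    intro m hm h e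
    have := hfaith ((μ h)⁻¹ * m) (mul_mem (inv_mem (hμM h)) hm) (fun u hu => by
      obtain ⟨v, hv⟩ := β.surjective ⟨u, hu⟩
      have hv' : u = β v := by rw [hv]
      calc (μ h)⁻¹ * m * u * ((μ h)⁻¹ * m)⁻¹ = (μ h)⁻¹ * (m * β v * m⁻¹) * μ h := by
            rw [hv']; group
        _ = u := by rw [e, ← hμ, hv']; group)
    exact (inv_mul_eq_one.1 this).symm
  have hμmul : ∀ g h, μ (g * h) = μ g * μ h := fun g h =>
    (huniq _ (mul_mem (hμM g) (hμM h)) _ (fun v => by
      rw [act_mul, ← hμ, ← hμ]; group)).symm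
  let ι : HB n →* G := MonoidHom.mk' (fun h => β (h.c, h.b) * μ h) (fun g h => by
    rw [tau_mul, hβ, hμmul, coe_mul, ← hμ]; group)
  have hι : ∀ h, ι h = β (h.c, h.b) * μ h := fun _ => rfl
  have hinj : Function.Injective ι := by
    rw [injective_iff_map_eq_one]
    intro h e
    rw [hι] at e
    have e1 : μ h = 1 := by
      have : μ h ∈ U ⊓ M := ⟨by
        rw [eq_inv_of_mul_eq_one_right e]; exact U.inv_mem (β _).2, hμM h⟩
      rwa [hUM, mem_bot] at this
    rw [e1, mul_one] at e
    have e2 : (h.c, h.b) = 0 := β.injective (by rw [hβ0]; exact Subtype.ext e)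
    have e3 : ∀ v, act h v = v := fun v => β.injective (Subtype.ext (by rw [← hμ, e1]; simp))
    refine HB.ext (congrArg Prod.fst e2) (funext fun j => ?_) (congrArg Prod.snd e2)
      (Subtype.ext ?_)
    · simpa [act, HB.one_a] using congrArg Prod.fst (e3 (0, Pi.single j 1))
    · ext i j
      have := congrFun (congrArg Prod.snd (e3 (0, Pi.single j 1))) i
      simp only [act, mulVec_single_one] at this
      rw [HB.one_A, sl1, one_apply, show h.A.1 i j = h.A.1.col j i from rfl, this,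
        Pi.single_apply]
  have hzz : ι (HB.zz n) = z := by
    have : (1 : G) = μ (HB.zz n) := huniq 1 (one_mem _) _ (fun v => by
      have : act (HB.zz n) v = v :=
        Prod.ext (by simp [act, HB.zz_a]) (by simp only [act, HB.zz_A, sl1, one_mulVec])
      rw [this]; simp)
    rw [hι, ← this, mul_one, HB.zz_c, HB.zz_b, hβz]
  have hr : ι.range = centralizer ({z} : Set G) := by
    refine le_antisymm ?_ fun g hg => ?_
    · rintro _ ⟨g, rfl⟩
      rw [mem_cent_iff, ← hzz, ← map_mul, ← map_mul, HB.zz_comm]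
    · have hg' : g ∈ U ⊔ M := hUM' ▸ mem_top g
      obtain ⟨u, hu, m, hm, rfl⟩ := (mem_sup_iff_of_norm
        (by rw [normalizer_eq_top]; exact le_top)).1 hg'
      have huz : u * z = z * u :=
        congrArg Subtype.val (hU.1.is_comm.comm (⟨u, hu⟩ : U) ⟨z, hZU hzZ⟩)
      have hmz : m * z = z * m := by
        have := mem_cent_iff.1 hg
        rw [mul_assoc, ← mul_assoc z, ← huz, mul_assoc] at this
        exact mul_left_cancel this
      have hco : ∀ k : G, k * z = z * k →
          ∃ (a : Fin n → ZMod 2) (A : Matrix (Fin n) (Fin n) (ZMod 2)),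
            ∀ v, k * β v * k⁻¹ = β (v.1 + a ⬝ᵥ v.2, A *ᵥ v.2) := by
        intro k hk
        obtain ⟨a, A, e⟩ := exists_coord
          (fun v => β.symm ⟨k * β v * k⁻¹, Subgroup.Normal.conj_mem inferInstance _ (β v).2 k⟩)
          (fun v w => β.injective (Subtype.ext (by
            rw [hβ (β.symm _)]
            simp only [Equiv.apply_symm_apply, hβ, coe_mul]
            group)))
          (β.injective (Subtype.ext (by
            simp only [Equiv.apply_symm_apply, hβz]
            rw [hk, mul_inv_cancel_right])))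
        exact ⟨a, A, fun v => by rw [← e v, Equiv.apply_symm_apply]⟩
      obtain ⟨a, A, e⟩ := hco m hmz
      obtain ⟨a', A', e'⟩ := hco m⁻¹ (show Commute m z from hmz).inv_left
      have hAA : A * A' = 1 := by
        ext i j
        have e1 := e (0 + a' ⬝ᵥ Pi.single j 1, A' *ᵥ Pi.single j 1)
        rw [← e' (0, Pi.single j 1), show m * (m⁻¹ * β (0, Pi.single j 1) * m⁻¹⁻¹) * m⁻¹ =
          β (0, Pi.single j 1) by group] at e1
        have := congrFun (congrArg Prod.snd (β.injective (Subtype.ext e1))) i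
        simp only [mulVec_mulVec] at this
        rw [mulVec_single_one] at this
        rw [one_apply, show (A * A') i j = (A * A').col j i from rfl, ← this, Pi.single_apply]
      have hd : A.det = 1 := by
        have h : ∀ a b : ZMod 2, a * b = 1 → a = 1 := by decide
        apply h _ A'.det
        rw [← det_mul, hAA, det_one]
      obtain ⟨v, hv⟩ := β.surjective ⟨u, hu⟩
      refine ⟨⟨v.1, a, v.2, ⟨A, hd⟩⟩, ?_⟩
      rw [hι, ← huniq m hm ⟨v.1, a, v.2, ⟨A, hd⟩⟩ e]
      show (β v : G) * m = u * m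
      rw [hv]
  obtain ⟨h, -, hc, hE, K, k1, k2, k3, ⟨k4⟩⟩ := concl hn ι hinj hzz hr hQ
  obtain ⟨f⟩ := SL_equiv_GL n
  exact ⟨h.isExtraspecial, hc, hE,
    h.isLarge_of_mem_normal (isPGroup_of_pow 1 (by simpa using hU.2)) (hZU hzZ),
    K, k1, k2, k3, ⟨k4.trans f⟩⟩

end Cfsg.Agent.S5423
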