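import Cfsg.Statements.S5424
import Cfsg.Agent.Lib.LEx73.Heis

set_option autoImplicit false
open Cfsg Subgroup H95 H73.LX Matrix

namespace Cfsg.Agent.S5424

/-- the block matrix with the given coordinates -/
def mk {n : ℕ} (c : ZMod 2) (a b : Fin n → ZMod 2) (A : Matrix (Fin n) (Fin n) (ZMod 2)) :
    Matrix (Fin (n + 2)) (Fin (n + 2)) (ZMod 2) :=
  Matrix.of (Fin.cons (Fin.cons 1 (Fin.cons c a)) (Fin.cons (Fin.cons 0 (Fin.cons 1 0))
    fun i => Fin.cons 0 (Fin.cons (b i) (A i))))

section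
variable {n : ℕ} (c : ZMod 2) (a b : Fin n → ZMod 2) (A : Matrix (Fin n) (Fin n) (ZMod 2))
theorem mk00 : mk c a b A 0 0 = 1 := rfl
theorem mk01 : mk c a b A 0 (Fin.succ 0) = c := rfl
theorem mk02 (j : Fin n) : mk c a b A 0 j.succ.succ = a j := rfl
theorem mk10 : mk c a b A (Fin.succ 0) 0 = 0 := rfl
theorem mk11 : mk c a b A (Fin.succ 0) (Fin.succ 0) = 1 := rfl
theorem mk12 (j : Fin n) : mk c a b A (Fin.succ 0) j.succ.succ = 0 := rfl
theorem mk20 (i : Fin n) : mk c a b A i.succ.succ 0 = 0 := rfl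
theorem mk21 (i : Fin n) : mk c a b A i.succ.succ (Fin.succ 0) = b i := rfl
theorem mk22 (i j : Fin n) : mk c a b A i.succ.succ j.succ.succ = A i j := rfl
end

theorem fin_cases2 {n : ℕ} {P : Fin (n + 2) → Prop} (h0 : P 0) (h1 : P (Fin.succ 0))
    (h2 : ∀ j : Fin n, P j.succ.succ) (i : Fin (n + 2)) : P i :=
  Fin.cases h0 (fun j => Fin.cases h1 h2 j) i

theorem mk_mul {n : ℕ} (c c' : ZMod 2) (a b a' b' : Fin n → ZMod 2)
    (A A' : Matrix (Fin n) (Fin n) (ZMod 2)) :
    mk c a b A * mk c' a' b' A' = mk (c + c' + a ⬝ᵥ b') (a' + a ᵥ* A') (b + A *ᵥ b') (A * A') := by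
  ext i j
  rw [Matrix.mul_apply, Fin.sum_univ_succ, Fin.sum_univ_succ]
  induction i using fin_cases2 <;> induction j using fin_cases2 <;>
    simp only [mk00, mk01, mk02, mk10, mk11, mk12, mk20, mk21, mk22, mul_zero, zero_mul, one_mul,
      mul_one, Finset.sum_const_zero, add_zero, zero_add, dotProduct, vecMul, mulVec,
      Pi.add_apply, Matrix.mul_apply]
  ring

theorem mk_det {n : ℕ} (c : ZMod 2) (a b : Fin n → ZMod 2) (A : Matrix (Fin n) (Fin n) (ZMod 2)) :
    (mk c a b A).det = A.det := by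
  rw [det_succ_column_zero, Fin.sum_univ_succ, Fin.sum_univ_succ]
  simp only [mk00, mk10, mk20, mul_zero, zero_mul, Finset.sum_const_zero, add_zero, Fin.val_zero,
    pow_zero, one_mul, Fin.succAbove_zero]
  rw [det_succ_row_zero, Fin.sum_univ_succ]
  simp only [submatrix_apply, mk11, mk12, mul_zero, zero_mul, Finset.sum_const_zero, add_zero,
    Fin.val_zero, pow_zero, one_mul, Fin.succAbove_zero]
  rfl

theorem mk_one {n : ℕ} : mk 0 0 0 (1 : Matrix (Fin n) (Fin n) (ZMod 2)) = 1 := by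
  ext i j
  induction i using fin_cases2 <;> induction j using fin_cases2 <;>
    simp only [mk00, mk01, mk02, mk10, mk11, mk12, mk20, mk21, mk22, one_apply, Fin.succ_inj,
      Fin.succ_ne_zero, (Fin.succ_ne_zero _).symm, if_true, if_false, Pi.zero_apply]

theorem mk_add {n : ℕ} (c : ZMod 2) (a : Fin n → ZMod 2) :
    mk c a 0 (1 : Matrix (Fin n) (Fin n) (ZMod 2)) =
      1 + single 0 (Fin.succ 0) c + ∑ k : Fin n, single 0 k.succ.succ (a k) := by
  ext i j
  induction i using fin_cases2 <;> induction j using fin_cases2 <;>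
    simp only [mk00, mk01, mk02, mk10, mk11, mk12, mk20, mk21, mk22, one_apply, Fin.succ_inj,
      Fin.succ_ne_zero, (Fin.succ_ne_zero _).symm, if_true, if_false, Pi.zero_apply,
      Matrix.add_apply, Matrix.sum_apply, single_apply, true_and, false_and, add_zero, zero_add,
      Finset.sum_const_zero, Finset.sum_ite_eq', Finset.mem_univ]

/-- the embedding into the special linear group -/
def emb (n : ℕ) : HB n →* Matrix.SpecialLinearGroup (Fin (n + 2)) (ZMod 2) where
  toFun g := ⟨mk g.c g.a g.b g.A.1, by rw [mk_det, g.A.2]⟩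
  map_one' := Subtype.ext mk_one
  map_mul' g h := Subtype.ext (mk_mul _ _ _ _ _ _ _ _).symm

theorem emb_val {n : ℕ} (g : HB n) : (emb n g).1 = mk g.c g.a g.b g.A.1 := rfl

theorem emb_inj (n : ℕ) : Function.Injective (emb n) := by
  intro g h e
  have e' : mk g.c g.a g.b g.A.1 = mk h.c h.a h.b h.A.1 := congrArg Subtype.val e
  refine HB.ext (congrFun (congrFun e' 0) (Fin.succ 0))
    (funext fun j => congrFun (congrFun e' 0) j.succ.succ)
    (funext fun i => congrFun (congrFun e' i.succ.succ) (Fin.succ 0)) (Subtype.ext ?_)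
  ext i j
  exact congrFun (congrFun e' i.succ.succ) j.succ.succ

theorem emb_zz (n : ℕ) : (emb n (HB.zz n)).1 = 1 + single 0 (Fin.succ 0) 1 := by
  rw [emb_val, HB.zz_c, HB.zz_a, HB.zz_b, HB.zz_A, sl1, mk_add]
  simp

theorem emb_range (n : ℕ) : (emb n).range = centralizer {emb n (HB.zz n)} := by
  refine le_antisymm ?_ fun g hg => ?_
  · rintro _ ⟨g, rfl⟩
    rw [mem_cent_iff, ← map_mul, ← map_mul, HB.zz_comm]
  · have e : g.1 * (emb n (HB.zz n)).1 = (emb n (HB.zz n)).1 * g.1 :=
      congrArg (fun x : Matrix.SpecialLinearGroup (Fin (n + 2)) (ZMod 2) => x.1)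
        (mem_cent_iff.1 hg)
    rw [emb_zz, mul_add, add_mul, mul_one, one_mul, add_right_inj] at e
    have h1 : ∀ i, i ≠ 0 → g.1 i 0 = 0 := by
      intro i hi
      have := congrFun (congrFun e i) (Fin.succ 0)
      rwa [mul_single_apply_same, mul_one, single_mul_apply_of_ne _ _ _ _ _ hi] at this
    have h2 : ∀ j, j ≠ Fin.succ 0 → g.1 (Fin.succ 0) j = 0 := by
      intro j hj
      have := congrFun (congrFun e 0) j
      rw [single_mul_apply_same, one_mul, mul_single_apply_of_ne _ _ _ _ _ hj] at this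
      exact this.symm
    have h3 : g.1 0 0 = g.1 (Fin.succ 0) (Fin.succ 0) := by
      have := congrFun (congrFun e 0) (Fin.succ 0)
      rwa [mul_single_apply_same, mul_one, single_mul_apply_same, one_mul] at this
    have h4 : g.1 0 0 = 1 := by
      rcases HB.zmod2 (g.1 0 0) 0 with f | f
      · exfalso
        have hd := g.2
        rw [det_eq_zero_of_column_eq_zero 0 (fun i => by
          by_cases hi : i = 0
          · rw [hi, f]
          · exact h1 i hi)] at hd
        exact zero_ne_one hd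
      · rw [f, zero_add]
    have e2 : g.1 = mk (g.1 0 (Fin.succ 0)) (fun j => g.1 0 j.succ.succ)
        (fun i => g.1 i.succ.succ (Fin.succ 0)) (of fun i j => g.1 i.succ.succ j.succ.succ) := by
      ext i j
      induction i using fin_cases2 <;> induction j using fin_cases2
      · exact h4
      · rfl
      · rfl
      · exact h1 _ (Fin.succ_ne_zero _)
      · exact h3.symm.trans h4
      · exact h2 _ (fun f => Fin.succ_ne_zero _ (Fin.succ_injective _ f))
      · exact h1 _ (Fin.succ_ne_zero _)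
      · rfl
      · rfl
    have hd := g.2
    rw [e2, mk_det] at hd
    exact ⟨⟨_, _, _, ⟨_, hd⟩⟩, Subtype.ext e2.symm⟩

theorem auto_lemmas_S5424 : True := by
  have := @mk.eq_1
  have := @emb.eq_1
  trivial

/-- Let G be the special linear group of degree n + 2 over the field with two elements, n ≥ 2, let z be a transvection, and let Q be the largest normal 2-subgroup of the centralizer C of z. Then Q is extraspecial of order 2^(2n+1) with an elementary abelian subgroup of order 2^(n+1) (plus type), Q is a large extraspecial 2-subgroup of G, and C is the split extension of Q by the special linear group of degree n over the field with two elements. -/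
theorem result (n : ℕ) (hn : 2 ≤ n) (z : Matrix.SpecialLinearGroup (Fin (n + 2)) (ZMod 2)) (hz : (z : Matrix (Fin (n + 2)) (Fin (n + 2)) (ZMod 2)) = Matrix.transvection 0 1 1) (Q : Subgroup (Matrix.SpecialLinearGroup (Fin (n + 2)) (ZMod 2))) (hQ : Q = (Cfsg.pCore 2 ↥(Subgroup.centralizer ({z} : Set (Matrix.SpecialLinearGroup (Fin (n + 2)) (ZMod 2))))).map (Subgroup.centralizer ({z} : Set (Matrix.SpecialLinearGroup (Fin (n + 2)) (ZMod 2)))).subtype) : Cfsg.IsExtraspecial 2 ↥Q ∧ Nat.card ↥Q = 2 ^ (2 * n + 1) ∧ (∃ E : Subgroup (Matrix.SpecialLinearGroup (Fin (n + 2)) (ZMod 2)), E ≤ Q ∧ Cfsg.IsElementaryAbelian 2 E ∧ Nat.card ↥E = 2 ^ (n + 1)) ∧ Cfsg.IsLargeExtraspecial Q ∧ ∃ K : Subgroup (Matrix.SpecialLinearGroup (Fin (n + 2)) (ZMod 2)), K ≤ Subgroup.centralizer ({z} : Set (Matrix.SpecialLinearGroup (Fin (n + 2)) (ZMod 2))) ∧ Q ⊓ K = ⊥ ∧ Q ⊔ K = Subgroup.centralizer ({z} : Set (Matrix.SpecialLinearGroup (Fin (n + 2)) (ZMod 2))) ∧ Nonempty (↥K ≃* Matrix.SpecialLinearGroup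 (Fin n) (ZMod 2)) := by
  have ez : emb n (HB.zz n) = z := Subtype.ext (by rw [emb_zz, hz]; rfl)
  obtain ⟨h, hm, hc, hE, hK⟩ := concl (by omega) (emb n) (emb_inj n) ez (ez ▸ emb_range n) hQ
  refine ⟨h.isExtraspecial, hc, hE, ?_, hK⟩
  have h8 : 8 < Nat.card Q := by
    rw [hc]
    calc 8 < 2 ^ 5 := by norm_num
      _ ≤ 2 ^ (2 * n + 1) := Nat.pow_le_pow_right (by norm_num) (by omega)
  let k : Fin n := ⟨0, by omega⟩
  have hk : (Fin.succ 0 : Fin (n + 2)) ≠ k.succ.succ :=
    fun f => Fin.succ_ne_zero _ (Fin.succ_injective _ f).symm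
  let g : Matrix.SpecialLinearGroup (Fin (n + 2)) (ZMod 2) :=
    ⟨transvection (Fin.succ 0) k.succ.succ 1, det_transvection_of_ne _ _ hk 1⟩
  have e : g⁻¹ * z * g⁻¹⁻¹ = emb n ⟨1, Pi.single k 1, 0, 1⟩ := by
    rw [inv_inv, mul_assoc, inv_mul_eq_iff_eq_mul]
    apply Subtype.ext
    rw [slm, slm, ← ez, emb_zz]
    show _ * transvection _ _ _ = transvection _ _ _ * mk 1 (Pi.single k 1) 0 1
    rw [mk_add, Finset.sum_eq_single k
      (fun j _ hj => by rw [Pi.single_eq_of_ne hj, single_zero])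
      (fun f => absurd (Finset.mem_univ k) f), Pi.single_eq_same]
    have h0 : ∀ j : Fin (n + 2), single (Fin.succ 0 : Fin (n + 2)) k.succ.succ (1 : ZMod 2) *
        single 0 j (1 : ZMod 2) = 0 := fun j =>
      single_mul_single_of_ne _ _ _ _ (Fin.succ_ne_zero k.succ) _
    simp only [transvection, mul_add, add_mul, mul_one, one_mul, single_mul_single_same, h0,
      add_zero]
    abel
  refine h.isLarge_of_conj_mem h8 (g := g⁻¹) ?_ ?_
  · rw [e]; exact hm _ rfl
  · rw [e, ← ez]
    intro f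
    have := congrFun (congrArg HB.a (emb_inj n f)) k
    simp [HB.zz_a] at this

end Cfsg.Agent.S5424
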