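import Cfsg.Statements.S5425
import Mathlib
import Cfsg.Agent.Lib.M24Geom.Struct
import Cfsg.Agent.Lib.M24Geom.ClsM24
import Cfsg.Agent.Lib.M24Geom.Six
import Cfsg.Agent.Lib.Golay9.L32
import Cfsg.Agent.Lib.LargeExtra.Large
import Cfsg.Agent.Lib.Core.PCore
import Cfsg.Agent.Lib.Core.GrpBasic
import Cfsg.Agent.Lib.Golay.Aut

set_option autoImplicit false
open Cfsg

namespace Cfsg.Agent.S5425

open H15 H55.Golay H96.Geo H9.L32 H95

set_option maxRecDepth 100000
noncomputable def chQ_2 : H54.Chain := .nil
noncomputable def chQ_t1 : H54.Tr :=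
 (.node 10 (.node 4 (.node 2 (.node 1 (.leaf 0x2010000200014202a00c80210000410000010102080c5018204050a000001000101000014)
 (.leaf 0x20008400802401081010001840001048004200000080212202041280000200030300000e))
 (.node 3 (.leaf 0x2000080088034010a40c88200000410000050402080c121a804010200000300040300000c)
 (.leaf 0x200884208c0420000210c208400400400012110c80850000423500800004000100000014)))
 (.node 6 (.node 5 (.leaf 0x208400010a4008020080000000000000088001210a050102400005000203000004)
 (.leaf 0x10000208010002800884680c000100200101120804005a2052582c00006000303000009))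
 (.node 9 (.leaf 0x22000000008300102005004b0400410400010412c0040248201040c000009000201000004)
 (.leaf 0x201008028840021004040c0908004100a005051088044208a01340800000a000202000001))))
 (.node 15 (.node 12 (.node 11 (.leaf 0x20008401802420000080042840000048004000800084000000049280000b000103000014)
 (.leaf 0x2200000290c200102005840a000041040001011a48000248207040600000c000302000009))
 (.node 14 (.leaf 0x1000401000000005218460900000002200200008000000844250020000e000202000004)
 (.leaf 0x22100042000102020100840a800041040001210208045002205241600000f000203000001)))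
 (.node 17 (.node 16 (.leaf 0x104002180100022121000180000100a201011a0804104a042041a00001000030300000a)
 (.leaf 0x210004018044200002008228400400080002408000840000401004000011000203000013))
 (.node 19 (.leaf 0x88020806401000200c608400000080010010000812000403180000013000102000014)
 (.leaf 0x14000000000014)))))
noncomputable def chQ_1 : H54.Chain := .cons 20 0x1bde7e chQ_t1
  [0xbdaa47484334daa2b0283bd7484520, 0xbdaa154a115b1ae7cc88394c910e80, 0xbdab3a496f811a98858838c4e31540, 0xbdaab8ca6a089a3a40c83a485639e0]
  [] chQ_2
noncomputable def chQ_t0 : H54.Tr :=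
 (.node 21 (.node 8 (.node 0 (.leaf 0x4000084640108529886390d001048200241240044000204250a480000000102000017)
 (.node 7 (.leaf 0x2010084018870210a10c000a10d0410482012512400c100a8413402800007000303000016)
 (.leaf 0x2210000290460002a5210c0b0cc040000005241048041058a012406800008000203000000)))
 (.node 13 (.leaf 0x210804098c202000101006b885040008001000248045008207208600000d000203000015)
 (.node 18 (.leaf 0x2010804288c24202210400490060400082010002080450082430016880012000103000017)
 (.leaf 0x2000000010c0020000018c008400410002000000400040080043000880015000100000017))))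
 (.node 25 (.node 22 (.leaf 0x8800104640108528086398e0400022002412000440402020512c00016000202000015)
 (.node 23 (.leaf 0x17000000000017)
 (.leaf 0x210004018044200002008228400400080002408000840000401004000019000000000000)))
 (.node 26 (.leaf 0x4000084640108529886390d001048200241240044000204250a48001a000000000000)
 (.node 28 (.leaf 0x2010000200014202a00c80210000410000010102080c5018204050a00001c000000000000)
 (.leaf 0x200884208c0420000210c208400400400012110c8085000042350080001d000000000000)))))
noncomputable def chQ_0 : H54.Chain := .cons 23 0xe42181 chQ_t0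
  [0xa82ee234b07d24c1292741a331ac36, 0xbdab15ca81515a69bc683b1c249200, 0x56cb2a089088e3a1a126aa71639f7, 0x91da67dd94242a550960b38239a628, 0xbdaa154a115b1ae7cc88394c910e80, 0xbdaa47484334daa2b0283bd7484520]
  [[23, 0, 29, 26, 7, 7, 26, 8, 18], [23, 28, 26, 0], [13, 29, 26, 26, 13], [23, 29, 25, 0, 23, 22, 18, 13]] chQ_1
noncomputable def chQ : H54.Chain := chQ_0

theorem chQ_low0 : H54.checkLow cfg24 chQ_0 = true := by decide +kernel
theorem chQ_low : H54.checkLow cfg24 chQ = true := chQ_low0
theorem chQ_up0 : H54.checkUp cfg24 chQ_0 = true := by decide +kernel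
theorem chQ_up : H54.checkUp cfg24 chQ = true := chQ_up0
theorem chQ_size : chQ.size cfg24.n = 128 := by decide +kernel

noncomputable def chE_1 : H54.Chain := .nil
noncomputable def chE_t0 : H54.Tr :=
 (.node 10 (.node 4 (.node 2 (.node 1 (.leaf 0x2010000200014202a00c80210000410000010102080c5018204050a000001000101000014)
 (.leaf 0x200084008024010810100018400010480042000000802122020412800002000100000014))
 (.node 3 (.leaf 0x2000080088034010a40c88200000410000050402080c121a8040102000003000201000002)
 (.leaf 0x200884208c0420000210c208400400400012110c8085000042350080000400020300000b)))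
 (.node 6 (.node 5 (.leaf 0x208400010a4008020080000000000000088001210a050102400005000103000014)
 (.leaf 0x10000208010002800884680c000100200101120804005a2052582c00006000203000001))
 (.node 9 (.leaf 0x22000000008300102005004b0400410400010412c0040248201040c00000900030300000f)
 (.leaf 0x201008028840021004040c0908004100a005051088044208a01340800000a000303000003))))
 (.node 15 (.node 12 (.node 11 (.leaf 0x20008401802420000080042840000048004000800084000000049280000b000102000014)
 (.leaf 0x2200000290c200102005840a000041040001011a48000248207040600000c000302000003))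
 (.node 14 (.leaf 0x1000401000000005218460900000002200200008000000844250020000e000202000002)
 (.leaf 0x22100042000102020100840a800041040001210208045002205241600000f000202000001)))
 (.node 17 (.node 16 (.leaf 0x104002180100022121000180000100a201011a0804104a042041a00001000040300000c)
 (.leaf 0x21000401804420000200822840040008000240800084000040100400001100030300000e))
 (.node 19 (.leaf 0x88020806401000200c608400000080010010000812000403180000013000203000002)
 (.leaf 0x14000000000014)))))
noncomputable def chE_0 : H54.Chain := .cons 20 0x1bde7e chE_t0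
  [0xbdaa22c88962daf71a083aa710d060, 0xbdaa154a115b1ae7cc88394c910e80, 0xbdaab8ca6a089a3a40c83a485639e0, 0xbdaa5149cc4c5b020de83868b54cc0]
  [] chE_1
noncomputable def chE : H54.Chain := chE_0

theorem chE_low0 : H54.checkLow cfg24 chE_0 = true := by decide +kernel
theorem chE_low : H54.checkLow cfg24 chE = true := chE_low0
theorem chE_up0 : H54.checkUp cfg24 chE_0 = true := by decide +kernel
theorem chE_up : H54.checkUp cfg24 chE = true := chE_up0
theorem chE_size : chE.size cfg24.n = 16 := by decide +kernel

noncomputable def chK_3 : H54.Chain := .nil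
noncomputable def chK_t2 : H54.Tr :=
 (.node 11 (.node 2 (.leaf 0x401000020024080043100000000200000008004000800000e20000200020100000e)
 (.leaf 0x21000400082400004240002040000002200200000081008a40040080000b000101000014))
 (.node 14 (.leaf 0x401082001021008040840001000200200040040242204048080000e000100000014)
 (.leaf 0x14000000000014)))
noncomputable def chK_2 : H54.Chain := .cons 20 0x104804 chK_t2
  [0xbdaae9b6290d24311a07428a462de0, 0xbdaab9a226608efa25526c0a40b860]
  [] chK_3
noncomputable def chK_t1 : H54.Tr :=
 (.node 13 (.node 7 (.node 0 (.leaf 0x221088000047421220218063941041042205211a880c5240245019ae80000000201000012)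
 (.leaf 0x484008424002a008846088d040008205240080041058202251a400007000200000008))
 (.node 8 (.leaf 0x200000280010010802080438040000000010502080402100440016000008000101000017)
 (.leaf 0x200c0009087001020018003043000048005010a4804020a2060406c8000d000200000012)))
 (.node 23 (.node 18 (.leaf 0x2004040004600100105800a882041008205250080040248007041c080012000100000017)
 (.leaf 0x17000000000017))
 (.node 24 (.leaf 0x2004040004600100105800a882041008205250080040248007041c080018000000000000)
 (.leaf 0x200000280010010802080438040000000010502080402100440016000019000000000000))))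
noncomputable def chK_1 : H54.Chain := .cons 23 0x842181 chK_t1
  [0x95aaf9b54560ef459a0704524089c8, 0x45aae981301d1a209637399447b172]
  [[24, 25, 24, 25, 24, 7], [25, 24, 8, 25, 0]] chK_2
noncomputable def chK_t0 : H54.Tr :=
 (.node 13 (.node 7 (.node 0 (.leaf 0x2210000098c60210842988299ce0410082010108c0084048a03141ec00000000301000008)
 (.leaf 0x2010004018014010012104008440410022002012080812020432002000007000100000015))
 (.node 8 (.leaf 0xc0008083400200218c690c80000080050402480412502071102a80008000201000007)
 (.leaf 0x2210800280024200a0200861189041042205040208004000245141600000d000601000017)))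
 (.node 21 (.node 18 (.leaf 0x2104040988440102128804a9850400482012408400c1202041048e680012000400000000)
 (.leaf 0x15000000000015))
 (.node 23 (.leaf 0x220080021807001204200c438040410080000012080c02108431502000017000501000012)
 (.node 24 (.leaf 0x2010004018014010012104008440410022002012080812020432002000018000000000000)
 (.leaf 0x200c0009087001020018003043000048005010a4804020a2060406c80019000000000000)))))
noncomputable def chK_0 : H54.Chain := .cons 21 0xa42181 chK_t0
  [0xbd8ee980267d1a548968ac1841aa32, 0x6daac9dcc9a064f5c4a042a0470867]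
  [[8, 23, 23, 25, 21, 18, 8], [24, 25, 18, 0, 7, 21, 13]] chK_1
noncomputable def chK : H54.Chain := chK_0

theorem chK_low0 : H54.checkLow cfg24 chK_0 = true := by decide +kernel
theorem chK_low : H54.checkLow cfg24 chK = true := chK_low0
theorem chK_up0 : H54.checkUp cfg24 chK_0 = true := by decide +kernel
theorem chK_up : H54.checkUp cfg24 chK = true := chK_up0
theorem chK_size : chK.size cfg24.n = 168 := by decide +kernel

noncomputable def c2 : H54.Cfg := ⟨31, 32, 5, 31, 0xffbbcdeb38bdab49ca307b9ac5a928398a418820,
  0x842108421084210842108421084210842108421,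
  0x7bdef7bdef7bdef7bdef7bdef7bdef7bdef7bdef,
  0x8421084210842108421084210842108421084210,
  (.cons 64 0x8421084210842108421 80
    (.cons 65 0x84210842100000000000842108421 40
    (.cons 66 0x8421000000842100000084210000008421 20
    (.cons 67 0x2100021000210002100021000210002100021 10
    (.cons 68 0x40100401004010040100401004010040100401 5
    (.cons 224 0x2100021000210002100021000210002100021 10
    (.cons 225 0x8421000000842100000084210000008421 20
    (.cons 226 0x84210842100000000000842108421 40
    (.cons 227 0x8421084210842108421 80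
    .nil)))))))))⟩
theorem c2_check : c2.check = true := by decide +kernel

noncomputable def gr_3 : H54.Chain := .nil
noncomputable def gr_t2 : H54.Tr :=
 (.node 11 (.node 2 (.leaf 0x10840200000100102021528434100c210400401004080100000080004500084100881314880000200020100000e)
 (.leaf 0x201006120024018c100120421484300000820001102008014102018c0001300c4b108c0000000000b000101000014))
 (.node 14 (.leaf 0x110020200a510880021080094a61000708200000020110140522105000431000311c80039000000e000100000014)
 (.leaf 0x14000000000014)))
noncomputable def gr_2 : H54.Chain := .cons 20 0x104804 gr_t2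
  [0xffb19deb9dbdaae9b6290d24311a07428a462de0, 0xffb1cd6f3dbdaab9a226608efa25526c0a40b860]
  [] gr_3
noncomputable def gr_t1 : H54.Tr :=
 (.node 13 (.node 7 (.node 0 (.leaf 0x10041200a5308860000110941411083386900000240001404231850000112401010131209900000000201000012)
 (.leaf 0x21100210002120803000280002103100730250001025180041000481000001041801cc20184500007000200000008))
 (.node 8 (.leaf 0x21100202000500880020091016800080220210000020110100020100000401041a100040104000008000101000017)
 (.leaf 0x200084120024210c54000812163211a04396c0000025010101101081008431211901c1600c500000d000200000012)))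
 (.node 23 (.node 18 (.leaf 0x210006000000118850002002129030ac101e80410004180000002401000530041810cc01200900012000100000017)
 (.leaf 0x17000000000017))
 (.node 31 (.leaf 0x210006000000118850002002129030ac101e80410004180000002401000530041810cc0120090001f000000000000)
 (.leaf 0x21100202000500880020091016800080220210000020110100020100000401041a100040104000020000000000000))))
noncomputable def gr_1 : H54.Chain := .cons 23 0x842181 gr_t1
  [0xff359de3dd95aaf9b54560ef459a0704524089c8, 0xff37eeeb3845aae981301d1a209637399447b172]
  [[31, 32, 31, 32, 31, 7], [32, 31, 8, 32, 0]] gr_2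
noncomputable def gr_t0 : H54.Tr :=
 (.node 13 (.node 7 (.node 0 (.leaf 0x2300005200a6000284012b03120430c800010050000401011050004300c0201cc20080300000000301000008)
 (.leaf 0x10000000024318610210002020430a0021010000000000001123108000430004000cd40004000007000100000015))
 (.node 8 (.leaf 0x10841010a5000620210900943620282312c04100200100400204100001110d02110411000800008000201000007)
 (.leaf 0x21100632002000084421085092b0012951060000000409000000248d00c5012c5210c14129190000d000601000017)))
 (.node 21 (.node 18 (.leaf 0x201002101000000e1000010006b40189331a20000024180008400590000510040000c14300d700012000400000000)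
 (.leaf 0x15000000000015))
 (.node 23 (.leaf 0x110000200a130021421091006922180621c5040002009010952040500843028030184001cd600017000501000012)
 (.node 31 (.leaf 0x10000000024318610210002020430a0021010000000000001123108000430004000cd4000400001f000000000000)
 (.leaf 0x200084120024210c54000812163211a04396c0000025010101101081008431211901c1600c5000020000000000000)))))
noncomputable def gr_0 : H54.Chain := .cons 21 0xa42181 gr_t0
  [0xff7dbe6b38bd8ee980267d1a548968ac1841aa32, 0xfe71edf79a6daac9dcc9a064f5c4a042a0470867]
  [[8, 23, 23, 32, 21, 18, 8], [31, 32, 18, 0, 7, 21, 13]] gr_1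
noncomputable def gr : H54.Chain := gr_0

theorem gr_low0 : H54.checkLow c2 gr_0 = true := by decide +kernel
theorem gr_low : H54.checkLow c2 gr = true := gr_low0
theorem gr_up0 : H54.checkUp c2 gr_0 = true := by decide +kernel
theorem gr_up : H54.checkUp c2 gr = true := gr_up0
theorem gr_size : gr.size c2.n = 168 := by decide +kernel

noncomputable def cs_3 : H54.Chain := .nil
noncomputable def cs_t2 : H54.Tr :=
 (.node 2 (.node 1 (.leaf 0x100041080001000101000004)
 (.leaf 0x10880000400002000201000003))
 (.node 3 (.leaf 0x84080143100003000100000004)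
 (.leaf 0x4000000000004)))
noncomputable def cs_2 : H54.Chain := .cons 4 30 cs_t2
  [0xfab850, 0xfa94e0]
  [] cs_3
noncomputable def cs_t1 : H54.Tr :=
 (.node 3 (.node 1 (.node 0 (.leaf 0x120040040000000201000001)
 (.leaf 0x200010c0001000101000005))
 (.node 2 (.leaf 0x41b0143100002000301000003)
 (.leaf 0x84010042040003000200000001)))
 (.node 5 (.node 4 (.leaf 0x20041080004000301000000)
 (.leaf 0x5000000000005))
 (.node 7 (.leaf 0x10880000400007000000000000)
 (.leaf 0x200010c0008000000000000))))
noncomputable def cs_1 : H54.Chain := .cons 5 63 cs_t1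
  [0xfaa318, 0xf8d4c4]
  [[8, 3, 8, 2], [8, 0, 7, 2, 0, 3, 4]] cs_2
noncomputable def cs_t0 : H54.Tr :=
 (.node 3 (.node 1 (.node 0 (.leaf 0x14911042000000000201000005)
 (.leaf 0x10910040040001000101000006))
 (.node 2 (.leaf 0xb0041400002000301000000)
 (.leaf 0x941b0143100003000300000004)))
 (.node 5 (.node 4 (.leaf 0x901b1101100004000201000001)
 (.leaf 0x94001042000005000100000006))
 (.node 6 (.leaf 0x6000000000006)
 (.node 7 (.leaf 0x94001042000007000000000000)
 (.leaf 0x10910040040008000000000000)))))
noncomputable def cs_0 : H54.Chain := .cons 6 127 cs_t0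
  [0xf73888, 0xe46762]
  [[4, 4, 8, 7, 4, 1, 1], [3, 7, 5, 3, 3, 1, 2]] cs_1
noncomputable def cs : H54.Chain := cs_0

theorem cs_low0 : H54.checkLow c7 cs_0 = true := by decide +kernel
theorem cs_low : H54.checkLow c7 cs = true := cs_low0
theorem cs_size : cs.size c7.n = 168 := by decide +kernel

noncomputable def chH_5 : H54.Chain := .nil
noncomputable def chH_t4 : H54.Tr :=
 (.node 10 (.node 4 (.node 2 (.node 1 (.leaf 0x2010000200014202a00c80210000410000010102080c5018204050a000001000103000014)
 (.leaf 0x200084008024010810100018400010480042000000802122020412800002000102000014))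
 (.node 3 (.leaf 0x2000080088034010a40c88200000410000050402080c121a8040102000003000203000002)
 (.leaf 0x200884208c0420000210c208400400400012110c80850000423500800004000203000009)))
 (.node 6 (.node 5 (.leaf 0x208400010a4008020080000000000000088001210a050102400005000201000009)
 (.leaf 0x10000208010002800884680c000100200101120804005a2052582c00006000303000005))
 (.node 9 (.leaf 0x22000000008300102005004b0400410400010412c0040248201040c000009000100000014)
 (.leaf 0x201008028840021004040c0908004100a005051088044208a01340800000a000403000013))))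
 (.node 15 (.node 12 (.node 11 (.leaf 0x20008401802420000080042840000048004000800084000000049280000b00020300000f)
 (.leaf 0x2200000290c200102005840a000041040001011a48000248207040600000c00020200000f))
 (.node 14 (.leaf 0x1000401000000005218460900000002200200008000000844250020000e00030300000c)
 (.leaf 0x22100042000102020100840a800041040001210208045002205241600000f000101000014)))
 (.node 17 (.node 16 (.leaf 0x104002180100022121000180000100a201011a0804104a042041a000010000202000009)
 (.leaf 0x210004018044200002008228400400080002408000840000401004000011000303000010))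
 (.node 19 (.leaf 0x88020806401000200c608400000080010010000812000403180000013000302000005)
 (.leaf 0x14000000000014)))))
noncomputable def chH_4 : H54.Chain := .cons 20 0x1bde7e chH_t4
  [0xbdaa9648622a9b333a883ade18c080, 0xbdaaf84953a0da20c4a83912673160, 0xbdaa22c88962daf71a083aa710d060, 0xbdaa154a115b1ae7cc88394c910e80]
  [] chH_5
noncomputable def chH_t3 : H54.Tr :=
 (.node 18 (.node 8 (.node 7 (.leaf 0x200080210020010a40904238c0000000204040a00040252a050108000007000100000012)
 (.leaf 0x100000988502020525884a940000008201200a0804400a2411586c00008000102000012))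
 (.node 13 (.leaf 0x484088844202850c8421840040008005040a080c50188073418c0000d000202000007)
 (.leaf 0x12000000000012)))
 (.node 25 (.node 24 (.leaf 0x200080210020010a40904238c0000000204040a00040252a050108000018000000000000)
 (.leaf 0x2010000200014202a00c80210000410000010102080c5018204050a000019000000000000))
 (.node 26 (.leaf 0x100000988502020525884a940000008201200a0804400a2411586c0001a000000000000)
 (.leaf 0x201008028840021004040c0908004100a005051088044208a01340800001b000000000000))))
noncomputable def chH_3 : H54.Chain := .cons 18 270720 chH_t3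
  [0xbdaa459e8f4cd102858d90dc2544c0, 0xbdaa154a115b1ae7cc88394c910e80, 0xbdaaa7a02e2a4f3809726d18389880, 0xbdaaa0c9eb8a5a4851c83886c29a60]
  [[13, 27, 13, 26, 26, 13, 26, 7], [26, 25, 24, 13], [7, 13, 25, 18, 25, 8], [27, 18, 25, 8, 26, 27, 26, 8]] chH_4
noncomputable def chH_t2 : H54.Tr :=
 (.node 13 (.node 7 (.node 0 (.leaf 0)
 (.leaf 0x4000854202a528046110f0400082010402080c5040a01341e000007000100000000))
 (.node 8 (.leaf 0x2210480280044010a00000491890400082050512080c0250a41100200000800030100000d)
 (.leaf 0x10880200004012202800201800400022002000000c4240001019028000d000200000007)))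
 (.node 22 (.node 18 (.leaf 0x80421800421004218c221040400080042500000852580443180a80012000201000007)
 (.leaf 0xc04208050200a50d0c2b8c9001008001010a48041058a032006000016000300000012))
 (.node 24 (.leaf 0x4000854202a528046110f0400082010402080c5040a01341e000018000000000000)
 (.leaf 0x2000c80280024010a42c8c211000410080050412480c120a004010e000019000000000000))))
noncomputable def chH_2 : H54.Chain := .cons 0 0x442181 chH_t2
  [0xba2a1859eb9b00e544b26886622687, 0xbdaa131d25a31027926d9455070d60]
  [[13, 24, 24, 24, 24, 25, 24, 25, 8], [25, 0, 24, 13, 25], [25, 24, 8, 24, 24, 13, 13, 18], [25, 25, 22, 25, 22, 8, 25, 18]] chH_3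
noncomputable def chH_t1 : H54.Tr :=
 (.node 13 (.node 7 (.node 0 (.leaf 0x200480298c000108500006b80a00000a005251048000018a051112400000000201000007)
 (.leaf 0x21088408881420224218021189041000201200a080c42128440082480007000100000015))
 (.node 8 (.leaf 0x2010c80088004000042108491cc04000a2010000080810102410002400008000300000000)
 (.leaf 0x10c00200440012812d806b98e000008001040000045008805011c28000d000101000015)))
 (.node 21 (.node 18 (.leaf 0x884218c6021281088c0390004104200521180004104a0411518200012000301000016)
 (.leaf 0x15000000000015))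
 (.node 22 (.leaf 0x210080288c640022129004318c0400402052012880c0242800348e20001600020000000d)
 (.node 24 (.leaf 0x21088408881420224218021189041000201200a080c42128440082480018000000000000)
 (.leaf 0x10c00200440012812d806b98e000008001040000045008805011c280019000000000000)))))
noncomputable def chH_1 : H54.Chain := .cons 21 0x642181 chH_t1
  [0xbd4e99ca868aac260de06c1c428568, 0xbc9a45206174ec559a07031e9a0a35]
  [[22, 24, 25, 0, 25, 24, 13, 24, 22], [13, 0, 7, 24, 7, 7]] chH_2
noncomputable def chH_t0 : H54.Tr :=
 (.node 18 (.node 7 (.node 0 (.leaf 0x200004098464010a4288c6080b041000001010a880c5018804051ac80000000401000012)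
 (.leaf 0x221000020083020280240c28840040048004001a800410088433084200007000200000016))
 (.node 8 (.leaf 0x22100842808642102029040910c04000a201051a800c02000471192600008000101000017)
 (.node 13 (.leaf 0x221088020004001025250c03180040040201000a880c5048000041240000d000300000007)
 (.leaf 0x220000420002000285258c691cc04000a205210208045018a051012000012000301000015))))
 (.node 22 (.node 21 (.leaf 0x10000008c2401084010c2990e0000000052500480412500052094480015000201000016)
 (.leaf 0x2000c04090c4020085280c4a0c00400080050410880402102072418400016000100000017))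
 (.node 23 (.leaf 0x17000000000017)
 (.node 24 (.leaf 0x2000c04090c4020085280c4a0c00400080050410880402102072418400018000000000000)
 (.leaf 0x22100842808642102029040910c04000a201051a800c02000471192600019000000000000)))))
noncomputable def chH_0 : H54.Chain := .cons 23 0xe42181 chH_t0
  [0xb1d02555e6a2e45230376c06974e20, 0x456532820e592ef485876d0d112876]
  [[25, 8, 23, 7, 25, 13], [23, 24, 7, 24, 25, 7]] chH_1
noncomputable def chH : H54.Chain := chH_0

theorem chH_low0 : H54.checkLow cfg24 chH_0 = true := by decide +kernel
theorem chH_low : H54.checkLow cfg24 chH = true := chH_low0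
theorem chH_size : chH.size cfg24.n = 21504 := by decide +kernel

noncomputable def chJ_5 : H54.Chain := .nil
noncomputable def chJ_t4 : H54.Tr :=
 (.node 14 (.leaf 0x1000401000000005218460900000002200200008000000844250020000e000100000014)
 (.leaf 0x14000000000014))
noncomputable def chJ_4 : H54.Chain := .cons 20 0x104000 chJ_t4
  [0xbdaae248a61d1a1125483c2337ad80]
  [] chJ_5
noncomputable def chJ_t3 : H54.Tr :=
 (.node 18 (.leaf 0x12000000000012)
 (.leaf 0x10004010000000052184609000000022002000080000008442500200018000000000000))
noncomputable def chJ_3 : H54.Chain := .cons 18 262144 chJ_t3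
  [0xbdaae248a61d1a1125483c2337ad80]
  [[24]] chJ_4
noncomputable def chJ_t2 : H54.Tr :=
 (.node 0 (.leaf 0)
 (.leaf 0x10004010000000052184609000000022002000080000008442500200018000000000000))
noncomputable def chJ_2 : H54.Chain := .cons 0 1 chJ_t2
  [0xbdaae248a61d1a1125483c2337ad80]
  [[24]] chJ_3
noncomputable def chJ_t1 : H54.Tr :=
 (.node 21 (.leaf 0x15000000000015)
 (.leaf 0x10004010000000052184609000000022002000080000008442500200018000000000000))
noncomputable def chJ_1 : H54.Chain := .cons 21 0x200000 chJ_t1
  [0xbdaae248a61d1a1125483c2337ad80]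
  [[24]] chJ_2
noncomputable def chJ_t0 : H54.Tr :=
 (.node 23 (.leaf 0x17000000000017)
 (.leaf 0x10004010000000052184609000000022002000080000008442500200018000000000000))
noncomputable def chJ_0 : H54.Chain := .cons 23 0x800000 chJ_t0
  [0xbdaae248a61d1a1125483c2337ad80]
  [[24]] chJ_1
noncomputable def chJ : H54.Chain := chJ_0

theorem chJ_low0 : H54.checkLow cfg24 chJ_0 = true := by decide +kernel
theorem chJ_low : H54.checkLow cfg24 chJ = true := chJ_low0
theorem chJ_size : chJ.size cfg24.n = 2 := by decide +kernel


/-- the data from which the statement follows -/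
def Pk {G : Type*} [Group G] (z : G) : Prop :=
  ∃ (Q E K : Subgroup G) (g : G), L3 Q z ∧ Nat.card Q = 128 ∧ g * z * g⁻¹ ∈ Q ∧ g * z * g⁻¹ ≠ z ∧
    E ≤ Q ∧ (∀ a ∈ E, a ^ 2 = 1) ∧ Nat.card E = 16 ∧ K ≤ Subgroup.centralizer {z} ∧
    Nonempty (K ≃* SL32) ∧ Nat.card (Subgroup.centralizer ({z} : Set G)) = 21504

theorem Pk.map {G G' : Type*} [Group G] [Group G'] {z : G} (h : Pk z) (e : G ≃* G') :
    Pk (e z) := by
  obtain ⟨Q, E, K, g, h1, h2, h3, h4, h5, h6, h7, h8, ⟨f⟩, h10⟩ := h
  have hc : (Subgroup.centralizer {z}).map e.toMonoidHom = Subgroup.centralizer {e z} := by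
    ext x
    obtain ⟨y, rfl⟩ := e.surjective x
    rw [Subgroup.mem_centralizer_singleton_iff, ← map_mul, ← map_mul, e.injective.eq_iff,
      ← Subgroup.mem_centralizer_singleton_iff]
    exact Subgroup.mem_map_iff_mem e.injective
  refine ⟨Q.map e.toMonoidHom, E.map e.toMonoidHom, K.map e.toMonoidHom, e g, h1.map_equiv e,
    by rw [Subgroup.card_map_of_injective e.injective, h2], ⟨_, h3, by simp⟩, fun h => h4 ?_,
    Subgroup.map_mono h5, ?_, by rw [Subgroup.card_map_of_injective e.injective, h7],
    hc ▸ Subgroup.map_mono h8, ⟨(K.equivMapOfInjective _ e.injective).symm.trans f⟩,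
    by rw [← hc, Subgroup.card_map_of_injective e.injective, h10]⟩
  · apply e.injective
    rw [map_mul, map_mul, map_inv, h]
  · rintro _ ⟨a, ha, rfl⟩
    rw [← map_pow, h6 a ha, map_one]

theorem inf_eq_bot {G : Type*} [Group G] [Finite G] {P K : Subgroup G} (hP : IsPGroup 2 P)
    (hn : K ≤ Subgroup.normalizer (P : Set G)) (f : K ≃* SL32) : P ⊓ K = ⊥ := by
  have := simple_SL
  have := f.isSimpleGroup
  rcases (normal_subgroupOf_of_le hn).eq_bot_or_eq_top with e | e
  · rwa [Subgroup.subgroupOf_eq_bot, disjoint_iff] at e
  · have : Fact (Nat.Prime 2) := ⟨Nat.prime_two⟩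
    obtain ⟨n, hn⟩ := IsPGroup.iff_card.1 (hP.to_le (Subgroup.subgroupOf_eq_top.1 e))
    rw [Nat.card_congr f.toEquiv, card_SL] at hn
    exact absurd ((Nat.prime_three).dvd_of_dvd_pow (hn ▸ (by norm_num : 3 ∣ 168))) (by norm_num)

theorem Pk.final {G : Type*} [Group G] [Finite G] {z : G} (h : Pk z) (Q : Subgroup G)
    (hQ : Q = (pCore 2 ↥(Subgroup.centralizer ({z} : Set G))).map
      (Subgroup.centralizer ({z} : Set G)).subtype) :
    IsExtraspecial 2 ↥Q ∧ Nat.card ↥Q = 2 ^ 7 ∧
      (∃ E : Subgroup G, E ≤ Q ∧ IsElementaryAbelian 2 E ∧ Nat.card ↥E = 2 ^ 4) ∧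
      IsLargeExtraspecial Q ∧ ∃ K : Subgroup G, K ≤ Subgroup.centralizer ({z} : Set G) ∧
        Q ⊓ K = ⊥ ∧ Q ⊔ K = Subgroup.centralizer ({z} : Set G) ∧ Nonempty (↥K ≃* SL32) := by
  obtain ⟨R, E, K, g, h1, h2, h3, h4, h5, h6, h7, h8, ⟨f⟩, h10⟩ := h
  have hK : Nat.card K = 168 := (Nat.card_congr f.toEquiv).trans card_SL
  have hQC : Q ≤ Subgroup.centralizer {z} := hQ ▸ Subgroup.map_subtype_le _
  have hQn : Subgroup.centralizer {z} ≤ Subgroup.normalizer (Q : Set G) := by
    rw [hQ]
    refine le_normalizer_of_conj ?_
    rintro a ha _ ⟨b, hb, rfl⟩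
    exact ⟨_, (inferInstance : (pCore 2 ↥(Subgroup.centralizer ({z} : Set G))).Normal).conj_mem b hb
      ⟨a, ha⟩, rfl⟩
  have hQp : IsPGroup 2 Q := hQ ▸ H1.isPGroup_pCore.map _
  have hb := inf_eq_bot hQp (h8.trans hQn) f
  have hc := H1.card_sup_mul_card_inf_of_le_normalizer (h8.trans hQn)
  rw [inf_comm, hb, Subgroup.card_bot, mul_one, hK] at hc
  have hle := Subgroup.card_le_of_le (sup_le h8 hQC)
  have hRQ : R ≤ Q := by
    have := normal_subgroupOf_of_le h1.normalizer_eq.ge
    rw [hQ, ← Subgroup.map_subgroupOf_eq_of_le h1.le_centralizer]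
    exact Subgroup.map_mono (H1.le_pCore (h1.isPGroup.comap_subtype))
  have e : R = Q := Subgroup.eq_of_le_of_card_ge hRQ (by omega)
  subst e
  refine ⟨h1.isExtraspecial, h2, ⟨E, h5, ⟨⟨⟨fun a b => Subtype.ext ?_⟩⟩, h6⟩, h7⟩,
    h1.isLarge_of_conj_mem (by omega) h3 h4, K, h8, hb, ?_, ⟨f⟩⟩
  · have ea := h6 a a.2
    have eb := h6 b b.2
    have eab := h6 _ (E.mul_mem a.2 b.2)
    rw [sq] at ea eb eab
    show (a : G) * b = b * a
    calc (a : G) * b = a * (a * b * (a * b)) * b := by rw [eab, mul_one]
      _ = (a * a) * b * a * (b * b) := by simp only [mul_assoc]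
      _ = b * a := by rw [ea, eb, one_mul, mul_one]
  · rw [sup_comm]
    exact Subgroup.eq_of_le_of_card_ge (sup_le h8 hQC) (by omega)

/-- the centraliser of the standard involution -/
abbrev C0 : Subgroup (Equiv.Perm GolayPt) := M24 ⊓ Subgroup.centralizer {permOf M24.c2A}

/-- its largest normal 2-subgroup -/
noncomputable def Q0 : Subgroup (Equiv.Perm GolayPt) :=
  H54.grp (Equiv.Perm GolayPt) cfg24 pt chQ.gens

/-- the pointwise stabiliser of the octad -/
noncomputable def E0 : Subgroup (Equiv.Perm GolayPt) :=
  H54.grp (Equiv.Perm GolayPt) cfg24 pt chE.gens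

/-- a complement -/
noncomputable def K0 : Subgroup (Equiv.Perm GolayPt) :=
  H54.grp (Equiv.Perm GolayPt) cfg24 pt chK.gens

theorem gQ : H54.Good cfg24 pt chQ Q0 := good_full (by decide +kernel) chQ_low chQ_up
theorem gE : H54.Good cfg24 pt chE E0 := good_full (by decide +kernel) chE_low chE_up
theorem gK : H54.Good cfg24 pt chK K0 := good_full (by decide +kernel) chK_low chK_up

theorem Q0_le : Q0 ≤ C0 :=
  H54.grp_le (K24 ▸ bot_le) (M24.cent2A.1.all_in X24 (by decide +kernel))
theorem K0_le : K0 ≤ C0 :=
  H54.grp_le (K24 ▸ bot_le) (M24.cent2A.1.all_in X24 (by decide +kernel))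
theorem E0_le : E0 ≤ Q0 := H54.grp_le (K24 ▸ bot_le) (gQ.all_in X24 (by decide +kernel))

theorem Q0_norm : C0 ≤ Subgroup.normalizer (Q0 : Set (Equiv.Perm GolayPt)) :=
  M24.cent2A.2.ge.trans (le_normalizer_of_chk X24 K24 (valid24 (by decide +kernel)) gQ
    (valid24 (by decide +kernel)) rfl (by decide +kernel))

theorem isoK : Nonempty (K0 ≃* SL32) := by
  have v : H54.Valid SL32 c7 vec cs.gens := valid7 (by decide +kernel)
  obtain ⟨e⟩ := H54.nonempty_mulEquiv X24 X7 c2_check K24 K7 (S := chK.gens) (S' := cs.gens)
    (valid24 (by decide +kernel)) v (ch := gr) (by decide +kernel) gr_low gr_up (H := K0) rfl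
    (H54.good_of_card_le X7 K7 (H := ⊤) (fun s hs => (v.in_grp hs).mono le_top) cs_low
      (by rw [Subgroup.card_top, card_SL, cs_size])).2 gr_size (by norm_num)
    ((gK.card X24 K24).trans chK_size) (by rw [Subgroup.card_top, card_SL])
  exact ⟨e.trans Subgroup.topEquiv⟩

theorem okz : okP M24.c2A = true := by decide +kernel

theorem rQ : List.Forall₂ (H54.Rep cfg24 pt) (chQ.gens.map permOf) chQ.gens := by
  rw [List.forall₂_map_left_iff, List.forall₂_same]
  have : ∀ s ∈ chQ.gens, okP s = true := by decide +kernel
  exact fun s hs => rep_permOf (this s hs)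

theorem cent0 {g : Equiv.Perm GolayPt} (hg : g ∈ C0) (h : ∀ x ∈ Q0, x * g = g * x) :
    g = 1 ∨ g = permOf M24.c2A := by
  have a := (M24.cent2A.1.base_change' X24 (ch := chH) (by decide +kernel) chH_low
    (by decide +kernel)).1
  have b := (a.centralizer X24 K24 rQ chJ_low (by decide +kernel)).1
  obtain ⟨c, hc, rfl, e⟩ := forall_elts b (P := fun c => H54.eqc cfg24 c cfg24.one ||
    H54.eqc cfg24 c M24.c2A) (by decide +kernel) g ⟨hg, fun x hx => by
      obtain ⟨s, hs, rfl⟩ := List.mem_map.1 hx
      exact h _ (good_grp (by decide +kernel) s hs).2⟩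
  rw [Bool.or_eq_true, (rep_permOf hc).eqc_one_iff X24 K24,
    (rep_permOf hc).eqc_iff X24 K24 (rep_permOf okz)] at e
  exact e

theorem comm_closure {G : Type*} [Group G] {x z : G} (hz : z * z = 1) {S : Set G}
    (h : ∀ y ∈ S, y * z = z * y ∧ (x * y = y * x ∨ x * y = y * x * z)) :
    ∀ y ∈ Subgroup.closure S, y * z = z * y ∧ (x * y = y * x ∨ x * y = y * x * z) := by
  intro y hy
  induction hy using Subgroup.closure_induction with
  | mem y hy => exact h y hy
  | one => simp
  | mul a b _ _ iha ihb =>
    refine ⟨by rw [mul_assoc, ihb.1, ← mul_assoc, iha.1, mul_assoc], ?_⟩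
    rcases iha.2 with e | e <;> rcases ihb.2 with e' | e'
    · left; rw [← mul_assoc, e, mul_assoc, e', mul_assoc]
    · right; rw [← mul_assoc, e, mul_assoc, e']; simp only [mul_assoc]
    · right; rw [← mul_assoc, e, mul_assoc, ← ihb.1, ← mul_assoc, mul_assoc a, e']
      simp only [mul_assoc]
    · left; rw [← mul_assoc, e, mul_assoc, ← ihb.1, ← mul_assoc, mul_assoc a, e']
      simp only [mul_assoc, hz, mul_one]
  | inv a _ iha =>
    have e1 : a⁻¹ * z = z * a⁻¹ := (show Commute a z from iha.1).inv_left
    refine ⟨e1, ?_⟩
    rcases iha.2 with e | e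
    · left; exact (show Commute x a from e).inv_right
    · right
      calc x * a⁻¹ = a⁻¹ * (a * x * z) * (a⁻¹ * z) := by
            rw [e1]; simp only [mul_assoc, inv_mul_cancel_left]
            rw [← mul_assoc z, hz, one_mul]
        _ = a⁻¹ * x * z := by rw [← e]; simp only [mul_assoc, mul_inv_cancel_left]

theorem es0 : ES Q0 (permOf M24.c2A) := by
  have hz : permOf M24.c2A * permOf M24.c2A = 1 := by
    rw [permOf_mul_eq okz okz (show _ = idP by decide +kernel), permOf_idP]
  have hc : ∀ x ∈ Q0, x * permOf M24.c2A = permOf M24.c2A * x := fun x hx =>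
    Subgroup.mem_centralizer_singleton_iff.1 (Q0_le hx).2
  refine ⟨(good_of_memb gQ (by decide +kernel)).2, permOf_ne_one (i := 1) okz (by norm_num)
    (by decide +kernel), hz, hc, fun x hx y hy => ?_,
    fun x hx h => cent0 (Q0_le hx) fun y hy => (h y hy).symm,
    permOf 873256784946929670946884051662908470, (good_of_memb gQ (by decide +kernel)).2,
    permOf 757312838857164017420509404720637480, (good_of_memb gQ (by decide +kernel)).2, ?_⟩
  · obtain ⟨c, hc', rfl, e⟩ := forall_elts gQ (P := fun c => chQ.gens.all fun s =>
      Nat.beq (mulP c s) (mulP s c) || Nat.beq (mulP c s) (mulP (mulP s c) M24.c2A))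
      (by decide +kernel) x hx
    have hy' : y ∈ Subgroup.closure {g | g ∈ chQ.gens.map permOf} := by
      rw [← H54.grp_eq_closure K24 rQ]; exact hy
    refine (comm_closure hz (fun y hy => ?_) y hy').2
    obtain ⟨s, hs, rfl⟩ := List.mem_map.1 hy
    have g := good_grp (S := chQ.gens) (by decide +kernel) s hs
    refine ⟨hc _ g.2, ?_⟩
    have e' := List.all_eq_true.1 e s hs
    rw [Bool.or_eq_true, Nat.beq_eq, Nat.beq_eq, mulP_eq_iff hc' g.1 g.1 hc',
      mulP_eq_iff hc' g.1 (okP_mulP g.1 hc') okz, permOf_mulP g.1 hc'] at e'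
    exact e'
  · rw [Ne, ← mulP_eq_iff (by decide +kernel) (by decide +kernel) (by decide +kernel)
      (by decide +kernel)]
    decide +kernel

theorem z_mem : permOf M24.c2A ∈ M24 := permOf_mem_M24 (by decide +kernel)

theorem card_sub {H : Subgroup (Equiv.Perm GolayPt)} (h : H ≤ M24) :
    Nat.card (H.subgroupOf M24) = Nat.card H :=
  Nat.card_congr (Subgroup.subgroupOfEquivOfLe h).toEquiv

theorem pk0 : Pk (⟨permOf M24.c2A, z_mem⟩ : M24) := by
  have hQ : Q0 ≤ M24 := Q0_le.trans inf_le_left
  have hK : K0 ≤ M24 := K0_le.trans inf_le_left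
  have hc : Subgroup.centralizer {(⟨permOf M24.c2A, z_mem⟩ : M24)} = C0.subgroupOf M24 := by
    ext x
    simp only [Subgroup.mem_centralizer_singleton_iff, Subtype.ext_iff, Subgroup.coe_mul,
      Subgroup.mem_subgroupOf, Subgroup.mem_inf, x.2, true_and]
  obtain ⟨f⟩ := isoK
  have og : okP 964819237497764910460083492898669974 = true := by decide +kernel
  refine ⟨Q0.subgroupOf M24, E0.subgroupOf M24, K0.subgroupOf M24,
    ⟨permOf 964819237497764910460083492898669974, permOf_mem_M24 (by decide +kernel)⟩,
    ⟨es0.subgroupOf hQ, fun g h => ?_, fun g h => ?_⟩, ?_, ?_, fun h => ?_,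
    Subgroup.subgroupOf_mono _ E0_le, fun a ha => ?_, ?_,
    hc ▸ Subgroup.subgroupOf_mono _ K0_le, ⟨(Subgroup.subgroupOfEquivOfLe hK).trans f⟩, ?_⟩
  · have h' : ∀ x ∈ Q0, x * g = g * x := fun x hx => congrArg Subtype.val (h ⟨x, hQ hx⟩ hx)
    rcases cent0 ⟨g.2, Subgroup.mem_centralizer_singleton_iff.2 (h' _ es0.mem).symm⟩ h' with e | e
    · exact Or.inl (Subtype.ext e)
    · exact Or.inr (Subtype.ext e)
  · exact mem_normalizer_of_finite fun x hx => conj_mem_of_normalizer (H := Q0)
      (Q0_norm ⟨g.2, Subgroup.mem_centralizer_singleton_iff.2 (congrArg Subtype.val h)⟩) hx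
  · rw [card_sub hQ, gQ.card X24 K24, chQ_size]
  · exact gQ.mem_of_memb X24 (by decide +kernel) ((rep_permOf og).conj X24 (rep_permOf okz))
  · exact absurd ((((rep_permOf og).conj X24 (rep_permOf okz)).eqc_iff X24 K24
      (rep_permOf okz)).2 (congrArg Subtype.val h)) (by decide +kernel)
  · exact Subtype.ext (mul_self_of_elts gE (by decide +kernel) _ ha)
  · rw [card_sub (E0_le.trans hQ), gE.card X24 K24, chE_size]
  · rw [hc, card_sub inf_le_left, M24.card_cent2A]

/-- In the Mathieu group of degree 24 (the automorphism group of the length-24 binary Golay code, acting on the 24 coordinates), let z be an involution whose fixed points form an octad (the support of a code word of weight 8), and let Q be the largest normal 2-subgroup of the centralizer C of z. Then Q is extraspecial of order 2^7 with an elementary abelian subgroup of order 16 (plus type), Q is a large extraspecial 2-subgroup, and C is the split extension of Q by the special linear group of degree 3 over the field with two elements. -/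
theorem result (z : ↥Cfsg.M24) (hz : orderOf z = 2) (hfix : (Finset.univ.filter fun p : Cfsg.GolayPt => (z : Equiv.Perm Cfsg.GolayPt) p = p) ∈ Cfsg.octads) (Q : Subgroup ↥Cfsg.M24) (hQ : Q = (Cfsg.pCore 2 ↥(Subgroup.centralizer ({z} : Set ↥Cfsg.M24))).map (Subgroup.centralizer ({z} : Set ↥Cfsg.M24)).subtype) : Cfsg.IsExtraspecial 2 ↥Q ∧ Nat.card ↥Q = 2 ^ 7 ∧ (∃ E : Subgroup ↥Cfsg.M24, E ≤ Q ∧ Cfsg.IsElementaryAbelian 2 E ∧ Nat.card ↥E = 2 ^ 4) ∧ Cfsg.IsLargeExtraspecial Q ∧ ∃ K : Subgroup ↥Cfsg.M24, K ≤ Subgroup.centralizer ({z} : Set ↥Cfsg.M24) ∧ Q ⊓ K = ⊥ ∧ Q ⊔ K = Subgroup.centralizer ({z} : Set ↥Cfsg.M24) ∧ Nonempty (↥K ≃* Matrix.SpecialLinearGroup (Fin 3) (ZMod 2)) := by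
  obtain ⟨k, hk, e⟩ := conj2A z.2 (by rwa [Subgroup.orderOf_coe]) (by
    show (Finset.univ.filter fun p : Cfsg.GolayPt => (z : Equiv.Perm Cfsg.GolayPt) p = p).card ≠ 0
    rw [(mem_octads_iff.1 hfix).2]
    norm_num)
  have h := pk0.map (MulAut.conj (⟨k, hk⟩ : M24))
  rw [show MulAut.conj (⟨k, hk⟩ : M24) ⟨permOf M24.c2A, z_mem⟩ = z from Subtype.ext e] at h
  exact h.final Q hQ

end Cfsg.Agent.S5425
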