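import Cfsg.Statements.S5426
import Cfsg.Agent.Lib.LEx73.Struct

set_option autoImplicit false
open Cfsg Subgroup H95 H73.LX

namespace Cfsg.Agent.S5426

/-- Let Q be a large extraspecial 2-subgroup of the finite group G (extraspecial; centralizer equal to its centre; normal in the centralizer of its centre; normalizing no non-trivial subgroup of odd order) with centre generated by z, and let M be the normal closure of z in G. Then one of the following holds: Q is normal in G; or M is abelian and the generalized Fitting subgroup of G is its largest normal 2-subgroup; or M is the generalized Fitting subgroup of G and is a non-abelian simple group; or M is the generalized Fitting subgroup of G and is the direct product of a non-abelian simple subgroup L and its conjugate u L u⁻¹ by some u in Q (the two meet trivially and commute elementwise), with z = z₁ (u z₁ u⁻¹) for some z₁ in L whose centralizer in L is a Sylow 2-subgroup of L with Frattini subgroup inside the subgroup generated by z₁, and Q is not the largest normal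 2-subgroup of the centralizer of z. -/
theorem result {G : Type*} [Group G] [Finite G] (Q : Subgroup G) (hQ : Cfsg.IsLargeExtraspecial Q) (z : G) (hz : ((Subgroup.center ↥Q).map Q.subtype) = Subgroup.zpowers z) (M : Subgroup G) (hM : M = Subgroup.normalClosure ({z} : Set G)) : Q.Normal ∨ (IsMulCommutative ↥M ∧ Cfsg.generalizedFittingSubgroup G = Cfsg.pCore 2 G) ∨ (M = Cfsg.generalizedFittingSubgroup G ∧ IsSimpleGroup ↥M ∧ ¬ IsMulCommutative ↥M) ∨ (M = Cfsg.generalizedFittingSubgroup G ∧ ∃ (L : Subgroup G) (u : G), u ∈ Q ∧ IsSimpleGroup ↥L ∧ ¬ IsMulCommutative ↥L ∧ L ⊓ (L).map (MulAut.conj u).toMonoidHom = ⊥ ∧ (∀ x ∈ L, ∀ y ∈ (L).map (MulAut.conj u).toMonoidHom, x * y = y * x) ∧ L ⊔ (L).map (MulAut.conj u).toMonoidHom = M ∧ ∃ z₁ ∈ L, z = z₁ * (u * z₁ * u⁻¹) ∧ (∃ R : Sylow 2 ↥L, (R : Subgroup ↥L) = (Subgroup.centralizer ({z₁} : Set G)).subgroupOf L ∧ (frattini ↥(R : Subgroup ↥L)).map ((L.subtype).comp (R : Subgroup ↥L).subtype) ≤ Subgroup.zpowers z₁) ∧ Q ≠ (Cfsg.pCore 2 ↥(Subgroup.centralizer ({z} : Set G))).map (Subgroup.centralizer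 ({z} : Set G)).subtype) := by
  have h : L3 Q z := L3_of_large hQ hz
  have h4 := hQ.2.2.2
  by_cases hO : pCore 2 G = ⊥
  swap
  · right; left
    rw [hM]
    exact case_pCore h h4 hO
  have hF := fitting_eq_bot h4 hO
  have hME : M = layer G := hM.trans (closure_eq_layer h h4 hF)
  have hMF : M = generalizedFittingSubgroup G := by
    rw [H23.fStar_def, hF, sup_bot_eq, hME]
  obtain ⟨L, hL⟩ := exists_comp h.toES hF
  have hLs := H23.IsComponent.isSimpleGroup_of_fitting_eq_bot hL hF
  have hLn := not_comm_of_component hL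
  have hzE : z ∈ layer G := by
    rw [← hME, hM]; exact subset_normalClosure (Set.mem_singleton z)
  right; right
  by_cases hfix : ∀ q ∈ Q, L.map (MulAut.conj q).toMonoidHom = L
  · left
    have e : M = L := by
      rw [hME]
      refine le_antisymm ?_ (H23.IsComponent.le_layer hL)
      rw [H23.layer_le_iff]
      intro K hK
      obtain ⟨q, hq, rfl⟩ := exists_conj_comp h h4 hL hK
      exact (hfix q hq).le
    refine ⟨hMF, ?_, ?_⟩
    · rw [e]; exact hLs
    · rw [e]; exact hLn
  right
  push Not at hfix
  obtain ⟨u, hu, hne⟩ := hfix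
  have hsqn : ∀ q ∈ Q, q * q ∈ normalizer (L : Set G) := by
    intro q hq
    rcases h.sq_mem hq with e | e
    · rw [e]; exact one_mem _
    · rw [e]; exact H23.IsComponent.layer_le_normalizer hL hzE
  -- data for an arbitrary component moved by an element of `Q`
  have hmov : ∀ K : Subgroup G, IsComponent K → ∀ v ∈ Q,
      K.map (MulAut.conj v).toMonoidHom ≠ K → ∃ z₁, Moved Q z K v z₁ ∧ z₁ ≠ 1 := by
    intro K hK v hv hne
    obtain ⟨z₁, h1, h2⟩ := exists_part hK hzE
    refine ⟨z₁, ⟨h, fun x hx hc => eq_one_of_cent hF hK hx hc, hv, fun x hx =>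
      le_cent_of_ne hK (H23.IsComponent.map_conj hK v) hne (conj_mem_map hx v), h1, h2⟩, ?_⟩
    rintro rfl
    apply not_le_cent h hK
    intro x hx
    rw [inv_one, one_mul] at h2
    exact mem_cent_iff.2 (mem_centralizer_iff.1 h2 x hx)
  obtain ⟨z₁, m, hz1⟩ := hmov L hL u hu hne
  have hnsc : ¬ ∀ x ∈ L, x * z₁ = z₁ * x → x = 1 ∨ x = z₁ :=
    fun hc => no_self_cent hLs hLn m.mem hz1 m.sq hc
  set L' := L.map (MulAut.conj u).toMonoidHom with hL'def
  have hL' : IsComponent L' := H23.IsComponent.map_conj hL u
  have hL'c : L' ≤ centralizer (L : Set G) := le_cent_of_ne hL hL' hne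
  have hback : L'.map (MulAut.conj u).toMonoidHom = L := by
    rw [hL'def, map_conj_mul, map_conj_eq_self (hsqn u hu)]
  -- there are exactly two components
  have htwo : ∀ K : Subgroup G, IsComponent K → K = L ∨ K = L' := by
    intro K hK
    by_contra hno
    push Not at hno
    obtain ⟨v, hv, rfl⟩ := exists_conj_comp h h4 hL hK
    apply hnsc
    intro x hx hc
    refine m.third hv (fun y hy => le_cent_of_ne hL hK hno.1 (conj_mem_map hy v))
      (fun y hy => le_cent_of_ne hL (H23.IsComponent.map_conj hL (v * u)) ?_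
        (conj_mem_map hy (v * u))) hx hc
    intro e
    apply hno.2
    calc L.map (MulAut.conj v).toMonoidHom
        = (L.map (MulAut.conj (v * u)).toMonoidHom).map (MulAut.conj v).toMonoidHom := by rw [e]
      _ = (L.map (MulAut.conj u).toMonoidHom).map (MulAut.conj (v * v)).toMonoidHom := by
          rw [map_conj_mul, map_conj_mul, mul_assoc]
      _ = L' := by
          apply map_conj_eq_self
          rcases h.sq_mem hv with e | e
          · rw [e]; exact one_mem _
          · rw [e]; exact H23.IsComponent.layer_le_normalizer hL' hzE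
  have hE : L ⊔ L' = layer G := by
    refine le_antisymm (sup_le (H23.IsComponent.le_layer hL) (H23.IsComponent.le_layer hL')) ?_
    rw [H23.layer_le_iff]
    intro K hK
    rcases htwo K hK with e | e
    · rw [e]; exact le_sup_left
    · rw [e]; exact le_sup_right
  have hdec : ∀ x ∈ layer G, ∃ a ∈ L, ∃ b ∈ L', a * b = x := by
    intro x hx
    rw [← hE] at hx
    exact (mem_sup_iff_of_norm (hL'c.trans (centralizer_le_normalizer _))).1 hx
  -- `z = z₁ * z₁ ^ u`
  have hzz : z = z₁ * (u * z₁ * u⁻¹) := by
    obtain ⟨a, ha, b, hb, hab⟩ := hdec z hzE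
    have ea : a = z₁ := m.eq_of_mod ha (by rw [← hab, inv_mul_cancel_left]; exact hL'c hb)
    subst ea
    have hb' : u * b * u⁻¹ ∈ L := hback ▸ conj_mem_map hb u
    have e1 : z = (u * b * u⁻¹) * (u * a * u⁻¹) := by
      have e2 := mem_centralizer_iff.1 (hL'c hb) a ha
      calc z = u * z * u⁻¹ := by rw [h.central u hu]; group
        _ = u * (b * a) * u⁻¹ := by rw [← e2, hab]
        _ = _ := by group
    have e3 : u * b * u⁻¹ = a :=
      m.eq_of_mod hb' (by rw [e1, inv_mul_cancel_left]; exact m.uc a ha)
    rw [e1, e3]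
  refine ⟨hMF, L, u, hu, hLs, hLn, ?_, ?_, hE.trans hME.symm, z₁, m.mem, hzz, ?_, ?_⟩
  · rw [eq_bot_iff]
    intro x hx
    exact mem_bot.2 (m.zc x hx.1 (hL'c hx.2))
  · intro x hx y hy
    exact mem_centralizer_iff.1 (hL'c hy) x hx
  · obtain ⟨T, hT⟩ := h.isPGroup.exists_le_sylow
    have hTz : ∀ x ∈ (T : Subgroup G), x * z = z * x := by
      obtain ⟨c, -, hc2, hc3⟩ := H5.exists_mem_centralizer_orderOf_eq (p := 2) T.isPGroup' le_rfl
        le_normalizer (fun e => h.ne_one (by have := hT h.mem; rw [e] at this; exact mem_bot.1 this))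
      rcases h.cent c (fun x hx => mem_centralizer_iff.1 hc2 x (hT hx)) with e | e
      · rw [e, orderOf_one] at hc3; omega
      · exact fun x hx => e ▸ mem_centralizer_iff.1 hc2 x hx
    obtain ⟨R, hR⟩ := H21.exists_sylow_eq_subgroupOf_of_isSubnormal
      (H23.IsComponent.isSubnormal hL) T
    have hp : IsPGroup 2 ((centralizer ({z₁} : Set G)).subgroupOf L) := by
      apply isPGroup_of_pow 2
      intro x hx
      exact Subtype.ext (m.pow_four x.2 (mem_cent_iff.1 hx))
    have hRe : (R : Subgroup L) = (centralizer ({z₁} : Set G)).subgroupOf L := by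
      refine (R.is_maximal' hp ?_).symm
      rw [hR]
      intro x hx
      exact mem_cent_iff.2 ((m.comm_iff x.2).1 (hTz x hx))
    refine ⟨R, hRe, ?_⟩
    rw [H5.frattini_eq_closure_sq R.isPGroup', map_le_iff_le_comap, closure_le]
    rintro _ ⟨x, rfl⟩
    have hx : ((x : L) : G) ∈ centralizer ({z₁} : Set G) := by
      exact hRe.le x.2
    have := m.sq_cases (x : L).2 (mem_cent_iff.1 hx)
    show ((x : L) : G) ^ 2 ∈ zpowers z₁
    rw [mem_zpowers_iff_of_sq m.sq, pow_two]
    exact this
  · intro hQe
    apply hnsc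
    intro x hx hc
    apply m.of_mem hx
    obtain ⟨z₂, m', -⟩ := hmov L' hL' u hu (by rw [hback]; exact fun e => hne e.symm)
    have hle : layer G ⊓ centralizer ({z} : Set G) ≤ pCoreOf 2 (centralizer ({z} : Set G)) := by
      refine H1.le_pCoreOf inf_le_right ?_ ?_
      · apply le_normalizer_of_conj
        intro g hg y hy
        refine ⟨Subgroup.Normal.conj_mem inferInstance y hy.1 g, ?_⟩
        exact (centralizer ({z} : Set G)).mul_mem ((centralizer ({z} : Set G)).mul_mem hg hy.2)
          ((centralizer ({z} : Set G)).inv_mem hg)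
      · apply isPGroup_of_pow 2
        intro y hy
        obtain ⟨a, ha, b, hb, rfl⟩ := hdec y hy.1
        have eab := mem_centralizer_iff.1 (hL'c hb) a ha
        have eyz := mem_cent_iff.1 hy.2
        have hzn := H23.IsComponent.layer_le_normalizer hL hzE
        have hzn' := H23.IsComponent.layer_le_normalizer hL' hzE
        have e1 : a⁻¹ * (z * a * z⁻¹) = b * (z * b * z⁻¹)⁻¹ := by
          calc a⁻¹ * (z * a * z⁻¹) = a⁻¹ * (z * (a * b)) * b⁻¹ * z⁻¹ := by group
            _ = a⁻¹ * (a * b * z) * b⁻¹ * z⁻¹ := by rw [eyz]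
            _ = _ := by group
        have e2 : a⁻¹ * (z * a * z⁻¹) = 1 :=
          m.zc _ (L.mul_mem (L.inv_mem ha) (conj_mem_of_normalizer hzn ha))
            (e1 ▸ hL'c (L'.mul_mem hb (L'.inv_mem (conj_mem_of_normalizer hzn' hb))))
        have e3 : a * z = z * a := by
          calc a * z = a * (a⁻¹ * (z * a * z⁻¹)) * z := by rw [e2]; group
            _ = z * a := by group
        have e4 : b * z = z * b := by
          rw [e2] at e1
          calc b * z = b * (z * b * z⁻¹)⁻¹ * (z * b) := by group
            _ = z * b := by rw [← e1]; group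
        rw [(show Commute a b from eab).mul_pow, m.pow_four ha ((m.comm_iff ha).1 e3),
          m'.pow_four hb ((m'.comm_iff hb).1 e4), one_mul]
    rw [hQe]
    exact hle ⟨H23.IsComponent.le_layer hL hx, mem_cent_iff.2 ((m.comm_iff hx).2 hc)⟩

end Cfsg.Agent.S5426
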