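import Cfsg.Statements.S5427
import Cfsg.Agent.Lib.LEx73.Simple

set_option autoImplicit false
open Cfsg Subgroup H95 H73.LX

namespace Cfsg.Agent.S5427

/-- Let z be an involution of the finite group G whose centralizer C has generalized Fitting subgroup Q, an extraspecial 2-group of width at least 2 (order 2^(2w+1), w ≥ 2). Let K be a subgroup of G such that the subgroup U generated by the K-conjugates of z is abelian and C is generated by the C-conjugates of U. Suppose that either some K-conjugate of z other than z lies in Q, or some element u of U ∩ Q outside the subgroup generated by z has z in the largest normal 2-subgroup of its centralizer. Then G is simple and Q is a large extraspecial 2-subgroup of G. -/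
theorem result {G : Type*} [Group G] [Finite G] (z : G) (hz : orderOf z = 2) (Q : Subgroup G) (hQC : Q ≤ Subgroup.centralizer ({z} : Set G)) (hF : (Cfsg.generalizedFittingSubgroup ↥(Subgroup.centralizer ({z} : Set G))).map (Subgroup.centralizer ({z} : Set G)).subtype = Q) (hQ : Cfsg.IsExtraspecial 2 ↥Q) (w : ℕ) (hw : 2 ≤ w) (hcard : Nat.card ↥Q = 2 ^ (2 * w + 1)) (K U : Subgroup G) (hU : U = Subgroup.closure {x : G | ∃ k ∈ K, x = k * z * k⁻¹}) (hUab : IsMulCommutative ↥U) (hgen : Subgroup.closure {x : G | ∃ c ∈ Subgroup.centralizer ({z} : Set G), ∃ u ∈ U, x = c * u * c⁻¹} = Subgroup.centralizer ({z} : Set G)) (h3 : (∃ k ∈ K, k * z * k⁻¹ ∈ Q ∧ k * z * k⁻¹ ≠ z) ∨ ∃ u ∈ U ⊓ Q, u ∉ Subgroup.zpowers z ∧ (∃ hz' : z ∈ Subgroup.centralizer ({u} : Set G), (⟨z, hz'⟩ : ↥(Subgroup.centralizer ({u} : Set G))) ∈ Cfsg.pCore 2 ↥(Subgroup.centralizer ({u} : Set G)))) : IsSimpleGroup G ∧ Cfsg.IsLargeExtraspecial Q := by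
  have h : L3 Q z := L3_of_fStar hz hF hQ
  have hUM : U ≤ normalClosure ({z} : Set G) := by
    rw [hU, closure_le]
    rintro _ ⟨k, -, rfl⟩
    exact Subgroup.Normal.conj_mem inferInstance z (subset_normalClosure (Set.mem_singleton z)) k
  have hC : centralizer ({z} : Set G) ≤ normalClosure ({z} : Set G) := by
    refine hgen.ge.trans ?_
    rw [closure_le]
    rintro _ ⟨c, -, u, hu, rfl⟩
    exact Subgroup.Normal.conj_mem inferInstance u (hUM hu) c
  have hl : IsLargeExtraspecial Q := by
    rcases h3 with ⟨k, -, h1, h2⟩ | ⟨u, hu, hu1, hz', hzO⟩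
    · exact h.isLarge_of_conj_mem (eight_lt hw hcard) h1 h2
    · rw [h.mem_zpowers, not_or] at hu1
      have hsq : ∀ x ∈ U, x * x = 1 := by
        intro x hx
        rw [hU] at hx
        induction hx using closure_induction with
        | mem x hx =>
          obtain ⟨k, -, rfl⟩ := hx
          calc k * z * k⁻¹ * (k * z * k⁻¹) = k * (z * z) * k⁻¹ := by group
            _ = 1 := by rw [h.sq]; group
        | one => simp
        | mul a b ha hb iha ihb =>
          rw [← hU] at ha hb
          have e : a * b = b * a :=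
            congrArg Subtype.val (hUab.is_comm.comm (⟨a, ha⟩ : U) ⟨b, hb⟩)
          calc a * b * (a * b) = a * (b * a) * b := by group
            _ = (a * a) * (b * b) := by rw [← e]; group
            _ = 1 := by rw [iha, ihb, one_mul]
        | inv a ha iha =>
          rw [← mul_inv_rev, iha, inv_one]
      refine h.isLarge_of_invol hu.2 hu1.1 hu1.2 (hsq u hu.1)
        (N := pCoreOf 2 (centralizer ({u} : Set G))) (H1.isPGroup_pCoreOf _) ⟨⟨z, hz'⟩, hzO, rfl⟩ ?_
      intro g hg x hx
      exact conj_mem_of_normalizer (H1.le_normalizer_pCoreOf _ (mem_cent_iff.2 hg)) hx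
  exact ⟨simple_of_cent_le h hl hF hC, hl⟩

end Cfsg.Agent.S5427
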