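import Cfsg.Statements.S5428
import Cfsg.Agent.Lib.LargeExtra.Setting
import Cfsg.Agent.Lib.LargeExtra.Odd

set_option autoImplicit false
open Cfsg Subgroup H95

namespace Cfsg.Agent.S5428

theorem dec_of_central {D : Type*} [Group D] [Finite D] {z : D} (hz : orderOf z = 2)
    (hc : ∀ d, d * z = z * d) (h4 : ¬ 4 ∣ Nat.card D) (d : D) :
    ∃ a ∈ oddCore D, d = a ∨ d = a * z := by
  have hzz := mul_self_of_orderOf_eq_two hz
  have hn : (zpowers z).Normal := by
    constructor
    intro n hn g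
    rcases (mem_zpowers_iff_of_sq hzz).1 hn with e | e
    · rw [e]; simp
    · rw [e, hc g]; simp
  have hcard : Nat.card (zpowers z) = 2 := by rw [Nat.card_zpowers, hz]
  have hodd : Odd (zpowers z).index := by
    rw [← Nat.not_even_iff_odd]
    rintro ⟨k, hk⟩
    apply h4
    rw [← (zpowers z).card_mul_index, hcard, hk]
    exact ⟨k, by ring⟩
  obtain ⟨H, hH⟩ := exists_right_complement'_of_coprime (N := zpowers z)
    (by rw [hcard]; exact Nat.coprime_two_left.2 hodd)
  have hi : H.index = 2 := by rw [hH.index_eq_card, hcard]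
  have : H.Normal := normal_of_index_eq_two hi
  have hHo : H ≤ oddCore D := H1.le_oddCore (by rw [← hH.symm.index_eq_card]; exact hodd)
  obtain ⟨⟨n, a⟩, e⟩ := hH.2 d
  refine ⟨a, hHo a.2, ?_⟩
  have e' : (n : D) * a = d := e
  rcases (mem_zpowers_iff_of_sq hzz).1 n.2 with f | f
  · left; rw [← e', f, one_mul]
  · right; rw [← e', f, hc]

theorem comm_of_mod {G : Type*} [Group G] {A : Subgroup G} (hA : Odd (Nat.card A)) {c r : G}
    (hr : r ∈ centralizer (A : Set G)) (h4 : r ^ 4 = 1) (h : c * r * c⁻¹ * r⁻¹ ∈ A) :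
    c * r = r * c := by
  have hcm : Commute (c * r * c⁻¹ * r⁻¹) r := mem_centralizer_iff.1 hr _ h
  have e : (c * r * c⁻¹ * r⁻¹) ^ 4 = 1 := by
    have e1 : (c * r * c⁻¹ * r⁻¹ * r) ^ 4 = 1 := by
      rw [inv_mul_cancel_right, conj_pow, h4]; group
    rwa [hcm.mul_pow, h4, mul_one] at e1
  have hp : IsPGroup 2 (zpowers (c * r * c⁻¹ * r⁻¹)) := by
    apply isPGroup_of_pow 2
    rintro _ ⟨k, rfl⟩
    show ((c * r * c⁻¹ * r⁻¹) ^ k) ^ 4 = 1
    rw [← zpow_natCast, ← zpow_mul, mul_comm, zpow_mul, zpow_natCast, e, one_zpow]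
  have e1 := eq_one_of_odd_of_isPGroup hA hp h (mem_zpowers _)
  calc c * r = (c * r * c⁻¹ * r⁻¹) * (r * c) := by group
    _ = r * c := by rw [e1, one_mul]

/-- Let z be an involution of the finite group G whose centralizer C has generalized Fitting subgroup Q extraspecial (as a 2-group), let A be a subgroup of C of odd order, and let R be the centralizer of A in Q; suppose R has order at least 32, the largest normal subgroup of odd order of the centralizer of the subgroup generated by A and R lies in A, the order of that centralizer is not divisible by 4, and g is an element of G with g z g⁻¹ in R but outside the centre Z of Q. Let M be the subgroup generated by A and the centralizer of A (A is normal in it). Then: the centralizer in M of the subgroup generated by R and A, joined with A, equals the subgroup generated by A and Z; the image of R in M/A is a large extraspecial 2-subgroup of M/A; and g z g⁻¹ is conjugate to z inside the subgroup generated by R and the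 centralizer of A in g Q g⁻¹. -/
theorem result {G : Type*} [Group G] [Finite G] (z : G) (hz : orderOf z = 2) (Q : Subgroup G) (hQC : Q ≤ Subgroup.centralizer ({z} : Set G)) (hF : (Cfsg.generalizedFittingSubgroup ↥(Subgroup.centralizer ({z} : Set G))).map (Subgroup.centralizer ({z} : Set G)).subtype = Q) (hQ : Cfsg.IsExtraspecial 2 ↥Q) (A : Subgroup G) (hA : A ≤ Subgroup.centralizer ({z} : Set G)) (hAodd : Odd (Nat.card ↥A)) (R : Subgroup G) (hR : R = Q ⊓ Subgroup.centralizer (A : Set G)) (hR32 : 32 ≤ Nat.card ↥R) (hO : (Cfsg.oddCore ↥(Subgroup.centralizer ((A ⊔ R : Subgroup G) : Set G))).map (Subgroup.centralizer ((A ⊔ R : Subgroup G) : Set G)).subtype ≤ A) (h4 : ¬ 4 ∣ Nat.card ↥(Subgroup.centralizer ((A ⊔ R : Subgroup G) : Set G))) (g : G) (hgR : g * z * g⁻¹ ∈ R) (hgZ : g * z * g⁻¹ ∉ ((Subgroup.center ↥Q).map Q.subtype)) (M : Subgroup G) (hM : M = Subgroup.centralizer (A : Set G) ⊔ A) [hn : (A.subgroupOf M).Normal] : (M ⊓ Subgroup.centralizer ((R ⊔ A : Subgroup G)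 : Set G)) ⊔ A = A ⊔ ((Subgroup.center ↥Q).map Q.subtype) ∧ Cfsg.IsLargeExtraspecial ((R.subgroupOf M).map (QuotientGroup.mk' (A.subgroupOf M))) ∧ ∃ x ∈ R ⊔ ((Q).map (MulAut.conj g).toMonoidHom ⊓ Subgroup.centralizer (A : Set G)), x * (g * z * g⁻¹) * x⁻¹ = z := by
  have h : L3 Q z := L3_of_fStar hz hF hQ
  have hAn : A ≤ normalizer (Q : Set G) := h.normalizer_eq ▸ hA
  have hRQ : R ≤ Q := hR ▸ inf_le_left
  have hRA : R ≤ centralizer (A : Set G) := hR ▸ inf_le_right
  have hRes : ES R z := by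
    rcases h.toES.cent_odd hAn hAodd with e | e
    · rw [hR, e, Nat.card_zpowers, hz] at hR32; omega
    · rwa [hR]
  have hQ8 : 8 < Nat.card Q := lt_of_lt_of_le (by omega) (card_le_of_le hRQ)
  rw [h.center_eq] at hgZ ⊢
  have hs := hgZ
  rw [h.mem_zpowers, not_or] at hs
  have hzA : z ∈ centralizer (A : Set G) := hRA hRes.mem
  -- the centraliser of `A R`
  have hD : ∀ d, d ∈ centralizer (A : Set G) → (∀ r ∈ R, r * d = d * r) →
      ∃ a ∈ A, d = a ∨ d = a * z := by
    have hmem : ∀ d, d ∈ centralizer (A : Set G) → (∀ r ∈ R, r * d = d * r) →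
        d ∈ centralizer ((A ⊔ R : Subgroup G) : Set G) := by
      intro d h1 h2
      rw [H23.centralizer_sup]
      exact ⟨h1, mem_centralizer_iff.2 h2⟩
    intro d h1 h2
    have hzD := hmem z hzA hRes.central
    obtain ⟨a, ha, e⟩ := dec_of_central (z := (⟨z, hzD⟩ : centralizer ((A ⊔ R : Subgroup G) : Set G)))
      (by rw [← Subgroup.orderOf_coe]; exact hz)
      (fun x => Subtype.ext (mem_centralizer_iff.1 x.2 z (mem_sup_right hRes.mem)).symm) h4
      ⟨d, hmem d h1 h2⟩
    refine ⟨a, hO ⟨a, ha, rfl⟩, ?_⟩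
    rcases e with e | e
    · exact Or.inl (congrArg Subtype.val e)
    · exact Or.inr (congrArg Subtype.val e)
  have hCM : centralizer (A : Set G) ≤ M := hM ▸ le_sup_left
  -- fusion of `z` and its conjugate
  have h' := h.map_conj g
  have hzQ' := h.mem_map_conj_of_mem hQ8 (hRQ hgR)
  have hAn' : A ≤ normalizer ((Q.map (MulAut.conj g).toMonoidHom : Subgroup G) : Set G) := by
    rw [h'.normalizer_eq]
    intro a ha
    exact mem_cent_iff.2 (mem_centralizer_iff.1 (hRA hgR) a ha)
  have hR' : ES (Q.map (MulAut.conj g).toMonoidHom ⊓ centralizer (A : Set G)) (g * z * g⁻¹) := by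
    rcases h'.toES.cent_odd hAn' hAodd with e | e
    · exfalso
      have : z ∈ zpowers (g * z * g⁻¹) := e ▸ ⟨hzQ', hzA⟩
      rcases h'.mem_zpowers.1 this with f | f
      · exact h.ne_one f
      · exact hs.2 f.symm
    · exact e
  obtain ⟨a, ha, ea⟩ := hRes.exists_conj hgR hs.1 hs.2
  obtain ⟨b, hb, eb⟩ := hR'.exists_conj (x := z) ⟨hzQ', hzA⟩ h.ne_one (fun f => hs.2 f.symm)
  have ex : (b⁻¹ * a) * (g * z * g⁻¹) * (b⁻¹ * a)⁻¹ = z := by
    calc (b⁻¹ * a) * (g * z * g⁻¹) * (b⁻¹ * a)⁻¹ = b⁻¹ * (a * (g * z * g⁻¹) * a⁻¹) * b := by group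
      _ = b⁻¹ * (b * z * b⁻¹) * b := by rw [ea, eb, hRes.central _ hgR]
      _ = z := by group
  have hxA : b⁻¹ * a ∈ centralizer (A : Set G) := mul_mem (inv_mem hb.2) (hRA ha)
  refine ⟨?_, ?_, b⁻¹ * a, mul_mem (mem_sup_right (inv_mem hb)) (mem_sup_left ha), ex⟩
  · refine le_antisymm (sup_le ?_ le_sup_left) (sup_le le_sup_right ?_)
    · intro d hd
      have hd2 := hd.2
      rw [H23.centralizer_sup] at hd2
      obtain ⟨a, ha, e⟩ := hD d hd2.2 (mem_centralizer_iff.1 hd2.1)
      rcases e with e | e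
      · rw [e]; exact mem_sup_left ha
      · rw [e]; exact mul_mem (mem_sup_left ha) (mem_sup_right (mem_zpowers z))
    · rw [zpowers_le]
      apply mem_sup_left
      refine ⟨hCM hzA, ?_⟩
      rw [H23.centralizer_sup]
      exact ⟨mem_centralizer_iff.2 hRes.central, hzA⟩
  · have hRM : R ≤ M := hRA.trans hCM
    set π := QuotientGroup.mk' (A.subgroupOf M) with hπ
    have hker : ∀ x : M, π x = 1 ↔ (x : G) ∈ A := by
      intro x
      rw [← MonoidHom.mem_ker, hπ, QuotientGroup.ker_mk', mem_subgroupOf]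
    have hinj : ∀ x ∈ R.subgroupOf M, π x = 1 → x = 1 := fun x hx e =>
      Subtype.ext (eq_one_of_odd_of_isPGroup hAodd hRes.isPGroup ((hker x).1 e) hx)
    have hes := (hRes.subgroupOf hRM).map π hinj
    have hrep : ∀ y : M ⧸ A.subgroupOf M, ∃ c : M, (c : G) ∈ centralizer (A : Set G) ∧ π c = y := by
      intro y
      obtain ⟨m, rfl⟩ := QuotientGroup.mk'_surjective _ y
      have hm : (m : G) ∈ centralizer (A : Set G) ⊔ A := hM ▸ m.2
      have hAC : A ≤ normalizer ((centralizer (A : Set G) : Subgroup G) : Set G) := by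
        apply le_normalizer_of_conj
        intro a ha x hx
        rw [mem_centralizer_iff.1 hx a ha, mul_inv_cancel_right]
        exact hx
      obtain ⟨c, hc, a, ha, e⟩ := (mem_sup_iff_of_norm hAC).1 hm
      have haM : a ∈ M := hM ▸ mem_sup_right ha
      refine ⟨⟨c, hCM hc⟩, hc, ?_⟩
      have : m = ⟨c, hCM hc⟩ * ⟨a, haM⟩ := Subtype.ext e.symm
      rw [this, map_mul, (hker ⟨a, haM⟩).2 ha, mul_one]
    have hcomm : ∀ c r : M, (r : G) ∈ R → π c * π r = π r * π c → (c : G) * r = r * c := by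
      intro c r hr e
      apply comm_of_mod hAodd (hRA hr) (hRes.pow_four hr)
      have : π (c * r * c⁻¹ * r⁻¹) = 1 := by
        rw [map_mul, map_mul, map_mul, map_inv, map_inv, e]; group
      exact (hker _).1 this
    have hL : L3 ((R.subgroupOf M).map π) (π ⟨z, hRM hRes.mem⟩) := by
      refine ⟨hes, ?_, ?_⟩
      · intro y hy
        obtain ⟨c, hc, rfl⟩ := hrep y
        obtain ⟨a, ha, e⟩ := hD c hc (fun r hr =>
          (hcomm c ⟨r, hRM hr⟩ hr (hy _ ⟨⟨r, hRM hr⟩, hr, rfl⟩).symm).symm)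
        have haM : a ∈ M := hM ▸ mem_sup_right ha
        rcases e with e | e
        · left; rw [hker, e]; exact ha
        · right
          have : c = ⟨a, haM⟩ * ⟨z, hRM hRes.mem⟩ := Subtype.ext e
          rw [this, map_mul, (hker ⟨a, haM⟩).2 ha, one_mul]
      · intro y hy
        obtain ⟨c, hc, rfl⟩ := hrep y
        have hcz := hcomm c ⟨z, hRM hRes.mem⟩ hRes.mem hy
        have hcn := h.norm c hcz
        apply mem_normalizer_of_finite
        rintro _ ⟨r, hr, rfl⟩
        refine ⟨c * r * c⁻¹, ?_, by simp⟩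
        have hr' : (r : G) ∈ R := hr
        show (c : G) * r * (c : G)⁻¹ ∈ R
        rw [hR]
        exact mem_inf.2 ⟨conj_mem_of_normalizer hcn (hRQ hr'),
          mul_mem (mul_mem hc (hRA hr')) (inv_mem hc)⟩
    have hcard : Nat.card ((R.subgroupOf M).map π) = Nat.card R := by
      rw [← Nat.card_congr (subgroupOfEquivOfLe hRM).toEquiv]
      symm
      refine Nat.card_congr (Equiv.ofBijective (π.subgroupMap (R.subgroupOf M)) ⟨?_, ?_⟩)
      · rw [injective_iff_map_eq_one]
        intro x hx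
        exact Subtype.ext (hinj x x.2 (congrArg Subtype.val hx))
      · exact π.subgroupMap_surjective _
    have e : (π ⟨_, hCM hxA⟩)⁻¹ * π ⟨z, hRM hRes.mem⟩ * (π ⟨_, hCM hxA⟩)⁻¹⁻¹ =
        π ⟨_, hRM hgR⟩ := by
      rw [inv_inv, ← map_inv, ← map_mul, ← map_mul]
      congr 1
      apply Subtype.ext
      simp only [Subgroup.coe_mul, Subgroup.coe_inv]
      calc (b⁻¹ * a)⁻¹ * z * (b⁻¹ * a)
          = (b⁻¹ * a)⁻¹ * ((b⁻¹ * a) * (g * z * g⁻¹) * (b⁻¹ * a)⁻¹) * (b⁻¹ * a) := by rw [ex]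
        _ = _ := by group
    refine hL.isLarge_of_conj_mem (by rw [hcard]; omega) (g := (π ⟨_, hCM hxA⟩)⁻¹) ?_ ?_
    · rw [e]; exact ⟨_, hgR, rfl⟩
    · rw [e]
      intro f
      have := hinj ((⟨z, hRM hRes.mem⟩ : M)⁻¹ * ⟨_, hRM hgR⟩)
        (mul_mem (inv_mem hRes.mem) hgR) (by rw [map_mul, map_inv, f, inv_mul_cancel])
      exact hs.2 (inv_mul_eq_one.1 (congrArg Subtype.val this)).symm

end Cfsg.Agent.S5428
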