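import Mathlib
import Cfsg.Agent.Lib.LargeExtra.Setting
import Cfsg.Statements.S5429
-- import your own Cfsg.Agent.* helpers here

set_option autoImplicit false
open Cfsg

namespace Cfsg.Agent.S5429


/-- Let z be an involution of the finite group G with centralizer C whose generalized Fitting subgroup Q is extraspecial of width at least 3 (order 2^(2w+1), w ≥ 3); let g be an element of G with g z g⁻¹ in Q but outside the centre Z of Q, and t an involution lying in both Q and g Q g⁻¹ that is not conjugate to z; write P for the centralizer of t in Q and suppose that the elements of C acting trivially by conjugation on P modulo the subgroup generated by t and z are exactly the elements of Q. Then the image of P in the centralizer of t modulo the subgroup generated by t is a large extraspecial 2-subgroup there, and g z g⁻¹ is conjugate to z inside the subgroup generated by P and the centralizer of t in g Q g⁻¹. -/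
theorem result {G : Type*} [Group G] [Finite G] (z : G) (hz : orderOf z = 2) (Q : Subgroup G) (hQC : Q ≤ Subgroup.centralizer ({z} : Set G)) (hF : (Cfsg.generalizedFittingSubgroup ↥(Subgroup.centralizer ({z} : Set G))).map (Subgroup.centralizer ({z} : Set G)).subtype = Q) (hQ : Cfsg.IsExtraspecial 2 ↥Q) (w : ℕ) (hw : 3 ≤ w) (hcard : Nat.card ↥Q = 2 ^ (2 * w + 1)) (g : G) (hgQ : g * z * g⁻¹ ∈ Q) (hgZ : g * z * g⁻¹ ∉ ((Subgroup.center ↥Q).map Q.subtype)) (t : G) (ht : orderOf t = 2) (htQ : t ∈ Q ⊓ (Q).map (MulAut.conj g).toMonoidHom) (htz : ¬ IsConj z t) (P : Subgroup G) (hP : P = Q ⊓ Subgroup.centralizer ({t} : Set G)) (hCP : ∀ c ∈ Subgroup.centralizer ({z} : Set G), (∀ x ∈ P, ∃ y ∈ Subgroup.closure ({t, z} : Set G), c * x * c⁻¹ = x * y) ↔ c ∈ Q) [hn : ((Subgroup.zpowers t).subgroupOf (Subgroup.centralizer ({t} : Set G))).Normal] : Cfsg.IsLargeExtraspecial ((P.subgroupOf (Subgroup.centralizer ({t} : Set G))).map (QuotientGroup.mk' ((Subgroup.zpowers t).subgroupOf (Subgroup.centralizer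 ({t} : Set G))))) ∧ ∃ x ∈ P ⊔ ((Q).map (MulAut.conj g).toMonoidHom ⊓ Subgroup.centralizer ({t} : Set G)), x * (g * z * g⁻¹) * x⁻¹ = z := by
  have h := H95.L3_of_fStar hz hF hQ
  have hc : 8 < Nat.card Q := by
    rw [hcard]
    calc 8 < 2 ^ 7 := by norm_num
      _ ≤ _ := Nat.pow_le_pow_right (by norm_num) (by omega)
  have hne : g * z * g⁻¹ ≠ z := fun e => hgZ (by rw [h.center_eq, e]; exact Subgroup.mem_zpowers z)
  have p := h.pair hc hgQ hne
  have ht1 := H95.ne_one_of_orderOf_eq_two ht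
  have htt := H95.mul_self_of_orderOf_eq_two ht
  obtain ⟨x, hx, ex⟩ := p.exists_conj_cent (H95.isConj_of_conj rfl) htQ ht1 htz
  subst hP
  refine ⟨?_, x, hx, ex⟩
  have hL := h.quot_invol hc htQ.1 ht1 htt htz (by
    intro c hcz _ hx
    refine (hCP c (H95.mem_cent_iff.2 hcz)).1 fun x hx' => ?_
    rcases hx x hx'.1 (H95.mem_cent_iff.1 hx'.2) with e | e
    · exact ⟨1, one_mem _, by rw [e, mul_one]⟩
    · exact ⟨t, Subgroup.subset_closure (by simp), e⟩)
  have hxt : x ∈ Subgroup.centralizer ({t} : Set G) := (sup_le inf_le_right inf_le_right :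
    _ ≤ Subgroup.centralizer ({t} : Set G)) hx
  have hst : g * z * g⁻¹ ∈ Subgroup.centralizer ({t} : Set G) :=
    H95.mem_cent_iff.2 (p.h'.central t htQ.2).symm
  have hcd := H95.card_quot_invol (P := Q ⊓ Subgroup.centralizer ({t} : Set G)) inf_le_right
    ⟨htQ.1, H95.self_mem_cent t⟩ ht
  have hc2 := h.card_centralizer htQ.1 ht1 (by rintro rfl; exact htz (IsConj.refl _))
  have e : (QuotientGroup.mk' ((Subgroup.zpowers t).subgroupOf (Subgroup.centralizer ({t} : Set G)))
      ⟨x, hxt⟩)⁻¹ * QuotientGroup.mk' _ ⟨z, H95.mem_cent_iff.2 (h.central t htQ.1).symm⟩ *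
      (QuotientGroup.mk' _ ⟨x, hxt⟩)⁻¹⁻¹ = QuotientGroup.mk' _ ⟨_, hst⟩ := by
    rw [inv_inv, ← map_inv, ← map_mul, ← map_mul]
    congr 1
    apply Subtype.ext
    simp only [Subgroup.coe_mul, Subgroup.coe_inv]
    calc x⁻¹ * z * x = x⁻¹ * (x * (g * z * g⁻¹) * x⁻¹) * x := by rw [ex]
      _ = _ := by group
  refine hL.isLarge_of_conj_mem ?_ (g := (QuotientGroup.mk' _ ⟨x, hxt⟩)⁻¹) ?_ ?_
  · have : 2 ^ 7 ≤ Nat.card Q := by
      rw [hcard]; exact Nat.pow_le_pow_right (by norm_num) (by omega)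
    omega
  · rw [e]; exact ⟨_, ⟨hgQ, hst⟩, rfl⟩
  · rw [e, Ne, eq_comm, H95.quot_eq_iff, H95.mem_zpowers_iff_of_sq htt]
    rintro (f | f)
    · exact hne (inv_mul_eq_one.1 f).symm
    · apply h.toES.not_isConj_mul htQ.1 ht1 htz
      refine H95.isConj_of_conj (g := g) ?_
      rw [h.central t htQ.1, ← f]; group


end Cfsg.Agent.S5429
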