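import Mathlib
import Cfsg.Agent.Lib.LargeExtra.Pair
import Cfsg.Statements.S5430
-- import your own Cfsg.Agent.* helpers here

set_option autoImplicit false
open Cfsg

namespace Cfsg.Agent.S5430


/-- Let Q be a large extraspecial 2-subgroup of the finite group G (extraspecial; centralizer equal to its centre; normal in the centralizer of its centre; normalizing no non-trivial subgroup of odd order) with centre generated by z, an involution, of width w ≥ 2 (order 2^(2w+1)); let g be an element outside the centralizer H of z with g z g⁻¹ in Q; write V for the subgroup generated by z and g z g⁻¹, X for the subgroup generated by Q and g Q g⁻¹, R for the subgroup generated by the centralizer of z in g Q g⁻¹ and the centralizer of g z g⁻¹ in Q, and E for the intersection of Q and g Q g⁻¹. Then R is the centralizer of V in X and is the largest normal 2-subgroup of X, and X/R is isomorphic to the symmetric group of degree 3; moreover the normalizer of V is the product of X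 and the centralizer of V in H, X is normal in it, and modulo R it is the direct product of X/R and of the centralizer of V in H modulo R. -/
theorem result {G : Type*} [Group G] [Finite G] (Q : Subgroup G) (hQ : Cfsg.IsLargeExtraspecial Q) (z : G) (hz : ((Subgroup.center ↥Q).map Q.subtype) = Subgroup.zpowers z) (hz2 : orderOf z = 2) (w : ℕ) (hw : 2 ≤ w) (hcard : Nat.card ↥Q = 2 ^ (2 * w + 1)) (g : G) (hgH : g ∉ Subgroup.centralizer ({z} : Set G)) (hgQ : g * z * g⁻¹ ∈ Q) (V X R E : Subgroup G) (hV : V = Subgroup.closure ({z, g * z * g⁻¹} : Set G)) (hX : X = Q ⊔ (Q).map (MulAut.conj g).toMonoidHom) (hR : R = ((Q).map (MulAut.conj g).toMonoidHom ⊓ Subgroup.centralizer ({z} : Set G)) ⊔ (Q ⊓ Subgroup.centralizer ({g * z * g⁻¹} : Set G))) (hE : E = Q ⊓ (Q).map (MulAut.conj g).toMonoidHom) : R = X ⊓ Subgroup.centralizer (V : Set G) ∧ R = (Cfsg.pCore 2 ↥X).map X.subtype ∧ (∃ h : (R.subgroupOf X).Normal, Nonempty (↥X ⧸ R.subgroupOf X ≃* Equiv.Perm (Fin 3))) ∧ Subgroup.normalizer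 (V : Set G) = X ⊔ (Subgroup.centralizer ({z} : Set G) ⊓ Subgroup.centralizer (V : Set G)) ∧ (∀ y ∈ Subgroup.normalizer (V : Set G), ∀ x ∈ X, y * x * y⁻¹ ∈ X) ∧ R ≤ Subgroup.centralizer ({z} : Set G) ⊓ Subgroup.centralizer (V : Set G) ∧ (∀ x ∈ X, ∀ c ∈ Subgroup.centralizer ({z} : Set G) ⊓ Subgroup.centralizer (V : Set G), x * c * x⁻¹ * c⁻¹ ∈ R) ∧ X ⊓ (Subgroup.centralizer ({z} : Set G) ⊓ Subgroup.centralizer (V : Set G)) = R := by
  have h := H95.L3_of_large hQ hz
  have hc : 8 < Nat.card Q := by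
    rw [hcard]
    calc 8 < 2 ^ (2 * 2 + 1) := by norm_num
      _ ≤ _ := Nat.pow_le_pow_right two_pos (by omega)
  have hne : g * z * g⁻¹ ≠ z := fun e => hgH (H95.mem_cent_iff.2 (mul_inv_eq_iff_eq_mul.1 e))
  have p := h.pair hc hgQ hne
  generalize Q.map (MulAut.conj g).toMonoidHom = Q' at *
  generalize g * z * g⁻¹ = s at *
  subst hV hX hR hE
  obtain ⟨θ, h1, h2, h3⟩ := p.exists_hom
  have hN := p.X_le_normalizer_V
  have eR : (Q' ⊓ Subgroup.centralizer ({z} : Set G)) ⊔ (Q ⊓ Subgroup.centralizer ({s} : Set G)) =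
      (Q ⊔ Q') ⊓ Subgroup.centralizer ((Subgroup.closure ({z, s} : Set G) : Subgroup G) : Set G) :=
    le_antisymm (le_inf H95.Pair.R_le_X p.R_le_centralizer) fun x hx =>
      h3 ⟨x, hN hx.1⟩ ((h1 _).2 hx.2) hx.1
  have eC : Subgroup.centralizer ({z} : Set G) ⊓
      Subgroup.centralizer ((Subgroup.closure ({z, s} : Set G) : Subgroup G) : Set G) =
      Subgroup.centralizer ((Subgroup.closure ({z, s} : Set G) : Subgroup G) : Set G) :=
    inf_eq_right.2 fun x hx => H95.mem_cent_iff.2 (H95.mem_centralizer_closure_pair.1 hx).1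
  rw [eC]
  have hn := Subgroup.normal_subgroupOf_of_le_normalizer p.X_le_normalizer_R
  let θ' : ↥(Q ⊔ Q') →* Equiv.Perm (Fin 3) := θ.comp (Subgroup.inclusion hN)
  have hs : Function.Surjective θ' := fun σ => by
    obtain ⟨x, e, hx⟩ := h2 σ
    exact ⟨⟨x, hx⟩, e⟩
  have hk : θ'.ker = ((Q' ⊓ Subgroup.centralizer ({z} : Set G)) ⊔
      (Q ⊓ Subgroup.centralizer ({s} : Set G))).subgroupOf (Q ⊔ Q') := by
    ext x
    exact ⟨fun hx => h3 _ hx x.2, fun hx => (h1 _).2 (p.R_le_centralizer hx)⟩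
  have hCX : Subgroup.centralizer ((Subgroup.closure ({z, s} : Set G) : Subgroup G) : Set G) ≤
      Subgroup.normalizer ((Q ⊔ Q' : Subgroup G) : Set G) := by
    intro c hc'
    obtain ⟨c1, c2⟩ := H95.mem_centralizer_closure_pair.1 hc'
    exact Subgroup.normalizer_inf_normalizer_le_normalizer_sup _ _ ⟨p.h.norm c c1, p.h'.norm c c2⟩
  have eN : Subgroup.normalizer ((Subgroup.closure ({z, s} : Set G) : Subgroup G) : Set G) =
      (Q ⊔ Q') ⊔ Subgroup.centralizer ((Subgroup.closure ({z, s} : Set G) : Subgroup G) : Set G) := by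
    refine le_antisymm (fun n hn' => ?_) (sup_le hN (Subgroup.centralizer_le_normalizer _))
    obtain ⟨x, e, hx⟩ := h2 (θ ⟨n, hn'⟩)
    have : θ (x⁻¹ * ⟨n, hn'⟩) = 1 := by rw [map_mul, map_inv, e, inv_mul_cancel]
    have := mul_mem (Subgroup.mem_sup_left hx) (Subgroup.mem_sup_right (S := Q ⊔ Q') ((h1 _).1 this))
    simpa using this
  refine ⟨eR, ?_, ⟨hn, ⟨(QuotientGroup.quotientMulEquivOfEq hk.symm).trans
    (QuotientGroup.quotientKerEquivOfSurjective θ' hs)⟩⟩, eN, ?_, p.R_le_centralizer, ?_, eR.symm⟩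
  · apply le_antisymm
    · intro x hx
      refine ⟨⟨x, H95.Pair.R_le_X hx⟩, H1.le_pCore (N := Subgroup.subgroupOf _ _)
        p.isPGroup_R.comap_subtype hx, rfl⟩
    · rintro _ ⟨x, hx, rfl⟩
      have := (Cfsg.pCore_normal 2 ↥(Q ⊔ Q')).map θ' hs
      have e := H95.perm3_normal_two (K := (pCore 2 ↥(Q ⊔ Q')).map θ') (H1.isPGroup_pCore.map _)
      have : x ∈ θ'.ker := by
        have : θ' x ∈ (pCore 2 ↥(Q ⊔ Q')).map θ' := ⟨x, hx, rfl⟩
        rwa [e] at this
      rwa [hk] at this
  · intro y hy x hx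
    rw [eN] at hy
    exact H95.conj_mem_of_normalizer (sup_le Subgroup.le_normalizer hCX hy) hx
  · intro x hx c hc'
    rw [eR]
    refine ⟨?_, Subgroup.mul_mem _ (H95.Pair.conj_mem_cent_V (hN hx) hc') (Subgroup.inv_mem _ hc')⟩
    have := Subgroup.mul_mem _ hx (H95.conj_mem_of_normalizer (hCX hc') (Subgroup.inv_mem _ hx))
    simpa [mul_assoc] using this

end Cfsg.Agent.S5430
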