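import Mathlib
import Cfsg.Agent.Lib.LargeExtra.Pair
import Cfsg.Statements.S5431
-- import your own Cfsg.Agent.* helpers here

set_option autoImplicit false
open Cfsg

namespace Cfsg.Agent.S5431


/-- Let Q be a large extraspecial 2-subgroup of the finite group G (extraspecial; centralizer equal to its centre; normal in the centralizer of its centre; normalizing no non-trivial subgroup of odd order) with centre generated by z, an involution, of width w ≥ 2 (order 2^(2w+1)); let g be an element outside the centralizer H of z with g z g⁻¹ in Q; write V for the subgroup generated by z and g z g⁻¹, X for the subgroup generated by Q and g Q g⁻¹, R for the subgroup generated by the centralizer of z in g Q g⁻¹ and the centralizer of g z g⁻¹ in Q, and E for the intersection of Q and g Q g⁻¹. Then V is the centre of R, E lies in the second centre of R, R is nilpotent of class at most 3, E and R/E are elementary abelian, R/E is the direct product of the images of the centralizer of g z g⁻¹ in Q and of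 the centralizer of z in g Q g⁻¹ (R is their product and they meet in E), and the commutator subgroup of X and E lies in V. -/
theorem result {G : Type*} [Group G] [Finite G] (Q : Subgroup G) (hQ : Cfsg.IsLargeExtraspecial Q) (z : G) (hz : ((Subgroup.center ↥Q).map Q.subtype) = Subgroup.zpowers z) (hz2 : orderOf z = 2) (w : ℕ) (hw : 2 ≤ w) (hcard : Nat.card ↥Q = 2 ^ (2 * w + 1)) (g : G) (hgH : g ∉ Subgroup.centralizer ({z} : Set G)) (hgQ : g * z * g⁻¹ ∈ Q) (V X R E : Subgroup G) (hV : V = Subgroup.closure ({z, g * z * g⁻¹} : Set G)) (hX : X = Q ⊔ (Q).map (MulAut.conj g).toMonoidHom) (hR : R = ((Q).map (MulAut.conj g).toMonoidHom ⊓ Subgroup.centralizer ({z} : Set G)) ⊔ (Q ⊓ Subgroup.centralizer ({g * z * g⁻¹} : Set G))) (hE : E = Q ⊓ (Q).map (MulAut.conj g).toMonoidHom) : (Subgroup.center ↥R).map R.subtype = V ∧ E ≤ (Subgroup.upperCentralSeries ↥R 2).map R.subtype ∧ Subgroup.upperCentralSeries ↥R 3 = ⊤ ∧ Cfsg.IsElementaryAbelian 2 E ∧ (∀ x ∈ R, ∀ y ∈ R, x * y * x⁻¹ * y⁻¹ ∈ E ∧ x ^ 2 ∈ E) ∧ ((Q).map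 (MulAut.conj g).toMonoidHom ⊓ Subgroup.centralizer ({z} : Set G)) ⊓ (Q ⊓ Subgroup.centralizer ({g * z * g⁻¹} : Set G)) = E ∧ ⁅X, E⁆ ≤ V := by
  have h := H95.L3_of_large hQ hz
  have hc : 8 < Nat.card Q := by
    rw [hcard]
    calc 8 < 2 ^ (2 * 2 + 1) := by norm_num
      _ ≤ _ := Nat.pow_le_pow_right two_pos (by omega)
  have hne : g * z * g⁻¹ ≠ z := fun e => hgH (H95.mem_cent_iff.2 (mul_inv_eq_iff_eq_mul.1 e))
  have p := h.pair hc hgQ hne
  generalize Q.map (MulAut.conj g).toMonoidHom = Q' at *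
  generalize g * z * g⁻¹ = s at *
  subst hV hX hR hE
  have eZ : (Subgroup.center ↥((Q' ⊓ Subgroup.centralizer ({z} : Set G)) ⊔
      (Q ⊓ Subgroup.centralizer ({s} : Set G)))).map (Subgroup.subtype _) =
      Subgroup.closure ({z, s} : Set G) := by
    ext x
    rw [H95.mem_center_map_iff]
    constructor
    · rintro ⟨h1, h2⟩
      refine p.mem_V_of_centralizes (H95.mem_centralizer_closure_pair.1 (p.R_le_centralizer h1)).1 ?_
      intro a ha e
      exact h2 a (Subgroup.mem_sup_right ⟨ha, H95.mem_cent_iff.2 e⟩)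
    · intro hx
      exact ⟨p.E_le_R (p.V_le_E hx), fun y hy =>
        (Subgroup.mem_centralizer_iff.1 (p.R_le_centralizer hy) x hx).symm⟩
  have e2 : ∀ x : ↥((Q' ⊓ Subgroup.centralizer ({z} : Set G)) ⊔
      (Q ⊓ Subgroup.centralizer ({s} : Set G))), (x : G) ∈ Q ⊓ Q' →
      x ∈ Subgroup.upperCentralSeries _ 2 := by
    intro x hx
    rw [Subgroup.mem_upperCentralSeries_succ_iff]
    intro y
    rw [Subgroup.upperCentralSeries_one]
    have := Subgroup.inv_mem _ (p.commutator_X_E (H95.Pair.R_le_X y.2) hx)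
    rw [← eZ] at this
    obtain ⟨c, hc1, hc2⟩ := this
    have : x * y * x⁻¹ * y⁻¹ = c := by
      apply Subtype.ext
      rw [show (c : G) = _ from hc2]
      simp [mul_assoc]
    rw [commutatorElement_def, this]
    exact hc1
  refine ⟨eZ, fun x hx => ⟨⟨x, p.E_le_R hx⟩, e2 _ hx, rfl⟩, ?_, ⟨⟨⟨fun a b => ?_⟩⟩, fun a ha => ?_⟩,
    fun x hx y hy => ⟨p.commutator_mem_E hx hy, by rw [pow_two]; exact p.sq_mem_E hx⟩, p.inf_eq_E, ?_⟩
  · rw [eq_top_iff]
    intro x _
    rw [Subgroup.mem_upperCentralSeries_succ_iff]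
    intro y
    exact e2 _ (p.commutator_mem_E x.2 y.2)
  · apply Subtype.ext
    have e1 := inv_eq_of_mul_eq_one_right (p.E_elementary a.2)
    have e2 := inv_eq_of_mul_eq_one_right (p.E_elementary b.2)
    have e3 := inv_eq_of_mul_eq_one_right (p.E_elementary (a * b).2)
    rw [← e3]
    simp [e1, e2]
  · rw [pow_two]; exact p.E_elementary ha
  · rw [Subgroup.commutator_le]
    exact fun x hx e he => p.commutator_X_E hx he

end Cfsg.Agent.S5431
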