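import Mathlib
import Cfsg.Agent.Lib.LargeExtra.Out
import Cfsg.Statements.S5432
-- import your own Cfsg.Agent.* helpers here

set_option autoImplicit false
open Cfsg

namespace Cfsg.Agent.S5432


/-- Let E be an extraspecial 2-group of order 2^(2n+1), n ≥ 1. If E contains an elementary abelian subgroup of order 2^(n+1) (plus type), then its outer automorphism group is isomorphic to the full isometry group of the hyperbolic quadratic form in dimension 2n over the field with two elements; otherwise (minus type) it is isomorphic to the full isometry group of the elliptic quadratic form in dimension 2n over that field. -/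
theorem result {E : Type*} [Group E] [Finite E] (hE : Cfsg.IsExtraspecial 2 E) (n : ℕ) (hn : 1 ≤ n) (hcard : Nat.card E = 2 ^ (2 * n + 1)) : ((∃ A : Subgroup E, Cfsg.IsElementaryAbelian 2 A ∧ Nat.card ↥A = 2 ^ (n + 1)) → Nonempty (Cfsg.Out E ≃* Cfsg.isometryGroup (ZMod 2) (Cfsg.quadFormPlus n (ZMod 2)))) ∧ ((¬ ∃ A : Subgroup E, Cfsg.IsElementaryAbelian 2 A ∧ Nat.card ↥A = 2 ^ (n + 1)) → Nonempty (Cfsg.Out E ≃* Cfsg.isometryGroup (ZMod 2) (Cfsg.quadFormMinus (n - 1) (ZMod 2) 1 1))) := by
  obtain ⟨z, hz, V, _, _, _, P, m', hq, -, hV, hcV, hc⟩ := H95.exists_pres_of_extraspecial hE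
  obtain rfl : n = m' := by
    have := Nat.pow_right_injective le_rfl (hcard.symm.trans hc)
    omega
  rw [← P.isPlusType_iff hq hV]
  constructor
  · intro h
    obtain ⟨Φ, hΦ⟩ := h.exists_equiv hq hV
    have := (P.map Φ.symm).out_equiv hz
    rwa [show ⇑(P.map Φ.symm).q = _ from funext hΦ] at this
  · intro h
    obtain ⟨-, Φ, hΦ⟩ := H66.exists_equiv_of_not_isPlusType h hq hV H95.aniso_one_one
    have := (P.map Φ.symm).out_equiv hz
    rwa [show ⇑(P.map Φ.symm).q = _ from funext hΦ] at this


end Cfsg.Agent.S5432
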