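import Mathlib
import Cfsg.Agent.Lib.LargeExtra.Odd
import Cfsg.Statements.S5434
-- import your own Cfsg.Agent.* helpers here

set_option autoImplicit false
open Cfsg

namespace Cfsg.Agent.S5434


/-- Let Q be a large extraspecial 2-subgroup of the finite group G (extraspecial; centralizer equal to its centre; normal in the centralizer of its centre; normalizing no non-trivial subgroup of odd order), and A a non-trivial subgroup of odd order of the normalizer of Q. Then Q is the central product of the centralizer of A in Q and the commutator subgroup [Q, A] (they generate Q and commute elementwise), [Q, A] is extraspecial, and the centralizer of A in Q is either the centre of Q or extraspecial. -/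
theorem result {G : Type*} [Group G] [Finite G] (Q : Subgroup G) (hQ : Cfsg.IsLargeExtraspecial Q) (A : Subgroup G) (hA : A ≤ Subgroup.normalizer (Q : Set G)) (hAodd : Odd (Nat.card ↥A)) (hA1 : A ≠ ⊥) : (Q ⊓ Subgroup.centralizer (A : Set G)) ⊔ ⁅Q, A⁆ = Q ∧ (∀ x ∈ Q ⊓ Subgroup.centralizer (A : Set G), ∀ y ∈ ⁅Q, A⁆, x * y = y * x) ∧ Cfsg.IsExtraspecial 2 ↥⁅Q, A⁆ ∧ (Q ⊓ Subgroup.centralizer (A : Set G) = ((Subgroup.center ↥Q).map Q.subtype) ∨ Cfsg.IsExtraspecial 2 ↥(Q ⊓ Subgroup.centralizer (A : Set G))) := by
  obtain ⟨z, h⟩ := H95.exists_L3 hQ.1 hQ.2.1 hQ.2.2.1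
  refine ⟨le_antisymm (sup_le inf_le_left (H95.ES.commutator_le_self hA)) fun x hx => ?_,
    h.commute_cent_commutator hA, ?_, ?_⟩
  · obtain ⟨c, hc, n, hn, rfl⟩ := h.exists_cent_mul_commutator hA hAodd hx
    exact Subgroup.mul_mem _ (Subgroup.mem_sup_left hc) (Subgroup.mem_sup_right hn)
  · refine ((h.commutator_odd hA hAodd).resolve_left fun e => hA1 (eq_bot_iff.2 fun a ha => ?_)).isExtraspecial
    have := h.cent a fun x hx => (Subgroup.mem_centralizer_iff.1 (e hx) a ha).symm
    refine H95.eq_one_of_odd_of_isPGroup hAodd h.isPGroup ha ?_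
    rcases this with rfl | rfl
    exacts [one_mem _, h.mem]
  · rw [h.center_eq]
    exact (h.cent_odd hA hAodd).imp_right fun e => e.isExtraspecial


end Cfsg.Agent.S5434
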