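import Cfsg.Statements.S5435
import Cfsg.Agent.Lib.LEx73.SmallFr

set_option autoImplicit false
open Cfsg Subgroup H95 H73.LX

namespace Cfsg.Agent.S5435

/-- Let L be a finite non-abelian simple group with an involution z whose centralizer R is a Sylow 2-subgroup of L whose Frattini subgroup is the subgroup generated by z. Then R is dihedral of order 8. -/
theorem result {L : Type*} [Group L] [Finite L] [IsSimpleGroup L] (hL : ¬ IsMulCommutative L) (z : L) (hz : orderOf z = 2) (R : Sylow 2 L) (hR : (R : Subgroup L) = Subgroup.centralizer ({z} : Set L)) (hΦ : (frattini ↥(R : Subgroup L)).map (R : Subgroup L).subtype = Subgroup.zpowers z) : Nonempty (↥(R : Subgroup L) ≃* DihedralGroup 4) := by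
  have hzz := mul_self_of_orderOf_eq_two hz
  have h1 := ne_one_of_orderOf_eq_two hz
  have hsq : ∀ x, x * z = z * x → x * x = 1 ∨ x * x = z := by
    intro x hx
    have hx' : x ∈ (R : Subgroup L) := by rw [hR]; exact mem_cent_iff.2 hx
    have := H5.pow_mem_map_frattini (p := 2) R.isPGroup' hx'
    rwa [hΦ, mem_zpowers_iff_of_sq hzz, pow_two] at this
  have h : SF z := by
    refine ⟨h1, hzz, ⟨R, hR⟩, hsq, ?_⟩
    by_contra hno
    push Not at hno
    have : frattini (R : Subgroup L) ≤ ⊥ := by
      rw [H5.frattini_eq_closure_sq R.isPGroup', closure_le]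
      rintro _ ⟨x, rfl⟩
      have hx : (x : L) * z = z * x := mem_cent_iff.1 (hR.le x.2)
      rcases hsq x hx with e | e
      · exact Subtype.ext (by simpa [pow_two] using e)
      · exact absurd e (hno x hx)
    have hz' : z ∈ zpowers z := mem_zpowers z
    rw [← hΦ, le_bot_iff.1 this, Subgroup.map_bot] at hz'
    exact h1 (mem_bot.1 hz')
  rw [hR]
  exact h.main hL

end Cfsg.Agent.S5435
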