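import Cfsg.Statements.S5436
import Cfsg.Agent.Lib.LEx73.Simple

set_option autoImplicit false
open Cfsg Subgroup H95 H73.LX

namespace Cfsg.Agent.S5436

/-- Let z be an involution of the finite group G with centralizer H whose generalized Fitting subgroup Q is extraspecial of width at least 2 (order 2^(2w+1), w ≥ 2); suppose some conjugate of z other than z lies in Q, H/Q is a non-abelian simple group, H acts irreducibly by conjugation on Q modulo the subgroup generated by z (the only H-invariant subgroups of Q containing z are that subgroup and Q), and Q is not the subgroup generated by the conjugates of z lying in H. Then G is simple. -/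
theorem result {G : Type*} [Group G] [Finite G] (z : G) (hz : orderOf z = 2) (Q : Subgroup (Subgroup.centralizer ({z} : Set G))) [Q.Normal] (hF : Cfsg.generalizedFittingSubgroup ↥(Subgroup.centralizer ({z} : Set G)) = Q) (hQ : Cfsg.IsExtraspecial 2 ↥Q) (w : ℕ) (hw : 2 ≤ w) (hcard : Nat.card ↥Q = 2 ^ (2 * w + 1)) (hnwc : ∃ g : G, (∃ hq : g * z * g⁻¹ ∈ Subgroup.centralizer ({z} : Set G), (⟨g * z * g⁻¹, hq⟩ : Subgroup.centralizer ({z} : Set G)) ∈ Q) ∧ g * z * g⁻¹ ≠ z) (hsimp : IsSimpleGroup (↥(Subgroup.centralizer ({z} : Set G)) ⧸ Q)) (hna : ¬ IsMulCommutative (↥(Subgroup.centralizer ({z} : Set G)) ⧸ Q)) (hirr : ∀ W : Subgroup (Subgroup.centralizer ({z} : Set G)), W.Normal → W ≤ Q → (W = Q ∨ ∀ x ∈ W, (x : G) ∈ Subgroup.zpowers z)) (hwcl : Subgroup.closure {x : Subgroup.centralizer ({z} : Set G) | IsConj z (x : G)} ≠ Q) : IsSimpleGroup G := by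
  have h := L3_of_fStar' hz hF hQ
  obtain ⟨g, ⟨hq, hgQ⟩, hne⟩ := hnwc
  have hl : IsLargeExtraspecial (Q.map (centralizer ({z} : Set G)).subtype) :=
    h.isLarge_of_conj_mem (eight_lt hw ((card_map_cent Q).trans hcard)) (g := g)
      ⟨⟨_, hq⟩, hgQ, rfl⟩ hne
  refine simple_of_cent_le h hl (by rw [hF]) ?_
  set W := closure {x : centralizer ({z} : Set G) | IsConj z (x : G)} with hW
  have hWn : W.Normal := by
    constructor
    intro n hn c
    have : W ≤ W.comap (MulAut.conj c).toMonoidHom := by
      rw [hW, closure_le]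
      intro x hx
      apply Subgroup.subset_closure
      exact IsConj.trans hx (isConj_iff.2 ⟨c, rfl⟩)
    exact this hn
  have hQW : Q ≤ W := by
    rcases hirr (W ⊓ Q) inferInstance inf_le_right with e | e
    · exact inf_eq_right.1 e
    · exfalso
      have := e ⟨_, hq⟩ ⟨Subgroup.subset_closure (isConj_iff.2 ⟨g, rfl⟩), hgQ⟩
      rcases h.mem_zpowers.1 this with e1 | e1
      · apply h.ne_one
        have e2 : g * z * g⁻¹ = 1 := e1
        calc z = g⁻¹ * (g * z * g⁻¹) * g := by group
          _ = 1 := by rw [e2]; group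
      · exact hne e1
  have hWt : W = ⊤ := by
    rcases (hWn.map (QuotientGroup.mk' Q) (QuotientGroup.mk'_surjective Q)).eq_bot_or_eq_top
      with e | e
    · exfalso
      rw [Subgroup.map_eq_bot_iff, QuotientGroup.ker_mk'] at e
      exact hwcl (le_antisymm e hQW)
    · have := comap_map_eq_self (f := QuotientGroup.mk' Q) (H := W)
        (by rw [QuotientGroup.ker_mk']; exact hQW)
      rw [← this, e, comap_top]
  intro c hc
  have hle : W ≤ (normalClosure ({z} : Set G)).subgroupOf (centralizer ({z} : Set G)) := by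
    rw [hW, closure_le]
    intro x hx
    obtain ⟨k, hk⟩ := isConj_iff.1 hx
    show (x : G) ∈ normalClosure ({z} : Set G)
    rw [← hk]
    exact Subgroup.Normal.conj_mem inferInstance z (subset_normalClosure (Set.mem_singleton z)) k
  exact hle (x := ⟨c, hc⟩) (hWt ▸ mem_top _)

end Cfsg.Agent.S5436
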