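import Mathlib
import Cfsg.Statements.S5438
-- import your own Cfsg.Agent.* helpers here

set_option autoImplicit false
open Cfsg

namespace Cfsg.Agent.S5438

open scoped Pointwise in
theorem exists_conj_mem_sylow {K : Type*} [Group K] [Finite K] {p : ℕ} [Fact p.Prime]
    (S : Subgroup K) (hS : IsPGroup p S) (P : Sylow p K) :
    ∃ k : K, ∀ s ∈ S, k⁻¹ * s * k ∈ (P : Subgroup K) := by
  obtain ⟨Q, hQ⟩ := hS.exists_le_sylow
  obtain ⟨k, hk⟩ := MulAction.exists_smul_eq K P Q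
  refine ⟨k, fun s hs => ?_⟩
  have h1 : s ∈ ((k • P : Sylow p K) : Subgroup K) := by rw [hk]; exact hQ hs
  rw [Sylow.coe_subgroup_smul, Subgroup.mem_pointwise_smul_iff_inv_smul_mem] at h1
  simpa using h1

theorem isPGroup_zpowers {K : Type*} [Group K] {p : ℕ} (x : K) (k : ℕ) (hx : x ^ p ^ k = 1) :
    IsPGroup p (Subgroup.zpowers x) := by
  rintro ⟨y, n, rfl⟩
  refine ⟨k, Subtype.ext ?_⟩
  simp only [SubmonoidClass.coe_pow, OneMemClass.coe_one]
  rw [← zpow_natCast, ← zpow_mul, mul_comm, zpow_mul, zpow_natCast, hx, one_zpow]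

/-- Let z be a 2-central involution of the finite group G (an involution central in some Sylow 2-subgroup) and H a subgroup containing z such that the coset H is the only coset of H fixed by z (in the action of G on the cosets of H). Then H has odd index in G, and for every 2-element x of H the conjugates of x lying in H form a single H-class. -/
theorem result {G : Type*} [Group G] [Finite G] (z : G) (hz : Cfsg.IsTwoCentralInvolution z) (H : Subgroup G) (hzH : z ∈ H) (hfix : ∀ g : G, g⁻¹ * z * g ∈ H → g ∈ H) : Odd H.index ∧ ∀ x ∈ H, (∃ k : ℕ, orderOf x = 2 ^ k) → ∀ g : G, g * x * g⁻¹ ∈ H → ∃ h ∈ H, h * x * h⁻¹ = g * x * g⁻¹ := by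
  have : Fact (Nat.Prime 2) := ⟨Nat.prime_two⟩
  obtain ⟨hz2, P, hzP, hP⟩ := hz
  have hzz : z ^ 2 ^ 1 = 1 := by rw [pow_one, ← hz2]; exact pow_orderOf_eq_one z
  have hPH : (P : Subgroup G) ≤ H := by
    intro x hx
    apply hfix
    rw [mul_assoc, ← hP x hx]; simpa using hzH
  refine ⟨?_, ?_⟩
  · have h1 : H.index ∣ (P : Subgroup G).index := Subgroup.index_dvd_of_le hPH
    have h2 := P.not_dvd_index
    rw [← Nat.not_even_iff_odd, even_iff_two_dvd]
    exact fun h => h2 (h.trans h1)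
  · have A : ∀ x ∈ H, (∃ k : ℕ, x ^ 2 ^ k = 1) → ∃ h ∈ H, (h * z * h⁻¹) * x = x * (h * z * h⁻¹) := by
      rintro x hx ⟨k, hk⟩
      obtain ⟨h, hh⟩ := exists_conj_mem_sylow (K := H) (Subgroup.zpowers ⟨x, hx⟩)
        (isPGroup_zpowers _ k (Subtype.ext (by simpa using hk))) (P.subtype hPH)
      have h1 := hh ⟨x, hx⟩ (Subgroup.mem_zpowers _)
      rw [Sylow.coe_subtype, Subgroup.mem_subgroupOf] at h1
      have h2 := hP _ h1
      simp only [Subgroup.coe_mul, InvMemClass.coe_inv] at h2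
      refine ⟨h, h.2, ?_⟩
      calc (h : G) * z * (h : G)⁻¹ * x = h * (z * ((h : G)⁻¹ * x * h)) * (h : G)⁻¹ := by group
        _ = h * ((h : G)⁻¹ * x * h * z) * (h : G)⁻¹ := by rw [h2]
        _ = _ := by group
    rintro x hx ⟨k, hk⟩ g hg
    have hxk : x ^ 2 ^ k = 1 := by rw [← hk]; exact pow_orderOf_eq_one x
    obtain ⟨h1, hh1, e1⟩ := A x hx ⟨k, hxk⟩
    obtain ⟨h2, hh2, e2⟩ := A _ hg ⟨k, by rw [conj_pow, hxk]; simp⟩
    set C := Subgroup.centralizer ({x} : Set G) with hC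
    have m1 : h1 * z * h1⁻¹ ∈ C := by
      rw [hC, Subgroup.mem_centralizer_iff]
      rintro y rfl
      exact e1.symm
    have m2 : g⁻¹ * (h2 * z * h2⁻¹) * g ∈ C := by
      rw [hC, Subgroup.mem_centralizer_iff]
      rintro y rfl
      calc y * (g⁻¹ * (h2 * z * h2⁻¹) * g) = g⁻¹ * (g * y * g⁻¹ * (h2 * z * h2⁻¹)) * g := by group
        _ = g⁻¹ * (h2 * z * h2⁻¹ * (g * y * g⁻¹)) * g := by rw [e2]
        _ = _ := by group
    have p2 : IsPGroup 2 (Subgroup.zpowers (⟨_, m2⟩ : C)) := by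
      apply isPGroup_zpowers _ 1
      apply Subtype.ext
      have : g⁻¹ * (h2 * z * h2⁻¹) * g = (g⁻¹ * h2) * z * (g⁻¹ * h2)⁻¹ := by group
      simp only [SubmonoidClass.coe_pow, OneMemClass.coe_one]
      rw [this, conj_pow, hzz]; simp
    obtain ⟨S, hS⟩ := p2.exists_le_sylow
    obtain ⟨c, hc⟩ := exists_conj_mem_sylow (Subgroup.zpowers (⟨_, m1⟩ : C))
      (isPGroup_zpowers _ 1 (Subtype.ext (by
        simp only [SubmonoidClass.coe_pow, OneMemClass.coe_one]
        rw [conj_pow, hzz]; simp))) S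
    have hc1 := hc _ (Subgroup.mem_zpowers _)
    have hc2 := hS (Subgroup.mem_zpowers _)
    obtain ⟨u, hu⟩ := exists_conj_mem_sylow ((S : Subgroup C).map C.subtype) (S.2.map _) P
    have u1 := hPH (hu _ ⟨_, hc1, rfl⟩)
    have u2 := hPH (hu _ ⟨_, hc2, rfl⟩)
    simp only [Subgroup.coe_subtype, Subgroup.coe_mul, InvMemClass.coe_inv] at u1 u2
    have v1 : h1⁻¹ * c * u ∈ H := hfix _ (by convert u1 using 1; group)
    have v2 : h2⁻¹ * g * u ∈ H := hfix _ (by convert u2 using 1; group)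
    have hcx : (c : G) * x = x * c := by
      exact (Subgroup.mem_centralizer_iff.1 c.2 x rfl).symm
    refine ⟨g * (c : G)⁻¹, ?_, ?_⟩
    · have := H.mul_mem (H.mul_mem (H.mul_mem hh2 v2) (H.inv_mem v1)) (H.inv_mem hh1)
      convert this using 1; group
    · calc g * (c : G)⁻¹ * x * (g * (c : G)⁻¹)⁻¹ = g * (c : G)⁻¹ * (x * c) * g⁻¹ := by group
        _ = g * (c : G)⁻¹ * (c * x) * g⁻¹ := by rw [hcx]
        _ = _ := by group

end Cfsg.Agent.S5438
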