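import Mathlib
import Cfsg.Statements.S5440
import Cfsg.Agent.Lib.F24T.Frame

set_option autoImplicit false
open Cfsg

namespace Cfsg.Agent.S5440

open H12.F24 H95 H94

/-- Let G be a finite group of large Fischer type at the involution z: the generalized Fitting subgroup Q of H = C_G(z) is extraspecial of order 2^13, H has normal subgroups Q ≤ H₁ ≤ H₂ with H₁/Q of order 3, H₂/H₁ the projective special unitary group of dimension 4 over the field with nine elements and H₂ of index 2 in H, and some conjugate of z other than z lies in Q. Then H has exactly two orbits, under conjugation, on the involutions of Q other than z. -/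
theorem result {G : Type*} [Group G] [Finite G] (z : G) (Q : Subgroup (Subgroup.centralizer ({z} : Set G))) [Q.Normal] (hF : Cfsg.IsOfLargeFischerTypeAt z Q) : ∃ s t : Subgroup.centralizer ({z} : Set G), s ∈ Q ∧ t ∈ Q ∧ orderOf s = 2 ∧ orderOf t = 2 ∧ (s : G) ≠ z ∧ (t : G) ≠ z ∧ (¬ ∃ h : Subgroup.centralizer ({z} : Set G), h * s * h⁻¹ = t) ∧ ∀ x : Subgroup.centralizer ({z} : Set G), x ∈ Q → orderOf x = 2 → (x : G) ≠ z → (∃ h : Subgroup.centralizer ({z} : Set G), h * s * h⁻¹ = x) ∨ ∃ h : Subgroup.centralizer ({z} : Set G), h * t * h⁻¹ = x := by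
  obtain ⟨F, hQ⟩ := exists_frame z Q hF
  have mq : ∀ {x : Subgroup.centralizer ({z} : Set G)}, x ∈ Q ↔ (x : G) ∈ F.Q := fun {x} => by
    rw [hQ]; exact (Subgroup.mem_map_iff_mem (Subgroup.subtype_injective _)).symm
  have od : ∀ v, v ≠ 0 → qv v = 0 → orderOf (⟨F.σ v, mem_cent_iff.2 (F.σ_z v)⟩ :
      Subgroup.centralizer ({z} : Set G)) = 2 := fun v h0 hq =>
    orderOf_eq_two_of (Subtype.ext ((F.σ_sq v).trans (by rw [hq]; rfl))) fun e =>
      h0 (F.σ_eq v (Or.inl (congrArg Subtype.val e)))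
  have h3 := S378_sing vec3_mem
  refine ⟨⟨F.σ (vec 15), mem_cent_iff.2 (F.σ_z _)⟩, ⟨F.σ (vec 3), mem_cent_iff.2 (F.σ_z _)⟩, mq.2 (F.σ_mem _),
    mq.2 (F.σ_mem _), od _ vec15_sing.1 vec15_sing.2, od _ h3.1 h3.2,
    fun e => vec15_sing.1 (F.σ_eq _ (Or.inr e)), fun e => h3.1 (F.σ_eq _ (Or.inr e)), fun ⟨h, e⟩ => ?_,
    fun x hx ho hz => ?_⟩
  · exact (F.cls _ h3.1 h3.2).1 (((F.cls _ vec15_sing.1 vec15_sing.2).2 vec15_not_mem).trans
      (isConj_iff.2 ⟨h, congrArg Subtype.val e⟩)) vec3_mem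
  · obtain ⟨v, a, e⟩ := mq.1 hx
    have hv : v ≠ 0 := fun h => by
      rw [h, F.σ_zero, one_mul] at e
      rcases zp_cases z a with h | h
      exacts [ne_one_of_orderOf_eq_two ho (Subtype.ext (e.trans h)), hz (e.trans h)]
    have hq : qv v = 0 := (zp_eq_one_iff F.z1).1 (by
      rw [← F.elt_sq v a, ← e]; exact congrArg Subtype.val (mul_self_of_orderOf_eq_two ho))
    by_cases h : v ∈ S378
    · obtain ⟨k, hk, rfl⟩ := trans_S378 h
      obtain ⟨c, hc, e'⟩ := F.exists_conj_of_K0 hk h3.1 0 a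
      exact Or.inr ⟨⟨c, mem_cent_iff.2 hc⟩, Subtype.ext (by rw [zp_zero, mul_one, ← e] at e'; exact e')⟩
    · obtain ⟨k, hk, rfl⟩ := trans_S1701 hv hq h
      obtain ⟨c, hc, e'⟩ := F.exists_conj_of_K0 hk vec15_sing.1 0 a
      exact Or.inl ⟨⟨c, mem_cent_iff.2 hc⟩, Subtype.ext (by rw [zp_zero, mul_one, ← e] at e'; exact e')⟩

end Cfsg.Agent.S5440
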