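import Mathlib
import Cfsg.Statements.S5441
import Cfsg.Agent.Lib.F24T.Frame

set_option autoImplicit false
open Cfsg

namespace Cfsg.Agent.S5441

open H12.F24 H95 H94 in
theorem key {G : Type*} [Group G] [Finite G] {z : G} (F : Frame z) {s : G} (hs : s ∈ F.Q) (hc : IsConj z s)
    (h1 : s ≠ z) : ∃ h, h * z = z * h ∧ h * F.σ (vec 15) * h⁻¹ = s := by
  obtain ⟨v, a, rfl⟩ := hs
  obtain ⟨g, hg⟩ := isConj_iff.1 hc
  have hv : v ≠ 0 := fun e => by
    rw [e, F.σ_zero, one_mul] at hg h1
    rcases zp_cases z a with h | h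
    exacts [F.z1 (conj_eq_one_iff.1 (hg.trans h)), h1 h]
  obtain ⟨k, hk, rfl⟩ := trans_S1701 hv
    ((zp_eq_one_iff F.z1).1 ((F.elt_sq v a).symm.trans (F.pair hg hv).h'.sq)) (F.conj_main hg hv).1
  simpa only [zp_zero, mul_one] using F.exists_conj_of_K0 hk vec15_sing.1 0 a

/-- Let G be a finite group of large Fischer type at the involution z: the generalized Fitting subgroup Q of H = C_G(z) is extraspecial of order 2^13, H has normal subgroups Q ≤ H₁ ≤ H₂ with H₁/Q of order 3, H₂/H₁ the projective special unitary group of dimension 4 over the field with nine elements and H₂ of index 2 in H, and some conjugate of z other than z lies in Q. Then the conjugates of z lying in Q and different from z form a single orbit under conjugation by H. -/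
theorem result {G : Type*} [Group G] [Finite G] (z : G) (Q : Subgroup (Subgroup.centralizer ({z} : Set G))) [Q.Normal] (hF : Cfsg.IsOfLargeFischerTypeAt z Q) (s t : G) (hsQ : ∃ hsc : s ∈ Subgroup.centralizer ({z} : Set G), (⟨s, hsc⟩ : Subgroup.centralizer ({z} : Set G)) ∈ Q) (htQ : ∃ htc : t ∈ Subgroup.centralizer ({z} : Set G), (⟨t, htc⟩ : Subgroup.centralizer ({z} : Set G)) ∈ Q) (hs : IsConj z s) (ht : IsConj z t) (hs1 : s ≠ z) (ht1 : t ≠ z) : ∃ h ∈ Subgroup.centralizer ({z} : Set G), h * s * h⁻¹ = t := by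
  obtain ⟨F, hQ⟩ := H12.F24.exists_frame z Q hF
  obtain ⟨a, ha, e⟩ := key F (hQ ▸ H95.mem_map_cent.2 hsQ) hs hs1
  obtain ⟨b, hb, e'⟩ := key F (hQ ▸ H95.mem_map_cent.2 htQ) ht ht1
  exact ⟨b * a⁻¹, mul_mem (H95.mem_cent_iff.2 hb) (inv_mem (H95.mem_cent_iff.2 ha)), by rw [← e, ← e']; group⟩

end Cfsg.Agent.S5441
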