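import Mathlib
import Cfsg.Statements.S5442
import Cfsg.Agent.Lib.F24T.Frame

set_option autoImplicit false
open Cfsg

namespace Cfsg.Agent.S5442

open H12.F24 H95 H94 Subgroup MulAction

theorem elem_of_sq {P : Type*} [Group P] {A : Subgroup P} (h : ∀ a ∈ A, a * a = 1) : IsElementaryAbelian 2 A :=
  ⟨⟨⟨fun a b => Subtype.ext (by
    have := h _ (mul_mem a.2 b.2)
    rw [coe_mul, coe_mul, ← inv_eq_of_mul_eq_one_right this, mul_inv_rev, inv_eq_of_mul_eq_one_right (h _ a.2),
      inv_eq_of_mul_eq_one_right (h _ b.2)])⟩⟩, fun a ha => (pow_two a).trans (h a ha)⟩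

/-- Let G be a finite group of large Fischer type at the involution z: the generalized Fitting subgroup Q of H = C_G(z) is extraspecial of order 2^13, H has normal subgroups Q ≤ H₁ ≤ H₂ with H₁/Q of order 3, H₂/H₁ the projective special unitary group of dimension 4 over the field with nine elements and H₂ of index 2 in H, and some conjugate of z other than z lies in Q. Let s = g z g⁻¹ be a conjugate of z lying in Q and different from z. Then the intersection of Q and g Q g⁻¹ (as subgroups of G) is elementary abelian of order 2^7; and in H/Q, writing X for the image of the centralizer of s in H and E for the image of the intersection of g Q g⁻¹ with H, E is a normal subgroup of X, elementary abelian of order 32, with X/E isomorphic to the alternating group of degree 6. -/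
theorem result {G : Type*} [Group G] [Finite G] (z : G) (Q : Subgroup (Subgroup.centralizer ({z} : Set G))) [Q.Normal] (hF : Cfsg.IsOfLargeFischerTypeAt z Q) (s : G) (hsQ : ∃ hsc : s ∈ Subgroup.centralizer ({z} : Set G), (⟨s, hsc⟩ : Subgroup.centralizer ({z} : Set G)) ∈ Q) (hs : IsConj z s) (hs1 : s ≠ z) (g : G) (hg : g * z * g⁻¹ = s) (X E : Subgroup ((Subgroup.centralizer ({z} : Set G)) ⧸ Q)) (hX : X = ((Subgroup.centralizer ({z} : Set G) ⊓ Subgroup.centralizer ({s} : Set G)).subgroupOf (Subgroup.centralizer ({z} : Set G))).map (QuotientGroup.mk' Q)) (hE : E = ((((Q.map (Subgroup.centralizer ({z} : Set G)).subtype)).map (MulAut.conj g).toMonoidHom ⊓ Subgroup.centralizer ({z} : Set G)).subgroupOf (Subgroup.centralizer ({z} : Set G))).map (QuotientGroup.mk' Q)) : Cfsg.IsElementaryAbelian 2 ((Q.map (Subgroup.centralizer ({z} : Set G)).subtype) ⊓ ((Q.map (Subgroup.centralizer ({z} : Set G)).subtype)).map (MulAut.conj g).toMonoidHom) ∧ Nat.card ↥((Q.map (Subgroup.centralizer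 ({z} : Set G)).subtype) ⊓ ((Q.map (Subgroup.centralizer ({z} : Set G)).subtype)).map (MulAut.conj g).toMonoidHom) = 2 ^ 7 ∧ E ≤ X ∧ (∀ x ∈ X, ∀ y ∈ E, x * y * x⁻¹ ∈ E) ∧ Cfsg.IsElementaryAbelian 2 E ∧ Nat.card E = 32 ∧ ∃ _ : (E.subgroupOf X).Normal, Nonempty (↥X ⧸ E.subgroupOf X ≃* alternatingGroup (Fin 6)) := by
  obtain ⟨F, hQ⟩ := exists_frame z Q hF
  obtain ⟨v, a, rfl⟩ := F.mem_Q.1 (hQ ▸ mem_map_cent.2 hsQ)
  have hv : v ≠ 0 := fun e => by
    rw [e, F.σ_zero, one_mul] at hg hs1
    rcases zp_cases z a with h | h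
    exacts [F.z1 (conj_eq_one_iff.1 (hg.trans h)), hs1 h]
  obtain ⟨hn, c1, c2, hr⟩ := F.conj_main hg hv
  have p := F.pair hg hv
  rw [← hQ] at hE ⊢
  have ker : F.ρ.ker = Q := by
    rw [F.ker_eq, hQ]; exact comap_map_eq_self_of_injective (subtype_injective _) Q
  let r : centralizer ({z} : Set G) ⧸ Q →* AV := QuotientGroup.lift Q F.ρ fun _ h => F.ρ.mem_ker.1 (ker ▸ h)
  have ri : Function.Injective r := (injective_iff_map_eq_one r).2 fun x hx => by
    obtain ⟨c, rfl⟩ := QuotientGroup.mk_surjective x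
    exact (QuotientGroup.eq_one_iff c).2 (ker ▸ F.ρ.mem_ker.2 hx)
  have eX : X.map r = F.ρ.range ⊓ stabilizer AV v := by
    rw [hX, map_map, inf_subgroupOf_left, ← F.img_cent hv a]; rfl
  have eE : E.map r = F.img (F.Q.map (MulAut.conj g).toMonoidHom) := by
    rw [hE, map_map, inf_subgroupOf_right]; rfl
  have mX : ∀ {x}, x ∈ X ↔ r x ∈ F.ρ.range ⊓ stabilizer AV v := by rw [← eX]; exact (mem_map_iff_mem ri).symm
  have mE : ∀ {x}, x ∈ E ↔ r x ∈ F.img (F.Q.map (MulAut.conj g).toMonoidHom) := by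
    rw [← eE]; exact (mem_map_iff_mem ri).symm
  have h1 : E ≤ X := fun x hx => mX.2 (F.img_le hg hv (mE.1 hx))
  have h2 : ∀ x ∈ X, ∀ y ∈ E, x * y * x⁻¹ ∈ E := fun x hx y hy => mE.2 (by
    rw [map_mul, map_mul, map_inv]; exact conj_mem_of_normalizer (F.img_norm hg hv (mX.1 hx)) (mE.1 hy))
  have h3 : Nat.card E = 32 := by rw [← c1, ← eE, card_map_of_injective ri]
  have nE : (E.subgroupOf X).Normal := ⟨fun y hy x => h2 x x.2 y hy⟩
  refine ⟨elem_of_sq fun _ => p.E_elementary, c2, h1, h2,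
    elem_of_sq fun x hx => ri (by rw [map_mul, F.img_sq hg hv _ (mE.1 hx), map_one]), h3, nE, ?_⟩
  obtain ⟨k, hk, rfl⟩ := trans_S1701 hv ((zp_eq_one_iff F.z1).1 ((F.elt_sq v a).symm.trans p.h'.sq)) hn
  have eX' : X.map ((MulAut.conj k⁻¹).toMonoidHom.comp r) = X0 := by
    rw [← map_map, eX, hr]
    ext y
    rw [mem_map_conj, inv_inv, X0, mem_inf, mem_inf, H0.mul_mem_cancel_right (inv_mem (K0_le_H0 hk)),
      H0.mul_mem_cancel_left (K0_le_H0 hk)]
    refine and_congr_right fun _ => ?_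
    show (k * y * k⁻¹) (k (vec 15)) = k (vec 15) ↔ y (vec 15) = vec 15
    rw [AV.mul_apply, AV.inv_apply, AV.mul_apply, EmbeddingLike.apply_eq_iff_eq]
  let e : X ≃* X0 := (X.equivMapOfInjective ((MulAut.conj k⁻¹).toMonoidHom.comp r)
    ((MulAut.conj k⁻¹).injective.comp ri)).trans (MulEquiv.subgroupCongr eX')
  obtain ⟨φ, hφ⟩ := exists_hom_A6
  have hψ : Function.Surjective (φ.comp e.toMonoidHom) := hφ.comp e.surjective
  have cA : Nat.card (alternatingGroup (Fin 6)) = 360 := by rw [nat_card_alternatingGroup]; simp [Nat.factorial]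
  have cE : Nat.card (E.subgroupOf X) = 32 := by rw [Nat.card_congr (subgroupOfEquivOfLe h1).toEquiv, h3]
  have := alternatingGroup.isSimpleGroup (α := Fin 6) (by simp)
  have hk : (φ.comp e.toMonoidHom).ker = E.subgroupOf X := by
    refine H54.ker_eq_of_card _ hψ ?_ (by rw [cE, cA, Nat.card_congr e.toEquiv, card_X0])
    rcases (nE.map _ hψ).eq_bot_or_eq_top with h | h
    · exact (Subgroup.map_eq_bot_iff _).1 h
    · have := card_map_dvd (E.subgroupOf X) (φ.comp e.toMonoidHom)
      rw [h, card_top, cA, cE] at this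
      exact absurd this (by norm_num)
  exact ⟨(QuotientGroup.quotientMulEquivOfEq hk.symm).trans (QuotientGroup.quotientKerEquivOfSurjective _ hψ)⟩

end Cfsg.Agent.S5442
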