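import Cfsg.Statements.S5444
import Mathlib
import Cfsg.Agent.Lib.F24T.B1R

set_option autoImplicit false
open Cfsg

namespace Cfsg.Agent.S5444

/-- Let G be a finite group of large Fischer type at the involution z: the generalized Fitting subgroup Q of H = C_G(z) is extraspecial of order 2^13, H has normal subgroups Q ≤ H₁ ≤ H₂ with H₁/Q of order 3, H₂/H₁ the projective special unitary group of dimension 4 over the field with nine elements and H₂ of index 2 in H, and some conjugate of z other than z lies in Q. Let T be a Sylow 2-subgroup of H. Then T has exactly one elementary abelian subgroup A of largest order; A has order 2^11, it meets Q in a subgroup of order 2^7, and its image in H/Q has order 16. -/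
theorem result {G : Type*} [Group G] [Finite G] (z : G) (Q : Subgroup (Subgroup.centralizer ({z} : Set G))) [Q.Normal] (hF : Cfsg.IsOfLargeFischerTypeAt z Q) (T : Sylow 2 ↥(Subgroup.centralizer ({z} : Set G))) : ∃ A : Subgroup ↥(T : Subgroup (Subgroup.centralizer ({z} : Set G))), Cfsg.maxElementaryAbelianSubgroups 2 ↥(T : Subgroup (Subgroup.centralizer ({z} : Set G))) = {A} ∧ Nat.card A = 2 ^ 11 ∧ Nat.card ↥(A.map (T : Subgroup (Subgroup.centralizer ({z} : Set G))).subtype ⊓ Q) = 2 ^ 7 ∧ Nat.card ↥((A.map (T : Subgroup (Subgroup.centralizer ({z} : Set G))).subtype).map (QuotientGroup.mk' Q)) = 16 := by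
  obtain ⟨F, hQ⟩ := H12.F24.exists_frame z Q hF
  obtain ⟨B, h1, h2, h3⟩ := H94.B1.sylow_cent F T
  rw [hQ, ← Subgroup.map_inf _ _ _ (Subgroup.subtype_injective _), H24.card_map_subtype] at h3
  refine ⟨B, h1, h2, h3, ?_⟩
  have h4 := (Q.subgroupOf (B.map (T : Subgroup (Subgroup.centralizer ({z} : Set G))).subtype)).card_mul_index
  rw [← Subgroup.relIndex, ← Subgroup.inf_subgroupOf_left, H24.card_subgroupOf_of_le inf_le_left, h3,
    H24.card_map_subtype, h2] at h4
  rw [← Subgroup.relIndex_ker, QuotientGroup.ker_mk']
  omega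

end Cfsg.Agent.S5444
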