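import Cfsg.Statements.S5445
import Cfsg.Agent.Lib.F24T.Frame
import Cfsg.Agent.Lib.F24T.B2Model
import Cfsg.Agent.Lib.LargeExtra.Pair
import Cfsg.Agent.Lib.FF.EAGL
import Cfsg.Agent.Lib.Golay9.L32
import Cfsg.Agent.Lib.Small30.AutA6
import Cfsg.Agent.S0012
import Cfsg.Agent.S0013

set_option autoImplicit false
open Cfsg

namespace Cfsg.Agent.S5445

open Subgroup H54 H94 H95 H12.F24 H71.F24
open H30 (F4)

theorem quot_prod {L S A : Type*} [Group L] [Finite L] [Group S] [Group A] [IsSimpleGroup S] [IsSimpleGroup A]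
    (θ : L →* S) (hθ : Function.Surjective θ) (ψ : θ.ker →* A) (hψ : Function.Surjective ψ) (hZ : center A = ⊥)
    (hc : Nat.card (MulAut A) < Nat.card S * Nat.card A) (h3 : 3 ∣ Nat.card S) (h3' : 3 ∣ Nat.card A)
    (h2 : IsPGroup 2 ψ.ker) :
    pCore 2 L = ψ.ker.map θ.ker.subtype ∧ ∃ f : L →* S × A, Function.Surjective f ∧ f.ker = pCore 2 L := by
  have := Finite.of_surjective θ hθ
  have := Finite.of_surjective ψ hψ
  have e : pCore 2 θ.ker = ψ.ker := le_antisymm (pCore_le_ker hψ (pCore_eq_bot_of_simple h3')) (H1.le_pCore h2)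
  have hR : pCore 2 L = ψ.ker.map θ.ker.subtype := by
    rw [← e, H1.map_subtype_pCore_eq, inf_eq_left.2 (pCore_le_ker hθ (pCore_eq_bot_of_simple h3))]
  refine ⟨hR, ?_⟩
  have hk : ∀ l : L, ψ.ker ≤ (ψ.comp (MulAut.conjNormal l : MulAut θ.ker).toMonoidHom).ker := fun l c hc => by
    have : ψ.ker.Characteristic := e ▸ inferInstance
    exact (characteristic_iff_le_comap.1 this _ hc :)
  let f : L → A →* A := fun l => ψ.liftOfSurjective hψ ⟨_, hk l⟩
  have hf : ∀ l c, f l (ψ c) = ψ (MulAut.conjNormal l c) := fun l c => ψ.liftOfRightInverse_comp_apply _ _ _ c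
  have fm : ∀ l m a, f (l * m) a = f l (f m a) := fun l m a => by
    obtain ⟨c, rfl⟩ := hψ a
    rw [hf, hf, hf, map_mul]; rfl
  have f1 : ∀ a, f 1 a = a := fun a => by
    obtain ⟨c, rfl⟩ := hψ a
    rw [hf, map_one]; rfl
  let α : L →* MulAut A := MonoidHom.mk' (fun l => MonoidHom.toMulEquiv (f l) (f l⁻¹)
    (MonoidHom.ext fun a => (fm _ _ a).symm.trans (by rw [inv_mul_cancel]; exact f1 a))
    (MonoidHom.ext fun a => (fm _ _ a).symm.trans (by rw [mul_inv_cancel]; exact f1 a)))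
    fun l m => MulEquiv.ext (fm l m)
  have hα : ∀ c : θ.ker, α c = MulAut.conj (ψ c) := fun c => MulEquiv.ext fun a => by
    obtain ⟨d, rfl⟩ := hψ a
    refine (hf c d).trans ?_
    rw [MulAut.conj_apply, ← map_inv, ← map_mul, ← map_mul]; rfl
  have inj : Function.Injective (MulAut.conj : A →* MulAut A) := (injective_iff_map_eq_one _).2 fun a h =>
    mem_bot.1 (hZ ▸ mem_center_iff.2 fun b => by
      have : a * b * a⁻¹ = b := MulEquiv.congr_fun h b
      rw [← this, inv_mul_cancel_right, this])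
  have hK : α.ker.map θ = ⊤ := ((Normal.map inferInstance θ hθ).eq_bot_or_eq_top).resolve_left fun h => by
    have h1 : α.ker = ψ.ker.map θ.ker.subtype := by
      refine le_antisymm (fun l hl => ?_) ?_
      · have := (Subgroup.map_eq_bot_iff _).1 h hl
        exact ⟨⟨l, this⟩, inj ((hα ⟨l, this⟩).symm.trans (hl.trans (map_one _).symm)), rfl⟩
      · rintro _ ⟨c, hc, rfl⟩
        exact (hα c).trans (by rw [hc, map_one])
    have h2 := index_map_subtype ψ.ker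
    rw [← h1, index_ker, index_ker, index_ker, MonoidHom.range_eq_top.2 hθ, MonoidHom.range_eq_top.2 hψ,
      card_top, card_top, mul_comm] at h2
    exact absurd (h2 ▸ card_le_card_group α.range) (not_le.2 hc)
  have hs : ∀ s, ∃ k, α k = 1 ∧ θ k = s := fun s => (hK ▸ mem_top s : s ∈ α.ker.map θ)
  have hr : ∀ l, α l ∈ (MulAut.conj : A →* MulAut A).range := fun l => by
    obtain ⟨k, h1, h2⟩ := hs (θ l)
    refine ⟨_, (hα ⟨k⁻¹ * l, ?_⟩).symm.trans ?_⟩
    · rw [MonoidHom.mem_ker, map_mul, map_inv, h2, inv_mul_cancel]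
    · rw [map_mul, map_inv, h1, inv_one, one_mul]
  let φ : L →* A := (MonoidHom.ofInjective inj).symm.toMonoidHom.comp (α.codRestrict _ hr)
  have hφ : ∀ l, MulAut.conj (φ l) = α l := fun l => MonoidHom.apply_ofInjective_symm inj _
  refine ⟨θ.prod φ, fun ⟨s, a⟩ => ?_, ?_⟩
  · obtain ⟨k, h1, h2⟩ := hs s
    obtain ⟨c, rfl⟩ := hψ a
    refine ⟨k * c, Prod.ext ?_ (inj ?_)⟩
    · exact (map_mul θ _ _).trans (by rw [h2, c.2, mul_one])
    · exact (hφ _).trans (by rw [map_mul, h1, one_mul, hα])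
  · rw [hR]
    refine le_antisymm (fun l hl => ?_) ?_
    · have h1 : θ l = 1 := congrArg Prod.fst hl
      exact ⟨⟨l, h1⟩, inj ((hα ⟨l, h1⟩).symm.trans ((hφ l).symm.trans (congrArg _ (congrArg Prod.snd hl)))), rfl⟩
    · rintro _ ⟨c, hc, rfl⟩
      exact Prod.ext c.2 (inj ((hφ c).trans ((hα c).trans (congrArg _ hc))))

theorem eq_top_of {S : Type*} [Group S] [Finite S] [IsSimpleGroup S] (h : Nat.card S = 168) (T : Subgroup S)
    (h7 : 42 ∣ Nat.card T) : T = ⊤ := by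
  by_contra hT
  have h1 : T.normalCore = ⊥ := (normalCore_normal T).eq_bot_or_eq_top.resolve_right
    fun e => hT (top_le_iff.1 (e ▸ T.normalCore_le))
  have h2 := card_dvd_of_injective (MulAction.toPermHom S (S ⧸ T))
    (by rw [← MonoidHom.ker_eq_bot_iff, ← normalCore_eq_ker, h1])
  rw [Nat.card_perm, ← index, h] at h2
  have h3 := T.card_mul_index
  have h4 : T.index ≤ 4 := by
    have := Nat.le_of_dvd Nat.card_pos h7
    nlinarith
  generalize T.index = n at h2 h4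
  interval_cases n <;> revert h2 <;> decide

theorem L15_iff {v : V6} : L15 v ↔ v = 0 ∨ v = H94.vec 15 ∨ v = H94.vec 960 ∨ v = H94.vec 975 := by
  refine ⟨?_, ?_⟩
  · rintro ⟨c, rfl⟩; revert c; decide
  · rintro (rfl | rfl | rfl | rfl)
    exacts [⟨0, by decide⟩, ⟨1, by decide⟩, ⟨F4.w, by decide⟩, ⟨F4.v, by decide⟩]

theorem L15_add {u v : V6} : L15 u → L15 v → L15 (u + v) := by
  rintro ⟨a, rfl⟩ ⟨b, rfl⟩; exact ⟨a + b, (add_smul _ _ _).symm⟩

theorem L15_smul (c : F4) {v : V6} : L15 v → L15 (c • v) := by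
  rintro ⟨a, rfl⟩; exact ⟨c * a, smul_smul _ _ _⟩

theorem L15_P15 {v : V6} (h : L15 v) : P15 v ∧ qv v = 0 := by
  rcases L15_iff.1 h with rfl | rfl | rfl | rfl <;> unfold P15 <;> decide

theorem perp {v w : V6} (h : L15 v) (hw : P15 w) : Bv w v = 0 := by
  rcases L15_iff.1 h with rfl | rfl | rfl | rfl
  exacts [Bv_zero_right _, hw.1, hw.2, by
    rw [(by decide : H94.vec 975 = H94.vec 15 + H94.vec 960), Bv_add_right, hw.1, hw.2, add_zero]]

theorem P0_fix {g : AV} (hg : g ∈ P0) {v : V6} : L15 v → g v = v := by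
  rintro ⟨c, rfl⟩
  rw [linV_smul (K0_le_linV hg.1), show g (H94.vec 15) = H94.vec 15 from hg.2]

theorem L960 : L15 (H94.vec 960) := L15_iff.2 (by simp)
theorem L15' : L15 (H94.vec 15) := L15_iff.2 (by simp)

theorem P15_map {g : AV} (hg : g ∈ P0) {w : V6} (hw : P15 w) : P15 (g w) :=
  ⟨by rw [← P0_fix hg L15', isoQ_B (N1_le_isoQ (K0_le_N1 hg.1)), hw.1],
    by rw [← P0_fix hg L960, isoQ_B (N1_le_isoQ (K0_le_N1 hg.1)), hw.2]⟩

theorem P15_add {u w : V6} (hu : P15 u) (hw : P15 w) : P15 (u + w) :=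
  ⟨by rw [Bv_add_left, hu.1, hw.1, add_zero], by rw [Bv_add_left, hu.2, hw.2, add_zero]⟩

theorem eq_add {u v w : V6} (h : u + v = w) : v = u + w := by rw [← h, ← add_assoc, V6_add_self, zero_add]

variable {G : Type*} [Group G] {z : G} (F : Frame z)

/-- `c` has coordinates `u`, `g` -/
def D (c : G) (u : V6) (g : AV) : Prop := ∃ ε d, F.Lift d g ∧ d * F.x = F.x * d ∧ c = F.σ u * zp z ε * d

variable {F}

theorem D.lift {c : G} {u : V6} {g : AV} : D F c u g → F.Lift c g := by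
  rintro ⟨ε, d, h, -, rfl⟩
  simpa using (F.lift_one_of_mem (F.elt_mem u ε)).mul h

theorem D.conj {c : G} {u : V6} {g : AV} (h : D F c u g) (w : V6) (a : ZMod 2) :
    c * (F.σ w * zp z a) * c⁻¹ = F.σ (g w) * zp z (Bv u (g w) + a) := by
  rw [h.lift.conj_mul_zp, ← F.zp_add', ← mul_assoc, mul_left_inj]
  obtain ⟨ε, d, h, hx, rfl⟩ := h
  rw [← F.σ_conj, ← h.conj_lin hx, show F.σ u * zp z ε * d * F.σ w * (F.σ u * zp z ε * d)⁻¹ =
    F.σ u * (zp z ε * (d * F.σ w * d⁻¹) * (zp z ε)⁻¹) * (F.σ u)⁻¹ by group, h.conj_lin hx, F.σ_zp,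
    mul_inv_cancel_right]

theorem D.mul {c c' : G} {u u' : V6} {g g' : AV} : D F c u g → D F c' u' g' → D F (c * c') (u + g u') (g * g') := by
  rintro ⟨ε, d, h, hx, rfl⟩ ⟨ε', d', h', hx', rfl⟩
  refine ⟨βv u (g u') + ε + ε', d * d', h.mul h', Commute.mul_left hx hx', ?_⟩
  rw [← F.elt_mul u (g u') ε ε', ← h.conj_lin hx, ← h.conj_mul_zp]; group

theorem exists_D {c : G} {g : AV} (h : F.Lift c g) (hg : g ∈ K0) : ∃ u, D F c u g := by
  obtain ⟨d, h', hx⟩ := F.lift_K0 hg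
  obtain ⟨u, ε, e⟩ := h.exists_eq h'
  exact ⟨u, ε, d, h', hx, e⟩

theorem D_elt (u : V6) (a : ZMod 2) : D F (F.σ u * zp z a) u 1 := ⟨a, 1, F.lift_one, by simp, by simp⟩

theorem D_σ (u : V6) : D F (F.σ u) u 1 := by simpa only [zp_zero, mul_one] using D_elt (F := F) u 0

theorem D.eq {c : G} {u : V6} : D F c u 1 → ∃ a, c = F.σ u * zp z a := by
  rintro ⟨ε, d, h, hx, rfl⟩
  obtain ⟨a, rfl⟩ := F.eq_zp_of_comm h hx
  exact ⟨_, by rw [mul_assoc, F.zp_add']⟩

variable (F)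

def V : Subgroup G where
  carrier := {y | ∃ v ε, L15 v ∧ y = F.σ v * zp z ε}
  one_mem' := ⟨0, 0, L15_iff.2 (by simp), by rw [F.σ_zero, zp_zero, mul_one]⟩
  mul_mem' := by
    rintro _ _ ⟨v, a, h, rfl⟩ ⟨w, b, h', rfl⟩
    exact ⟨_, _, L15_add h h', F.elt_mul v w a b⟩
  inv_mem' := by
    rintro _ ⟨v, a, h, rfl⟩
    exact ⟨_, _, h, F.elt_inv v a⟩

theorem z_V : z ∈ V F := ⟨0, 1, L15_iff.2 (by simp), by rw [F.σ_zero, zp_one, one_mul]⟩

theorem σ_V {v : V6} (h : L15 v) : F.σ v ∈ V F := ⟨v, 0, h, by rw [zp_zero, mul_one]⟩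

theorem card_V : Nat.card (V F) = 8 := by
  have e : F4 × ZMod 2 ≃ V F := Equiv.ofBijective (fun p => ⟨F.σ (p.1 • H94.vec 15) * zp z p.2, _, _, ⟨_, rfl⟩, rfl⟩)
    ⟨fun p q h => Prod.ext (smul_left_injective _ vec15_sing.1 (F.elt_inj (congrArg Subtype.val h)).1)
      (F.elt_inj (congrArg Subtype.val h)).2, fun ⟨_, _, a, ⟨c, rfl⟩, h⟩ => ⟨(c, a), Subtype.ext h.symm⟩⟩
  rw [← Nat.card_congr e, Nat.card_prod, Nat.card_zmod, Nat.card_eq_fintype_card]; rfl

theorem mem_C {c : G} : c ∈ centralizer (V F : Set G) ↔ ∃ u g, D F c u g ∧ g ∈ P0 ∧ P15 u := by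
  refine ⟨fun h => ?_, ?_⟩
  · obtain ⟨g, hg⟩ := F.exists_lift (h z (z_V F)).symm
    have h1 : ∀ v, L15 v → c * (F.σ v * zp z 0) * c⁻¹ = F.σ v * zp z 0 := fun v hv => by
      rw [← h _ ⟨v, 0, hv, rfl⟩, mul_inv_cancel_right]
    have h2 : ∀ v, L15 v → g v = v := fun v hv => by
      obtain ⟨a, e⟩ := hg.conj_elt v 0
      exact (F.elt_inj (e.symm.trans (h1 v hv))).1
    have h3 : g ∈ K0 := by
      by_contra hn
      have := semi_smul (semi_of_not_mem (F.range ▸ hg.mem_range) hn) F4.w (H94.vec 15)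
      rw [h2 _ L15', h2 _ ⟨_, rfl⟩] at this
      revert this; decide
    obtain ⟨u, hu⟩ := exists_D hg h3
    have h4 : ∀ v, L15 v → Bv u v = 0 := fun v hv => by
      have := (F.elt_inj ((hu.conj v 0).symm.trans (h1 v hv))).2
      rwa [h2 v hv, add_zero] at this
    exact ⟨u, g, hu, ⟨h3, h2 _ L15'⟩, h4 _ L15', h4 _ L960⟩
  · rintro ⟨u, g, h, hg, hu⟩ _ ⟨v, a, hv, rfl⟩
    have := h.conj v a
    rw [P0_fix hg hv, perp hv hu, zero_add] at this
    exact (mul_inv_eq_iff_eq_mul.1 this).symm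

theorem V_le_C : V F ≤ centralizer (V F : Set G) := by
  rintro _ ⟨v, a, hv, rfl⟩
  exact (mem_C F).2 ⟨v, 1, D_elt v a, one_mem _, (L15_P15 hv).1⟩

theorem V_sq {y : G} : y ∈ V F → y ^ 2 = 1 := by
  rintro ⟨v, a, hv, rfl⟩
  rw [sq, F.elt_mul, V6_add_self, F.σ_zero, one_mul, add_assoc, zmod2_add_self, add_zero,
    show βv v v = 0 from (L15_P15 hv).2, zp_zero]

variable [Finite G]

theorem mem_N {c : G} {g : AV} (h : F.Lift c g) (hg : ∀ v, L15 v → L15 (g v)) : c ∈ normalizer (V F : Set G) := by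
  refine mem_normalizer_of_finite ?_
  rintro _ ⟨v, a, hv, rfl⟩
  obtain ⟨b, e⟩ := h.conj_elt v a
  exact ⟨_, b, hg v hv, e⟩

theorem σ_N (u : V6) : F.σ u ∈ normalizer (V F : Set G) := mem_N F (F.lift_σ u) fun _ h => h

theorem x_N : F.x ∈ normalizer (V F : Set G) := mem_N F F.lift_x fun _ h => om_apply _ ▸ L15_smul _ h

theorem exists_n : ∃ n ∈ normalizer (V F : Set G), n * z * n⁻¹ = F.σ (H94.vec 15) * zp z 1 := by
  obtain ⟨k, hk⟩ := isConj_iff.1 ((F.cls _ vec15_sing.1 vec15_sing.2).2 vec15_not_mem)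
  have p := F.L3.pair (by rw [F.card_Q]; norm_num) (hk ▸ F.σ_mem _) fun h => vec15_sing.1 (F.σ_eq _ (Or.inr (hk ▸ h)))
  rw [hk] at p
  obtain ⟨n, hn, e⟩ := p.h'.exists_conj p.zQ F.z1 p.ne.symm
  have nU := p.symm.le_normalizer_V hn
  rw [Pair.V_comm] at nU
  set U := closure {z, F.σ (H94.vec 15)}
  have hU : ∀ {w a}, F.σ w * zp z a ∈ U ↔ w = 0 ∨ w = H94.vec 15 := fun {w a} => by
    refine ⟨fun h => ?_, fun h => mul_mem ?_ ?_⟩
    · rcases p.mem_V.1 h with h | h | h | h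
      · exact Or.inl (F.elt_inj (b := 0) (by rw [h, F.σ_zero, zp_zero, one_mul])).1
      · exact Or.inl (F.elt_inj (b := 1) (by rw [h, F.σ_zero, zp_one, one_mul])).1
      · exact Or.inr (F.elt_inj (b := 0) (by rw [h, zp_zero, mul_one])).1
      · exact Or.inr (F.elt_inj (b := 1) (by rw [h, zp_one, F.σ_z])).1
    · rcases h with rfl | rfl
      exacts [F.σ_zero ▸ one_mem _, Pair.s_mem_V _ _]
    · rcases zp_cases z a with h | h <;> rw [h]
      exacts [one_mem _, Pair.z_mem_V _ _]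
  have hC : ∀ {c}, c ∈ centralizer (U : Set G) ↔ _ := mem_centralizer_closure_pair
  have key : ∀ y, y ∈ V F ↔ y ∈ centralizer (U : Set G) ∧ ∀ c ∈ centralizer (U : Set G), c * y * c⁻¹ * y⁻¹ ∈ U := by
    intro y
    refine ⟨fun hy => ⟨hC.2 ⟨(V_le_C F hy _ (z_V F)).symm, (V_le_C F hy _ (σ_V F L15')).symm⟩, fun c hc => ?_⟩,
      fun ⟨h1, h2⟩ => ?_⟩
    · obtain ⟨_, a, ⟨t, rfl⟩, rfl⟩ := hy
      obtain ⟨g, hg⟩ := F.exists_lift (hC.1 hc).1
      have g15 : g (H94.vec 15) = H94.vec 15 := by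
        obtain ⟨b, e⟩ := hg.conj (H94.vec 15)
        rw [(hC.1 hc).2, mul_inv_cancel_right] at e
        exact (F.elt_inj (b := 0) (by rw [← e, zp_zero, mul_one])).1
      obtain ⟨b, e⟩ := hg.conj_elt (t • H94.vec 15) a
      rw [e, F.elt_inv, F.elt_mul, hU]
      rcases hg.mem_N1.1 with h | h
      · rw [linV_smul (mem_linV.2 h), g15, V6_add_self]; exact Or.inl rfl
      · rw [semi_smul h, g15]; clear e; revert t; decide
    · obtain ⟨g, hg⟩ := F.exists_lift (hC.1 h1).1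
      obtain rfl : g = 1 := eq_one_of_hyp hg.mem_N1 fun w hw => by
        have := h2 _ (hC.2 ⟨F.σ_z w, (F.σ_commute_iff _ _).2 hw⟩)
        obtain ⟨b, e⟩ := hg.conj w
        rw [show F.σ w * y * (F.σ w)⁻¹ * y⁻¹ = F.σ w * zp z 0 * (y * F.σ w * y⁻¹)⁻¹ by rw [zp_zero]; group, e,
          F.elt_inv, F.elt_mul, hU] at this
        exact this.imp (fun h => by rw [eq_add h, add_zero]) eq_add
      obtain ⟨u, a, rfl⟩ := hg.mem_Q
      refine ⟨u, a, L15_of_fix fun k hk => ?_, rfl⟩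
      obtain ⟨d, hd, hx⟩ := F.lift_K0 hk.1
      have := h2 d (hC.2 ⟨hd.comm, mul_inv_eq_iff_eq_mul.1 ((hd.conj_lin hx _).trans (congrArg _ hk.2))⟩)
      rw [hd.conj_mul_zp, hd.conj_lin hx, F.elt_inv, F.elt_mul, hU, add_comm] at this
      exact this.imp (fun h => by rw [eq_add h, add_zero]) eq_add
  refine ⟨n, mem_normalizer_of_finite fun y hy => (key _).2 ⟨Pair.conj_mem_cent_V nU ((key y).1 hy).1, fun c hc => ?_⟩,
    by rw [e, zp_one, F.σ_z]⟩
  have := conj_mem_of_normalizer nU (((key y).1 hy).2 _ (Pair.conj_mem_cent_V (inv_mem nU) hc))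
  convert this using 1; group

theorem trans {y : G} (hy : y ∈ V F) (y1 : y ≠ 1) : ∃ n ∈ normalizer (V F : Set G), n * z * n⁻¹ = y := by
  obtain ⟨n, hn, e⟩ := exists_n F
  have key : ∀ {d g}, F.Lift d g → d ∈ normalizer (V F : Set G) → ∀ ε,
      ∃ n ∈ normalizer (V F : Set G), n * z * n⁻¹ = F.σ (g (H94.vec 15)) * zp z ε := fun {d g} h hd ε => by
    obtain ⟨a, e1⟩ := h.conj_elt (H94.vec 15) 1
    obtain ⟨u, e2⟩ := F.exists_conj_σ (v := g (H94.vec 15)) (by simpa using vec15_sing.1) (ε + a)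
    refine ⟨_, mul_mem (σ_N F u) (mul_mem hd hn), ?_⟩
    rw [show F.σ u * (d * n) * z * (F.σ u * (d * n))⁻¹ = F.σ u * (d * (n * z * n⁻¹) * d⁻¹) * (F.σ u)⁻¹ by group, e, e1,
      (F.lift_σ u).conj_mul_zp, e2, mul_assoc, F.zp_add', add_assoc, zmod2_add_self, add_zero]
  obtain ⟨v, a, hv, rfl⟩ := hy
  rcases L15_iff.1 hv with rfl | rfl | rfl | rfl
  · rw [F.σ_zero, one_mul] at y1 ⊢
    exact ⟨1, one_mem _, by rw [(zp_cases z a).resolve_left y1]; group⟩
  · exact key F.lift_one (one_mem _) a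
  · simpa only [om_apply, (by decide : F4.w • H94.vec 15 = H94.vec 960)] using key F.lift_x (x_N F) a
  · simpa only [AV.mul_apply, om_apply, (by decide : F4.w • F4.w • H94.vec 15 = H94.vec 975)] using
      key (F.lift_x.mul F.lift_x) (mul_mem (x_N F) (x_N F)) a

def R : Subgroup G := subFin {c | ∃ u g, D F c u g ∧ g ∈ A1 ∧ P15 u}
  ⟨0, 1, F.σ_zero ▸ D_σ 0, one_mem _, (L15_P15 (L15_iff.2 (Or.inl rfl))).1⟩
  fun _ _ ⟨_, _, h, hg, hu⟩ ⟨_, _, h', hg', hu'⟩ => ⟨_, _, h.mul h', mul_mem hg hg', P15_add hu (P15_map (A1_spec hg).1 hu')⟩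

theorem R_le : R F ≤ centralizer (V F : Set G) := fun _ ⟨u, g, h, hg, hu⟩ => (mem_C F).2 ⟨u, g, h, (A1_spec hg).1, hu⟩

theorem σ_R {w : V6} (h : P15 w) : F.σ w ∈ R F := ⟨w, 1, D_σ w, one_mem _, h⟩

theorem card_R : Nat.card (R F) = 2 ^ 15 := by
  choose d hd hx using fun g : A1 => F.lift_K0 (A1_spec g.2).1.1
  have e : {w // P15 w} × ZMod 2 × A1 ≃ R F := Equiv.ofBijective
    (fun p => ⟨F.σ p.1 * zp z p.2.1 * d p.2.2, p.1, p.2.2, ⟨_, _, hd _, hx _, rfl⟩, p.2.2.2, p.1.2⟩) ⟨?_, ?_⟩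
  · rw [← Nat.card_congr e, Nat.card_prod, Nat.card_prod, card_P15, Nat.card_zmod, exists_hom_A6.1]; rfl
  · rintro ⟨u, a, g⟩ ⟨u', a', g'⟩ h
    have h : F.σ u * zp z a * d g = F.σ u' * zp z a' * d g' := congrArg Subtype.val h
    obtain rfl : g = g' := Subtype.ext ((D.lift ⟨a, _, hd g, hx g, rfl⟩).unique (D.lift ⟨a', _, hd g', hx g', h⟩))
    obtain ⟨h1, rfl⟩ := F.elt_inj (mul_right_cancel h)
    rw [Subtype.ext h1]
  · rintro ⟨_, u, g, ⟨a, c, h, hc, rfl⟩, hg, hu⟩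
    obtain ⟨b, e⟩ := F.eq_zp_of_comm (c := c * (d ⟨g, hg⟩)⁻¹) (by simpa using h.mul (hd ⟨g, hg⟩).inv)
      (Commute.mul_left hc (Commute.inv_left (hx _)))
    exact ⟨(⟨u, hu⟩, a + b, ⟨g, hg⟩), Subtype.ext (by
      dsimp only; rw [eq_mul_of_mul_inv_eq e, ← F.zp_add']; group)⟩

theorem R_sq {c : G} : c ∈ R F → c * c ∈ V F := by
  rintro ⟨u, g, h, hg, hu⟩
  obtain ⟨a, e⟩ := D.eq ((A1_spec hg).2 ▸ h.mul h)
  exact ⟨_, a, A1_perp hg hu, e⟩

theorem center_R : (center (R F)).map (R F).subtype = V F := by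
  ext y
  rw [mem_center_map_iff]
  refine ⟨fun ⟨⟨u, g, h, hg, hu⟩, hc⟩ => ?_, fun hy => ⟨?_, fun r hr => (R_le F hr y hy).symm⟩⟩
  · have h1 : ∀ w, P15 w → g w = w ∧ Bv u (g w) + 0 = 0 := fun w hw => F.elt_inj (by
      rw [← h.conj w 0, zp_zero, mul_one, ← hc _ (σ_R F hw), mul_inv_cancel_right])
    obtain rfl := A1_eq_one hg fun w hw => (h1 w hw).1
    obtain ⟨a, rfl⟩ := h.eq
    exact ⟨u, a, L15_of_perp fun w hw => (add_zero _).symm.trans (h1 w hw).2, rfl⟩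
  · obtain ⟨v, a, hv, rfl⟩ := hy
    exact ⟨v, 1, D_elt v a, one_mem _, (L15_P15 hv).1⟩

theorem special_R (hn : normalizer (V F : Set G) ≤ normalizer (R F : Set G)) : IsSpecial 2 (R F) := by
  have hp : IsPGroup 2 (R F) := IsPGroup.of_card (card_R F)
  have hZ : ∀ c : R F, c ∈ center (R F) ↔ (c : G) ∈ V F := fun c => by
    rw [← center_R, ← mem_map_iff_mem (R F).subtype_injective]; rfl
  have h1 : commutator (R F) ≤ center (R F) := commutator_le.2 fun a _ b _ => (hZ _).2 (by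
    have := mul_mem (mul_mem (R_sq F a.2) (R_sq F (a⁻¹ * b).2)) (R_sq F (b⁻¹).2)
    convert this using 1
    simp only [commutatorElement_def, coe_mul, coe_inv]; group)
  have h2 : center (R F) ≤ commutator (R F) := fun c hc => by
    by_cases c1 : (c : G) = 1
    · rw [show c = 1 from Subtype.ext c1]; exact one_mem _
    obtain ⟨n, hn', e⟩ := trans F ((hZ c).1 hc) c1
    have := commutator_mem_commutator (mem_top (⟨_, conj_mem_of_normalizer (hn hn') (σ_R F (P15_basis 3 (by simp)))⟩ : R F))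
      (mem_top ⟨_, conj_mem_of_normalizer (hn hn') (σ_R F (P15_basis 320 (by simp)))⟩)
    refine (congrArg (· ∈ commutator (R F)) (Subtype.ext ?_)).mpr this
    simp only [commutatorElement_def, coe_mul, coe_inv]
    rw [← e, show ∀ a b : G, n * a * n⁻¹ * (n * b * n⁻¹) * (n * a * n⁻¹)⁻¹ * (n * b * n⁻¹)⁻¹ =
      n * (a * b * a⁻¹ * b⁻¹) * n⁻¹ from fun a b => by group, F.σ_conj, (by decide : Bv (H94.vec 3) (H94.vec 320) = 1),
      zp_one, F.σ_z, mul_inv_cancel_right]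
  have := Cfsg.Agent.S0012.result 2 hp
  exact ⟨hp, le_antisymm (Cfsg.Agent.S0013.result 2 hp _ h1 fun c => (hZ _).2 (by rw [sq]; exact R_sq F c.2))
    (h2.trans this.1), le_antisymm h1 h2⟩

theorem range_top [IsSimpleGroup (MulAut (V F))] (hc : Nat.card (MulAut (V F)) = 168) :
    (V F).normalizerMonoidHom.range = ⊤ := by
  set θ := (V F).normalizerMonoidHom
  have hk : ∀ {c} (h : c ∈ normalizer (V F : Set G)), θ ⟨c, h⟩ = 1 ↔ c ∈ centralizer (V F : Set G) := fun h => by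
    rw [← MonoidHom.mem_ker, normalizerMonoidHom_ker]; rfl
  have ho : ∀ {c} (h : c ∈ normalizer (V F : Set G)) (p : ℕ) [Fact p.Prime], c ∉ centralizer (V F : Set G) →
      c ^ p ∈ centralizer (V F : Set G) → p ∣ Nat.card θ.range := fun h p _ h1 h2 => by
    rw [← orderOf_eq_prime (x := θ ⟨_, h⟩) (p := p) (by rw [← map_pow]; exact (hk _).2 h2) (mt (hk h).1 h1)]
    exact θ.range.orderOf_dvd_natCard ⟨_, rfl⟩
  have h2 : 2 ∣ Nat.card θ.range := ho (σ_N F (H94.vec 64)) 2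
    (fun h => absurd ((F.σ_commute_iff _ _).1 (h _ (σ_V F L15'))) (by decide))
    (by rw [sq, F.σ_sq]; exact V_le_C F ⟨0, _, L15_iff.2 (Or.inl rfl), by rw [F.σ_zero, one_mul]⟩)
  have : Fact (Nat.Prime 3) := ⟨by norm_num⟩
  have h3 : 3 ∣ Nat.card θ.range := ho (x_N F) 3
    (fun h => absurd (F.σ_inj ((F.x_conj _).symm.trans (by rw [← h _ (σ_V F L15'), mul_inv_cancel_right]))) (by decide))
    (by rw [pow_three', F.x_cube]; exact one_mem _)
  have h7 : 7 ∣ Nat.card θ.range := by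
    have e : MulAction.orbit θ.range (⟨z, z_V F⟩ : V F) = {1}ᶜ := by
      ext y
      refine ⟨?_, fun hy => ?_⟩
      · rintro ⟨a, rfl⟩ h
        exact F.z1 (congrArg Subtype.val ((map_eq_one_iff _ a.1.injective).1 h))
      · obtain ⟨n, hn, e⟩ := trans F y.2 fun h => hy (Subtype.ext h)
        exact ⟨⟨_, ⟨n, hn⟩, rfl⟩, Subtype.ext e⟩
    have := (MulAction.stabilizer θ.range (⟨z, z_V F⟩ : V F)).index_dvd_card
    rwa [MulAction.index_stabilizer, e, Set.ncard_compl, card_V, Set.ncard_singleton] at this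
  exact eq_top_of hc _ (by omega)


/-- Let G be a finite group of large Fischer type at the involution z: the generalized Fitting subgroup Q of H = C_G(z) is extraspecial of order 2^13, H has normal subgroups Q ≤ H₁ ≤ H₂ with H₁/Q of order 3, H₂/H₁ the projective special unitary group of dimension 4 over the field with nine elements and H₂ of index 2 in H, and some conjugate of z other than z lies in Q. Then G has an elementary abelian subgroup V of order 8 containing z whose normalizer L has the following structure: the largest normal 2-subgroup R of L is special of order 2^15 with centre V, and L/R is isomorphic to the direct product of SL(3, 2) and the alternating group of degree 6. -/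
theorem result {G : Type*} [Group G] [Finite G] (z : G) (Q : Subgroup (Subgroup.centralizer ({z} : Set G))) [Q.Normal] (hF : Cfsg.IsOfLargeFischerTypeAt z Q) : ∃ V : Subgroup G, Cfsg.IsElementaryAbelian 2 V ∧ Nat.card V = 8 ∧ z ∈ V ∧ ∃ R : Subgroup G, R = (Cfsg.pCore 2 ↥(Subgroup.normalizer (V : Set G))).map (Subgroup.normalizer (V : Set G)).subtype ∧ Cfsg.IsSpecial 2 ↥R ∧ Nat.card R = 2 ^ 15 ∧ (Subgroup.center ↥R).map R.subtype = V ∧ ∃ _ : (R.subgroupOf (Subgroup.normalizer (V : Set G))).Normal, Nonempty (↥(Subgroup.normalizer (V : Set G)) ⧸ R.subgroupOf (Subgroup.normalizer (V : Set G)) ≃* Matrix.SpecialLinearGroup (Fin 3) (ZMod 2) × ↥(alternatingGroup (Fin 6))) := by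
  obtain ⟨F, -⟩ := exists_frame z Q hF
  have hV : IsMulCommutative (V F) := ⟨⟨fun a b => Subtype.ext (V_le_C F b.2 a a.2)⟩⟩
  obtain ⟨e1⟩ := H23.nonempty_mulAut_equiv_GL (p := 2) (n := 3) hV (fun w => Subtype.ext (V_sq F w.2)) (card_V F)
  obtain ⟨e2⟩ := H9.L32.equiv_GL
  have e := e1.trans e2.symm
  have := H9.L32.simple_SL
  have := e.isSimpleGroup
  let θ := e.toMonoidHom.comp (V F).normalizerMonoidHom
  have hθ : Function.Surjective θ := e.surjective.comp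
    (MonoidHom.range_eq_top.1 (range_top F ((Nat.card_congr e.toEquiv).trans H9.L32.card_SL)))
  have hC : ∀ c, c ∈ θ.ker ↔ (c : G) ∈ centralizer (V F : Set G) := fun c =>
    (map_eq_one_iff _ e.injective).trans (by rw [← MonoidHom.mem_ker, normalizerMonoidHom_ker]; rfl)
  choose u g hD hg hu using fun c : θ.ker => (mem_C F).1 ((hC c).1 c.2)
  let π : θ.ker →* P0 := MonoidHom.mk' (fun c => ⟨g c, hg c⟩) fun c d =>
    Subtype.ext ((hD _).lift.unique ((hD c).lift.mul (hD d).lift))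
  obtain ⟨-, ψ, hψ, hk⟩ := H71.F24.exists_hom_A6
  have hπ : Function.Surjective π := fun k => by
    obtain ⟨d, h, hx⟩ := F.lift_K0 k.2.1
    have h1 := (mem_C F).2 ⟨0, k, ⟨0, d, h, hx, by rw [F.σ_zero, zp_zero, one_mul, one_mul]⟩, k.2,
      (L15_P15 (L15_iff.2 (Or.inl rfl))).1⟩
    exact ⟨⟨⟨d, centralizer_le_normalizer _ h1⟩, (hC _).2 h1⟩, Subtype.ext ((hD _).lift.unique h)⟩
  have hR : ((ψ.comp π).ker.map θ.ker.subtype).map (normalizer (V F : Set G)).subtype = R F := by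
    refine le_antisymm ?_ fun c ⟨u, k, h, h1, h2⟩ => ?_
    · rintro _ ⟨_, ⟨c, hc, rfl⟩, rfl⟩
      exact ⟨_, _, hD c, (hk _).1 hc, hu c⟩
    · have h3 := R_le F ⟨u, k, h, h1, h2⟩
      let d : θ.ker := ⟨⟨c, centralizer_le_normalizer _ h3⟩, (hC _).2 h3⟩
      exact ⟨_, ⟨d, (hk _).2 (show g d ∈ A1 from (hD d).lift.unique h.lift ▸ h1), rfl⟩, rfl⟩
  have hA : Nat.card (alternatingGroup (Fin 6)) = 360 := by
    rw [nat_card_alternatingGroup, Nat.card_fin]; rfl
  have := alternatingGroup.isSimpleGroup (α := Fin 6) (by simp)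
  obtain ⟨h1, f, hf, h2⟩ := quot_prod θ hθ (ψ.comp π) (hψ.comp hπ) (alternatingGroup.center_eq_bot (by simp))
    (by rw [H30.AutA6.card_aut, hA, H9.L32.card_SL]; norm_num) (by rw [H9.L32.card_SL]; norm_num) (by rw [hA]; norm_num)
    (IsPGroup.of_card (n := 15) (by
      rw [← card_R F, ← hR, card_map_of_injective (subtype_injective _), card_map_of_injective (subtype_injective _)]))
  rw [← h1] at hR
  have h3 : (R F).subgroupOf (normalizer (V F : Set G)) = f.ker := by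
    rw [h2, ← hR]; exact comap_map_eq_self_of_injective (subtype_injective _) _
  have hn : ((R F).subgroupOf (normalizer (V F : Set G))).Normal := h3 ▸ inferInstance
  exact ⟨V F, ⟨hV, fun _ => V_sq F⟩, card_V F, z_V F, R F, hR.symm,
    special_R F (hR ▸ H1.le_normalizer_pCoreOf _), card_R F, center_R F, hn,
    ⟨(QuotientGroup.quotientMulEquivOfEq h3).trans (QuotientGroup.quotientKerEquivOfSurjective f hf)⟩⟩

end Cfsg.Agent.S5445
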