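import Cfsg.Statements.S5447
import Mathlib
import Cfsg.Agent.Lib.F24T.B1R

set_option autoImplicit false
open Cfsg

namespace Cfsg.Agent.S5447

/-- Let G be a finite group of large Fischer type at the involution z: the generalized Fitting subgroup Q of H = C_G(z) is extraspecial of order 2^13, H has normal subgroups Q ≤ H₁ ≤ H₂ with H₁/Q of order 3, H₂/H₁ the projective special unitary group of dimension 4 over the field with nine elements and H₂ of index 2 in H, and some conjugate of z other than z lies in Q. Let T be a Sylow 2-subgroup of G, A its Thompson subgroup and M = N_G(A) its normalizer. Then M controls fusion in A (elements of A conjugate in G are conjugate in M), and M has exactly two orbits on the non-identity elements of A: those conjugate to z in G and those not. -/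
theorem result {G : Type*} [Group G] [Finite G] (z : G) (Q : Subgroup (Subgroup.centralizer ({z} : Set G))) [Q.Normal] (hF : Cfsg.IsOfLargeFischerTypeAt z Q) (T : Sylow 2 G) (A M : Subgroup G) (hA : A = Cfsg.thompsonSubgroupOf 2 (T : Subgroup G)) (hM : M = Subgroup.normalizer (A : Set G)) : (∀ a ∈ A, ∀ g : G, g * a * g⁻¹ ∈ A → ∃ m ∈ M, m * a * m⁻¹ = g * a * g⁻¹) ∧ (∃ a ∈ A, a ≠ 1 ∧ IsConj z a) ∧ (∃ a ∈ A, a ≠ 1 ∧ ¬ IsConj z a) ∧ ∀ a ∈ A, ∀ b ∈ A, a ≠ 1 → b ≠ 1 → (IsConj z a ↔ IsConj z b) → ∃ m ∈ M, m * a * m⁻¹ = b := by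
  obtain ⟨F, -⟩ := H12.F24.exists_frame z Q hF
  obtain ⟨m⟩ := H94.B1.mini_J F T
  subst hM hA
  exact ⟨fun a ha g hg => m.fusion a ha _ hg (isConj_iff.2 ⟨g, rfl⟩), m.zc, m.exists_nc,
    fun _ ha _ hb => m.orbits ha hb⟩

end Cfsg.Agent.S5447
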