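import Cfsg.Statements.S5449
import Cfsg.Agent.Lib.F24T.Main

set_option autoImplicit false
open Cfsg

namespace Cfsg.Agent.S5449

/-- Let G be a finite group of large Fischer type at the involution z: the generalized Fitting subgroup Q of H = C_G(z) is extraspecial of order 2^13, H has normal subgroups Q ≤ H₁ ≤ H₂ with H₁/Q of order 3, H₂/H₁ the projective special unitary group of dimension 4 over the field with nine elements and H₂ of index 2 in H, and some conjugate of z other than z lies in Q. Then Q contains a four-group E, not containing z and containing an involution not conjugate to z in G, whose centralizer in G is quasisimple with quotient by E isomorphic to the projective special unitary group of dimension 6 over the field with four elements. -/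
theorem result {G : Type*} [Group G] [Finite G] (z : G) (Q : Subgroup (Subgroup.centralizer ({z} : Set G))) [Q.Normal] (hF : Cfsg.IsOfLargeFischerTypeAt z Q) : ∃ E : Subgroup G, E ≤ (Q.map (Subgroup.centralizer ({z} : Set G)).subtype) ∧ Cfsg.IsElementaryAbelian 2 E ∧ Nat.card E = 4 ∧ z ∉ E ∧ (∃ t ∈ E, orderOf t = 2 ∧ ¬ IsConj z t) ∧ Cfsg.IsQuasisimple ↥(Subgroup.centralizer (E : Set G)) ∧ ∃ (_ : (E.subgroupOf (Subgroup.centralizer (E : Set G))).Normal) (K : Type) (_ : Field K) (_ : Fintype K), Fintype.card K = 4 ∧ Nonempty (↥(Subgroup.centralizer (E : Set G)) ⧸ E.subgroupOf (Subgroup.centralizer (E : Set G)) ≃* Cfsg.PSU 6 K 2) := by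
  obtain ⟨F, e⟩ := H12.F24.exists_frame z Q hF
  obtain ⟨C⟩ := H12.F24.exists_coc F
  have f := H73.FD.four C
  have m := fun x => H73.FD.mem_four (x := x) (H73.FD.t_sq F) (H73.FD.a_sq F) (H73.FD.ta_comm F)
  have n : ∀ w ∈ H12.F24.S378, ¬ IsConj z (F.σ w) := fun w h => by simpa [H95.zp_zero] using H73.FD.nc_of_S F h 0
  have hA : Subgroup.closure {F.σ (H94.vec 3), F.σ (H94.vec 192)} ≤ C.A :=
    (Subgroup.closure_le _).2 (by rintro _ (rfl | rfl); exacts [H73.FD.t_mem C, H73.FD.a_mem C])
  refine ⟨Subgroup.closure {F.σ (H94.vec 3), F.σ (H94.vec 192)}, e ▸ H73.FD.E_le F,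
    ⟨⟨⟨fun x y => Subtype.ext (H73.FD.A_comm (hA x.2) (hA y.2))⟩⟩, fun x hx => by rw [pow_two, H73.FD.A_sq (hA hx)]⟩,
    H73.FD.card_four F, fun h => ?_, ⟨_, Subgroup.subset_closure (by simp), f.t2, n _ H12.F24.vec3_mem⟩, ?_⟩
  · rw [m, H73.FD.t_mul_a] at h
    rcases h with h | h | h | h
    exacts [F.z1 h, n _ H12.F24.vec3_mem (h ▸ IsConj.refl z), n _ H73.FD.vec192_mem (h ▸ IsConj.refl z),
      n _ H73.FD.vec195_mem (h ▸ IsConj.refl z)]
  · rw [Subgroup.centralizer_closure]
    exact ⟨f.qs, f.quot⟩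

end Cfsg.Agent.S5449
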