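import Cfsg.Statements.S5451
import Cfsg.Agent.Lib.F24T.Frame
import Cfsg.Agent.Lib.F24T.CocMain
import Cfsg.Agent.Lib.F24T.B2Model
import Cfsg.Agent.S0283

set_option autoImplicit false
open Cfsg

namespace Cfsg.Agent.S5451

open Subgroup H54 H94 H95 H12.F24 H71.F24
open H30 (F4)

variable {G : Type*} [Group G] {z : G}

theorem mem_om {T : Subgroup AV} [IsCyclic T] (hT : K0 ≤ normalizer (T : Set AV)) {y : AV} (hy : y ∈ T) :
    y ∈ zpowers om := by
  have := mem_zpowers_om (y := y) fun k hk => by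
    have h := hom_K0 ((IsCyclic.mulAutMulEquiv T).toMonoidHom.comp (T.normalizerMonoidHom.comp (inclusion hT))) ⟨k, hk⟩
    have h1 : inclusion hT ⟨k, hk⟩ ∈ T.normalizerMonoidHom.ker := (map_eq_one_iff _ (IsCyclic.mulAutMulEquiv T).injective).1 h
    rw [normalizerMonoidHom_ker] at h1
    exact (h1 y hy).symm
  rcases this with rfl | rfl | rfl
  exacts [one_mem _, mem_zpowers _, mul_mem (mem_zpowers _) (mem_zpowers _)]

theorem orderOf_om : orderOf om = 3 :=
  orderOf_eq_prime (by rw [pow_three', om_cube]) om_ne_one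

theorem norm_map (F : Frame z) (N : Subgroup (centralizer ({z} : Set G))) [hN : N.Normal] :
    K0 ≤ normalizer ((N.map F.ρ : Subgroup AV) : Set AV) := fun k hk => by
  obtain ⟨c, rfl⟩ := F.K_le hk
  exact le_normalizer_map _ ⟨c, normalizer_eq_top N ▸ mem_top c, rfl⟩

/-- a frame conjugated by an element of `Q` -/
def cj (F : Frame z) (u : V6) : Frame z :=
  have e : ∀ v, (F.σ u)⁻¹ * F.σ v * F.σ u = F.σ v * zp z (Bv u v) := fun v => by
    rw [mul_assoc, F.σ_comm v u, Bv_comm, mul_assoc, inv_mul_cancel_left]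
  have e' : ∀ v a, F.σ v * zp z a = (F.σ u)⁻¹ * F.σ v * F.σ u * zp z (Bv u v + a) := fun v a => by
    rw [e, mul_assoc, F.zp_add', ← add_assoc, zmod2_add_self, zero_add]
  { σ := fun v => (F.σ u)⁻¹ * F.σ v * F.σ u
    ρ := F.ρ
    x := (F.σ u)⁻¹ * F.x * F.σ u
    z1 := F.z1
    zz := F.zz
    σ_mul := fun v w => by
      rw [mul_assoc _ (F.σ u) (zp _ _), ← F.σ_zp, mul_assoc _ (F.σ (v + w)), ← mul_assoc (F.σ (v + w)), ← F.σ_mul]
      group
    σ_z := fun v => by rw [e]; exact F.elt_z _ _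
    σ_eq := fun v h => by
      rw [e] at h
      rcases h with h | h
      · exact (F.elt_inj (b := 0) (by rw [h, F.σ_zero, zp_zero, one_mul])).1
      · exact (F.elt_inj (b := 1) (by rw [h, F.σ_zero, zp_one, one_mul])).1
    conj := fun c v => by
      obtain ⟨a, h⟩ := PreFrame.Lift.conj_elt (F := F.toPreFrame) ⟨c.2, rfl⟩ v (Bv u v)
      exact ⟨_, by rw [e, h]; exact e' _ _⟩
    ker := fun c h => by
      obtain ⟨v, a, h⟩ := F.ker c h
      exact ⟨v, _, h.trans (e' v a)⟩
    x_z := (((F.lift_σ u).inv.mul F.lift_x).mul (F.lift_σ u)).comm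
    x_cube := by
      rw [show ∀ s x : G, s⁻¹ * x * s * (s⁻¹ * x * s) * (s⁻¹ * x * s) = s⁻¹ * (x * x * x) * s from
        fun s x => by group, F.x_cube]; group
    x_conj := fun v => by rw [← F.x_conj]; group
    K_le := F.K_le
    le_N := F.le_N
    card_range := F.card_range
    range := F.range
    cls := fun v h0 hq => by
      rw [← F.cls v h0 hq, e]
      exact ⟨fun h => h.trans (F.isConj_elt h0 _).symm, fun h => h.trans (F.isConj_elt h0 _)⟩ }

theorem hat_conj {F : Frame z} (c : Coc F) {k : ℕ} (hk : k < 16) (k0 : k ≠ 0) :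
    ∃ d g, F.Lift d g ∧ d * F.x = F.x * d ∧ d * c.hat k * d⁻¹ = c.hat 1 := by
  have h1 := (allLt_iff _ _).1 (show allLt (fun k => band (Nat.beq (dis k k) 0)
    (bimp (Nat.beq (mnorm (cA2 k)) (mnorm mone)) (Nat.beq k 0))) 16 = true by decide +kernel) k hk
  simp only [band_eq_true, bimp_eq_true, Nat.beq_eq] at h1
  obtain ⟨κ, hκ, e⟩ := c.inv_K0 _ (a2_mem k) (fun h => k0 (h1.2 ((mat_a2 k).mnorm_eq (h ▸ mat_one))))
    (by rw [a2_mul, Nat.xor_self, a2_zero])
  obtain ⟨d, hd, hx⟩ := F.lift_K0 hκ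
  have sq : c.hat k * c.hat k = 1 := by
    rw [c.hat_mul k hk k hk, Nat.xor_self, c.hat_zero, h1.1, Nat.cast_zero, zp_zero, one_mul]
  have l1 := c.hat_lift 1 (by norm_num)
  have x1 := c.hat_x 1 (by norm_num)
  have l : F.Lift (d * c.hat k * d⁻¹) (a2 1) := e ▸ (hd.mul (c.hat_lift k hk)).mul hd.inv
  obtain ⟨u, hu⟩ := (c.inv_T 1 (by norm_num) _ l one_ne_zero (by
    rw [show d * c.hat k * d⁻¹ * (d * c.hat k * d⁻¹) = d * (c.hat k * c.hat k) * d⁻¹ by group, sq]; group)).1
    fun h => (c.inv_T k hk _ (c.hat_lift k hk) k0 sq).2 ⟨0, by rw [F.σ_zero]; group⟩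
      (h.trans (isConj_iff.2 ⟨d⁻¹, by group⟩))
  obtain ⟨a, ha⟩ := F.eq_zp_of_comm (c := d * c.hat k * d⁻¹ * (c.hat 1)⁻¹) (by simpa using l.mul l1.inv)
    ((((Commute.mul_left hx (c.hat_x k hk)).mul_left (Commute.inv_left hx)).mul_left (Commute.inv_left x1)).eq)
  refine ⟨d, κ, hd, hx, ?_⟩
  have h2 : F.σ u * zp z 0 = F.σ (a2 1 u) * zp z a := by
    rw [← F.σ_zp (a2 1 u), ← ha, hu, ← l1.conj_lin x1, zp_zero]; group
  rw [← (F.elt_inj h2).2, zp_zero, mul_inv_eq_one] at ha
  exact ha

theorem main [Finite G] (F : Frame z) {C : Type*} [Group C] (j : C →* centralizer ({z} : Set G))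
    (hj : Function.Injective j) (hr : ∀ c, c ∈ j.range ↔ (c : G) * F.x = F.x * c) :
    commutator C = ⊤ ∧ center C = (zpowers om).comap (F.ρ.comp j) ∧ (F.ρ.comp j).range = K0 ∧
      ∃ g, zpowers g = center C ∧ orderOf g = 6 := by
  obtain ⟨c⟩ := exists_coc F
  set π := F.ρ.comp j
  let ι : C →* G := (centralizer ({z} : Set G)).subtype.comp j
  have hι : Function.Injective ι := (subtype_injective _).comp hj
  have hl : ∀ d, F.Lift (ι d) (π d) := fun d => ⟨(j d).2, rfl⟩
  have hx : ∀ d, ι d * F.x = F.x * ι d := fun d => (hr _).1 ⟨d, rfl⟩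
  have ex : ∀ {d g}, F.Lift d g → d * F.x = F.x * d → ∃ e, ι e = d ∧ π e = g := fun {d g} h h' => by
    obtain ⟨e, he⟩ := (hr ⟨d, h.1⟩).2 h'
    have : ι e = d := congrArg Subtype.val he
    exact ⟨e, this, (hl e).unique (this ▸ h)⟩
  have hK : π.range = K0 := by
    refine le_antisymm ?_ fun g hg => ?_
    · rintro _ ⟨d, rfl⟩
      exact (mem_K0_iff (F.range ▸ (hl d).mem_range)).2
        (mem_linV.2 (((hl d).mul F.lift_x).unique (hx d ▸ F.lift_x.mul (hl d))))
    · obtain ⟨d, h, h'⟩ := F.lift_K0 hg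
      obtain ⟨e, -, he⟩ := ex h h'
      exact ⟨e, he⟩
  obtain ⟨z', hz, -⟩ := ex F.lift_z F.x_z.symm
  obtain ⟨x', hx', px⟩ := ex F.lift_x rfl
  have hk : ∀ d, π d = 1 → d ∈ zpowers z' := fun d h => by
    obtain ⟨a, ha⟩ := F.eq_zp_of_comm (h ▸ hl d) (hx d)
    rcases zp_cases z a with e | e <;> rw [e] at ha
    · rw [hι (ha.trans (map_one ι).symm)]; exact one_mem _
    · rw [hι (ha.trans hz.symm)]; exact mem_zpowers _
  have zc : z' ∈ center C := mem_center_iff.2 fun d => hι (by rw [map_mul, map_mul, hz, (hl d).comm])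
  have xc : x' ∈ center C := mem_center_iff.2 fun d => hι (by rw [map_mul, map_mul, hx', hx])
  have oz : orderOf z' = 2 := by rw [← orderOf_injective ι hι, hz, F.orderOf_z]
  have ox : orderOf x' = 3 := orderOf_eq_prime (hι (by rw [map_pow, hx', pow_three', F.x_cube, map_one]))
    fun h => om_ne_one (by rw [← px, h, map_one])
  have hle : ∀ J : Subgroup C, z' ∈ J → x' ∈ J → (zpowers om).comap π ≤ J := fun J h1 h2 d ⟨n, hn⟩ => by
    have := zpowers_le.2 h1 (hk (d * (x' ^ n)⁻¹) (by rw [map_mul, map_inv, map_zpow, px, ← hn, mul_inv_cancel]))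
    exact (J.mul_mem_cancel_right (inv_mem (zpow_mem h2 n))).1 this
  have hc : center C = (zpowers om).comap π := by
    refine le_antisymm (fun d hd => ?_) (hle _ zc xc)
    rcases mem_zpowers_om (y := π d) (fun k hk => by
      obtain ⟨e, rfl⟩ : k ∈ π.range := hK ▸ hk
      rw [← map_mul, ← map_mul, mem_center_iff.1 hd]) with h | h | h <;> rw [mem_comap, h]
    exacts [one_mem _, mem_zpowers _, mul_mem (mem_zpowers _) (mem_zpowers _)]
  have zd : z' ∈ commutator C := by
    have h : ∀ k < 16, ∃ e, ι e = c.hat k := fun k hk => (ex (c.hat_lift k hk) (c.hat_x k hk)).imp fun _ h => h.1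
    choose! f hf using h
    have h1 : ∀ k < 16, k ≠ 0 → Abelianization.of (f k) = Abelianization.of (f 1) := fun k hk k0 => by
      obtain ⟨d, g, h, h', e⟩ := hat_conj c hk k0
      obtain ⟨d, rfl, -⟩ := ex h h'
      rw [← hι (show ι (d * f k * d⁻¹) = ι (f 1) by rw [map_mul, map_mul, map_inv, hf k hk, e, hf 1 (by norm_num)]),
        map_mul, map_mul, map_inv, mul_inv_cancel_comm]
    have h2 : f 1 * f 2 = f 3 := hι (by
      rw [map_mul, hf 1 (by norm_num), hf 2 (by norm_num), hf 3 (by norm_num), c.hat_mul 1 (by norm_num) 2 (by norm_num),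
        (by decide +kernel : dis 1 2 = 0), Nat.cast_zero, zp_zero, mul_one]; rfl)
    have h3 : f 1 * f 4 = f 5 * z' := hι (by
      rw [map_mul, map_mul, hf 1 (by norm_num), hf 4 (by norm_num), hf 5 (by norm_num), hz,
        c.hat_mul 1 (by norm_num) 4 (by norm_num), (by decide +kernel : dis 1 4 = 1), Nat.cast_one, zp_one]; rfl)
    have h4 := congrArg Abelianization.of h2
    have h5 := congrArg Abelianization.of h3
    rw [map_mul, h1 2 (by norm_num) (by norm_num), h1 3 (by norm_num) (by norm_num), mul_eq_left] at h4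
    rw [map_mul, map_mul, h1 4 (by norm_num) (by norm_num), h1 5 (by norm_num) (by norm_num), h4, one_mul,
      one_mul] at h5
    exact (QuotientGroup.eq_one_iff _).1 h5.symm
  refine ⟨eq_top_iff.2 fun d _ => ?_, hc, hK, x' * z', le_antisymm (zpowers_le.2 (mul_mem xc zc)) (hc ▸ hle _ ?_ ?_), ?_⟩
  · have h : (commutator C).map π = K0 := by
      rw [map_commutator_eq, hK, ← map_subtype_commutator, commutator_K0, ← MonoidHom.range_eq_map, range_subtype]
    obtain ⟨e, he, h'⟩ : π d ∈ (commutator C).map π := h ▸ hK ▸ ⟨d, rfl⟩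
    have := zpowers_le.2 zd (hk (e⁻¹ * d) (by rw [map_mul, map_inv, h', inv_mul_cancel]))
    exact ((commutator C).mul_mem_cancel_left (inv_mem he)).1 this
  · refine ⟨(3 : ℕ), (zpow_natCast _ _).trans ?_⟩
    rw [Commute.mul_pow (mem_center_iff.1 zc x'), ← ox, pow_orderOf_eq_one, ox, pow_succ, ← oz, pow_orderOf_eq_one,
      one_mul, one_mul]
  · refine ⟨(4 : ℕ), (zpow_natCast _ _).trans ?_⟩
    rw [Commute.mul_pow (mem_center_iff.1 zc x'), pow_succ, ← ox, pow_orderOf_eq_one, one_mul,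
      show 4 = 2 * 2 from rfl, pow_mul, ← oz, pow_orderOf_eq_one, one_pow, mul_one]
  · rw [Commute.orderOf_mul_eq_mul_orderOf_of_coprime (mem_center_iff.1 zc x') (by rw [ox, oz]; norm_num), ox, oz]


/-- Let G be a finite group of large Fischer type at the involution z: the generalized Fitting subgroup Q of H = C_G(z) is extraspecial of order 2^13, H has normal subgroups Q ≤ H₁ ≤ H₂ with H₁/Q of order 3, H₂/H₁ the projective special unitary group of dimension 4 over the field with nine elements and H₂ of index 2 in H, and some conjugate of z other than z lies in Q. Let X be a subgroup of H of order 3 whose product with Q is normal in H (X maps onto the normal subgroup of order 3 of H/Q). Then the centralizer of X in H is quasisimple with cyclic centre of order 6 and central quotient isomorphic to the projective special unitary group of dimension 4 over the field with nine elements. -/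
theorem result {G : Type*} [Group G] [Finite G] (z : G) (Q : Subgroup (Subgroup.centralizer ({z} : Set G))) [Q.Normal] (hF : Cfsg.IsOfLargeFischerTypeAt z Q) (X : Subgroup (Subgroup.centralizer ({z} : Set G))) (hX : Nat.card X = 3) (hXQ : (X ⊔ Q).Normal) : Cfsg.IsQuasisimple ↥(Subgroup.centralizer ((X : Subgroup (Subgroup.centralizer ({z} : Set G))) : Set (Subgroup.centralizer ({z} : Set G)))) ∧ IsCyclic ↥(Subgroup.center ↥(Subgroup.centralizer ((X : Subgroup (Subgroup.centralizer ({z} : Set G))) : Set (Subgroup.centralizer ({z} : Set G))))) ∧ Nat.card ↥(Subgroup.center ↥(Subgroup.centralizer ((X : Subgroup (Subgroup.centralizer ({z} : Set G))) : Set (Subgroup.centralizer ({z} : Set G))))) = 6 ∧ ∃ (K : Type) (_ : Field K) (_ : Fintype K), Fintype.card K = 9 ∧ Nonempty (↥(Subgroup.centralizer ((X : Subgroup (Subgroup.centralizer ({z} : Set G))) : Set (Subgroup.centralizer ({z} : Set G)))) ⧸ Subgroup.center ↥(Subgroup.centralizer ((X : Subgroup (Subgroup.centralizer ({z}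 : Set G))) : Set (Subgroup.centralizer ({z} : Set G)))) ≃* Cfsg.PSU 4 K 3) := by
  obtain ⟨F, hQ⟩ := exists_frame z Q hF
  obtain ⟨-, N, M, hN, hM, QN, NM, cN, ⟨K, _, _, hK, ⟨e⟩⟩, iM⟩ := hF
  have hk : F.ρ.ker = Q := by
    rw [F.ker_eq, hQ]; exact comap_map_eq_self_of_injective (subtype_injective _) _
  have h3 : Fact (Nat.Prime 3) := ⟨by norm_num⟩
  -- a generator of `X` over `ω`
  obtain ⟨y, hy, ly⟩ : ∃ y ∈ X, F.ρ y = om := by
    have := isCyclic_of_prime_card hX
    have e : (X ⊔ Q).map F.ρ = X.map F.ρ := by rw [Subgroup.map_sup, (Subgroup.map_eq_bot_iff _).2 hk.ge, sup_bot_eq]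
    have : IsCyclic (X.map F.ρ) := isCyclic_of_surjective _ (F.ρ.subgroupMap_surjective X)
    have : Nontrivial X := Finite.one_lt_card_iff_nontrivial.1 (by omega)
    obtain ⟨y, y1⟩ := exists_ne (1 : X)
    have y3 : y ^ 3 = 1 := hX ▸ pow_card_eq_one'
    have h1 : F.ρ y ≠ 1 := fun h => y1 (by
      have h4 : y ^ 4 = 1 := Subtype.ext (Subtype.ext (F.L3.pow_four (PreFrame.Lift.mem_Q ⟨y.1.2, h⟩)))
      rwa [pow_succ, y3, one_mul] at h4)
    have h2 : F.ρ y ∈ zpowers om := mem_om (T := X.map F.ρ) (e ▸ norm_map F _) ⟨y, y.2, rfl⟩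
    obtain ⟨n, hn⟩ := mem_zpowers_of_prime_card (G := zpowers om) (by rw [Nat.card_zpowers, orderOf_om])
      (g := ⟨_, h2⟩) (g' := ⟨om, mem_zpowers _⟩) fun h => h1 (congrArg Subtype.val h)
    exact ⟨y ^ n, zpow_mem y.2 n, by rw [map_zpow]; exact congrArg Subtype.val hn⟩
  have y3 : y ^ 3 = 1 := congrArg Subtype.val (show (⟨y, hy⟩ : X) ^ 3 = 1 from hX ▸ pow_card_eq_one')
  obtain ⟨u, hu⟩ := PreFrame.exists_conj_x (F := F.toPreFrame) ⟨y.2, ly⟩
    (by rw [← pow_three']; exact congrArg Subtype.val y3)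
  have hx : (cj F u).x = y := by
    show (F.σ u)⁻¹ * F.x * F.σ u = y
    rw [← hu]; group
  obtain ⟨h1, h2, h4, g, h5, h6⟩ := main (cj F u) (centralizer (X : Set (centralizer ({z} : Set G)))).subtype
    (subtype_injective _) fun c => by
      rw [range_subtype, hx]
      refine ⟨fun h => (congrArg Subtype.val (h y hy)).symm, fun h w hw => ?_⟩
      obtain ⟨n, hn⟩ := mem_zpowers_of_prime_card hX (g := ⟨y, hy⟩) (g' := ⟨w, hw⟩)
        fun h => om_ne_one (by rw [← ly, show y = 1 from congrArg Subtype.val h, map_one])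
      rw [← show y ^ n = w from congrArg Subtype.val hn]
      exact (Commute.zpow_left (Subtype.ext h.symm) n).eq
  change _ = (zpowers om).comap (F.ρ.comp _) at h2
  change (F.ρ.comp _).range = K0 at h4
  have eN : N = (zpowers om).comap F.ρ := by
    have c3 : Nat.card (N.map F.ρ) = 3 := by
      have := (Q.subgroupOf N).card_mul_index
      rw [Nat.card_congr (subgroupOfEquivOfLe QN).toEquiv, cN, mul_comm 3] at this
      rw [← relIndex_ker, hk]
      exact Nat.eq_of_mul_eq_mul_left Nat.card_pos this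
    have := isCyclic_of_prime_card c3
    rw [← eq_of_le_of_card_ge (fun _ => mem_om (norm_map F N)) (by rw [c3, Nat.card_zpowers, orderOf_om]),
      comap_map_eq_self (hk ▸ QN)]
  have hCM : centralizer (X : Set (centralizer ({z} : Set G))) ≤ M := fun c hc => by
    have : commutator _ ≤ M.subgroupOf (centralizer (X : Set (centralizer ({z} : Set G)))) :=
      commutator_le.2 fun a _ b _ => by
        simp only [mem_subgroupOf, commutatorElement_def, coe_mul, coe_inv, mul_mem_iff_of_index_two iM, inv_mem_iff]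
        tauto
    exact this (x := ⟨c, hc⟩) (h1 ▸ mem_top _)
  have eM : M = K0.comap F.ρ := by
    have i2 : (K0.comap F.ρ).index = 2 := by rw [index_comap, F.range, relIndex_K0_H0]
    refine (eq_of_le_of_card_ge (fun c hc => ?_) ?_).symm
    · obtain ⟨d, hd⟩ : F.ρ c ∈ (F.ρ.comp (centralizer (X : Set (centralizer ({z} : Set G)))).subtype).range :=
        h4 ▸ hc
      refine (M.mul_mem_cancel_left (inv_mem (hCM d.2))).1 (NM (QN (hk ▸ ?_)))
      rw [MonoidHom.mem_ker, map_mul, map_inv, ← hd]; exact inv_mul_cancel _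
    · have a := M.card_mul_index
      have b := (K0.comap F.ρ).card_mul_index
      rw [iM] at a; rw [i2] at b
      omega
  let f := (QuotientGroup.mk' (N.subgroupOf M)).comp (inclusion hCM)
  have fs : Function.Surjective f := fun m => by
    obtain ⟨m, rfl⟩ := QuotientGroup.mk'_surjective _ m
    obtain ⟨c, hc⟩ : F.ρ m ∈ (F.ρ.comp (centralizer (X : Set (centralizer ({z} : Set G)))).subtype).range :=
      h4 ▸ (eM ▸ m.2 : (m : centralizer ({z} : Set G)) ∈ K0.comap F.ρ)
    refine ⟨c, QuotientGroup.eq.2 (QN (hk ▸ ?_))⟩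
    show F.ρ ((c : centralizer ({z} : Set G))⁻¹ * m) = 1
    rw [map_mul, map_inv, ← hc]; exact inv_mul_cancel _
  have fk : center _ = f.ker := by
    rw [h2, ← comap_comap, ← eN]
    ext c
    exact (QuotientGroup.eq_one_iff (N := N.subgroupOf M) (inclusion hCM c)).symm
  have e' := ((QuotientGroup.quotientMulEquivOfEq fk).trans (QuotientGroup.quotientKerEquivOfSurjective f fs)).trans e
  have := Cfsg.Agent.S0283.result (q := 3) hK 4 (by norm_num) (by norm_num)
  exact ⟨⟨⟨h1⟩, e'.isSimpleGroup⟩, h5 ▸ inferInstance, by rw [← h5, Nat.card_zpowers, h6], K, _, _, hK, ⟨e'⟩⟩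

end Cfsg.Agent.S5451
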