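import Mathlib
import Cfsg.Statements.S5454
import Cfsg.Agent.Lib.FiI.NS
-- import your own Cfsg.Agent.* helpers here

set_option autoImplicit false
open Cfsg

namespace Cfsg.Agent.S5454



/-- Let G be a finite group with an involution d whose centralizer C is quasisimple with C modulo the subgroup generated by d isomorphic to the projective special unitary group of dimension 6 over the field with four elements, and suppose some conjugate of d other than d commutes with d. Let S be a Sylow 2-subgroup of C and A the Thompson subgroup of S (generated by the elementary abelian subgroups of S of largest order), regarded as a subgroup of G. Then A is elementary abelian of order 2^10, exactly 22 conjugates of d lie in A, and the normalizer of A permutes them transitively. -/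
theorem result {G : Type*} [Group G] [Finite G] (d : G) (hd : orderOf d = 2) (hq : Cfsg.IsQuasisimple ↥(Subgroup.centralizer ({d} : Set G))) [hzn : ((Subgroup.zpowers d).subgroupOf (Subgroup.centralizer ({d} : Set G))).Normal] (K : Type) [Field K] [Fintype K] (hK : Fintype.card K = 4) (e : ↥(Subgroup.centralizer ({d} : Set G)) ⧸ (Subgroup.zpowers d).subgroupOf (Subgroup.centralizer ({d} : Set G)) ≃* Cfsg.PSU 6 K 2) (hnwc : ∃ g : G, g * d * g⁻¹ ∈ Subgroup.centralizer ({d} : Set G) ∧ g * d * g⁻¹ ≠ d) (S : Sylow 2 ↥(Subgroup.centralizer ({d} : Set G))) (A : Subgroup G) (hA : A = (Cfsg.thompsonSubgroupOf 2 (S : Subgroup ↥(Subgroup.centralizer ({d} : Set G)))).map (Subgroup.centralizer ({d} : Set G)).subtype) : Cfsg.IsElementaryAbelian 2 A ∧ Nat.card A = 2 ^ 10 ∧ Set.ncard {x : G | x ∈ A ∧ IsConj d x} = 22 ∧ ∀ x ∈ A, ∀ y ∈ A, IsConj d x → IsConj d y → ∃ n ∈ Subgroup.normalizer (A : Set G), n * x * n⁻¹ = y := by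
  have ha := H18.Fi22.model.x_mem (j := 0) (by norm_num)
  have := H18.Fi22.model.finite
  obtain ⟨R, ℓ, h⟩ := H80.FI.loc22 H18.Fi22.model hd hq hK e hnwc
  obtain ⟨h1, h2, h3⟩ := h.thompson (H80.FI.sys22 H18.Fi22.model ha) S A hA
  rw [Nat.card_zpowers, (H80.FI.tc H18.Fi22.model).ord _ ha] at h2
  exact ⟨h1, by omega, h3⟩

end Cfsg.Agent.S5454
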