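import Mathlib
import Cfsg.Statements.S5459
-- import your own Cfsg.Agent.* helpers here

set_option autoImplicit false
open Cfsg

namespace Cfsg.Agent.S5459

/-- conjugation as a graph homomorphism -/
def conjHom {G : Type*} [Group G] (d g : G) :
    commutingGraph (conjugatesOf d) →g commutingGraph (conjugatesOf d) where
  toFun x := ⟨g * x * g⁻¹, IsConj.trans x.2 (isConj_iff.2 ⟨g, rfl⟩)⟩
  map_rel' := by
    intro a b h
    simp only [commutingGraph, SimpleGraph.fromRel_adj] at h ⊢
    refine ⟨fun e => h.1 ?_, Or.inl ?_⟩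
    · apply Subtype.ext
      simpa using congrArg Subtype.val e
    · have : Commute (a : G) b := h.2.elim id Commute.symm
      have := this.eq
      show g * a * g⁻¹ * (g * b * g⁻¹) = g * b * g⁻¹ * (g * a * g⁻¹)
      calc g * a * g⁻¹ * (g * b * g⁻¹) = g * (a * b) * g⁻¹ := by group
        _ = g * (b * a) * g⁻¹ := by rw [this]
        _ = _ := by group

theorem exists_sq {K : Type*} [Group K] [Finite K] (h : Odd (Nat.card K)) (c : K) :
    ∃ w : K, w * w = c := by
  obtain ⟨m, hm⟩ := h
  refine ⟨c ^ (m + 1), ?_⟩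
  rw [← pow_add, show m + 1 + (m + 1) = Nat.card K + 1 by omega, pow_succ, pow_card_eq_one', one_mul]

/-- Let G be a finite group with a quasisimple normal subgroup L and an involution d such that G is generated by L and d, the centre of L has odd order, and d inverts every element of the centre of L. If the commuting graph on the conjugacy class of the image of d in G modulo the centre of L is connected, then the commuting graph on the conjugacy class of d is connected. -/
theorem result {G : Type*} [Group G] [Finite G] (L : Subgroup G) [L.Normal] (hL : Cfsg.IsQuasisimple ↥L) (d : G) (hd : orderOf d = 2) (hgen : L ⊔ Subgroup.zpowers d = ⊤) (hodd : Odd (Nat.card ↥(Subgroup.center ↥L))) (hinv : ∀ c ∈ (Subgroup.center ↥L).map L.subtype, d * c * d⁻¹ = c⁻¹) [hn : ((Subgroup.center ↥L).map L.subtype).Normal] (hconn : (Cfsg.commutingGraph (conjugatesOf (QuotientGroup.mk d : G ⧸ (Subgroup.center ↥L).map L.subtype))).Connected) : (Cfsg.commutingGraph (conjugatesOf d)).Connected := by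
  set Z : Subgroup G := (Subgroup.center ↥L).map L.subtype with hZ
  have hZodd : Odd (Nat.card Z) := by
    rw [hZ, Subgroup.card_map_of_injective L.subtype_injective]; exact hodd
  have hsq : ∀ c ∈ Z, ∃ w ∈ Z, w * w = c := by
    intro c hc
    obtain ⟨w, hw⟩ := exists_sq hZodd ⟨c, hc⟩
    exact ⟨w, w.2, congrArg Subtype.val hw⟩
  have hdd : d * d = 1 := by rw [← pow_two, ← hd]; exact pow_orderOf_eq_one d
  have hD2 : ∀ x ∈ conjugatesOf d, x * x = 1 := by
    intro x hx
    obtain ⟨g, rfl⟩ := isConj_iff.1 hx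
    calc g * d * g⁻¹ * (g * d * g⁻¹) = g * (d * d) * g⁻¹ := by group
      _ = 1 := by rw [hdd]; group
  have hDinv : ∀ x ∈ conjugatesOf d, ∀ c ∈ Z, x * c = c⁻¹ * x := by
    intro x hx c hc
    obtain ⟨g, rfl⟩ := isConj_iff.1 hx
    have := hinv (g⁻¹ * c * g) (by simpa using hn.conj_mem c hc g⁻¹)
    calc g * d * g⁻¹ * c = g * (d * (g⁻¹ * c * g) * d⁻¹) * d * g⁻¹ := by group
      _ = g * (g⁻¹ * c * g)⁻¹ * d * g⁻¹ := by rw [this]
      _ = _ := by group
  have hDmul : ∀ x ∈ conjugatesOf d, ∀ c ∈ Z, ∃ w ∈ Z, x * c = w * x * w⁻¹ := by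
    intro x hx c hc
    obtain ⟨w, hw, hw2⟩ := hsq c⁻¹ (Z.inv_mem hc)
    refine ⟨w, hw, ?_⟩
    rw [mul_assoc, hDinv x hx _ (Z.inv_mem hw), inv_inv, ← mul_assoc, hw2, hDinv x hx c hc]
  have hDmem : ∀ x ∈ conjugatesOf d, ∀ c ∈ Z, x * c ∈ conjugatesOf d := by
    intro x hx c hc
    obtain ⟨w, -, hw⟩ := hDmul x hx c hc
    exact IsConj.trans hx (isConj_iff.2 ⟨w, hw.symm⟩)
  let d0 : conjugatesOf d := ⟨d, IsConj.refl d⟩
  -- lifting of paths
  have lift : ∀ y : conjugatesOf (QuotientGroup.mk d : G ⧸ Z), ∃ x : conjugatesOf d,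
      (commutingGraph (conjugatesOf d)).Reachable d0 x ∧ (QuotientGroup.mk (x : G) : G ⧸ Z) = y := by
    intro y
    have h := hconn.preconnected ⟨QuotientGroup.mk d, IsConj.refl _⟩ y
    rw [SimpleGraph.reachable_iff_reflTransGen] at h
    induction h with
    | refl => exact ⟨d0, SimpleGraph.Reachable.refl _, rfl⟩
    | @tail b c _ hbc ih =>
      obtain ⟨x, hx, hxb⟩ := ih
      simp only [commutingGraph, SimpleGraph.fromRel_adj] at hbc
      have hcomm : Commute (b : G ⧸ Z) c := hbc.2.elim id Commute.symm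
      obtain ⟨c, hc⟩ := c
      obtain ⟨g, rfl⟩ := isConj_iff.1 hc
      induction g using QuotientGroup.induction_on with
      | H g =>
      set y := g * d * g⁻¹ with hy
      have hyD : y ∈ conjugatesOf d := isConj_iff.2 ⟨g, rfl⟩
      have e : (QuotientGroup.mk g * QuotientGroup.mk d * (QuotientGroup.mk g)⁻¹ : G ⧸ Z)
          = QuotientGroup.mk y := by simp [hy]
      rw [← hxb] at hcomm
      simp only [e] at hcomm
      have hm : (x * y)⁻¹ * (y * x) ∈ Z := by
        rw [← QuotientGroup.eq]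
        exact hcomm.eq
      obtain ⟨w, hw, hw2⟩ := hsq _ hm
      have hx2 := hD2 x x.2
      have hy2 := hD2 y hyD
      have hxi : (x : G)⁻¹ = x := inv_eq_of_mul_eq_one_right hx2
      have hyi : y⁻¹ = y := inv_eq_of_mul_eq_one_right hy2
      have hcm : Commute (x : G) (y * w) := by
        show (x : G) * (y * w) = y * w * x
        have e1 : w * x = x * w⁻¹ := by
          rw [hDinv x x.2 _ (Z.inv_mem hw), inv_inv]
        have e2 : y * x = x * y * (w * w) := by rw [hw2]; group
        rw [mul_assoc y w, e1, ← mul_assoc y, e2]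
        group
      refine ⟨⟨y * w, hDmem y hyD w hw⟩, ?_, ?_⟩
      · by_cases hxy : x = ⟨y * w, hDmem y hyD w hw⟩
        · rw [← hxy]; exact hx
        · refine hx.trans (SimpleGraph.Adj.reachable ?_)
          simp only [commutingGraph, SimpleGraph.fromRel_adj]
          exact ⟨hxy, Or.inl hcm⟩
      · simp only [e]
        symm
        rw [QuotientGroup.eq]
        simpa using hw
  let S : Subgroup G :=
    { carrier := {g | (commutingGraph (conjugatesOf d)).Reachable d0 (conjHom d g d0)}
      one_mem' := by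
        have : conjHom d 1 d0 = d0 := Subtype.ext (by simp [conjHom])
        simp only [Set.mem_ofPred_eq, this]
        exact SimpleGraph.Reachable.refl _
      mul_mem' := by
        intro a b ha hb
        have h := SimpleGraph.Reachable.map (conjHom d a) hb
        have : conjHom d a (conjHom d b d0) = conjHom d (a * b) d0 :=
          Subtype.ext (by simp [conjHom, mul_assoc])
        rw [this] at h
        exact SimpleGraph.Reachable.trans ha h
      inv_mem' := by
        intro a ha
        have h := SimpleGraph.Reachable.map (conjHom d a⁻¹) ha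
        have : conjHom d a⁻¹ (conjHom d a d0) = d0 :=
          Subtype.ext (by simp [conjHom, mul_assoc])
        rw [this] at h
        exact h.symm }
  have hSZ : ∀ g : G, ∃ s ∈ S, ∃ w ∈ Z, g = w * s := by
    intro g
    obtain ⟨x, hx, hxe⟩ := lift ⟨QuotientGroup.mk (g * d * g⁻¹), isConj_iff.2 ⟨QuotientGroup.mk g, by simp⟩⟩
    rw [QuotientGroup.eq] at hxe
    obtain ⟨w, hw, hwe⟩ := hDmul x x.2 _ hxe
    refine ⟨w⁻¹ * g, ?_, w, hw, by group⟩
    show (commutingGraph (conjugatesOf d)).Reachable d0 (conjHom d (w⁻¹ * g) d0)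
    have : conjHom d (w⁻¹ * g) d0 = x := by
      apply Subtype.ext
      show w⁻¹ * g * d * (w⁻¹ * g)⁻¹ = x
      calc w⁻¹ * g * d * (w⁻¹ * g)⁻¹ = w⁻¹ * (x * ((x : G)⁻¹ * (g * d * g⁻¹))) * w := by group
        _ = w⁻¹ * (w * x * w⁻¹) * w := by rw [hwe]
        _ = _ := by group
    rw [this]; exact hx
  have hZL : ∀ w ∈ Z, w ∈ L ∧ ∀ l ∈ L, l * w = w * l := by
    rintro _ ⟨w, hw, rfl⟩
    exact ⟨w.2, fun l hl => congrArg Subtype.val (Subgroup.mem_center_iff.1 hw ⟨l, hl⟩)⟩
  have hLS : L ≤ S := by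
    have h1 : (⊤ : Subgroup L) ≤ S.subgroupOf L := by
      have := hL.1
      rw [← Group.IsPerfect.commutator_eq_top, commutator_def, Subgroup.commutator_le]
      intro a _ b _
      obtain ⟨s, hs, w, hw, e⟩ := hSZ a
      obtain ⟨s', hs', w', hw', e'⟩ := hSZ b
      have hsL : s ∈ L := by
        have := L.mul_mem (L.inv_mem (hZL w hw).1) a.2
        rw [e] at this; simpa using this
      have hsL' : s' ∈ L := by
        have := L.mul_mem (L.inv_mem (hZL w' hw').1) b.2
        rw [e'] at this; simpa using this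
      rw [Subgroup.mem_subgroupOf, commutatorElement_def]
      simp only [Subgroup.coe_mul, InvMemClass.coe_inv]
      have c1 := (hZL w hw).2
      have c2 := (hZL w' hw').2
      have : (a : G) * b * (a : G)⁻¹ * (b : G)⁻¹ = s * s' * s⁻¹ * s'⁻¹ := by
        have f1 : (a : G) * b * (a : G)⁻¹ = s * b * s⁻¹ := by
          rw [e]
          calc w * s * b * (w * s)⁻¹ = w * (s * b * s⁻¹) * w⁻¹ := by group
            _ = (s * b * s⁻¹) * w * w⁻¹ := by
              rw [c1 _ (L.mul_mem (L.mul_mem hsL b.2) (L.inv_mem hsL))]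
            _ = _ := by group
        rw [f1, e']
        calc s * (w' * s') * s⁻¹ * (w' * s')⁻¹ = (s * w') * (s' * s⁻¹ * s'⁻¹) * w'⁻¹ := by group
          _ = w' * (s * s' * s⁻¹ * s'⁻¹) * w'⁻¹ := by rw [c2 s hsL]; group
          _ = (s * s' * s⁻¹ * s'⁻¹) * w' * w'⁻¹ := by
              rw [c2 _ (L.mul_mem (L.mul_mem (L.mul_mem hsL hsL') (L.inv_mem hsL)) (L.inv_mem hsL'))]
          _ = _ := by group
      rw [this]
      exact S.mul_mem (S.mul_mem (S.mul_mem hs hs') (S.inv_mem hs)) (S.inv_mem hs')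
    intro l hl
    exact h1 (Subgroup.mem_top (⟨l, hl⟩ : L))
  have hdS : d ∈ S := by
    show (commutingGraph (conjugatesOf d)).Reachable d0 (conjHom d d d0)
    have : conjHom d d d0 = d0 := Subtype.ext (by simp [conjHom, d0])
    rw [this]
  have hS : ∀ g, g ∈ S := by
    intro g
    have : L ⊔ Subgroup.zpowers d ≤ S := sup_le hLS (by simpa using hdS)
    rw [hgen] at this
    exact this trivial
  have hall : ∀ x, (commutingGraph (conjugatesOf d)).Reachable d0 x := by
    rintro ⟨x, hx⟩
    obtain ⟨g, rfl⟩ := isConj_iff.1 hx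
    exact hS g
  have : Nonempty (conjugatesOf d) := ⟨d0⟩
  exact ⟨fun x y => (hall x).symm.trans (hall y)⟩

end Cfsg.Agent.S5459
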