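import Mathlib
import Cfsg.Statements.S5462
import Cfsg.Agent.Lib.Fi22I.Inv
import Cfsg.Agent.Lib.Fischer.T22

set_option autoImplicit false
open Cfsg

namespace Cfsg.Agent.S5462

open H94 H96.F22

/-- Let G be a finite group with trivial centre generated by a conjugation-invariant set D of 3-transpositions on which it acts primitively, such that for some d in D the subgroup generated by the members of D other than d commuting with d has central largest normal 2- and 3-subgroups, and suppose G with D is of type M(22). Then every automorphism of G of order 2 fixes some member of D. -/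
theorem result {G : Type*} [Group G] [Finite G] {D : Set G} (hD : Cfsg.IsThreeTranspositionGroup D) (hprim : Cfsg.IsPrimitiveUnderConj D) (d₀ : G) (hd₀ : d₀ ∈ D) (h3 : Cfsg.pCore 3 ↥(Subgroup.closure {y : G | y ∈ D ∧ y ≠ d₀ ∧ Commute d₀ y}) ≤ Subgroup.center ↥(Subgroup.closure {y : G | y ∈ D ∧ y ≠ d₀ ∧ Commute d₀ y})) (h2 : Cfsg.pCore 2 ↥(Subgroup.closure {y : G | y ∈ D ∧ y ≠ d₀ ∧ Commute d₀ y}) ≤ Subgroup.center ↥(Subgroup.closure {y : G | y ∈ D ∧ y ≠ d₀ ∧ Commute d₀ y})) (h22 : Cfsg.IsOfTypeM22 G D) (φ : MulAut G) (hφ : orderOf φ = 2) : ∃ d ∈ D, φ d = d := by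
  obtain ⟨M⟩ := model22_of_type hD hprim h22
  rcases inv_cases M (mem_AD_all M φ) (mul_self_of_orderOf hφ) with
    ⟨g, m, -, ⟨l, -, -, h3, h4, rfl⟩, rfl⟩ | ⟨ψ, hψ, ys, h1, -, h3, e⟩
  · cases l with
    | nil => exact ⟨d₀, hd₀, by simp⟩
    | cons a l =>
      refine ⟨a, h3 a (by simp), conj_eq_self_iff.2 ?_⟩
      exact Commute.list_prod_left _ _ fun b hb => h4 b hb a (by simp)
  · obtain ⟨b1, -, b3⟩ := okP_spec M h1
    have : ∃ i, i < 3510 ∧ (sig M * MulAut.conj (w M ys)) (M.x i) = M.x i := by
      cases ys with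
      | nil => exact ⟨43, by norm_num, by
          rw [w_nil, map_one, mul_one, sig_x M (by norm_num), show gt dlt 43 = 43 from by decide +kernel]⟩
      | cons a l =>
        have ha := b1 a (by simp)
        refine ⟨a, ha, ?_⟩
        rw [MulAut.mul_apply, show MulAut.conj (w M (a :: l)) (M.x a) = M.x a from conj_eq_self_iff.2
          (Commute.list_prod_left _ _ (by
            simp only [List.forall_mem_map]; exact fun b hb => b3 b hb a (by simp))), sig_x M ha, h3 a (by simp)]
    obtain ⟨i, hi, h⟩ := this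
    refine ⟨ψ⁻¹ (M.x i), ((AD D).inv_mem hψ _).2 (M.x_mem hi), ψ.injective ?_⟩
    rw [← e] at h
    simpa using h

end Cfsg.Agent.S5462
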