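import Mathlib
import Cfsg.Statements.S5463
import Cfsg.Agent.Lib.Fi22I.Chain
import Cfsg.Agent.Lib.Fischer.T22

set_option autoImplicit false
open Cfsg

namespace Cfsg.Agent.S5463

open H94 H96.F22

theorem pr_of {G : Type*} [Group G] {D : Set G} {j : G} {l : List G}
    (h : l.Nodup ∧ l.length = 2 ∧ (∀ a ∈ l, a ∈ D) ∧ (∀ a ∈ l, ∀ b ∈ l, Commute a b) ∧ l.prod = j) :
    ∃ a b, l = [a, b] ∧ Pr D a b ∧ a * b = j := by
  obtain ⟨h1, h2, h3, h4, h5⟩ := h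
  obtain ⟨a, b, rfl⟩ := List.length_eq_two.1 h2
  exact ⟨a, b, rfl, ⟨h3 a (by simp), h3 b (by simp), by simpa using h1, h4 a (by simp) b (by simp)⟩,
    by simpa using h5⟩

theorem tri_iff {G : Type*} [Group G] {D : Set G} {j : G} {l : List G} :
    (l.Nodup ∧ l.length = 3 ∧ (∀ a ∈ l, a ∈ D) ∧ (∀ a ∈ l, ∀ b ∈ l, Commute a b) ∧ l.prod = j) ↔
    ∃ a b c, l = [a, b, c] ∧ Tri D a b c ∧ a * b * c = j := by
  constructor
  · rintro ⟨h1, h2, h3, h4, h5⟩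
    obtain ⟨a, b, c, rfl⟩ := List.length_eq_three.1 h2
    simp only [List.nodup_cons, List.mem_cons, List.not_mem_nil, or_false, not_or] at h1
    exact ⟨a, b, c, rfl, ⟨⟨h3 a (by simp), h3 b (by simp), h1.1.1, h4 a (by simp) b (by simp)⟩,
      ⟨h3 a (by simp), h3 c (by simp), h1.1.2, h4 a (by simp) c (by simp)⟩,
      ⟨h3 b (by simp), h3 c (by simp), h1.2.1, h4 b (by simp) c (by simp)⟩⟩, by simpa [mul_assoc] using h5⟩
  · rintro ⟨a, b, c, rfl, h, rfl⟩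
    refine ⟨by simp [h.p12.ne, h.p13.ne, h.p23.ne], rfl, by simp [h.p12.m1, h.p12.m2, h.p13.m2], ?_,
      by simp [mul_assoc]⟩
    simp [h.p12.cm, h.p13.cm, h.p23.cm, h.p12.cm.symm, h.p13.cm.symm, h.p23.cm.symm]

theorem same {G : Type*} [Group G] {D : Set G} (M : Model22 G D) {a b c p q r : G} (h : Tri D a b c)
    (h' : Tri D p q r) (e : a * b * c = p * q * r) (ha : In3 a p q r) :
    ∀ x : G, x ∈ [a, b, c] ↔ x ∈ [p, q, r] := by
  intro x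
  obtain ⟨hb, hc⟩ := in3_of_in3 M h h' e ha
  simp only [List.mem_cons, List.not_mem_nil, or_false]
  refine ⟨?_, in3_rev h ha hb hc⟩
  rintro (rfl | rfl | rfl)
  exacts [ha, hb, hc]


/-- Let G be a finite group with trivial centre generated by a conjugation-invariant set D of 3-transpositions on which it acts primitively, such that for some d in D the subgroup generated by the members of D other than d commuting with d has central largest normal 2- and 3-subgroups, and suppose G with D is of type M(22). A product j of two distinct commuting members of D determines the pair: any two 2-element sets of commuting members of D with product j coincide. A product j of three distinct pairwise commuting members of D arises from exactly two such 3-element sets. -/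
theorem result {G : Type*} [Group G] [Finite G] {D : Set G} (hD : Cfsg.IsThreeTranspositionGroup D) (hprim : Cfsg.IsPrimitiveUnderConj D) (d₀ : G) (hd₀ : d₀ ∈ D) (h3 : Cfsg.pCore 3 ↥(Subgroup.closure {y : G | y ∈ D ∧ y ≠ d₀ ∧ Commute d₀ y}) ≤ Subgroup.center ↥(Subgroup.closure {y : G | y ∈ D ∧ y ≠ d₀ ∧ Commute d₀ y})) (h2 : Cfsg.pCore 2 ↥(Subgroup.closure {y : G | y ∈ D ∧ y ≠ d₀ ∧ Commute d₀ y}) ≤ Subgroup.center ↥(Subgroup.closure {y : G | y ∈ D ∧ y ≠ d₀ ∧ Commute d₀ y})) (h22 : Cfsg.IsOfTypeM22 G D) : (∀ (j : G) (l l' : List G), (l.Nodup ∧ l.length = 2 ∧ (∀ a ∈ l, a ∈ D) ∧ (∀ a ∈ l, ∀ b ∈ l, Commute a b) ∧ l.prod = j) → (l'.Nodup ∧ l'.length = 2 ∧ (∀ a ∈ l', a ∈ D) ∧ (∀ a ∈ l', ∀ b ∈ l', Commute a b) ∧ l'.prod = j) → (∀ x : G, x ∈ l ↔ x ∈ l')) ∧ ∀ (j : G) (l₀ : List G), (l₀.Nodup ∧ l₀.length = 3 ∧ (∀ a ∈ l₀, a ∈ D) ∧ (∀ a ∈ l₀, ∀ b ∈ l₀, Commute a b) ∧ l₀.prod = j) → ∃ l₁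 l₂ : List G, (l₁.Nodup ∧ l₁.length = 3 ∧ (∀ a ∈ l₁, a ∈ D) ∧ (∀ a ∈ l₁, ∀ b ∈ l₁, Commute a b) ∧ l₁.prod = j) ∧ (l₂.Nodup ∧ l₂.length = 3 ∧ (∀ a ∈ l₂, a ∈ D) ∧ (∀ a ∈ l₂, ∀ b ∈ l₂, Commute a b) ∧ l₂.prod = j) ∧ ¬ (∀ x : G, x ∈ l₁ ↔ x ∈ l₂) ∧ ∀ l : List G, (l.Nodup ∧ l.length = 3 ∧ (∀ a ∈ l, a ∈ D) ∧ (∀ a ∈ l, ∀ b ∈ l, Commute a b) ∧ l.prod = j) → ((∀ x : G, x ∈ l ↔ x ∈ l₁) ∨ (∀ x : G, x ∈ l ↔ x ∈ l₂)) := by
  obtain ⟨M⟩ := model22_of_type hD hprim h22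
  refine ⟨fun j l l' h h' x => ?_, fun j l₀ h => ?_⟩
  · obtain ⟨a, b, rfl, h1, rfl⟩ := pr_of h
    obtain ⟨c, d, rfl, h2, e⟩ := pr_of h'
    rcases pair_unique M h2 h1 e with ⟨rfl, rfl⟩ | ⟨rfl, rfl⟩ <;> simp [or_comm]
  · obtain ⟨a, b, c, rfl, h1, rfl⟩ := tri_iff.1 h
    obtain ⟨M, rfl, rfl, rfl⟩ := model3 M h1
    refine ⟨_, _, h, tri_iff.2 ⟨_, _, _, rfl, tri_std' M, (hex_std M).symm⟩, fun hx => ?_, fun l hl => ?_⟩
    · have := (hx (M.x 43)).1 (by simp)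
      simp only [List.mem_cons, List.not_mem_nil, or_false] at this
      rcases this with e | e | e <;> exact absurd (M.x_inj (by norm_num) (by norm_num) e) (by norm_num)
    · obtain ⟨p, q, r, rfl, h2, e⟩ := tri_iff.1 hl
      exact (in_hex M h2 e).imp (same M h2 h1 e) (same M h2 (tri_std' M) (e.trans (hex_std M)))

end Cfsg.Agent.S5463
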