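import Mathlib
import Cfsg.Statements.S5464
import Cfsg.Agent.Lib.Fi24.Inv
import Cfsg.Agent.Lib.Fischer.T24

set_option autoImplicit false
open Cfsg

namespace Cfsg.Agent.S5464

open H7

/-- Let G be a finite group with trivial centre generated by a conjugation-invariant set D of 3-transpositions on which it acts primitively, such that for some d in D the subgroup generated by the members of D other than d commuting with d has central largest normal 2- and 3-subgroups, and suppose G with D is of type M(23) or of type M(24). Then for m ≤ 3, a product of m distinct pairwise commuting members of D determines the set of factors: any two m-element sets of pairwise commuting members of D with the same product coincide. -/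
theorem result {G : Type*} [Group G] [Finite G] {D : Set G} (hD : Cfsg.IsThreeTranspositionGroup D) (hprim : Cfsg.IsPrimitiveUnderConj D) (d₀ : G) (hd₀ : d₀ ∈ D) (h3 : Cfsg.pCore 3 ↥(Subgroup.closure {y : G | y ∈ D ∧ y ≠ d₀ ∧ Commute d₀ y}) ≤ Subgroup.center ↥(Subgroup.closure {y : G | y ∈ D ∧ y ≠ d₀ ∧ Commute d₀ y})) (h2 : Cfsg.pCore 2 ↥(Subgroup.closure {y : G | y ∈ D ∧ y ≠ d₀ ∧ Commute d₀ y}) ≤ Subgroup.center ↥(Subgroup.closure {y : G | y ∈ D ∧ y ≠ d₀ ∧ Commute d₀ y})) (h : Cfsg.IsOfTypeM23 G D ∨ Cfsg.IsOfTypeM24 G D) (m : ℕ) (hm : m ≤ 3) (j : G) (l l' : List G) (hl : (l.Nodup ∧ l.length = m ∧ (∀ a ∈ l, a ∈ D) ∧ (∀ a ∈ l, ∀ b ∈ l, Commute a b) ∧ l.prod = j)) (hl' : (l'.Nodup ∧ l'.length = m ∧ (∀ a ∈ l', a ∈ D) ∧ (∀ a ∈ l', ∀ b ∈ l', Commute a b) ∧ l'.prod = j)) : (∀ x : G, x ∈ l ↔ x ∈ l') := by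
  obtain ⟨a1, a2, a3, a4, a5⟩ := hl
  obtain ⟨b1, b2, b3, b4, b5⟩ := hl'
  have a : Clq D l := ⟨a1, a3, a4⟩
  have b : Clq D l' := ⟨b1, b3, b4⟩
  rcases h with h | h
  · obtain ⟨M⟩ := H7.model23_of_type hD hprim h
    exact fun x => ⟨F23.clq_uniq M b a (a2.trans b2.symm) (by omega) (a5.trans b5.symm) x,
      F23.clq_uniq M a b (b2.trans a2.symm) (by omega) (b5.trans a5.symm) x⟩
  · obtain ⟨M⟩ := H94.model24_of_type hD hprim h
    exact fun x => ⟨H96.F24.clq_uniq M b a (a2.trans b2.symm) (by omega) (a5.trans b5.symm) x,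
      H96.F24.clq_uniq M a b (b2.trans a2.symm) (by omega) (b5.trans a5.symm) x⟩

end Cfsg.Agent.S5464
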