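import Mathlib
import Cfsg.Statements.S5468
import Cfsg.Agent.Lib.Fi23.Inv
-- import your own Cfsg.Agent.* helpers here

set_option autoImplicit false
open Cfsg

namespace Cfsg.Agent.S5468

open H7 H7.F23 H54 H94 H56


/-- Let G be a finite group with trivial centre generated by a conjugation-invariant set D of 3-transpositions on which it acts primitively, such that for some d in D the subgroup generated by the members of D other than d commuting with d has central largest normal 2- and 3-subgroups, and suppose G with D is of type M(23). Let d₁, d₂ be distinct commuting members of D, j = d₁ d₂, K the joint centralizer of d₁ and d₂ and C the centralizer of j. Then K has index 2 in C, the centre of K is the subgroup generated by d₁ and d₂, K is quasisimple with K modulo its centre isomorphic to the projective special unitary group of dimension 6 over the field with four elements, and C modulo the subgroup generated by d₁ and d₂ has trivial centre (so it is that unitary group extended by an outer involution). -/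
theorem result {G : Type*} [Group G] [Finite G] {D : Set G} (hD : Cfsg.IsThreeTranspositionGroup D) (hprim : Cfsg.IsPrimitiveUnderConj D) (d₀ : G) (hd₀ : d₀ ∈ D) (h3 : Cfsg.pCore 3 ↥(Subgroup.closure {y : G | y ∈ D ∧ y ≠ d₀ ∧ Commute d₀ y}) ≤ Subgroup.center ↥(Subgroup.closure {y : G | y ∈ D ∧ y ≠ d₀ ∧ Commute d₀ y})) (h2 : Cfsg.pCore 2 ↥(Subgroup.closure {y : G | y ∈ D ∧ y ≠ d₀ ∧ Commute d₀ y}) ≤ Subgroup.center ↥(Subgroup.closure {y : G | y ∈ D ∧ y ≠ d₀ ∧ Commute d₀ y})) (h23 : Cfsg.IsOfTypeM23 G D) (d₁ d₂ : G) (h₁ : d₁ ∈ D) (h₂ : d₂ ∈ D) (hne : d₁ ≠ d₂) (hc : Commute d₁ d₂) (K C V : Subgroup G) (hK : K = Subgroup.centralizer ({d₁, d₂} : Set G)) (hC : C = Subgroup.centralizer ({d₁ * d₂} : Set G)) (hV : V = Subgroup.closure ({d₁, d₂} : Set G)) [hn : (V.subgroupOf C).Normal] : K ≤ C ∧ (K.subgroupOf C).index = 2 ∧ (Subgroup.center ↥K).map K.subtype = V ∧ Cfsg.IsQuasisimple ↥K ∧ (∃ (F : Type) (_ : Field F) (_ : Fintype F), Fintype.card F = 4 ∧ Nonempty (↥K ⧸ Subgroup.center ↥K ≃* Cfsg.PSU 6 F 2)) ∧ Subgroup.center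 (↥C ⧸ V.subgroupOf C) = ⊥ := by
  obtain ⟨M⟩ := model23_of_type hD hprim h23
  have h : Clq D (List.ofFn ![d₁, d₂]) := ⟨by simp [hne], by simp [h₁, h₂], by simp [hc, hc.symm]⟩
  have h' : Clq D [d₂, d₁] := ⟨by simp [hne.symm], by simp [h₁, h₂], by simp [hc, hc.symm]⟩
  obtain ⟨φ, a, b⟩ := exists_symHom M.tt h (fun l hl e p => clq_uniq M h hl (by simpa using e) (by simp) p)
    fun l hl e => clq_conj M h hl (by simpa using e) (by simp)
  have e1 : (List.ofFn ![d₁, d₂]).prod = d₁ * d₂ := by simp
  have e2 : Set.range ![d₁, d₂] = {d₁, d₂} := by ext; simp [Matrix.range_cons, or_comm, or_left_comm]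
  generalize (List.ofFn ![d₁, d₂]).prod = z at φ a b e1
  subst e1 hC
  rw [e2, ← hK] at b
  obtain ⟨k1, k2, k3, k4⟩ := cent2_struct M h' hK
  have le : K ≤ Subgroup.centralizer {d₁ * d₂} := fun g hg => Subgroup.mem_centralizer_singleton_iff.2 (by
    rw [hK] at hg
    exact ((show Commute d₁ g from hg _ (by simp)).mul_left (show Commute d₂ g from hg _ (by simp))).symm)
  refine ⟨le, ?_, hV ▸ k2, k3, ⟨H30.F4, inferInstance, inferInstance, by decide, k4⟩, ?_⟩
  · rw [← b, Subgroup.index_ker, MonoidHom.range_eq_top.2 a, Subgroup.card_top, Nat.card_perm, Nat.card_fin]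
    rfl
  rw [eq_bot_iff]
  intro q hq
  obtain ⟨c, rfl⟩ := QuotientGroup.mk_surjective q
  have s1 := M.tt.mul_self h₁
  have s2 := M.tt.mul_self h₂
  have key : ∀ y ∈ Dc (Dc D d₁) d₂, Commute (c : G) y := by
    intro y hy
    have yK : y ∈ K := k1 ▸ Subgroup.subset_closure hy
    have := Subgroup.mem_center_iff.1 hq (QuotientGroup.mk ⟨y, le yK⟩)
    rw [← QuotientGroup.mk_mul, ← QuotientGroup.mk_mul, eq_comm, QuotientGroup.eq, Subgroup.mem_subgroupOf, hV,
      closure_pair, mem_sup_of_le_normalizer (zpowers_le_normalizer_of_commute hc)] at this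
    obtain ⟨u, hu, v, hv, e⟩ := this
    have iy := M.tt.inv hy.1.1
    have e' : u * v = y * ((c : G)⁻¹ * y * c) := by
      rw [e]; simp only [Subgroup.coe_mul, Subgroup.coe_inv, mul_inv_rev, iy, mul_assoc]
    have my := M.tt.conj_inv_mem (c : G) hy.1.1
    by_contra hn
    have cy : Commute y (u * v) := Commute.mul_right
      (Subgroup.zpowers_le.2 (Subgroup.mem_centralizer_singleton_iff.2 hy.1.2.2) hu y rfl) (Subgroup.zpowers_le.2 (Subgroup.mem_centralizer_singleton_iff.2 hy.2.2) hv y rfl)
    have cq : Clq D [y, (c : G)⁻¹ * y * c] := by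
      have c1 : Commute y ((c : G)⁻¹ * y * c) := by
        have := ((Commute.refl y).mul_right cy)
        rwa [e', mul_self_cancel (M.tt.mul_self hy.1.1)] at this
      refine ⟨?_, by simp [hy.1.1, my], by simp [c1, c1.symm]⟩
      simp only [List.nodup_cons, List.mem_singleton, List.not_mem_nil, not_false_eq_true, List.nodup_nil, and_true]
      intro e
      apply hn
      show c * y = y * c
      calc c * y = c * ((c : G)⁻¹ * y * c) := by rw [← e]
        _ = _ := by group
    have p : [y, (c : G)⁻¹ * y * c].prod = u * v := by simp [e']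
    rcases (mem_zpowers_two s1).1 hu with rfl | rfl <;> rcases (mem_zpowers_two s2).1 hv with rfl | rfl
    · simpa using clq_length M (l := []) ⟨by simp, by simp, by simp⟩ cq (by simp) (by simp) (by simpa using p)
    · simpa using clq_length M (l := [v]) ⟨by simp, by simpa, by simp⟩ cq (by simp) (by simp) (by simpa using p)
    · simpa using clq_length M h'.tail cq (by simp) (by simp) (by simpa using p)
    · have := clq_uniq M h cq (by simp) (by simp) (by simpa using p) y (by simp)
      simp only [List.ofFn_succ, List.ofFn_zero, List.mem_cons, List.not_mem_nil, or_false] at this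
      exact this.elim hy.1.2.1 hy.2.1
  have cK : ∀ g ∈ K, Commute (c : G) g := fun g hg => commute_of_mem_closure key (k1 ▸ hg)
  have VK : Subgroup.closure {d₁, d₂} ≤ K := k2 ▸ Subgroup.map_subtype_le _
  have mK : (c : G) ∈ K := hK ▸ fun y hy => (cK y (VK (Subgroup.subset_closure hy))).symm
  rw [Subgroup.mem_bot, QuotientGroup.eq_one_iff, Subgroup.mem_subgroupOf, hV, ← k2]
  exact ⟨⟨c, mK⟩, Subgroup.mem_center_iff.2 fun g => Subtype.ext (cK g g.2).symm, rfl⟩

end Cfsg.Agent.S5468
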