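import Mathlib
import Cfsg.Statements.S5469
import Cfsg.Agent.Lib.Fi22I.C2
import Cfsg.Agent.Lib.Fischer.T22

set_option autoImplicit false
open Cfsg

namespace Cfsg.Agent.S5469

open H94 H96.F22 H96.Lab H96.E6

/-- Let G be a finite group with trivial centre generated by a conjugation-invariant set D of 3-transpositions on which it acts primitively, such that for some d in D the subgroup generated by the members of D other than d commuting with d has central largest normal 2- and 3-subgroups, and suppose G with D is of type M(22). Let d₁, d₂ be distinct commuting members of D, j = d₁ d₂, K the joint centralizer of d₁ and d₂, C the centralizer of j and V the subgroup generated by d₁ and d₂. Then K has index 2 in C, V is the centre of K, and C has a normal subgroup E containing V with E/V elementary abelian of order 2^8 and C/E isomorphic to the full automorphism group of the projective special unitary group of dimension 4 over the field with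 four elements. -/
theorem result {G : Type*} [Group G] [Finite G] {D : Set G} (hD : Cfsg.IsThreeTranspositionGroup D) (hprim : Cfsg.IsPrimitiveUnderConj D) (d₀ : G) (hd₀ : d₀ ∈ D) (h3 : Cfsg.pCore 3 ↥(Subgroup.closure {y : G | y ∈ D ∧ y ≠ d₀ ∧ Commute d₀ y}) ≤ Subgroup.center ↥(Subgroup.closure {y : G | y ∈ D ∧ y ≠ d₀ ∧ Commute d₀ y})) (h2 : Cfsg.pCore 2 ↥(Subgroup.closure {y : G | y ∈ D ∧ y ≠ d₀ ∧ Commute d₀ y}) ≤ Subgroup.center ↥(Subgroup.closure {y : G | y ∈ D ∧ y ≠ d₀ ∧ Commute d₀ y})) (h22 : Cfsg.IsOfTypeM22 G D) (d₁ d₂ : G) (h₁ : d₁ ∈ D) (h₂ : d₂ ∈ D) (hne : d₁ ≠ d₂) (hc : Commute d₁ d₂) (K C V : Subgroup G) (hK : K = Subgroup.centralizer ({d₁, d₂} : Set G)) (hC : C = Subgroup.centralizer ({d₁ * d₂} : Set G)) (hV : V = Subgroup.closure ({d₁, d₂} : Set G)) : K ≤ C ∧ (K.subgroupOf C).index = 2 ∧ (Subgroup.center ↥K).map K.subtype = V ∧ ∃ E : Subgroup G, V ≤ E ∧ E ≤ C ∧ (∀ c ∈ C, ∀ x ∈ E, c * x * c⁻¹ ∈ E) ∧ Nat.card E = 2 ^ 10 ∧ (∀ x ∈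 E, ∀ y ∈ E, x * y * x⁻¹ * y⁻¹ ∈ V ∧ x ^ 2 ∈ V) ∧ ∃ (_ : (E.subgroupOf C).Normal) (F : Type) (_ : Field F) (_ : Fintype F), Fintype.card F = 4 ∧ Nonempty (↥C ⧸ E.subgroupOf C ≃* MulAut (Cfsg.PSU 4 F 2)) := by
  obtain ⟨M⟩ := model22_of_type hD hprim h22
  obtain ⟨M, rfl, rfl⟩ := model2 M ⟨h₁, h₂, hne, hc⟩
  have eK : K = Fx G M.pt [47, 43] := by
    ext g
    rw [hK, mem_Fx_iff, Subgroup.mem_centralizer_iff]
    simp only [Set.mem_insert_iff, Set.mem_singleton_iff, forall_eq_or_imp, forall_eq, List.forall_mem_cons,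
      List.not_mem_nil, false_imp_iff, implies_true, and_true]
    exact and_comm.trans (and_congr eq_comm eq_comm)
  subst hC eK
  have mV : ∀ {x : G}, x ∈ V ↔ _ := hV ▸ H95.mem_closure_four (x_sq M (by norm_num)) (x_sq M (by norm_num)) hc.eq
  obtain ⟨ρ, e1, e2, e3, e4⟩ := hom_C2 M
  have hn : ((E2 M).subgroupOf (C2 M)).Normal := e2 ▸ ρ.normal_ker
  have VE : V ≤ E2 M := hV ▸ (Subgroup.closure_le _).2 (by
    rintro _ (rfl | rfl)
    exacts [x43_mem M, x47_mem M])
  refine ⟨Fx_le_C2 M, ?_, ?_, E2 M, VE, E2_le_C2 M, fun c hc x hx => hn.conj_mem ⟨x, E2_le_C2 M hx⟩ hx ⟨c, hc⟩,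
    e3, fun x hx y hy => ⟨mV.2 ?_, mV.2 ?_⟩, hn, H30.F4, inferInstance, inferInstance, rfl, ?_⟩
  · have := ((Fx G M.pt [47, 43]).subgroupOf (C2 M)).card_mul_index
    rw [Nat.card_congr (Subgroup.subgroupOfEquivOfLe (Fx_le_C2 M)).toEquiv, card_F2, e4] at this
    exact Nat.eq_of_mul_eq_mul_left (by norm_num) this
  · ext g
    rw [H95.mem_center_map_iff]
    refine ⟨fun h => mV.2 (cent_E2 M fun x hx => h.2 x (E2_le M hx)), fun h => ⟨E2_le M (VE h), fun y hy => ?_⟩⟩
    have a1 := (mem_Fx_iff M).1 hy 43 (by simp)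
    have a2 := (mem_Fx_iff M).1 hy 47 (by simp)
    rcases mV.1 h with rfl | rfl | rfl | rfl
    exacts [Commute.one_right y, a1, a2, a1.mul_right a2]
  · rcases comm_E2 M hx hy with e | e
    · left; rw [e]; group
    · right; right; right
      have c := fun u (hu : u ∈ E2 M) => Subgroup.mem_centralizer_singleton_iff.1 (E2_le_C2 M hu)
      rw [e, mul_assoc (y * x), ← c _ (inv_mem hx), mul_assoc, mul_assoc x⁻¹, ← c _ (inv_mem hy)]; group
  · rw [sq]; exact (sq_E2 M hx).imp_right fun h => Or.inr (Or.inr h)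
  · obtain ⟨e⟩ := equivAut
    exact ⟨(quotEquiv ρ e1 e2).trans e⟩

end Cfsg.Agent.S5469
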