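import Mathlib
import Cfsg.Statements.S5471
import Cfsg.Agent.Lib.Fi23.Inv
-- import your own Cfsg.Agent.* helpers here

set_option autoImplicit false
open Cfsg

namespace Cfsg.Agent.S5471

open H7 H7.F23 H54 H94 H56


/-- Let G be a finite group with trivial centre generated by a conjugation-invariant set D of 3-transpositions on which it acts primitively, such that for some d in D the subgroup generated by the members of D other than d commuting with d has central largest normal 2- and 3-subgroups, and suppose G with D is of type M(23). Let d₁, d₂, d₃ be distinct pairwise commuting members of D and j their product. Then the joint centralizer of d₁, d₂, d₃ is normal in the centralizer of j with quotient isomorphic to the symmetric group of degree 3. -/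
theorem result {G : Type*} [Group G] [Finite G] {D : Set G} (hD : Cfsg.IsThreeTranspositionGroup D) (hprim : Cfsg.IsPrimitiveUnderConj D) (d₀ : G) (hd₀ : d₀ ∈ D) (h3 : Cfsg.pCore 3 ↥(Subgroup.closure {y : G | y ∈ D ∧ y ≠ d₀ ∧ Commute d₀ y}) ≤ Subgroup.center ↥(Subgroup.closure {y : G | y ∈ D ∧ y ≠ d₀ ∧ Commute d₀ y})) (h2 : Cfsg.pCore 2 ↥(Subgroup.closure {y : G | y ∈ D ∧ y ≠ d₀ ∧ Commute d₀ y}) ≤ Subgroup.center ↥(Subgroup.closure {y : G | y ∈ D ∧ y ≠ d₀ ∧ Commute d₀ y})) (h23 : Cfsg.IsOfTypeM23 G D) (d₁ d₂ d₃ : G) (h₁ : d₁ ∈ D) (h₂ : d₂ ∈ D) (h₃ : d₃ ∈ D) (h12 : d₁ ≠ d₂) (h13 : d₁ ≠ d₃) (h23 : d₂ ≠ d₃) (c12 : Commute d₁ d₂) (c13 : Commute d₁ d₃) (c23 : Commute d₂ d₃) (K C : Subgroup G) (hK : K = Subgroup.centralizer ({d₁, d₂, d₃} : Set G)) (hC : C = Subgroup.centralizer ({d₁ * d₂ * d₃} : Set G)) : K ≤ C ∧ ∃ _ : (K.subgroupOf C).Normal, Nonempty (↥C ⧸ K.subgroupOf C ≃* Equiv.Perm (Fin 3)) := by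
  obtain ⟨M⟩ := model23_of_type hD hprim ‹_›
  have h : Clq D (List.ofFn ![d₁, d₂, d₃]) :=
    ⟨by simp [h12, h13, h23], by simp [h₁, h₂, h₃], by simp [c12, c13, c23, c12.symm, c13.symm, c23.symm]⟩
  obtain ⟨φ, a, b⟩ := exists_symHom M.tt h (fun l hl e p => clq_uniq M h hl (by simpa using e) (by simp) p)
    fun l hl e => clq_conj M h hl (by simpa using e) (by simp)
  have e1 : (List.ofFn ![d₁, d₂, d₃]).prod = d₁ * d₂ * d₃ := by simp [mul_assoc]
  have e2 : Set.range ![d₁, d₂, d₃] = {d₁, d₂, d₃} := by ext; simp [Matrix.range_cons, or_comm, or_left_comm]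
  generalize (List.ofFn ![d₁, d₂, d₃]).prod = z at φ a b e1
  subst e1 hC
  rw [e2, ← hK] at b
  have hn : (K.subgroupOf (Subgroup.centralizer {d₁ * d₂ * d₃})).Normal := by rw [← b]; exact φ.normal_ker
  refine ⟨fun g hg => Subgroup.mem_centralizer_singleton_iff.2 ?_, hn,
    ⟨(QuotientGroup.quotientMulEquivOfEq b.symm).trans (QuotientGroup.quotientKerEquivOfSurjective φ a)⟩⟩
  rw [hK] at hg
  exact (((show Commute d₁ g from hg _ (by simp)).mul_left (show Commute d₂ g from hg _ (by simp))).mul_left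
    (show Commute d₃ g from hg _ (by simp))).symm

end Cfsg.Agent.S5471
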