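import Mathlib
import Cfsg.Statements.S5473
import Cfsg.Agent.Lib.Fi22I.C2
import Cfsg.Agent.Lib.Fischer.T22

set_option autoImplicit false
open Cfsg

namespace Cfsg.Agent.S5473

open H94 H96.F22 H96.Lab H96.E6

/-- Let G be a finite group with trivial centre generated by a conjugation-invariant set D of 3-transpositions on which it acts primitively, such that for some d in D the subgroup generated by the members of D other than d commuting with d has central largest normal 2- and 3-subgroups, and suppose G with D is of type M(22), and let A be the automorphism group of G. Let d₁, d₂ be distinct commuting members of D and j the inner automorphism of their product. Then the generalized Fitting subgroup Q of the centralizer of j in A is a large extraspecial 2-subgroup of A of order 2^11 (extraspecial; centralizer equal to its centre; normal in the centralizer of its centre; normalizing no non-trivial odd-order subgroup), and the centralizer of j modulo Q is isomorphic to the full automorphism group of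 the projective special unitary group of dimension 4 over the field with four elements. -/
theorem result {G : Type*} [Group G] [Finite G] {D : Set G} (hD : Cfsg.IsThreeTranspositionGroup D) (hprim : Cfsg.IsPrimitiveUnderConj D) (d₀ : G) (hd₀ : d₀ ∈ D) (h3 : Cfsg.pCore 3 ↥(Subgroup.closure {y : G | y ∈ D ∧ y ≠ d₀ ∧ Commute d₀ y}) ≤ Subgroup.center ↥(Subgroup.closure {y : G | y ∈ D ∧ y ≠ d₀ ∧ Commute d₀ y})) (h2 : Cfsg.pCore 2 ↥(Subgroup.closure {y : G | y ∈ D ∧ y ≠ d₀ ∧ Commute d₀ y}) ≤ Subgroup.center ↥(Subgroup.closure {y : G | y ∈ D ∧ y ≠ d₀ ∧ Commute d₀ y})) (h22 : Cfsg.IsOfTypeM22 G D) (d₁ d₂ : G) (h₁ : d₁ ∈ D) (h₂ : d₂ ∈ D) (hne : d₁ ≠ d₂) (hc : Commute d₁ d₂) (j : MulAut G) (hj : j = MulAut.conj (d₁ * d₂)) (Q : Subgroup (MulAut G)) (hQ : Q = (Cfsg.generalizedFittingSubgroup ↥(Subgroup.centralizer ({j} : Set (MulAut G)))).map (Subgroup.centralizer ({j} : Set (MulAut G))).subtype) : Cfsg.IsLargeExtraspecial Q ∧ Nat.card Q = 2 ^ 11 ∧ Q ≤ Subgroup.centralizer ({j} : Set (MulAut G)) ∧ ∃ (_ : (Q.subgroupOf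 (Subgroup.centralizer ({j} : Set (MulAut G)))).Normal) (F : Type) (_ : Field F) (_ : Fintype F), Fintype.card F = 4 ∧ Nonempty (↥(Subgroup.centralizer ({j} : Set (MulAut G))) ⧸ Q.subgroupOf (Subgroup.centralizer ({j} : Set (MulAut G))) ≃* MulAut (Cfsg.PSU 4 F 2)) := by
  obtain ⟨M⟩ := model22_of_type hD hprim h22
  obtain ⟨M, rfl, rfl⟩ := model2 M ⟨h₁, h₂, hne, hc⟩
  subst hj
  obtain rfl : Q = Q2 M := by
    rw [hQ, fstar_CA2, Subgroup.subgroupOf_map_subtype, inf_eq_left.2 (Q2_le M)]
  obtain ⟨ρ, e1, e2, e3⟩ := hom_CA2 M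
  obtain ⟨e⟩ := equivAut
  have hn : ((Q2 M).subgroupOf (CA2 M)).Normal := e2 ▸ ρ.normal_ker
  exact ⟨large_Q2 M, e3, Q2_le M, hn, H30.F4, inferInstance, inferInstance, rfl, ⟨(quotEquiv ρ e1 e2).trans e⟩⟩

end Cfsg.Agent.S5473
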