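import Cfsg.Statements.S5515
import Mathlib
import Cfsg.Agent.Lib.Refl3.Ext

set_option autoImplicit false
open Cfsg

namespace Cfsg.Agent.S5515

/-- Let G and G′ be finite groups whose generalized Fitting subgroups are isomorphic to PΩ⁺(8, 3) (the commutator subgroup of the isometry group of the hyperbolic quadratic form in dimension 8 over the field with three elements, modulo its centre) with quotients isomorphic to the symmetric group of degree 3. Then G and G′ are isomorphic. -/
theorem result {G G' : Type*} [Group G] [Finite G] [Group G'] [Finite G'] (hF : Nonempty (↥(Cfsg.generalizedFittingSubgroup G) ≃* Cfsg.POmega (ZMod 3) (Cfsg.quadFormPlus 4 (ZMod 3)))) (hF' : Nonempty (↥(Cfsg.generalizedFittingSubgroup G') ≃* Cfsg.POmega (ZMod 3) (Cfsg.quadFormPlus 4 (ZMod 3)))) [hn : (Cfsg.generalizedFittingSubgroup G).Normal] [hn' : (Cfsg.generalizedFittingSubgroup G').Normal] (hq : Nonempty (G ⧸ Cfsg.generalizedFittingSubgroup G ≃* Equiv.Perm (Fin 3))) (hq' : Nonempty (G' ⧸ Cfsg.generalizedFittingSubgroup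 G' ≃* Equiv.Perm (Fin 3))) : Nonempty (G ≃* G') := by
  obtain ⟨e⟩ := hF
  obtain ⟨e'⟩ := hF'
  obtain ⟨q⟩ := hq
  obtain ⟨q'⟩ := hq'
  obtain ⟨f, -⟩ := H94.exists_equiv_of_O8p3 e e' H23.centralizer_fStar_le H23.centralizer_fStar_le
    (by rw [Nat.card_congr q.toEquiv, Nat.card_eq_fintype_card]; decide)
    (by rw [Nat.card_congr q'.toEquiv, Nat.card_eq_fintype_card]; decide)
  exact ⟨f⟩

end Cfsg.Agent.S5515
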