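import Cfsg.Statements.S5517
import Mathlib
import Cfsg.Agent.Lib.Fi22.O7D
import Cfsg.Agent.Lib.Fi22.Loc
import Cfsg.Agent.Lib.Fischer.PrimeNorm
import Cfsg.Agent.S0292

set_option autoImplicit false
open Cfsg

namespace Cfsg.Agent.S5517

set_option maxRecDepth 100000 in
open H48.F22 H48.Fn H94 H94.R3 in

/-- Let G be a finite group with trivial centre generated by a conjugation-invariant set D of 3-transpositions on which it acts primitively, such that for some d in D the subgroup generated by the members of D other than d commuting with d has central largest normal 2- and 3-subgroups, and suppose G with D is of type M(22). Then G has a subgroup L generated by the members of D it contains and isomorphic to Ω(7, 3) (the commutator subgroup of the isometry group of a non-degenerate 7-dimensional quadratic form over the field with three elements, modulo its centre), and every Sylow 3-subgroup of L is a Sylow 3-subgroup of G. -/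
theorem result {G : Type*} [Group G] [Finite G] {D : Set G} (hD : Cfsg.IsThreeTranspositionGroup D) (hprim : Cfsg.IsPrimitiveUnderConj D) (d₀ : G) (hd₀ : d₀ ∈ D) (h3 : Cfsg.pCore 3 ↥(Subgroup.closure {y : G | y ∈ D ∧ y ≠ d₀ ∧ Commute d₀ y}) ≤ Subgroup.center ↥(Subgroup.closure {y : G | y ∈ D ∧ y ≠ d₀ ∧ Commute d₀ y})) (h2 : Cfsg.pCore 2 ↥(Subgroup.closure {y : G | y ∈ D ∧ y ≠ d₀ ∧ Commute d₀ y}) ≤ Subgroup.center ↥(Subgroup.closure {y : G | y ∈ D ∧ y ≠ d₀ ∧ Commute d₀ y})) (h22 : Cfsg.IsOfTypeM22 G D) : ∃ L : Subgroup G, Cfsg.IsDSubgroup D L ∧ Nonempty (↥L ≃* Cfsg.POmega (ZMod 3) (Cfsg.quadFormOdd 3 (ZMod 3))) ∧ ∀ P : Sylow 3 ↥L, ∃ P' : Sylow 3 G, (P : Subgroup ↥L).map L.subtype = (P' : Subgroup G) := by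
  obtain ⟨M⟩ := H94.model22_of_type hD hprim h22
  have T := tm M
  have hl : ∀ k < 7, vget o7lab (H54.nth o7g k) < 3510 := by decide +kernel
  obtain ⟨h, -⟩ := o3Loc_of_chk (x := M.x) (fun _ _ hi hj e => T.inj hi hj e) (fun k hk => sq M (hl k hk))
    (fun k hk j hj => T.op_eq (hl k hk) hj) o7_chk0 o7_chk
  set S := labSet M.x 7 1093 1 (vget o7lab)
  have hS : S ⊆ D := by
    rintro _ ⟨u, hu, hn, rfl⟩
    exact T.mem (lab_lt o7_chk hu hn)
  have hB : IsBase G 3510 (cp M.x) (o7B.map (vget o7lab)) := by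
    rw [o7B_map]
    exact Good.isBase_fix (by simp) (T.goodFix (by simp) o7ch_chk
      (by rw [(good8 M).card (dom M), o7_size8, o7ch_size]))
  have hz : Subgroup.center (Subgroup.closure S) = ⊥ := by
    rw [eq_bot_iff]
    intro z hz
    rw [Subgroup.mem_bot, Subtype.ext_iff]
    refine hB.2 _ fun b hb => ?_
    obtain ⟨u, hu, rfl⟩ := List.mem_map.1 hb
    have hm : M.x (vget o7lab u) ∈ Subgroup.closure S :=
      Subgroup.subset_closure ⟨u, (o7B_ok u hu).1, (o7B_ok u hu).2, rfl⟩
    exact cp_fix.2 (congrArg Subtype.val (Subgroup.mem_center_iff.1 hz ⟨_, hm⟩)).symm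
  obtain ⟨e⟩ := h.equiv_O7 (Pi.basisFun _ _) (by rw [gramDet_wq]; decide +kernel)
  have e' : Subgroup.closure S ≃* Cfsg.POmega (ZMod 3) (Cfsg.quadFormOdd 3 (ZMod 3)) :=
    ((QuotientGroup.quotientMulEquivOfEq hz).trans QuotientGroup.quotientBot).symm.trans e
  have hc : Nat.card (Subgroup.closure S) = 3 ^ 9 * 232960 := by
    have := Cfsg.Agent.S0292.result (F := ZMod 3) (q := 3) (ZMod.card 3) (by decide) 3 le_rfl
    rw [← Nat.card_congr e'.toEquiv] at this
    norm_num [Finset.prod_range_succ] at this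
    omega
  refine ⟨Subgroup.closure S, le_antisymm ((Subgroup.closure_le _).2 fun _ h => h.2)
    (Subgroup.closure_mono fun x hx => ⟨hS hx, Subgroup.subset_closure hx⟩), ⟨e'⟩, fun P => ?_⟩
  have hP : Nat.card ((P : Subgroup (Subgroup.closure S)).map (Subgroup.closure S).subtype) = 3 ^ 9 := by
    rw [Subgroup.card_map_of_injective (Subgroup.subtype_injective _), P.card_eq_multiplicity, hc,
      Nat.factorization_mul (by norm_num) (by norm_num), Nat.Prime.factorization_pow (by norm_num)]
    simp [Nat.factorization_eq_zero_of_not_dvd (n := 232960) (p := 3) (by norm_num)]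
  obtain ⟨P', hP'⟩ := H7.exists_sylow_eq (m := 3280076800) hP M.card (by norm_num)
  exact ⟨P', hP'.symm⟩

end Cfsg.Agent.S5517
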