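import Mathlib
import Cfsg.Statements.S5520
import Cfsg.Agent.Lib.F24T.Pre
import Cfsg.Agent.Lib.F24T.ChP
import Cfsg.Agent.Lib.F24T.B2Model
import Cfsg.Agent.Lib.U43.ToPerm

set_option autoImplicit false
open Cfsg

namespace Cfsg.Agent.S5520

open H12.F24 H71.F24 H95 H94 H54 Subgroup
open H30 (F4)
open H95.U43 (U)
open scoped Pointwise Matrix

theorem center_K0 : center K0 = zpowers ⟨om, om_mem⟩ := by
  refine le_antisymm (fun y hy => ?_) (zpowers_le.2 (mem_center_iff.2 fun k => Subtype.ext (mem_linV.1 (K0_le_linV k.2))))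
  rcases mem_zpowers_om (y := y) fun k hk => congrArg Subtype.val (mem_center_iff.1 hy ⟨k, hk⟩) with e | e | e
  · rw [show y = 1 from Subtype.ext e]; exact one_mem _
  · rw [show y = ⟨om, om_mem⟩ from Subtype.ext e]; exact mem_zpowers _
  · rw [show y = ⟨om, om_mem⟩ * ⟨om, om_mem⟩ from Subtype.ext e]; exact mul_mem (mem_zpowers _) (mem_zpowers _)

theorem card_center_K0 : Nat.card (center K0) = 3 := by
  have := Fact.mk Nat.prime_three
  rw [center_K0, Nat.card_zpowers]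
  exact orderOf_eq_prime (Subtype.ext (by rw [coe_pow, pow_three']; exact om_cube)) fun e =>
    om_ne_one (congrArg Subtype.val e)

theorem quot_K0 : Nonempty (K0 ⧸ center K0 ≃* U) := by
  have X : Ctx cfgP (objT 3 tP) := ctx_objT cfgP_check (by decide +kernel)
  have XP : Ctx cfgP (finPt 126) := ctx_fin cfgP_check rfl
  have KP := Kfix_fin (n := 126) (c := cfgP) rfl
  have v : Valid K0 cfgP (objT 3 tP) chP.gens := fun s hs => by
    obtain ⟨M, hM⟩ := all2_spec (fun M p => band (inM chK M) (repT cfgP 3 tP M p)) chP.gens cU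
      (by decide +kernel) s hs
    rw [band_eq_true] at hM
    obtain ⟨g, hg, m⟩ := exists_of_inM goodK hM.1
    exact ⟨⟨g, hg⟩, rep_objT m hM.2⟩
  have vP : Valid (Equiv.Perm (Fin 126)) cfgP (finPt 126) chP.gens := valid_perm XP (by decide +kernel)
  obtain ⟨-, -, hT, θ, hs, hk, -⟩ := exists_toPerm (n := 126) X rfl v rfl (J := center K0) (m := 3) (N := 3265920)
    (by
      rw [center_K0, zpowers_le]
      exact Rep.mem_K_of_one X (rep_objT (g := (⟨om, om_mem⟩ : K0)) mat_om (by decide +kernel)))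
    card_center_K0.ge (chP_size ▸ size_le_card XP KP (fun s hs => vP.in_grp hs) chP_low) card_K0.le
  obtain ⟨e⟩ := nonempty_mulEquiv XP H95.U43.ctxF cfgI_check KP (Kfix_fin (n := 280) rfl) vP H95.U43.valid
    (by decide +kernel) chI_low chI_up rfl (H' := U) rfl chI_size (by norm_num) hT H95.U43.card_U
  exact ⟨((QuotientGroup.quotientMulEquivOfEq hk.symm).trans
    (QuotientGroup.quotientKerEquivOfSurjective θ hs)).trans e⟩

/-- the matrix of a linear element -/
def mx (g : AV) : Matrix (Fin 6) (Fin 6) F4 := Matrix.of fun i j => g (Pi.single j 1) i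

theorem mx_mulVec {g : AV} (hg : g ∈ linV) (v : V6) : mx g *ᵥ v = g v := by
  have := AddMonoidHom.functions_ext _ (Matrix.mulVecLin (mx g)).toAddMonoidHom g.toAddEquiv.toAddMonoidHom
    fun k c => by
      funext l
      show (mx g *ᵥ Pi.single k c) l = g (Pi.single k c) l
      rw [Matrix.mulVec_single, show (Pi.single k c : V6) = c • Pi.single k 1 by
        rw [← Pi.single_smul, smul_eq_mul, mul_one], linV_smul hg]
      exact mul_comm _ _
  exact DFunLike.congr_fun this v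

/-- the determinant -/
noncomputable def dH : linV →* F4ˣ :=
  (Matrix.detMonoidHom.comp
    { toFun := fun g : linV => mx g
      map_one' := Matrix.ext fun i j => (Pi.single_apply j (1 : F4) i).trans Matrix.one_apply.symm
      map_mul' := fun g h => Matrix.ext_of_mulVec_single fun j => by
        rw [← Matrix.mulVec_mulVec, mx_mulVec (g * h).2, mx_mulVec h.2, mx_mulVec g.2]; rfl }).toHomUnits

theorem dH_val (g : linV) : (dH g : F4) = (mx g).det := by
  rw [dH, MonoidHom.coe_toHomUnits, MonoidHom.comp_apply, Matrix.coe_detMonoidHom, MonoidHom.coe_mk, OneHom.coe_mk]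

theorem dH_L1 {g : AV} (hg : g ∈ L1) : dH ⟨g, hg.1⟩ = 1 := by
  have hi : (K0.subgroupOf L1).index = 2 := by
    have h := card_mul_index (K0.subgroupOf L1)
    rw [Nat.card_congr (subgroupOfEquivOfLe K0_le_L1).toEquiv, card_K0, card_L1] at h
    omega
  have h1 := hom_K0 (dH.comp (inclusion K0_le_linV)) ⟨g * g, mul_self_mem_of_index_two hi ⟨g, hg⟩⟩
  have h2 : dH ⟨g, hg.1⟩ * dH ⟨g, hg.1⟩ = 1 := (map_mul dH _ _).symm.trans h1
  exact Units.ext ((by decide : ∀ a : F4, a * a = 1 → a = 1) _ (congrArg Units.val h2))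

/-- the special unitary group inside the additive automorphisms -/
def SUa : Set AV := {g | g ∈ isoQ ∧ ∃ h : g ∈ linV, dH ⟨g, h⟩ = 1}

/-- the natural action -/
noncomputable def ι : SU 6 F4 2 →* AV :=
  (MonoidHom.mk' (fun g : V6 ≃ₗ[F4] V6 => g.toAddEquiv.toIntLinearEquiv) fun _ _ => rfl).comp
    (Matrix.SpecialLinearGroup.toLin'.comp (SU 6 F4 2).subtype)

theorem ι_apply (g : SU 6 F4 2) (v : V6) : ι g v = g.1.1 *ᵥ v := rfl

theorem ι_inj : Function.Injective ι := fun g h e => Subtype.ext (Subtype.ext (Matrix.ext_of_mulVec_single fun j => by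
  rw [← ι_apply, e, ι_apply]))

theorem range_ι {y : AV} : y ∈ ι.range ↔ y ∈ SUa := by
  constructor
  · rintro ⟨g, rfl⟩
    have hl : ι g ∈ linV := mem_linV.2 (LinearEquiv.ext fun v => by
      rw [AV.mul_apply, AV.mul_apply, om_apply, om_apply, ι_apply, ι_apply, Matrix.mulVec_smul])
    refine ⟨fun v => congrArg re (g.2 v v), hl, Units.ext ?_⟩
    rw [dH_val, show mx (ι g) = g.1.1 from Matrix.ext_of_mulVec_single fun j => by rw [mx_mulVec hl, ι_apply]]
    exact g.1.2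
  · rintro ⟨hq, hl, hd⟩
    refine ⟨H11.U.toSU (mx y) (fun u v => ?_) ((dH_val ⟨y, hl⟩).symm.trans (congrArg Units.val hd)),
      LinearEquiv.ext (mx_mulVec hl)⟩
    rw [mx_mulVec hl, mx_mulVec hl]
    exact (by decide : ∀ a b : F4, re a = re b → im a = im b → a = b) _ _ (lin_β hq hl u v) (isoQ_B hq u v)

/-- a diagonal matrix of determinant `ω` -/
def dl : AV := ofM (Matrix.diagonal ![F4.w, 1, 1, 1, 1, 1]) (Matrix.diagonal ![F4.v, 1, 1, 1, 1, 1]) (by decide +kernel)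

theorem dl_lin : dl ∈ linV := mem_linV.2 (LinearEquiv.ext fun v => by
  rw [AV.mul_apply, AV.mul_apply, om_apply, om_apply, dl, ofM_apply, ofM_apply, Matrix.mulVec_smul])

theorem dl_iso : dl ∈ isoQ := fun v => by
  rw [qv_eq_sum, qv_eq_sum]
  refine Finset.sum_congr rfl fun i _ => if_congr ?_ rfl rfl
  rw [dl, ofM_apply, Matrix.mulVec_diagonal, mul_eq_zero, or_iff_right (by revert i; decide)]

theorem dH_dl : (dH ⟨dl, dl_lin⟩ : F4) = F4.w := by
  rw [dH_val, show mx dl = Matrix.diagonal ![F4.w, 1, 1, 1, 1, 1] by decide +kernel, Matrix.det_diagonal]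
  decide

variable {Γ : Type*} [Group Γ] {j : Γ →* AV}

/-- the conjugates of `K0` -/
def Kc (j : Γ →* AV) (n : ℕ) : Subgroup Γ := (K0.map (MulAut.conj (dl ^ n)).toMonoidHom).comap j

theorem mem_Kc {n : ℕ} {y : Γ} : y ∈ Kc j n ↔ (dl ^ n)⁻¹ * j y * dl ^ n ∈ K0 := mem_map_conj

theorem conj_le (hr : ∀ y, y ∈ j.range ↔ y ∈ SUa) (n : ℕ) :
    K0.map (MulAut.conj (dl ^ n)).toMonoidHom ≤ j.range := by
  rintro _ ⟨k, hk, rfl⟩
  have hl := pow_mem dl_lin n
  have hq := pow_mem dl_iso n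
  refine (hr _).2 ⟨mul_mem (mul_mem hq (N1_le_isoQ (K0_le_N1 hk))) (inv_mem hq),
    mul_mem (mul_mem hl (K0_le_linV hk)) (inv_mem hl), ?_⟩
  show dH (⟨_, hl⟩ * ⟨k, K0_le_linV hk⟩ * (⟨_, hl⟩ : linV)⁻¹) = 1
  rw [map_mul, map_mul, map_inv, dH_L1 (K0_le_L1 hk), mul_one, mul_inv_cancel]

theorem Kc_equiv (hj : Function.Injective j) (hr : ∀ y, y ∈ j.range ↔ y ∈ SUa) (n : ℕ) :
    Nonempty (Kc j n ≃* K0) :=
  ⟨(((Kc j n).equivMapOfInjective j hj).trans (MulEquiv.subgroupCongr (map_comap_eq_self (conj_le hr n)))).trans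
    (K0.equivMapOfInjective _ (MulAut.conj (dl ^ n)).injective).symm⟩

theorem not_conj (hr : ∀ y, y ∈ j.range ↔ y ∈ SUa) {m n : ℕ} {g : Γ}
    (h : (Kc j m).map (MulAut.conj g).toMonoidHom = Kc j n) : F4.w ^ m = F4.w ^ n := by
  obtain ⟨hq, hl, hd⟩ := (hr _).1 ⟨g, rfl⟩
  have hn : (dl ^ n)⁻¹ * j g * dl ^ m ∈ normalizer (K0 : Set AV) := by
    refine mem_normalizer_of_conj (fun k hk => ?_) fun k hk => ?_
    · obtain ⟨y, hy⟩ := conj_le hr m (mem_map_of_mem _ hk)
      have h1 : y ∈ Kc j m := by rw [Kc, mem_comap, hy]; exact mem_map_of_mem _ hk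
      have h2 := mem_Kc.1 (h ▸ mem_map_of_mem (MulAut.conj g).toMonoidHom h1)
      simp only [MulEquiv.coe_toMonoidHom, MulAut.conj_apply, map_mul, map_inv] at h2 hy
      rw [hy] at h2
      convert h2 using 1; group
    · obtain ⟨y, hy⟩ := conj_le hr n (mem_map_of_mem _ hk)
      have h1 : y ∈ Kc j n := by rw [Kc, mem_comap, hy]; exact mem_map_of_mem _ hk
      have h2 := mem_Kc.1 (mem_map_conj.1 (h ▸ h1))
      simp only [MulEquiv.coe_toMonoidHom, MulAut.conj_apply, map_mul, map_inv] at h2 hy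
      rw [hy] at h2
      convert h2 using 1; group
  have h3 := dH_L1 ⟨linV.mul_mem (linV.mul_mem (linV.inv_mem (pow_mem dl_lin n)) hl) (pow_mem dl_lin m),
    mem_stabS_of_norm (mul_mem (mul_mem (inv_mem (pow_mem dl_iso n)) hq) (pow_mem dl_iso m)) hn⟩
  change dH (((⟨dl, dl_lin⟩ : linV) ^ n)⁻¹ * ⟨_, hl⟩ * ⟨dl, dl_lin⟩ ^ m) = 1 at h3
  rw [map_mul, map_mul, map_inv, hd, mul_one, inv_mul_eq_one, map_pow, map_pow] at h3
  simpa only [Units.val_pow_eq_pow_val, dH_dl] using congrArg Units.val h3.symm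

theorem exists_conj (hj : Function.Injective j) (hr : ∀ y, y ∈ j.range ↔ y ∈ SUa) {K : Subgroup Γ}
    (hc : Nat.card (center K) = 3) (e : K ⧸ center K ≃* U) :
    ∃ g : Γ, ∃ n < 3, K.map (MulAut.conj g).toMonoidHom = Kc j n := by
  have := Fact.mk Nat.prime_three
  have := Nat.finite_of_card_ne_zero (hc ▸ three_ne_zero : Nat.card (center K) ≠ 0)
  obtain ⟨x, hx⟩ := exists_prime_orderOf_dvd_card' (G := center K) 3 (hc ▸ dvd_rfl)
  have hz : zpowers (x : K) = center K := eq_of_le_of_card_ge (zpowers_le.2 x.2)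
    (by rw [Nat.card_zpowers, orderOf_coe, hx, hc])
  let ε := K.equivMapOfInjective j hj
  have hK : ∀ y ∈ K.map j, y ∈ SUa := fun y hy => (hr y).1 (map_le_range _ _ hy)
  obtain ⟨Φ, h1, -, h3⟩ := ident (q := qv) (B := AddMonoidHom.mk' (fun u => AddMonoidHom.mk' (Bv u) (Bv_add_right u))
      fun u v => AddMonoidHom.ext (Bv_add_left u v)) ⟨qv_add, fun _ => Bv_nondeg⟩ (K := K.map j)
    (fun y hy => (hK y hy).1) (π := (e.toMonoidHom.comp (QuotientGroup.mk' _)).comp ε.symm.toMonoidHom)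
    ((e.surjective.comp (QuotientGroup.mk'_surjective _)).comp ε.symm.surjective) (x := ε x)
    (by rw [ε.orderOf_eq, orderOf_coe, hx]) (by
      ext k
      obtain ⟨k, rfl⟩ := ε.surjective k
      rw [show zpowers (ε x) = (zpowers (x : K)).map ε.toMonoidHom from
        (MonoidHom.map_zpowers ε.toMonoidHom _).symm, hz]
      refine Iff.trans ?_ (mem_map_iff_mem (f := ε.toMonoidHom) ε.injective).symm
      rw [MonoidHom.mem_ker, ← QuotientGroup.eq_one_iff k, ← e.map_eq_one_iff]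
      simp)
  obtain ⟨Ψ, q1, l1, h4⟩ : ∃ Ψ ∈ isoQ, Ψ ∈ linV ∧ ∀ y, y ∈ K0 ↔ Ψ * y * Ψ⁻¹ ∈ K.map j := by
    rcases mem_zpowers_om (y := Φ⁻¹ * om * Φ) fun k hk => by
      have := mem_linV.1 (hK _ ((h3 k).1 hk)).2.1
      calc _ = Φ⁻¹ * (Φ * k * Φ⁻¹ * om) * Φ := by group
        _ = _ := by rw [this]; group
      with e | e | e
    · exact absurd (conj_eq_one_iff.1 (by simpa using e : Φ⁻¹ * om * Φ⁻¹⁻¹ = 1)) om_ne_one
    · exact ⟨Φ, h1, mem_linV.2 (by rwa [mul_assoc, inv_mul_eq_iff_eq_mul, eq_comm] at e), h3⟩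
    · refine ⟨Φ * sg, mul_mem (show Φ ∈ isoQ from h1) (N1_le_isoQ sg_mem), mem_linV.2 ?_, fun y => ?_⟩
      · rw [mul_assoc, sg_om, ← e]; group
      · rw [mem_normalizer_iff.1 (N1_le_normalizer sg_mem) y]
        refine (h3 _).trans ?_
        rw [show Φ * (sg * y * sg⁻¹) * Φ⁻¹ = Φ * sg * y * (Φ * sg)⁻¹ by group]
  obtain ⟨n, hn, hd⟩ := (by decide : ∀ a : F4, a ≠ 0 → ∃ n < 3, F4.w ^ n = a) _ (dH ⟨Ψ, l1⟩).ne_zero
  obtain ⟨g, hg⟩ := (hr (dl ^ n * Ψ⁻¹)).2 ⟨mul_mem (pow_mem dl_iso n) (inv_mem q1),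
    mul_mem (pow_mem dl_lin n) (inv_mem l1), by
      show dH ((⟨dl, dl_lin⟩ : linV) ^ n * (⟨Ψ, l1⟩ : linV)⁻¹) = 1
      rw [map_mul, map_inv, mul_inv_eq_one, map_pow]
      exact Units.ext (by rw [Units.val_pow_eq_pow_val, dH_dl, hd])⟩
  refine ⟨g, n, hn, Subgroup.ext fun y => ?_⟩
  rw [mem_map_conj, mem_Kc, h4, ← mem_map_iff_mem hj, map_mul, map_mul, map_inv, hg]
  exact Iff.of_eq (congrArg (· ∈ K.map j) (by group))

/-- In the special unitary group of dimension 6 over the field with four elements (determinant-one matrices preserving the standard Hermitian form), the subgroups K whose centre has order 3 with K modulo its centre isomorphic to the projective special unitary group of dimension 4 over the field with nine elements fall into exactly three conjugacy classes. -/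
theorem result (F : Type) [Field F] [Fintype F] (hF : Fintype.card F = 4) (F9 : Type) [Field F9] [Fintype F9] (hF9 : Fintype.card F9 = 9) : ∃ K₁ K₂ K₃ : Subgroup ↥(Cfsg.SU 6 F 2), (∀ K ∈ [K₁, K₂, K₃], Nat.card ↥(Subgroup.center ↥K) = 3 ∧ Nonempty (↥K ⧸ Subgroup.center ↥K ≃* Cfsg.PSU 4 F9 3)) ∧ (¬ ∃ g : ↥(Cfsg.SU 6 F 2), K₁.map (MulAut.conj g).toMonoidHom = K₂) ∧ (¬ ∃ g : ↥(Cfsg.SU 6 F 2), K₁.map (MulAut.conj g).toMonoidHom = K₃) ∧ (¬ ∃ g : ↥(Cfsg.SU 6 F 2), K₂.map (MulAut.conj g).toMonoidHom = K₃) ∧ ∀ K : Subgroup ↥(Cfsg.SU 6 F 2), Nat.card ↥(Subgroup.center ↥K) = 3 → Nonempty (↥K ⧸ Subgroup.center ↥K ≃* Cfsg.PSU 4 F9 3) → ∃ g : ↥(Cfsg.SU 6 F 2), K.map (MulAut.conj g).toMonoidHom = K₁ ∨ K.map (MulAut.conj g).toMonoidHom = K₂ ∨ K.map (MulAut.conj g).toMonoidHom = K₃ := by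
  let c := H30.suCongr (FiniteField.ringEquivOfCardEq (K := F) (K' := F4) hF) 6 2
  let j := ι.comp c.toMonoidHom
  have hj : Function.Injective j := ι_inj.comp c.injective
  have hr : ∀ y, y ∈ j.range ↔ y ∈ SUa := fun y => by
    rw [← range_ι, MonoidHom.range_comp, MonoidHom.range_eq_top.2 c.surjective, ← MonoidHom.range_eq_map]
  let u := H95.U43.equiv.some.trans (H30.psuCongr (FiniteField.ringEquivOfCardEq
    (H74.F9.card_eq.trans hF9.symm)) 4 3)
  have k : ∀ n, Nat.card (center (Kc j n)) = 3 ∧ Nonempty (Kc j n ⧸ center (Kc j n) ≃* PSU 4 F9 3) := fun n => by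
    obtain ⟨e⟩ := Kc_equiv hj hr n
    exact ⟨(Nat.card_congr (centerCongr e).toEquiv).trans card_center_K0,
      ⟨((H10.quotCenterCongr e).trans quot_K0.some).trans u⟩⟩
  refine ⟨Kc j 0, Kc j 1, Kc j 2, fun K hK => ?_, fun ⟨g, h⟩ => absurd (not_conj hr h) (by decide),
    fun ⟨g, h⟩ => absurd (not_conj hr h) (by decide), fun ⟨g, h⟩ => absurd (not_conj hr h) (by decide),
    fun K hc ⟨e⟩ => ?_⟩
  · simp only [List.mem_cons, List.not_mem_nil, or_false] at hK
    rcases hK with rfl | rfl | rfl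
    exacts [k 0, k 1, k 2]
  · obtain ⟨g, n, hn, h⟩ := exists_conj hj hr hc (e.trans u.symm)
    refine ⟨g, ?_⟩
    interval_cases n
    exacts [Or.inl h, Or.inr (Or.inl h), Or.inr (Or.inr h)]

end Cfsg.Agent.S5520
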