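import Mathlib
import Cfsg.Statements.S5541
-- import your own Cfsg.Agent.* helpers here

set_option autoImplicit false
open Cfsg

namespace Cfsg.Agent.S5541


/-- Let ρ be a representation of a group H on a finite-dimensional real vector space U whose only ρ-invariant subspaces are the zero subspace and U, and suppose U carries a non-zero ρ-invariant symmetric bilinear form. Then the following are equivalent: (1) there is a non-zero ρ-equivariant commutative bilinear product on U of which every ρ-equivariant bilinear product is a scalar multiple; (2) there is a non-zero ρ-invariant trilinear form on U that is symmetric under all permutations of its arguments and of which every ρ-invariant trilinear form is a scalar multiple. -/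
theorem result {H : Type*} [Group H] {U : Type*} [AddCommGroup U] [Module ℝ U] [FiniteDimensional ℝ U] (ρ : Representation ℝ H U) (hirr : ∀ W : Submodule ℝ U, (∀ g : H, W.map (ρ g) ≤ W) → W = ⊥ ∨ W = ⊤) (B : LinearMap.BilinForm ℝ U) (hB0 : B ≠ 0) (hBs : ∀ u v, B u v = B v u) (hBi : ∀ (g : H) (u v : U), B (ρ g u) (ρ g v) = B u v) : (∃ m : U →ₗ[ℝ] U →ₗ[ℝ] U, m ≠ 0 ∧ (∀ u v, m u v = m v u) ∧ (∀ (g : H) (u v : U), m (ρ g u) (ρ g v) = ρ g (m u v)) ∧ ∀ m' : U →ₗ[ℝ] U →ₗ[ℝ] U, (∀ (g : H) (u v : U), m' (ρ g u) (ρ g v) = ρ g (m' u v)) → ∃ c : ℝ, m' = c • m) ↔ (∃ t : U →ₗ[ℝ] U →ₗ[ℝ] U →ₗ[ℝ] ℝ, t ≠ 0 ∧ (∀ u v w, t u v w = t v u w ∧ t u v w = t u w v) ∧ (∀ (g : H) (u v w : U), t (ρ g u) (ρ g v) (ρ g w) = t u v w) ∧ ∀ t' : U →ₗ[ℝ] U →ₗ[ℝ] U →ₗ[ℝ] ℝ, (∀ (g : H) (u v w : U), t' (ρ g u) (ρ g v) (ρ g w) = t' u v w) → ∃ c : ℝ, t' = c • t) := by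
  have hnd : B.Nondegenerate := by
    have hl : ∀ u, (∀ v, B u v = 0) → u = 0 := by
      rcases hirr (LinearMap.ker B) (fun g => by
        rintro _ ⟨u, hu, rfl⟩
        ext v
        have := hBi g u (ρ g⁻¹ v)
        simp only [Representation.self_inv_apply] at this
        rw [this, LinearMap.mem_ker.1 hu]
        rfl) with h | h
      · intro u hu
        have : u ∈ LinearMap.ker B := LinearMap.ext hu
        rwa [h] at this
      · exact absurd (LinearMap.ker_eq_top.1 h) hB0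
    exact ⟨hl, fun u hu => hl u fun v => by rw [hBs, hu]⟩
  let e : U ≃ₗ[ℝ] Module.Dual ℝ U := B.toDual hnd
  have he : ∀ u v, e u v = B u v := fun u v => rfl
  let T : (U →ₗ[ℝ] U →ₗ[ℝ] U) → (U →ₗ[ℝ] U →ₗ[ℝ] U →ₗ[ℝ] ℝ) := fun m => m.compr₂ (e : U →ₗ[ℝ] Module.Dual ℝ U)
  let M : (U →ₗ[ℝ] U →ₗ[ℝ] U →ₗ[ℝ] ℝ) → (U →ₗ[ℝ] U →ₗ[ℝ] U) := fun t => t.compr₂ (e.symm : Module.Dual ℝ U →ₗ[ℝ] U)
  have hT : ∀ m u v w, T m u v w = B (m u v) w := fun m u v w => rfl
  have hM : ∀ t u v w, B (M t u v) w = t u v w := fun t u v w => by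
    rw [← he]
    simp [M]
  have ext : ∀ {x y : U}, (∀ w, B x w = B y w) → x = y := fun h => e.injective (LinearMap.ext h)
  have TM : ∀ t, T (M t) = t := fun t => by ext u v w; rw [hT, hM]
  have MT : ∀ m, M (T m) = m := fun m => by ext u v; exact ext fun w => by rw [hM, hT]
  have Tsmul : ∀ (c : ℝ) m, T (c • m) = c • T m := fun c m => by ext u v w; simp [hT]
  have Tinv : ∀ m : U →ₗ[ℝ] U →ₗ[ℝ] U, (∀ (g : H) (u v : U), m (ρ g u) (ρ g v) = ρ g (m u v)) ↔
      ∀ (g : H) (u v w : U), T m (ρ g u) (ρ g v) (ρ g w) = T m u v w := fun m => by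
    constructor
    · intro h g u v w
      rw [hT, hT, h, hBi]
    · intro h g u v
      refine ext fun w => ?_
      have := h g u v (ρ g⁻¹ w)
      simp only [Representation.self_inv_apply, hT] at this
      rw [this, ← hBi g (m u v), Representation.self_inv_apply]
  have T0 : T 0 = 0 := by ext u v w; simp [hT]
  have Tinj : ∀ m m', T m = T m' → m = m' := fun m m' h => by rw [← MT m, h, MT]
  constructor
  · rintro ⟨m, h0, hc, hi, hu⟩
    have uniq : ∀ t' : U →ₗ[ℝ] U →ₗ[ℝ] U →ₗ[ℝ] ℝ,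
        (∀ (g : H) (u v w : U), t' (ρ g u) (ρ g v) (ρ g w) = t' u v w) → ∃ c : ℝ, t' = c • T m := by
      intro t' ht'
      obtain ⟨c, hc⟩ := hu (M t') ((Tinv _).2 (by rwa [TM]))
      exact ⟨c, by rw [← Tsmul, ← hc, TM]⟩
    have hs : ∀ u v w, T m u v w = T m v u w := fun u v w => by rw [hT, hT, hc]
    refine ⟨T m, fun h => h0 (Tinj _ _ (h.trans T0.symm)), fun u v w => ⟨hs u v w, ?_⟩, (Tinv m).1 hi, uniq⟩
    obtain ⟨c, hc⟩ := uniq ((T m).compr₂ LinearMap.id |>.comp LinearMap.id |> fun t => LinearMap.lflip.toLinearMap ∘ₗ t)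
      (fun g u v w => (Tinv m).1 hi g u w v)
    have h1 : ∀ u v w, T m u w v = c * T m u v w := fun u v w =>
      congrArg (fun t : U →ₗ[ℝ] U →ₗ[ℝ] U →ₗ[ℝ] ℝ => t u v w) hc
    by_cases h : c = 1
    · rw [h1 u v w, h, one_mul]
    exfalso
    apply h0
    apply Tinj
    rw [T0]
    ext u v w
    have e2 : T m u v w = c * (c * T m u v w) := by rw [← h1, ← h1]
    have e3 : T m u v w = c * (c * (c * T m u v w)) := by
      rw [← h1 u v w, hs u w v, ← h1 w u v, hs w v u, ← h1 v w u, hs v u w]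
    have : (c - 1) * T m u v w = 0 := by linear_combination c * e2 - e3
    simpa using (mul_eq_zero.1 this).resolve_left (sub_ne_zero.2 h)
  · rintro ⟨t, h0, hc, hi, hu⟩
    refine ⟨M t, fun h => h0 (by rw [← TM t, h, T0]), fun u v => ext fun w => by rw [hM, hM, (hc u v w).1],
      (Tinv _).2 (by rwa [TM]), fun m' hm' => ?_⟩
    obtain ⟨c, hc⟩ := hu (T m') ((Tinv _).1 hm')
    exact ⟨c, Tinj _ _ (by rw [Tsmul, TM, hc])⟩


end Cfsg.Agent.S5541
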