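import Mathlib
import Cfsg.Agent.Lib.Majorana.Basic
import Cfsg.Statements.S5543
-- import your own Cfsg.Agent.* helpers here

set_option autoImplicit false
open Cfsg

namespace Cfsg.Agent.S5543


/-- Let V be a finite-dimensional real vector space with a commutative bilinear product and a positive-definite symmetric bilinear form that associates with the product and satisfies the Norton inequality (the Majorana setting of the definitions). Let X be a group of linear automorphisms of V in which every element squares to the identity, and suppose every non-identity element x of X is a Majorana involution with an axial vector a(x) of squared length 1, such that for any two distinct non-identity x, y the product a(x) ∘ a(y) equals (1/8)(a(x) + a(y) − a(xy)) (the dihedral subalgebra of type 2A whose third axis belongs to the involution xy). Then X has order at most 4. -/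
theorem result {V : Type*} [AddCommGroup V] [Module ℝ V] [FiniteDimensional ℝ V] (mul : V →ₗ[ℝ] V →ₗ[ℝ] V) (B : LinearMap.BilinForm ℝ V) (hV : Cfsg.Axial.IsMajoranaAmbient mul B) (X : Subgroup (V ≃ₗ[ℝ] V)) (hX : ∀ x ∈ X, x * x = 1) (ax : (V ≃ₗ[ℝ] V) → V) (hax : ∀ x ∈ X, x ≠ 1 → Cfsg.Axial.IsMajoranaPair mul B x (ax x)) (h1 : ∀ x ∈ X, x ≠ 1 → B (ax x) (ax x) = 1) (h2A : ∀ x ∈ X, ∀ y ∈ X, x ≠ 1 → y ≠ 1 → x ≠ y → mul (ax x) (ax y) = (1 / 8 : ℝ) • (ax x + ax y - ax (x * y))) : Nat.card ↥X ≤ 4 := by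
  by_contra hn
  push Not at hn
  have hfin : Finite X := Nat.finite_of_card_ne_zero (by omega)
  have comm : ∀ x ∈ X, ∀ y ∈ X, x * y = y * x := by
    intro x hx y hy
    have e1 := hX _ (mul_mem hx hy)
    calc x * y = x * (x * y * (x * y)) * y * (y * y) := by rw [e1, hX y hy]; simp
      _ = (x * x) * y * x * (y * y) * (y * y) := by simp only [mul_assoc]
      _ = y * x := by rw [hX x hx, hX y hy]; simp
  -- three independent elements
  have ex : ∀ s : Finset (V ≃ₗ[ℝ] V), s.card ≤ 4 → ∃ x ∈ X, x ∉ s := by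
    intro s hs
    by_contra h
    push Not at h
    have : Nat.card X ≤ Nat.card s := Nat.card_le_card_of_injective
      (fun x : X => (⟨x.1, h x.1 x.2⟩ : s)) fun x y e => Subtype.ext (by simpa using e)
    rw [Nat.card_eq_finsetCard] at this
    omega
  classical
  obtain ⟨x, hx, hx1⟩ := ex {1} (by simp)
  obtain ⟨y, hy, hy1⟩ := ex {1, x} (Finset.card_le_two.trans (by norm_num))
  obtain ⟨z, hz, hz1⟩ := ex {1, x, y, x * y} Finset.card_le_four
  simp only [Finset.mem_insert, Finset.mem_singleton, not_or] at hx1 hy1 hz1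
  have ne1 : ∀ u ∈ X, ∀ v ∈ X, u ≠ v → u * v ≠ 1 := fun u hu v hv h e =>
    h (mul_left_cancel (a := u) ((hX u hu).trans e.symm))
  have canc : ∀ u ∈ X, ∀ v, u * (u * v) = v := fun u hu v => by rw [← mul_assoc, hX u hu, one_mul]
  have ne2 : ∀ u v : V ≃ₗ[ℝ] V, u ≠ 1 → v ≠ u * v := fun u v h e => h (by simpa using e.symm)
  have A := H95.Maj.Ax_of hV (hax x hx hx1) (h1 x hx hx1)
  -- 1/4-eigenvectors
  have q : ∀ u ∈ X, u ≠ 1 → u ≠ x → mul (ax x) (ax u - ax (x * u)) = (1 / 4 : ℝ) • (ax u - ax (x * u)) := by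
    intro u hu u1 ux
    rw [map_sub, h2A x hx u hu hx1 u1 ux.symm, h2A x hx _ (mul_mem hx hu) hx1 (ne1 x hx u hu ux.symm)
      (fun e => u1 (by simpa using e.symm)), canc x hx]
    module
  have hxy := mul_mem hx hy
  have hxz := mul_mem hx hz
  have hyz := mul_mem hy hz
  have xy1 := ne1 x hx y hy (Ne.symm hy1.2)
  have xz1 := ne1 x hx z hz (Ne.symm hz1.2.1)
  have yz1 := ne1 y hy z hz (Ne.symm hz1.2.2.1)
  have yzx : y * z ≠ x := fun e => hz1.2.2.2 (by rw [← canc y hy z, e, comm x hx y hy])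
  have f := A.f44 _ _ (q y hy hy1.1 hy1.2) (q z hz hz1.1 hz1.2.1)
  have f2 := congrArg (mul (ax x)) f
  rw [map_smul, A.idem, ← f] at f2
  have e : mul (ax y - ax (x * y)) (ax z - ax (x * z)) = (-1 / 4 : ℝ) • (ax (y * z) - ax (x * (y * z))) := by
    have e1 : y * (x * z) = x * (y * z) := by rw [← mul_assoc, ← comm x hx y hy, mul_assoc]
    have e2 : x * y * (x * z) = y * z := by rw [mul_assoc, e1, canc x hx]
    simp only [map_sub, LinearMap.sub_apply]
    rw [h2A y hy z hz hy1.1 hz1.1 (Ne.symm hz1.2.2.1),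
      h2A y hy _ hxz hy1.1 xz1 (fun e => hz1.2.2.2 (by rw [e, canc x hx])),
      h2A _ hxy z hz xy1 hz1.1 (Ne.symm hz1.2.2.2),
      h2A _ hxy _ hxz xy1 xz1 (fun e => hz1.2.2.1 (mul_left_cancel e).symm), e1, e2, mul_assoc x y z]
    module
  rw [e] at f2
  simp only [map_smul, q _ hyz yz1 yzx] at f2
  have e3 : ax (y * z) = ax (x * (y * z)) := by
    linear_combination (norm := module) (64 / 3 : ℝ) • f2
  have B1 := H95.Maj.Ax_of hV (hax _ hyz yz1) (h1 _ hyz yz1)
  have xyz1 := ne1 x hx _ hyz yzx.symm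
  have B2 := H95.Maj.Ax_of hV (hax _ (mul_mem hx hyz) xyz1) (h1 _ (mul_mem hx hyz) xyz1)
  rw [← e3] at B2
  exact ne2 x _ hx1 (B1.unique B2)


end Cfsg.Agent.S5543
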