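import Mathlib
import Cfsg.Agent.Lib.Majorana.Basic
import Cfsg.Statements.S5545
-- import your own Cfsg.Agent.* helpers here

set_option autoImplicit false
open Cfsg

namespace Cfsg.Agent.S5545

open H95.Maj in
theorem half {V : Type*} [AddCommGroup V] [Module ℝ V] {mul : V →ₗ[ℝ] V →ₗ[ℝ] V} {B : LinearMap.BilinForm ℝ V}
    (hc : Cfsg.Axial.IsCommMul mul) {t t' : V ≃ₗ[ℝ] V} {a b s : V} (ha : Ax mul B t a) (hb : Ax mul B t' b)
    (hab : t b = b) (hba : t' a = a) (hB : B b a = B a b) (hs : mul a b = s + (1 / 4 : ℝ) • (a + b)) :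
    mul a s = ((3 * B a b - 1) / 4) • a ∧ mul b s = ((3 * B a b - 1) / 4) • b ∧
      mul s s = ((3 * B a b - 1) / 4) • s ∧ (B a b = 1 / 8 ∨ mul a b = B a b • a) := by
  have key : ∀ {t : V ≃ₗ[ℝ] V} {a b s : V}, Ax mul B t a → t b = b →
      mul a b = s + (1 / 4 : ℝ) • (a + b) → mul a s = ((3 * B a b - 1) / 4) • a := by
    intro t a b s ha hab hs
    have hs' : mul a b = (s + (7 / 32 : ℝ) • (a + b)) + (1 / 32 : ℝ) • (a + b) := by rw [hs]; module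
    have h1 := ha.mul_sigma hs'
    simp only [map_add, map_smul, ha.idem, hab, hs] at h1
    linear_combination (norm := module) h1
  have h1 := key ha hab hs
  have hs2 : mul b a = s + (1 / 4 : ℝ) • (b + a) := by rw [hc b a, hs, add_comm a b]
  have h2 := key hb hba hs2
  rw [hB] at h2
  generalize B a b = l at h1 h2 ⊢
  have h0 : mul a (((3 * l - 1) / 4) • a - s) = 0 := by
    simp only [map_sub, map_smul, ha.idem, h1, sub_self]
  have h3 := ha.seress hc h0 b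
  simp only [map_add, map_sub, map_smul, LinearMap.sub_apply, LinearMap.smul_apply, hs, hc s a, hc s b,
    h1, h2, ha.idem] at h3
  have h4 : mul s s = ((3 * l - 1) / 4) • s := by
    linear_combination (norm := module) h3
  refine ⟨h1, h2, h4, ?_⟩
  have hb4 : mul a (b - l • a - (4 : ℝ) • (((3 * l - 1) / 4) • a - s)) =
      (1 / 4 : ℝ) • (b - l • a - (4 : ℝ) • (((3 * l - 1) / 4) • a - s)) := by
    simp only [map_sub, map_smul, ha.idem, h1, hs]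
    module
  have h5 := ha.f44 _ _ hb4 hb4
  have h6 := congrArg (mul a) h5
  rw [map_smul, ha.idem, ← h5] at h6
  simp only [map_add, map_sub, map_smul, LinearMap.sub_apply, LinearMap.smul_apply, hs, hc s a, hc s b,
    hc b a, h1, h2, h4, ha.idem, hb.idem] at h6
  by_cases hl : l = 1 / 8
  · exact Or.inl hl
  right
  have h7 : (l - 1 / 8) • (b - l • a - (4 : ℝ) • (((3 * l - 1) / 4) • a - s)) = 0 := by
    linear_combination (norm := module) (-4 / 3 : ℝ) • h6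
  have h8 := (smul_eq_zero.1 h7).resolve_left (sub_ne_zero.2 hl)
  rw [hs]
  linear_combination (norm := module) (1 / 4 : ℝ) • h8


/-- Let V be a finite-dimensional real vector space with a commutative bilinear product and a positive-definite symmetric bilinear form that associates with the product and satisfies the Norton inequality (the Majorana setting of the definitions). Let μ₀, μ₁ be commuting Majorana involutions with distinct axial vectors a₀ ≠ a₁ of squared length 1, each involution having no other axial vector. Then either a₀ and a₁ are orthogonal with a₀ ∘ a₁ = 0 (type 2B), or their inner product is 1/8 and, with a₂ = a₀ + a₁ − 8 a₀ ∘ a₁, the vector a₂ is an idempotent and a₀ ∘ a₂ = (1/8)(a₀ + a₂ − a₁), a₁ ∘ a₂ = (1/8)(a₁ + a₂ − a₀) (type 2A: the three idempotents span a subalgebra with aᵢ ∘ aⱼ = (1/8)(aᵢ + aⱼ − aₖ)). -/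
theorem result {V : Type*} [AddCommGroup V] [Module ℝ V] [FiniteDimensional ℝ V] (mul : V →ₗ[ℝ] V →ₗ[ℝ] V) (B : LinearMap.BilinForm ℝ V) (hV : Cfsg.Axial.IsMajoranaAmbient mul B) (μ₀ μ₁ : V ≃ₗ[ℝ] V) (a₀ a₁ : V) (h₀ : Cfsg.Axial.IsMajoranaPair mul B μ₀ a₀) (h₁ : Cfsg.Axial.IsMajoranaPair mul B μ₁ a₁) (hu₀ : ∀ a : V, Cfsg.Axial.IsMajoranaPair mul B μ₀ a → a = a₀) (hu₁ : ∀ a : V, Cfsg.Axial.IsMajoranaPair mul B μ₁ a → a = a₁) (hn₀ : B a₀ a₀ = 1) (hn₁ : B a₁ a₁ = 1) (hc : μ₀ * μ₁ = μ₁ * μ₀) (hne : a₀ ≠ a₁) : (B a₀ a₁ = 0 ∧ mul a₀ a₁ = 0) ∨ (B a₀ a₁ = 1 / 8 ∧ mul (a₀ + a₁ - (8 : ℝ) • mul a₀ a₁) (a₀ + a₁ - (8 : ℝ) • mul a₀ a₁) = a₀ + a₁ - (8 : ℝ) • mul a₀ a₁ ∧ mul a₀ (a₀ + a₁ - (8 : ℝ) • mul a₀ a₁) = (1 / 8 : ℝ) • (a₀ + (a₀ + a₁ - (8 : ℝ) • mul a₀ a₁) - a₁) ∧ mul a₁ (a₀ + a₁ - (8 : ℝ) • mul a₀ a₁) = (1 / 8 : ℝ) • (a₁ + (a₀ + a₁ - (8 : ℝ) • mul a₀ a₁) - a₀)) := by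
  have A0 := H95.Maj.Ax_of hV h₀ hn₀
  have A1 := H95.Maj.Ax_of hV h₁ hn₁
  have f0 : μ₁ a₀ = a₀ := by
    apply hu₀
    have := H95.Maj.pair_conj h₀ μ₁ A1.map_mul A1.map_B
    rwa [← hc, mul_inv_cancel_right] at this
  have f1 : μ₀ a₁ = a₁ := by
    apply hu₁
    have := H95.Maj.pair_conj h₁ μ₀ A0.map_mul A0.map_B
    rwa [hc, mul_inv_cancel_right] at this
  obtain ⟨s, hs⟩ : ∃ s, mul a₀ a₁ = s + (1 / 4 : ℝ) • (a₀ + a₁) :=
    ⟨mul a₀ a₁ - (1 / 4 : ℝ) • (a₀ + a₁), by module⟩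
  have hB := hV.2.1 a₁ a₀
  obtain ⟨h1, h2, h3, h4⟩ := half hV.1 A0 A1 f1 f0 hB hs
  obtain ⟨-, -, -, h5⟩ := half hV.1 A1 A0 f0 f1 hB.symm (s := s) (by rw [hV.1 a₁ a₀, hs, add_comm a₀ a₁])
  rw [hB, hV.1 a₁ a₀] at h5
  by_cases hl : B a₀ a₁ = 1 / 8
  · right
    rw [hl] at h1 h2 h3
    refine ⟨hl, ?_, ?_, ?_⟩ <;>
    simp only [map_add, map_sub, map_smul, LinearMap.sub_apply, LinearMap.add_apply, LinearMap.smul_apply, hs,
      hV.1 s a₀, hV.1 s a₁, hV.1 a₁ a₀, h1, h2, h3, A0.idem, A1.idem] <;> module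
  · left
    have h4 := h4.resolve_left hl
    have h5 := h5.resolve_left hl
    have h6 : B a₀ a₁ • (a₀ - a₁) = 0 := by rw [smul_sub, ← h4, ← h5, sub_self]
    have h7 := (smul_eq_zero.1 h6).resolve_right (sub_ne_zero.2 hne)
    exact ⟨h7, by rw [h4, h7, zero_smul]⟩


end Cfsg.Agent.S5545
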