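import Mathlib
import Cfsg.Statements.S5546
import Cfsg.Agent.Lib.Leech.Export

set_option autoImplicit false
open Cfsg

namespace Cfsg.Agent.S5546

open H16

/-- reduction modulo 13 and modulo the fixed vector -/
def φ (v : leechLattice) (j : ZMod 23) : ZMod 13 :=
  (((v : GolayPt → ℤ) (some j) - (if j = 0 then (v : GolayPt → ℤ) none else 0) : ℤ) : ZMod 13)

/-- the matrix of an element -/
def A (g : Co0) : Matrix (ZMod 23) (ZMod 23) (ZMod 13) := Matrix.of fun j i => 5 * φ (g • e8 (some i)) j

theorem A_apply (g : Co0) (j i : ZMod 23) : A g j i = 5 * φ (g • e8 (some i)) j := rfl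

theorem φ_e8 (i j : ZMod 23) : φ (e8 (some i)) j = if j = i then 8 else 0 := by
  unfold φ
  rw [coe_e8, Pi.single_eq_of_ne (Option.some_ne_none i).symm, ite_self, sub_zero, Pi.single_apply]
  by_cases h : j = i
  · rw [if_pos h, if_pos (congrArg some h)]; rfl
  · rw [if_neg h, if_neg fun e => h (Option.some.inj e)]; rfl

theorem φ_smul {g : Co0} (hg : g • vU = vU) (v : leechLattice) (j : ZMod 23) :
    φ (g • v) j = ∑ i : ZMod 23, A g j i * φ v i := by
  have e0 : e8 none = vU + vU - e8 (some 0) := by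
    rw [← U_add_UP, ← U_sub_UP]; abel
  have e1 : φ (g • e8 none) j = -φ (g • e8 (some 0)) j := by
    rw [e0, smul_sub, smul_add, hg]
    unfold φ
    have u1 : (vU : GolayPt → ℤ) none = 4 := rfl
    have u2 : (vU : GolayPt → ℤ) (some j) = if j = 0 then 4 else 0 := by
      revert j; decide
    simp only [AddSubgroup.coe_sub, AddSubgroup.coe_add, Pi.sub_apply, Pi.add_apply, u1, u2]
    split_ifs <;> push_cast <;> ring
  have e2 : 8 * φ (g • v) j = ∑ p : GolayPt, ((v : GolayPt → ℤ) p : ZMod 13) * φ (g • e8 p) j := by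
    have h1 := congrArg (Int.cast : ℤ → ZMod 13) (eight_mul_co0 g v (some j))
    have h2 := congrArg (Int.cast : ℤ → ZMod 13) (eight_mul_co0 g v none)
    unfold φ
    push_cast at h1 h2 ⊢
    simp only [mul_sub, Finset.sum_sub_distrib]
    split_ifs
    · rw [h1, h2]
    · rw [h1]; simp
  have e3 : ∑ p : GolayPt, ((v : GolayPt → ℤ) p : ZMod 13) * φ (g • e8 p) j =
      ((v : GolayPt → ℤ) none : ZMod 13) * φ (g • e8 none) j +
        ∑ i : ZMod 23, ((v : GolayPt → ℤ) (some i) : ZMod 13) * φ (g • e8 (some i)) j :=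
    Fintype.sum_option _
  have e4 : ∑ i : ZMod 23, A g j i * φ v i =
      5 * ∑ i : ZMod 23, ((v : GolayPt → ℤ) (some i) : ZMod 13) * φ (g • e8 (some i)) j -
        5 * (((v : GolayPt → ℤ) none : ZMod 13) * φ (g • e8 (some 0)) j) := by
    have : ∀ i : ZMod 23, A g j i * φ v i =
        5 * (((v : GolayPt → ℤ) (some i) : ZMod 13) * φ (g • e8 (some i)) j) -
        if i = 0 then 5 * (((v : GolayPt → ℤ) none : ZMod 13) * φ (g • e8 (some 0)) j) else 0 := by
      intro i
      rw [A_apply]
      conv_lhs => rw [show φ v i = _ from rfl, φ.eq_1 v i]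
      split_ifs with h
      · subst h; push_cast; ring
      · push_cast; ring
    rw [Finset.sum_congr rfl fun i _ => this i, Finset.sum_sub_distrib, Finset.sum_ite_eq',
      if_pos (Finset.mem_univ _), Finset.mul_sum]
  have h40 : (40 : ZMod 13) = 1 := rfl
  rw [e4]
  rw [e3, e1] at e2
  linear_combination 5 * e2 - φ (g • v) j * h40

/-- the representation of the stabiliser -/
noncomputable def ρ : Stab vU →* Matrix (ZMod 23) (ZMod 23) (ZMod 13) where
  toFun g := A g
  map_one' := by
    ext j i
    rw [A_apply, OneMemClass.coe_one, one_smul, φ_e8, Matrix.one_apply]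
    split_ifs <;> rfl
  map_mul' g h := by
    ext j i
    rw [A_apply, Subgroup.coe_mul, mul_smul, φ_smul g.2, Matrix.mul_apply, Finset.mul_sum]
    exact Finset.sum_congr rfl fun k _ => by rw [A_apply h]; ring

theorem exists_c : ∃ c ∈ code, none ∉ c ∧ some 0 ∉ c ∧ some 1 ∈ c := by
  obtain ⟨c, hc, e⟩ := exists_code_inter_eq_of_card_lt {none, some 0, some 1} {some 1} (by simp)
    (lt_of_le_of_lt Finset.card_le_three (by norm_num))
  have m : ∀ p ∈ ({none, some 0, some 1} : Finset GolayPt), p ∈ c ↔ p = some 1 := fun p hp => by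
    rw [← Finset.mem_singleton, ← e, Finset.mem_inter]
    exact ⟨fun h => ⟨h, hp⟩, fun h => h.1⟩
  exact ⟨c, hc, fun h => absurd ((m _ (by simp)).1 h) (by decide),
    fun h => absurd ((m _ (by simp)).1 h) (by decide), (m _ (by simp)).2 rfl⟩

theorem exists_ne : ∃ g ∈ Stab vU, A g 1 1 ≠ 1 := by
  obtain ⟨c, hc, c1, c2, c3⟩ := exists_c
  refine ⟨eps c hc, Subtype.ext (funext fun p => ?_), ?_⟩
  · rw [eps_smul_apply]
    split_ifs with hp
    · have h1 : p ≠ none := by rintro rfl; exact c1 hp
      have h2 : p ≠ some 0 := by rintro rfl; exact c2 hp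
      show -Spor.vecU p = Spor.vecU p
      unfold Spor.vecU
      rw [if_neg (by tauto)]; rfl
    · rfl
  · have h3 : φ (-e8 (some 1)) 1 = -φ (e8 (some 1)) 1 := by
      unfold φ
      simp only [AddSubgroup.coe_neg, Pi.neg_apply]
      split_ifs <;> push_cast <;> ring
    rw [A_apply, eps_smul_e8, if_pos c3, h3, φ_e8, if_pos rfl]
    decide

theorem inj : Function.Injective ρ.toHomUnits := by
  have := isSimple_Co2
  rcases (ρ.toHomUnits.normal_ker).eq_bot_or_eq_top with h | h
  · exact (MonoidHom.ker_eq_bot_iff _).1 h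
  exfalso
  obtain ⟨g, hg, hne⟩ := exists_ne
  have h1 : ρ.toHomUnits ⟨g, hg⟩ = 1 := by rw [← MonoidHom.mem_ker, h]; trivial
  have h2 : A g = 1 := congrArg Units.val h1
  exact hne (by rw [h2, Matrix.one_apply_eq])

/-- The second Conway group (the stabilizer in the Leech lattice automorphism group of the short vector fixed in the definitions) is isomorphic to a subgroup of the general linear group of degree 23 over the field with 13 elements: there is an injective homomorphism into it. -/
theorem result : ∃ f : ↥Cfsg.Spor.Co2 →* GL (Fin 23) (ZMod 13), Function.Injective f := by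
  let e := Matrix.reindexAlgEquiv (ZMod 13) (ZMod 13) (ZMod.finEquiv 23).symm.toEquiv
  exact ⟨(Units.map e.toMulEquiv.toMonoidHom).comp (ρ.toHomUnits.comp eCo2.toMonoidHom),
    (Units.map_injective e.injective).comp (inj.comp eCo2.injective)⟩

end Cfsg.Agent.S5546
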