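import Mathlib
import Cfsg.Statements.S5547
import Cfsg.Agent.Lib.H5.F78
import Cfsg.Agent.S1696

set_option autoImplicit false
open Cfsg

namespace Cfsg.Agent.S5547

/-- The Fischer group Fi₂₂ (the finitely presented 3-transposition group of the definitions) is isomorphic to a subgroup of the general linear group of degree 78 over the field with 13 elements: there is an injective homomorphism into it. -/
theorem result : ∃ f : Cfsg.Spor.Fi22 →* GL (Fin 78) (ZMod 13), Function.Injective f := by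
  have h := H15.Mdl.sound_Fp H5.F78.o78_is
  choose A hA using fun x => H87.Mx.exists_RM (H5.F78.code_mat x)
  have hsq : ∀ x, A x * A x = 1 := fun x => by
    have := (h.isOne_iff (h.pow (h.mul (hA x) (hA x)) _)).1 (H5.F78.code_cox x x)
    rwa [show Cfsg.Spor.coxLabel Cfsg.Spor.Fi22.edges x x = 1 from if_pos rfl, pow_one] at this
  let u : Cfsg.Spor.Fi22.Gen → GL (Fin 78) (ZMod 13) := fun x => ⟨A x, A x, hsq x, hsq x⟩
  have hu := h.units
  have hU : ∀ x, (fun (v : GL (Fin 78) (ZMod 13)) p => H15.Mdl.RM 78 78 27 13 (v : Matrix _ _ _) p)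
      (u x) (H5.F78.code x) := hA
  have hrel : ∀ r ∈ Cfsg.Spor.coxRelators Cfsg.Spor.Fi22.edges ∪ {r | r ∈ Cfsg.Spor.Fi22.extra},
      FreeGroup.lift u r = 1 := by
    rintro r (⟨x, -, y, -, rfl⟩ | hr)
    · rw [map_pow, map_mul, FreeGroup.lift_apply_of, FreeGroup.lift_apply_of]
      exact (hu.isOne_iff (hu.pow (hu.mul (hU x) (hU y)) _)).1 (H5.F78.code_cox x y)
    · simp only [Cfsg.Spor.Fi22.extra, Set.mem_setOf_eq, List.mem_cons, List.not_mem_nil, or_false] at hr
      rcases hr with rfl | rfl | rfl <;>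
        simp only [map_pow, map_mul, FreeGroup.lift_apply_of]
      · exact (hu.isOne_iff (hu.pow (hu.mul (hu.mul (hu.mul (hu.mul (hu.mul (hu.mul (hu.mul (hu.mul
          (hU .d) (hU .c)) (hU .b)) (hU .d)) (hU .e)) (hU .f)) (hU .d)) (hU .h)) (hU .i)) _)).1
          H5.F78.code_r1
      · exact (hu.isOne_iff (hu.pow (hu.mul (hu.mul (hu.mul (hu.mul (hu.mul (hu.mul
          (hU .a) (hU .b)) (hU .c)) (hU .d)) (hU .e)) (hU .f)) (hU .h)) _)).1 H5.F78.code_r2
      · exact (hu.isOne_iff (hu.pow (hu.mul (hu.mul (hu.mul (hu.mul (hu.mul (hu.mul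
          (hU .b) (hU .c)) (hU .d)) (hU .e)) (hU .f)) (hU .g)) (hU .h)) _)).1 H5.F78.code_r3
  refine ⟨PresentedGroup.toGroup hrel, ?_⟩
  have hs : IsSimpleGroup Cfsg.Spor.Fi22 := Cfsg.Agent.S1696.result.1
  rw [← MonoidHom.ker_eq_bot_iff]
  rcases hs.eq_bot_or_eq_top_of_normal (PresentedGroup.toGroup hrel).ker inferInstance with e | e
  · exact e
  · exfalso
    have : PresentedGroup.of (rels := Cfsg.Spor.coxRelators Cfsg.Spor.Fi22.edges ∪
        {r | r ∈ Cfsg.Spor.Fi22.extra}) Cfsg.Spor.Fi22.Gen.a ∈ (PresentedGroup.toGroup hrel).ker :=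
      e ▸ Subgroup.mem_top _
    rw [MonoidHom.mem_ker, PresentedGroup.toGroup.of] at this
    have h2 := (hu.isOne_iff (hU .a)).2 this
    rw [H5.F78.code_ne] at h2
    exact Bool.noConfusion h2

end Cfsg.Agent.S5547
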