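import Cfsg.Statements.S5548
import Mathlib
import Cfsg.Agent.Lib.Golay9.Mod

set_option autoImplicit false
open Cfsg

namespace Cfsg.Agent.S5548

/-- For the automorphism group of the length-24 binary Golay code of the definitions (the Mathieu group of degree 24) acting on binary words of length 24 by permuting coordinates, the only invariant subspaces of the space of all words are: zero, the span of the all-ones word, the code itself, the even-weight words, and the whole space. (So the permutation module has a unique composition series.) -/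
theorem result (W : Submodule (ZMod 2) (Cfsg.GolayPt → ZMod 2)) (hW : ∀ σ ∈ Cfsg.M24, ∀ w ∈ W, (fun p => w (σ.symm p)) ∈ W) : W = ⊥ ∨ W = Submodule.span (ZMod 2) {fun _ => (1 : ZMod 2)} ∨ W = Cfsg.golayCode ∨ (W : Set (Cfsg.GolayPt → ZMod 2)) = {w | ∑ p, w p = 0} ∨ W = ⊤ := by
  by_cases hle : W ≤ Cfsg.golayCode
  · rcases H9.Gol.le_code_cases W hW hle with e | e | e
    · exact Or.inl e
    · exact Or.inr (Or.inl e)
    · exact Or.inr (Or.inr (Or.inl e))
  right; right; right
  obtain ⟨w, hw, hw'⟩ := SetLike.not_le_iff_exists.1 hle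
  have F := H9.Gol.fam_of W hW
  have ev : ∀ v : Cfsg.GolayPt → ZMod 2, ∑ p, v p = 0 → v ∈ W := by
    intro v hv
    rw [← H15.wordOf_support₂ v] at hv ⊢
    rw [H9.Gol.sum_wordOf, ZMod.natCast_eq_zero_iff] at hv
    obtain ⟨n, hn⟩ := hv
    exact H9.Gol.even_mem F.sd (by
      show H15.wordOf _ ∈ W
      rw [H15.wordOf_empty]; exact W.zero_mem)
      (fun x y hxy => F.pair_mem (s := support₂ w) (by rwa [H15.support₂_mem_codeSets_iff])
        (by show H15.wordOf _ ∈ W; rwa [H15.wordOf_support₂]) hxy) n _ hn
  by_cases ho : ∃ u ∈ W, ∑ p, u p ≠ 0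
  · right
    obtain ⟨u, hu, hu'⟩ := ho
    rw [eq_top_iff]
    intro v _
    by_cases hv : ∑ p, v p = 0
    · exact ev v hv
    · have := W.add_mem (ev (v - u) (by
        simp only [Pi.sub_apply, Finset.sum_sub_distrib]
        rw [H15.zmod2_ne_zero.1 hv, H15.zmod2_ne_zero.1 hu', sub_self])) hu
      rwa [sub_add_cancel] at this
  · left
    ext v
    exact ⟨fun hv => by_contra fun h => ho ⟨v, hv, h⟩, ev v⟩

end Cfsg.Agent.S5548
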