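import Cfsg.Statements.S5549
import Mathlib
import Cfsg.Agent.Lib.Golay9.Mod
import Cfsg.Agent.Lib.Leech.Dual

set_option autoImplicit false
open Cfsg

namespace Cfsg.Agent.S5549

open H15 H9.Gol
open scoped Pointwise

/-- dot product with the indicator word of a set -/
def dt (t : Finset GolayPt) (w : GolayPt → ZMod 2) : ZMod 2 := ∑ p, wordOf t p * w p

theorem dt_sd (s t : Finset GolayPt) (w : GolayPt → ZMod 2) :
    dt (symmDiff s t) w = dt s w + dt t w := by
  simp only [dt, wordOf_symmDiff, Pi.add_apply, add_mul, Finset.sum_add_distrib]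

theorem dt_eq (t : Finset GolayPt) (w : GolayPt → ZMod 2) : dt t w = ∑ p ∈ t, w p := by
  simp [dt, wordOf]

theorem dt_code {s : Finset GolayPt} (hs : s ∈ CodeSets) (c : golayCode) : dt s c = 0 :=
  dot_eq_zero (mem_codeSets_iff.1 hs) c.2

theorem mem_of_dt {t : Finset GolayPt} (h : ∀ c : golayCode, dt t c = 0) : t ∈ CodeSets := by
  rw [mem_codeSets_iff, ← H16.orthogonal_golay]
  intro v hv
  rw [H16.dotB_apply]
  simpa only [dt, mul_comm] using h ⟨v, hv⟩

theorem eq_empty_of_dt {t : Finset GolayPt} (h : ∀ c : golayCode, dt t c = 0) (ht : t.card < 8) :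
    t = ∅ := by
  have := card_of_mem_codeSets (mem_of_dt h)
  exact Finset.card_eq_zero.1 (by omega)

theorem exists_dt (f : golayCode →ₗ[ZMod 2] ZMod 2) :
    ∃ t : Finset GolayPt, t.card ≤ 4 ∧ ∀ c : golayCode, f c = dt t c := by
  obtain ⟨g, hg⟩ := LinearMap.exists_extend f
  obtain ⟨t, ht, hc⟩ := H55.Golay.exists_small (support₂ fun p => g (Pi.single p 1))
  refine ⟨t, ht, fun c => ?_⟩
  have h1 := dt_code hc c
  rw [dt_sd] at h1
  have h2 : f c = dt (support₂ fun p => g (Pi.single p 1)) c := by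
    rw [← hg, LinearMap.comp_apply, LinearMap.pi_apply_eq_sum_univ, dt, wordOf_support₂]
    refine Finset.sum_congr rfl fun p _ => ?_
    rw [smul_eq_mul, mul_comm]
    congr 2
    funext j
    simp [Pi.single_apply, eq_comm]
  rw [h2]
  revert h1
  generalize dt _ (c : GolayPt → ZMod 2) = a
  generalize dt t (c : GolayPt → ZMod 2) = b
  revert a b
  decide

/-- number of code sets of size 8 or 16 meeting `t` oddly -/
noncomputable def N (t : Finset GolayPt) : ℕ :=
  {s | s ∈ CodeSets ∧ (s.card = 8 ∨ s.card = 16) ∧ (t ∩ s).card % 2 = 1}.ncard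

theorem N_smul {g : Equiv.Perm GolayPt} (hg : g ∈ M24) (t : Finset GolayPt) :
    N (g • t) = N t := by
  unfold N
  symm
  refine Set.ncard_congr (fun s _ => g • s) ?_ ?_ ?_
  · rintro s ⟨h1, h2, h3⟩
    exact ⟨smul_mem_codeSets hg h1, by rwa [card_smul], by rwa [← smul_inter, card_smul]⟩
  · intro a b _ _ h
    exact smul_left_cancel g h
  · rintro s ⟨h1, h2, h3⟩
    refine ⟨g⁻¹ • s, ⟨smul_mem_codeSets (inv_mem hg) h1, by rwa [card_smul], ?_⟩, smul_inv_smul g s⟩
    rwa [← card_smul g, smul_inter, smul_inv_smul]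

/-- the test on masks -/
def tst (m c : ℕ) : Bool :=
  (Nat.beq (wt c) 8 || Nat.beq (wt c) 16) && Nat.beq (wt (Nat.land m c) % 2) 1

theorem N_ofMask (m : ℕ) : N (ofMask m) = countLt2 64 64 (fun u => tst m (cw u)) := by
  refine ncard_codeSets_filter (tst m) _ (fun u hu => ?_) fun s hs => hs.1
  simp only [tst, Set.mem_ofPred_eq, ofMask_cw_mem hu, true_and, ← ofMask_land, card_ofMask,
    Bool.and_eq_true, Bool.or_eq_true, Nat.beq_eq]

theorem N_two {t : Finset GolayPt} (h : t.card = 2) : N t = 704 := by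
  obtain ⟨g, hg, e⟩ := M24_trans_sets (s := ofMask 3) (t := t)
    (by rw [card_ofMask]; decide +kernel) (by rw [card_ofMask, h]; decide +kernel)
  rw [← e, N_smul hg, N_ofMask]
  decide +kernel

theorem N_four {t : Finset GolayPt} (h : t.card = 4) : N t = 768 := by
  obtain ⟨g, hg, e⟩ := M24_trans_sets (s := ofMask 15) (t := t)
    (by rw [card_ofMask]; decide +kernel) (by rw [card_ofMask, h]; decide +kernel)
  rw [← e, N_smul hg, N_ofMask]
  decide +kernel

theorem N_zero : N ∅ = 0 := by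
  simp [N]

theorem N_eq (t : Finset GolayPt) : N t = {c : golayCode |
    (hammingNorm (c : GolayPt → ZMod 2) = 8 ∨ hammingNorm (c : GolayPt → ZMod 2) = 16) ∧
      dt t c = 1}.ncard := by
  have key : ∀ s : Finset GolayPt, dt t (wordOf s) = 1 ↔ (t ∩ s).card % 2 = 1 := fun s => by
    rw [dt, dot_wordOf, ZMod.natCast_eq_one_iff_odd, Nat.odd_iff]
  unfold N
  refine Set.ncard_congr (fun s hs => ⟨wordOf s, mem_codeSets_iff.1 hs.1⟩) ?_ ?_ ?_
  · rintro s ⟨h1, h2, h3⟩
    exact ⟨by simpa only [hammingNorm_wordOf] using h2, (key s).2 h3⟩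
  · intro a b _ _ h
    exact wordOf_injective (congrArg Subtype.val h)
  · rintro ⟨c, hc⟩ ⟨h1, h2⟩
    refine ⟨support₂ c, ⟨support₂_mem_codeSets_iff.2 hc, by simpa only [hammingNorm_eq_card] using h1,
      (key _).1 (by rwa [wordOf_support₂])⟩, Subtype.ext (wordOf_support₂ c)⟩

theorem star {α : Type*} [DecidableEq α] {A B C : Finset α} (hA : A.card = 2) (hB : B.card = 2)
    (hC : C.card = 2) {p : α} (hAB : A ∩ B = {p}) (hAC : (A ∩ C).card = 1)
    (hBC : (B ∩ C).card = 1) (hp : p ∉ C) : symmDiff (symmDiff A B) C = ∅ := by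
  obtain ⟨q, hq⟩ := Finset.card_eq_one.1 hAC
  obtain ⟨r, hr⟩ := Finset.card_eq_one.1 hBC
  have h1 : p ∈ A ∩ B := hAB ▸ Finset.mem_singleton_self p
  have h2 : q ∈ A ∩ C := hq ▸ Finset.mem_singleton_self q
  have h3 : r ∈ B ∩ C := hr ▸ Finset.mem_singleton_self r
  rw [Finset.mem_inter] at h1 h2 h3
  have pq : p ≠ q := fun e => hp (e ▸ h2.2)
  have pr : p ≠ r := fun e => hp (e ▸ h3.2)
  have qr : q ≠ r := fun e => by
    have : q ∈ A ∩ B := Finset.mem_inter.2 ⟨h2.1, e ▸ h3.1⟩
    rw [hAB, Finset.mem_singleton] at this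
    exact pq this.symm
  have two : ∀ {S : Finset α} {a b : α}, S.card = 2 → a ≠ b → a ∈ S → b ∈ S → S = {a, b} :=
    fun {S a b} hS hab ha hb => (Finset.eq_of_subset_of_card_le (by
      intro y hy
      simp only [Finset.mem_insert, Finset.mem_singleton] at hy
      rcases hy with rfl | rfl <;> assumption) (by rw [hS, Finset.card_pair hab])).symm
  rw [two hA pq h1.1 h2.1, two hB pr h1.2 h3.1, two hC qr h2.2 h3.2]
  ext y
  simp only [Finset.mem_symmDiff, Finset.mem_insert, Finset.mem_singleton, Finset.notMem_empty]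
  grind

theorem z2a : ∀ a b c : ZMod 2, a + b + (a + c) = b + c := by decide
theorem z2b : ∀ a : ZMod 2, a + a = 0 := by decide
theorem z2c : ∀ a b c d : ZMod 2, a + b = c + d → b = d + (a + c) := by decide
theorem z2d : ∀ a b c d : ZMod 2, a + b + (a + c) + (a + d) = a + (b + (c + d)) := by decide

theorem main (x : golayCode ≃ₗ[ZMod 2] golayCode)
    (h1 : ∀ e : golayCode, (e : GolayPt → ZMod 2) = (fun _ => 1) → x e = e)
    (hw : ∀ c : golayCode, (hammingNorm (x c : GolayPt → ZMod 2) = 8 ∨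
      hammingNorm (x c : GolayPt → ZMod 2) = 16) ↔
      (hammingNorm (c : GolayPt → ZMod 2) = 8 ∨ hammingNorm (c : GolayPt → ZMod 2) = 16)) :
    ∃ τ : GolayPt → GolayPt, Function.Injective τ ∧ ∀ c : golayCode, ∃ k : ZMod 2,
      ∀ a, (x c : GolayPt → ZMod 2) a = (c : GolayPt → ZMod 2) (τ a) + k := by
  have one_mem : (fun _ : GolayPt => (1 : ZMod 2)) ∈ golayCode := by
    have := mem_codeSets_iff.1 univ_mem_codeSets
    rwa [wordOf_univ] at this
  have pair : ∀ a b : GolayPt, a ≠ b → ∃ t : Finset GolayPt, t.card = 2 ∧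
      ∀ c : golayCode, (x c : GolayPt → ZMod 2) a + (x c : GolayPt → ZMod 2) b = dt t c := by
    intro a b hab
    obtain ⟨t, ht, h⟩ := exists_dt
      (((LinearMap.proj (R := ZMod 2) (φ := fun _ : GolayPt => ZMod 2) a +
        LinearMap.proj (R := ZMod 2) (φ := fun _ : GolayPt => ZMod 2) b).comp
        golayCode.subtype).comp x.toLinearMap)
    have h' : ∀ c : golayCode,
        (x c : GolayPt → ZMod 2) a + (x c : GolayPt → ZMod 2) b = dt t c := h
    refine ⟨t, ?_, h'⟩
    have hN : N t = N {a, b} := by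
      rw [N_eq, N_eq]
      refine Set.ncard_congr (fun c _ => x c) ?_ (fun _ _ _ _ h => x.injective h) ?_
      · rintro c ⟨h1, h2⟩
        exact ⟨(hw c).2 h1, by rw [dt_eq, Finset.sum_pair hab, h', h2]⟩
      · rintro c ⟨h1, h2⟩
        obtain ⟨d, rfl⟩ := x.surjective c
        exact ⟨d, ⟨(hw d).1 h1, by rw [← h', ← h2, dt_eq, Finset.sum_pair hab]⟩, rfl⟩
    rw [N_two (Finset.card_pair hab)] at hN
    have hev := h' ⟨_, one_mem⟩
    rw [h1 _ rfl, dt_eq] at hev
    simp only [Finset.sum_const, nsmul_eq_mul, mul_one, z2b] at hev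
    have hev' := (ZMod.natCast_eq_zero_iff _ 2).1 hev.symm
    have : t.card = 0 ∨ t.card = 2 ∨ t.card = 4 := by omega
    rcases this with e | e | e
    · rw [Finset.card_eq_zero.1 e, N_zero] at hN; omega
    · exact e
    · rw [N_four e] at hN; omega
  choose! T hT2 hT using pair none
  have hTne : ∀ a, a ≠ none → (none : GolayPt) ≠ a := fun a h => h.symm
  have meet : ∀ a b : GolayPt, none ≠ a → none ≠ b → a ≠ b → (T a ∩ T b).card = 1 := by
    intro a b ha hb hab
    obtain ⟨t, ht, h⟩ := pair a b hab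
    have e := eq_empty_of_dt (t := symmDiff (symmDiff (T a) (T b)) t) (fun c => by
      rw [dt_sd, dt_sd, ← hT a ha, ← hT b hb, ← h, z2a, z2b]) (by
      have e1 := card_symmDiff_add (symmDiff (T a) (T b)) t
      have e2 := card_symmDiff_add (T a) (T b)
      rw [hT2 a ha, hT2 b hb] at e2
      omega)
    have e2 := card_symmDiff_add (T a) (T b)
    rw [symmDiff_eq_bot.1 e, hT2 a ha, hT2 b hb] at e2
    omega
  have n0 : (none : GolayPt) ≠ some 0 := by decide
  have n1 : (none : GolayPt) ≠ some 1 := by decide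
  have n01 : (some 0 : GolayPt) ≠ some 1 := by decide
  obtain ⟨p, hp⟩ := Finset.card_eq_one.1 (meet _ _ n0 n1 n01)
  have hp' : p ∈ T (some 0) ∩ T (some 1) := hp ▸ Finset.mem_singleton_self p
  have pm : ∀ a : GolayPt, none ≠ a → p ∈ T a := by
    intro a ha
    by_cases a0 : some 0 = a
    · exact a0 ▸ (Finset.mem_inter.1 hp').1
    by_cases a1 : some 1 = a
    · exact a1 ▸ (Finset.mem_inter.1 hp').2
    by_contra hpa
    have e := star (hT2 _ n0) (hT2 _ n1) (hT2 a ha) hp (meet _ _ n0 ha a0) (meet _ _ n1 ha a1) hpa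
    have c4 : ({none, some 0, some 1, a} : Finset GolayPt).card = 4 :=
      Finset.card_eq_four.2 ⟨_, _, _, _, n0, n1, ha, n01, a0, a1, rfl⟩
    have := eq_empty_of_dt (t := {none, some 0, some 1, a}) (fun c => by
      obtain ⟨d, rfl⟩ := x.surjective c
      have h0 : dt (symmDiff (symmDiff (T (some 0)) (T (some 1))) (T a)) d = 0 := by
        rw [e]; exact dt_code empty_mem_codeSets d
      rw [dt_sd, dt_sd, ← hT _ n0, ← hT _ n1, ← hT a ha, z2d] at h0
      rw [dt_eq, Finset.sum_insert (by simp [ha]), Finset.sum_insert (by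
        simp only [Finset.mem_insert, Finset.mem_singleton, not_or]; exact ⟨n01, a0⟩),
        Finset.sum_pair a1]
      exact h0) (by omega)
    rw [this] at c4
    simp at c4
  have ex : ∀ a : GolayPt, ∃ q : GolayPt, ∀ c : golayCode, (x c : GolayPt → ZMod 2) a =
      (c : GolayPt → ZMod 2) q + ((x c : GolayPt → ZMod 2) none + (c : GolayPt → ZMod 2) p) := by
    intro a
    by_cases ha : none = a
    · subst ha
      exact ⟨p, fun c => z2c _ _ _ _ (by rw [z2b, z2b])⟩
    · obtain ⟨q, hq, hq'⟩ := exists_mem_not_mem (s := T a) (t := {p}) (by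
        rw [hT2 a ha, Finset.card_singleton]; omega)
      have pq : p ≠ q := fun e => hq' (e ▸ Finset.mem_singleton_self p)
      have : T a = {p, q} := (Finset.eq_of_subset_of_card_le (by
        intro y hy
        simp only [Finset.mem_insert, Finset.mem_singleton] at hy
        rcases hy with rfl | rfl
        exacts [pm a ha, hq]) (by rw [hT2 a ha, Finset.card_pair pq])).symm
      exact ⟨q, fun c => z2c _ _ _ _ (by rw [hT a ha, this, dt_eq, Finset.sum_pair pq])⟩
  choose τ hτ using ex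
  refine ⟨τ, fun a b e => by_contra fun hab => ?_, fun c => ⟨_, fun a => hτ a c⟩⟩
  have := eq_empty_of_dt (t := {a, b}) (fun c => by
    obtain ⟨d, rfl⟩ := x.surjective c
    rw [dt_eq, Finset.sum_pair hab, hτ a, hτ b, e, z2b]) (by rw [Finset.card_pair hab]; omega)
  simp at this

theorem norm_act (σ : Equiv.Perm GolayPt) (w : GolayPt → ZMod 2) :
    hammingNorm (fun p => w (σ.symm p)) = hammingNorm w := by
  conv_lhs => rw [← wordOf_support₂ w]
  rw [act_wordOf, hammingNorm_wordOf, card_smul, hammingNorm_eq_card]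

theorem norm_add_one (w : GolayPt → ZMod 2) :
    hammingNorm (w + fun _ => (1 : ZMod 2)) + hammingNorm w = 24 := by
  conv_lhs => rw [← wordOf_support₂ w]
  rw [show (fun _ => (1 : ZMod 2)) = (1 : GolayPt → ZMod 2) from rfl, ← wordOf_compl,
    hammingNorm_wordOf, hammingNorm_wordOf, Finset.card_compl_add_card, card_golayPt]

/-- Let X be a group of linear automorphisms of the length-24 binary Golay code of the definitions that fix the all-ones word, containing the coordinate-permutation action of every element of the code's automorphism group (the Mathieu group of degree 24), and such that every element of X sends each codeword into its orbit under that Mathieu group up to adding the all-ones word (X has the same orbits as the Mathieu group on the code modulo the all-ones word). Then every element of X agrees, modulo the all-ones word, with the action of a single element of the Mathieu group: X induces exactly the Mathieu group on the code modulo the all-ones word. -/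
theorem result (X : Subgroup (↥Cfsg.golayCode ≃ₗ[ZMod 2] ↥Cfsg.golayCode)) (h1 : ∀ x ∈ X, ∀ e : ↥Cfsg.golayCode, (e : (Cfsg.GolayPt → ZMod 2)) = (fun _ => (1 : ZMod 2)) → x e = e) (hM : ∀ σ ∈ Cfsg.M24, ∃ x ∈ X, ∀ c : ↥Cfsg.golayCode, ((x c : ↥Cfsg.golayCode) : (Cfsg.GolayPt → ZMod 2)) = fun p => (c : (Cfsg.GolayPt → ZMod 2)) (σ.symm p)) (horb : ∀ x ∈ X, ∀ c : ↥Cfsg.golayCode, ∃ σ ∈ Cfsg.M24, ((x c : ↥Cfsg.golayCode) : (Cfsg.GolayPt → ZMod 2)) = (fun p => (c : (Cfsg.GolayPt → ZMod 2)) (σ.symm p)) ∨ ((x c : ↥Cfsg.golayCode) : (Cfsg.GolayPt → ZMod 2)) = (fun p => (c : (Cfsg.GolayPt → ZMod 2)) (σ.symm p)) + fun _ => (1 : ZMod 2)) (x : ↥Cfsg.golayCode ≃ₗ[ZMod 2] ↥Cfsg.golayCode) (hx : x ∈ X) : ∃ σ ∈ Cfsg.M24, ∀ c : ↥Cfsg.golayCode, ((x c : ↥Cfsg.golayCode) : (Cfsg.GolayPt → ZMod 2)) = (fun p => (c : (Cfsg.GolayPt → ZMod 2)) (σ.symm p)) ∨ ((x c : ↥Cfsg.golayCode) : (Cfsg.GolayPt → ZMod 2)) = (fun p => (c : (Cfsg.GolayPt → ZMod 2)) (σ.symm p)) + fun _ => (1 : ZMod 2) := by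
  obtain ⟨τ, hτ, h⟩ := main x (h1 x hx) fun c => by
    obtain ⟨σ, -, e | e⟩ := horb x hx c
    · rw [e, norm_act]
    · have := norm_add_one (fun p => (c : GolayPt → ZMod 2) (σ.symm p))
      rw [← e, norm_act] at this
      omega
  let e := Equiv.ofBijective τ (Finite.injective_iff_bijective.1 hτ)
  have key : ∀ c : golayCode,
      (x c : GolayPt → ZMod 2) = (fun p => (c : GolayPt → ZMod 2) (e.symm.symm p)) ∨
      (x c : GolayPt → ZMod 2) = (fun p => (c : GolayPt → ZMod 2) (e.symm.symm p)) +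
        fun _ => (1 : ZMod 2) := by
    intro c
    obtain ⟨k, hk⟩ := h c
    have : k = 0 ∨ k = 1 := by clear hk; revert k; decide
    rcases this with rfl | rfl
    · left; funext a; rw [hk a, add_zero]; rfl
    · right; funext a; rw [hk a]; rfl
  refine ⟨e.symm, mem_M24_iff.2 fun s hs => ?_, key⟩
  rw [mem_codeSets_iff, ← act_wordOf]
  rcases key ⟨wordOf s, mem_codeSets_iff.1 hs⟩ with e1 | e1
  · exact e1 ▸ (x _).2
  · have h2 := (x ⟨wordOf s, mem_codeSets_iff.1 hs⟩).2
    rw [e1] at h2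
    have one_mem : (fun _ : GolayPt => (1 : ZMod 2)) ∈ golayCode := by
      have := mem_codeSets_iff.1 univ_mem_codeSets
      rwa [wordOf_univ] at this
    exact (Submodule.add_mem_iff_left _ one_mem).1 h2

end Cfsg.Agent.S5549
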