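import Cfsg.Statements.S5550
import Mathlib
import Cfsg.Agent.Lib.Golay9.Mod

set_option autoImplicit false
open Cfsg

namespace Cfsg.Agent.S5550

/-- Let u be a word of the length-24 binary Golay code of the definitions (possibly zero or all-ones) and w any binary word of length 24 outside the code. Then some automorphism of the code (a coordinate permutation preserving it) fixes u but moves w to a word not congruent to w modulo the code: the stabilizer of a codeword fixes no non-zero element of the quotient of the space of all words by the code. -/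
theorem result (u : (Cfsg.GolayPt → ZMod 2)) (hu : u ∈ Cfsg.golayCode) (w : (Cfsg.GolayPt → ZMod 2)) (hw : w ∉ Cfsg.golayCode) : ∃ σ ∈ Cfsg.M24, (fun p => u (σ.symm p)) = u ∧ (fun p => w (σ.symm p)) - w ∉ Cfsg.golayCode := by
  obtain ⟨g, hg, e1, e2⟩ := H9.Gol.move_code (H15.support₂_mem_codeSets_iff.2 hu)
    (s := support₂ w) (by rwa [H15.support₂_mem_codeSets_iff])
  refine ⟨g, hg, ?_, fun h => e2 ?_⟩
  · conv_lhs => rw [← H15.wordOf_support₂ u]
    rw [H9.Gol.act_wordOf, e1, H15.wordOf_support₂]
  · rw [← H15.wordOf_support₂ w, H9.Gol.act_wordOf, H55.Golay.sub_mem_iff, H15.support₂_wordOf,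
      H15.support₂_wordOf] at h
    exact h

end Cfsg.Agent.S5550
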