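import Mathlib
import Cfsg.Statements.S5552
import Cfsg.Agent.Lib.Leech.Simple

set_option autoImplicit false
open Cfsg

namespace Cfsg.Agent.S5552

open H16

theorem dot_XUP : dotInt (vX : GolayPt → ℤ) (vUP : GolayPt → ℤ) = 16 :=
  (code_X.dot code_UP).trans (by decide +kernel)

/-- On the Leech lattice of the definitions, let Q be a function to the field with two elements that is constant on cosets of twice the lattice, is a quadratic form there (Q(u+v+w) + Q(u) + Q(v) + Q(w) = Q(u+v) + Q(u+w) + Q(v+w) for all u, v, w), is invariant under every lattice automorphism, and is not identically zero. Then Q(v) is the squared length of v divided by 16, reduced modulo 2, for every lattice vector v (squared lengths of lattice vectors are multiples of 16). -/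
theorem result (Q : ↥Cfsg.leechLattice → ZMod 2) (hcoset : ∀ v w : ↥Cfsg.leechLattice, Q (v + (w + w)) = Q v) (hquad : ∀ u v w : ↥Cfsg.leechLattice, Q (u + v + w) + Q u + Q v + Q w = Q (u + v) + Q (u + w) + Q (v + w)) (hinv : ∀ (g : ↥Cfsg.Co0) (v : ↥Cfsg.leechLattice), Q (g • v) = Q v) (hne : ∃ v : ↥Cfsg.leechLattice, Q v ≠ 0) (v : ↥Cfsg.leechLattice) : Q v = ((Cfsg.sqNorm (v : Cfsg.GolayPt → ℤ) / 16 : ℤ) : ZMod 2) := by
  have q0 : Q 0 = 0 := by
    have := hquad 0 0 0
    simp only [add_zero] at this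
    linear_combination this
  have q32 : ∀ y : leechLattice, sqNorm (y : GolayPt → ℤ) = 32 → Q y = Q vU := fun y hy => by
    obtain ⟨g, rfl⟩ := exists_smul_U hy; exact hinv g _
  have q48 : ∀ y : leechLattice, sqNorm (y : GolayPt → ℤ) = 48 → Q y = Q vV := fun y hy => by
    obtain ⟨g, rfl⟩ := exists_smul_V hy; exact hinv g _
  have q64 : ∀ y : leechLattice, sqNorm (y : GolayPt → ℤ) = 64 → Q y = Q (e8 none) := fun y hy => by
    obtain ⟨g, rfl⟩ := exists_smul_e8 hy; exact hinv g _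
  have dXU : dotInt (vX : GolayPt → ℤ) (vU : GolayPt → ℤ) = 16 := (dotInt_comm _ _).trans dot_UX
  have dXW : dotInt (vX : GolayPt → ℤ) (vW : GolayPt → ℤ) = 8 := (dotInt_comm _ _).trans dot_WX
  have two : (2 : ZMod 2) = 0 := rfl
  have h1 := hquad (-vX) vU vW
  have h2 := hquad (-vX) vU vUP
  rw [q32 (-vX + vU + vW), q32 (-vX), q32 vW norm_W, q32 (-vX + vU), q48 (-vX + vW), q48 (vU + vW)] at h1
  rotate_left
  all_goals try
    (simp only [AddSubgroup.coe_add, AddSubgroup.coe_neg, sqNorm_add, sqNorm_neg, dotInt_add_left,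
      dotInt_neg_left, norm_X, norm_U, norm_W, dXU, dXW, dot_UW]; try norm_num)
  rw [q32 (-vX + vU + vUP), q32 (-vX), q32 vUP norm_UP, q32 (-vX + vU), q32 (-vX + vUP),
    q64 (vU + vUP)] at h2
  rotate_left
  all_goals try
    (simp only [AddSubgroup.coe_add, AddSubgroup.coe_neg, sqNorm_add, sqNorm_neg, dotInt_add_left,
      dotInt_neg_left, norm_X, norm_U, norm_UP, dXU, dot_XUP, dot_UUP]; try norm_num)
  have a32 : Q vU = 0 := by linear_combination -h1 + (2 * Q vU - Q vV) * two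
  have a64 : Q (e8 none) = 0 := by linear_combination -h2 + Q vU * two
  have key : ∀ w : leechLattice, ∃ k : ℤ, (k = 0 ∨ k = 1) ∧
      (2 : ℤ) ∣ sqNorm (w : GolayPt → ℤ) / 16 - k ∧ Q w = k * Q vV := by
    intro w
    obtain ⟨y, hy, hn, e⟩ := exists_short_rep w.2
    obtain ⟨z, hz, e'⟩ := (mem_twoLeech _).1 e
    have e1 : w = ⟨y, hy⟩ + (⟨z, hz⟩ + ⟨z, hz⟩) := Subtype.ext (by
      show _ = y + (z + z)
      rw [← two_nsmul, ← e']; abel)
    have e2 : Q w = Q ⟨y, hy⟩ := by rw [e1]; exact hcoset _ _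
    have e3 : sqNorm (w : GolayPt → ℤ) = sqNorm y + 4 * sqNorm z + 4 * dotInt y z := by
      rw [e1]
      show sqNorm (y + (z + z)) = _
      rw [sqNorm_add, sqNorm_add, dotInt_add_right, dotInt_self]; ring
    have d1 := eight_dvd_dotInt hy hz
    have d2 := sixteen_dvd_sqNorm hz
    have d3 := sixteen_dvd_sqNorm hy
    rw [e2]
    by_cases h0 : y = 0
    · subst h0
      have : sqNorm (0 : GolayPt → ℤ) = 0 := (sqNorm_eq_zero_iff _).2 rfl
      exact ⟨0, Or.inl rfl, by omega, by rw [Int.cast_zero, zero_mul]; exact q0⟩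
    have h32 := le_sqNorm hy h0
    have hc : sqNorm y = 32 ∨ sqNorm y = 48 ∨ sqNorm y = 64 := by omega
    rcases hc with hc | hc | hc
    · exact ⟨0, Or.inl rfl, by omega, by rw [q32 ⟨y, hy⟩ hc, a32]; simp⟩
    · exact ⟨1, Or.inr rfl, by omega, by rw [q48 ⟨y, hy⟩ hc]; simp⟩
    · exact ⟨0, Or.inl rfl, by omega, by rw [q64 ⟨y, hy⟩ hc, a64]; simp⟩
  have a48 : Q vV = 1 := by
    obtain ⟨w, hw⟩ := hne
    obtain ⟨k, -, -, e⟩ := key w
    have : Q vV ≠ 0 := fun h => hw (by rw [e, h, mul_zero])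
    revert this
    generalize Q vV = a
    revert a
    decide
  obtain ⟨k, -, hk, e⟩ := key v
  rw [e, a48, mul_one]
  exact (ZMod.intCast_eq_intCast_iff_dvd_sub _ _ 2).2 hk

end Cfsg.Agent.S5552
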