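import Mathlib
import Cfsg.Statements.S5553
import Cfsg.Agent.Lib.Leech.Index

set_option autoImplicit false
open Cfsg

namespace Cfsg.Agent.S5553

open H16

/-- lattice vectors whose coordinates are all `0` or all `2` modulo 4. -/
def subA : AddSubgroup (GolayPt → ℤ) :=
  leechLattice ⊓ (AddSubgroup.zmultiples (redN 4 fun _ => 2)).comap (redN 4)

theorem mem_subA (x : GolayPt → ℤ) :
    x ∈ subA ↔ x ∈ leechLattice ∧ ∃ k : ℤ, ∀ i, (4 : ℤ) ∣ 2 * k - x i := by
  simp only [subA, AddSubgroup.mem_inf, AddSubgroup.mem_comap, AddSubgroup.mem_zmultiples_iff,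
    ← map_zsmul, redN_eq_iff, Pi.smul_apply, smul_eq_mul, Nat.cast_ofNat, mul_comm]

theorem card_map : Nat.card (subA.map (redN 4)) = 2 := by
  have : ((subA.map (redN 4) : AddSubgroup _) : Set (GolayPt → ZMod 4)) =
      {redN 4 0, redN 4 fun _ => 2} := by
    ext a
    simp only [AddSubgroup.coe_map, Set.mem_image, SetLike.mem_coe, mem_subA, Set.mem_insert_iff,
      Set.mem_singleton_iff]
    constructor
    · rintro ⟨x, ⟨-, k, hk⟩, rfl⟩
      simp only [redN_eq_iff, Nat.cast_ofNat, Pi.zero_apply]
      rcases Int.emod_two_eq_zero_or_one k with h | h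
      · exact Or.inl fun i => by have := hk i; omega
      · exact Or.inr fun i => by have := hk i; omega
    · rintro (rfl | rfl)
      · exact ⟨0, ⟨leechLattice.zero_mem, 0, by simp⟩, rfl⟩
      · refine ⟨fun _ => 2, ⟨Cong.mem (m := 2) (c := ∅) ⟨fun i => ?_, ?_⟩ empty_mem_code, 1,
          by simp⟩, rfl⟩
        · simp [ind_apply]
        · simp
  rw [← SetLike.coe_sort_coe, this, Nat.card_coe_set_eq, Set.ncard_pair]
  intro h
  have := (redN_eq_iff 4 _ _).1 h none
  simp at this

/-- The Leech lattice of the definitions has an additive subgroup A containing twice the lattice, of index 2^12 in the lattice, all of whose vectors have squared length divisible by 32: the invariant quadratic form 'squared length over 16 modulo 2' on the lattice modulo twice the lattice (a 24-dimensional space over the field with two elements) vanishes on a 12-dimensional subspace, so it is of plus type. -/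
theorem result : ∃ A : AddSubgroup (Cfsg.GolayPt → ℤ), A ≤ Cfsg.leechLattice ∧ (∀ v ∈ Cfsg.leechLattice, (2 : ℤ) • v ∈ A) ∧ (A.addSubgroupOf Cfsg.leechLattice).index = 2 ^ 12 ∧ ∀ v ∈ A, (32 : ℤ) ∣ Cfsg.sqNorm v := by
  refine ⟨subA, inf_le_left, fun v hv => ?_, ?_, fun v hv => ?_⟩
  · rw [mem_subA]
    refine ⟨leechLattice.zsmul_mem hv 2, v none, fun i => ?_⟩
    have := two_dvd_sub_of_mem hv none i
    simp only [Pi.smul_apply, smul_eq_mul]
    omega
  · have h1 := AddSubgroup.relIndex_mul_relIndex ((redN 4).ker ⊓ leechLattice) subA leechLattice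
      (fun x hx => (mem_subA x).2 ⟨hx.2, 0, fun i => by
        have := (mem_ker_redN 4 x).1 hx.1 i
        push_cast at this
        omega⟩) inf_le_left
    have h2 : ((redN 4).ker ⊓ leechLattice).relIndex subA = 2 := by
      rw [← AddSubgroup.inf_relIndex_right, inf_assoc, inf_eq_right.2 (show subA ≤ leechLattice from inf_le_left),
        AddSubgroup.inf_relIndex_right, AddSubgroup.relIndex_ker, card_map]
    rw [h2, AddSubgroup.inf_relIndex_right, relIndex_ker_leech] at h1
    show subA.relIndex leechLattice = 2 ^ 12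
    omega
  · obtain ⟨hv, k, hk⟩ := (mem_subA v).1 hv
    rcases Int.emod_two_eq_zero_or_one k with h | h
    · rcases (mem_leech_iff' v).1 hv with ⟨c, hc, h1⟩ | ⟨c, hc, h1⟩
      · refine Cong.norm_empty ⟨fun i => ?_, h1.2⟩
        have := hk i
        simp only [ind_apply, Finset.notMem_empty, if_false]
        omega
      · have := hk none
        have := h1.1 none
        omega
    · have : (32 : ℤ) ∣ sqNorm v - 96 := by
        have e : sqNorm v - 96 = ∑ i, (v i ^ 2 - 4) := by
          rw [Finset.sum_sub_distrib, sqNorm_def]; simp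
        rw [e]
        refine Finset.dvd_sum fun i _ => ?_
        obtain ⟨r, hr⟩ : ∃ r, v i = 4 * r + 2 := ⟨(v i - 2) / 4, by have := hk i; omega⟩
        obtain ⟨s, hs⟩ := Int.even_mul_succ_self r
        exact ⟨s, by rw [hr]; linear_combination 16 * hs⟩
      omega

end Cfsg.Agent.S5553
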