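import Mathlib
import Cfsg.Statements.S5564
import Cfsg.Agent.Lib.J4L.Three
import Cfsg.Agent.Lib.J4L.Exists

set_option autoImplicit false
open Cfsg

namespace Cfsg.Agent.S5564

/-- Let G be a finite non-abelian simple group of Janko-four type (an involution z whose centralizer H has an extraspecial largest normal 2-subgroup E of order 2^13 containing its centralizer in H, a normal subgroup N ≥ E of H with N/E of order 3 and H/N the automorphism group of M₂₂, and a subgroup P ≤ N of order 3 with C_E(P) = ⟨z⟩, N_H(P) ≠ C_H(P) and P ≤ C_H(P)′). Then G has exactly one conjugacy class of elements of order 3. -/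
theorem result {G : Type*} [Group G] [Finite G] [IsSimpleGroup G] (hG : ¬ IsMulCommutative G) (hJ : Cfsg.IsOfJankoFourType G) :
    ∀ x y : G, orderOf x = 3 → orderOf y = 3 → IsConj x y := by
  obtain ⟨z, P, h⟩ := hJ
  obtain ⟨m, -, -⟩ := H75.J4.exists_Md h
  exact fun x y hx hy => (m.conj_three hx).symm.trans (m.conj_three hy)

end Cfsg.Agent.S5564
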