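import Mathlib
import Cfsg.Statements.S5568
import Cfsg.Agent.Lib.J4L.Link
import Cfsg.Agent.Lib.J4L.Exists

set_option autoImplicit false
open Cfsg

namespace Cfsg.Agent.S5568

/-- Let G be a finite non-abelian simple group of Janko-four type (an involution z whose centralizer H has an extraspecial largest normal 2-subgroup E of order 2^13 containing its centralizer in H, a normal subgroup N ≥ E of H with N/E of order 3 and H/N the automorphism group of M₂₂, and a subgroup P ≤ N of order 3 with C_E(P) = ⟨z⟩, N_H(P) ≠ C_H(P) and P ≤ C_H(P)′). Let V be an elementary abelian subgroup of G of order 2^11. Then under conjugation by the normalizer of V the non-identity elements of V fall into an orbit of length 1771 consisting of conjugates of z and an orbit of length 276 consisting of involutions t not conjugate to z, and for such t the centralizer of t in G lies in the normalizer of V. -/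
theorem result {G : Type*} [Group G] [Finite G] [IsSimpleGroup G] (hG : ¬ IsMulCommutative G) (z : G) (hJ : Cfsg.IsOfJankoFourTypeAt z) (V : Subgroup G) (hV : Cfsg.IsElementaryAbelian 2 V) (hcard : Nat.card ↥V = 2 ^ 11) :
    ∃ z' t : G, z' ∈ V ∧ t ∈ V ∧ t ≠ 1 ∧ IsConj z z' ∧ ¬ IsConj z t ∧
    Set.ncard {v : G | ∃ n ∈ Subgroup.normalizer (V : Set G), n * z' * n⁻¹ = v} = 1771 ∧
    Set.ncard {v : G | ∃ n ∈ Subgroup.normalizer (V : Set G), n * t * n⁻¹ = v} = 276 ∧
    Subgroup.centralizer ({t} : Set G) ≤ Subgroup.normalizer (V : Set G) := by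
  obtain ⟨P, h⟩ := hJ
  obtain ⟨m, rfl, -⟩ := H75.J4.exists_Md h
  obtain ⟨g, e⟩ := H75.J4.Md.conj_V (m := m) (fun x hx => by rw [← pow_two, hV.2 x hx]) hcard
  have : (m.M.conj g⁻¹).V = V := by
    change m.M.V.map _ = V
    rw [m.M_V, ← e, H75.J4.Md.map_conj_conj, inv_mul_cancel, map_one]
    exact V.map_id
  subst this
  have hT : (H15.ofMask 15).card = 4 := by rw [H15.card_ofMask]; decide +kernel
  have hS : (H15.ofMask 3).card = 2 := by rw [H15.card_ofMask]; decide +kernel
  exact ⟨_, _, (m.M.conj g⁻¹).d_mem _, (m.M.conj g⁻¹).d_mem _, (m.M.conj g⁻¹).d_ne_one (Or.inl hS),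
    (m.conj_tetrad hT).trans (isConj_iff.2 ⟨g⁻¹, rfl⟩),
    fun c => m.not_conj_duad' hS (c.trans (isConj_iff.2 ⟨g⁻¹, rfl⟩ : IsConj _ _).symm),
    (m.M.conj g⁻¹).orbit_tetrad hT, (m.M.conj g⁻¹).orbit_duad hS,
    (m.M.conj g⁻¹).cent_duad_le (m.M_loc.conj _) hS⟩

end Cfsg.Agent.S5568
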