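import Mathlib
import Cfsg.Statements.S5570
import Cfsg.Agent.Lib.J4L.Ten
import Cfsg.Agent.Lib.J4L.Exists

set_option autoImplicit false
open Cfsg

namespace Cfsg.Agent.S5570

/-- Let G be a finite non-abelian simple group of Janko-four type (an involution z whose centralizer H has an extraspecial largest normal 2-subgroup E of order 2^13 containing its centralizer in H, a normal subgroup N ≥ E of H with N/E of order 3 and H/N the automorphism group of M₂₂, and a subgroup P ≤ N of order 3 with C_E(P) = ⟨z⟩, N_H(P) ≠ C_H(P) and P ≤ C_H(P)′). Then G has self-centralizing elementary abelian subgroups of order 2^10, any two of them are conjugate, and for such a subgroup A the normalizer of A is a split extension of A by a complement isomorphic to L₅(2) under which A has no proper non-trivial invariant subgroup. -/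
theorem result {G : Type*} [Group G] [Finite G] [IsSimpleGroup G] (hG : ¬ IsMulCommutative G) (hJ : Cfsg.IsOfJankoFourType G) :
    (∃ A : Subgroup G, Cfsg.IsElementaryAbelian 2 A ∧ Nat.card ↥A = 2 ^ 10 ∧ Subgroup.centralizer (A : Set G) = A) ∧
    (∀ A A' : Subgroup G, Cfsg.IsElementaryAbelian 2 A → Nat.card ↥A = 2 ^ 10 → Subgroup.centralizer (A : Set G) = A → Cfsg.IsElementaryAbelian 2 A' → Nat.card ↥A' = 2 ^ 10 → Subgroup.centralizer (A' : Set G) = A' → ∃ g : G, A' = A.map (MulAut.conj g).toMonoidHom) ∧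
    ∀ A : Subgroup G, Cfsg.IsElementaryAbelian 2 A → Nat.card ↥A = 2 ^ 10 → Subgroup.centralizer (A : Set G) = A →
      (∃ B : Subgroup G, B ≤ Subgroup.normalizer (A : Set G) ∧ B ⊓ A = ⊥ ∧ B ⊔ A = Subgroup.normalizer (A : Set G) ∧
        Nonempty (↥B ≃* Matrix.SpecialLinearGroup (Fin 5) (ZMod 2))) ∧
      ∀ W : Subgroup G, W ≤ A → Subgroup.normalizer (A : Set G) ≤ Subgroup.normalizer (W : Set G) → W = ⊥ ∨ W = A := by
  obtain ⟨z, P, h⟩ := hJ
  obtain ⟨m, -, -⟩ := H75.J4.exists_Md h
  have key : ∀ A : Subgroup G, Cfsg.IsElementaryAbelian 2 A → Nat.card ↥A = 2 ^ 10 →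
      Subgroup.centralizer (A : Set G) = A → ∃ g : G, A.map (MulAut.conj g).toMonoidHom = m.A ∧
        A = m.A.map (MulAut.conj g⁻¹).toMonoidHom := fun A hA hc hs => by
    obtain ⟨g, e⟩ := H75.J4.Md.conj_A (m := m) (fun x hx => by rw [← pow_two, hA.2 x hx]) hc hs.le
    refine ⟨g, e, ?_⟩
    rw [← e, H75.J4.Md.map_conj_conj, inv_mul_cancel, map_one]
    exact A.map_id.symm
  refine ⟨⟨m.A, m.FA.ea.elem, m.card_A, m.FA.cent_eq⟩, fun A A' a1 a2 a3 b1 b2 b3 => ?_, fun A a1 a2 a3 => ?_⟩
  · obtain ⟨g, e, -⟩ := key A a1 a2 a3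
    obtain ⟨k, -, e'⟩ := key A' b1 b2 b3
    exact ⟨k⁻¹ * g, by rw [e', ← e, H75.J4.Md.map_conj_conj]⟩
  · obtain ⟨g, e, e'⟩ := key A a1 a2 a3
    refine ⟨?_, fun W h1 h2 => ?_⟩
    · obtain ⟨B, b1, b2, b3, ⟨f⟩⟩ := m.exists_compl_A
      rw [e', ← Subgroup.map_equiv_normalizer_eq]
      exact ⟨_, Subgroup.map_mono b1, by rw [← Subgroup.map_inf _ _ _ (MulEquiv.injective _), b2, Subgroup.map_bot],
        by rw [← Subgroup.map_sup, b3], ⟨(B.equivMapOfInjective _ (MulEquiv.injective _)).symm.trans f⟩⟩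
    · have := m.irred_A (W := W.map (MulAut.conj g).toMonoidHom) (e ▸ Subgroup.map_mono h1) (by
        rw [← e, ← Subgroup.map_equiv_normalizer_eq, ← Subgroup.map_equiv_normalizer_eq]
        exact Subgroup.map_mono h2)
      rwa [Subgroup.map_eq_bot_iff_of_injective _ (MulEquiv.injective _), ← e,
        (Subgroup.map_injective (MulEquiv.injective _)).eq_iff] at this

end Cfsg.Agent.S5570
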