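import Mathlib
import Cfsg.Statements.S5571
import Cfsg.Agent.Lib.J4L.Ten
import Cfsg.Agent.Lib.J4L.Exists

set_option autoImplicit false
open Cfsg

namespace Cfsg.Agent.S5571

/-- Let G be a finite non-abelian simple group of Janko-four type (an involution z whose centralizer H has an extraspecial largest normal 2-subgroup E of order 2^13 containing its centralizer in H, a normal subgroup N ≥ E of H with N/E of order 3 and H/N the automorphism group of M₂₂, and a subgroup P ≤ N of order 3 with C_E(P) = ⟨z⟩, N_H(P) ≠ C_H(P) and P ≤ C_H(P)′). Let A be a self-centralizing elementary abelian subgroup of G of order 2^10. Then under conjugation by the normalizer of A the non-identity elements of A fall into two orbits, of lengths 155 and 868. -/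
theorem result {G : Type*} [Group G] [Finite G] [IsSimpleGroup G] (hG : ¬ IsMulCommutative G) (hJ : Cfsg.IsOfJankoFourType G) (A : Subgroup G) (hA : Cfsg.IsElementaryAbelian 2 A) (hcard : Nat.card ↥A = 2 ^ 10) (hself : Subgroup.centralizer (A : Set G) = A) :
    ∃ a b : G, a ∈ A ∧ b ∈ A ∧ Set.ncard {v : G | ∃ n ∈ Subgroup.normalizer (A : Set G), n * a * n⁻¹ = v} = 155 ∧
    Set.ncard {v : G | ∃ n ∈ Subgroup.normalizer (A : Set G), n * b * n⁻¹ = v} = 868 := by
  obtain ⟨z, P, h⟩ := hJ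
  obtain ⟨m, -, -⟩ := H75.J4.exists_Md h
  obtain ⟨g, e⟩ := H75.J4.Md.conj_A (m := m) (fun x hx => by rw [← pow_two, hA.2 x hx]) hcard hself.le
  have key : ∀ a ∈ m.A, g⁻¹ * a * g ∈ A ∧ Set.ncard {v : G | ∃ n ∈ Subgroup.normalizer (A : Set G),
      n * (g⁻¹ * a * g) * n⁻¹ = v} = (H54.clsIn (Subgroup.normalizer (m.A : Set G)) a).ncard := fun a ha => by
    rw [← e] at ha ⊢
    obtain ⟨a, ha, rfl⟩ := ha
    have e1 : g⁻¹ * (MulAut.conj g).toMonoidHom a * g = a := by simp [mul_assoc]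
    rw [e1, ← Set.ncard_image_of_injective _ (MulAut.conj g).injective, ← Subgroup.map_equiv_normalizer_eq]
    refine ⟨ha, congrArg _ (Set.ext fun v => ⟨?_, ?_⟩)⟩
    · rintro ⟨_, ⟨n, hn, rfl⟩, rfl⟩
      exact ⟨_, ⟨n, hn, rfl⟩, by simp [mul_assoc]⟩
    · rintro ⟨_, ⟨n, hn, rfl⟩, rfl⟩
      exact ⟨_, ⟨n, hn, rfl⟩, by simp [mul_assoc]⟩
  obtain ⟨b, hb, e'⟩ := m.orbit_A_b
  exact ⟨_, _, (key _ m.FA.z_mem).1, (key _ hb).1, by rw [(key _ m.FA.z_mem).2, m.orbit_A, m.card_ZA],
    by rw [(key _ hb).2, e', m.card_BA]⟩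

end Cfsg.Agent.S5571
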