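import Mathlib
import Cfsg.Statements.S5574
import Cfsg.Agent.Lib.J4L.Five
import Cfsg.Agent.Lib.J4L.Exists

set_option autoImplicit false
open Cfsg

namespace Cfsg.Agent.S5574
open Subgroup H75.J4
/-- Let G be a finite non-abelian simple group of Janko-four type (an involution z whose centralizer H has an extraspecial largest normal 2-subgroup E of order 2^13 containing its centralizer in H, a normal subgroup N ≥ E of H with N/E of order 3 and H/N the automorphism group of M₂₂, and a subgroup P ≤ N of order 3 with C_E(P) = ⟨z⟩, N_H(P) ≠ C_H(P) and P ≤ C_H(P)′). Then G has a special 2-subgroup L of order 2^15 with centre of order 8 whose normalizer M satisfies: M/L is isomorphic to the direct product of the symmetric group of degree 5 and L₃(2); L has no complement in M; M nevertheless contains subgroups isomorphic to the symmetric group of degree 5 and to L₃(2); and M contains the normalizer of some Sylow 5-subgroup and of some Sylow 7-subgroup of G. -/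
theorem result {G : Type*} [Group G] [Finite G] [IsSimpleGroup G] (hG : ¬ IsMulCommutative G) (hJ : Cfsg.IsOfJankoFourType G) :
    ∃ L : Subgroup G, Cfsg.IsSpecial 2 ↥L ∧ Nat.card ↥L = 2 ^ 15 ∧ Nat.card ↥(Subgroup.center ↥L) = 8 ∧
    Nonempty (↥(Subgroup.normalizer (L : Set G)) ⧸ L.subgroupOf (Subgroup.normalizer (L : Set G)) ≃* Equiv.Perm (Fin 5) × Matrix.SpecialLinearGroup (Fin 3) (ZMod 2)) ∧
    (∀ K : Subgroup ↥(Subgroup.normalizer (L : Set G)), ¬ (L.subgroupOf (Subgroup.normalizer (L : Set G))).IsComplement' K) ∧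
    (∃ K₁ : Subgroup G, K₁ ≤ Subgroup.normalizer (L : Set G) ∧ Nonempty (↥K₁ ≃* Equiv.Perm (Fin 5))) ∧
    (∃ K₂ : Subgroup G, K₂ ≤ Subgroup.normalizer (L : Set G) ∧ Nonempty (↥K₂ ≃* Matrix.SpecialLinearGroup (Fin 3) (ZMod 2))) ∧
    (∃ Q : Sylow 5 G, Subgroup.normalizer ((Q : Subgroup G) : Set G) ≤ Subgroup.normalizer (L : Set G)) ∧
    (∃ S : Sylow 7 G, Subgroup.normalizer ((S : Subgroup G) : Set G) ≤ Subgroup.normalizer (L : Set G)) := by
  haveI : Fact (Nat.Prime 5) := ⟨by norm_num⟩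
  haveI : Fact (Nat.Prime 7) := ⟨by norm_num⟩
  obtain ⟨z, P, h⟩ := hJ
  obtain ⟨m, -, -⟩ := exists_Md h
  let φ := m.φ.comp (inclusion m.norm_L.le)
  have hs : Function.Surjective φ := fun a => by
    obtain ⟨n, rfl⟩ := m.φ_surj a
    exact ⟨⟨n, m.norm_L.ge n.2⟩, rfl⟩
  have hk : φ.ker = m.L.subgroupOf _ := Subgroup.ext fun g => m.φ_eq_one
  obtain ⟨y, oy⟩ := exists_prime_orderOf_dvd_card' (G := m.N3) 7 (by rw [m.card_N3]; norm_num)
  rw [← orderOf_coe] at oy
  obtain ⟨x, hx, h5⟩ := m.exists_five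
  obtain ⟨Q, hQ⟩ := exists_sylow_of_prime (A := zpowers x) (by rw [Nat.card_zpowers, hx.order5 h5]) m.not25
  obtain ⟨S, hS⟩ := exists_sylow_of_prime (A := zpowers (y : G)) (by rw [Nat.card_zpowers, oy]) m.not49
  refine ⟨m.L, m.special_L, m.card_L, m.card_center_L,
    ⟨(QuotientGroup.quotientMulEquivOfEq hk.symm).trans (QuotientGroup.quotientKerEquivOfSurjective φ hs)⟩,
    fun K hK => ?_, ⟨_, (inf_le_left.trans m.C3_le_N3).trans m.norm_L.ge, m.exists_S5 y.2 oy⟩,
    ⟨_, (m.K2_le.trans inf_le_left).trans m.norm_L.ge, m.K2_equiv⟩,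
    ⟨Q, by rw [hQ, m.norm_L]; exact hx.norm5_le h5⟩,
    ⟨S, by rw [hS, m.norm_L]; exact (m.seven_main y.2 oy).2.2.2.2⟩⟩
  rw [← hk] at hK
  let e := MulEquiv.ofBijective (φ.comp K.subtype) ((Nat.bijective_iff_injective_and_card _).2
    ⟨(injective_iff_map_eq_one _).2 fun g hg => Subtype.ext (mem_bot.1 (hK.disjoint.le_bot ⟨hg, g.2⟩)), by
      rw [← hK.symm.index_eq_card, index_ker, MonoidHom.range_eq_top.2 hs, card_top]⟩)
  let f := ((normalizer (m.L : Set G)).subtype.comp K.subtype).comp e.symm.toMonoidHom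
  have hf : Function.Injective f := (subtype_injective _).comp ((subtype_injective _).comp e.symm.injective)
  obtain ⟨σ, oσ⟩ := exists_prime_orderOf_dvd_card' (G := Equiv.Perm (Fin 5)) 5
    (by rw [Nat.card_perm, Nat.card_fin]; decide)
  obtain ⟨T, hT⟩ := Sylow.exists_subgroup_card_pow_prime (G := Matrix.SpecialLinearGroup (Fin 3) (ZMod 2)) 2 (n := 3)
    (by rw [card_SL3]; norm_num)
  refine m.no_eight (y := f (σ, 1)) (m.norm_L.le (e.symm _).1.2)
    (by rw [orderOf_injective f hf, Prod.orderOf_mk, oσ, orderOf_one]; rfl) (P := T.map (f.comp (MonoidHom.inr _ _))) ?_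
    ((card_map_of_injective (f := f.comp (MonoidHom.inr _ _)) (hf.comp (Prod.mk_right_injective 1))).trans hT) (eq_bot_iff.2 ?_)
  · rintro _ ⟨a, -, rfl⟩
    refine mem_centralizer_singleton_iff.2 ?_
    rw [MonoidHom.comp_apply, ← map_mul, ← map_mul]
    simp
  · rintro _ ⟨⟨a, -, rfl⟩, h⟩
    exact congrArg Subtype.val (mem_bot.1 (hK.disjoint.le_bot ⟨hk.ge (m.Z3_le_L h), (e.symm _).2⟩))
end Cfsg.Agent.S5574
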