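import Mathlib
import Cfsg.Statements.S5576
import Cfsg.Agent.Lib.J4.P11J
-- import your own Cfsg.Agent.* helpers here

set_option autoImplicit false
open Cfsg

namespace Cfsg.Agent.S5576

/-- Let G be a finite non-abelian simple group of Janko-four type (an involution z whose centralizer H has an extraspecial largest normal 2-subgroup E of order 2^13 containing its centralizer in H, a normal subgroup N ≥ E of H with N/E of order 3 and H/N the automorphism group of M₂₂, and a subgroup P ≤ N of order 3 with C_E(P) = ⟨z⟩, N_H(P) ≠ C_H(P) and P ≤ C_H(P)′). Then G has exactly two conjugacy classes of elements of order 11. -/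
theorem result {G : Type*} [Group G] [Finite G] [IsSimpleGroup G] (hG : ¬ IsMulCommutative G) (hJ : Cfsg.IsOfJankoFourType G) :
    ∃ x y : G, orderOf x = 11 ∧ orderOf y = 11 ∧ ¬ IsConj x y ∧ ∀ w : G, orderOf w = 11 → IsConj w x ∨ IsConj w y := by
  obtain ⟨m, x, V, j⟩ := H66.J4.exists_J11 hJ
  obtain ⟨y, oy, c, -, h⟩ := H66.J4.two_11 j.h j.h11 j.o j.hc j.hP
  refine ⟨x, y, H66.J4.order_11 j.h j.h11, oy, fun e => ?_, fun w ow => (h w ow).imp IsConj.symm IsConj.symm⟩
  have := H66.J4.card_cent_of_conj e
  rw [c, H66.J4.card_C11 j.h j.h11 j.o j.hc] at this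
  exact absurd this (by norm_num)

end Cfsg.Agent.S5576
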