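import Cfsg.Statements.S5579
import Mathlib
import Cfsg.Agent.Lib.J4C.Two
import Cfsg.Agent.Lib.J4C.Five


set_option autoImplicit false
open Cfsg

namespace Cfsg.Agent.S5579

open H74.J4C H75.J4 H66.J4 Cfsg.Spor

/-- no member of `L` divides `n` -/
def ND (L : List ℕ) (n : ℕ) : Prop := ∀ q ∈ L, ¬ q ∣ n

theorem eqns_ND : True := by
  have := @ND.eq_1
  trivial

theorem step {G : Type*} [Group G] [Finite G] {L : List ℕ} {p c d t : ℕ}
    (h : KH ⊤ {g : G | p ∣ orderOf g ∧ ND L (orderOf g)} = c) (k : KO G (ND (p :: L)) = d) (e : c + d = t) :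
    KO G (ND L) = t := by
  rw [KO_split (ND L) p, h, ← e, ← k]
  congr 2
  ext n
  simp only [ND, List.forall_mem_cons, and_comm]

theorem count_J4 : KO J4 (ND []) = 62 := by
  obtain ⟨U, j⟩ := j11_map (MulEquiv.refl J4)
  have b : ∀ p e c L, (p, p * e) ∈ [(23, 23 * 22), (29, 29 * 28), (31, 31 * 10), (37, 37 * 12),
      (43, 43 * 14)] → ND L p → 0 < e → p - 1 = c * e → KH ⊤ {g : J4 | p ∣ orderOf g ∧ ND L (orderOf g)} = c :=
    fun p e c L h hφ he hc => Nat.eq_of_mul_eq_mul_right he ((block_big j h (ND L) hφ).trans hc)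
  have k9 := block2 (ND [43, 37, 31, 29, 23, 11, 5, 3, 7]) fun n => by
    simp only [ND, List.forall_mem_cons, List.not_mem_nil, IsEmpty.forall_iff, implies_true]
    tauto
  have k8 := step (b 43 14 3 _ (by simp) (by simp [ND]) (by norm_num) rfl) k9 rfl
  have k7 := step (b 37 12 3 _ (by simp) (by simp [ND]) (by norm_num) rfl) k8 rfl
  have k6 := step (b 31 10 3 _ (by simp) (by simp [ND]) (by norm_num) rfl) k7 rfl
  have k5 := step (b 29 28 1 _ (by simp) (by simp [ND]) (by norm_num) rfl) k6 rfl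
  have k4 := step (b 23 22 1 _ (by simp) (by simp [ND]) (by norm_num) rfl) k5 rfl
  have k3 := step (block11 j (ND [5, 3, 7]) (fun n h => h 3 (by simp)) (by simp [ND])) k4 rfl
  have k2 := step (block5 (ND [3, 7]) fun n => by
    simp [ND, (by norm_num : Nat.Coprime 7 5).dvd_mul_left, (by norm_num : Nat.Coprime 3 5).dvd_mul_left]) k3 rfl
  have k1 := step (block3J (ND [7]) fun n => by simp [ND, (by norm_num : Nat.Coprime 7 3).dvd_mul_left]) k2 rfl
  exact step (block7 mdJ (ND []) fun n => by simp [ND]) k1 rfl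

/-- Let G be a finite non-abelian simple group of Janko-four type (an involution z whose centralizer H has an extraspecial largest normal 2-subgroup E of order 2^13 containing its centralizer in H, a normal subgroup N ≥ E of H with N/E of order 3 and H/N the automorphism group of M₂₂, and a subgroup P ≤ N of order 3 with C_E(P) = ⟨z⟩, N_H(P) ≠ C_H(P) and P ≤ C_H(P)′). Then G has exactly 62 conjugacy classes. -/
theorem result {G : Type*} [Group G] [Finite G] [IsSimpleGroup G] (hG : ¬ IsMulCommutative G) (hJ : Cfsg.IsOfJankoFourType G) :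
    Nat.card (ConjClasses G) = 62 := by
  obtain ⟨e⟩ := equiv_J4 hJ
  rw [← count_J4, card_conjClasses, KO, KH, KH]
  refine ncard_image_eq (fun a c => a = e c) (fun a _ => ⟨e.symm a, by simp [ND], by simp⟩)
    (fun c _ => ⟨e c, trivial, rfl⟩) ?_
  rintro _ - _ - c - c' - rfl rfl
  rw [cls_eq, cls_eq, ch_top, ch_top]
  exact ⟨fun h => by simpa using e.symm.toMonoidHom.map_isConj h, fun h => e.toMonoidHom.map_isConj h⟩

end Cfsg.Agent.S5579
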