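import Cfsg.Statements.S5582
import Cfsg.Agent.Lib.J4M.Tab

set_option autoImplicit false
open Cfsg

namespace Cfsg.Agent.S5582

/-- Let G be a finite non-abelian simple group of Janko-four type (Janko's involution-centralizer conditions; such a group is the fourth Janko group). Then the following subgroups are maximal: the centralizer of the involution z of the hypothesis; the normalizer of every elementary abelian subgroup of order 2^11; the normalizer of every self-centralizing elementary abelian subgroup of order 2^10; the normalizer of some special 2-subgroup of order 2^15 with centre of order 8; and the normalizer of every Sylow p-subgroup for p = 11, 29, 37 and 43. -/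
theorem result {G : Type*} [Group G] [Finite G] [IsSimpleGroup G] (hG : ¬ IsMulCommutative G) (z : G) (hJ : Cfsg.IsOfJankoFourTypeAt z) :
    IsCoatom (Subgroup.centralizer ({z} : Set G)) ∧
    (∀ V : Subgroup G, Cfsg.IsElementaryAbelian 2 V → Nat.card ↥V = 2 ^ 11 → IsCoatom (Subgroup.normalizer (V : Set G))) ∧
    (∀ A : Subgroup G, Cfsg.IsElementaryAbelian 2 A → Nat.card ↥A = 2 ^ 10 → Subgroup.centralizer (A : Set G) = A → IsCoatom (Subgroup.normalizer (A : Set G))) ∧
    (∃ L : Subgroup G, Cfsg.IsSpecial 2 ↥L ∧ Nat.card ↥L = 2 ^ 15 ∧ Nat.card ↥(Subgroup.center ↥L) = 8 ∧ IsCoatom (Subgroup.normalizer (L : Set G))) ∧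
    (∀ U : Sylow 11 G, IsCoatom (Subgroup.normalizer ((U : Subgroup G) : Set G))) ∧ (∀ U : Sylow 29 G, IsCoatom (Subgroup.normalizer ((U : Subgroup G) : Set G))) ∧
    (∀ U : Sylow 37 G, IsCoatom (Subgroup.normalizer ((U : Subgroup G) : Set G))) ∧ (∀ U : Sylow 43 G, IsCoatom (Subgroup.normalizer ((U : Subgroup G) : Set G))) := by
  obtain ⟨e⟩ := H66.J4.equiv_J4 (G := G) ⟨z, hJ⟩
  obtain ⟨P, hP⟩ := hJ
  obtain ⟨m, rfl, -⟩ := H75.J4.exists_Md hP
  obtain ⟨U, j⟩ := H66.J4.j11_map e
  have tr : ∀ p, H74.J4M.Mx Cfsg.Spor.J4 p → H74.J4M.Mx G p := fun p h y oy => by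
    have := H74.J4M.coatom_map e (h (e.symm y) (by rw [MulEquiv.orderOf_eq, oy]))
    rwa [Subgroup.map_equiv_normalizer_eq, MonoidHom.map_zpowers, MulEquiv.coe_toMonoidHom,
      MulEquiv.apply_symm_apply] at this
  have h29 := tr _ H74.J4M.seven_J.1
  have h43 := tr _ H74.J4M.seven_J.2
  have h37 := tr _ H74.J4M.mx37_J
  have cjn : ∀ {A B : Subgroup G}, (∃ g : G, B.map (MulAut.conj g).toMonoidHom = A) →
      IsCoatom (Subgroup.normalizer (A : Set G)) → IsCoatom (Subgroup.normalizer (B : Set G)) := by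
    rintro A B ⟨g, rfl⟩ h
    have := H74.J4M.coatom_cj g⁻¹ h
    rwa [H68.cj_normalizer, H68.cj_inv_cj] at this
  have big : ∀ p : ℕ, p.Prime → p ∣ 86775571046077562880 → ¬ p ^ 2 ∣ 86775571046077562880 → H74.J4M.Mx G p →
      ∀ S : Sylow p G, IsCoatom (Subgroup.normalizer ((S : Subgroup G) : Set G)) := fun p hp a b h S => by
    have := Fact.mk hp
    have c := H74.J4M.sylowIn_gcd (E := 1) (H68.sylowIn_top S) (by rwa [Subgroup.card_top, j.hc])
    rw [Subgroup.card_top, j.hc, pow_one, Nat.gcd_eq_right a] at c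
    obtain ⟨y, oy, ey⟩ := H75.J4.exists_gen c
    exact ey ▸ h y oy
  refine ⟨H74.J4M.coatom_H j m h29 h37 h43, fun V a b => cjn (m.conj_V (fun x hx => by rw [← pow_two, a.2 x hx]) b)
    (H74.J4M.coatom_V j m), fun A a b c => cjn (m.conj_A (fun x hx => by rw [← pow_two, a.2 x hx]) b c.le)
    (H74.J4M.coatom_A j m h29 h37 h43), ⟨m.L, m.special_L, m.card_L, m.card_center_L,
    m.norm_L ▸ H74.J4M.coatom_N3 j m h29 h37 h43⟩, fun S => ?_, big 29 (by norm_num) (by norm_num) (by norm_num) h29,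
    big 37 (by norm_num) (by norm_num) (by norm_num) h37, big 43 (by norm_num) (by norm_num) (by norm_num) h43⟩
  obtain ⟨U0, c, h⟩ := H74.J4M.coatom_U_J
  have h' := H74.J4M.coatom_map e h
  rw [Subgroup.map_equiv_normalizer_eq] at h'
  obtain ⟨g, -, eg⟩ := (H68.sylowIn_top S).exists_cj_eq (H74.J4M.sylowIn_of_card (P := U0.map e.toMonoidHom) le_top
    ((Subgroup.card_map_of_injective e.injective).trans c) (by rw [Subgroup.card_top, j.hc]; norm_num))
  exact cjn ⟨g, eg⟩ h'

end Cfsg.Agent.S5582
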