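import Mathlib
import Cfsg.Statements.S5599
import Cfsg.Agent.Lib.M24Geom.Six
import Cfsg.Agent.Lib.M24Geom.ClsM22

set_option autoImplicit false
open scoped Pointwise
open Cfsg

namespace Cfsg.Agent.S5599

open H15 H55.Golay H96.Geo


/-- In the automorphism group of the length-24 code, the two-point Mathieu group (permutations of the code's group fixing the extra point and the residue 0) has index 2 in the setwise stabiliser of that pair of points, and an element of the code's group interchanging the two points normalises the two-point group and induces on it, by conjugation, an automorphism that is not inner. -/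
theorem result (g : Equiv.Perm Cfsg.GolayPt) (hg : g ∈ Cfsg.M24) (h₁ : g none = some 0) (h₂ : g (some 0) = none) : Cfsg.Spor.M22.relIndex (Cfsg.M24 ⊓ MulAction.stabilizer (Equiv.Perm Cfsg.GolayPt) ({none, some 0} : Finset Cfsg.GolayPt)) = 2 ∧ (∀ x ∈ Cfsg.Spor.M22, g * x * g⁻¹ ∈ Cfsg.Spor.M22) ∧ ¬ ∃ h ∈ Cfsg.Spor.M22, ∀ x ∈ Cfsg.Spor.M22, g * x * g⁻¹ = h * x * h⁻¹ := by
  have hne : (none : GolayPt) ≠ some 0 := by decide
  refine ⟨?_, fun x hx => ⟨⟨M24.mul_mem (M24.mul_mem hg hx.1.1) (M24.inv_mem hg), ?_⟩, ?_⟩, ?_⟩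
  · have h1 := card_eq_of_orbit M24 ({none, some 0} : Finset GolayPt) {s | s.card = 2}
      (fun g _ => by rw [Set.mem_ofPred_eq, card_smul, Finset.card_pair hne])
      (fun s hs => M24_trans_sets (by rw [Finset.card_pair hne]; norm_num)
        (by rw [Finset.card_pair hne, hs]))
    rw [card_M24, H55.Golay.ncard_card_eq, show Nat.choose 24 2 = 276 from rfl] at h1
    have h2 : Spor.M22 ≤ M24 ⊓ MulAction.stabilizer (Equiv.Perm GolayPt)
        ({none, some 0} : Finset GolayPt) := fun x hx => ⟨hx.1.1, smul_eq_of_fix fun p hp => by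
      rcases Finset.mem_insert.1 hp with rfl | hp
      · exact hx.1.2
      · rw [Finset.mem_singleton.1 hp]; exact hx.2⟩
    have h3 := Subgroup.relIndex_mul_relIndex ⊥ _ _ bot_le h2
    rw [Subgroup.relIndex_bot_left, Subgroup.relIndex_bot_left, card_M22] at h3
    omega
  · exact (conj_mem_St_iff (x := (some 0 : GolayPt)) h₂ x).2 hx.2
  · exact (conj_mem_St_iff (x := (none : GolayPt)) h₁ x).2 hx.1.2
  · rintro ⟨h, hh, e⟩
    have hu : h⁻¹ * g ∈ M24 := mul_mem (inv_mem hh.1.1) hg
    have hc : ∀ x ∈ Spor.M22, h⁻¹ * g * x * (h⁻¹ * g)⁻¹ = x := fun x hx => by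
      calc _ = h⁻¹ * (g * x * g⁻¹) * h := by group
        _ = x := by rw [e x hx]; group
    have u1 : (h⁻¹ * g) none = some 0 := by
      rw [Equiv.Perm.mul_apply, h₁, Equiv.Perm.inv_eq_iff_eq]; exact (show h _ = _ from hh.2).symm
    have u2 : (h⁻¹ * g) (some 0) = none := by
      rw [Equiv.Perm.mul_apply, h₂, Equiv.Perm.inv_eq_iff_eq]; exact (show h _ = _ from hh.1.2).symm
    have a7 := good_M22 (c := M22.c7A) (by decide +kernel) (by decide +kernel) (by decide +kernel)
    have f7 : Fix (permOf M22.c7A) = {none, some 0, pt 12} := by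
      rw [Fix_permOf a7.1]; decide +kernel
    have hfix : ∀ q, q ≠ none → q ≠ some 0 → (h⁻¹ * g) q = q := by
      intro q q1 q2
      obtain ⟨k, hk, k1, k2, k3⟩ := M24_trans3 (a := none) (b := some 0) (c := pt 12) hne
        (by decide) (by decide) hne q1.symm q2.symm
      have hk' : k ∈ Spor.M22 := ⟨⟨hk, k1⟩, k2⟩
      have h1 := Fix_conj (h⁻¹ * g) (k * permOf M22.c7A * k⁻¹)
      rw [hc _ (mul_mem (mul_mem hk' a7.2) (inv_mem hk')), Fix_conj, f7] at h1
      have h2 := (apply_mem_of_smul_eq h1.symm (p := q)).2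
      simp only [Finset.smul_finset_insert, Finset.smul_finset_singleton, Equiv.Perm.smul_def, k1,
        k2, k3, Finset.mem_insert, Finset.mem_singleton, or_true, forall_const] at h2
      rcases h2 with c | c | c
      · exact absurd ((h⁻¹ * g).injective (c.trans u2.symm)) q2
      · exact absurd ((h⁻¹ * g).injective (c.trans u1.symm)) q1
      · exact c
    have h1 := card_Fix_le hu fun c => by rw [c] at u1; exact hne u1
    have h2 : ofMask 1022 ⊆ Fix (h⁻¹ * g) := fun q hq => mem_Fix.2 (hfix q
      (by rintro rfl; revert hq; decide +kernel) (by rintro rfl; revert hq; decide +kernel))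
    have h3 := Finset.card_le_card h2
    rw [card_ofMask, show wt 1022 = 9 by decide +kernel] at h3
    omega

end Cfsg.Agent.S5599
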