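import Mathlib
import Cfsg.Statements.S5600
import Cfsg.Agent.Lib.M24Geom.Six

set_option autoImplicit false
open scoped Pointwise
open Cfsg

namespace Cfsg.Agent.S5600

open H15 H55.Golay H96.Geo


/-- Although the group of the length-24 code is only 5-transitive on the 24 points, it induces the full symmetric group on every 6-element subset: every permutation of a 6-set E is the restriction of an element of the group mapping E to itself. The pointwise stabiliser of E has order 16 when E lies in an octad and order 3 otherwise; in the latter case the setwise stabiliser of E has order 2160. -/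
theorem result (E : Finset Cfsg.GolayPt) (hE : E.card = 6) : (∀ σ : Equiv.Perm ↥E, ∃ g ∈ Cfsg.M24, ∀ p : ↥E, g p = σ p) ∧ ((∃ o ∈ Cfsg.octads, E ⊆ o) → Nat.card {g : Equiv.Perm Cfsg.GolayPt // g ∈ Cfsg.M24 ∧ ∀ p ∈ E, g p = p} = 16) ∧ ((¬ ∃ o ∈ Cfsg.octads, E ⊆ o) → Nat.card {g : Equiv.Perm Cfsg.GolayPt // g ∈ Cfsg.M24 ∧ ∀ p ∈ E, g p = p} = 3 ∧ Nat.card ↥(MulAction.stabilizer Cfsg.M24 E) = 2160) := by
  refine ⟨exists_induce_six hE, fun ⟨o, ho, h⟩ => ?_, fun h => ⟨?_, ?_⟩⟩
  · rw [card_subtype_fixSet, card_fixSet_six_in hE ho h]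
  · rw [card_subtype_fixSet, card_fixSet_six_out hE h]
  · rw [card_inf_stabilizer, card_stab_eq, card_fixSet_six_out hE h,
      MonoidHom.range_eq_top.2, Subgroup.card_top, card_perm_finset, hE]
    · rfl
    · intro σ
      obtain ⟨g, hg, e⟩ := exists_induce_six hE σ
      exact ⟨⟨g, hg, smul_eq_of_maps (fun p hp => by rw [e ⟨p, hp⟩]; exact (σ ⟨p, hp⟩).2) le_rfl⟩,
        Equiv.ext fun p => Subtype.ext (e p)⟩

end Cfsg.Agent.S5600
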