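import Mathlib
import Cfsg.Statements.S5601
import Cfsg.Agent.Lib.M24Geom.Six

set_option autoImplicit false
open scoped Pointwise
open Cfsg

namespace Cfsg.Agent.S5601

open H15 H55.Golay H96.Geo

theorem fix_zpowers (x : M24) : {p : GolayPt | ∀ y ∈ Subgroup.zpowers x,
    ((y : M24) : Equiv.Perm GolayPt) p = p}.ncard = (Fix x).card := by
  rw [← Set.ncard_coe_finset]
  congr 1
  ext p
  simp only [Set.mem_ofPred_eq, Finset.mem_coe, mem_Fix]
  refine ⟨fun h => h x (Subgroup.mem_zpowers x), ?_⟩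
  rintro h _ ⟨n, rfl⟩
  exact Equiv.Perm.zpow_apply_eq_self_of_apply_eq_self h n

theorem exists_gen {X : Subgroup M24} (h : Nat.card X = 3) :
    ∃ x : M24, orderOf (x : Equiv.Perm GolayPt) = 3 ∧ X = Subgroup.zpowers x := by
  have : Fact (Nat.Prime 3) := ⟨Nat.prime_three⟩
  have := isCyclic_of_prime_card h
  obtain ⟨x, hx⟩ := (Subgroup.isCyclic_iff_exists_zpowers_eq_top X).1 this
  exact ⟨x, by rw [Subgroup.orderOf_coe, ← Nat.card_zpowers, hx, h], hx.symm⟩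

theorem ex {c n : ℕ} (h : inM24 c = true) (h3 : H54.ordc cfg24 c = 3) (hn : wt (fixM c) = n) :
    ∃ X : Subgroup M24, Nat.card X = 3 ∧ {p : GolayPt | ∀ x ∈ X,
      ((x : M24) : Equiv.Perm GolayPt) p = p}.ncard = n :=
  ⟨Subgroup.zpowers ⟨permOf c, permOf_mem_M24 h⟩, by
    rw [Nat.card_zpowers, ← Subgroup.orderOf_coe, orderOf_permOf (okP_of_inM24 h), h3], by
    rw [fix_zpowers, card_Fix_permOf (okP_of_inM24 h), hn]⟩


/-- The group of the length-24 code has exactly two conjugacy classes of subgroups of order 3: a subgroup of order 3 fixes either exactly 6 of the 24 points or none of them, both cases occur, and two subgroups of order 3 with the same number of fixed points are conjugate. -/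
theorem result : (∀ X : Subgroup ↥Cfsg.M24, Nat.card X = 3 → {p : Cfsg.GolayPt | ∀ x ∈ X, ((x : ↥Cfsg.M24) : Equiv.Perm Cfsg.GolayPt) p = p}.ncard = 6 ∨ {p : Cfsg.GolayPt | ∀ x ∈ X, ((x : ↥Cfsg.M24) : Equiv.Perm Cfsg.GolayPt) p = p}.ncard = 0) ∧ (∃ X : Subgroup ↥Cfsg.M24, Nat.card X = 3 ∧ {p : Cfsg.GolayPt | ∀ x ∈ X, ((x : ↥Cfsg.M24) : Equiv.Perm Cfsg.GolayPt) p = p}.ncard = 6) ∧ (∃ X : Subgroup ↥Cfsg.M24, Nat.card X = 3 ∧ {p : Cfsg.GolayPt | ∀ x ∈ X, ((x : ↥Cfsg.M24) : Equiv.Perm Cfsg.GolayPt) p = p}.ncard = 0) ∧ ∀ X Y : Subgroup ↥Cfsg.M24, Nat.card X = 3 → Nat.card Y = 3 → {p : Cfsg.GolayPt | ∀ x ∈ X, ((x : ↥Cfsg.M24) : Equiv.Perm Cfsg.GolayPt) p = p}.ncard = {p : Cfsg.GolayPt | ∀ x ∈ Y, ((x : ↥Cfsg.M24) : Equiv.Perm Cfsg.GolayPt) p = p}.ncard → ∃ k : ↥Cfsg.M24, MulAut.conj k • X = Y := by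
  refine ⟨fun X hX => ?_, ex (c := M24.c3A) (by decide +kernel) (by decide +kernel) (by decide +kernel),
    ex (c := M24.c3B) (by decide +kernel) (by decide +kernel) (by decide +kernel),
    fun X Y hX hY e => ?_⟩
  · obtain ⟨x, hx, rfl⟩ := exists_gen hX
    rw [fix_zpowers]
    exact (conj3 x.2 hx).imp And.left And.left
  · obtain ⟨x, hx, rfl⟩ := exists_gen hX
    obtain ⟨y, hy, rfl⟩ := exists_gen hY
    rw [fix_zpowers, fix_zpowers] at e
    obtain ⟨k, hk, e2⟩ : ∃ k ∈ M24, k * (x : Equiv.Perm GolayPt) * k⁻¹ = y := by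
      by_cases c : (Fix x).card = 0
      · exact conj_of_conj (conj3B x.2 hx c) (conj3B y.2 hy (e ▸ c))
      · exact conj_of_conj (conj3A x.2 hx c) (conj3A y.2 hy (e ▸ c))
    refine ⟨⟨k, hk⟩, ?_⟩
    exact (MonoidHom.map_zpowers (MulAut.conj (⟨k, hk⟩ : M24)).toMonoidHom x).trans
      (congrArg Subgroup.zpowers (Subtype.ext e2))

end Cfsg.Agent.S5601
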