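import Mathlib
import Cfsg.Statements.S5603
import Cfsg.Agent.Lib.M24Geom.Six

set_option autoImplicit false
open scoped Pointwise
open Cfsg

namespace Cfsg.Agent.S5603

open H15 H55.Golay H96.Geo


/-- A fixed-point-free element of order 3 of the group of the length-24 code maps to themselves exactly 7 sextets and exactly 15 trios. -/
theorem result (g : Equiv.Perm Cfsg.GolayPt) (hg : g ∈ Cfsg.M24) (h₃ : orderOf g = 3) (h₀ : ∀ p, g p ≠ p) : {S : Finset (Finset Cfsg.GolayPt) | S ∈ Cfsg.sextets ∧ g • S = S}.ncard = 7 ∧ {T : Finset (Finset Cfsg.GolayPt) | T ∈ Cfsg.trios ∧ g • T = T}.ncard = 15 := by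
  obtain ⟨k, hk, rfl⟩ := conj3B hg h₃ (card_Fix_eq_zero.2 h₀)
  exact ⟨by rw [ncard_fixed_conj isFam_sextets hk, ncard_fixed_sextets (by decide +kernel)]; decide +kernel,
    by rw [ncard_fixed_conj isFam_trios hk, ncard_fixed_trios (by decide +kernel)]; decide +kernel⟩

end Cfsg.Agent.S5603
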