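import Mathlib
import Cfsg.Statements.S5604
import Cfsg.Agent.Lib.M24Geom.Six

set_option autoImplicit false
open scoped Pointwise
open Cfsg

namespace Cfsg.Agent.S5604

open H15 H55.Golay H96.Geo

theorem ex_gen {S : Subgroup M24} (hS : Nat.card S = 7) :
    ∃ x : M24, S = Subgroup.zpowers x ∧ ∃ k ∈ M24, k * permOf M24.c7A * k⁻¹ = x := by
  have : Fact (Nat.Prime 7) := ⟨by norm_num⟩
  have := isCyclic_of_prime_card hS
  obtain ⟨x, hx⟩ := (Subgroup.isCyclic_iff_exists_zpowers_eq_top S).1 this
  have h7 : orderOf x = 7 := by rw [← Nat.card_zpowers, hx, hS]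
  obtain ⟨e, he, h1, -, k, hk, h3⟩ := M24.table.data x.2
  have key : ∀ e ∈ M24.cls, e.o = 7 → e.c = M24.c7A ∨ e.c = M24.c7B := by decide +kernel
  rcases key e he (by rw [← h1, Subgroup.orderOf_coe, h7]) with c | c
  · exact ⟨x, hx.symm, k, hk, c ▸ h3⟩
  · refine ⟨x ^ 3, ?_, k * permOf 963957843083413528188809056079955282, mul_mem hk (permOf_mem_M24 (by decide +kernel)), ?_⟩
    · rw [← hx]
      refine (Subgroup.eq_of_le_of_card_ge (Subgroup.zpowers_le_of_mem
        (Subgroup.npow_mem_zpowers x 3)) ?_).symm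
      rw [Nat.card_zpowers, Nat.card_zpowers, (Nat.Coprime.orderOf_pow (by rw [h7]; norm_num))]
    · have : permOf 963957843083413528188809056079955282 * permOf M24.c7A * (permOf 963957843083413528188809056079955282)⁻¹ = permOf M24.c7B ^ 3 := by
        rw [mul_inv_eq_iff_eq_mul, ← (powP_spec (by decide +kernel) 3).2,
          ← permOf_mulP (by decide +kernel) (by decide +kernel),
          ← permOf_mulP (by decide +kernel) (by decide +kernel)]
        exact congrArg permOf (by decide +kernel)
      rw [Subgroup.coe_pow, ← h3, c, conj_pow, ← this]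
      group

theorem conj_eq {a b c : ℕ} (ha : okP a = true) (hb : okP b = true) (hc : okP c = true)
    (h : mulP a b = mulP c a) : permOf a * permOf b * (permOf a)⁻¹ = permOf c := by
  rw [mul_inv_eq_iff_eq_mul, ← permOf_mulP ha hb, ← permOf_mulP hc ha, h]

theorem nconj {i : ℕ} (hi : i < 7) {h : Equiv.Perm GolayPt} (hh : h ∈ M24)
    (e : h * permOf M24.c7A * h⁻¹ = permOf M24.c7A ^ i) : i = 1 ∨ i = 2 ∨ i = 4 := by
  have ok : okP M24.c7A = true := by decide +kernel
  have aux : ∀ j u, inM24 u = true → mulP u M24.c7B = mulP (powP M24.c7A j) u → i ≠ j := by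
    rintro j u hu e2 rfl
    have := conj_eq (okP_of_inM24 hu) (by decide +kernel) (powP_spec ok i).1 e2
    rw [(powP_spec ok i).2, ← e] at this
    refine M24.nc7A_7B ((permOf u)⁻¹ * h) (mul_mem (inv_mem (permOf_mem_M24 hu)) hh) ?_
    calc _ = (permOf u)⁻¹ * (h * permOf M24.c7A * h⁻¹) * permOf u := by group
      _ = _ := by rw [← this]; group
  have h3 := aux 3 963833084592951457018055378931586706 (by decide +kernel) (by decide +kernel)
  have h5 := aux 5 980221800161639362415325449020559474 (by decide +kernel) (by decide +kernel)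
  have h6 := aux 6 971011494989733351745723063945477682 (by decide +kernel) (by decide +kernel)
  have h0 : i ≠ 0 := by
    rintro rfl
    rw [pow_zero, conj_eq_one_iff] at e
    exact permOf_ne_one ok (i := 0) (by norm_num) (by decide +kernel) e
  omega

theorem le_tri : M24 ⊓ Subgroup.centralizer {permOf M24.c7A} ≤
    M24 ⊓ St (famL [14950785, 252432, 1573998]) :=
  le_of_grp_eq M24.cent7A.2 (good_fam (by decide +kernel))

/-- the normalising element -/
def nn : ℕ := 966073375708381883186765154197384341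

theorem nn_conj : permOf nn * permOf M24.c7A * (permOf nn)⁻¹ = permOf M24.c7A ^ 2 := by
  rw [← (powP_spec (by decide +kernel) 2).2]
  exact conj_eq (by decide +kernel) (by decide +kernel) (by decide +kernel) (by decide +kernel)

theorem nn_tri : permOf nn ∈ M24 ⊓ St (famL [14950785, 252432, 1573998]) :=
  (good_fam (G := [nn]) (by decide +kernel) nn (by simp)).2

theorem main {G : Type*} [Group G] [Finite G] {x n : G} (h7 : orderOf x = 7)
    (hn : n * x * n⁻¹ = x ^ 2)
    (hc : ∀ i < 7, ∀ h : G, h * x * h⁻¹ = x ^ i → i = 1 ∨ i = 2 ∨ i = 4) :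
    Nat.card (Subgroup.normalizer (Subgroup.zpowers x : Set G)) =
      3 * Nat.card (Subgroup.centralizer {x}) ∧
    ∀ K : Subgroup G, n ∈ K → Subgroup.centralizer {x} ≤ K →
      Subgroup.normalizer (Subgroup.zpowers x : Set G) ≤ K := by
  classical
  have hn2 : n ^ 2 * x * (n ^ 2)⁻¹ = x ^ 4 := by
    calc _ = n * (n * x * n⁻¹) * n⁻¹ := by rw [pow_two]; group
      _ = (n * x * n⁻¹) ^ 2 := by rw [conj_pow, hn]
      _ = _ := by rw [hn, ← pow_mul]
  have mem : ∀ m : G, m * x * m⁻¹ ∈ Subgroup.zpowers x →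
      m ∈ Subgroup.normalizer (Subgroup.zpowers x : Set G) := fun m hm => by
    refine Subgroup.mem_normalizer_fintype ?_
    rintro _ ⟨k, rfl⟩
    rw [← conj_zpow]
    exact Subgroup.zpow_mem _ hm k
  have cases : ∀ m ∈ Subgroup.normalizer (Subgroup.zpowers x : Set G),
      m * x * m⁻¹ = x ∨ m * x * m⁻¹ = x ^ 2 ∨ m * x * m⁻¹ = x ^ 4 := fun m hm => by
    have h1 : m * x * m⁻¹ ∈ Subgroup.zpowers x :=
      (Subgroup.mem_normalizer_iff.1 hm x).1 (Subgroup.mem_zpowers x)
    obtain ⟨i, hi, e⟩ := Finset.mem_image.1 (mem_zpowers_iff_mem_range_orderOf.1 h1)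
    rw [h7, Finset.mem_range] at hi
    rcases hc i hi m e.symm with rfl | rfl | rfl
    · exact Or.inl (by rw [← e, pow_one])
    · exact Or.inr (Or.inl e.symm)
    · exact Or.inr (Or.inr e.symm)
  have hle : Subgroup.centralizer {x} ≤ Subgroup.normalizer (Subgroup.zpowers x : Set G) :=
    fun m hm => mem m (by
      rw [Subgroup.mem_centralizer_singleton_iff.1 hm, mul_inv_cancel_right]
      exact Subgroup.mem_zpowers x)
  refine ⟨?_, fun K hK hC m hm => ?_⟩
  · rw [← H54.ncard_clsIn_mul _ x, inf_eq_right.2 hle]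
    congr 1
    have hi := pow_injOn_Iio_orderOf (x := x)
    rw [h7] at hi
    refine Set.ncard_eq_three.2 ⟨x ^ 1, x ^ 2, x ^ 4, fun c => ?_, fun c => ?_, fun c => ?_, ?_⟩
    · exact absurd (hi (by simp) (by simp) c) (by norm_num)
    · exact absurd (hi (by simp) (by simp) c) (by norm_num)
    · exact absurd (hi (by simp) (by simp) c) (by norm_num)
    · ext y
      rw [pow_one]
      constructor
      · rintro ⟨m, hm, rfl⟩
        exact cases m hm
      · rintro (rfl | rfl | rfl)
        · exact ⟨1, one_mem _, by simp⟩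
        · exact ⟨n, mem n (hn ▸ Subgroup.npow_mem_zpowers x 2), hn⟩
        · exact ⟨n ^ 2, mem _ (hn2 ▸ Subgroup.npow_mem_zpowers x 4), hn2⟩
  · have aux : ∀ u ∈ K, m * x * m⁻¹ = u * x * u⁻¹ → m ∈ K := fun u hu e => by
      have : u⁻¹ * m ∈ K := hC (Subgroup.mem_centralizer_singleton_iff.2 (by
        calc _ = u⁻¹ * (m * x * m⁻¹) * m := by group
          _ = _ := by rw [e]; group))
      simpa using K.mul_mem hu this
    rcases cases m hm with c | c | c
    · exact aux 1 K.one_mem (by simpa using c)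
    · exact aux n hK (c.trans hn.symm)
    · exact aux _ (K.pow_mem hK 2) (c.trans hn2.symm)

theorem eqns : True := by
  have := @nn.eq_def
  have := @nn.eq_1
  trivial


/-- For a subgroup S of order 7 of the group of the length-24 code (a Sylow 7-subgroup): the normaliser of S has order 126, the centraliser of S has order 42 and is non-abelian, and the whole normaliser leaves some trio invariant. (These are the orders of a Frobenius group of order 21 times a symmetric group of degree 3; the isomorphism type itself is not asserted here.) -/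
theorem result (S : Subgroup ↥Cfsg.M24) (hS : Nat.card S = 7) : Nat.card ↥(Subgroup.normalizer (S : Set ↥Cfsg.M24)) = 126 ∧ Nat.card ↥(Subgroup.centralizer (S : Set ↥Cfsg.M24)) = 42 ∧ (∃ x ∈ Subgroup.centralizer (S : Set ↥Cfsg.M24), ∃ y ∈ Subgroup.centralizer (S : Set ↥Cfsg.M24), x * y ≠ y * x) ∧ ∃ T ∈ Cfsg.trios, ∀ n ∈ Subgroup.normalizer (S : Set ↥Cfsg.M24), ((n : ↥Cfsg.M24) : Equiv.Perm Cfsg.GolayPt) • T = T := by
  obtain ⟨x, rfl, k, hk, e⟩ := ex_gen hS
  have cz : Subgroup.centralizer (Subgroup.zpowers x : Set M24) = Subgroup.centralizer {x} := by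
    rw [Subgroup.zpowers_eq_closure, Subgroup.centralizer_closure]
  have memc : ∀ y : M24, y ∈ Subgroup.centralizer {x} ↔
      k⁻¹ * y * k ∈ M24 ⊓ Subgroup.centralizer {permOf M24.c7A} := fun y => by
    rw [Subgroup.mem_inf, Subgroup.mem_centralizer_singleton_iff,
      Subgroup.mem_centralizer_singleton_iff, Subtype.ext_iff, Subgroup.coe_mul, Subgroup.coe_mul,
      ← e]
    refine ⟨fun h => ⟨mul_mem (mul_mem (inv_mem hk) y.2) hk, ?_⟩, fun h => ?_⟩
    · calc _ = k⁻¹ * (y * (k * permOf M24.c7A * k⁻¹)) * k := by group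
        _ = _ := by rw [h]; group
    · calc _ = k * (k⁻¹ * y * k * permOf M24.c7A) * k⁻¹ := by group
        _ = _ := by rw [h.2]; group
  have c42 : Nat.card (Subgroup.centralizer {x}) = 42 := by
    rw [← M24.card_cent7A, ← card_cent_conj hk, e]
    exact Nat.card_congr (subEquiv fun y => by
      rw [Subgroup.mem_centralizer_singleton_iff, Subgroup.mem_centralizer_singleton_iff,
        Subtype.ext_iff]; rfl).toEquiv
  obtain ⟨m1, m2⟩ := main (x := x) (n := ⟨k * permOf nn * k⁻¹,
      mul_mem (mul_mem hk nn_tri.1) (inv_mem hk)⟩) (by rw [← Nat.card_zpowers, hS])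
    (Subtype.ext (by
      simp only [Subgroup.coe_mul, Subgroup.coe_inv, Subgroup.coe_pow, ← e, conj_pow, ← nn_conj]
      group))
    (fun i hi h e2 => nconj hi (h := k⁻¹ * h * k) (mul_mem (mul_mem (inv_mem hk) h.2) hk) (by
      have := congrArg Subtype.val e2
      simp only [Subgroup.coe_mul, Subgroup.coe_inv, Subgroup.coe_pow, ← e, conj_pow] at this
      calc _ = k⁻¹ * (h * (k * permOf M24.c7A * k⁻¹) * (h : Equiv.Perm GolayPt)⁻¹) * k := by group
        _ = _ := by rw [this]; group))
  have gz : ∀ s ∈ M24.z7A.gens, Good (M24 ⊓ Subgroup.centralizer {permOf M24.c7A}) s :=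
    M24.cent7A.2 ▸ good_grp (by decide +kernel)
  have g1 := gz 549105103528037962041504827799022743 (by decide +kernel)
  have g2 := gz 187300698900866848353915955635587244 (by decide +kernel)
  refine ⟨by rw [m1, c42], by rw [cz, c42], ⟨⟨_, mul_mem (mul_mem hk g1.2.1) (inv_mem hk)⟩, ?_,
    ⟨_, mul_mem (mul_mem hk g2.2.1) (inv_mem hk)⟩, ?_, fun c => ?_⟩,
    k • famL [14950785, 252432, 1573998], smul_mem_trios hk (famL_trio (a := 14950785) (b := 252432)
      (by decide +kernel) (by decide +kernel) (by decide +kernel)), fun n hn => ?_⟩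
  · rw [cz, memc]; simpa [mul_assoc] using g1.2
  · rw [cz, memc]; simpa [mul_assoc] using g2.2
  · have := congrArg Subtype.val c
    simp only [Subgroup.coe_mul, conj_mul, mul_left_inj, mul_right_inj] at this
    rw [← permOf_mulP g1.1 g2.1, ← permOf_mulP g2.1 g1.1] at this
    exact absurd (permOf_inj (okP_mulP g1.1 g2.1) (okP_mulP g2.1 g1.1) (mulP_lt _ _) (mulP_lt _ _) this)
      (by decide +kernel)
  · refine m2 (MulAction.stabilizer M24 (k • famL [14950785, 252432, 1573998]))
      ((conj_mem_St_iff rfl _).2 nn_tri.2) (fun y hy => ?_) hn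
    have := (conj_mem_St_iff (k := k) rfl _).2 (le_tri ((memc y).1 hy)).2
    rw [show k * (k⁻¹ * (y : Equiv.Perm GolayPt) * k) * k⁻¹ = y by group] at this
    exact this

end Cfsg.Agent.S5604
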