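import Mathlib
import Cfsg.Statements.S5607
import Cfsg.Agent.Lib.M24Geom.Six

set_option autoImplicit false
open scoped Pointwise
open Cfsg

namespace Cfsg.Agent.S5607

open H15 H55.Golay H96.Geo

theorem mem_cent {t c : Equiv.Perm GolayPt} :
    c ∈ M24 ⊓ Subgroup.centralizer {t} ↔ c ∈ M24 ∧ c * t = t * c := by
  rw [Subgroup.mem_inf, Subgroup.mem_centralizer_singleton_iff]

theorem conj_cent {k t c : Equiv.Perm GolayPt} (hk : k ∈ M24) :
    k * c * k⁻¹ ∈ M24 ⊓ Subgroup.centralizer {k * t * k⁻¹} ↔ c ∈ M24 ⊓ Subgroup.centralizer {t} := by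
  rw [mem_cent, mem_cent, conj_mem_iff_of_mem hk, conj_mul, conj_mul, mul_left_inj, mul_right_inj]

theorem gens_good : ∀ s ∈ M24.z2B.gens, Good (M24 ⊓ Subgroup.centralizer {permOf M24.c2B}) s :=
  M24.cent2B.2 ▸ good_grp (by decide +kernel)

theorem trans0 (q : GolayPt) : ∃ c ∈ M24 ⊓ Subgroup.centralizer {permOf M24.c2B}, c (pt 0) = q :=
  orbit_of_orbM gens_good (k := 24) (S := 16777215) (by norm_num) (by decide +kernel) q
    (by rw [ofMask_full]; exact Finset.mem_univ q)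

theorem le_sex : M24 ⊓ Subgroup.centralizer {permOf M24.c2B} ≤
    M24 ⊓ St (famL [10486848, 26752, 163874, 4260353, 1310980, 528408]) :=
  le_of_grp_eq M24.cent2B.2 (good_fam (by decide +kernel))


/-- For a fixed-point-free involution t of the group of the length-24 code: its centraliser in that group has order 7680, is transitive on the 24 points, and is contained, together with t, in the stabiliser of some sextet. -/
theorem result (t : Equiv.Perm Cfsg.GolayPt) (ht : t ∈ Cfsg.M24) (h₂ : orderOf t = 2) (h₀ : ∀ p, t p ≠ p) : Nat.card {c : Equiv.Perm Cfsg.GolayPt // c ∈ Cfsg.M24 ∧ c * t = t * c} = 7680 ∧ (∀ p q : Cfsg.GolayPt, ∃ c ∈ Cfsg.M24, c * t = t * c ∧ c p = q) ∧ ∃ S ∈ Cfsg.sextets, t • S = S ∧ ∀ c ∈ Cfsg.M24, c * t = t * c → c • S = S := by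
  obtain ⟨k, hk, rfl⟩ := conj2B ht h₂ (card_Fix_eq_zero.2 h₀)
  have hs : ∀ c ∈ M24, c * (k * permOf M24.c2B * k⁻¹) = (k * permOf M24.c2B * k⁻¹) * c →
      c • (k • famL [10486848, 26752, 163874, 4260353, 1310980, 528408]) =
        k • famL [10486848, 26752, 163874, 4260353, 1310980, 528408] := by
    intro c hc e
    have h1 : c = k * (k⁻¹ * c * k) * k⁻¹ := by group
    have h2 := mem_cent.2 ⟨hc, e⟩
    rw [h1, conj_cent hk] at h2
    rw [h1]
    exact (conj_mem_St_iff rfl _).2 (le_sex h2).2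
  refine ⟨?_, fun p q => ?_, _, smul_mem_sextets hk (isSexL_spec (by decide +kernel)).1,
    hs _ ht rfl, hs⟩
  · rw [← M24.card_cent2B, ← card_cent_conj hk]
    exact Nat.card_congr (Equiv.subtypeEquivRight fun _ => mem_cent.symm)
  · obtain ⟨a, ha, e⟩ := trans0 (k⁻¹ p)
    obtain ⟨b, hb, e'⟩ := trans0 (k⁻¹ q)
    have := mem_cent.1 ((conj_cent hk).2 (mul_mem hb (inv_mem ha)))
    refine ⟨_, this.1, this.2, ?_⟩
    rw [Equiv.Perm.mul_apply, Equiv.Perm.mul_apply, Equiv.Perm.mul_apply, ← e]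
    simp [e']

end Cfsg.Agent.S5607
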