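import Mathlib
import Cfsg.Statements.S5608
import Cfsg.Agent.Lib.M24Geom.Six

set_option autoImplicit false
open scoped Pointwise
open Cfsg

namespace Cfsg.Agent.S5608

open H15 H55.Golay H96.Geo

theorem aux {c n : ℕ} {ch : H54.Chain}
    (a : H54.Good cfg24 pt ch (M24 ⊓ Subgroup.centralizer {permOf c}))
    (h : H54.allElts cfg24 (fun p => !(Nat.beq (H54.ordc cfg24 p) 2) || Nat.beq (wt (fixM p)) n) ch
      cfg24.one = true) {k s : Equiv.Perm GolayPt} (hk : k ∈ M24) (hs : s ∈ M24)
    (h₂ : orderOf s = 2) (hc : Commute (k * permOf c * k⁻¹) s) : (Fix s).card = n := by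
  obtain ⟨p, ok, e, hp⟩ := forall_elts a h (k⁻¹ * s * k⁻¹⁻¹)
    ⟨M24.mul_mem (M24.mul_mem (M24.inv_mem hk) hs) (M24.inv_mem (M24.inv_mem hk)),
      Subgroup.mem_centralizer_singleton_iff.2 (by
        have := hc.eq
        calc _ = k⁻¹ * (s * (k * permOf c * k⁻¹)) * k := by group
          _ = _ := by rw [← this]; group)⟩
  have h1 : H54.ordc cfg24 p = 2 := by
    rw [← orderOf_permOf ok, e, ← h₂]
    exact (MulAut.conj k⁻¹).orderOf_eq s
  simp only [h1, Nat.beq_refl, Bool.not_true, Bool.false_or, Nat.beq_eq] at hp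
  rw [← card_Fix_conj k⁻¹, ← e, card_Fix_permOf ok, hp]


/-- If an element of order 3 and an involution of the group of the length-24 code commute, then either the element of order 3 has exactly 6 fixed points and the involution exactly 8, or both are fixed-point-free. -/
theorem result (x s : Equiv.Perm Cfsg.GolayPt) (hx : x ∈ Cfsg.M24) (hs : s ∈ Cfsg.M24) (h₃ : orderOf x = 3) (h₂ : orderOf s = 2) (hc : Commute x s) : ((Finset.univ.filter fun p => x p = p).card = 6 ∧ (Finset.univ.filter fun p => s p = p).card = 8) ∨ ((Finset.univ.filter fun p => x p = p).card = 0 ∧ (Finset.univ.filter fun p => s p = p).card = 0) := by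
  rcases conj3 hx h₃ with ⟨h, k, hk, rfl⟩ | ⟨h, k, hk, rfl⟩
  · exact Or.inl ⟨h, aux M24.cent3A.1 (by decide +kernel) hk hs h₂ hc⟩
  · exact Or.inr ⟨h, aux M24.cent3B.1 (by decide +kernel) hk hs h₂ hc⟩

end Cfsg.Agent.S5608
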