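import Mathlib
import Cfsg.Statements.S5609
import Cfsg.Agent.Lib.M24Geom.Pairs

set_option autoImplicit false
open scoped Pointwise
open Cfsg

namespace Cfsg.Agent.S5609

open H15 H55.Golay H96.Geo

theorem adj_iff {a b : Finset GolayPt} (ha : a ∈ octads) (hb : b ∈ octads) :
    (blockGraph octads).Adj ⟨a, ha⟩ ⟨b, hb⟩ ↔ Disjoint a b := by
  rw [blockGraph, SimpleGraph.fromRel_adj]
  refine ⟨fun h => h.2.elim id fun h => h.symm, fun h => ⟨fun e => ?_, Or.inl h⟩⟩
  exact ne_of_disjoint (octad_nonempty ha) h (congrArg Subtype.val e)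

theorem disj_smul (g : Equiv.Perm GolayPt) {a b : Finset GolayPt} (h : Disjoint a b) :
    Disjoint (g • a) (g • b) := by
  rw [Finset.disjoint_iff_inter_eq_empty] at h ⊢
  rw [← smul_inter, h, Finset.smul_finset_empty]

theorem walk4 {a b : Finset GolayPt} (ha : a ∈ octads) (hb : b ∈ octads) (h : (a ∩ b).card = 4) :
    ∃ w : (blockGraph octads).Walk ⟨a, ha⟩ ⟨b, hb⟩, w.length = 2 := by
  obtain ⟨g, hg, rfl, rfl⟩ := code_pair_trans_oct oct0_mem ha
    (ofMask_mem_octads (m := 5279) (by decide +kernel)).1 hb.1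
    (by rw [hb.2, card_ofMask]; decide +kernel)
    (by rw [h, ← ofMask_land, card_ofMask]; decide +kernel)
  have hc := smul_mem_octads hg (ofMask_mem_octads (m := 4038912) (by decide +kernel))
  exact ⟨.cons ((adj_iff ha hc).2 (disj_smul g (disjoint_ofMask (by decide +kernel))))
    (.cons ((adj_iff hc hb).2 (disj_smul g (disjoint_ofMask (by decide +kernel)))) .nil), rfl⟩

theorem walk2 {a b : Finset GolayPt} (ha : a ∈ octads) (hb : b ∈ octads) (h : (a ∩ b).card = 2) :
    ∃ w : (blockGraph octads).Walk ⟨a, ha⟩ ⟨b, hb⟩, w.length = 3 := by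
  obtain ⟨g, hg, rfl, rfl⟩ := code_pair_trans_oct oct0_mem ha
    (ofMask_mem_octads (m := 15777) (by decide +kernel)).1 hb.1
    (by rw [hb.2, card_ofMask]; decide +kernel)
    (by rw [h, ← ofMask_land, card_ofMask]; decide +kernel)
  have hc := smul_mem_octads hg (ofMask_mem_octads (m := 337856) (by decide +kernel))
  have hd := smul_mem_octads hg (ofMask_mem_octads (m := 6832158) (by decide +kernel))
  exact ⟨.cons ((adj_iff ha hc).2 (disj_smul g (disjoint_ofMask (by decide +kernel))))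
    (.cons ((adj_iff hc hd).2 (disj_smul g (disjoint_ofMask (by decide +kernel))))
    (.cons ((adj_iff hd hb).2 (disj_smul g (disjoint_ofMask (by decide +kernel)))) .nil)), rfl⟩

theorem conn : (blockGraph octads).Connected := by
  have : Nonempty octads := ⟨⟨_, oct0_mem⟩⟩
  refine ⟨fun ⟨a, ha⟩ ⟨b, hb⟩ => ?_⟩
  by_cases e : a = b
  · subst e; exact SimpleGraph.Reachable.refl _
  rcases card_inter_octads ha hb e with h | h | h
  · exact ((adj_iff ha hb).2 (Finset.disjoint_iff_inter_eq_empty.2 (Finset.card_eq_zero.1 h))).reachable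
  · exact ⟨(walk2 ha hb h).choose⟩
  · exact ⟨(walk4 ha hb h).choose⟩

theorem no_common {a b c : Finset GolayPt} (ha : a ∈ octads) (hb : b ∈ octads) (hc : c ∈ octads)
    (h : (a ∩ b).card = 2) (h1 : Disjoint a c) (h2 : Disjoint c b) : False := by
  have e1 := card_symmDiff_add a b
  have e2 := card_symmDiff_add (symmDiff a b) c
  have e3 : symmDiff a b ∩ c = ∅ := by
    ext p
    have : p ∈ a → p ∉ c := fun h => Finset.disjoint_left.1 h1 h
    have : p ∈ c → p ∉ b := fun h => Finset.disjoint_left.1 h2 h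
    simp only [Finset.mem_inter, Finset.mem_symmDiff, Finset.notMem_empty]
    tauto
  have e4 := card_of_mem_codeSets (symmDiff_mem_codeSets (symmDiff_mem_codeSets ha.1 hb.1) hc.1)
  rw [e3, Finset.card_empty, hc.2] at e2
  rw [h, ha.2, hb.2] at e1
  omega


/-- In the graph on the 759 octads of the length-24 code in which two octads are adjacent when they are disjoint, the graph is connected (of diameter 3) and two distinct octads are at distance 1, 2 or 3 exactly when they meet in 0, 4 or 2 points respectively. -/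
theorem result (o o' : Finset Cfsg.GolayPt) (ho : o ∈ Cfsg.octads) (ho' : o' ∈ Cfsg.octads) (hne : o ≠ o') : (Cfsg.blockGraph Cfsg.octads).Connected ∧ ((Cfsg.blockGraph Cfsg.octads).dist ⟨o, ho⟩ ⟨o', ho'⟩ = 1 ↔ (o ∩ o').card = 0) ∧ ((Cfsg.blockGraph Cfsg.octads).dist ⟨o, ho⟩ ⟨o', ho'⟩ = 2 ↔ (o ∩ o').card = 4) ∧ ((Cfsg.blockGraph Cfsg.octads).dist ⟨o, ho⟩ ⟨o', ho'⟩ = 3 ↔ (o ∩ o').card = 2) := by
  have d0 : (blockGraph octads).dist ⟨o, ho⟩ ⟨o', ho'⟩ ≠ 0 := fun c =>
    hne (congrArg Subtype.val (conn.dist_eq_zero_iff.1 c))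
  have d1 : (blockGraph octads).dist ⟨o, ho⟩ ⟨o', ho'⟩ = 1 ↔ (o ∩ o').card = 0 := by
    rw [SimpleGraph.dist_eq_one_iff_adj, adj_iff, Finset.disjoint_iff_inter_eq_empty,
      Finset.card_eq_zero]
  have d4 : (o ∩ o').card = 4 → (blockGraph octads).dist ⟨o, ho⟩ ⟨o', ho'⟩ ≤ 2 := fun h => by
    obtain ⟨w, hw⟩ := walk4 ho ho' h
    exact hw ▸ SimpleGraph.dist_le w
  have d2 : (o ∩ o').card = 2 → (blockGraph octads).dist ⟨o, ho⟩ ⟨o', ho'⟩ ≤ 3 ∧
      (blockGraph octads).dist ⟨o, ho⟩ ⟨o', ho'⟩ ≠ 2 := fun h => by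
    obtain ⟨w, hw⟩ := walk2 ho ho' h
    refine ⟨hw ▸ SimpleGraph.dist_le w, fun c => ?_⟩
    obtain ⟨w, hw⟩ := conn.exists_walk_length_eq_dist ⟨o, ho⟩ ⟨o', ho'⟩
    rw [c] at hw
    have a1 := w.adj_getVert_succ (i := 0) (by omega)
    have a2 := w.adj_getVert_succ (i := 1) (by omega)
    rw [SimpleGraph.Walk.getVert_zero] at a1
    rw [show 1 + 1 = w.length by omega, SimpleGraph.Walk.getVert_length] at a2
    exact no_common ho ho' (w.getVert 1).2 h ((adj_iff _ _).1 a1) ((adj_iff _ _).1 a2)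
  have := card_inter_octads ho ho' hne
  refine ⟨conn, d1, ?_, ?_⟩ <;> omega

end Cfsg.Agent.S5609
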