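import Mathlib
import Cfsg.Statements.S5614
import Cfsg.Agent.Lib.M24Geom.Six

set_option autoImplicit false
open scoped Pointwise
open Cfsg

namespace Cfsg.Agent.S5614

open H15 H55.Golay H96.Geo


/-- In the group of the length-24 code, the joint stabiliser of two octads meeting in exactly two points is isomorphic to the symmetric group of degree 6. -/
theorem result (o o' : Finset Cfsg.GolayPt) (ho : o ∈ Cfsg.octads) (ho' : o' ∈ Cfsg.octads) (h₂ : (o ∩ o').card = 2) : Nonempty (↥(MulAction.stabilizer Cfsg.M24 o ⊓ MulAction.stabilizer Cfsg.M24 o') ≃* Equiv.Perm (Fin 6)) := by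
  have h6 : (o \ o').card = 6 := by
    have := Finset.card_sdiff_add_card_inter o o'
    rw [ho.2] at this
    omega
  refine equiv_perm_of_faithful (M24.subtype.comp (Subgroup.subtype _)) h6 (fun g => ?_) ?_
    fun g h => ?_
  · rw [smul_sdiff]
    exact congrArg₂ _ g.2.1 g.2.2
  · rw [card_stab_inf, (card_stab_two_octads ho ho').2.2 h₂]; rfl
  · have h1 := fix_octad_of_six g.1.2 ho Finset.sdiff_subset h6.ge h
    obtain ⟨k, hk, e1, e2⟩ := code_pair_trans_oct ho oct0_mem ho'.1
      (ofMask_mem_octads (m := 15777) (by decide +kernel)).1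
      (by rw [ho'.2, card_ofMask]; decide +kernel)
      (by rw [h₂, ← ofMask_land, card_ofMask]; decide +kernel)
    obtain ⟨c, hc, e⟩ := mem_fix_oct0_iff.1 (mem_fixSet.1 ((conj_mem_fixSet_iff hk e1 _).2
      (mem_fixSet.2 ⟨g.1.2, h1⟩)))
    have h2 := (conj_mem_St_iff e2 (g.1.1 : Equiv.Perm GolayPt)).2 g.2.2
    have ok := (L48_good c (L16_sub c hc)).1
    rw [← e, mem_St_set, permOf_smul ok] at h2
    have key : ∀ c ∈ L16, imgM c 15777 = 15777 → c = idP := by decide +kernel
    rw [key c hc (ofMask_inj (imgM_lt ok _) (by norm_num) h2), permOf_idP] at e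
    apply Subtype.ext
    apply Subtype.ext
    exact conj_eq_one_iff.1 e.symm

end Cfsg.Agent.S5614
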