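import Mathlib
import Cfsg.Statements.S5615
import Cfsg.Agent.Lib.M24Geom.Pairs

set_option autoImplicit false
open scoped Pointwise
open Cfsg

namespace Cfsg.Agent.S5615

open H15 H55.Golay H96.Geo

theorem fix_trios {g : Equiv.Perm GolayPt} (hg : g ∈ fixSet (ofMask oct0))
    {T : Finset (Finset GolayPt)} (hT : T ∈ trios) (ho : ofMask oct0 ∈ T) : g • T = T := by
  obtain ⟨c, hc, rfl⟩ := mem_fix_oct0_iff.1 (mem_fixSet.1 hg)
  have key : allLt2 23 33 (fun i => force (octT i) fun m => !(Nat.beq (Nat.land oct0 m) 0) ||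
      L16.all fun c => force (imgM c m) fun x => Nat.beq x m || Nat.beq x (third oct0 m)) = true := by
    decide +kernel
  have hg' := mem_fixSet.1 hg
  have ok := (L48_good c (L16_sub c hc)).1
  obtain ⟨a, ha, hne⟩ : ∃ a ∈ T, a ≠ ofMask oct0 := by
    by_contra h
    push Not at h
    have : T ⊆ {ofMask oct0} := fun a ha => Finset.mem_singleton.2 (h a ha)
    have := Finset.card_le_card this
    rw [hT.1, Finset.card_singleton] at this
    omega
  obtain ⟨i, hi, rfl⟩ := enum_oct.surj a (hT.2.1 a ha)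
  have h1 := allLt2_iff.1 key i hi
  have h2 : Nat.land oct0 (octT i) = 0 := by
    apply ofMask_inj (Nat.and_lt_two_pow _ (octT_lt hi)) (by norm_num)
    rw [ofMask_zero, ← Finset.disjoint_iff_inter_eq_empty.1 (hT.2.2 _ ho _ ha hne.symm)]
    exact ofMask_land _ _
  simp only [force_eq, h2, Nat.beq_refl, Bool.not_true, Bool.false_or, List.all_eq_true,
    Bool.or_eq_true, Nat.beq_eq] at h1
  have h3 : permOf c • ofMask oct0 = ofMask oct0 := smul_eq_of_fix hg'.2
  refine trio_eq_of_two (smul_mem_trios hg'.1 hT) hT (a := permOf c • ofMask oct0)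
    (b := permOf c • octD i) (fun e => hne.symm (MulAction.injective _ e))
    ((mem_smul_fam _ _ _).2 ho) ((mem_smul_fam _ _ _).2 ha) (h3.symm ▸ ho) ?_
  rw [octD, permOf_smul ok]
  rcases h1 c hc with e | e <;> rw [e]
  · exact ha
  · rw [trio_eq hT ho ha hne.symm, ofMask_third]
    simp [octD]

theorem fix_of_trios {g : Equiv.Perm GolayPt} (hg : g ∈ M24) (ho : g • ofMask oct0 = ofMask oct0)
    (h : ∀ T ∈ trios, ofMask oct0 ∈ T → g • T = T) : ∀ p ∈ ofMask oct0, g p = p := by
  have h4 : pt 4 ∉ ofMask oct0 := by decide +kernel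
  obtain ⟨n, hn, e⟩ := fixSet_octad_trans oct0_mem (p := g (pt 4)) (q := pt 4)
    (fun c => h4 ((apply_mem_of_smul_eq ho).1 c)) h4
  have hn' := mem_fixSet.1 hn
  have hk : n * g ∈ M24 := mul_mem hn'.1 hg
  have hko : (n * g) • ofMask oct0 = ofMask oct0 := by rw [mul_smul, ho, smul_eq_of_fix hn'.2]
  have key : ∀ a, isOctad a = true → Nat.land oct0 a = 0 → (n * g) • ofMask a = ofMask a := by
    intro a ha hd
    have hT := famL_trio (a := oct0) (b := a) (by decide +kernel) ha hd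
    have m0 : ofMask oct0 ∈ famL [oct0, a, third oct0 a] := mem_famL.2 ⟨_, by simp, rfl⟩
    have m1 : ofMask a ∈ famL [oct0, a, third oct0 a] := mem_famL.2 ⟨_, by simp, rfl⟩
    have e1 : (n * g) • famL [oct0, a, third oct0 a] = famL [oct0, a, third oct0 a] := by
      rw [mul_smul, h _ hT m0, fix_trios hn hT m0]
    have m2 : (n * g) • ofMask a ∈ famL [oct0, a, third oct0 a] := by
      rw [← e1]; exact (mem_smul_fam _ _ _).2 m1
    rw [famL_three, ofMask_third] at m2
    simp only [Finset.mem_insert, Finset.mem_singleton] at m2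
    rcases m2 with c | c | c
    · rw [← hko] at c
      exact absurd (MulAction.injective _ c).symm
        (ne_of_disjoint (octad_nonempty oct0_mem) (disjoint_ofMask hd))
    · exact c
    · exfalso
      have := apply_mem_of_smul_eq c (p := pt 4)
      rw [Equiv.Perm.mul_apply, e] at this
      simp only [Finset.mem_compl, Finset.mem_union, h4, false_or] at this
      tauto
  have sep : ∀ q r : GolayPt, q ∉ ofMask oct0 → r ∉ ofMask oct0 →
      (∀ a ∈ [337856, 628112, 1161408, 2141072], (q ∈ ofMask a ↔ r ∈ ofMask a)) → q = r := by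
    decide +kernel
  have all : ∀ q, q ∉ ofMask oct0 → (n * g) q = q := fun q hq =>
    sep _ _ (fun c => hq ((apply_mem_of_smul_eq hko).1 c)) hq fun a ha =>
      apply_mem_of_smul_eq (key a (by revert a; decide +kernel) (by revert a; decide +kernel))
  have one : n * g = 1 := by
    refine fixSet_octad_eq_one (o := ofMask 337856) (ofMask_mem_octads (by decide +kernel))
      (mem_fixSet.2 ⟨hk, fun p hp => all p ?_⟩) (p := pt 4) (by decide +kernel) (all _ h4)
    exact Finset.disjoint_right.1 (disjoint_ofMask (a := oct0) (by decide +kernel)) hp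
  intro p hp
  have : g = n⁻¹ := eq_inv_of_mul_eq_one_right one
  rw [this, Equiv.Perm.inv_eq_iff_eq, hn'.2 p hp]


/-- An octad of the length-24 code lies in exactly 15 trios; the stabiliser of the octad in the code's group acts doubly transitively on these 15 trios, and the kernel of this action is the pointwise stabiliser of the octad. -/
theorem result (o : Finset Cfsg.GolayPt) (ho : o ∈ Cfsg.octads) : {T : Finset (Finset Cfsg.GolayPt) | T ∈ Cfsg.trios ∧ o ∈ T}.ncard = 15 ∧ (∀ T₁ T₂ T₁' T₂' : Finset (Finset Cfsg.GolayPt), T₁ ∈ Cfsg.trios → T₂ ∈ Cfsg.trios → T₁' ∈ Cfsg.trios → T₂' ∈ Cfsg.trios → o ∈ T₁ → o ∈ T₂ → o ∈ T₁' → o ∈ T₂' → T₁ ≠ T₂ → T₁' ≠ T₂' → ∃ g ∈ Cfsg.M24, g • o = o ∧ g • T₁ = T₁' ∧ g • T₂ = T₂') ∧ ∀ g ∈ Cfsg.M24, g • o = o → ((∀ T ∈ Cfsg.trios, o ∈ T → g • T = T) ↔ ∀ p ∈ o, g p = p) := by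
  refine ⟨ncard_trios_through ho, fun T₁ T₂ T₁' T₂' h1 h2 h1' h2' a1 a2 a1' a2' n n' =>
    trio_pair_trans h1 h2 h1' h2' a1 a2 a1' a2' n n', fun g hg hgo => ?_⟩
  obtain ⟨k, hk, e⟩ := M24_trans_octads ho oct0_mem
  have hc : k * g * k⁻¹ ∈ M24 := mul_mem (mul_mem hk hg) (inv_mem hk)
  constructor
  · intro h
    refine (mem_fixSet.1 ((conj_mem_fixSet_iff hk e g).1 (mem_fixSet.2 ⟨hc, fix_of_trios hc
      ((conj_mem_St_iff e g).2 hgo) fun T hT hoT => ?_⟩))).2
    refine (conj_mem_St_iff (x := k⁻¹ • T) (smul_inv_smul k T) g).2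
      (h _ (smul_mem_trios (inv_mem hk) hT) ?_)
    rw [← mem_smul_fam k, smul_inv_smul, e]
    exact hoT
  · intro h T hT hoT
    exact (conj_mem_St_iff (x := T) rfl g).1 (fix_trios ((conj_mem_fixSet_iff hk e g).2
      (mem_fixSet.2 ⟨hg, h⟩)) (smul_mem_trios hk hT) (e ▸ (mem_smul_fam k _ _).2 hoT))

end Cfsg.Agent.S5615
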