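import Mathlib
import Cfsg.Statements.S5616
import Cfsg.Agent.Lib.M24Geom.Pairs

set_option autoImplicit false
open scoped Pointwise
open Cfsg

namespace Cfsg.Agent.S5616

open H15 H55.Golay H96.Geo

theorem phi_eq (Y : Finset GolayPt) (S : Finset (Finset GolayPt)) :
    Phi (fun n => min n 1) {Y} S = (S.filter fun t => (t ∩ Y).Nonempty).card := by
  rw [Phi, Finset.sum_singleton, Finset.card_filter]
  refine Finset.sum_congr rfl fun t _ => ?_
  rw [Finset.inter_comm]
  split_ifs with h
  · exact min_eq_right (Finset.card_pos.2 h)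
  · rw [Finset.not_nonempty_iff_eq_empty.1 h]; rfl

theorem tr : tree 23 77 stepS gen_three T_three_sex [(0, 1, 21), (2, 2, 630), (9, 3, 1120)] = true := by
  decide +kernel

theorem orbs0 : Orbs (famL [8388611]) sextets (Phi fun n => min n 1) [(1, 21), (2, 630), (3, 1120)] :=
  orbs_fam_sex _ [[147496, 268544, 1082880, 2621632, 4268048, 8388615], [43136, 147490, 1118272, 2097936, 4981760, 8388621], [294978, 589984, 1074176, 2097921, 4331520, 8388636]] tr good_three (by decide +kernel) (by decide +kernel)

theorem orbs {Y : Finset GolayPt} (hY : Y.card = 3) :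
    Orbs Y sextets (fun o X => Phi (fun n => min n 1) {o} X) [(1, 21), (2, 630), (3, 1120)] :=
  (famL_singleton 8388611 ▸ orbs0).singleton.of_eq
    (M24_trans_sets (by rw [card_ofMask]; decide +kernel) (by rw [card_ofMask, hY]; decide +kernel))


/-- Let Y be a set of 3 of the 24 points. The sextets of the length-24 code whose tetrads meeting Y number 1, 2 or 3 are respectively 21, 630 and 1120 in number, and two sextets with the same number of tetrads meeting Y are conjugate under the setwise stabiliser of Y in the code's group. -/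
theorem result (Y : Finset Cfsg.GolayPt) (hY : Y.card = 3) : {S : Finset (Finset Cfsg.GolayPt) | S ∈ Cfsg.sextets ∧ (S.filter fun t => (t ∩ Y).Nonempty).card = 1}.ncard = 21 ∧ {S : Finset (Finset Cfsg.GolayPt) | S ∈ Cfsg.sextets ∧ (S.filter fun t => (t ∩ Y).Nonempty).card = 2}.ncard = 630 ∧ {S : Finset (Finset Cfsg.GolayPt) | S ∈ Cfsg.sextets ∧ (S.filter fun t => (t ∩ Y).Nonempty).card = 3}.ncard = 1120 ∧ ∀ S S' : Finset (Finset Cfsg.GolayPt), S ∈ Cfsg.sextets → S' ∈ Cfsg.sextets → (S.filter fun t => (t ∩ Y).Nonempty).card = (S'.filter fun t => (t ∩ Y).Nonempty).card → ∃ g ∈ Cfsg.M24, g • Y = Y ∧ g • S = S' := by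
  have h := orbs hY
  simp only [← phi_eq]
  exact ⟨h.card (1, 21) (by simp), h.card (2, 630) (by simp), h.card (3, 1120) (by simp),
    fun S S' hS hS' e => h.trans S hS S' hS' e⟩

end Cfsg.Agent.S5616
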