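import Mathlib
import Cfsg.Statements.S5618
import Cfsg.Agent.Lib.M24Geom.Six

set_option autoImplicit false
open scoped Pointwise
open Cfsg

namespace Cfsg.Agent.S5618

open H15 H55.Golay H96.Geo


/-- For a dodecad d of the length-24 code and a hexad C on it (a 6-point intersection of d with an octad): the joint stabiliser of d and C in the code's group is isomorphic to the symmetric group of degree 6, and it acts faithfully both on the six points of C and on the six points of d outside C. -/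
theorem result (d : Finset Cfsg.GolayPt) (hd : d ∈ Cfsg.dodecads) (C : Finset Cfsg.GolayPt) (hC : C ∈ Cfsg.hexadsOn d) : Nonempty (↥(MulAction.stabilizer Cfsg.M24 d ⊓ MulAction.stabilizer Cfsg.M24 C) ≃* Equiv.Perm (Fin 6)) ∧ (∀ g ∈ MulAction.stabilizer Cfsg.M24 d ⊓ MulAction.stabilizer Cfsg.M24 C, (∀ p ∈ C, ((g : ↥Cfsg.M24) : Equiv.Perm Cfsg.GolayPt) p = p) → g = 1) ∧ ∀ g ∈ MulAction.stabilizer Cfsg.M24 d ⊓ MulAction.stabilizer Cfsg.M24 C, (∀ p ∈ d \ C, ((g : ↥Cfsg.M24) : Equiv.Perm Cfsg.GolayPt) p = p) → g = 1 := by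
  have hs := hexad_subset hC
  have f1 : ∀ g ∈ MulAction.stabilizer M24 d ⊓ MulAction.stabilizer M24 C,
      (∀ p ∈ C, ((g : M24) : Equiv.Perm GolayPt) p = p) → g = 1 := fun g hg h =>
    Subtype.ext (eq_one_of_fix_dodecad_set g.2 hd hg.1 hs (by rw [hC.1]; norm_num) h)
  refine ⟨equiv_perm_of_faithful (M24.subtype.comp (Subgroup.subtype _)) hC.1 (fun g => g.2.2) ?_
    fun g h => Subtype.ext (f1 g.1 g.2 h), f1, fun g hg h =>
    Subtype.ext (eq_one_of_fix_dodecad_set g.2 hd hg.1 Finset.sdiff_subset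
      (by rw [(hexad_compl hd hC).1]; norm_num) h)⟩
  obtain ⟨h6, o, ho, rfl⟩ := hC
  have e : M24 ⊓ St d ⊓ St (o ∩ d) = M24 ⊓ St d ⊓ St o := by
    ext g
    simp only [Subgroup.mem_inf, mem_St_set]
    refine and_congr_right fun hg => ⟨fun c => smul_octad_eq hg.1 ho Finset.inter_subset_left
      (by omega) c, fun c => by rw [smul_inter, c, hg.2]⟩
  have := (orbs_dod_code hd).card_stab ho.1 (n := 132)
    (by rw [sizeInv, Finset.inter_comm, h6, ho.2]; decide)
  rw [card_stab_dodecad hd] at this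
  rw [card_stab_inf, e, show Nat.factorial 6 = 720 from rfl]
  omega

end Cfsg.Agent.S5618
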