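import Mathlib
import Cfsg.Statements.S5620
import Cfsg.Agent.Lib.M24Geom.Six

set_option autoImplicit false
open scoped Pointwise
open Cfsg

namespace Cfsg.Agent.S5620

open H15 H55.Golay H96.Geo


/-- Inside the stabiliser of the dodecad of squares (a Mathieu group of degree 12), the stabiliser of the residue 0 (a point of the dodecad) and the stabiliser of the extra point (a point outside the dodecad) are isomorphic but not conjugate; conjugation by a suitable element of the code's group that maps the dodecad of squares onto its complement carries the first onto the second. -/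
theorem result : Nonempty (↥(Cfsg.Spor.M12 ⊓ MulAction.stabilizer (Equiv.Perm Cfsg.GolayPt) (none : Cfsg.GolayPt)) ≃* ↥Cfsg.Spor.M11) ∧ (¬ ∃ k ∈ Cfsg.Spor.M12, MulAut.conj k • Cfsg.Spor.M11 = Cfsg.Spor.M12 ⊓ MulAction.stabilizer (Equiv.Perm Cfsg.GolayPt) (none : Cfsg.GolayPt)) ∧ ∃ g ∈ Cfsg.M24, g • Cfsg.Spor.squareDodecad = Finset.univ \ Cfsg.Spor.squareDodecad ∧ MulAut.conj g • Cfsg.Spor.M11 = Cfsg.Spor.M12 ⊓ MulAction.stabilizer (Equiv.Perm Cfsg.GolayPt) (none : Cfsg.GolayPt) := by
  have hd := squareDodecad_mem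
  have hn : (none : GolayPt) ∉ Spor.squareDodecad := by rw [squareDodecad_eq]; decide +kernel
  obtain ⟨g, hg, e1, e2⟩ := M24_trans_dodecad_pt hd (compl_mem_dodecads hd) zero_mem_squareDodecad
    (Finset.mem_compl.2 hn)
  have key : ∀ x, x ∈ Spor.M11 ↔ g * x * g⁻¹ ∈ Spor.M12 ⊓ St (none : GolayPt) := by
    intro x
    rw [M11_eq, M12_eq]
    simp only [Subgroup.mem_inf, conj_mem_iff_of_mem hg]
    rw [conj_mem_St_iff (x := (some 0 : GolayPt)) e2, ← conj_mem_St_iff e1, mem_St_set, mem_St_set,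
      smul_compl, compl_inj_iff]
  refine ⟨⟨(conjEquiv g key).symm⟩, ?_, g, hg, by rw [e1, Finset.compl_eq_univ_sdiff], ?_⟩
  · rintro ⟨k, hk, e⟩
    have hk0 : k (some 0) ∈ Spor.squareDodecad :=
      (apply_mem_of_smul_eq hk.2).2 zero_mem_squareDodecad
    obtain ⟨u, hu, h⟩ := M11_trans3_compl hd hk0 ![pt 23, pt 5, pt 7] ![pt 5, pt 23, pt 7]
      (by decide) (by decide) (by rw [squareDodecad_eq]; decide +kernel)
      (by rw [squareDodecad_eq]; decide +kernel)
    have h1 : u ∈ MulAut.conj k • Spor.M11 := by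
      rw [Subgroup.mem_pointwise_smul_iff_inv_smul_mem]
      have h2 : (MulAut.conj k)⁻¹ • u = k⁻¹ * u * k⁻¹⁻¹ := by simp
      rw [h2, M11_eq, ← M12_eq, Subgroup.mem_inf, conj_mem_iff_of_mem (inv_mem hk),
        conj_mem_St_iff (x := k (some 0)) (by simp)]
      exact hu
    rw [e] at h1
    have h3 : u none = none := h1.2
    have h4 : u none = pt 5 := h 0
    rw [h3] at h4
    exact absurd h4 (by decide)
  · ext x
    rw [Subgroup.mem_pointwise_smul_iff_inv_smul_mem, key]
    simp [mul_assoc]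

end Cfsg.Agent.S5620
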