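import Mathlib
import Cfsg.Statements.S5625
import Cfsg.Agent.Lib.Spor55.Design

set_option autoImplicit false
open Cfsg

namespace Cfsg.Agent.S5625

open H55.Design


/-- In any Steiner system S(5, 8, 24) and for any set Y of three points, the blocks meeting Y in exactly 3, 2, 1 and 0 points number 21, 168, 360 and 210 respectively (so there are 759 blocks in all). -/
theorem result (α : Type*) [Fintype α] [DecidableEq α] (hα : Fintype.card α = 24) (B : Set (Finset α)) (hB : Cfsg.IsSteinerSystem 5 8 B) (Y : Finset α) (hY : Y.card = 3) : {b : Finset α | b ∈ B ∧ (b ∩ Y).card = 3}.ncard = 21 ∧ {b : Finset α | b ∈ B ∧ (b ∩ Y).card = 2}.ncard = 168 ∧ {b : Finset α | b ∈ B ∧ (b ∩ Y).card = 1}.ncard = 360 ∧ {b : Finset α | b ∈ B ∧ (b ∩ Y).card = 0}.ncard = 210 := by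
  have key : ∀ i m : ℕ, i ≤ 3 → tri lam24 (3 - i) i = (m : ℤ) →
      {b : Finset α | b ∈ B ∧ (b ∩ Y).card = i}.ncard = (3 : ℕ).choose i * m := by
    intro i m hi hm
    rw [← hY, ← ncard_inter_card B Y i m]
    · congr 1; ext b; simp only [Set.mem_ofPred_eq, Finset.inter_comm]
    · intro s hs hsi
      rw [exact_eq_cnt B Y s hs]
      have := cnt24_tri hα hB s (Y \ s) Finset.disjoint_sdiff
        (by rw [Finset.card_sdiff_of_subset hs]; omega)
      rw [Finset.card_sdiff_of_subset hs, hY, hsi, hm] at this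
      exact_mod_cast this
  exact ⟨key 3 21 (by norm_num) (by decide), key 2 56 (by norm_num) (by decide),
    key 1 120 (by norm_num) (by decide), key 0 210 (by norm_num) (by decide)⟩

end Cfsg.Agent.S5625
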