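import Mathlib
import Cfsg.Statements.S5626
import Cfsg.Agent.Lib.Spor96.Plane4Model

set_option autoImplicit false
open Cfsg

namespace Cfsg.Agent.S5626

open H96.Plane4 Finset


/-- Uniqueness of the projective plane of order 4: any two Steiner systems S(2, 5, 21) (21 points, lines of 5 points, two points on exactly one line) are isomorphic. -/
theorem result {α β : Type*} [Fintype α] [DecidableEq α] [Fintype β] [DecidableEq β] (hα : Fintype.card α = 21) (hβ : Fintype.card β = 21) {L : Set (Finset α)} {L' : Set (Finset β)} (hL : Cfsg.IsSteinerSystem 2 5 L) (hL' : Cfsg.IsSteinerSystem 2 5 L') : Cfsg.SetSystemIso L L' := by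
  obtain ⟨H, hH, hA⟩ := exists_hyperoval hα hL
  obtain ⟨H', hH', hA'⟩ := exists_hyperoval hβ hL'
  obtain ⟨h, hh⟩ := exists_enum hH
  obtain ⟨h', hh'⟩ := exists_enum hH'
  obtain ⟨e, -, he⟩ := exists_iso hα hL (h := fun i => ((1 : Equiv.Perm H) (h i) : α))
    (Subtype.val_injective.comp ((1 : Equiv.Perm H).injective.comp h.injective))
    (by rw [hh]; exact hA)
  obtain ⟨e', -, he'⟩ := exists_iso hβ hL' (h := fun i => ((1 : Equiv.Perm H') (h' i) : β))
    (Subtype.val_injective.comp ((1 : Equiv.Perm H').injective.comp h'.injective))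
    (by rw [hh']; exact hA')
  have key : ∀ n, ((mline n).image e).image (e.symm.trans e') = (mline n).image e' := by
    intro n
    rw [image_image]
    congr 1
    funext p
    simp
  refine ⟨e.symm.trans e', ?_⟩
  ext l
  simp only [Set.mem_image, he, he']
  constructor
  · rintro ⟨_, ⟨n, rfl⟩, rfl⟩
    exact ⟨n, key n⟩
  · rintro ⟨n, rfl⟩
    exact ⟨_, ⟨n, rfl⟩, key n⟩

end Cfsg.Agent.S5626
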