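import Mathlib
import Cfsg.Statements.S5628
import Cfsg.Agent.Lib.Spor96.Plane4Model

set_option autoImplicit false
open Cfsg

namespace Cfsg.Agent.S5628

open H96.Plane4 Finset
open scoped Pointwise

theorem image_mem {α : Type*} [DecidableEq α] {L : Set (Finset α)} {g : Equiv.Perm α}
    (hg : g ∈ Cfsg.setSystemAut L) {l : Finset α} (hl : l ∈ L) : l.image g ∈ L := by
  have : g • l ∈ g • L := Set.smul_mem_smul_set hl
  rwa [MulAction.mem_stabilizer_iff.mp hg] at this


/-- In a projective plane of order 4 (a Steiner system S(2, 5, 21)), every permutation of the six points of a hyperoval (a 6-set met by no line in more than two points) is the restriction of exactly one automorphism of the plane. In particular the stabiliser of a hyperoval in the automorphism group is isomorphic to the symmetric group of degree 6 acting faithfully on the hyperoval. -/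
theorem result {α : Type*} [Fintype α] [DecidableEq α] (hα : Fintype.card α = 21) (L : Set (Finset α)) (hL : Cfsg.IsSteinerSystem 2 5 L) (H : Finset α) (hH : (H.card = 6 ∧ ∀ l ∈ L, (l ∩ H).card ≤ 2)) (σ : Equiv.Perm ↥H) : ∃! g : Equiv.Perm α, g ∈ Cfsg.setSystemAut L ∧ ∀ p : ↥H, g p = σ p := by
  obtain ⟨h, hh⟩ := exists_enum hH.1
  have hinj : ∀ τ : Equiv.Perm H, Function.Injective fun i => (τ (h i) : α) := fun τ =>
    Subtype.val_injective.comp (τ.injective.comp h.injective)
  have harc : ∀ τ : Equiv.Perm H, Arc L (univ.image fun i => (τ (h i) : α)) := fun τ => by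
    rw [hh]; exact hH.2
  obtain ⟨e, he1, he⟩ := exists_iso hα hL (hinj 1) (harc 1)
  obtain ⟨e', he1', he'⟩ := exists_iso hα hL (hinj σ) (harc σ)
  have key : ∀ n, ((mline n).image e).image (e.symm.trans e') = (mline n).image e' := by
    intro n
    rw [image_image]
    congr 1
    funext p
    simp
  have hmem : (e.symm.trans e' : Equiv.Perm α) ∈ Cfsg.setSystemAut L := by
    rw [MulAction.mem_stabilizer_iff]
    ext l
    simp only [Set.mem_smul_set]
    constructor
    · rintro ⟨m, hm, rfl⟩
      obtain ⟨n, rfl⟩ := (he m).mp hm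
      exact (he' _).mpr ⟨n, key n⟩
    · intro hl
      obtain ⟨n, rfl⟩ := (he' l).mp hl
      exact ⟨_, (he _).mpr ⟨n, rfl⟩, key n⟩
  have hval : ∀ p : H, (e.symm.trans e' : Equiv.Perm α) p = σ p := by
    intro p
    obtain ⟨i, rfl⟩ := h.surjective p
    have : (h i : α) = e (Sum.inl i) := (he1 i).symm
    rw [this]
    simp [he1']
  refine ⟨e.symm.trans e', ⟨hmem, hval⟩, ?_⟩
  rintro g ⟨hg, hgv⟩
  have := eq_of_fix hα hL (hinj 1) (harc 1) ((e.symm.trans e' : Equiv.Perm α)⁻¹ * g)
    (fun l hl => image_mem (mul_mem (inv_mem hmem) hg) hl) (fun i => by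
      rw [Equiv.Perm.mul_apply, Equiv.Perm.inv_eq_iff_eq]
      exact (hgv _).trans (hval _).symm)
  exact (inv_mul_eq_one.mp this).symm

end Cfsg.Agent.S5628
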