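import Mathlib
import Cfsg.Statements.S5629
import Cfsg.Agent.Lib.J4L.Recog2
import Cfsg.Agent.Lib.J4L.Exists
-- import your own Cfsg.Agent.* helpers here

set_option autoImplicit false
set_option linter.style.haveILetI false
set_option linter.unusedVariables false
open Cfsg

namespace Cfsg.Agent.S5629

/-- Let G be a finite non-abelian simple group of Janko-four type (an involution z whose centralizer H has an extraspecial largest normal 2-subgroup E of order 2^13 containing its centralizer in H, a normal subgroup N ≥ E of H with N/E of order 3 and H/N the automorphism group of M₂₂, and a subgroup P ≤ N of order 3 with C_E(P) = ⟨z⟩, N_H(P) ≠ C_H(P) and P ≤ C_H(P)′), and let V be an elementary abelian subgroup of G of order 2^11. Then the normalizer of V has index 173067389 in G, and in the action of G on the cosets of this normalizer the normalizer itself has exactly seven orbits, of sizes 1, 15180, 28336, 3400320, 32643072, 54405120 and 82575360 (a rank-7 permutation representation). -/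
theorem result {G : Type*} [Group G] [Finite G] [IsSimpleGroup G] (hG : ¬ IsMulCommutative G) (z : G) (hJ : Cfsg.IsOfJankoFourTypeAt z) (V : Subgroup G) (hV : Cfsg.IsElementaryAbelian 2 V) (hcard : Nat.card ↥V = 2 ^ 11) : (Subgroup.normalizer (V : Set G)).index = 173067389 ∧ ∃ c : Fin 7 → G ⧸ Subgroup.normalizer (V : Set G), (∀ i j : Fin 7, i ≠ j → MulAction.orbit ↥(Subgroup.normalizer (V : Set G)) (c i) ≠ MulAction.orbit ↥(Subgroup.normalizer (V : Set G)) (c j)) ∧ (∀ q : G ⧸ Subgroup.normalizer (V : Set G), ∃ i : Fin 7, q ∈ MulAction.orbit ↥(Subgroup.normalizer (V : Set G)) (c i)) ∧ (List.ofFn fun i => (MulAction.orbit ↥(Subgroup.normalizer (V : Set G)) (c i)).ncard) = [1, 15180, 28336, 3400320, 32643072, 54405120, 82575360] := by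
  obtain ⟨P, h⟩ := hJ
  obtain ⟨m, rfl, -⟩ := H75.J4.exists_Md h
  obtain ⟨g, e⟩ := H75.J4.Md.conj_V (m := m) (fun x hx => by rw [← pow_two, hV.2 x hx]) hcard
  obtain ⟨f, M, ρ, t, D⟩ := H31.J4R.exists_dic m
  have : Subgroup.normalizer (V : Set G) = H66.J4.NJ.map (f.trans (MulAut.conj g).symm).toMonoidHom := by
    rw [show (f.trans (MulAut.conj g).symm).toMonoidHom = (MulAut.conj g).symm.toMonoidHom.comp f.toMonoidHom from rfl,
      ← Subgroup.map_map, D.nj, ← e, ← Subgroup.map_equiv_normalizer_eq, Subgroup.map_map]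
    simp
  rw [this]
  obtain ⟨φ, hφ⟩ := H31.J4R.exists_coset_equiv (f.trans (MulAut.conj g).symm) H66.J4.NJ
  have key : ∀ i : Fin 7, (MulAction.orbit (H66.J4.NJ.map (f.trans (MulAut.conj g).symm).toMonoidHom)
      (φ (H66.J4.TJ i : Spor.J4 ⧸ H66.J4.NJ))).ncard = H54.nth H66.J4.suborb i := fun i => by
    rw [hφ, Set.ncard_image_of_injective _ φ.injective]
    exact H66.J4.OJ_eq i i.2
  refine ⟨by rw [Subgroup.index_map_of_bijective (f.trans (MulAut.conj g).symm).bijective, H66.J4.index_NJ],
    fun i => φ (H66.J4.TJ i : Spor.J4 ⧸ H66.J4.NJ), fun i j hij e => hij ?_, fun q => ?_, ?_⟩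
  · have := key i
    rw [e, key j] at this
    exact (by decide +kernel : ∀ i j : Fin 7, H54.nth H66.J4.suborb j = H54.nth H66.J4.suborb i → i = j) i j this
  · obtain ⟨q, rfl⟩ := φ.surjective q
    obtain ⟨j, hj, h⟩ := H66.J4.OJ_cover q
    exact ⟨⟨j, hj⟩, by rw [hφ]; exact ⟨q, h, rfl⟩⟩
  · simp only [key]
    decide +kernel

end Cfsg.Agent.S5629
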