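import Cfsg.Statements.S5632
import Mathlib
import Cfsg.Agent.Lib.ClassMax.Linear

set_option autoImplicit false
open Cfsg

namespace Cfsg.Agent.S5632


/-- For a finite field F and subspaces 0 < W < U of F^n with dim W + dim U = n, the elements of SL_n(F) stabilising both W and U form a subgroup that is not maximal in SL_n(F): some subgroup lies strictly between it and SL_n(F). -/
theorem result {F : Type*} [Field F] [Fintype F] (n : ℕ) (W U : Submodule F (Fin n → F)) (hW0 : W ≠ ⊥) (hWU : W < U) (hdim : Module.finrank F W + Module.finrank F U = n) : ∃ K : Subgroup (Matrix.GeneralLinearGroup (Fin n) F), Cfsg.Geo.subspaceStabilizer W ⊓ Cfsg.Geo.subspaceStabilizer U ⊓ Cfsg.Geo.specialLinear (Fin n) F < K ∧ K < Cfsg.Geo.specialLinear (Fin n) F := by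
  rw [H97.subspaceStabilizer_eq, H97.subspaceStabilizer_eq, H97.specialLinear_eq, ← H97.pull_inf,
    ← H97.pull_inf]
  have hU1 : U ≠ ⊤ := by
    rintro rfl
    have h1 : Module.finrank F W ≠ 0 := fun h => hW0 (Submodule.finrank_eq_zero.1 h)
    simp at hdim
    exact h1 (by simp [hdim])
  refine H97.exists_between_pull (H97.exists_between_stab_stab hW0 (hWU.trans_le le_top).ne ?_)
  obtain ⟨u, hu, huW⟩ := SetLike.exists_of_lt hWU
  obtain ⟨x, -, hx⟩ := SetLike.exists_of_lt (lt_top_iff_ne_top.2 hU1)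
  have h2 : u ∉ W ⊔ F ∙ x := by
    intro h
    obtain ⟨w, hw, y, hy, e⟩ := Submodule.mem_sup.1 h
    obtain ⟨a, rfl⟩ := Submodule.mem_span_singleton.1 hy
    have ha : a ≠ 0 := by
      rintro rfl
      rw [zero_smul, add_zero] at e
      exact huW (e ▸ hw)
    apply hx
    rw [← U.smul_mem_iff ha, ← U.add_mem_iff_right (hWU.le hw), e]
    exact hu
  obtain ⟨φ, h3, h4, h5⟩ := H97.exists_dual_of_notMem_sup W h2 (1 : F)
  obtain ⟨g, hg, e⟩ := (H97.hasT_stab_of_ker h4 h3).elim
  refine ⟨g, hg, fun h => hx ?_⟩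
  have := (h u).1 hu
  rw [e, h5, one_smul] at this
  exact (U.add_mem_iff_right hu).1 this

end Cfsg.Agent.S5632
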