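import Cfsg.Statements.S5633
import Mathlib
import Cfsg.Agent.Lib.ClassMax.Linear

set_option autoImplicit false
open Cfsg

namespace Cfsg.Agent.S5633


/-- For a finite field F and complementary non-zero subspaces W ⊕ U = F^n with dim W < dim U, the elements of SL_n(F) stabilising both W and U form a subgroup that is not maximal in SL_n(F): some subgroup lies strictly between it and SL_n(F). -/
theorem result {F : Type*} [Field F] [Fintype F] (n : ℕ) (W U : Submodule F (Fin n → F)) (hW0 : W ≠ ⊥) (hWU : W ⊓ U = ⊥) (hWU' : W ⊔ U = ⊤) (hdim : Module.finrank F W < Module.finrank F U) : ∃ K : Subgroup (Matrix.GeneralLinearGroup (Fin n) F), Cfsg.Geo.subspaceStabilizer W ⊓ Cfsg.Geo.subspaceStabilizer U ⊓ Cfsg.Geo.specialLinear (Fin n) F < K ∧ K < Cfsg.Geo.specialLinear (Fin n) F := by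
  rw [H97.subspaceStabilizer_eq, H97.subspaceStabilizer_eq, H97.specialLinear_eq, ← H97.pull_inf,
    ← H97.pull_inf]
  have hU0 : U ≠ ⊥ := by
    rintro rfl
    simp at hdim
  have hW1 : W ≠ ⊤ := by
    rintro rfl
    exact hU0 (by simpa using hWU)
  refine H97.exists_between_pull (H97.exists_between_stab_stab hW0 hW1 ?_)
  obtain ⟨u, hu, hu0⟩ := Submodule.exists_mem_ne_zero_of_ne_bot hU0
  obtain ⟨w, hw, hw0⟩ := Submodule.exists_mem_ne_zero_of_ne_bot hW0
  have h2 : u ∉ W := fun h => hu0 ((Submodule.mem_bot F).1 (hWU ▸ Submodule.mem_inf.2 ⟨h, hu⟩))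
  obtain ⟨φ, h3, h5⟩ := H97.exists_dual_of_notMem W h2 (1 : F)
  obtain ⟨g, hg, e⟩ := (H97.hasT_stab_of_mem (h3 w hw) hw).elim
  refine ⟨g, hg, fun h => hw0 ?_⟩
  have := (h u).1 hu
  rw [e, h5, one_smul] at this
  exact (Submodule.mem_bot F).1 (hWU ▸ Submodule.mem_inf.2 ⟨hw, (U.add_mem_iff_right hu).1 this⟩)

end Cfsg.Agent.S5633
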