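import Cfsg.Statements.S5643
import Mathlib
import Cfsg.Agent.Lib.ClassMax.C8

set_option autoImplicit false
open Cfsg

namespace Cfsg.Agent.S5643


/-- For a finite field F and n ≥ 13, let σ be a field automorphism of F of order two and f a non-degenerate unitary form on F^n with respect to σ. Then the elements of SL_n(F) that are similarities of f form a maximal subgroup of SL_n(F). -/
theorem result {F : Type*} [Field F] [Fintype F] (n : ℕ) (hn : 13 ≤ n) (σ : F ≃+* F) (f : (Fin n → F) → (Fin n → F) → F) (hf : Cfsg.Geo.IsUnitaryForm σ f) : Cfsg.Geo.IsMaximalIn (Cfsg.Geo.specialLinear (Fin n) F) (Cfsg.Geo.similarityGroup f ⊓ Cfsg.Geo.specialLinear (Fin n) F) := by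
  rw [H97.similarityGroup_eq, H97.specialLinear_eq, ← H97.pull_inf]
  have hσ : ∀ a, (σ : F →+* F) ((σ : F →+* F) a) = a := hf.involutive
  have hne : (σ : F →+* F) ≠ RingHom.id F := fun h =>
    hf.ne_refl (RingEquiv.ext fun a => congrArg (fun g : F →+* F => g a) h)
  obtain ⟨c, hc⟩ := H28.exists_trace_one hne hσ
  let B : (Fin n → F) →ₛₗ[(σ : F →+* F)] (Fin n → F) →ₗ[F] F :=
    LinearMap.mk₂'ₛₗ (σ : F →+* F) (RingHom.id F) (fun x y => f y x)
      (fun x y z => by rw [hf.herm z, hf.add_left, map_add, ← hf.herm, ← hf.herm])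
      (fun a x z => by rw [hf.herm z, hf.smul_left, map_mul, ← hf.herm]; rfl)
      (fun x y z => hf.add_left y z x) (fun a x z => hf.smul_left a z x)
  have hS : ∀ x y, (σ : F →+* F) (B x y) = B y x := fun x y => (hf.herm x y).symm
  have hB : B.SeparatingLeft := H97.sep_of_nondeg fun v hv => (hf.nondegenerate v hv).symm
  have h1 : H97.simG (F := F) f = H97.simG fun x y => (H28.PQ.ofHerm hσ c hc B hS).B x y := by
    ext g
    exact ⟨fun ⟨a, ha⟩ => ⟨a, fun u v => ha v u⟩, fun ⟨a, ha⟩ => ⟨a, fun u v => ha v u⟩⟩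
  rw [h1]
  obtain ⟨a, ha⟩ : ∃ a, (σ : F →+* F) a ≠ a := by
    by_contra h
    push Not at h
    exact hne (RingHom.ext h)
  exact H97.isMaximalIn_pull ((H97.isoK_herm hne).isMaximalIn_simG hB (by simp; omega)
    ⟨a - (σ : F →+* F) a, H28.mem_traceZero.2 (by rw [map_sub, hσ]; ring),
      sub_ne_zero.2 (Ne.symm ha)⟩)

end Cfsg.Agent.S5643
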