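import Cfsg.Statements.S5644
import Mathlib
import Cfsg.Agent.Lib.ClassMax.C8

set_option autoImplicit false
open Cfsg

namespace Cfsg.Agent.S5644


/-- For a finite field F of odd order and n ≥ 13, let Q be a non-degenerate quadratic form on F^n (its polar form is non-degenerate). Then the elements of SL_n(F) that are similarities of Q (Q(gv) = c Q(v) for a non-zero scalar c depending on g) form a maximal subgroup of SL_n(F). -/
theorem result {F : Type*} [Field F] [Fintype F] (n : ℕ) (hn : 13 ≤ n) (hodd : Odd (Fintype.card F)) (Q : (Fin n → F) → F) (hQ : Cfsg.Geo.IsNondegenerateQuadraticForm Q) : Cfsg.Geo.IsMaximalIn (Cfsg.Geo.specialLinear (Fin n) F) (Cfsg.Geo.quadSimilarityGroup Q ⊓ Cfsg.Geo.specialLinear (Fin n) F) := by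
  obtain ⟨Q, rfl, hnd⟩ := H97.exists_quadForm hQ
  rw [H97.quadSimilarityGroup_eq, H97.specialLinear_eq, ← H97.pull_inf]
  exact H97.isMaximalIn_pull (H97.isMaximalIn_qsimG (H97.two_ne_zero_of_odd hodd) hnd
    (by simp; omega))

end Cfsg.Agent.S5644
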