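import Cfsg.Statements.S5651
import Mathlib
import Cfsg.Agent.Lib.Cliff.RowsOS

set_option autoImplicit false
open Cfsg

namespace Cfsg.Agent.S5651


/-- Let p be an odd prime, F the field with p elements, and m ≥ 7. Let R be a 2-subgroup of GL_2m(F) of exponent 4 in which every characteristic abelian subgroup is cyclic, of order 2^(1+2k) with centre of order 2 and with no elementary abelian subgroup of order 2^(k+1) (minus type), acting absolutely irreducibly on F^(2m) and consisting of isometries of the standard alternating form. Then the elements of Sp_2m(F) normalising R form a maximal subgroup of Sp_2m(F). -/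
theorem result {F : Type*} [Field F] [Fintype F] (m : ℕ) (hm : 7 ≤ m) (p k : ℕ) (hp : p.Prime) (hpo : Odd p) (hF : Fintype.card F = p) (R : Subgroup (Matrix.GeneralLinearGroup (Fin m ⊕ Fin m) F)) (hR : Cfsg.Geo.IsSymplecticTypeGroup 2 R) (hirr : Cfsg.Geo.ActsAbsolutelyIrreducibly (Cfsg.Geo.matrixSet R)) (hRD : R ≤ Cfsg.spGL m F) (hcard : Nat.card R = 2 ^ (1 + 2 * k)) (hZ : Nat.card (Subgroup.center R) = 2) (hminus : Cfsg.Geo.IsOfMinusType k R) : Cfsg.Geo.IsMaximalIn (Cfsg.spGL m F) (Cfsg.Geo.subgroupNormalizer R ⊓ Cfsg.spGL m F) := by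
  exact H97c.sp_c6 (by omega) hp hpo hF hR hirr hRD hcard hZ hminus

end Cfsg.Agent.S5651
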