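import Cfsg.Statements.S5652
import Mathlib
import Cfsg.Agent.Lib.ClassMax.C8

set_option autoImplicit false
open Cfsg

namespace Cfsg.Agent.S5652


/-- For a finite field F of characteristic two and m ≥ 7, let Q be a non-degenerate quadratic form on F^(2m) whose polar form is the standard alternating form. Then the elements of Sp_2m(F) that are similarities of Q (they are exactly the isometries of Q) form a maximal subgroup of Sp_2m(F). -/
theorem result {F : Type*} [Field F] [Fintype F] (m : ℕ) (hm : 7 ≤ m) (heven : ¬ Odd (Fintype.card F)) (Q : (Fin m ⊕ Fin m → F) → F) (hQ : Cfsg.Geo.IsNondegenerateQuadraticForm Q) (hpol : ∀ u v, QuadraticMap.polar Q u v = Cfsg.sympForm m F u v) : Cfsg.Geo.IsMaximalIn (Cfsg.spGL m F) (Cfsg.Geo.quadSimilarityGroup Q ⊓ Cfsg.spGL m F) := by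
  obtain ⟨Q, rfl, hnd⟩ := H97.exists_quadForm hQ
  have h2 := H97.two_eq_zero_of_not_odd heven
  have h1 : (H97.spP m F).Isom =
      (H28.PQ.ofAlt (QuadraticMap.polarBilin Q) (H97.polar_alt h2)).Isom := by
    ext g
    refine H28.PQ.mem_isom_ofAlt.trans (Iff.trans ?_ H28.PQ.mem_isom_ofAlt.symm)
    simp only [QuadraticMap.polarBilin_apply_apply, hpol, H11.Sp.bilin_apply]
  have hn := H97.finrank_sp (F := F) m
  have h3 : H97.qsimG Q ⊓ (H28.PQ.ofAlt (QuadraticMap.polarBilin Q) (H97.polar_alt h2)).Isom =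
      (H28.PQ.ofQuad Q).Isom := by
    ext g
    constructor
    · rintro ⟨hg, hg'⟩
      obtain ⟨c, -, hc⟩ := H97.mem_qsimG.1 hg
      obtain ⟨e, f, -, -, hef, -, -⟩ := (H97.isoK_quad Q).pair1 hnd (by omega) 0
      have h4 : QuadraticMap.polar Q (g e) (g f) = QuadraticMap.polar Q e f := hg'.1 e f
      have h5 : QuadraticMap.polar Q (g e) (g f) = c * QuadraticMap.polar Q e f := by
        simp only [QuadraticMap.polar, ← map_add, hc]; ring
      rw [h4, show QuadraticMap.polar Q e f = 1 from hef, mul_one] at h5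
      exact H28.PQ.mem_isom_ofQuad.2 fun x => by rw [hc, ← h5, one_mul]
    · exact fun hg => ⟨H97.mem_qsimG.2 ⟨1, one_ne_zero, fun x => by
        rw [H28.PQ.mem_isom_ofQuad.1 hg, one_mul]⟩, H28.PQ.mem_isom_ofAlt.2 hg.1⟩
  rw [H97.quadSimilarityGroup_eq, H97.spGL_eq', ← H97.pull_inf, h1, h3]
  exact H97.isMaximalIn_pull (H97.isMaximalIn_O_Sp h2 hnd (by omega))

end Cfsg.Agent.S5652
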