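import Cfsg.Statements.S5662
import Mathlib
import Cfsg.Agent.Lib.AschF.SpMain

set_option autoImplicit false
open Cfsg

namespace Cfsg.Agent.S5662

open H28.AF H10.Asch Cfsg.Geo in

/-- Subgroup structure of the finite symplectic groups. Let F be a finite field and m ≥ 2 with (m, |F|) ≠ (2, 2), and let Sp_2m(F) be the group of invertible matrices preserving the standard alternating form on F^(2m). Let H be a subgroup of Sp_2m(F) whose product with the scalar matrices ±1 is not all of Sp_2m(F) (H does not cover PSp_2m(F)). Then either H is contained in a member of one of the eight geometric classes of subgroups of Sp_2m(F) (with the conditions built into InSymplecticClass), or H is in the residual class: modulo scalars it is almost simple, and the perfect preimage of its socle acts absolutely irreducibly, is realisable over no proper subfield, and fixes no non-degenerate quadratic form and no non-degenerate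 unitary form on F^(2m). -/
theorem result {F : Type*} [Field F] [Fintype F] (m : ℕ) (hm : 2 ≤ m) (hex : ¬ (m = 2 ∧ Fintype.card F = 2)) (H : Subgroup (Matrix.GeneralLinearGroup (Fin m ⊕ Fin m) F)) (hH : H ≤ Cfsg.spGL m F) (hproper : H ⊔ (Cfsg.Geo.scalars (Fin m ⊕ Fin m) F ⊓ Cfsg.spGL m F) ≠ Cfsg.spGL m F) : (∃ M : Subgroup (Matrix.GeneralLinearGroup (Fin m ⊕ Fin m) F), Cfsg.Geo.InSymplecticClass m F M ∧ H ≤ M) ∨ Cfsg.Geo.InSymplecticResidualClass H := by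
  have hc : Fintype.card (Fin m ⊕ Fin m) = 2 * m := by simp [two_mul]
  rcases spSF_cases (by omega) hH with ⟨W, a, b, c⟩ | ⟨W, a, b, c, d⟩ | ⟨t, k, D, a, b⟩ |
    ⟨h2, k, D, a, b, c, d⟩ | ⟨r, K, a, -, b, c, d, e⟩ | ⟨h2, K, a, b, c, d⟩ |
    ⟨h2, -, -, n₁, n₂, e, P, S₁, S₂, -, a, -, T, b, c⟩ | ⟨F₀, r, P, ζ, a, b, c, d, e⟩ |
    ⟨R, p, k, a, b, c, d, e, f, g, h, i, j, -⟩ | ⟨h2, k, t, e, P, T, a, b, -, c, W, d⟩ |
    ⟨h2, Q, a, b⟩ | h
  · exact Or.inl ⟨_, Or.inl (Or.inl ⟨W, a, b, rfl⟩), le_inf c hH⟩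
  · exact Or.inl ⟨_, Or.inl (Or.inr (Or.inl ⟨W, a, b, by omega, rfl⟩)), le_inf d hH⟩
  · exact Or.inl ⟨_, Or.inl (Or.inr (Or.inr (Or.inl ⟨t, k, D, a, rfl⟩))), le_inf b hH⟩
  · obtain rfl : k = m := by omega
    exact Or.inl ⟨_, Or.inl (Or.inr (Or.inr (Or.inr (Or.inl
      ⟨D, two_ne_zero_iff_odd_card.1 h2, b, c, rfl⟩)))), le_inf d hH⟩
  · exact Or.inl ⟨_, Or.inr (Or.inl ⟨r, K, a, b, c, d, rfl⟩), le_inf e hH⟩
  · exact Or.inl ⟨_, Or.inr (Or.inr (Or.inl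
      ⟨K, two_ne_zero_iff_odd_card.1 h2, a, b, c, rfl⟩)), le_inf d hH⟩
  · have h1 : ∀ a, S₁.σ a = a := by rw [T.σ₁]; exact fun _ => rfl
    exact Or.inl ⟨_, Or.inr (Or.inr (Or.inr (Or.inl ⟨n₁, n₂, e, P, S₁.f, S₂.f,
      two_ne_zero_iff_odd_card.1 h2, a, S₁.isSymplecticForm h1 (S₁.ε_eq_neg_one_alt h2 h1 b),
      S₂.isSymmetricForm (by rw [T.σ₂]; exact fun _ => rfl) c, T.isTensorFormStructure, rfl⟩))),
      le_inf T.le_tensor hH⟩
  · exact Or.inl ⟨_, Or.inl (Or.inr (Or.inr (Or.inr (Or.inr (Or.inl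
      ⟨F₀, r, P, ζ, a, b, c, d, rfl⟩))))), le_inf e hH⟩
  · exact Or.inl ⟨_, Or.inl (Or.inr (Or.inr (Or.inr (Or.inr (Or.inr (Or.inl
      ⟨R, p, k, a, b, c, d, e, f, g, h, i, rfl⟩)))))), le_inf j hH⟩
  · have h1 : ∀ a, T.σ a = a := by rw [W.σ ⟨0, by omega⟩]; exact fun _ => rfl
    exact Or.inl ⟨_, Or.inr (Or.inr (Or.inr (Or.inr ⟨k, t, e, P, T.f,
      two_ne_zero_iff_odd_card.1 h2, a, b, c, T.isSymplecticForm h1 (T.ε_eq_neg_one_alt h2 h1 d),
      W.isTensorPower, rfl⟩))), le_inf W.le hH⟩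
  · exact Or.inl ⟨_, Or.inl (Or.inr (Or.inr (Or.inr (Or.inr (Or.inr (Or.inr
      ⟨Q, fun h => two_ne_zero_iff_odd_card.2 h h2, a.nondeg fun _ => rfl, a.polar, rfl⟩)))))),
      le_inf b.le hH⟩
  · exact Or.inr h

end Cfsg.Agent.S5662
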