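import Cfsg.Statements.S5663
import Mathlib
import Cfsg.Agent.Lib.AschF.UMain

set_option autoImplicit false
open Cfsg

namespace Cfsg.Agent.S5663

open H28.AF H10.Asch Cfsg.Geo in

/-- Subgroup structure of the finite unitary groups. Let F be the field with q² elements and n ≥ 3 with (n, q) ≠ (3, 2), and let SU_n(q) be the group of matrices of determinant one preserving the standard unitary form Σ u_i v_i^q on F^n. Let H be a subgroup of SU_n(q) whose product with the scalar matrices in SU_n(q) is not all of SU_n(q) (H does not cover PSU_n(q)). Then either H is contained in a member of one of the geometric classes of subgroups of the unitary group GU_n(q) (with the conditions built into InUnitaryClass), or H is in the residual class: modulo scalars it is almost simple, and the perfect preimage of its socle acts absolutely irreducibly, is realisable over no proper subfield of F, and fixes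 no non-degenerate quadratic form and no non-degenerate symplectic form on F^n. -/
theorem result {F : Type*} [Field F] [Fintype F] (n q : ℕ) (hF : Fintype.card F = q ^ 2) (hn : 3 ≤ n) (hex : ¬ (n = 3 ∧ q = 2)) (H : Subgroup (Matrix.GeneralLinearGroup (Fin n) F)) (hH : H ≤ (Cfsg.GU n F q ⊓ Cfsg.Geo.specialLinear (Fin n) F)) (hproper : H ⊔ (Cfsg.Geo.scalars (Fin n) F ⊓ (Cfsg.GU n F q ⊓ Cfsg.Geo.specialLinear (Fin n) F)) ≠ (Cfsg.GU n F q ⊓ Cfsg.Geo.specialLinear (Fin n) F)) : (∃ M : Subgroup (Matrix.GeneralLinearGroup (Fin n) F), Cfsg.Geo.InUnitaryClass n F q M ∧ H ≤ M) ∨ Cfsg.Geo.InUnitaryResidualClass H := by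
  obtain ⟨S, hσ, hε, -, hf, hI⟩ := exists_uSF n hF
  have : Nontrivial (Fin n) := Fin.nontrivial_iff_two_le.2 (by omega)
  have hH' : H ≤ GU n F q := hH.trans inf_le_left
  have key := S.u_main hF hσ hε (hI ▸ hH')
  simp only [SF.UCases, SF.C1t, SF.C1n, SF.C2n, SF.C2t, SF.UC3, SF.UC4, SF.USub, SF.UC6, SF.UC7, hf,
    Fintype.card_fin] at key
  rcases key with ⟨W, a, b, c⟩ | ⟨W, a, b, c, d⟩ | ⟨t, k, D, a, b⟩ | ⟨k, D, a, b, c, d⟩ |
    ⟨r, K, a, b, c, d, e⟩ | ⟨n₁, n₂, e, P, f₁, f₂, a, b, -, c, d, g, h⟩ |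
    (⟨F₀, r, P, a, b, c, d, e⟩ | ⟨F₀, P, a, b, c, d⟩ | ⟨F₀, P, ζ, a, b, c, d, e, g, h⟩) |
    ⟨r, R, p, e, k, a, b, c, d, g, h, i, -⟩ | ⟨k, t, e, P, f₁, a, b, c, d, g, h⟩ | h
  · exact Or.inl ⟨_, Or.inl (Or.inl ⟨W, a, b, rfl⟩), le_inf c hH'⟩
  · exact Or.inl ⟨_, Or.inl (Or.inr (Or.inl ⟨W, a, b, c, rfl⟩)), le_inf d hH'⟩
  · exact Or.inl ⟨_, Or.inl (Or.inr (Or.inr (Or.inl ⟨t, k, D, a, rfl⟩))), le_inf b hH'⟩
  · exact Or.inl ⟨_, Or.inl (Or.inr (Or.inr (Or.inr (Or.inl ⟨k, D, a, b, c, rfl⟩)))), le_inf d hH'⟩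
  · exact Or.inl ⟨_, Or.inr (Or.inl ⟨r, K, a, b, c, d, rfl⟩), le_inf e hH'⟩
  · exact Or.inl ⟨_, Or.inr (Or.inr (Or.inl ⟨n₁, n₂, e, P, f₁, f₂, a, b, c, d, g, rfl⟩)),
      le_inf h hH'⟩
  · exact Or.inl ⟨_, Or.inl (Or.inr (Or.inr (Or.inr (Or.inr (Or.inl
      ⟨F₀, r, P, a, b, c, d, rfl⟩))))), le_inf e hH'⟩
  · exact Or.inl ⟨_, Or.inl (Or.inr (Or.inr (Or.inr (Or.inr (Or.inr (Or.inl
      ⟨F₀, P, a, b, c, rfl⟩)))))), le_inf d hH'⟩
  · exact Or.inl ⟨_, Or.inl (Or.inr (Or.inr (Or.inr (Or.inr (Or.inr (Or.inr (Or.inl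
      ⟨F₀, P, ζ, a, b, c, d, e, g, rfl⟩))))))), le_inf h hH'⟩
  · exact Or.inl ⟨_, Or.inl (Or.inr (Or.inr (Or.inr (Or.inr (Or.inr (Or.inr (Or.inr
      ⟨r, R, p, e, k, a, b, c, d, g, h, rfl⟩))))))), le_inf i hH'⟩
  · exact Or.inl ⟨_, Or.inr (Or.inr (Or.inr ⟨k, t, e, P, f₁, a, b, c, d, g, rfl⟩)), le_inf h hH'⟩
  · exact Or.inr h

end Cfsg.Agent.S5663
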