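import Mathlib
import Cfsg.Statements.S5673
import Cfsg.Agent.Lib.Orth12.Asch7

set_option autoImplicit false
open Cfsg

namespace Cfsg.Agent.S5673

open Matrix Cfsg.Geo H10.Asch H28.AF H12.A Module QuadraticMap

/-- Subgroup structure of the odd-dimensional orthogonal groups. Let F be a finite field of odd order and m ≥ 3, let Q be the standard quadratic form x₀² + Σ x_i y_i on F^(2m+1), and let Ω be the commutator subgroup of its isometry group, viewed inside GL_(2m+1)(F). Let H be a subgroup of Ω whose product with the scalar matrices in Ω is not all of Ω. Then either H is contained in a member of one of the geometric classes of subgroups of the isometry group (with the conditions built into InOrthogonalOddClass), or H is in the residual class: modulo scalars it is almost simple, and the perfect preimage of its socle acts absolutely irreducibly, is realisable over no proper subfield, and fixes no non-degenerate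 unitary form. -/
theorem result {F : Type*} [Field F] [Fintype F] (hodd : Odd (Fintype.card F)) (m : ℕ) (hm : 3 ≤ m) (H : Subgroup (Matrix.GeneralLinearGroup (Unit ⊕ (Fin m ⊕ Fin m)) F)) (hH : H ≤ Cfsg.Geo.omegaGL (Cfsg.quadFormOdd m F)) (hproper : H ⊔ (Cfsg.Geo.scalars (Unit ⊕ (Fin m ⊕ Fin m)) F ⊓ Cfsg.Geo.omegaGL (Cfsg.quadFormOdd m F)) ≠ Cfsg.Geo.omegaGL (Cfsg.quadFormOdd m F)) : (∃ M : Subgroup (Matrix.GeneralLinearGroup (Unit ⊕ (Fin m ⊕ Fin m)) F), Cfsg.Geo.InOrthogonalOddClass m F M ∧ H ≤ M) ∨ Cfsg.Geo.InOrthogonalResidualClass H := by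
  have h2 := odd_card_iff.1 hodd
  obtain ⟨Q, S, hQ, h, hd⟩ := exists_oq_odd h2 m
  have hn : Fintype.card (Unit ⊕ (Fin m ⊕ Fin m)) = 2 * m + 1 := by simp; ring
  have ho : Odd (Fintype.card (Unit ⊕ (Fin m ⊕ Fin m))) := ⟨m, hn⟩
  have hI := hH.trans (omegaGL_le _)
  unfold InOrthogonalOddClass
  rw [← hQ] at hH hI ⊢
  rcases h.odd_cases hH ho (by omega) with ⟨W, a, b, c⟩ | ⟨W, h0, h1, a, b, c, d⟩ | ⟨t, k, D, hD⟩ |
    ⟨r, K, hK, a, b⟩ | ⟨n₁, n₂, e, P, S₁, S₂, a, b, c, T⟩ | h1 | ⟨k, t, e, P, T, a, b, c, d, W⟩ | h1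
  · exact Or.inl ⟨_, Or.inl ⟨W, a, b, rfl⟩, le_inf c.le hI⟩
  · exact Or.inl ⟨_, Or.inr (Or.inl ⟨W, h0, h1, b, rfl⟩), le_inf d.le hI⟩
  · by_cases hk : k = 1
    · subst hk
      exact Or.inl ⟨_, Or.inr (Or.inr (Or.inr (Or.inl ⟨t, D, hD.one rfl, hD.dec, rfl⟩))),
        le_inf hD.le hI⟩
    · have := hD.dec.decomp.decomp.pos
      exact Or.inl ⟨_, Or.inr (Or.inr (Or.inl ⟨t, k, D, by omega, hD.dec, rfl⟩)), le_inf hD.le hI⟩
  · exact Or.inl ⟨_, Or.inr (Or.inr (Or.inr (Or.inr (Or.inl ⟨r, K, hK.prime, hn ▸ a, hK.field, b,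
      rfl⟩)))), le_inf hK.nrm.le_subalgebraNormalizer hI⟩
  · exact Or.inl ⟨_, Or.inr (Or.inr (Or.inr (Or.inr (Or.inr (Or.inl ⟨n₁, n₂, e, P, S₁.f, S₂.f, a, b,
      S₁.isSymmetricForm (h.σ₁ T) c.2.1, S₂.isSymmetricForm (h.σ₂ T) c.2.2, h.tensorForm T,
      rfl⟩))))), le_inf T.le_tensor hI⟩
  · obtain ⟨F₀, r, P, a, b, c, d⟩ := h.sub_odd ho hd h1
    exact Or.inl ⟨_, Or.inr (Or.inr (Or.inr (Or.inr (Or.inr (Or.inr (Or.inl
      ⟨F₀, r, P, a, b, c, rfl⟩)))))), le_inf d hI⟩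
  · exact Or.inl ⟨_, Or.inr (Or.inr (Or.inr (Or.inr (Or.inr (Or.inr (Or.inr
      ⟨k, t, e, P, T.f, a, b, c, T.isSymmetricForm (by rw [W.σ ⟨0, by omega⟩]; exact h.hσ) d,
      h.powerForm W, rfl⟩)))))), le_inf W.le hI⟩
  · exact Or.inr h1

end Cfsg.Agent.S5673
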