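import Cfsg.Statements.S5674
import Mathlib
import Cfsg.Agent.Lib.ClassMax.Orth

set_option autoImplicit false
open Cfsg

namespace Cfsg.Agent.S5674


/-- Let F be a finite field of odd order, m ≥ 6, Q the standard quadratic form x₀² + Σ x_i y_i on F^(2m+1) and Ω the commutator subgroup of its isometry group inside GL_(2m+1)(F). The elements of Ω stabilising a non-zero subspace on which Q vanishes form a maximal subgroup of Ω. -/
theorem result {F : Type*} [Field F] [Fintype F] (hodd : Odd (Fintype.card F)) (m : ℕ) (hm : 6 ≤ m) (W : Submodule F (Unit ⊕ (Fin m ⊕ Fin m) → F)) (hW0 : W ≠ ⊥) (hW : Cfsg.Geo.IsTotallySingularQuad (Cfsg.quadFormOdd m F) W) : Cfsg.Geo.IsMaximalIn (Cfsg.Geo.omegaGL (Cfsg.quadFormOdd m F)) (Cfsg.Geo.subspaceStabilizer W ⊓ Cfsg.Geo.omegaGL (Cfsg.quadFormOdd m F)) := by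
  obtain ⟨Q, hQ, hnd⟩ := H97.exists_quadForm_odd hodd m
  rw [hQ] at hW ⊢
  have hn : Module.finrank F (Unit ⊕ (Fin m ⊕ Fin m) → F) = 2 * m + 1 := by simp; omega
  rw [H97.omegaGL_eq hnd (by simp; omega), H97.subspaceStabilizer_eq, ← H97.pull_inf]
  refine H97.isMaximalIn_pull ((H97.isoK_quad Q).isMaximalIn_totSing hnd
    (by omega) hW0 hW (H97.polar_eq_zero_of_ts hW) (Or.inr fun y hy hy' hq => ?_))
  have := H97.two_mul_succ_le hnd hW hq hy hy'
  omega

end Cfsg.Agent.S5674
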