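import Cfsg.Statements.S5675
import Mathlib
import Cfsg.Agent.Lib.ClassMax.Orth

set_option autoImplicit false
open Cfsg

namespace Cfsg.Agent.S5675


/-- Let F be a finite field of odd order q, m ≥ 6, Q the standard quadratic form on F^(2m+1) and Ω the commutator subgroup of its isometry group. Let W be a non-zero subspace of even dimension on which the polar form of Q is non-degenerate; exclude the case q = 3, dim W = 2 with Q vanishing on some line of W (a plus-type plane). Then the elements of Ω stabilising W (equivalently, stabilising its orthogonal complement, of odd dimension) form a maximal subgroup of Ω. -/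
theorem result {F : Type*} [Field F] [Fintype F] (hodd : Odd (Fintype.card F)) (m : ℕ) (hm : 6 ≤ m) (W : Submodule F (Unit ⊕ (Fin m ⊕ Fin m) → F)) (hW0 : W ≠ ⊥) (hev : Even (Module.finrank F W)) (hW : Cfsg.Geo.IsNondegenerateOn (QuadraticMap.polar (Cfsg.quadFormOdd m F)) W) (hex : ¬ (Fintype.card F = 3 ∧ Module.finrank F W = 2 ∧ Cfsg.Geo.IsPlusTypeOn (Cfsg.quadFormOdd m F) W)) : Cfsg.Geo.IsMaximalIn (Cfsg.Geo.omegaGL (Cfsg.quadFormOdd m F)) (Cfsg.Geo.subspaceStabilizer W ⊓ Cfsg.Geo.omegaGL (Cfsg.quadFormOdd m F)) := by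
  obtain ⟨Q, hQ, hnd⟩ := H97.exists_quadForm_odd hodd m
  rw [hQ] at hW hex ⊢
  have hn : Module.finrank F (Unit ⊕ (Fin m ⊕ Fin m) → F) = 2 * m + 1 := by simp; omega
  rw [H97.omegaGL_eq hnd (by simp; omega), H97.subspaceStabilizer_eq, ← H97.pull_inf]
  rw [H97.nondegOn_quad] at hW
  have h1 := H97.finrank_perp (P := H28.PQ.ofQuad Q) hnd W
  rw [Nat.even_iff] at hev
  refine H97.isMaximalIn_pull ((H97.isoK_quad Q).isMaximalIn_nondeg' hnd (by omega) hW hW0 ?_
    (fun _ => (H97.irr_or_plus hnd hW).resolve_right fun ⟨h2, h3, h4⟩ => hex ⟨?_, h3, h4⟩)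
    (fun _ => H97.irr_of_finrank_ne hnd (H97.perp_nondeg hnd hW) (by omega))
    (fun h => by omega))
  · rintro rfl
    rw [finrank_top] at hev
    omega
  · have := Fintype.one_lt_card (α := F)
    rw [Nat.odd_iff] at hodd
    omega

end Cfsg.Agent.S5675
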