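import Cfsg.Statements.S5677
import Mathlib
import Cfsg.Agent.Lib.ClassMax.OBig

set_option autoImplicit false
open Cfsg

namespace Cfsg.Agent.S5677


/-- Let F be a finite field of odd order q, m ≥ 6, Q the standard quadratic form on F^(2m+1) and Ω the commutator subgroup of its isometry group. Let D be a decomposition of F^(2m+1) into t ≥ 2 pairwise orthogonal, pairwise Q-isometric subspaces of equal dimension k > 1 on which the polar form is non-degenerate. Unless q = 3 and k = 3, the elements of Ω permuting the members of D form a maximal subgroup of Ω. -/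
theorem result {F : Type*} [Field F] [Fintype F] (hodd : Odd (Fintype.card F)) (m : ℕ) (hm : 6 ≤ m) {t : ℕ} (k : ℕ) (hk : 1 < k) (D : Fin t → Submodule F (Unit ⊕ (Fin m ⊕ Fin m) → F)) (hD : Cfsg.Geo.IsOrthogonalMDecomposition (Cfsg.quadFormOdd m F) k D) (hex : ¬ (Fintype.card F = 3 ∧ k = 3)) : Cfsg.Geo.IsMaximalIn (Cfsg.Geo.omegaGL (Cfsg.quadFormOdd m F)) (Cfsg.Geo.decompositionStabilizer D ⊓ Cfsg.Geo.omegaGL (Cfsg.quadFormOdd m F)) := by
  obtain ⟨Q, hQ, hnd⟩ := H97.exists_quadForm_odd hodd m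
  rw [hQ] at hD ⊢
  rw [H97.decompositionStabilizer_eq]
  have hN := H97o.nondeg_of_sep hnd
  have h2 := H97.two_ne_zero_of_odd hodd
  obtain ⟨π, hπ⟩ := H97o.exists_blk hN (H12.good_of_two_ne_zero hN h2) hD
  have h1 := H97o.card_mul_eq hD.decomp.decomp
  have : Nontrivial (Fin t) := Fin.nontrivial_iff_two_le.2 hD.decomp.decomp.two_le
  have h3 : Odd (t * k) := by rw [h1]; simp [← two_mul, add_comm]
  have h4 := Nat.odd_iff.1 (Nat.odd_mul.1 h3).2
  have h5 := Nat.odd_iff.1 hodd
  have h6 : 1 < Fintype.card F := Fintype.one_lt_card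
  refine H97o.isMaximalIn_omega (H97o.isMaximalIn_blocks hπ ⟨?_, fun h => by omega⟩)
  by_cases h7 : k = 3
  · exact Or.inr ⟨by omega, h2, by omega⟩
  · exact Or.inl (by omega)

end Cfsg.Agent.S5677
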