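import Cfsg.Statements.S5679
import Mathlib
import Cfsg.Agent.Lib.ClassMax.OFrameMax

set_option autoImplicit false
open Cfsg

namespace Cfsg.Agent.S5679



/-- Let F be a field of odd prime order p, m ≥ 6, Q the standard quadratic form on F^(2m+1) and Ω the commutator subgroup of its isometry group. Let D be a decomposition of F^(2m+1) into pairwise orthogonal lines on which Q takes non-zero values lying in one square class (pairwise Q-isometric non-degenerate 1-spaces). Then the elements of Ω permuting these lines form a maximal subgroup of Ω. -/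
theorem result {F : Type*} [Field F] [Fintype F] (hodd : Odd (Fintype.card F)) (m : ℕ) (hm : 6 ≤ m) (hprime : (Fintype.card F).Prime) {t : ℕ} (D : Fin t → Submodule F (Unit ⊕ (Fin m ⊕ Fin m) → F)) (hD : Cfsg.Geo.IsOrthogonalMDecomposition (Cfsg.quadFormOdd m F) 1 D) : Cfsg.Geo.IsMaximalIn (Cfsg.Geo.omegaGL (Cfsg.quadFormOdd m F)) (Cfsg.Geo.decompositionStabilizer D ⊓ Cfsg.Geo.omegaGL (Cfsg.quadFormOdd m F)) := by
  obtain ⟨Q, hQ, hnd⟩ := H97.exists_quadForm_odd hodd m
  rw [hQ] at hD ⊢
  rw [H97.decompositionStabilizer_eq]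
  have hN := H97o.nondeg_of_sep hnd
  have h2 := H97.two_ne_zero_of_odd hodd
  obtain ⟨π, hπ⟩ := H97o.exists_blk hN (H12.good_of_two_ne_zero hN h2) hD
  have h1 := H97o.card_mul_eq hD.decomp.decomp
  simp only [Fintype.card_sum, Fintype.card_unit, Fintype.card_fin] at h1
  exact H97o.isMaximalIn_omega (H97o.isMaximalIn_frame hπ h2 hprime (by simp; omega)
    (Or.inr (by simp; omega)))

end Cfsg.Agent.S5679
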