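import Mathlib
import Cfsg.Statements.S5680
import Cfsg.Agent.Lib.ExtFld.O3b
-- import your own Cfsg.Agent.* helpers here

set_option autoImplicit false
open Cfsg

namespace Cfsg.Agent.S5680

/-- Let F be a finite field of odd order, m ≥ 6, Q the standard quadratic form on F^(2m+1) and Ω the commutator subgroup of its isometry group. Let K be a subfield of the algebra of (2m+1) × (2m+1) matrices over F containing the scalars, of prime degree r over F with r ≠ 2m + 1, whose elements are self-adjoint for the polar form of Q. Then the elements of Ω normalising K form a maximal subgroup of Ω. -/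
theorem result {F : Type*} [Field F] [Fintype F] (hodd : Odd (Fintype.card F)) (m : ℕ) (hm : 6 ≤ m) (r : ℕ) (hr : r.Prime) (hrn : 2 * m + 1 ≠ r) (K : Subalgebra F (Matrix (Unit ⊕ (Fin m ⊕ Fin m)) (Unit ⊕ (Fin m ⊕ Fin m)) F)) (hK : Cfsg.Geo.IsFieldSubalgebra r K) (hsa : Cfsg.Geo.IsSelfAdjointFor (QuadraticMap.polar (Cfsg.quadFormOdd m F)) K) : Cfsg.Geo.IsMaximalIn (Cfsg.Geo.omegaGL (Cfsg.quadFormOdd m F)) (Cfsg.Geo.subalgebraNormalizer K ⊓ Cfsg.Geo.omegaGL (Cfsg.quadFormOdd m F)) := by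
  obtain ⟨Q, e, hQ⟩ := H97.exists_quadForm_odd hodd m
  rw [e] at hsa ⊢
  have hc : Fintype.card (Unit ⊕ (Fin m ⊕ Fin m)) = 2 * m + 1 := by simp; omega
  obtain ⟨k, hk⟩ : ∃ k, r * k = 2 * m + 1 := H21.fieldSub_elim hK fun E _ _ _ _ _ hE _ _ _ =>
    ⟨Module.finrank E (Unit ⊕ (Fin m ⊕ Fin m) → F), by
      rw [← hE, Module.finrank_mul_finrank, Module.finrank_fintype_fun_eq_card, hc]⟩
  have h1 : Odd (r * k) := ⟨m, hk⟩
  obtain ⟨⟨i, hi⟩, j, hj⟩ := Nat.odd_mul.1 h1
  by_cases h3 : k = 3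
  · subst h3
    have : r ≠ 4 := by omega
    exact H21.fieldSub_O3 hodd hQ hr (by omega) (by omega) hK hsa
  · refine H21.fieldSub_OO hodd hQ hr ?_ (by omega) hK hsa
    have h2 : k ≠ 1 := by rintro rfl; omega
    rw [hc, ← hk, mul_comm]
    exact Nat.mul_lt_mul_of_pos_left (by omega) hr.pos

end Cfsg.Agent.S5680
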