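import Cfsg.Statements.S5685
import Mathlib
import Cfsg.Agent.Lib.ClassMax.Orth

set_option autoImplicit false
open Cfsg

namespace Cfsg.Agent.S5685


/-- Let F be a finite field with q elements, n ≥ 13 even, Q a non-degenerate quadratic form on F^n of plus type (some subspace of dimension n/2 is totally singular), and Ω the commutator subgroup of the isometry group of Q, viewed inside GL_n(F). The elements of Ω stabilising a non-zero subspace W on which Q vanishes, with dim W ≠ n/2 − 1, form a maximal subgroup of Ω. -/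
theorem result {F : Type*} [Field F] [Fintype F] {n : ℕ} (hn : 13 ≤ n) (heven : Even n) (Q : (Fin n → F) → F) (hQ : Cfsg.Geo.IsNondegenerateQuadraticForm Q) (hplus : Cfsg.Geo.IsPlusTypeOn Q ⊤) (W : Submodule F (Fin n → F)) (hW0 : W ≠ ⊥) (hW : Cfsg.Geo.IsTotallySingularQuad Q W) (hdim : 2 * (Module.finrank F W + 1) ≠ n) : Cfsg.Geo.IsMaximalIn (Cfsg.Geo.omegaGL Q) (Cfsg.Geo.subspaceStabilizer W ⊓ Cfsg.Geo.omegaGL Q) := by
  obtain ⟨Q, rfl, hnd⟩ := H97.exists_quadForm hQ
  have hn' : Module.finrank F (Fin n → F) = n := by simp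
  rw [H97.omegaGL_eq hnd (by simp; omega), H97.subspaceStabilizer_eq, ← H97.pull_inf]
  refine H97.isMaximalIn_pull ((H97.isoK_quad Q).isMaximalIn_totSing hnd
    (by omega) hW0 hW (H97.polar_eq_zero_of_ts hW) (Or.inr fun y hy hy' hq => ?_))
  have := H97.two_mul_succ_le hnd hW hq hy hy'
  omega

end Cfsg.Agent.S5685
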