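import Cfsg.Statements.S5687
import Mathlib
import Cfsg.Agent.Lib.ClassMax.Orth

set_option autoImplicit false
open Cfsg

namespace Cfsg.Agent.S5687


/-- Let F be a finite field with q elements, n ≥ 13 even, Q a non-degenerate quadratic form on F^n of minus type (no subspace of dimension n/2 is totally singular), and Ω the commutator subgroup of the isometry group of Q, viewed inside GL_n(F). The elements of Ω stabilising a non-zero subspace on which Q vanishes form a maximal subgroup of Ω. -/
theorem result {F : Type*} [Field F] [Fintype F] {n : ℕ} (hn : 13 ≤ n) (heven : Even n) (Q : (Fin n → F) → F) (hQ : Cfsg.Geo.IsNondegenerateQuadraticForm Q) (hminus : ¬ Cfsg.Geo.IsPlusTypeOn Q ⊤) (W : Submodule F (Fin n → F)) (hW0 : W ≠ ⊥) (hW : Cfsg.Geo.IsTotallySingularQuad Q W) : Cfsg.Geo.IsMaximalIn (Cfsg.Geo.omegaGL Q) (Cfsg.Geo.subspaceStabilizer W ⊓ Cfsg.Geo.omegaGL Q) := by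
  obtain ⟨Q, rfl, hnd⟩ := H97.exists_quadForm hQ
  have hn' : Module.finrank F (Fin n → F) = n := by simp
  rw [H97.omegaGL_eq hnd (by simp; omega), H97.subspaceStabilizer_eq, ← H97.pull_inf]
  refine H97.isMaximalIn_pull ((H97.isoK_quad Q).isMaximalIn_totSing hnd
    (by omega) hW0 hW (H97.polar_eq_zero_of_ts hW) (Or.inr fun y hy hy' hq => ?_))
  have := H97.two_mul_succ_le hnd hW hq hy hy'
  refine lt_of_le_of_ne this fun h => hminus ⟨W ⊔ F ∙ y, le_top, H97.ts_sup_span hW hq hy, ?_⟩
  rw [Submodule.finrank_sup_span_singleton hy', finrank_top, h]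

end Cfsg.Agent.S5687
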