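import Cfsg.Statements.S5688
import Mathlib
import Cfsg.Agent.Lib.ClassMax.Orth

set_option autoImplicit false
open Cfsg

namespace Cfsg.Agent.S5688


/-- Let F be a finite field with q elements, n ≥ 13 even, Q a non-degenerate quadratic form on F^n of plus type (some subspace of dimension n/2 is totally singular), and Ω the commutator subgroup of the isometry group of Q, viewed inside GL_n(F). Let W be a non-zero proper subspace with dim W ≠ n/2 on which the polar form of Q is non-degenerate. Exclude the case q ≤ 3 in which W, or its orthogonal complement, is a plane containing a line on which Q vanishes. Then the elements of Ω stabilising W form a maximal subgroup of Ω. -/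
theorem result {F : Type*} [Field F] [Fintype F] {n : ℕ} (hn : 13 ≤ n) (heven : Even n) (Q : (Fin n → F) → F) (hQ : Cfsg.Geo.IsNondegenerateQuadraticForm Q) (hplus : Cfsg.Geo.IsPlusTypeOn Q ⊤) (W : Submodule F (Fin n → F)) (hW0 : W ≠ ⊥) (hW1 : W ≠ ⊤) (hdim : 2 * Module.finrank F W ≠ n) (hW : Cfsg.Geo.IsNondegenerateOn (QuadraticMap.polar Q) W) (hex : ¬ (Fintype.card F ≤ 3 ∧ (∃ U : Submodule F (Fin n → F), Module.finrank F U = 2 ∧ Cfsg.Geo.IsNondegenerateOn (QuadraticMap.polar Q) U ∧ Cfsg.Geo.IsPlusTypeOn Q U ∧ (U = W ∨ (Cfsg.Geo.AreOrthogonalFor (QuadraticMap.polar Q) U W ∧ Module.finrank F U + Module.finrank F W = n))))) : Cfsg.Geo.IsMaximalIn (Cfsg.Geo.omegaGL Q) (Cfsg.Geo.subspaceStabilizer W ⊓ Cfsg.Geo.omegaGL Q) := by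
  obtain ⟨Q, rfl, hnd⟩ := H97.exists_quadForm hQ
  have hn' : Module.finrank F (Fin n → F) = n := by simp
  rw [H97.omegaGL_eq hnd (by simp; omega), H97.subspaceStabilizer_eq, ← H97.pull_inf]
  have hW' := H97.nondegOn_quad.1 hW
  have h1 := H97.finrank_perp (P := H28.PQ.ofQuad Q) hnd W
  have hW2 := H97.perp_nondeg hnd hW'
  exact H97.isMaximalIn_pull ((H97.isoK_quad Q).isMaximalIn_nondeg' hnd (by omega) hW' hW0 hW1
    (fun _ => (H97.irr_or_plus hnd hW').resolve_right fun ⟨h2, h3, h4⟩ =>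
      hex ⟨h2, W, h3, hW, h4, Or.inl rfl⟩)
    (fun _ => (H97.irr_or_plus hnd hW2).resolve_right fun ⟨h2, h3, h4⟩ =>
      hex ⟨h2, _, h3, H97.nondegOn_quad.2 hW2, h4, Or.inr ⟨fun u hu v hv => H97.mem_perp'.1 hu v hv,
        by omega⟩⟩)
    (fun h => by omega))

end Cfsg.Agent.S5688
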