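import Cfsg.Statements.S5699
import Mathlib
import Cfsg.Agent.Lib.ClassMax.Decomp

set_option autoImplicit false
open Cfsg

namespace Cfsg.Agent.S5699


/-- Let F be a finite field with q elements, n ≥ 13 even, Q a non-degenerate quadratic form on F^n (of either type), and Ω the commutator subgroup of the isometry group of Q, viewed inside GL_n(F). Let D be a decomposition of F^n into two orthogonal subspaces of odd dimension n/2 on which the polar form is non-degenerate and which are not Q-isometric to each other. Then the elements of Ω permuting (necessarily fixing) the two subspaces form a maximal subgroup of Ω. -/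
theorem result {F : Type*} [Field F] [Fintype F] {n : ℕ} (hn : 13 ≤ n) (heven : Even n) (Q : (Fin n → F) → F) (hQ : Cfsg.Geo.IsNondegenerateQuadraticForm Q) (k : ℕ) (hk : 2 * k = n) (hko : Odd k) (D : Fin 2 → Submodule F (Fin n → F)) (hD : Cfsg.Geo.IsNondegenerateMDecomposition (QuadraticMap.polar Q) k D) (hni : ¬ Cfsg.Geo.AreIsometricFor Q (D 0) (D 1)) : Cfsg.Geo.IsMaximalIn (Cfsg.Geo.omegaGL Q) (Cfsg.Geo.decompositionStabilizer D ⊓ Cfsg.Geo.omegaGL Q) := by
  obtain ⟨Q, rfl, hnd⟩ := H97.exists_quadForm hQ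
  have hn' : Module.finrank F (Fin n → F) = n := by simp
  rw [H97.omegaGL_eq hnd (by simp; omega), H97.decompositionStabilizer_eq, ← H97.pull_inf]
  have hW := H97.nondegOn_quad.1 (hD.nondegenerate 0)
  have h1 : D 1 = H97.perp (H28.PQ.ofQuad Q) (D 0) := H97.eq_perp_of_orth hW
    (fun x hx u hu => hD.orthogonal 0 1 (by decide) u hu x hx)
    (by rw [← H97.iSup_two, hD.decomp.iSup_eq_top])
  have h0 := hD.decomp.finrank_eq 0
  have h2 := hD.decomp.finrank_eq 1
  have h3 : H97.dstab D ⊓ H97.EG (H28.PQ.ofQuad Q) = H97.stab (D 0) ⊓ H97.EG (H28.PQ.ofQuad Q) := by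
    ext g
    constructor
    · rintro ⟨hg, hg'⟩
      rcases H97.mem_dstab_two.1 hg with h | h
      · exact ⟨h.1, hg'⟩
      · exact absurd (H97.isometric_of_map (H97.EG_le_isom hg') h.1) hni
    · rintro ⟨hg, hg'⟩
      exact ⟨H97.mem_dstab_two.2 (Or.inl ⟨hg, h1 ▸ H97.stab_perp (H97.EG_le_isom hg') hg⟩), hg'⟩
  rw [h3]
  rw [Nat.odd_iff] at hko
  refine H97.isMaximalIn_pull ((H97.isoK_quad Q).isMaximalIn_nondeg hnd hW
    (H97.ne_bot_of_decomp hD.decomp 0) (H97.irr_of_finrank_ne hnd hW (by omega))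
    (by rw [← h1]; omega) fun g hg hsw => hni ?_)
  rw [← h1] at hsw
  exact H97.isometric_of_map ((H28.PQ.ofQuad Q).Isom.inv_mem hg)
    (H97.map_inv_le (H97.map_eq_of_maps hsw (by omega)))

end Cfsg.Agent.S5699
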