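import Mathlib
import Cfsg.Statements.S5701
import Cfsg.Agent.Lib.ExtFld.OO2
-- import your own Cfsg.Agent.* helpers here

set_option autoImplicit false
open Cfsg

namespace Cfsg.Agent.S5701

/-- Let F be a finite field with q elements, n ≥ 13 even, Q a non-degenerate quadratic form on F^n (of either type), and Ω the commutator subgroup of the isometry group of Q, viewed inside GL_n(F). Suppose q is odd. Let K be a subfield of the algebra of n × n matrices over F containing the scalars, of prime degree r over F with n/r ≥ 3, whose elements are self-adjoint for the polar form of Q. Then the elements of Ω normalising K form a maximal subgroup of Ω. -/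
theorem result {F : Type*} [Field F] [Fintype F] {n : ℕ} (hn : 13 ≤ n) (heven : Even n) (Q : (Fin n → F) → F) (hQ : Cfsg.Geo.IsNondegenerateQuadraticForm Q) (hodd : Odd (Fintype.card F)) (r : ℕ) (hr : r.Prime) (hnr : 3 * r ≤ n) (K : Subalgebra F (Matrix (Fin n) (Fin n) F)) (hK : Cfsg.Geo.IsFieldSubalgebra r K) (hsa : Cfsg.Geo.IsSelfAdjointFor (QuadraticMap.polar Q) K) : Cfsg.Geo.IsMaximalIn (Cfsg.Geo.omegaGL Q) (Cfsg.Geo.subalgebraNormalizer K ⊓ Cfsg.Geo.omegaGL Q) := by
  obtain ⟨Q', rfl, hQ'⟩ := H97.exists_quadForm hQ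
  refine H21.fieldSub_OO hodd hQ' hr ?_ (fun h => by simp; omega) hK hsa
  rw [Fintype.card_fin]
  refine lt_of_le_of_ne hnr fun h => ?_
  rcases hr.eq_two_or_odd' with h2 | h2
  · omega
  · obtain ⟨k, hk⟩ := h2
    obtain ⟨j, hj⟩ := heven
    omega

end Cfsg.Agent.S5701
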