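import Cfsg.Statements.S5703
import Mathlib
import Cfsg.Agent.Lib.Cliff.RowsOS

set_option autoImplicit false
open Cfsg

namespace Cfsg.Agent.S5703


/-- Let p be an odd prime, F the field with p elements, n ≥ 13 even, Q a non-degenerate quadratic form on F^n of plus type and Ω the commutator subgroup of its isometry group. Let R be a 2-subgroup of GL_n(F) of exponent 4 in which every characteristic abelian subgroup is cyclic, of order 2^(1+2k) with centre of order 2 and containing an elementary abelian subgroup of order 2^(k+1) (plus type), acting absolutely irreducibly and consisting of isometries of Q. Then the elements of Ω normalising R form a maximal subgroup of Ω. -/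
theorem result {F : Type*} [Field F] [Fintype F] {n : ℕ} (hn : 13 ≤ n) (heven : Even n) (Q : (Fin n → F) → F) (hQ : Cfsg.Geo.IsNondegenerateQuadraticForm Q) (hplus : Cfsg.Geo.IsPlusTypeOn Q ⊤) (p k : ℕ) (hp : p.Prime) (hpo : Odd p) (hF : Fintype.card F = p) (R : Subgroup (Matrix.GeneralLinearGroup (Fin n) F)) (hR : Cfsg.Geo.IsSymplecticTypeGroup 2 R) (hirr : Cfsg.Geo.ActsAbsolutelyIrreducibly (Cfsg.Geo.matrixSet R)) (hRD : R ≤ Cfsg.isometryGroup F Q) (hcard : Nat.card R = 2 ^ (1 + 2 * k)) (hZ : Nat.card (Subgroup.center R) = 2) (hpt : Cfsg.Geo.IsOfPlusType k R) : Cfsg.Geo.IsMaximalIn (Cfsg.Geo.omegaGL Q) (Cfsg.Geo.subgroupNormalizer R ⊓ Cfsg.Geo.omegaGL Q) := by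
  exact H97c.omega_c6 (hF ▸ hp) (hF ▸ hpo) (by simp; omega) hQ hR hirr hRD hZ

end Cfsg.Agent.S5703
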