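import Cfsg.Statements.S5707
import Mathlib
import Cfsg.Agent.Lib.H38.Spin

set_option autoImplicit false
open Cfsg

namespace Cfsg.Agent.S5707

/-- Let F be a finite field with q elements, n ≥ 13 even, Q a non-degenerate quadratic form on F^n of plus type (some subspace of dimension n/2 is totally singular), and Ω the commutator subgroup of the isometry group of Q, viewed inside GL_n(F). Suppose q is even and that, through P and e, the polar form of Q is similar to the t-fold tensor power (t ≥ 2) of a non-degenerate symplectic form f₁ on F^k with k ≤ 4 and (q, k) ≠ (2, 2), Q vanishing on the images of all pure tensors. Then the elements of Ω in the stabiliser of this decomposition form a subgroup that is not maximal: some subgroup lies strictly between it and Ω. -/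
theorem result {F : Type*} [Field F] [Fintype F] {n : ℕ} (hn : 13 ≤ n) (heven : Even n) (Q : (Fin n → F) → F) (hQ : Cfsg.Geo.IsNondegenerateQuadraticForm Q) (hplus : Cfsg.Geo.IsPlusTypeOn Q ⊤) (hchar : ¬ Odd (Fintype.card F)) (k t : ℕ) (ht : 2 ≤ t) (hk : k ≤ 4) (hex1 : ¬ (Fintype.card F = 2 ∧ k = 2)) (e : (Fin n) ≃ (Fin t → Fin k)) (P : Matrix.GeneralLinearGroup (Fin n) F) (f₁ : (Fin k → F) → (Fin k → F) → F) (hf₁ : Cfsg.Geo.IsSymplecticForm f₁) (hT : Cfsg.Geo.IsTensorPowerFormStructure id (QuadraticMap.polar Q) f₁ e P) (hpure : (∀ xs : Fin t → (Fin k → F), Q (Matrix.mulVec (P : Matrix (Fin n) (Fin n) F) ((fun a : Fin t → Fin k => ∏ i, xs i (a i)) ∘ e)) = 0)) : ∃ K : Subgroup (Matrix.GeneralLinearGroup (Fin n) F), Cfsg.Geo.tensorWreathSubgroup k t e P ⊓ Cfsg.Geo.omegaGL Q < K ∧ K < Cfsg.Geo.omegaGL Q := by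
  obtain ⟨t, rfl⟩ : ∃ s, t = s + 1 := ⟨t - 1, by omega⟩
  have hc : n = k ^ (t + 1) := by simpa using Fintype.card_congr e
  obtain ⟨a1, a2⟩ := H28.Wr.le_pow_of_card e (Or.inr ⟨by omega, by simp; omega⟩) (by simp; omega)
  have : NeZero k := ⟨a1⟩
  have h2 := H97.two_eq_zero_of_not_odd hchar
  have : CharP F 2 := CharTwo.of_one_ne_zero_of_two_eq_zero one_ne_zero h2
  obtain ⟨Q, rfl, hQ'⟩ := H97.exists_quadForm hQ
  obtain ⟨BR, hR, h⟩ := H28.Wr.wf_alt_quad (by omega) (by
    rw [show (-1 : F) = 1 by linear_combination -h2, one_pow]) hQ' hf₁ hT hpure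
  rw [H97.omegaGL_eq hQ' (by simp; omega), H28.Wr.wreath_eq, ← H97.pull_inf]
  obtain ⟨m, hm⟩ := H11.Ten.even_of_symplectic hf₁
  have hk' : k = 2 ∨ k = 4 := by omega
  obtain ⟨K, h1, h2⟩ := H38.Spin.main h ⟨(h.tf 0).ndW, fun _ => trivial⟩
    ⟨(h.tf 0).ndU, fun _ => trivial⟩ (by simpa using hk') (by simp; omega)
    (by rwa [H28.Wr.finrank_R]) (i := 0) (j := Fin.last t) (by
      intro h0
      have := congrArg Fin.val h0
      simp at this
      omega) (by
      intro h0
      have hk2 : k = 2 := by simpa using h0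
      have ht3 : 2 ≤ t := by
        by_contra hlt
        obtain rfl : t = 1 := by omega
        subst hk2
        omega
      refine ⟨⟨1, by omega⟩, fun h0 => ?_, fun h0 => ?_⟩
      · have := congrArg Fin.val h0
        simp at this
      · have := congrArg Fin.val h0
        simp at this
        omega)
  exact ⟨H97.pull K, H97.pull_lt_pull.2 h1, H97.pull_lt_pull.2 h2⟩

end Cfsg.Agent.S5707
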