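import Mathlib
import Cfsg.Statements.S5708
import Cfsg.Agent.Lib.Tensor.OW13
-- import your own Cfsg.Agent.* helpers here

set_option autoImplicit false
open Cfsg

namespace Cfsg.Agent.S5708

/-- Let F be a finite field with q elements, n ≥ 13 even, Q a non-degenerate quadratic form on F^n of plus type (some subspace of dimension n/2 is totally singular), and Ω the commutator subgroup of the isometry group of Q, viewed inside GL_n(F). Suppose q is odd and that, through a change of basis P and a bijection of index sets e, the polar form of Q is similar to the t-fold tensor power (t ≥ 2) of a non-degenerate symmetric bilinear form f₁ on F^k with k even, where either k ≥ 6 and f₁ has a totally isotropic subspace of dimension k/2 (plus type), or k ≥ 4 and it has none (minus type). Then the elements of Ω in the stabiliser of this decomposition form a maximal subgroup of Ω. -/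
theorem result {F : Type*} [Field F] [Fintype F] {n : ℕ} (hn : 13 ≤ n) (heven : Even n) (Q : (Fin n → F) → F) (hQ : Cfsg.Geo.IsNondegenerateQuadraticForm Q) (hplus : Cfsg.Geo.IsPlusTypeOn Q ⊤) (hodd : Odd (Fintype.card F)) (k t : ℕ) (ht : 2 ≤ t) (hke : Even k) (e : (Fin n) ≃ (Fin t → Fin k)) (P : Matrix.GeneralLinearGroup (Fin n) F) (f₁ : (Fin k → F) → (Fin k → F) → F) (hf₁ : Cfsg.Geo.IsSymmetricForm f₁) (hsize : (6 ≤ k ∧ Cfsg.Geo.IsPlusTypeOn (fun v : Fin k → F => f₁ v v) ⊤) ∨ (4 ≤ k ∧ ¬ Cfsg.Geo.IsPlusTypeOn (fun v : Fin k → F => f₁ v v) ⊤)) (hT : Cfsg.Geo.IsTensorPowerFormStructure id (QuadraticMap.polar Q) f₁ e P) : Cfsg.Geo.IsMaximalIn (Cfsg.Geo.omegaGL Q) (Cfsg.Geo.tensorWreathSubgroup k t e P ⊓ Cfsg.Geo.omegaGL Q) := by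
  obtain ⟨Q, rfl, hnd⟩ := H97.exists_quadForm hQ
  by_cases h4 : k = 4
  · subst h4
    exact H21.TO.isMaximalIn_wreath_four hodd ht hnd e P hf₁
      (hsize.elim (fun h => absurd h.1 (by omega)) (·.2)) hT
  · exact H21.TO.isMaximalIn_wreath_orth hodd (Or.inl (by omega)) ht hnd e P hf₁ hT

end Cfsg.Agent.S5708
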