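import Cfsg.Statements.S5709
import Mathlib
import Cfsg.Agent.Lib.Tensor.OrthIdent

set_option autoImplicit false
open Cfsg

namespace Cfsg.Agent.S5709

/-- Let F be a finite field with q elements, n ≥ 13 even, Q a non-degenerate quadratic form on F^n of minus type (no subspace of dimension n/2 is totally singular), and Ω the commutator subgroup of the isometry group of Q, viewed inside GL_n(F). Suppose q is odd and that, through a change of basis P and a bijection of index sets e, the polar form of Q is similar to the tensor product of non-degenerate symmetric bilinear forms f₁ on F^(n₁), n₁ odd and at least 3, and f₂ on F^(n₂), n₂ even and at least 4 with no totally isotropic subspace of dimension n₂/2 (minus type). Unless q = 3 and n₁ = 3, the elements of Ω in the stabiliser of this tensor decomposition form a maximal subgroup of Ω. -/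
theorem result {F : Type*} [Field F] [Fintype F] {n : ℕ} (hn : 13 ≤ n) (heven : Even n) (Q : (Fin n → F) → F) (hQ : Cfsg.Geo.IsNondegenerateQuadraticForm Q) (hminus : ¬ Cfsg.Geo.IsPlusTypeOn Q ⊤) (hodd : Odd (Fintype.card F)) (n₁ n₂ : ℕ) (h1 : 3 ≤ n₁) (h1o : Odd n₁) (h2 : 4 ≤ n₂) (h2e : Even n₂) (hex : ¬ (Fintype.card F = 3 ∧ n₁ = 3)) (e : (Fin n) ≃ Fin n₁ × Fin n₂) (P : Matrix.GeneralLinearGroup (Fin n) F) (f₁ : (Fin n₁ → F) → (Fin n₁ → F) → F) (f₂ : (Fin n₂ → F) → (Fin n₂ → F) → F) (hf₁ : Cfsg.Geo.IsSymmetricForm f₁) (hf₂ : Cfsg.Geo.IsSymmetricForm f₂) (hf₂m : ¬ Cfsg.Geo.IsPlusTypeOn (fun v : Fin n₂ → F => f₂ v v) ⊤) (hT : Cfsg.Geo.IsTensorFormStructure id (QuadraticMap.polar Q) f₁ f₂ e P) : Cfsg.Geo.IsMaximalIn (Cfsg.Geo.omegaGL Q) (Cfsg.Geo.tensorProductSubgroup n₁ n₂ e P ⊓ Cfsg.Geo.omegaGL Q) := by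
  have h := H11.Ten.card_of_equiv e
  rw [Fintype.card_fin] at h
  obtain ⟨a, ha⟩ := h1o
  obtain ⟨b, hb⟩ := h2e
  obtain ⟨Q, rfl, hQ'⟩ := H97.exists_quadForm hQ
  refine H11.Ten.isMaximalIn_tensor_orth_orth hodd hQ' h1 (by omega) (by omega) ?_
    (fun e => hex ⟨e.1, by omega⟩) (by omega) e P hf₁ hf₂ (fun _ => hf₂m) hT
  by_contra hc
  have : n₁ * n₂ ≤ 3 * 4 := Nat.mul_le_mul (by omega) (by omega)
  omega
end Cfsg.Agent.S5709
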