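import Mathlib
import Cfsg.Statements.S5778
import Cfsg.Agent.Lib.AschF.URow
import Cfsg.Agent.Lib.Asch.XF35b
import Cfsg.Agent.Lib.Asch.XK33
import Cfsg.Agent.Lib.Asch.XK35b
import Cfsg.Agent.Lib.Asch.XO
import Cfsg.Agent.Lib.Asch.XR35
-- import your own Cfsg.Agent.* helpers here

set_option autoImplicit false
open Cfsg

namespace Cfsg.Agent.S5778

open H28.AF H10.Asch Cfsg.Geo in

/-- Every maximal subgroup of SU_3(q), q ≥ 3, is of one of the listed geometric types or lies in the residual class. Let F be the field with q² elements, f the standard unitary form Σ u_i v_i^q on F^3, and H a maximal subgroup of SU_3(q) (the determinant-one isometries of f, inside GL_3(F)). Then H is the intersection with SU_3(q) of one of: the stabiliser of a non-zero subspace on which f vanishes; the stabiliser of a non-degenerate 1-space; for q ≠ 5, the stabiliser of a decomposition into three mutually orthogonal non-degenerate 1-spaces;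 for q ≠ 3, 5, the normaliser of an adjoint-closed degree-3 subfield of the matrix algebra; a subfield group of odd prime index whose F₀-structure carries f; for q odd, q ≥ 7, a subfield group of index 2 whose F₀-structure carries f; for q = p ≡ 2 mod 3 prime with p ≥ 11, the normaliser of an absolutely irreducible subgroup of order 27 with centre of order 3, exponent 3 and all characteristic abelian subgroups cyclic, contained in the similarity group of f — or else H lies in the residual class of the unitary case. -/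
theorem result {F : Type*} [Field F] [Fintype F] (q : ℕ) (hF : Fintype.card F = q ^ 2) (hq : 3 ≤ q) (H : Subgroup (Matrix.GeneralLinearGroup (Fin 3) F)) (hH : Cfsg.Geo.IsMaximalIn (Cfsg.GU 3 F q ⊓ Cfsg.Geo.specialLinear (Fin 3) F) H) :
    (∃ W : Submodule F (Fin 3 → F), W ≠ ⊥ ∧ Cfsg.Geo.IsTotallySingularFor (Cfsg.hermForm 3 F q) W ∧ H = Cfsg.Geo.subspaceStabilizer W ⊓ (Cfsg.GU 3 F q ⊓ Cfsg.Geo.specialLinear (Fin 3) F)) ∨
    (∃ W : Submodule F (Fin 3 → F), W ≠ ⊥ ∧ Cfsg.Geo.IsNondegenerateOn (Cfsg.hermForm 3 F q) W ∧ 2 * Module.finrank F W < 3 ∧ H = Cfsg.Geo.subspaceStabilizer W ⊓ (Cfsg.GU 3 F q ⊓ Cfsg.Geo.specialLinear (Fin 3) F)) ∨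
    (q ≠ 5 ∧ ∃ D : Fin 3 → Submodule F (Fin 3 → F), Cfsg.Geo.IsNondegenerateMDecomposition (Cfsg.hermForm 3 F q) 1 D ∧ H = Cfsg.Geo.decompositionStabilizer D ⊓ (Cfsg.GU 3 F q ⊓ Cfsg.Geo.specialLinear (Fin 3) F)) ∨
    (q ≠ 3 ∧ q ≠ 5 ∧ ∃ K : Subalgebra F (Matrix (Fin 3) (Fin 3) F), Cfsg.Geo.IsFieldSubalgebra 3 K ∧ Cfsg.Geo.IsAdjointClosedFor (Cfsg.hermForm 3 F q) K ∧ H = Cfsg.Geo.subalgebraNormalizer K ⊓ (Cfsg.GU 3 F q ⊓ Cfsg.Geo.specialLinear (Fin 3) F)) ∨
    (∃ (F₀ : Subfield F) (r : ℕ) (P : Matrix.GeneralLinearGroup (Fin 3) F), r.Prime ∧ Odd r ∧ Fintype.card F = Nat.card F₀ ^ r ∧ Cfsg.Geo.IsFormRationalStructure (Cfsg.hermForm 3 F q) F₀ 1 P ∧ H = Cfsg.Geo.subfieldSubgroup F₀ P ⊓ (Cfsg.GU 3 F q ⊓ Cfsg.Geo.specialLinear (Fin 3) F)) ∨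
    (Odd q ∧ 7 ≤ q ∧ ∃ (F₀ : Subfield F) (P : Matrix.GeneralLinearGroup (Fin 3) F), Fintype.card F = Nat.card F₀ ^ 2 ∧ Cfsg.Geo.IsFormRationalStructure (Cfsg.hermForm 3 F q) F₀ 1 P ∧ H = Cfsg.Geo.subfieldSubgroup F₀ P ⊓ (Cfsg.GU 3 F q ⊓ Cfsg.Geo.specialLinear (Fin 3) F)) ∨
    (∃ (p : ℕ) (R : Subgroup (Matrix.GeneralLinearGroup (Fin 3) F)), p.Prime ∧ q = p ∧ p % 3 = 2 ∧ 11 ≤ p ∧ Cfsg.Geo.IsSymplecticTypeGroup 3 R ∧ Cfsg.Geo.ActsAbsolutelyIrreducibly (Cfsg.Geo.matrixSet R) ∧ R ≤ Cfsg.Geo.similarityGroup (Cfsg.hermForm 3 F q) ∧ Nat.card R = 27 ∧ Nat.card (Subgroup.center R) = 3 ∧ H = Cfsg.Geo.subgroupNormalizer R ⊓ (Cfsg.GU 3 F q ⊓ Cfsg.Geo.specialLinear (Fin 3) F)) ∨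
    Cfsg.Geo.InUnitaryResidualClass H := by
  rcases su_max_cases hF (by norm_num) (by omega) hH with h | h | ⟨t, k, D, a, b, c, d, e⟩ |
    ⟨k, D, a, b, c, d⟩ | ⟨r, K, a, b, c, d, e, f⟩ | ⟨n₁, n₂, e, P, f₁, f₂, a, b, c, d, g⟩ | h | ⟨a, h⟩ | h |
    ⟨r, k, p, R, a, b, c, d, e, f, g, h, j, i⟩ | ⟨k, t, e, P, f₁, a, b, c, d, g⟩ | h
  · exact Or.inl h
  · exact Or.inr (Or.inl h)
  · obtain ⟨rfl, rfl⟩ : t = 3 ∧ k = 1 := by
      have := Nat.le_of_dvd (by norm_num) (Dvd.intro _ a)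
      interval_cases t <;> omega
    iterate 2 right
    refine Or.inl ⟨?_, D, d, e⟩
    rintro rfl
    exact frame_three_five' hF d (e.le.trans inf_le_left) hH
  · omega
  · obtain rfl : r = 3 := ((Nat.prime_dvd_prime_iff_eq a (by norm_num)).1 c)
    iterate 3 right
    refine Or.inl ⟨?_, ?_, K, d, e, f⟩
    · rintro rfl
      exact field_three_three hF d e (f.le.trans inf_le_left) hH
    · rintro rfl
      exact field_three_five' hF d e (f.le.trans inf_le_left) hH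
  · have := Nat.le_of_dvd (by norm_num) (Dvd.intro _ a)
    interval_cases n₁ <;> omega
  · iterate 4 right
    exact Or.inl h
  · exact absurd a (by decide)
  · iterate 5 right
    obtain ⟨a, F₀, P, b, c, d⟩ := h
    refine Or.inl ⟨a, ?_, F₀, P, b, c, d⟩
    by_contra h
    obtain rfl | rfl : q = 3 ∨ q = 5 := by obtain ⟨m, rfl⟩ := a; omega
    · exact orth_three_three hF b c (d.le.trans inf_le_left) hH
    · exact orth_three_five hF b c (d.le.trans inf_le_left) hH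
  · obtain ⟨rfl, rfl⟩ : r = 3 ∧ k = 1 := by
      obtain ⟨h1, h2, -⟩ := pow_eq_cases b a.two_le (by norm_num)
      have : ∀ r ≤ 3, ∀ k < 3, r ^ k = 3 → r = 3 ∧ k = 1 := by decide +kernel
      exact this r h1 k h2 b
    iterate 6 right
    rcases h with ⟨-, h0, ⟨e', h1⟩, h2, h3⟩ | ⟨h, -⟩
    · obtain ⟨rfl, h4⟩ := minField_three h1 hF
      refine Or.inl ⟨q, R, c, rfl, h4, ?_, e, f, g, h2, h3, i⟩
      by_contra h
      obtain rfl | rfl : q = 5 ∨ q = 8 := by omega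
      · exact heis_three_five hF j h0 e (i.le.trans inf_le_left) hH
      · exact absurd c (by decide)
    · exact absurd h (by decide)
  · obtain ⟨h1, h2, -⟩ := pow_eq_cases a (by omega) (by norm_num)
    have : ∀ k ≤ 3, ∀ t < 3, k ^ t = 3 → 3 ≤ k → 2 ≤ t → False := by decide +kernel
    exact (this k h1 t h2 a b c).elim
  · iterate 7 right
    exact h

end Cfsg.Agent.S5778
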