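import Cfsg.Statements.S5787
import Mathlib
import Cfsg.Agent.Lib.AschF.SpEx4

set_option autoImplicit false
open Cfsg

namespace Cfsg.Agent.S5787

open H28.AF H10.Asch Cfsg.Geo in

/-- Every maximal subgroup of Sp_4(q), q odd, is of one of the listed geometric types or lies in the residual class. Let F be a finite field of odd order q, f the standard alternating form on F^4 (coordinates Fin 2 ⊕ Fin 2), and H a maximal subgroup of the isometry group Sp_4(F) (inside GL_4(F)). Then H is the intersection with Sp_4(F) of one of: the stabiliser of a non-zero totally isotropic subspace; the stabiliser of a decomposition into two orthogonal non-degenerate 2-spaces; for q ≥ 5, of a decomposition into two totally isotropic 2-spaces; the normaliser of a degree-2 subfield K of the matrix algebra, self-adjoint with f(k v, v) = 0; for q ≥ 5, the normaliser of a degree-2 subfield closed under adjoints but not self-adjoint;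 a subfield group whose F₀-structure carries a non-zero multiple of f, |F| = |F₀|^r with r prime; for q = p prime, the normaliser of an absolutely irreducible symplectic-type 2-group of exponent 4, order 32, centre of order 2 and minus type inside the similarity group of f — or else H lies in the residual class of the symplectic case. -/
theorem result {F : Type*} [Field F] [Fintype F] (hodd : Odd (Fintype.card F)) (H : Subgroup (Matrix.GeneralLinearGroup (Fin 2 ⊕ Fin 2) F)) (hH : Cfsg.Geo.IsMaximalIn (Cfsg.spGL 2 F) H) :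
    (∃ W : Submodule F (Fin 2 ⊕ Fin 2 → F), W ≠ ⊥ ∧ Cfsg.Geo.IsTotallySingularFor (Cfsg.sympForm 2 F) W ∧ H = Cfsg.Geo.subspaceStabilizer W ⊓ Cfsg.spGL 2 F) ∨
    (∃ D : Fin 2 → Submodule F (Fin 2 ⊕ Fin 2 → F), Cfsg.Geo.IsNondegenerateMDecomposition (Cfsg.sympForm 2 F) 2 D ∧ H = Cfsg.Geo.decompositionStabilizer D ⊓ Cfsg.spGL 2 F) ∨
    (5 ≤ Fintype.card F ∧ ∃ D : Fin 2 → Submodule F (Fin 2 ⊕ Fin 2 → F), Cfsg.Geo.IsMDecomposition 2 D ∧ (∀ i, Cfsg.Geo.IsTotallySingularFor (Cfsg.sympForm 2 F) (D i)) ∧ H = Cfsg.Geo.decompositionStabilizer D ⊓ Cfsg.spGL 2 F) ∨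
    (∃ K : Subalgebra F (Matrix (Fin 2 ⊕ Fin 2) (Fin 2 ⊕ Fin 2) F), Cfsg.Geo.IsFieldSubalgebra 2 K ∧ Cfsg.Geo.IsSelfAdjointFor (Cfsg.sympForm 2 F) K ∧ (∀ k ∈ K, ∀ v : (Fin 2 ⊕ Fin 2 → F), (Cfsg.sympForm 2 F) (Matrix.mulVec k v) v = 0) ∧ H = Cfsg.Geo.subalgebraNormalizer K ⊓ Cfsg.spGL 2 F) ∨
    (5 ≤ Fintype.card F ∧ ∃ K : Subalgebra F (Matrix (Fin 2 ⊕ Fin 2) (Fin 2 ⊕ Fin 2) F), Cfsg.Geo.IsFieldSubalgebra 2 K ∧ Cfsg.Geo.IsAdjointClosedFor (Cfsg.sympForm 2 F) K ∧ ¬ Cfsg.Geo.IsSelfAdjointFor (Cfsg.sympForm 2 F) K ∧ H = Cfsg.Geo.subalgebraNormalizer K ⊓ Cfsg.spGL 2 F) ∨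
    (∃ (F₀ : Subfield F) (r : ℕ) (P : Matrix.GeneralLinearGroup (Fin 2 ⊕ Fin 2) F) (ζ : F), r.Prime ∧ Fintype.card F = Nat.card F₀ ^ r ∧ ζ ≠ 0 ∧ Cfsg.Geo.IsFormRationalStructure (Cfsg.sympForm 2 F) F₀ ζ P ∧ H = Cfsg.Geo.subfieldSubgroup F₀ P ⊓ Cfsg.spGL 2 F) ∨
    (∃ (p : ℕ) (R : Subgroup (Matrix.GeneralLinearGroup (Fin 2 ⊕ Fin 2) F)), p.Prime ∧ Fintype.card F = p ∧ Cfsg.Geo.IsSymplecticTypeGroup 2 R ∧ Cfsg.Geo.ActsAbsolutelyIrreducibly (Cfsg.Geo.matrixSet R) ∧ R ≤ Cfsg.Geo.similarityGroup (Cfsg.sympForm 2 F) ∧ Nat.card R = 32 ∧ Nat.card (Subgroup.center R) = 2 ∧ Cfsg.Geo.IsOfMinusType 2 R ∧ H = Cfsg.Geo.subgroupNormalizer R ⊓ Cfsg.spGL 2 F) ∨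
    Cfsg.Geo.InSymplecticResidualClass H := by
  rcases sp_max_cases (by norm_num) (fun h => absurd (h.2 ▸ hodd) (by decide)) hH ((spSF 2 F).spEx4 (fun _ => rfl) (spSF_alt 2) hH.1.le) (spEx8_of_ne _ _ (by simp)) with h | ⟨a, h⟩ |
    ⟨t, k, D, a, b, b', c, d⟩ | ⟨a, b, h⟩ | ⟨r, K, a, b, c⟩ | ⟨a, b, h⟩ |
    ⟨o, n₁, n₂, e, P, f₁, f₂, a, b, b', c, d, d', g, g', i⟩ | h | ⟨k, p, R, a, b, c, d⟩ |
    ⟨o, k, t, e, P, f₁, a, b, c, d, g⟩ | h | h
  · exact Or.inl h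
  · omega
  · obtain ⟨rfl, rfl⟩ : (t = 2 ∧ k = 2) := by
      have := Nat.le_of_dvd (by norm_num) (Dvd.intro _ a)
      obtain ⟨j, hj⟩ := b'
      interval_cases t <;> omega
    iterate 1 right
    exact Or.inl ⟨D, d⟩
  · iterate 2 right
    exact Or.inl ⟨b rfl, h⟩
  · obtain rfl : (r = 2) := by
      have := Nat.le_of_dvd (by norm_num) b
      interval_cases r <;> first | decide | exact absurd b (by decide) | exact absurd a (by decide)
    iterate 3 right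
    exact Or.inl ⟨K, c⟩
  · iterate 4 right
    exact Or.inl ⟨b rfl, h⟩
  · have := Nat.le_of_dvd (by norm_num) (Dvd.intro _ a)
    obtain ⟨j, hj⟩ := b'
    interval_cases n₁ <;> omega
  · iterate 5 right
    exact Or.inl h
  · obtain rfl : k = 2 := Nat.pow_right_injective le_rfl a
    iterate 6 right
    exact Or.inl ⟨p, R, b, d⟩
  · obtain ⟨h1, h2, -⟩ := pow_eq_cases a b (by norm_num)
    have : ∀ k ≤ 4, ∀ t < 4, k ^ t = 4 → 3 ≤ t → False := by decide +kernel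
    exact (this k h1 t h2 a c).elim
  · exact absurd hodd h.1
  · iterate 7 right
    exact h

end Cfsg.Agent.S5787
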