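import Mathlib
import Cfsg.Statements.S5796
import Cfsg.Agent.Lib.AschF.URow
import Cfsg.Agent.Lib.Asch.XK52
-- import your own Cfsg.Agent.* helpers here

set_option autoImplicit false
open Cfsg

namespace Cfsg.Agent.S5796

open H28.AF H10.Asch Cfsg.Geo in

/-- Every maximal subgroup of SU_5(q) is of one of the listed geometric types or lies in the residual class. Let F be the field with q² elements (characteristic p), f the standard unitary form Σ u_i v_i^q on F^5, and H a maximal subgroup of SU_5(q) (inside GL_5(F)). Then H is the intersection with SU_5(q) of one of: the stabiliser of a non-zero totally isotropic subspace; the stabiliser of a non-degenerate 1-space or 2-space; the stabiliser of a decomposition into five mutually orthogonal non-degenerate 1-spaces; for q ≥ 3, the normaliser of an adjoint-closed degree-5 subfield of the matrix algebra; a subfield group of odd prime index whose F₀-structure carries f;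 for q odd, a subfield group of index 2 whose F₀-structure carries f; for q = p ≡ 4 mod 5 or q = p² with p ≡ 2, 3 mod 5, the normaliser of an absolutely irreducible 5-group of exponent 5, order 125 and centre of order 5 with all characteristic abelian subgroups cyclic inside the similarity group of f — or else H lies in the residual class of the unitary case. -/
theorem result {F : Type*} [Field F] [Fintype F] (q : ℕ) (hF : Fintype.card F = q ^ 2) (H : Subgroup (Matrix.GeneralLinearGroup (Fin 5) F)) (hH : Cfsg.Geo.IsMaximalIn (Cfsg.GU 5 F q ⊓ Cfsg.Geo.specialLinear (Fin 5) F) H) :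
    (∃ W : Submodule F (Fin 5 → F), W ≠ ⊥ ∧ Cfsg.Geo.IsTotallySingularFor (Cfsg.hermForm 5 F q) W ∧ H = Cfsg.Geo.subspaceStabilizer W ⊓ (Cfsg.GU 5 F q ⊓ Cfsg.Geo.specialLinear (Fin 5) F)) ∨
    (∃ W : Submodule F (Fin 5 → F), W ≠ ⊥ ∧ Cfsg.Geo.IsNondegenerateOn (Cfsg.hermForm 5 F q) W ∧ 2 * Module.finrank F W < 5 ∧ H = Cfsg.Geo.subspaceStabilizer W ⊓ (Cfsg.GU 5 F q ⊓ Cfsg.Geo.specialLinear (Fin 5) F)) ∨
    (∃ D : Fin 5 → Submodule F (Fin 5 → F), Cfsg.Geo.IsNondegenerateMDecomposition (Cfsg.hermForm 5 F q) 1 D ∧ H = Cfsg.Geo.decompositionStabilizer D ⊓ (Cfsg.GU 5 F q ⊓ Cfsg.Geo.specialLinear (Fin 5) F)) ∨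
    (3 ≤ q ∧ ∃ K : Subalgebra F (Matrix (Fin 5) (Fin 5) F), Cfsg.Geo.IsFieldSubalgebra 5 K ∧ Cfsg.Geo.IsAdjointClosedFor (Cfsg.hermForm 5 F q) K ∧ H = Cfsg.Geo.subalgebraNormalizer K ⊓ (Cfsg.GU 5 F q ⊓ Cfsg.Geo.specialLinear (Fin 5) F)) ∨
    (∃ (F₀ : Subfield F) (r : ℕ) (P : Matrix.GeneralLinearGroup (Fin 5) F), r.Prime ∧ Odd r ∧ Fintype.card F = Nat.card F₀ ^ r ∧ Cfsg.Geo.IsFormRationalStructure (Cfsg.hermForm 5 F q) F₀ 1 P ∧ H = Cfsg.Geo.subfieldSubgroup F₀ P ⊓ (Cfsg.GU 5 F q ⊓ Cfsg.Geo.specialLinear (Fin 5) F)) ∨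
    (Odd q ∧ ∃ (F₀ : Subfield F) (P : Matrix.GeneralLinearGroup (Fin 5) F), Fintype.card F = Nat.card F₀ ^ 2 ∧ Cfsg.Geo.IsFormRationalStructure (Cfsg.hermForm 5 F q) F₀ 1 P ∧ H = Cfsg.Geo.subfieldSubgroup F₀ P ⊓ (Cfsg.GU 5 F q ⊓ Cfsg.Geo.specialLinear (Fin 5) F)) ∨
    (∃ (p : ℕ) (R : Subgroup (Matrix.GeneralLinearGroup (Fin 5) F)), p.Prime ∧ CharP F p ∧ ((q = p ∧ p % 5 = 4) ∨ (q = p ^ 2 ∧ (p % 5 = 2 ∨ p % 5 = 3))) ∧ Cfsg.Geo.IsSymplecticTypeGroup 5 R ∧ Cfsg.Geo.ActsAbsolutelyIrreducibly (Cfsg.Geo.matrixSet R) ∧ R ≤ Cfsg.Geo.similarityGroup (Cfsg.hermForm 5 F q) ∧ Nat.card R = 125 ∧ Nat.card (Subgroup.center R) = 5 ∧ H = Cfsg.Geo.subgroupNormalizer R ⊓ (Cfsg.GU 5 F q ⊓ Cfsg.Geo.specialLinear (Fin 5) F)) ∨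
    Cfsg.Geo.InUnitaryResidualClass H := by
  have hq2 : 2 ≤ q := by
    have := Fintype.one_lt_card (α := F)
    by_contra h
    obtain rfl | rfl : q = 0 ∨ q = 1 := by omega
    all_goals omega
  rcases su_max_cases hF (by norm_num) (by omega) hH with h | h | ⟨t, k, D, a, b, c, d, e⟩ |
    ⟨k, D, a, b, c, d⟩ | ⟨r, K, a, b, c, d, e, f⟩ | ⟨n₁, n₂, e, P, f₁, f₂, a, b, c, d, g⟩ | h | ⟨a, h⟩ | h |
    ⟨r, k, p, R, a, b, c, d, e, f, g, h, j, i⟩ | ⟨k, t, e, P, f₁, a, b, c, d, g⟩ | h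
  · exact Or.inl h
  · exact Or.inr (Or.inl h)
  · obtain ⟨rfl, rfl⟩ : t = 5 ∧ k = 1 := by
      have := Nat.le_of_dvd (by norm_num) (Dvd.intro _ a)
      interval_cases t <;> omega
    iterate 2 right
    exact Or.inl ⟨D, d, e⟩
  · omega
  · obtain rfl : r = 5 := ((Nat.prime_dvd_prime_iff_eq a (by norm_num)).1 c)
    iterate 3 right
    refine Or.inl ⟨?_, K, d, e, f⟩
    by_contra h
    obtain rfl : q = 2 := by omega
    exact field_five_two hF d e (f.le.trans inf_le_left) hH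
  · have := Nat.le_of_dvd (by norm_num) (Dvd.intro _ a)
    interval_cases n₁ <;> omega
  · iterate 4 right
    exact Or.inl h
  · exact absurd a (by decide)
  · iterate 5 right
    exact Or.inl h
  · obtain ⟨rfl, rfl⟩ : r = 5 ∧ k = 1 := by
      obtain ⟨h1, h2, -⟩ := pow_eq_cases b a.two_le (by norm_num)
      have : ∀ r ≤ 5, ∀ k < 5, r ^ k = 5 → r = 5 ∧ k = 1 := by decide +kernel
      exact this r h1 k h2 b
    iterate 6 right
    rcases h with ⟨-, -, ⟨e', h1⟩, h2, h3⟩ | ⟨h, -⟩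
    · exact Or.inl ⟨p, R, c, d, minField_five h1 hF, e, f, g, h2, h3, i⟩
    · exact absurd h (by decide)
  · obtain ⟨h1, h2, -⟩ := pow_eq_cases a (by omega) (by norm_num)
    have : ∀ k ≤ 5, ∀ t < 5, k ^ t = 5 → 3 ≤ k → 2 ≤ t → False := by decide +kernel
    exact (this k h1 t h2 a b c).elim
  · iterate 7 right
    exact h

end Cfsg.Agent.S5796
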