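import Mathlib
import Cfsg.Statements.S5802
import Cfsg.Agent.Lib.AschF.URow
import Cfsg.Agent.Lib.Asch.XF62
import Cfsg.Agent.Lib.Asch.CertS
-- import your own Cfsg.Agent.* helpers here

set_option autoImplicit false
open Cfsg

namespace Cfsg.Agent.S5802

open H28.AF H10.Asch Cfsg.Geo in

/-- Every maximal subgroup of SU_6(q) is of one of the listed geometric types or lies in the residual class. Let F be the field with q² elements, f the standard unitary form Σ u_i v_i^q on F^6, and H a maximal subgroup of SU_6(q) (inside GL_6(F)). Then H is the intersection with SU_6(q) of one of: the stabiliser of a non-zero totally isotropic subspace; the stabiliser of a non-degenerate 1- or 2-space; for q ≥ 3, the stabiliser of a decomposition into six mutually orthogonal non-degenerate 1-spaces; for q ≥ 3, of a decomposition into three mutually orthogonal non-degenerate 2-spaces; of a decomposition into two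 orthogonal non-degenerate 3-spaces; of a decomposition into two totally isotropic 3-spaces; for q ≥ 3, the normaliser of an adjoint-closed degree-3 subfield of the matrix algebra; for q ≥ 3, the stabiliser of a tensor decomposition of f into unitary forms on F^2 and F^3; a subfield group of odd prime index whose F₀-structure carries f; a subfield group of index 2 and symplectic type; for q odd, a subfield group of index 2 and orthogonal type — or else H lies in the residual class of the unitary case. -/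
theorem result {F : Type*} [Field F] [Fintype F] (q : ℕ) (hF : Fintype.card F = q ^ 2) (H : Subgroup (Matrix.GeneralLinearGroup (Fin 6) F)) (hH : Cfsg.Geo.IsMaximalIn (Cfsg.GU 6 F q ⊓ Cfsg.Geo.specialLinear (Fin 6) F) H) :
    (∃ W : Submodule F (Fin 6 → F), W ≠ ⊥ ∧ Cfsg.Geo.IsTotallySingularFor (Cfsg.hermForm 6 F q) W ∧ H = Cfsg.Geo.subspaceStabilizer W ⊓ (Cfsg.GU 6 F q ⊓ Cfsg.Geo.specialLinear (Fin 6) F)) ∨
    (∃ W : Submodule F (Fin 6 → F), W ≠ ⊥ ∧ Cfsg.Geo.IsNondegenerateOn (Cfsg.hermForm 6 F q) W ∧ 2 * Module.finrank F W < 6 ∧ H = Cfsg.Geo.subspaceStabilizer W ⊓ (Cfsg.GU 6 F q ⊓ Cfsg.Geo.specialLinear (Fin 6) F)) ∨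
    (3 ≤ q ∧ ∃ D : Fin 6 → Submodule F (Fin 6 → F), Cfsg.Geo.IsNondegenerateMDecomposition (Cfsg.hermForm 6 F q) 1 D ∧ H = Cfsg.Geo.decompositionStabilizer D ⊓ (Cfsg.GU 6 F q ⊓ Cfsg.Geo.specialLinear (Fin 6) F)) ∨
    (3 ≤ q ∧ ∃ D : Fin 3 → Submodule F (Fin 6 → F), Cfsg.Geo.IsNondegenerateMDecomposition (Cfsg.hermForm 6 F q) 2 D ∧ H = Cfsg.Geo.decompositionStabilizer D ⊓ (Cfsg.GU 6 F q ⊓ Cfsg.Geo.specialLinear (Fin 6) F)) ∨
    (∃ D : Fin 2 → Submodule F (Fin 6 → F), Cfsg.Geo.IsNondegenerateMDecomposition (Cfsg.hermForm 6 F q) 3 D ∧ H = Cfsg.Geo.decompositionStabilizer D ⊓ (Cfsg.GU 6 F q ⊓ Cfsg.Geo.specialLinear (Fin 6) F)) ∨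
    (∃ D : Fin 2 → Submodule F (Fin 6 → F), Cfsg.Geo.IsMDecomposition 3 D ∧ (∀ i, Cfsg.Geo.IsTotallySingularFor (Cfsg.hermForm 6 F q) (D i)) ∧ H = Cfsg.Geo.decompositionStabilizer D ⊓ (Cfsg.GU 6 F q ⊓ Cfsg.Geo.specialLinear (Fin 6) F)) ∨
    (3 ≤ q ∧ ∃ K : Subalgebra F (Matrix (Fin 6) (Fin 6) F), Cfsg.Geo.IsFieldSubalgebra 3 K ∧ Cfsg.Geo.IsAdjointClosedFor (Cfsg.hermForm 6 F q) K ∧ H = Cfsg.Geo.subalgebraNormalizer K ⊓ (Cfsg.GU 6 F q ⊓ Cfsg.Geo.specialLinear (Fin 6) F)) ∨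
    (3 ≤ q ∧ ∃ (e : Fin 6 ≃ Fin 2 × Fin 3) (P : Matrix.GeneralLinearGroup (Fin 6) F) (f₁ : (Fin 2 → F) → (Fin 2 → F) → F) (f₂ : (Fin 3 → F) → (Fin 3 → F) → F), Cfsg.Geo.IsUnitaryFormPow q f₁ ∧ Cfsg.Geo.IsUnitaryFormPow q f₂ ∧ Cfsg.Geo.IsTensorFormStructure (fun x : F => x ^ q) (Cfsg.hermForm 6 F q) f₁ f₂ e P ∧ H = Cfsg.Geo.tensorProductSubgroup 2 3 e P ⊓ (Cfsg.GU 6 F q ⊓ Cfsg.Geo.specialLinear (Fin 6) F)) ∨
    (∃ (F₀ : Subfield F) (r : ℕ) (P : Matrix.GeneralLinearGroup (Fin 6) F), r.Prime ∧ Odd r ∧ Fintype.card F = Nat.card F₀ ^ r ∧ Cfsg.Geo.IsFormRationalStructure (Cfsg.hermForm 6 F q) F₀ 1 P ∧ H = Cfsg.Geo.subfieldSubgroup F₀ P ⊓ (Cfsg.GU 6 F q ⊓ Cfsg.Geo.specialLinear (Fin 6) F)) ∨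
    (∃ (F₀ : Subfield F) (P : Matrix.GeneralLinearGroup (Fin 6) F) (ζ : F), Fintype.card F = Nat.card F₀ ^ 2 ∧ ζ ≠ 0 ∧ ζ + ζ ^ q = 0 ∧ Cfsg.Geo.IsFormRationalStructure (Cfsg.hermForm 6 F q) F₀ ζ P ∧ (∀ u : Fin 6 → F, (∀ i, u i ∈ F₀) → (Cfsg.hermForm 6 F q) (Matrix.mulVec (P : Matrix (Fin 6) (Fin 6) F) u) (Matrix.mulVec (P : Matrix (Fin 6) (Fin 6) F) u) = 0) ∧ H = Cfsg.Geo.subfieldSubgroup F₀ P ⊓ (Cfsg.GU 6 F q ⊓ Cfsg.Geo.specialLinear (Fin 6) F)) ∨
    (Odd q ∧ ∃ (F₀ : Subfield F) (P : Matrix.GeneralLinearGroup (Fin 6) F), Fintype.card F = Nat.card F₀ ^ 2 ∧ Cfsg.Geo.IsFormRationalStructure (Cfsg.hermForm 6 F q) F₀ 1 P ∧ H = Cfsg.Geo.subfieldSubgroup F₀ P ⊓ (Cfsg.GU 6 F q ⊓ Cfsg.Geo.specialLinear (Fin 6) F)) ∨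
    Cfsg.Geo.InUnitaryResidualClass H := by
  have hq2 : 2 ≤ q := by
    have := Fintype.one_lt_card (α := F)
    by_contra h
    obtain rfl | rfl : q = 0 ∨ q = 1 := by omega
    all_goals omega
  rcases su_max_cases hF (by norm_num) (by omega) hH with h | h | ⟨t, k, D, a, b, c, d, e⟩ |
    ⟨k, D, a, b, c, d⟩ | ⟨r, K, a, b, c, d, e, f⟩ | ⟨n₁, n₂, e, P, f₁, f₂, a, b, c, d, g⟩ | h | ⟨a, h⟩ | h |
    ⟨r, k, p, R, a, b, c, d, e, f, g, h, j, i⟩ | ⟨k, t, e, P, f₁, a, b, c, d, g⟩ | h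
  · exact Or.inl h
  · exact Or.inr (Or.inl h)
  · obtain ⟨rfl, rfl⟩ | ⟨rfl, rfl⟩ | ⟨rfl, rfl⟩ : (t = 6 ∧ k = 1) ∨ (t = 3 ∧ k = 2) ∨ (t = 2 ∧ k = 3) := by
      have := Nat.le_of_dvd (by norm_num) (Dvd.intro _ a)
      interval_cases t <;> omega
    · iterate 2 right
      refine Or.inl ⟨?_, D, d, e⟩
      by_contra h
      obtain rfl : q = 2 := by omega
      exact frame_six_two hF d (e.le.trans inf_le_left) hH
    · iterate 3 right
      exact Or.inl ⟨c rfl, D, d, e⟩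
    · iterate 4 right
      exact Or.inl ⟨D, d, e⟩
  · obtain rfl : k = 3 := by omega
    iterate 5 right
    exact Or.inl ⟨D, b, c, d⟩
  · obtain rfl : r = 3 := by
      have := Nat.le_of_dvd (by norm_num) c
      interval_cases r <;> first | rfl | exact absurd c (by decide) | exact absurd b (by decide) | exact absurd a (by decide)
    iterate 6 right
    refine Or.inl ⟨?_, K, d, e, f⟩
    by_contra h
    obtain rfl : q = 2 := by omega
    exact field_six_two hF d e (f.le.trans inf_le_left) hH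
  · obtain ⟨rfl, rfl⟩ : (n₁ = 2 ∧ n₂ = 3) := by
      have := Nat.le_of_dvd (by norm_num) (Dvd.intro _ a)
      interval_cases n₁ <;> omega
    iterate 7 right
    exact Or.inl ⟨d rfl, e, P, f₁, f₂, g⟩
  · iterate 8 right
    exact Or.inl h
  · iterate 9 right
    exact Or.inl h
  · iterate 10 right
    exact Or.inl h
  · obtain ⟨h1, h2, -⟩ := pow_eq_cases b a.two_le (by norm_num)
    have : ∀ r ≤ 6, ∀ k < 6, r ^ k = 6 → r.Prime → False := by decide +kernel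
    exact (this r h1 k h2 b a).elim
  · obtain ⟨h1, h2, -⟩ := pow_eq_cases a (by omega) (by norm_num)
    have : ∀ k ≤ 6, ∀ t < 6, k ^ t = 6 → 3 ≤ k → 2 ≤ t → False := by decide +kernel
    exact (this k h1 t h2 a b c).elim
  · iterate 11 right
    exact h

end Cfsg.Agent.S5802
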