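import Cfsg.Statements.S5805
import Mathlib
import Cfsg.Agent.Lib.AschF.SpRow

set_option autoImplicit false
open Cfsg

namespace Cfsg.Agent.S5805

open H28.AF H10.Asch Cfsg.Geo in

/-- Every maximal subgroup of Sp_6(q) is of one of the listed geometric types or lies in the residual class. Let F be a finite field with q elements, f the standard alternating form on F^6 (coordinates Fin 3 ⊕ Fin 3), and H a maximal subgroup of Sp_6(F) (inside GL_6(F)). Then H is the intersection with Sp_6(F) of one of: the stabiliser of a non-zero totally isotropic subspace; the stabiliser of a non-degenerate 2-space; for q ≥ 3, the stabiliser of a decomposition into three mutually orthogonal non-degenerate 2-spaces; for q odd, of a decomposition into two totally isotropic 3-spaces; the normaliser of a degree-3 subfield K of the matrix algebra, self-adjoint with f(k v, v) = 0; for q odd, the normaliser of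 a degree-2 subfield closed under adjoints but not self-adjoint; for q odd, q ≥ 5, the stabiliser of a tensor decomposition of f into an alternating form on F^2 and a symmetric form on F^3; a subfield group (|F| = |F₀|^r, r prime) whose F₀-structure carries a non-zero multiple of f; for q even, the similarity group of a non-degenerate quadratic form polarising to f — or else H lies in the residual class of the symplectic case. -/
theorem result {F : Type*} [Field F] [Fintype F] (H : Subgroup (Matrix.GeneralLinearGroup (Fin 3 ⊕ Fin 3) F)) (hH : Cfsg.Geo.IsMaximalIn (Cfsg.spGL 3 F) H) :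
    (∃ W : Submodule F (Fin 3 ⊕ Fin 3 → F), W ≠ ⊥ ∧ Cfsg.Geo.IsTotallySingularFor (Cfsg.sympForm 3 F) W ∧ H = Cfsg.Geo.subspaceStabilizer W ⊓ Cfsg.spGL 3 F) ∨
    (∃ W : Submodule F (Fin 3 ⊕ Fin 3 → F), W ≠ ⊥ ∧ Cfsg.Geo.IsNondegenerateOn (Cfsg.sympForm 3 F) W ∧ Module.finrank F W < 3 ∧ H = Cfsg.Geo.subspaceStabilizer W ⊓ Cfsg.spGL 3 F) ∨
    (3 ≤ Fintype.card F ∧ ∃ D : Fin 3 → Submodule F (Fin 3 ⊕ Fin 3 → F), Cfsg.Geo.IsNondegenerateMDecomposition (Cfsg.sympForm 3 F) 2 D ∧ H = Cfsg.Geo.decompositionStabilizer D ⊓ Cfsg.spGL 3 F) ∨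
    (Odd (Fintype.card F) ∧ ∃ D : Fin 2 → Submodule F (Fin 3 ⊕ Fin 3 → F), Cfsg.Geo.IsMDecomposition 3 D ∧ (∀ i, Cfsg.Geo.IsTotallySingularFor (Cfsg.sympForm 3 F) (D i)) ∧ H = Cfsg.Geo.decompositionStabilizer D ⊓ Cfsg.spGL 3 F) ∨
    (∃ K : Subalgebra F (Matrix (Fin 3 ⊕ Fin 3) (Fin 3 ⊕ Fin 3) F), Cfsg.Geo.IsFieldSubalgebra 3 K ∧ Cfsg.Geo.IsSelfAdjointFor (Cfsg.sympForm 3 F) K ∧ (∀ k ∈ K, ∀ v : (Fin 3 ⊕ Fin 3 → F), (Cfsg.sympForm 3 F) (Matrix.mulVec k v) v = 0) ∧ H = Cfsg.Geo.subalgebraNormalizer K ⊓ Cfsg.spGL 3 F) ∨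
    (Odd (Fintype.card F) ∧ ∃ K : Subalgebra F (Matrix (Fin 3 ⊕ Fin 3) (Fin 3 ⊕ Fin 3) F), Cfsg.Geo.IsFieldSubalgebra 2 K ∧ Cfsg.Geo.IsAdjointClosedFor (Cfsg.sympForm 3 F) K ∧ ¬ Cfsg.Geo.IsSelfAdjointFor (Cfsg.sympForm 3 F) K ∧ H = Cfsg.Geo.subalgebraNormalizer K ⊓ Cfsg.spGL 3 F) ∨
    (Odd (Fintype.card F) ∧ 5 ≤ Fintype.card F ∧ ∃ (e : (Fin 3 ⊕ Fin 3) ≃ Fin 2 × Fin 3) (P : Matrix.GeneralLinearGroup (Fin 3 ⊕ Fin 3) F) (f₁ : (Fin 2 → F) → (Fin 2 → F) → F) (f₂ : (Fin 3 → F) → (Fin 3 → F) → F), Cfsg.Geo.IsSymplecticForm f₁ ∧ Cfsg.Geo.IsSymmetricForm f₂ ∧ Cfsg.Geo.IsTensorFormStructure id (Cfsg.sympForm 3 F) f₁ f₂ e P ∧ H = Cfsg.Geo.tensorProductSubgroup 2 3 e P ⊓ Cfsg.spGL 3 F) ∨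
    (∃ (F₀ : Subfield F) (r : ℕ) (P : Matrix.GeneralLinearGroup (Fin 3 ⊕ Fin 3) F) (ζ : F), r.Prime ∧ Fintype.card F = Nat.card F₀ ^ r ∧ ζ ≠ 0 ∧ Cfsg.Geo.IsFormRationalStructure (Cfsg.sympForm 3 F) F₀ ζ P ∧ H = Cfsg.Geo.subfieldSubgroup F₀ P ⊓ Cfsg.spGL 3 F) ∨
    (¬ Odd (Fintype.card F) ∧ ∃ Q : (Fin 3 ⊕ Fin 3 → F) → F, Cfsg.Geo.IsNondegenerateQuadraticForm Q ∧ (∀ u v : (Fin 3 ⊕ Fin 3 → F), QuadraticMap.polar Q u v = (Cfsg.sympForm 3 F) u v) ∧ H = Cfsg.Geo.quadSimilarityGroup Q ⊓ Cfsg.spGL 3 F) ∨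
    Cfsg.Geo.InSymplecticResidualClass H := by
  rcases sp_max_cases (by norm_num) (by omega) hH (spEx4_of_ne _ _ (by simp)) (spEx8_of_ne _ _ (by simp)) with h | ⟨a, h⟩ |
    ⟨t, k, D, a, b, b', c, d⟩ | ⟨a, b, h⟩ | ⟨r, K, a, b, c⟩ | ⟨a, b, h⟩ |
    ⟨o, n₁, n₂, e, P, f₁, f₂, a, b, b', c, d, d', g, g', i⟩ | h | ⟨k, p, R, a, b, c, d⟩ |
    ⟨o, k, t, e, P, f₁, a, b, c, d, g⟩ | h | h
  · exact Or.inl h
  · exact Or.inr (Or.inl h)
  · obtain ⟨rfl, rfl⟩ : (t = 3 ∧ k = 2) := by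
      have := Nat.le_of_dvd (by norm_num) (Dvd.intro _ a)
      obtain ⟨j, hj⟩ := b'
      interval_cases t <;> omega
    iterate 2 right
    exact Or.inl ⟨c rfl, D, d⟩
  · iterate 3 right
    exact Or.inl ⟨a, h⟩
  · obtain rfl : (r = 3) := by
      have := Nat.le_of_dvd (by norm_num) b
      interval_cases r <;> first | decide | exact absurd b (by decide) | exact absurd a (by decide)
    iterate 4 right
    exact Or.inl ⟨K, c⟩
  · iterate 5 right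
    exact Or.inl ⟨a, h⟩
  · obtain ⟨rfl, rfl⟩ : (n₁ = 2 ∧ n₂ = 3) := by
      have := Nat.le_of_dvd (by norm_num) (Dvd.intro _ a)
      obtain ⟨j, hj⟩ := b'
      interval_cases n₁ <;> omega
    iterate 6 right
    exact Or.inl ⟨o, d rfl, e, P, f₁, f₂, g, g', i⟩
  · iterate 7 right
    exact Or.inl h
  · obtain ⟨-, h2, -⟩ := pow_eq_cases a le_rfl (by norm_num)
    have : ∀ k < 6, 2 ^ k ≠ 6 := by decide +kernel
    exact absurd a (this k h2)
  · obtain ⟨h1, h2, -⟩ := pow_eq_cases a b (by norm_num)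
    have : ∀ k ≤ 6, ∀ t < 6, k ^ t = 6 → 3 ≤ t → False := by decide +kernel
    exact (this k h1 t h2 a c).elim
  · iterate 8 right
    exact Or.inl h
  · iterate 9 right
    exact h

end Cfsg.Agent.S5805
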