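import Mathlib
import Cfsg.Statements.S5808
import Cfsg.Agent.Lib.Asch.ExclL
-- import your own Cfsg.Agent.* helpers here

set_option autoImplicit false
open Cfsg

namespace Cfsg.Agent.S5808

/-- Every maximal subgroup of SL_7(q) is of one of the listed geometric types or lies in the residual class. Let F be a finite field with q elements (p its characteristic) and H a maximal subgroup of SL_7(F) (inside GL_7(F)). Then H is the intersection with SL_7(F) of one of: the stabiliser of a proper non-zero subspace; for q ≥ 5, the stabiliser of a decomposition into 7 independent 1-spaces; the normaliser of a degree-7 subfield of the matrix algebra; a subfield group for a subfield F₀ with |F| = |F₀|^r, r prime; for q = p prime with p ≡ 1 mod 7, or q = p³ with p ≡ 2 or 4 mod 7, the normaliser of an absolutely irreducible 7-subgroup R of exponent 7 and order 7^(1+2m) with centre of order 7, all of whose characteristic abelian subgroups are cyclic, F being the smallest field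 of characteristic p containing the seventh roots of unity (here R is extraspecial of order 343); for q odd, the similarity group of a non-degenerate quadratic form; the similarity group of a non-degenerate unitary form — or else H lies in the residual class of the linear case (modulo scalars H is almost simple, with absolutely irreducible perfect socle preimage realisable over no proper subfield and fixing no non-degenerate quadratic, symplectic or unitary form). -/
theorem result {F : Type*} [Field F] [Fintype F] (H : Subgroup (Matrix.GeneralLinearGroup (Fin 7) F)) (hH : Cfsg.Geo.IsMaximalIn (Cfsg.Geo.specialLinear (Fin 7) F) H) :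
    (∃ W : Submodule F (Fin 7 → F), W ≠ ⊥ ∧ W ≠ ⊤ ∧ H = Cfsg.Geo.subspaceStabilizer W ⊓ Cfsg.Geo.specialLinear (Fin 7) F) ∨
    (5 ≤ Fintype.card F ∧ ∃ D : Fin 7 → Submodule F (Fin 7 → F), Cfsg.Geo.IsMDecomposition 1 D ∧ H = Cfsg.Geo.decompositionStabilizer D ⊓ Cfsg.Geo.specialLinear (Fin 7) F) ∨
    (∃ K : Subalgebra F (Matrix (Fin 7) (Fin 7) F), Cfsg.Geo.IsFieldSubalgebra 7 K ∧ H = Cfsg.Geo.subalgebraNormalizer K ⊓ Cfsg.Geo.specialLinear (Fin 7) F) ∨
    (∃ (F₀ : Subfield F) (r : ℕ) (P : Matrix.GeneralLinearGroup (Fin 7) F), r.Prime ∧ Fintype.card F = Nat.card F₀ ^ r ∧ H = Cfsg.Geo.subfieldSubgroup F₀ P ⊓ Cfsg.Geo.specialLinear (Fin 7) F) ∨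
    ((∃ p : ℕ, p.Prime ∧ CharP F p ∧ ((Fintype.card F = p ∧ p % 7 = 1) ∨ (Fintype.card F = p ^ 3 ∧ (p % 7 = 2 ∨ p % 7 = 4)))) ∧ ∃ R : Subgroup (Matrix.GeneralLinearGroup (Fin 7) F), Cfsg.Geo.IsLinearSymplecticTypeData 7 R ∧ H = Cfsg.Geo.subgroupNormalizer R ⊓ Cfsg.Geo.specialLinear (Fin 7) F) ∨
    (Odd (Fintype.card F) ∧ ∃ Q : (Fin 7 → F) → F, Cfsg.Geo.IsNondegenerateQuadraticForm Q ∧ H = Cfsg.Geo.quadSimilarityGroup Q ⊓ Cfsg.Geo.specialLinear (Fin 7) F) ∨
    (∃ (σ : F ≃+* F) (f : (Fin 7 → F) → (Fin 7 → F) → F), Cfsg.Geo.IsUnitaryForm σ f ∧ H = Cfsg.Geo.similarityGroup f ⊓ Cfsg.Geo.specialLinear (Fin 7) F) ∨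
    Cfsg.Geo.InLinearResidualClass H := by
  rcases H10.Asch.sl_cases (by norm_num) hH with h | ⟨t, m, h1, h2, h3, h4, h5, h6, h⟩ |
    ⟨r, hr, hd, h1, h⟩ | ⟨a, b, h1, h2, h3, h4, h⟩ | h | ⟨r, m, hr, hm, hn, R, hR, h⟩ |
    ⟨m, t, h1, h2, h3, h⟩ | h | ⟨h1, h⟩ | h | h
  · exact Or.inl h
  · have hc : (t = 7 ∧ m = 1) := by
      have : t ≤ 7 := Nat.le_of_dvd (by norm_num) ⟨m, h1.symm⟩
      interval_cases t <;> omega
    rcases hc with ⟨rfl, rfl⟩
    · exact Or.inr (Or.inl ⟨by omega, h⟩)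
  · have hc : r = 7 := by
      have := Nat.le_of_dvd (by norm_num) hd
      interval_cases r <;> first | omega | norm_num at hr
    rcases hc with rfl
    · exact Or.inr (Or.inr (Or.inl h))
  · have : a ≤ 3 := by nlinarith
    interval_cases a <;> omega
  · exact Or.inr (Or.inr (Or.inr (Or.inl h)))
  · have hd : r ∣ 7 := hn ▸ dvd_pow_self r (by omega)
    have hc : r = 7 := by
      have := Nat.le_of_dvd (by norm_num) hd
      interval_cases r <;> first | omega | norm_num at hr
    subst hc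
    obtain ⟨p, e, hp, hc, hF, a1, a2, a3, a4, a5⟩ :=
      H10.Asch.IsLinearSymplecticTypeData.odd_nat hR (by norm_num)
    have key : ∀ k < 7, ∀ e < 7, Odd e → k ^ e % 7 = 1 →
        (∀ d < 7, 0 < d → k ^ d % 7 = 1 → e ≤ d) → (e = 1 ∧ k = 1) ∨ (e = 3 ∧ (k = 2 ∨ k = 4)) := by
      set_option synthInstance.maxSize 4000 in decide +kernel
    refine Or.inr (Or.inr (Or.inr (Or.inr (Or.inl ⟨⟨p, hp, hc, ?_⟩, R, hR, h⟩))))
    rcases key _ a1 _ a2 a3 a4 a5 with ⟨rfl, h1⟩ | ⟨rfl, h1⟩
    · exact Or.inl ⟨by rw [hF, pow_one], h1⟩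
    · exact Or.inr ⟨hF, h1⟩
  · obtain ⟨rfl, rfl⟩ := H10.Asch.pow_le_fifteen h1 h2 (by omega)
    omega
  · exact Or.inr (Or.inr (Or.inr (Or.inr (Or.inr (Or.inl h)))))
  · exact absurd h1 (by decide)
  · exact Or.inr (Or.inr (Or.inr (Or.inr (Or.inr (Or.inr (Or.inl h))))))
  · exact Or.inr (Or.inr (Or.inr (Or.inr (Or.inr (Or.inr (Or.inr (h)))))))

end Cfsg.Agent.S5808
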