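import Cfsg.Statements.S5811
import Mathlib
import Cfsg.Agent.Lib.AschF.URow

set_option autoImplicit false
open Cfsg

namespace Cfsg.Agent.S5811

open H28.AF H10.Asch Cfsg.Geo in

/-- Every maximal subgroup of SU_7(q) is of one of the listed geometric types or lies in the residual class. Let F be the field with q² elements (characteristic p), f the standard unitary form Σ u_i v_i^q on F^7, and H a maximal subgroup of SU_7(q) (inside GL_7(F)). Then H is the intersection with SU_7(q) of one of: the stabiliser of a non-zero totally isotropic subspace; the stabiliser of a non-degenerate 1-, 2- or 3-space; the stabiliser of a decomposition into seven mutually orthogonal non-degenerate 1-spaces; the normaliser of an adjoint-closed degree-7 subfield of the matrix algebra; a subfield group of odd prime index whose F₀-structure carries f; for q odd, a subfield group of index 2 whose F₀-structure carries f; for q = p prime with p ≡ 6 mod 7, or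 q = p³ with p ≡ 3 or 5 mod 7, the normaliser of an absolutely irreducible 7-group R of exponent 7, order 343 and centre of order 7, all of whose characteristic abelian subgroups are cyclic, contained in the similarity group of f — or else H lies in the residual class of the unitary case (modulo scalars H is almost simple, with absolutely irreducible perfect socle preimage realisable over no proper subfield and fixing no non-degenerate quadratic or symplectic form). -/
theorem result {F : Type*} [Field F] [Fintype F] (q : ℕ) (hF : Fintype.card F = q ^ 2) (H : Subgroup (Matrix.GeneralLinearGroup (Fin 7) F)) (hH : Cfsg.Geo.IsMaximalIn (Cfsg.GU 7 F q ⊓ Cfsg.Geo.specialLinear (Fin 7) F) H) :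
    (∃ W : Submodule F (Fin 7 → F), W ≠ ⊥ ∧ Cfsg.Geo.IsTotallySingularFor (Cfsg.hermForm 7 F q) W ∧ H = Cfsg.Geo.subspaceStabilizer W ⊓ (Cfsg.GU 7 F q ⊓ Cfsg.Geo.specialLinear (Fin 7) F)) ∨
    (∃ W : Submodule F (Fin 7 → F), W ≠ ⊥ ∧ Cfsg.Geo.IsNondegenerateOn (Cfsg.hermForm 7 F q) W ∧ 2 * Module.finrank F W < 7 ∧ H = Cfsg.Geo.subspaceStabilizer W ⊓ (Cfsg.GU 7 F q ⊓ Cfsg.Geo.specialLinear (Fin 7) F)) ∨
    (∃ D : Fin 7 → Submodule F (Fin 7 → F), Cfsg.Geo.IsNondegenerateMDecomposition (Cfsg.hermForm 7 F q) 1 D ∧ H = Cfsg.Geo.decompositionStabilizer D ⊓ (Cfsg.GU 7 F q ⊓ Cfsg.Geo.specialLinear (Fin 7) F)) ∨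
    (∃ K : Subalgebra F (Matrix (Fin 7) (Fin 7) F), Cfsg.Geo.IsFieldSubalgebra 7 K ∧ Cfsg.Geo.IsAdjointClosedFor (Cfsg.hermForm 7 F q) K ∧ H = Cfsg.Geo.subalgebraNormalizer K ⊓ (Cfsg.GU 7 F q ⊓ Cfsg.Geo.specialLinear (Fin 7) F)) ∨
    (∃ (F₀ : Subfield F) (r : ℕ) (P : Matrix.GeneralLinearGroup (Fin 7) F), r.Prime ∧ Odd r ∧ Fintype.card F = Nat.card F₀ ^ r ∧ Cfsg.Geo.IsFormRationalStructure (Cfsg.hermForm 7 F q) F₀ 1 P ∧ H = Cfsg.Geo.subfieldSubgroup F₀ P ⊓ (Cfsg.GU 7 F q ⊓ Cfsg.Geo.specialLinear (Fin 7) F)) ∨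
    (Odd q ∧ ∃ (F₀ : Subfield F) (P : Matrix.GeneralLinearGroup (Fin 7) F), Fintype.card F = Nat.card F₀ ^ 2 ∧ Cfsg.Geo.IsFormRationalStructure (Cfsg.hermForm 7 F q) F₀ 1 P ∧ H = Cfsg.Geo.subfieldSubgroup F₀ P ⊓ (Cfsg.GU 7 F q ⊓ Cfsg.Geo.specialLinear (Fin 7) F)) ∨
    (∃ (p : ℕ) (R : Subgroup (Matrix.GeneralLinearGroup (Fin 7) F)), p.Prime ∧ CharP F p ∧ ((q = p ∧ p % 7 = 6) ∨ (q = p ^ 3 ∧ (p % 7 = 3 ∨ p % 7 = 5))) ∧ Cfsg.Geo.IsSymplecticTypeGroup 7 R ∧ Cfsg.Geo.ActsAbsolutelyIrreducibly (Cfsg.Geo.matrixSet R) ∧ R ≤ Cfsg.Geo.similarityGroup (Cfsg.hermForm 7 F q) ∧ Nat.card R = 343 ∧ Nat.card (Subgroup.center R) = 7 ∧ H = Cfsg.Geo.subgroupNormalizer R ⊓ (Cfsg.GU 7 F q ⊓ Cfsg.Geo.specialLinear (Fin 7) F)) ∨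
    Cfsg.Geo.InUnitaryResidualClass H := by
  rcases su_max_cases hF (by norm_num) (by omega) hH with h | h | ⟨t, k, D, a, b, c, d, e⟩ |
    ⟨k, D, a, b⟩ | ⟨r, K, a, b, c, d⟩ | ⟨n₁, n₂, e, P, f₁, f₂, a, b, c, d, g⟩ | h | ⟨a, h⟩ | h |
    ⟨r, k, p, R, a, b, c, d, e, f, g, h, -, i⟩ | ⟨k, t, e, P, f₁, a, b, c, d, g⟩ | h
  · exact Or.inl h
  · exact Or.inr (Or.inl h)
  · obtain ⟨rfl, rfl⟩ : (t = 7 ∧ k = 1) := by
      have := Nat.le_of_dvd (by norm_num) (Dvd.intro _ a)
      interval_cases t <;> omega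
    iterate 2 right
    exact Or.inl ⟨D, d, e⟩
  · omega
  · obtain rfl : r = 7 := by
      have := Nat.le_of_dvd (by norm_num) c
      interval_cases r <;> first | rfl | exact absurd c (by decide) | exact absurd b (by decide) | exact absurd a (by decide)
    iterate 3 right
    exact Or.inl ⟨K, d⟩
  · have := Nat.le_of_dvd (by norm_num) (Dvd.intro _ a)
    interval_cases n₁ <;> omega
  · iterate 4 right
    exact Or.inl h
  · exact absurd a (by decide)
  · iterate 5 right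
    exact Or.inl h
  · obtain ⟨rfl, rfl⟩ : r = 7 ∧ k = 1 := by
      obtain ⟨h1, h2, -⟩ := pow_eq_cases b a.two_le (by norm_num)
      have : ∀ r ≤ 7, ∀ k < 7, r ^ k = 7 → r.Prime → r = 7 ∧ k = 1 := by decide +kernel
      exact this r h1 k h2 b a
    iterate 6 right
    rcases h with ⟨-, h0, ⟨e', h1⟩, h2, h3⟩ | ⟨h, -⟩
    · exact Or.inl ⟨p, R, c, d, minField_seven h1 hF, e, f, g, h2, h3, i⟩
    · omega
  · obtain ⟨h1, h2, -⟩ := pow_eq_cases a (by omega) (by norm_num)
    have : ∀ k ≤ 7, ∀ t < 7, k ^ t = 7 → 3 ≤ k → 2 ≤ t → False := by decide +kernel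
    exact (this k h1 t h2 a b c).elim
  · iterate 7 right
    exact h

end Cfsg.Agent.S5811
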