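import Mathlib
import Cfsg.Statements.S5826
import Cfsg.Agent.Lib.Orth12.Asch7

set_option autoImplicit false
open Cfsg

namespace Cfsg.Agent.S5826

open Matrix Cfsg.Geo H10.Asch H28.AF H12.A Module QuadraticMap

/-- Every maximal subgroup of Ω_8^-(q) is of one of the listed geometric types or lies in the residual class. Let F be a finite field with q elements, Q a non-degenerate quadratic form on F^8 of minus type (no totally singular 4-space), Ω the commutator subgroup of its isometry group, and H a maximal subgroup of Ω (inside GL_8(F)). Then H is the intersection with Ω of one of: the stabiliser of a non-zero totally singular subspace; for q odd, the stabiliser of a non-degenerate subspace of odd dimension; the stabiliser of a non-degenerate 2-space of minus type; for q ≥ 4, the stabiliser of a non-degenerate 2-space of plus type; the stabiliser of a non-degenerate 4-space; for q even, the stabiliser of the span of a non-singular vector; the normaliser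 of a degree-2 subfield of the matrix algebra; a subfield group of odd prime index whose F₀-structure carries a non-zero multiple of Q — or else H lies in the residual class of the orthogonal case (modulo scalars H is almost simple, with absolutely irreducible perfect socle preimage realisable over no proper subfield and fixing no non-degenerate unitary form). -/
theorem result {F : Type*} [Field F] [Fintype F] (Q : (Fin 8 → F) → F) (hQ : Cfsg.Geo.IsNondegenerateQuadraticForm Q) (hminus : ¬ Cfsg.Geo.IsPlusTypeOn Q ⊤) (H : Subgroup (Matrix.GeneralLinearGroup (Fin 8) F)) (hH : Cfsg.Geo.IsMaximalIn (Cfsg.Geo.omegaGL Q) H) :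
    (∃ W : Submodule F (Fin 8 → F), W ≠ ⊥ ∧ Cfsg.Geo.IsTotallySingularQuad Q W ∧ H = Cfsg.Geo.subspaceStabilizer W ⊓ Cfsg.Geo.omegaGL Q) ∨
    (Odd (Fintype.card F) ∧ ∃ W : Submodule F (Fin 8 → F), W ≠ ⊥ ∧ W ≠ ⊤ ∧ Odd (Module.finrank F W) ∧ Cfsg.Geo.IsNondegenerateOn (QuadraticMap.polar Q) W ∧ H = Cfsg.Geo.subspaceStabilizer W ⊓ Cfsg.Geo.omegaGL Q) ∨
    (∃ W : Submodule F (Fin 8 → F), Module.finrank F W = 2 ∧ Cfsg.Geo.IsNondegenerateOn (QuadraticMap.polar Q) W ∧ ¬ Cfsg.Geo.IsPlusTypeOn Q W ∧ H = Cfsg.Geo.subspaceStabilizer W ⊓ Cfsg.Geo.omegaGL Q) ∨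
    (4 ≤ Fintype.card F ∧ ∃ W : Submodule F (Fin 8 → F), Module.finrank F W = 2 ∧ Cfsg.Geo.IsNondegenerateOn (QuadraticMap.polar Q) W ∧ Cfsg.Geo.IsPlusTypeOn Q W ∧ H = Cfsg.Geo.subspaceStabilizer W ⊓ Cfsg.Geo.omegaGL Q) ∨
    (∃ W : Submodule F (Fin 8 → F), Module.finrank F W = 4 ∧ Cfsg.Geo.IsNondegenerateOn (QuadraticMap.polar Q) W ∧ H = Cfsg.Geo.subspaceStabilizer W ⊓ Cfsg.Geo.omegaGL Q) ∨
    (¬ Odd (Fintype.card F) ∧ ∃ v : (Fin 8 → F), Q v ≠ 0 ∧ H = Cfsg.Geo.subspaceStabilizer (Submodule.span F {v}) ⊓ Cfsg.Geo.omegaGL Q) ∨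
    (∃ K : Subalgebra F (Matrix (Fin 8) (Fin 8) F), Cfsg.Geo.IsFieldSubalgebra 2 K ∧ H = Cfsg.Geo.subalgebraNormalizer K ⊓ Cfsg.Geo.omegaGL Q) ∨
    (∃ (F₀ : Subfield F) (r : ℕ) (P : Matrix.GeneralLinearGroup (Fin 8) F) (ζ : F), r.Prime ∧ Odd r ∧ Fintype.card F = Nat.card F₀ ^ r ∧ ζ ≠ 0 ∧ Cfsg.Geo.IsQuadFormRationalStructure (fun v : Fin 8 → F => ζ * Q v) F₀ P ∧ H = Cfsg.Geo.subfieldSubgroup F₀ P ⊓ Cfsg.Geo.omegaGL Q) ∨
    Cfsg.Geo.InOrthogonalResidualClass H := by
  obtain ⟨Q, rfl⟩ := exists_quadraticForm hQ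
  obtain ⟨S, h⟩ := exists_oq (nondeg_of hQ)
  have hn : Fintype.card (Fin 8) = 8 := Fintype.card_fin 8
  have h7 : 7 ≤ Fintype.card (Fin 8) := by omega
  have hF := fixQ_of_le hH.1.le
  by_cases hI : Irr H
  swap
  · rcases h.red_max hH h7 hI with h1 | ⟨a, W, b, c, d, -, e⟩ | h1 | h1 | h1 | h1 | ⟨W, a, b, -⟩
    · exact Or.inl (h.ts_max hH h7 h1)
    · exact Or.inr (Or.inl ⟨a, W, b, c, d, e⟩)
    · exact Or.inr (Or.inr (Or.inl h1))
    · exact Or.inr (Or.inr (Or.inr (Or.inl h1)))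
    · exact Or.inr (Or.inr (Or.inr (Or.inr (Or.inl h1))))
    · exact Or.inr (Or.inr (Or.inr (Or.inr (Or.inr (Or.inl h1)))))
    · omega
  refine Or.inr (Or.inr (Or.inr (Or.inr (Or.inr (Or.inr ?_)))))
  rcases h.main hH.1.le (by omega) hI with h1 | ⟨t, k, D, hD⟩ | ⟨k, h1⟩ | ⟨r, K, hK⟩ |
    ⟨hP, h1⟩ | h1
  · exact Or.inr (Or.inl (h.sub_max_minus hH h7 (m := 4) hn hminus h1))
  · refine absurd ?_ hminus
    obtain ⟨h1, h2⟩ := hD.card
    have : k < 5 := by nlinarith
    interval_cases k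
    · omega
    · obtain rfl : t = 8 := by omega
      exact (h.plus_iff_of_even (Dec.two_ne hD.dec odd_one) (m := 4) hn hD.dec (by decide)).2
        ⟨1, by norm_num⟩
    · obtain rfl : t = 4 := by omega
      exact plus_top_of_even hD.dec (by decide) (by decide)
    · omega
    · obtain rfl : t = 2 := by omega
      exact plus_top_of_even hD.dec (by decide) (by decide)
  · exact absurd h1.plus hminus
  · obtain rfl : r = 2 := (Nat.prime_dvd_prime_iff_eq hK.prime Nat.prime_two).1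
      (hK.prime.dvd_of_dvd_pow (n := 3) hK.dvd)
    exact Or.inl ⟨K, hK.field, h.eq3 hH h7 hK (by omega)⟩
  · refine absurd ?_ hminus
    rcases h1 with ⟨n₁, n₂, e, P, S₁, S₂, h₁, h₂, T⟩ | ⟨m, hm, hc, hp⟩ | ⟨k, t, e, P, T, -, -, -, hp⟩
    · have h3 := tens_card T
      have : n₁ < 3 := by nlinarith
      obtain rfl : n₁ = 2 := by omega
      obtain rfl : n₂ = 4 := by omega
      exact h.plus_two hF hI T (by norm_num) (by decide)
    · exact hp (by by_contra h3; obtain rfl : m = 1 := (by omega); omega)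
    · exact hp hn
  · exact Or.inr (Or.inr h1)

end Cfsg.Agent.S5826
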