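import Cfsg.Statements.S5844
import Mathlib
import Cfsg.Agent.Lib.AschF.SpRow

set_option autoImplicit false
open Cfsg

namespace Cfsg.Agent.S5844

open H28.AF H10.Asch Cfsg.Geo in

/-- Every maximal subgroup of Sp_10(q) is of one of the listed geometric types or lies in the residual class. Let F be a finite field with q elements (characteristic p), f the standard alternating form on F^10 (coordinates Fin 5 ⊕ Fin 5), and H a maximal subgroup of Sp_10(F) (inside GL_10(F)). Then H is the intersection with Sp_10(F) of one of: the stabiliser of a non-zero totally isotropic subspace; the stabiliser of a non-zero non-degenerate subspace of dimension less than 5; for q ≥ 3, the stabiliser of a decomposition into 5 mutually orthogonal non-degenerate 2-spaces; for q odd, of a decomposition into two totally isotropic 5-spaces; the normaliser of a degree-5 subfield K of the matrix algebra, self-adjoint with f(k v, v)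 = 0; for q odd, the normaliser of a degree-2 subfield closed under adjoints but not self-adjoint; for q odd, the stabiliser of a tensor decomposition of f into an alternating form on F^2 and a symmetric form on F^5; a subfield group (|F| = |F₀|^r, r prime) whose F₀-structure carries a non-zero multiple of f; for q even, the similarity group of a non-degenerate quadratic form polarising to f — or else H lies in the residual class of the symplectic case (modulo scalars H is almost simple, with absolutely irreducible perfect socle preimage realisable over no proper subfield and fixing no non-degenerate quadratic or unitary form). -/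
theorem result {F : Type*} [Field F] [Fintype F] (H : Subgroup (Matrix.GeneralLinearGroup (Fin 5 ⊕ Fin 5) F)) (hH : Cfsg.Geo.IsMaximalIn (Cfsg.spGL 5 F) H) :
    (∃ W : Submodule F (Fin 5 ⊕ Fin 5 → F), W ≠ ⊥ ∧ Cfsg.Geo.IsTotallySingularFor (Cfsg.sympForm 5 F) W ∧ H = Cfsg.Geo.subspaceStabilizer W ⊓ Cfsg.spGL 5 F) ∨
    (∃ W : Submodule F (Fin 5 ⊕ Fin 5 → F), W ≠ ⊥ ∧ Cfsg.Geo.IsNondegenerateOn (Cfsg.sympForm 5 F) W ∧ Module.finrank F W < 5 ∧ H = Cfsg.Geo.subspaceStabilizer W ⊓ Cfsg.spGL 5 F) ∨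
    (3 ≤ Fintype.card F ∧ ∃ D : Fin 5 → Submodule F (Fin 5 ⊕ Fin 5 → F), Cfsg.Geo.IsNondegenerateMDecomposition (Cfsg.sympForm 5 F) 2 D ∧ H = Cfsg.Geo.decompositionStabilizer D ⊓ Cfsg.spGL 5 F) ∨
    (Odd (Fintype.card F) ∧ ∃ D : Fin 2 → Submodule F (Fin 5 ⊕ Fin 5 → F), Cfsg.Geo.IsMDecomposition 5 D ∧ (∀ i, Cfsg.Geo.IsTotallySingularFor (Cfsg.sympForm 5 F) (D i)) ∧ H = Cfsg.Geo.decompositionStabilizer D ⊓ Cfsg.spGL 5 F) ∨
    (∃ K : Subalgebra F (Matrix (Fin 5 ⊕ Fin 5) (Fin 5 ⊕ Fin 5) F), Cfsg.Geo.IsFieldSubalgebra 5 K ∧ Cfsg.Geo.IsSelfAdjointFor (Cfsg.sympForm 5 F) K ∧ (∀ k ∈ K, ∀ v : (Fin 5 ⊕ Fin 5 → F), (Cfsg.sympForm 5 F) (Matrix.mulVec k v) v = 0) ∧ H = Cfsg.Geo.subalgebraNormalizer K ⊓ Cfsg.spGL 5 F) ∨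
    (Odd (Fintype.card F) ∧ ∃ K : Subalgebra F (Matrix (Fin 5 ⊕ Fin 5) (Fin 5 ⊕ Fin 5) F), Cfsg.Geo.IsFieldSubalgebra 2 K ∧ Cfsg.Geo.IsAdjointClosedFor (Cfsg.sympForm 5 F) K ∧ ¬ Cfsg.Geo.IsSelfAdjointFor (Cfsg.sympForm 5 F) K ∧ H = Cfsg.Geo.subalgebraNormalizer K ⊓ Cfsg.spGL 5 F) ∨
    (Odd (Fintype.card F) ∧ ∃ (e : (Fin 5 ⊕ Fin 5) ≃ Fin 2 × Fin 5) (P : Matrix.GeneralLinearGroup (Fin 5 ⊕ Fin 5) F) (f₁ : (Fin 2 → F) → (Fin 2 → F) → F) (f₂ : (Fin 5 → F) → (Fin 5 → F) → F), Cfsg.Geo.IsSymplecticForm f₁ ∧ Cfsg.Geo.IsSymmetricForm f₂ ∧ Cfsg.Geo.IsTensorFormStructure id (Cfsg.sympForm 5 F) f₁ f₂ e P ∧ H = Cfsg.Geo.tensorProductSubgroup 2 5 e P ⊓ Cfsg.spGL 5 F) ∨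
    (∃ (F₀ : Subfield F) (r : ℕ) (P : Matrix.GeneralLinearGroup (Fin 5 ⊕ Fin 5) F) (ζ : F), r.Prime ∧ Fintype.card F = Nat.card F₀ ^ r ∧ ζ ≠ 0 ∧ Cfsg.Geo.IsFormRationalStructure (Cfsg.sympForm 5 F) F₀ ζ P ∧ H = Cfsg.Geo.subfieldSubgroup F₀ P ⊓ Cfsg.spGL 5 F) ∨
    (¬ Odd (Fintype.card F) ∧ ∃ Q : (Fin 5 ⊕ Fin 5 → F) → F, Cfsg.Geo.IsNondegenerateQuadraticForm Q ∧ (∀ u v : (Fin 5 ⊕ Fin 5 → F), QuadraticMap.polar Q u v = (Cfsg.sympForm 5 F) u v) ∧ H = Cfsg.Geo.quadSimilarityGroup Q ⊓ Cfsg.spGL 5 F) ∨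
    Cfsg.Geo.InSymplecticResidualClass H := by
  rcases sp_max_cases (by norm_num) (by omega) hH (spEx4_of_ne _ _ (by simp)) (spEx8_of_ne _ _ (by simp)) with h | ⟨a, h⟩ |
    ⟨t, k, D, a, b, b', c, d⟩ | ⟨a, b, h⟩ | ⟨r, K, a, b, c⟩ | ⟨a, b, h⟩ |
    ⟨o, n₁, n₂, e, P, f₁, f₂, a, b, b', c, d, d', g, g', i⟩ | h | ⟨k, p, R, a, b, c, d⟩ |
    ⟨o, k, t, e, P, f₁, a, b, c, d, g⟩ | h | h
  · exact Or.inl h
  · exact Or.inr (Or.inl h)
  · obtain ⟨rfl, rfl⟩ : (t = 5 ∧ k = 2) := by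
      have := Nat.le_of_dvd (by norm_num) (Dvd.intro _ a)
      obtain ⟨j, hj⟩ := b'
      interval_cases t <;> omega
    iterate 2 right
    exact Or.inl ⟨c rfl, D, d⟩
  · iterate 3 right
    exact Or.inl ⟨a, h⟩
  · obtain rfl : (r = 5) := by
      have := Nat.le_of_dvd (by norm_num) b
      interval_cases r <;> first | decide | exact absurd b (by decide) | exact absurd a (by decide)
    iterate 4 right
    exact Or.inl ⟨K, c⟩
  · iterate 5 right
    exact Or.inl ⟨a, h⟩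
  · obtain ⟨rfl, rfl⟩ : (n₁ = 2 ∧ n₂ = 5) := by
      have := Nat.le_of_dvd (by norm_num) (Dvd.intro _ a)
      obtain ⟨j, hj⟩ := b'
      interval_cases n₁ <;> omega
    iterate 6 right
    exact Or.inl ⟨o, e, P, f₁, f₂, g, g', i⟩
  · iterate 7 right
    exact Or.inl h
  · obtain ⟨-, h2, -⟩ := pow_eq_cases a le_rfl (by norm_num)
    have : ∀ k < 10, 2 ^ k ≠ 10 := by decide +kernel
    exact absurd a (this k h2)
  · obtain ⟨h1, h2, -⟩ := pow_eq_cases a b (by norm_num)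
    have : ∀ k ≤ 10, ∀ t < 10, k ^ t = 10 → 3 ≤ t → False := by decide +kernel
    exact (this k h1 t h2 a c).elim
  · iterate 8 right
    exact Or.inl h
  · iterate 9 right
    exact h

end Cfsg.Agent.S5844
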