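import Cfsg.Statements.S5876
import Cfsg.Agent.Lib.Asch.Basic
import Cfsg.Agent.Lib.Core.Fitting

set_option autoImplicit false
open Cfsg

namespace Cfsg.Agent.S5876

open Subgroup H10.Asch
open scoped commutatorElement

theorem comm_le {G : Type*} [Group G] (d : G → ℕ) (hmul : ∀ x y, d (x * y) ≤ d x + d y)
    (hconj : ∀ x g, d (x * g * x⁻¹) = d g) (hinv : ∀ g, d g⁻¹ = d g) (x g : G) :
    d ⁅x, g⁆ ≤ 2 * d g := by
  have := hmul (x * g * x⁻¹) g⁻¹
  rw [hconj, hinv] at this
  rw [commutatorElement_def]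
  omega

theorem key {G : Type*} [Group G] [Finite G] [Group.IsSolvable G] (d : G → ℕ) (n : ℕ)
    (hmul : ∀ x y, d (x * y) ≤ d x + d y) (hconj : ∀ x g, d (x * g * x⁻¹) = d g)
    (hinv : ∀ g, d g⁻¹ = d g)
    (hab : ∀ A : Subgroup G, A.Normal → ⁅A, A⁆ = ⊥ → ∀ a ∈ A, a ≠ 1 → n ≤ d a)
    {g : G} (hg : g ≠ 1) : n ≤ 4 * d g := by
  have hc := comm_le d hmul hconj hinv
  have hZ : ∀ E : Subgroup G, ⁅E ⊓ centralizer (E : Set G), E ⊓ centralizer (E : Set G)⁆ = ⊥ :=
    fun E => commutator_eq_bot_iff_le_centralizer.2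
      (inf_le_right.trans (centralizer_le (by simp)))
  by_cases hz : g ∈ centralizer ((⊤ : Subgroup G) : Set G)
  · have := hab _ inferInstance (hZ ⊤) g ⟨mem_top g, hz⟩ hg
    omega
  obtain ⟨E, ⟨hE, hgE⟩, hmin⟩ := exists_minimal_of_wellFoundedLT
    (fun E : Subgroup G => E.Normal ∧ g ∉ centralizer (E : Set G)) ⟨⊤, inferInstance, hz⟩
  set N := normalClosure ({g} : Set G) with hN
  have hgN : g ∈ N := subset_normalClosure rfl
  have hprop : ∀ D : Subgroup G, D.Normal → D < E → ⁅N, D⁆ = ⊥ := by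
    intro D hD hlt
    rw [commutator_eq_bot_iff_le_centralizer]
    apply normalClosure_le_normal
    rintro _ rfl
    by_contra h
    exact hlt.not_ge (hmin ⟨hD, h⟩ hlt.le)
  obtain ⟨x, hx, hxg⟩ : ∃ x ∈ E, ⁅x, g⁆ ≠ 1 := by
    by_contra h
    push Not at h
    exact hgE fun x hx => commutatorElement_eq_one_iff_mul_comm.1 (h x hx)
  have hy : ⁅x, g⁆ ∈ ⁅E, N⁆ := commutator_mem_commutator hx hgN
  have hME : ⁅E, N⁆ ≤ E := commutator_le_left E N
  have h2 := hc x g
  rcases hME.lt_or_eq with hlt | heq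
  · have h3 : ⁅⁅E, N⁆, ⁅E, N⁆⁆ = ⊥ := by
      apply commutator_commutator_eq_bot_of_rotate
      · rw [hprop _ inferInstance hlt, commutator_bot_left]
      · rw [eq_bot_iff, ← hprop _ inferInstance hlt, commutator_comm N]
        exact commutator_mono (commutator_le_left _ _) le_rfl
    have := hab _ inferInstance h3 _ hy hxg
    omega
  · have hne : E ≠ ⊥ := by
      rintro rfl
      exact hxg (by rw [mem_bot.1 hx, commutatorElement_one_left])
    have hlt : ⁅E, E⁆ < E := H1.commutator_self_lt_of_isSolvable inferInstance hne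
    have h3 : ⁅E, ⁅E, E⁆⁆ = ⊥ := by
      nth_rewrite 1 [← heq]
      apply commutator_commutator_eq_bot_of_rotate
      · rw [hprop _ inferInstance hlt, commutator_bot_left]
      · rw [eq_bot_iff, ← hprop _ inferInstance hlt, commutator_comm N]
        exact commutator_mono (commutator_le_left _ _) le_rfl
    by_cases hy' : ⁅x, g⁆ ∈ centralizer (E : Set G)
    · have := hab _ inferInstance (hZ E) _ ⟨hME hy, hy'⟩ hxg
      omega
    obtain ⟨u, hu, huy⟩ : ∃ u ∈ E, ⁅u, ⁅x, g⁆⁆ ≠ 1 := by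
      by_contra h
      push Not at h
      exact hy' fun x hx => commutatorElement_eq_one_iff_mul_comm.1 (h x hx)
    have h4 : ⁅⁅E, E⁆, ⁅E, E⁆⁆ = ⊥ := eq_bot_iff.2 (h3 ▸ commutator_mono hlt.le le_rfl)
    have h5 := hab _ inferInstance h4 _ (commutator_mem_commutator hu (hME hy)) huy
    have h6 := hc u ⁅x, g⁆
    omega

/-- Fixed-point spaces in primitive soluble linear groups. Let F be a finite field and G a soluble subgroup of GL_n(F) that acts irreducibly on F^n and primitively (G preserves no decomposition of F^n into two or more independent subspaces of equal dimension). Then every non-identity element g of G has fixed-point space {v : g v = v} of dimension at most 3n/4. -/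
theorem result {F : Type*} [Field F] [Fintype F] {n : ℕ} (G : Subgroup (Matrix.GeneralLinearGroup (Fin n) F)) (hsol : IsSolvable G) (hirr : Cfsg.Geo.ActsIrreducibly (Cfsg.Geo.matrixSet G)) (hprim : ∀ (m t : ℕ) (D : Fin t → Submodule F (Fin n → F)), 2 ≤ t → Cfsg.Geo.IsMDecomposition m D → ¬ G ≤ Cfsg.Geo.decompositionStabilizer D) (g : Matrix.GeneralLinearGroup (Fin n) F) (hg : g ∈ G) (hg1 : g ≠ 1) :
    4 * Module.finrank F (Module.End.eigenspace (Matrix.toLin' (g : Matrix (Fin n) (Fin n) F)) 1) ≤ 3 * n := by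
  have := finite_GL (ι := Fin n) (F := F)
  let d : G → ℕ := fun x => (((x : GL (Fin n) F) : Matrix (Fin n) (Fin n) F) - 1).rank
  have hunit : ∀ (u : GL (Fin n) F) (M : Matrix (Fin n) (Fin n) F),
      ((u : Matrix (Fin n) (Fin n) F) * M).rank = M.rank := fun u M =>
    Matrix.rank_mul_eq_right_of_isUnit_det _ _ (Matrix.isUnits_det_units u)
  have hunit' : ∀ (u : GL (Fin n) F) (M : Matrix (Fin n) (Fin n) F),
      (M * (u : Matrix (Fin n) (Fin n) F)).rank = M.rank := fun u M =>
    Matrix.rank_mul_eq_left_of_isUnit_det _ _ (Matrix.isUnits_det_units u)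
  have : Group.IsSolvable G := hsol
  refine (fun h : n ≤ 4 * d ⟨g, hg⟩ => ?_) (key (g := ⟨g, hg⟩) d n (fun x y => ?_) (fun x y => ?_)
    (fun x => ?_) (fun A hA hc a ha ha1 => ?_) (fun h => hg1 (congrArg Subtype.val h)))
  · have h1 := LinearMap.finrank_range_add_finrank_ker
      (Matrix.toLin' ((g : Matrix (Fin n) (Fin n) F) - 1))
    have h2 : Module.End.eigenspace (Matrix.toLin' (g : Matrix (Fin n) (Fin n) F)) 1 =
        LinearMap.ker (Matrix.toLin' ((g : Matrix (Fin n) (Fin n) F) - 1)) := by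
      ext v
      simp [sub_eq_zero]
    rw [h2]
    have h3 : d ⟨g, hg⟩ = Module.finrank F
      (LinearMap.range (Matrix.toLin' ((g : Matrix (Fin n) (Fin n) F) - 1))) := rfl
    rw [Module.finrank_fin_fun] at h1
    omega
  · have h1 : (((x * y : G) : GL (Fin n) F) : Matrix (Fin n) (Fin n) F) - 1 =
        (((x : GL (Fin n) F) : Matrix (Fin n) (Fin n) F) - 1) +
          ((x : GL (Fin n) F) : Matrix (Fin n) (Fin n) F) *
            (((y : GL (Fin n) F) : Matrix (Fin n) (Fin n) F) - 1) := by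
      simp [mul_sub]
    simp only [d]
    rw [h1, ← hunit x (((y : GL (Fin n) F) : Matrix (Fin n) (Fin n) F) - 1)]
    unfold Matrix.rank
    rw [Matrix.mulVecLin_add]
    exact (Submodule.finrank_mono (LinearMap.range_add_le _ _)).trans
      (Submodule.finrank_add_le_finrank_add_finrank _ _)
  · have h1 : (((x * y * x⁻¹ : G) : GL (Fin n) F) : Matrix (Fin n) (Fin n) F) - 1 =
        ((x : GL (Fin n) F) : Matrix (Fin n) (Fin n) F) *
          (((y : GL (Fin n) F) : Matrix (Fin n) (Fin n) F) - 1) *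
            (((x : GL (Fin n) F)⁻¹ : GL (Fin n) F) : Matrix (Fin n) (Fin n) F) := by
      rw [mul_sub, sub_mul, mul_one, Units.mul_inv]
      rfl
    simp only [d]
    rw [h1, hunit', hunit]
  · have h1 : (((x⁻¹ : G) : GL (Fin n) F) : Matrix (Fin n) (Fin n) F) - 1 =
        (((x : GL (Fin n) F)⁻¹ : GL (Fin n) F) : Matrix (Fin n) (Fin n) F) *
          -(((x : GL (Fin n) F) : Matrix (Fin n) (Fin n) F) - 1) := by
      rw [neg_sub, mul_sub, mul_one, Units.inv_mul]
      rfl
    simp only [d]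
    rw [h1, hunit, ← neg_one_smul F, Matrix.rank_smul_of_mem_nonZeroDivisors _ (by simp)]
  · let S : Set (Matrix (Fin n) (Fin n) F) :=
      (fun x : G => ((x : GL (Fin n) F) : Matrix (Fin n) (Fin n) F)) '' (A : Set G)
    have hS : ∀ x ∈ S, ∀ y ∈ S, x * y = y * x := by
      rintro _ ⟨x, hx, rfl⟩ _ ⟨y, hy, rfl⟩
      have := (commutator_eq_bot_iff_le_centralizer.1 hc hy) x hx
      exact congrArg (fun z : G => ((z : GL (Fin n) F) : Matrix (Fin n) (Fin n) F)) this
    have hcomm : ∀ x ∈ Algebra.adjoin F S, ∀ y ∈ Algebra.adjoin F S, x * y = y * x :=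
      fun x hx y hy => Algebra.commute_of_mem_adjoin_of_forall_mem_commute hy fun s hs =>
        (Algebra.commute_of_mem_adjoin_of_forall_mem_commute hx fun t ht => hS s hs t ht).symm
    have hN : Nrm G (Algebra.adjoin F S : Set (Matrix (Fin n) (Fin n) F)) := by
      intro h hh x hx
      have : Algebra.adjoin F S ≤ (Algebra.adjoin F S).comap (cj h : _ →ₐ[F] _) := by
        apply Algebra.adjoin_le
        rintro _ ⟨y, hy, rfl⟩
        exact Algebra.subset_adjoin ⟨_, hA.conj_mem y hy ⟨h, hh⟩, (cj_coe h y).symm⟩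
      exact this hx
    rcases (irr_iff.2 hirr).decomp_or_field hcomm hN with ⟨t, m, D, hD, hle⟩ | hf
    · exact absurd hle (hprim m t D hD.two_le hD)
    obtain ⟨y, -, hy⟩ := hf (((a : GL (Fin n) F) : Matrix (Fin n) (Fin n) F) - 1)
      (sub_mem (Algebra.subset_adjoin ⟨a, ha, rfl⟩) (one_mem _))
      (fun h => ha1 (Subtype.ext (Units.ext (sub_eq_zero.1 h))))
    have h1 := Matrix.rank_mul_le_left (((a : GL (Fin n) F) : Matrix (Fin n) (Fin n) F) - 1) y
    rwa [hy, Matrix.rank_one, Fintype.card_fin] at h1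

end Cfsg.Agent.S5876
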