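import Cfsg.Statements.S5877
import Mathlib
import Cfsg.Agent.Lib.H98.EigenDim

set_option autoImplicit false
open Cfsg

namespace Cfsg.Agent.S5877

open Module
open scoped commutatorElement IsMulCommutative

theorem seq_D {A : Type*} [AddCommGroup A] {r w : ℕ} (hc : Nat.Coprime w r) (f : ℕ → A)
    (hr : ∀ i, r • f i = 0) (hp : ∀ i, f (i + w) = f i)
    (h : ∀ i, f (i + 1 + 1) - f (i + 1) = f (i + 1) - f i) (i : ℕ) : f (i + 1) = f i := by
  have h1 : ∀ k, f (i + k + 1) - f (i + k) = f (i + 1) - f i := by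
    intro k
    induction k with
    | zero => rfl
    | succ k ih => rw [← ih, ← h (i + k)]; rfl
  have h2 : ∀ k, f (i + k) = f i + k • (f (i + 1) - f i) := by
    intro k
    induction k with
    | zero => simp
    | succ k ih => rw [succ_nsmul, ← add_assoc, ← add_assoc, ← ih, ← h1 k]; abel
  have h3 := h2 w
  rw [hp, left_eq_add] at h3
  have h4 : r • (f (i + 1) - f i) = 0 := by rw [smul_sub, hr, hr, sub_self]
  have h5 := Nat.dvd_gcd (addOrderOf_dvd_of_nsmul_eq_zero h3) (addOrderOf_dvd_of_nsmul_eq_zero h4)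
  rw [hc, Nat.dvd_one, AddMonoid.addOrderOf_eq_one_iff] at h5
  exact sub_eq_zero.1 h5

theorem seq_const {A : Type*} [AddCommGroup A] {r w : ℕ} (hc : Nat.Coprime w r) (ho : Odd w) (b : ℕ → A)
    (hr : ∀ i, r • b i = 0) (hp : ∀ i, b (i + w) = b i)
    (h : ∀ i, b (i + 4) - b (i + 3) - b (i + 3) + b (i + 1) + b (i + 1) - b i = 0) (i : ℕ) :
    b (i + 1) = b i := by
  let Δ : (ℕ → A) → ℕ → A := fun f i => f (i + 1) - f i
  have hΔr : ∀ f : ℕ → A, (∀ i, r • f i = 0) → ∀ i, r • Δ f i = 0 := fun f hf i => by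
    simp only [Δ, smul_sub, hf, sub_self]
  have hΔp : ∀ f : ℕ → A, (∀ i, f (i + w) = f i) → ∀ i, Δ f (i + w) = Δ f i := fun f hf i => by
    simp only [Δ]; rw [add_right_comm, hf, hf]
  have h1 : ∀ i, Δ (Δ (Δ b)) (i + 1) = - Δ (Δ (Δ b)) i := fun i => by
    have := h i
    simp only [Δ, add_assoc, Nat.reduceAdd]
    linear_combination (norm := abel) this
  have h2 : ∀ k i, Δ (Δ (Δ b)) (i + 2 * k) = Δ (Δ (Δ b)) i := by
    intro k
    induction k with
    | zero => simp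
    | succ k ih => intro i; rw [show i + 2 * (k + 1) = i + 2 * k + 1 + 1 by ring, h1, h1, neg_neg, ih]
  have h3 : ∀ i, Δ (Δ (Δ b)) (i + 1) = Δ (Δ (Δ b)) i := by
    intro i
    obtain ⟨k, rfl⟩ := ho
    rw [← h2 k (i + 1), ← hΔp _ (hΔp _ (hΔp _ hp)) i]
    congr 1; ring
  have h4 := seq_D hc (Δ (Δ b)) (hΔr _ (hΔr _ hr)) (hΔp _ (hΔp _ hp)) h3
  have h5 := seq_D hc (Δ b) (hΔr _ hr) (hΔp _ hp) h4
  exact seq_D hc b hr hp h5 i

theorem comm_case {G : Type*} [Group G] {Q : Subgroup G} {r w : ℕ} (hc : Nat.Coprime w r) (ho : Odd w)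
    (hQ : ∀ u ∈ Q, ∀ v ∈ Q, ⁅u, v⁆ ∈ Subgroup.center G ∧ ⁅u, v⁆ ^ r = 1) {g : G}
    (hg : g ∈ Subgroup.normalizer (Q : Set G)) (hgw : g ^ w = 1)
    (h : ∀ x ∈ Q, ⁅⁅g, x⁆, g * ⁅g, x⁆ * g⁻¹⁆ = 1) : ∀ x ∈ Q, ∀ y ∈ Q, ⁅⁅g, x⁆, y⁆ = 1 := by
  let B : Q → Q → Additive (Subgroup.center G) := fun u v => Additive.ofMul ⟨⁅(u : G), (v : G)⁆, (hQ u u.2 v v.2).1⟩
  have hB0 : ∀ u v, B u v = 0 ↔ ⁅(u : G), (v : G)⁆ = 1 := fun u v =>
    ⟨fun h => congrArg Subtype.val (congrArg Additive.toMul h), fun h => congrArg Additive.ofMul (Subtype.ext h)⟩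
  have hBl : ∀ u v z, B (u * v) z = B u z + B v z := fun u v z => by
    refine congrArg Additive.ofMul (Subtype.ext ?_)
    have h1 := Subgroup.mem_center_iff.1 (hQ v v.2 z z.2).1
    show ⁅(u : G) * v, (z : G)⁆ = ⁅(u : G), (z : G)⁆ * ⁅(v : G), (z : G)⁆
    calc ⁅(u : G) * v, (z : G)⁆ = u * ⁅(v : G), (z : G)⁆ * ((u : G)⁻¹ * ⁅(u : G), (z : G)⁆) := by
          simp only [commutatorElement_def]; group
      _ = _ := by rw [mul_assoc, ← h1]; group
  have hBs : ∀ u v, B u v = - B v u := fun u v => by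
    refine congrArg Additive.ofMul (Subtype.ext ?_)
    exact (commutatorElement_inv _ _).symm
  have hBr : ∀ u v z, B z (u * v) = B z u + B z v := fun u v z => by
    rw [hBs z (u * v), hBl, hBs z u, hBs z v]; abel
  have hB1 : ∀ z, B 1 z = 0 := fun z => (hB0 _ _).2 (by simp)
  have hBil : ∀ u z, B u⁻¹ z = - B u z := fun u z => by
    rw [eq_neg_iff_add_eq_zero, ← hBl, inv_mul_cancel, hB1]
  have hBir : ∀ u z, B z u⁻¹ = - B z u := fun u z => by rw [hBs z u⁻¹, hBil, hBs z u]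
  let σ : Q →* Q :=
    { toFun := fun u => ⟨g * u * g⁻¹, (Subgroup.mem_normalizer_iff.1 hg u).1 u.2⟩
      map_one' := Subtype.ext (by simp)
      map_mul' := fun u v => Subtype.ext (by simp [mul_assoc]) }
  have hBσ : ∀ u v, B (σ u) (σ v) = B u v := fun u v => by
    refine congrArg Additive.ofMul (Subtype.ext ?_)
    have h1 := Subgroup.mem_center_iff.1 (hQ u u.2 v v.2).1
    show ⁅g * u * g⁻¹, g * v * g⁻¹⁆ = ⁅(u : G), (v : G)⁆
    calc ⁅g * u * g⁻¹, g * v * g⁻¹⁆ = g * ⁅(u : G), (v : G)⁆ * g⁻¹ := by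
          simp only [commutatorElement_def]; group
      _ = _ := by rw [h1]; group
  have hH : ∀ x : Q, B (σ x * x⁻¹) (σ (σ x * x⁻¹)) = 0 := fun x => (hB0 _ _).2 (h x x.2)
  have hit : ∀ (k : ℕ) (u : Q), ((σ^[k] u : Q) : G) = g ^ k * u * (g ^ k)⁻¹ := by
    intro k u
    induction k with
    | zero => simp
    | succ k ih =>
      rw [Function.iterate_succ_apply']
      show g * (σ^[k] u : Q) * g⁻¹ = _
      rw [ih, pow_succ']; group
  intro x hx y hy
  have key := seq_const hc ho (fun i => B (σ^[i] ⟨x, hx⟩) ⟨y, hy⟩) (fun i => by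
      refine congrArg Additive.ofMul (Subtype.ext ?_)
      exact (hQ _ (σ^[i] ⟨x, hx⟩).2 y hy).2)
    (fun i => by
      congr 1
      apply Subtype.ext
      rw [hit, hit, pow_add, hgw, mul_one])
    (fun i => by
      set u := σ^[i] ⟨x, hx⟩ with hu
      set v : Q := ⟨y, hy⟩
      have e1 : σ^[i + 1] ⟨x, hx⟩ = σ u := Function.iterate_succ_apply' _ _ _
      have e2 : σ^[i + 2] ⟨x, hx⟩ = σ (σ u) := by rw [← e1]; exact Function.iterate_succ_apply' _ _ _
      have e3 : σ^[i + 3] ⟨x, hx⟩ = σ (σ (σ u)) := by rw [← e2]; exact Function.iterate_succ_apply' _ _ _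
      have e4 : σ^[i + 4] ⟨x, hx⟩ = σ (σ (σ (σ u))) := by rw [← e3]; exact Function.iterate_succ_apply' _ _ _
      have a1 := hH (σ (σ u) * v)
      have a2 := hH (σ (σ u))
      have a3 := hH v
      simp only [map_mul, map_inv, mul_inv_rev, hBl, hBr, hBil, hBir, hBσ] at a1 a2 a3
      rw [hBs v (σ (σ (σ u))), hBs v (σ (σ (σ (σ u)))), hBs v (σ (σ u))] at a1
      show B (σ^[i + 4] ⟨x, hx⟩) v - B (σ^[i + 3] ⟨x, hx⟩) v - B (σ^[i + 3] ⟨x, hx⟩) v +
        B (σ^[i + 1] ⟨x, hx⟩) v + B (σ^[i + 1] ⟨x, hx⟩) v - B u v = 0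
      rw [e1, e3, e4]
      linear_combination (norm := abel) a1 - a2 - a3) 0
  have h1 : B (σ ⟨x, hx⟩ * ⟨x, hx⟩⁻¹) ⟨y, hy⟩ = 0 := by
    rw [hBl, hBil, add_neg_eq_zero]; exact key
  exact (hB0 _ _).1 h1

theorem nilp_case {G : Type*} [Group G] [Finite G] {Q Z : Subgroup G} [Z.Normal] {r : ℕ} (hr : r.Prime)
    (hQ : ∀ u ∈ Q, u ^ r ∈ Z) {g : G} (hg : g ∈ Subgroup.normalizer (Q : Set G)) (hgr : g ^ r = 1)
    {x : G} (hx : x ∈ Q) (hx1 : ⁅g, x⁆ ∉ Z) : ∃ x ∈ Q, ⁅g, x⁆ ∉ Z ∧ ⁅g, ⁅g, x⁆⁆ ∈ Z := by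
  by_contra hc
  push Not at hc
  have : Fact r.Prime := ⟨hr⟩
  let π := QuotientGroup.mk' Z
  have h1 : IsPGroup r (Q.map π) := by
    rintro ⟨_, u, hu, rfl⟩
    exact ⟨1, Subtype.ext (by
      show (π u) ^ (r ^ 1) = 1
      rw [pow_one, ← map_pow]
      exact (QuotientGroup.eq_one_iff _).2 (hQ u hu))⟩
  have h2 : IsPGroup r (Subgroup.zpowers (π g)) := by
    rintro ⟨_, k, rfl⟩
    exact ⟨1, Subtype.ext (by
      show ((π g) ^ k) ^ (r ^ 1) = 1
      rw [pow_one, ← zpow_natCast, ← zpow_mul, mul_comm, zpow_mul, zpow_natCast, ← map_pow, hgr, map_one,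
        one_zpow])⟩
  have h3 := IsPGroup.to_sup_of_normal_left' h1 h2
    (by rw [Subgroup.zpowers_le]; exact Subgroup.le_normalizer_map π ⟨g, hg, rfl⟩)
  set P := Q.map π ⊔ Subgroup.zpowers (π g) with hP
  obtain ⟨k, hk⟩ := (Subgroup.isNilpotent_iff_lowerCentralSeries P).1 h3.isNilpotent
  let s : ℕ → G := fun i => (fun y => ⁅g, y⁆)^[i] x
  have hs : ∀ i, s (i + 1) = ⁅g, s i⁆ := fun i => Function.iterate_succ_apply' _ _ _
  have hsQ : ∀ i, s i ∈ Q ∧ ⁅g, s i⁆ ∉ Z := by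
    intro i
    induction i with
    | zero => exact ⟨hx, hx1⟩
    | succ i ih =>
      rw [hs]
      exact ⟨Q.mul_mem ((Subgroup.mem_normalizer_iff.1 hg _).1 ih.1) (Q.inv_mem ih.1), hc _ ih.1 ih.2⟩
  have hgP : π g ∈ P := Subgroup.mem_sup_right (Subgroup.mem_zpowers _)
  have hl : ∀ i, π (s i) ∈ P.lowerCentralSeries i := by
    intro i
    induction i with
    | zero => exact Subgroup.mem_sup_left ⟨x, hx, rfl⟩
    | succ i ih =>
      rw [Subgroup.lowerCentralSeries_succ, Subgroup.commutator_comm, hs, map_commutatorElement]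
      exact Subgroup.commutator_mem_commutator hgP ih
  have h4 := hl k
  rw [hk, Subgroup.mem_bot] at h4
  apply (hsQ k).2
  rw [← QuotientGroup.eq_one_iff, ← QuotientGroup.mk'_apply, map_commutatorElement, h4]
  simp

section Rep

variable {F : Type*} [Field F] {V : Type*} [AddCommGroup V] [Module F V] [FiniteDimensional F V]
  {G : Type*} [Group G] (ρ : G →* End F V)

theorem rho_inj (x : G) : Function.Injective (ρ x) := fun u v h => by
  have := congrArg (ρ x⁻¹) h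
  rwa [← End.mul_apply, ← End.mul_apply, ← map_mul, inv_mul_cancel, map_one, End.one_apply, End.one_apply] at this

theorem rho_inv_apply {x : G} {v : V} {s : F} (hs : s ≠ 0) (h : ρ x v = s • v) : ρ x⁻¹ v = s⁻¹ • v := by
  apply rho_inj ρ x
  rw [← End.mul_apply, ← map_mul, mul_inv_cancel, map_one, End.one_apply, map_smul, h, smul_smul,
    inv_mul_cancel₀ hs, one_smul]

theorem two_mul_le (g x : G) {c : F} (hc : c ≠ 0) :
    2 * finrank F ((ρ g).eigenspace c) ≤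
      finrank F V + finrank F ↥((ρ g).eigenspace c ⊓ (ρ ⁅g, x⁆).eigenspace 1) := by
  refine H98.two_mul_finrank_le (ρ x) (rho_inj ρ x) (fun v hv hxv => ⟨hxv, ?_⟩)
  rw [End.mem_eigenspace_iff] at hv hxv
  show _ ∈ (ρ ⁅g, x⁆).eigenspace 1
  rw [End.mem_eigenspace_iff, ← End.mul_apply, ← map_mul, commutatorElement_def, inv_mul_cancel_right, map_mul,
    map_mul, End.mul_apply, End.mul_apply, rho_inv_apply ρ hc hv, map_smul, map_smul, hxv, smul_smul,
    inv_mul_cancel₀ hc]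

theorem half_of_scalar (g x z : G) {c : F} (hc : c ≠ 0) {e : F} (hz : ρ z = e • 1) (he : e ≠ 1)
    (h : ∀ v, ρ g v = c • v → ρ ⁅g, x⁆ v = v → ρ z v = v) :
    2 * finrank F ((ρ g).eigenspace c) ≤ finrank F V := by
  have h1 := two_mul_le ρ g x hc
  have h2 : (ρ g).eigenspace c ⊓ (ρ ⁅g, x⁆).eigenspace 1 = ⊥ := by
    rw [eq_bot_iff]
    rintro v ⟨h1, h2⟩
    have h3 := h v (End.mem_eigenspace_iff.1 h1) (by simpa using End.mem_eigenspace_iff.1 h2)
    rw [hz, LinearMap.smul_apply, End.one_apply, ← sub_eq_zero] at h3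
    nth_rewrite 2 [← one_smul F v] at h3
    rw [← sub_smul, smul_eq_zero, sub_eq_zero] at h3
    exact h3.resolve_left he
  rwa [h2, finrank_bot, add_zero] at h1

theorem shift {y a : G} {ζ : F} (h : ρ ⁅y, a⁆ = ζ • 1) (hζ : ζ ≠ 0) {v : V} {t : F} (hv : ρ a v = t • v) :
    ρ a (ρ y v) = (t * ζ⁻¹) • ρ y v := by
  have h1 : y * a = ⁅y, a⁆ * a * y := by simp [commutatorElement_def]
  have h2 := congrArg (fun u => ρ u v) h1
  simp only [map_mul, End.mul_apply, h, hv, map_smul, LinearMap.smul_apply, End.one_apply] at h2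
  rw [mul_comm, mul_smul, h2, smul_smul, inv_mul_cancel₀ hζ, one_smul]

theorem mul_finrank_le {y a : G} {ζ : F} {r : ℕ} (h : ρ ⁅y, a⁆ = ζ • 1) (hζ : IsPrimitiveRoot ζ r) (hr : r ≠ 0) :
    r * finrank F ((ρ a).eigenspace 1) ≤ finrank F V := by
  classical
  have hζ0 : ζ ≠ 0 := hζ.ne_zero hr
  have h1 : ∀ i : ℕ, finrank F ((ρ a).eigenspace 1) ≤ finrank F ((ρ a).eigenspace (ζ⁻¹ ^ i)) := by
    intro i
    induction i with
    | zero => rw [pow_zero]
    | succ i ih =>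
      refine ih.trans (H98.finrank_le_of_injective_mapsTo (ρ y) (rho_inj ρ y) (fun v hv => ?_))
      rw [End.mem_eigenspace_iff] at hv ⊢
      rw [shift ρ h hζ0 hv, pow_succ]
  have h2 := H98.sum_finrank_inf_eigenspace_le (ρ a) ((Finset.range r).image (fun i => ζ⁻¹ ^ i)) ⊤
  rw [Finset.sum_image (fun i hi j hj hij => hζ.inv.pow_inj (by simpa using hi) (by simpa using hj) hij),
    finrank_top] at h2
  refine le_trans ?_ h2
  calc r * finrank F ((ρ a).eigenspace 1) = ∑ _i ∈ Finset.range r, finrank F ((ρ a).eigenspace 1) := by simp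
    _ ≤ _ := Finset.sum_le_sum (fun i _ => by rw [top_inf_eq]; exact h1 i)

theorem dvd_finrank {y a : G} {ζ : F} {r : ℕ} (h : ρ ⁅y, a⁆ = ζ • 1) (hζ : IsPrimitiveRoot ζ r) :
    r ∣ finrank F V := by
  apply hζ.dvd_of_pow_eq_one
  have h1 : (LinearMap.det.comp ρ).toHomUnits ⁅y, a⁆ = 1 := by
    rw [map_commutatorElement, commutatorElement_eq_one_iff_mul_comm, mul_comm]
  have h2 : LinearMap.det (ρ ⁅y, a⁆) = 1 := congrArg Units.val h1
  rwa [h, LinearMap.det_smul, map_one, mul_one] at h2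

theorem split_case {g x : G} {r : ℕ} (hr : r.Prime) (h5 : 5 ≤ r) {c μ ζ : F} (hc : c ≠ 0) (hζ : IsPrimitiveRoot ζ r)
    (hcomm : Commute g ⁅g, x⁆) (hgr : g ^ r = 1) (hμ : ρ ⁅x, ⁅g, x⁆⁆ = μ • 1) (hμr : μ ^ r = 1)
    (he : r * finrank F ((ρ ⁅g, x⁆).eigenspace 1) ≤ finrank F V) :
    2 * finrank F ((ρ g).eigenspace c) ≤ finrank F V := by
  classical
  set a := ⁅g, x⁆ with ha
  have hμ0 : μ ≠ 0 := by rintro rfl; simp [hr.ne_zero] at hμr
  have har : a ^ r = 1 := by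
    have h1 : a = g * (x * g⁻¹ * x⁻¹) := by simp [ha, commutatorElement_def, mul_assoc]
    have h2 : Commute g (x * g⁻¹ * x⁻¹) := by
      have h3 : x * g⁻¹ * x⁻¹ = g⁻¹ * a := by rw [h1, inv_mul_cancel_left]
      rw [h3]; exact (Commute.refl g).inv_right.mul_right hcomm
    rw [h1, h2.mul_pow, conj_pow, inv_pow, hgr]; simp
  let m : F → F → ℕ := fun s t => finrank F ↥((ρ a).eigenspace t ⊓ (ρ g).eigenspace s)
  have hm : ∀ s t, m s t ≤ m (s * (t * μ⁻¹)) (t * μ⁻¹) := fun s t => by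
    refine H98.finrank_le_of_injective_mapsTo (ρ x) (rho_inj ρ x) ?_
    rintro v ⟨h1, h2⟩
    have h3 := shift ρ hμ hμ0 (End.mem_eigenspace_iff.1 h1)
    refine ⟨End.mem_eigenspace_iff.2 h3, End.mem_eigenspace_iff.2 ?_⟩
    have h4 : g * x = a * x * g := by simp [ha, commutatorElement_def]
    rw [← End.mul_apply, ← map_mul, h4, map_mul, map_mul, End.mul_apply, End.mul_apply,
      End.mem_eigenspace_iff.1 h2, map_smul, map_smul, h3, smul_smul]
  let S := Polynomial.nthRootsFinset r (1 : F)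
  have hS : ∀ t, t ∈ S ↔ t ^ r = 1 := fun t => Polynomial.mem_nthRootsFinset hr.pos _
  have hd : finrank F ((ρ g).eigenspace c) ≤ ∑ t ∈ S, m c t := by
    have := H98.finrank_le_sum_inf_eigenspace (ρ a) S ((ρ g).eigenspace c) (fun w hw => by
      rw [End.mem_eigenspace_iff] at hw ⊢
      rw [← End.mul_apply, ← map_mul, hcomm.eq, map_mul, End.mul_apply, hw, map_smul]) (fun w _ => by
      rw [← Polynomial.X_pow_sub_one_eq_prod hr.pos hζ]
      rw [map_sub, map_pow, Polynomial.aeval_X, ← map_pow, har, map_one, map_one, sub_self, LinearMap.zero_apply])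
    exact this.trans (Finset.sum_le_sum (fun t _ => by rw [inf_comm]))
  have hn : ∑ t ∈ S, finrank F ((ρ a).eigenspace t) ≤ finrank F V := by
    refine le_trans (Finset.sum_le_sum (fun t _ => by rw [top_inf_eq]))
      ((H98.sum_finrank_inf_eigenspace_le (ρ a) S ⊤).trans (by rw [finrank_top]))
  have h2 : ∀ t s₁ s₂, s₁ ≠ s₂ → m s₁ t + m s₂ t ≤ finrank F ((ρ a).eigenspace t) := fun t s₁ s₂ h => by
    have := H98.sum_finrank_inf_eigenspace_le (ρ g) {s₁, s₂} ((ρ a).eigenspace t)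
    rwa [Finset.sum_pair h] at this
  have h3 : ∀ t s₁ s₂ s₃, s₁ ≠ s₂ → s₁ ≠ s₃ → s₂ ≠ s₃ →
      m s₁ t + (m s₂ t + m s₃ t) ≤ finrank F ((ρ a).eigenspace t) := fun t s₁ s₂ s₃ h h' h'' => by
    have := H98.sum_finrank_inf_eigenspace_le (ρ g) {s₁, s₂, s₃} ((ρ a).eigenspace t)
    rwa [Finset.sum_insert (by simp [h, h']), Finset.sum_pair h''] at this
  have h1 : ∀ s t, m s t ≤ finrank F ((ρ a).eigenspace t) := fun s t => Submodule.finrank_mono inf_le_left
  have hpow : ∀ t : F, t ^ r = 1 → t ≠ 1 → ∀ k, 0 < k → k < 5 → t ^ k ≠ 1 := fun t h h' k hk hk' h'' => by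
    have : Fact r.Prime := ⟨hr⟩
    have h4 := orderOf_dvd_of_pow_eq_one h''
    rw [orderOf_eq_prime h h'] at h4
    have := Nat.le_of_dvd hk h4
    omega
  have hne : ∀ t : F, t ≠ 1 → c ≠ c * t := fun t ht h => ht (by
    nth_rewrite 1 [← mul_one c] at h; exact (mul_left_cancel₀ hc h).symm)
  by_cases hμ1 : μ = 1
  · subst hμ1
    simp only [inv_one, mul_one] at hm
    have h4 : ∑ t ∈ S, 3 * m c t ≤ ∑ t ∈ S, (finrank F ((ρ a).eigenspace t) +
        if t = 1 then 2 * finrank F ((ρ a).eigenspace 1) else 0) := by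
      refine Finset.sum_le_sum (fun t ht => ?_)
      split_ifs with h
      · subst h; have := h1 c 1; omega
      · have a1 := hm c t
        have a2 := hm (c * t) t
        have a3 := h3 t c (c * t) (c * t * t) (hne t h)
          (by rw [mul_assoc, ← sq]; exact hne _ (hpow t ((hS t).1 ht) h 2 (by norm_num) (by norm_num)))
          (fun h' => h (by
            nth_rewrite 1 [← mul_one (c * t)] at h'
            exact (mul_left_cancel₀ (mul_ne_zero hc (by rintro rfl; simpa [hr.ne_zero] using (hS 0).1 ht)) h').symm))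
        omega
    rw [Finset.sum_add_distrib, ← Finset.mul_sum, Finset.sum_ite_eq' S 1, if_pos ((hS 1).2 (one_pow _))] at h4
    have h6 := Nat.mul_le_mul_right (finrank F ((ρ a).eigenspace 1)) h5
    omega
  · set ν := μ⁻¹ with hν
    have hνr : ν ^ r = 1 := by rw [hν, inv_pow, hμr, inv_one]
    have hν1 : ν ≠ 1 := by rwa [hν, Ne, inv_eq_one]
    have hμν : μ * ν = 1 := mul_inv_cancel₀ hμ0
    have h4 : ∑ t ∈ S, m c t = ∑ t ∈ S, m c (t * μ) := by
      refine Finset.sum_nbij' (· * ν) (· * μ) ?_ ?_ ?_ ?_ ?_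
      · intro t ht; rw [hS, mul_pow, (hS t).1 ht, hνr, one_mul]
      · intro t ht; rw [hS, mul_pow, (hS t).1 ht, hμr, one_mul]
      · intro t _; rw [mul_assoc, mul_comm ν, hμν, mul_one]
      · intro t _; rw [mul_assoc, hμν, mul_one]
      · intro t _; rw [mul_assoc, mul_comm ν, hμν, mul_one]
    have hm' : ∀ t, m c (t * μ) ≤ m (c * t) t := fun t => by
      have := hm c (t * μ); rwa [mul_assoc, hμν, mul_one] at this
    have hν2 : ν ^ 2 ≠ 1 := hpow ν hνr hν1 2 (by norm_num) (by norm_num)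
    have hsub : ({1, ν ^ 2} : Finset F) ⊆ S := by
      intro t ht
      simp only [Finset.mem_insert, Finset.mem_singleton] at ht
      rcases ht with rfl | rfl
      · exact (hS 1).2 (one_pow _)
      · rw [hS, ← pow_mul, mul_comm, pow_mul, hνr, one_pow]
    have h6 : ∑ t ∈ S, (m c t + m c (t * μ)) ≤ ∑ t ∈ S, finrank F ((ρ a).eigenspace t) := by
      rw [← Finset.sum_sdiff hsub, ← Finset.sum_sdiff hsub]
      refine Nat.add_le_add (Finset.sum_le_sum (fun t ht => ?_)) ?_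
      · have ht1 : t ≠ 1 := by rintro rfl; simp at ht
        have := h2 t c (c * t) (hne t ht1)
        have := hm' t
        omega
      · rw [Finset.sum_pair hν2.symm, Finset.sum_pair hν2.symm]
        have a1 := h1 c 1
        have a2 := hm' (ν ^ 2)
        have a3 := hm' 1
        have a4 := hm (c * 1) 1
        have a5 := hm (c * 1 * (1 * ν)) (1 * ν)
        rw [show c * 1 * (1 * ν) * (1 * ν * ν) = c * ν ^ 3 by ring, show 1 * ν * ν = ν ^ 2 by ring] at a5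
        have a6 := h3 (ν ^ 2) c (c * ν ^ 2) (c * ν ^ 3) (hne _ hν2)
          (hne _ (hpow ν hνr hν1 3 (by norm_num) (by norm_num))) (fun h => hν1 (by
            have h' := mul_left_cancel₀ hc h
            rw [pow_succ ν 2] at h'
            nth_rewrite 1 [← mul_one (ν ^ 2)] at h'
            exact (mul_left_cancel₀ (pow_ne_zero 2 (inv_ne_zero hμ0)) h').symm))
        omega
    rw [Finset.sum_add_distrib, ← h4] at h6
    omega

theorem main [Finite G] (hρ : Function.Injective ρ) {Z Q : Subgroup G} (hZ : ∀ z ∈ Z, ∃ c : F, ρ z = c • 1)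
    {r : ℕ} (hr : r.Prime) (hQ : ∀ u ∈ Q, ∀ v ∈ Q, ⁅u, v⁆ ∈ Z ∧ ⁅u, v⁆ ^ r = 1)
    (hC : ∀ y, (∀ u ∈ Q, ⁅u, y⁆ = 1) → y ∈ Z) {g : G} (hg : g ∈ Subgroup.normalizer (Q : Set G)) {w : ℕ}
    (hw : w.Prime) (hgw : g ^ w = 1) (hns : g ∉ Z) {c : F} (hc : c ≠ 0) :
    (2 * finrank F ((ρ g).eigenspace c) ≤ finrank F V ∨ (r ∣ finrank F V ∧
      ∃ e, 2 * finrank F ((ρ g).eigenspace c) ≤ finrank F V + e ∧ r * e ≤ finrank F V)) ∧
    (w ≠ 2 → (w = 3 → r ≠ 3) → 2 * finrank F ((ρ g).eigenspace c) ≤ finrank F V) := by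
  have hZc : Z ≤ Subgroup.center G := fun z hz => Subgroup.mem_center_iff.2 (fun y => hρ (by
    obtain ⟨e, he⟩ := hZ z hz
    simp [he]))
  have : Z.Normal := ⟨fun z hz y => by rwa [Subgroup.mem_center_iff.1 (hZc hz) y, mul_inv_cancel_right]⟩
  have hZ1 : ∀ z ∈ Z, z ≠ 1 → ∃ e : F, ρ z = e • 1 ∧ e ≠ 1 := fun z hz h1 => by
    obtain ⟨e, he⟩ := hZ z hz
    exact ⟨e, he, by rintro rfl; exact h1 (hρ (by simp [he]))⟩
  have hZr : ∀ z (e : F), ρ z = e • 1 → z ≠ 1 → z ^ r = 1 → e ^ r = 1 := fun z e he h1 h2 => by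
    have h3 := congrArg ρ h2
    rw [map_pow, he, smul_pow, one_pow, map_one] at h3
    by_contra h4
    apply h1
    apply hρ
    ext v
    have h5 := congrArg (fun f : End F V => f v) h3
    simp only [LinearMap.smul_apply, End.one_apply] at h5
    nth_rewrite 2 [← one_smul F v] at h5
    rw [← sub_eq_zero, ← sub_smul, smul_eq_zero, sub_eq_zero] at h5
    simp [h5.resolve_left h4]
  have hQg : ∀ x ∈ Q, g * x * g⁻¹ ∈ Q := fun x hx => (Subgroup.mem_normalizer_iff.1 hg x).1 hx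
  have hQa : ∀ x ∈ Q, ⁅g, x⁆ ∈ Q := fun x hx => Q.mul_mem (hQg x hx) (Q.inv_mem hx)
  have hall : (∀ x ∈ Q, ⁅g, x⁆ ∈ Z) → 2 * finrank F ((ρ g).eigenspace c) ≤ finrank F V := fun h => by
    have h1 : ∃ x ∈ Q, ⁅g, x⁆ ≠ 1 := by
      by_contra h1
      push Not at h1
      exact hns (hC g (fun u hu => by rw [← commutatorElement_inv, h1 u hu, inv_one]))
    obtain ⟨x, hx, h1⟩ := h1
    obtain ⟨e, he, he1⟩ := hZ1 _ (h x hx) h1
    exact half_of_scalar ρ g x _ hc he he1 (fun v _ h => h)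
  have hprim : ∀ a ∈ Q, a ∉ Z → ∃ y ζ, ρ ⁅y, a⁆ = ζ • 1 ∧ IsPrimitiveRoot ζ r := fun a ha h => by
    have h1 : ∃ y ∈ Q, ⁅y, a⁆ ≠ 1 := by
      by_contra h1
      push Not at h1
      exact h (hC a h1)
    obtain ⟨y, hy, h1⟩ := h1
    obtain ⟨e, he, he1⟩ := hZ1 _ (hQ y hy a ha).1 h1
    have : Fact r.Prime := ⟨hr⟩
    refine ⟨y, e, he, ?_⟩
    rw [← orderOf_eq_prime (hZr _ e he h1 (hQ y hy a ha).2) he1]
    exact IsPrimitiveRoot.orderOf e
  by_cases hall' : ∀ x ∈ Q, ⁅g, x⁆ ∈ Z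
  · exact ⟨Or.inl (hall hall'), fun _ _ => hall hall'⟩
  push Not at hall'
  obtain ⟨x, hx, hxZ⟩ := hall'
  constructor
  · obtain ⟨y, ζ, h1, h2⟩ := hprim _ (hQa x hx) hxZ
    refine Or.inr ⟨dvd_finrank ρ h1 h2, _, ?_, mul_finrank_le ρ h1 h2 hr.ne_zero⟩
    exact (two_mul_le ρ g x hc).trans (Nat.add_le_add_left (Submodule.finrank_mono inf_le_right) _)
  intro hw2 hw3
  by_cases hwr : w = r
  · subst hwr
    have h5 : 5 ≤ w := hw.five_le_of_ne_two_of_ne_three hw2 (fun h => hw3 h h)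
    have hpow : ∀ u ∈ Q, u ^ w ∈ Z := fun u hu => hC _ (fun v hv => by
      have h1 := Subgroup.mem_center_iff.1 (hZc (hQ v hv u hu).1)
      have h2 : v * u * v⁻¹ = ⁅v, u⁆ * u := by simp [commutatorElement_def]
      have h3 : Commute ⁅v, u⁆ u := (h1 u).symm
      rw [commutatorElement_def, ← conj_pow, h2, h3.mul_pow, (hQ v hv u hu).2, one_mul, mul_inv_cancel])
    obtain ⟨x, hx, hxZ, hx2⟩ := nilp_case hw hpow hg hgw hx hxZ
    by_cases h1 : ⁅g, ⁅g, x⁆⁆ = 1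
    · obtain ⟨y, ζ, h2, h3⟩ := hprim _ (hQa x hx) hxZ
      obtain ⟨μ, hμ⟩ := hZ _ (hQ x hx _ (hQa x hx)).1
      by_cases h4 : ⁅x, ⁅g, x⁆⁆ = 1
      · exact split_case ρ hw h5 hc h3 (commutatorElement_eq_one_iff_commute.1 h1) hgw (μ := 1) (by simp [h4])
          (one_pow _) (mul_finrank_le ρ h2 h3 hw.ne_zero)
      · exact split_case ρ hw h5 hc h3 (commutatorElement_eq_one_iff_commute.1 h1) hgw hμ
          (hZr _ _ hμ h4 (hQ x hx _ (hQa x hx)).2) (mul_finrank_le ρ h2 h3 hw.ne_zero)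
    · obtain ⟨e, he, he1⟩ := hZ1 _ hx2 h1
      refine half_of_scalar ρ g x _ hc he he1 (fun v h2 h3 => ?_)
      have h4 := rho_inv_apply ρ one_ne_zero (h3.trans (one_smul F v).symm)
      rw [commutatorElement_def g ⁅g, x⁆]
      simp only [map_mul, End.mul_apply, h4, inv_one, one_smul, rho_inv_apply ρ hc h2, map_smul, h3, h2, smul_smul,
        inv_mul_cancel₀ hc]
  · by_cases h1 : ∀ x ∈ Q, ⁅⁅g, x⁆, g * ⁅g, x⁆ * g⁻¹⁆ = 1
    · have h2 := comm_case ((Nat.coprime_primes hw hr).2 hwr) (hw.odd_of_ne_two hw2)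
        (fun u hu v hv => ⟨hZc (hQ u hu v hv).1, (hQ u hu v hv).2⟩) hg hgw h1
      exact hall (fun x hx => hC _ (fun u hu => by rw [← commutatorElement_inv, h2 x hx u hu, inv_one]))
    · push Not at h1
      obtain ⟨x, hx, h1⟩ := h1
      obtain ⟨e, he, he1⟩ := hZ1 _ (hQ _ (hQa x hx) _ (hQg _ (hQa x hx))).1 h1
      refine half_of_scalar ρ g x _ hc he he1 (fun v h2 h3 => ?_)
      have h4 := rho_inv_apply ρ one_ne_zero (h3.trans (one_smul F v).symm)
      rw [commutatorElement_def ⁅g, x⁆]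
      simp only [mul_inv_rev, inv_inv, map_mul, End.mul_apply, h4, inv_one, one_smul, rho_inv_apply ρ hc h2,
        map_smul, h3, h2, smul_smul, inv_mul_cancel₀ hc]

end Rep

/-- Eigenspaces of elements normalising an absolutely irreducible extraspecial group. Let F be a finite field, r a prime, and R ≤ GL_n(F) an absolutely irreducible extraspecial r-group (an r-group whose centre equals its derived subgroup and has order r) of exponent r or 4. Let g ∈ GL_n(F) normalise the product of R with the scalar matrices, have prime order ϖ and not be scalar, and let W be the eigenspace of g for any c ∈ F (W may be the zero subspace). Then dim W ≤ 3n/4 if ϖ = 2, dim W ≤ 2n/3 if ϖ = 3, and dim W ≤ n/2 if ϖ > 3; moreover if ϖ = 3 and 3 does not divide n then dim W ≤ n/2. -/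
theorem result {F : Type*} [Field F] [Fintype F] {n r ϖ : ℕ} (R : Subgroup (Matrix.GeneralLinearGroup (Fin n) F)) (hr : r.Prime) (hR : IsPGroup r R) (hZ : Nat.card (Subgroup.center R) = r) (hext : commutator R = Subgroup.center R) (hexp : Monoid.exponent R = r ∨ Monoid.exponent R = 4) (hirr : Cfsg.Geo.ActsAbsolutelyIrreducibly (Cfsg.Geo.matrixSet R)) (g : Matrix.GeneralLinearGroup (Fin n) F) (hg : g ∈ Cfsg.Geo.subgroupNormalizer (R ⊔ Cfsg.Geo.scalars (Fin n) F)) (hϖ : ϖ.Prime) (hord : orderOf g = ϖ) (hns : g ∉ Cfsg.Geo.scalars (Fin n) F) (c : F) :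
    (ϖ = 2 → 4 * Module.finrank F (Module.End.eigenspace (Matrix.toLin' (g : Matrix (Fin n) (Fin n) F)) c) ≤ 3 * n) ∧
    (ϖ = 3 → 3 * Module.finrank F (Module.End.eigenspace (Matrix.toLin' (g : Matrix (Fin n) (Fin n) F)) c) ≤ 2 * n) ∧
    (3 < ϖ → 2 * Module.finrank F (Module.End.eigenspace (Matrix.toLin' (g : Matrix (Fin n) (Fin n) F)) c) ≤ n) ∧
    (ϖ = 3 → ¬ 3 ∣ n → 2 * Module.finrank F (Module.End.eigenspace (Matrix.toLin' (g : Matrix (Fin n) (Fin n) F)) c) ≤ n) := by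
  classical
  let ρ : Matrix.GeneralLinearGroup (Fin n) F →* End F (Fin n → F) :=
    { toFun := fun x => Matrix.toLin' (x : Matrix (Fin n) (Fin n) F)
      map_one' := by simp [Matrix.toLin'_one]; rfl
      map_mul' := fun x y => by simp [Matrix.toLin'_mul]; rfl }
  have hρ : Function.Injective ρ := fun x y h => Units.ext (Matrix.toLin'.injective h)
  show (ϖ = 2 → 4 * finrank F ((ρ g).eigenspace c) ≤ 3 * n) ∧ (ϖ = 3 → 3 * finrank F ((ρ g).eigenspace c) ≤ 2 * n) ∧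
    (3 < ϖ → 2 * finrank F ((ρ g).eigenspace c) ≤ n) ∧ (ϖ = 3 → ¬ 3 ∣ n → 2 * finrank F ((ρ g).eigenspace c) ≤ n)
  by_cases hc : c = 0
  · subst hc
    have : (ρ g).eigenspace 0 = ⊥ := by
      rw [eq_bot_iff]
      intro v hv
      rw [End.mem_eigenspace_iff, zero_smul, ← map_zero (ρ g)] at hv
      exact rho_inj ρ g hv
    rw [this, finrank_bot]
    simp
  have hn : n ≠ 0 := by
    rintro rfl
    exact hns (by rw [Subsingleton.elim g 1]; exact Subgroup.one_mem _)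
  have hZ' : ∀ z ∈ Geo.scalars (Fin n) F, ∃ c : F, ρ z = c • 1 := fun z hz => by
    obtain ⟨e, he⟩ := (Geo.mem_scalars_iff z).1 hz
    refine ⟨e, ?_⟩
    show Matrix.toLin' (z : Matrix (Fin n) (Fin n) F) = _
    rw [he, map_smul, Matrix.toLin'_one]; rfl
  have hZc : ∀ z ∈ Geo.scalars (Fin n) F, ∀ y, y * z = z * y := fun z hz y => hρ (by
    obtain ⟨e, he⟩ := hZ' z hz
    simp [he])
  have : (Geo.scalars (Fin n) F).Normal := ⟨fun z hz y => by rwa [hZc z hz y, mul_inv_cancel_right]⟩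
  have hC : ∀ y, (∀ u ∈ R, ⁅u, y⁆ = 1) → y ∈ Geo.scalars (Fin n) F := fun y h => by
    obtain ⟨e, he⟩ := hirr.2 y (by
      rintro _ ⟨u, hu, rfl⟩
      exact congrArg Units.val (commutatorElement_eq_one_iff_mul_comm.1 (h u hu)).symm)
    have he0 : e ≠ 0 := by
      rintro rfl
      have h1 := y.mul_inv
      rw [he, zero_smul, zero_mul] at h1
      have := congrFun (congrFun h1 ⟨0, Nat.pos_of_ne_zero hn⟩) ⟨0, Nat.pos_of_ne_zero hn⟩
      simp at this
    exact (Geo.mem_scalars_iff y).2 ⟨Units.mk0 e he0, he⟩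
  have hQ : ∀ u ∈ R ⊔ Geo.scalars (Fin n) F, ∀ v ∈ R ⊔ Geo.scalars (Fin n) F,
      ⁅u, v⁆ ∈ Geo.scalars (Fin n) F ∧ ⁅u, v⁆ ^ r = 1 := fun u hu v hv => by
    rw [← SetLike.mem_coe, Subgroup.mul_normal] at hu hv
    obtain ⟨u, hu, z, hz, rfl⟩ := hu
    obtain ⟨v, hv, z', hz', rfl⟩ := hv
    have h1 : ⁅u * z, v * z'⁆ = ⁅u, v⁆ := by
      calc ⁅u * z, v * z'⁆ = u * (z * v) * (z' * (z⁻¹ * u⁻¹)) * z'⁻¹ * v⁻¹ := by
            simp only [commutatorElement_def]; group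
        _ = _ := by rw [← hZc z hz, ← hZc z' hz', commutatorElement_def]; group
    show ⁅u * z, v * z'⁆ ∈ _ ∧ ⁅u * z, v * z'⁆ ^ r = 1
    rw [h1]
    have h2 : ⁅(⟨u, hu⟩ : R), (⟨v, hv⟩ : R)⁆ ∈ Subgroup.center R := by
      rw [← hext]; exact Subgroup.commutator_mem_commutator (Subgroup.mem_top _) (Subgroup.mem_top _)
    refine ⟨hC _ (fun w hw => commutatorElement_eq_one_iff_mul_comm.2
      (congrArg Subtype.val (Subgroup.mem_center_iff.1 h2 ⟨w, hw⟩))), ?_⟩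
    have h3 : (⟨_, h2⟩ : Subgroup.center R) ^ r = 1 := by rw [← hZ]; exact pow_card_eq_one'
    exact congrArg (fun t : Subgroup.center R => ((t : R) : Matrix.GeneralLinearGroup (Fin n) F)) h3
  obtain ⟨h1, h2⟩ := main ρ hρ hZ' hr hQ (fun y h => hC y (fun u hu => h u (Subgroup.mem_sup_left hu))) hg hϖ
    (by rw [← hord]; exact pow_orderOf_eq_one g) hns hc
  rw [finrank_fin_fun] at h1 h2
  have hr2 := hr.two_le
  refine ⟨fun _ => ?_, fun h3 => ?_, fun h3 => h2 (by omega) (by omega), fun h3 h4 => ?_⟩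
  · rcases h1 with h1 | ⟨-, e, h1, h4⟩
    · omega
    · have := Nat.mul_le_mul_right e hr2
      omega
  · by_cases h5 : r = 3
    · subst h5
      rcases h1 with h1 | ⟨-, e, h1, h4⟩ <;> omega
    · have := h2 (by omega) (fun _ => h5)
      omega
  · by_cases h5 : r = 3
    · subst h5
      exact h1.resolve_right (fun h => h4 h.1)
    · exact h2 (by omega) (fun _ => h5)

end Cfsg.Agent.S5877
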