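import Cfsg.Statements.S5938
import Mathlib
import Cfsg.Agent.Lib.PSL2Max.Fin

set_option autoImplicit false
open Cfsg

namespace Cfsg.Agent.S5938

open H98 H29 Matrix MatrixGroups MulAction

/-- Let p be a prime with p ≡ ±1 (mod 8) and F a field with p elements. Then PSL_2(F) has a maximal subgroup isomorphic to the symmetric group S_4. -/
theorem result {F : Type*} [Field F] [Fintype F] (p : ℕ) [Fact p.Prime] (hF : Fintype.card F = p) (hp : p % 8 = 1 ∨ p % 8 = 7) : ∃ H : Subgroup (Matrix.ProjectiveSpecialLinearGroup (Fin 2) F), IsCoatom H ∧ Nonempty (H ≃* Equiv.Perm (Fin 4)) := by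
  have hq : Nat.card F = p ^ 1 := by rw [Nat.card_eq_fintype_card, hF, pow_one]
  have := charP_of_card_eq_pow hq
  obtain ⟨M, hM, e⟩ := (sym4_PS_one_iff (K := AlgebraicClosure F) (p := p)).2 hp
  have := (Fact.out : p.Prime).one_lt
  exact exists_coatom hq (sym4_covBy (by omega) hM e) e

end Cfsg.Agent.S5938
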