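import Cfsg.Statements.S5941
import Mathlib
import Cfsg.Agent.Lib.PSL2Max.Fin

set_option autoImplicit false
open Cfsg

namespace Cfsg.Agent.S5941

open H98 H29 Matrix MatrixGroups MulAction

/-- Let K and F be finite fields of odd characteristic with #F = (#K)². Then PSL_2(F) has a maximal subgroup isomorphic to PGL_2(K). -/
theorem result {F K : Type*} [Field F] [Fintype F] [Field K] [Fintype K] (q : ℕ) (hK : Fintype.card K = q) (hF : Fintype.card F = q ^ 2) (hq : Odd q) : ∃ H : Subgroup (Matrix.ProjectiveSpecialLinearGroup (Fin 2) F), IsCoatom H ∧ Nonempty (H ≃* Matrix.ProjGenLinGroup (Fin 2) K) := by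
  obtain ⟨p, _, _, i, hi, hKq⟩ := exists_card_eq_pow K
  have hq' : q = p ^ i := by rw [← hK, ← Nat.card_eq_fintype_card, hKq]
  have hFq : Nat.card F = p ^ (i * 2) := by rw [Nat.card_eq_fintype_card, hF, hq', pow_mul]
  have := charP_of_card_eq_pow hFq
  have hp2 : p ≠ 2 := by
    rintro rfl
    exact (Nat.not_even_iff_odd.2 hq) (hq' ▸ (Nat.even_pow' hi).2 even_two)
  obtain ⟨φ⟩ := fld_equiv (AlgebraicClosure F) p hi hKq
  exact exists_coatom hFq (PG_covBy_PS hp2 hi) ⟨(pgEquiv _).symm.trans (H10.pglCongr φ)⟩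

end Cfsg.Agent.S5941
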