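import Cfsg.Statements.S5942
import Mathlib
import Cfsg.Agent.Lib.PSL2Max.Fin

set_option autoImplicit false
open Cfsg

namespace Cfsg.Agent.S5942

open H98 H29 Matrix MatrixGroups MulAction

/-- Let K and F be finite fields of odd characteristic with #F = (#K)^r for an odd prime r. Then PSL_2(F) has a maximal subgroup isomorphic to PSL_2(K). -/
theorem result {F K : Type*} [Field F] [Fintype F] [Field K] [Fintype K] (q r : ℕ) (hK : Fintype.card K = q) (hF : Fintype.card F = q ^ r) (hq : Odd q) (hr : r.Prime) (hr2 : r ≠ 2) : ∃ H : Subgroup (Matrix.ProjectiveSpecialLinearGroup (Fin 2) F), IsCoatom H ∧ Nonempty (H ≃* Matrix.ProjectiveSpecialLinearGroup (Fin 2) K) := by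
  obtain ⟨p, _, _, i, hi, hKq⟩ := exists_card_eq_pow K
  have hq' : q = p ^ i := by rw [← hK, ← Nat.card_eq_fintype_card, hKq]
  have hFq : Nat.card F = p ^ (i * r) := by rw [Nat.card_eq_fintype_card, hF, hq', pow_mul]
  have := charP_of_card_eq_pow hFq
  have h1 : 1 < p ^ i := Nat.one_lt_pow hi (Fact.out : p.Prime).one_lt
  obtain ⟨φ⟩ := fld_equiv (AlgebraicClosure F) p hi hKq
  exact exists_coatom hFq (PS_covBy_PS hi hr (by obtain ⟨m, hm⟩ := hq; omega) (Or.inr hr2))
    ⟨(psEquiv _).symm.trans (H10.pslCongr φ)⟩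

end Cfsg.Agent.S5942
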