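import Cfsg.Statements.S5950
import Cfsg.Agent.Lib.Elusive.PSL

set_option autoImplicit false
open scoped MatrixGroups
open Cfsg

namespace Cfsg.Agent.S5950

/-- Elements of prime order of PSL_n(q) fixing no decomposition `F^n = U ⊕ W` with `dim U = m`. Here `T = PSL_n(F)` for a field `F` with `q = p^f` elements (`n ≥ 2`, `(n, q) ≠ (2, 2), (2, 3)`); an element of `T` of prime order `r` is represented by a matrix `x` of determinant 1 with `x^r` scalar and `x` not scalar; `i` denotes the multiplicative order of `q` modulo `r` (when `r ≠ p`), and `(a)_r` the `r`-part of `a`. Let `n ≥ 3`, `1 ≤ m < n/2`, and let `r` be a prime dividing the number of such decompositions (unordered pairs `{U, W}` of complementary subspaces with `dim U = m`; since `m ≠ n − m` these are the ordered pairs with `dim U = m`). Then every element of `T` of order `r` fixes such a pair (fixes both `U` and `W` for some complementary `U, W` with `dim U = m`) if and only if one of: (i) `r = p > 2` and every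 partition of `n` into parts of size at most `p` contains, as a sub-multiset, a partition of `m`; (ii) `r = p = 2` and `n` is odd or `m` is even; (iii) `r ≠ p`, `i = 1`, and `r ∣ m` or `(q−1)_r ≥ (n)_r` (with `q ≡ 1 (mod 4)` required when `r = 2` and `n` is even); (iv) `r ≠ p`, `2 ≤ i ≤ m` and `n mod i ≥ m mod i`. -/
theorem result {F : Type*} [Field F] [Fintype F] {p : ℕ} [Fact p.Prime] [CharP F p] {q : ℕ} (hq : Fintype.card F = q)
    (n m : ℕ) (hn : 3 ≤ n) (hm : 1 ≤ m) (hmn : 2 * m < n)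
    (r : ℕ) [Fact r.Prime]
    (hrΩ : r ∣ Nat.card {P : Submodule F (Fin n → F) × Submodule F (Fin n → F) // IsCompl P.1 P.2 ∧ Module.finrank F ↥P.1 = m}) :
    (∀ x : Matrix.SpecialLinearGroup (Fin n) F,
      (∃ c : F, ((x ^ r : Matrix.SpecialLinearGroup (Fin n) F) : Matrix (Fin n) (Fin n) F) = c • (1 : Matrix (Fin n) (Fin n) F)) →
      (∀ c : F, (x : Matrix (Fin n) (Fin n) F) ≠ c • (1 : Matrix (Fin n) (Fin n) F)) →
      ∃ U W : Submodule F (Fin n → F), IsCompl U W ∧ Module.finrank F ↥U = m ∧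
        U.map (Matrix.toLin' (x : Matrix (Fin n) (Fin n) F)) ≤ U ∧ W.map (Matrix.toLin' (x : Matrix (Fin n) (Fin n) F)) ≤ W) ↔
    ((r = p ∧ 2 < p ∧ (∀ μ : Multiset ℕ, (∀ a ∈ μ, 0 < a ∧ a ≤ p) → μ.sum = n → ∃ ν : Multiset ℕ, ν ≤ μ ∧ ν.sum = m)) ∨
     (r = p ∧ p = 2 ∧ (Odd n ∨ Even m)) ∨
     (r ≠ p ∧
      ((orderOf (q : ZMod r) = 1 ∧ (r ∣ m ∨ (padicValNat r n ≤ padicValNat r (q - 1) ∧ (r = 2 → Even n → q % 4 = 1)))) ∨
       (2 ≤ orderOf (q : ZMod r) ∧ orderOf (q : ZMod r) ≤ m ∧ m % orderOf (q : ZMod r) ≤ n % orderOf (q : ZMod r))))) := by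
  subst hq
  have hfin : Module.finrank F (Fin n → F) = n := by simp
  rw [H99.forall_sl_iff r fun f => ∃ U W : Submodule F (Fin n → F), IsCompl U W ∧
    Module.finrank F ↥U = m ∧ U.map f ≤ U ∧ W.map f ≤ W]
  simp only [← H99.inv_iff_map_le]
  by_cases hrp : r = p
  · subst hrp
    have h1 := H99.sl_compl_char_iff (F := F) (V := Fin n → F) (p := r) (m := m) (by omega)
      (by omega)
    rw [h1, hfin]
    rcases (Fact.out : r.Prime).two_le.lt_or_eq with h2 | rfl
    · simp [h2, h2.ne']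
    · rw [H99.partition_two_iff (by omega)]
      simp
  have H : H99.Ord F r _ := H99.Ord.of_ne hrp rfl rfl
  have hd : r ∣ H99.dprod (Fintype.card F) (Module.finrank F (Fin n → F)) m := by
    rw [H99.card_compl_pairs] at hrΩ
    refine dvd_trans (((Nat.Prime.dvd_mul Fact.out).mp hrΩ).resolve_right fun h => ?_)
      (H99.nsub_dvd (by omega))
    exact H.not_dvd (Nat.Prime.dvd_of_dvd_pow Fact.out h)
  have := H99.sl_subspace_iff H hm (by omega) hd
  rw [hfin] at this
  simp only [hrp, false_and, false_or, ne_eq, not_false_eq_true, true_and]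
  refine Iff.trans ?_ this
  refine forall₂_congr fun f hf => forall₂_congr fun hc _ => ?_
  constructor
  · rintro ⟨U, W, -, h1, h2, -⟩
    exact ⟨U, h2, h1⟩
  · rintro ⟨U, h1, h2⟩
    obtain ⟨c, hc⟩ := hc
    have hc0 : c ≠ 0 := H99.ne_zero_of_det (by rw [hf]; exact one_ne_zero) hc (by omega)
    obtain ⟨W, hW, -, h3, h4⟩ := H99.exists_inv_compl (H99.isSemisimple_of_pow H.ne hc0 hc) h1
      H99.Inv.top le_top
    exact ⟨U, W, ⟨h3, codisjoint_iff.mpr h4⟩, h2, h1, hW⟩

end Cfsg.Agent.S5950
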