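import Cfsg.Statements.S5952
import Mathlib
import Cfsg.Agent.Lib.Elusive.Inv

set_option autoImplicit false
open Cfsg

namespace Cfsg.Agent.S5952

/-- Which dimensions of invariant subspaces a semisimple linear map has. Let `V` be a finite-dimensional vector space over a field `F` and `f` an invertible semisimple linear map of `V`. Suppose `V` is the internal direct sum of the fixed space `C_V(f)` (the eigenspace for 1) and subspaces `U_1, …, U_s`, each `f`-invariant of dimension `a ≥ 1` on which `f` acts irreducibly (no `f`-invariant subspaces other than 0 and `U_j`). Let `0 < m < dim V` and `ℓ = m mod a`. Then `f` leaves some `m`-dimensional subspace invariant if and only if `dim C_V(f) ≥ m`, or `a ≤ m` and `dim C_V(f) ≥ ℓ`. -/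
theorem result {F V : Type*} [Field F] [AddCommGroup V] [Module F V]
    [FiniteDimensional F V] (f : V →ₗ[F] V) (hf : Function.Bijective f) (hss : Module.End.IsSemisimple f)
    {s a : ℕ} (ha : 1 ≤ a) (U : Fin s → Submodule F V)
    (hUinv : ∀ j, (U j).map f ≤ U j) (hUdim : ∀ j, Module.finrank F ↥(U j) = a)
    (hUirr : ∀ j, ∀ W : Submodule F V, W ≤ U j → W.map f ≤ W → W = ⊥ ∨ W = U j)
    (hdec : DirectSum.IsInternal (fun o : Option (Fin s) => o.elim (Module.End.eigenspace f 1) U))
    (m : ℕ) (hm : 0 < m) (hmV : m < Module.finrank F V) :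
    (∃ W : Submodule F V, Module.finrank F ↥W = m ∧ W.map f ≤ W) ↔
    (m ≤ Module.finrank F ↥(Module.End.eigenspace f 1) ∨
      (a ≤ m ∧ m % a ≤ Module.finrank F ↥(Module.End.eigenspace f 1))) := by
  classical
  set C := Module.End.eigenspace f 1 with hC
  have hCfix : ∀ v ∈ C, f v = v := fun v hv => by
    simpa using Module.End.mem_eigenspace_iff.mp hv
  have hUi : ∀ j, H99.Inv f (U j) := fun j => H99.inv_iff_map_le.mpr (hUinv j)
  have hind := hdec.submodule_iSupIndep
  have htop := hdec.submodule_iSup_eq_top
  have hdis : ∀ (T : Finset (Fin s)) (i : Fin s), i ∉ T → Disjoint (C ⊔ T.sup U) (U i) := by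
    intro T i hi
    have h1 := hind (some i)
    refine (h1.mono_right ?_).symm
    refine sup_le (le_iSup₂_of_le none (by simp) le_rfl) (Finset.sup_le fun j hj => ?_)
    exact le_iSup₂_of_le (some j) (by rintro ⟨rfl⟩; exact hi hj) le_rfl
  have hTi : ∀ T : Finset (Fin s), H99.Inv f (T.sup U) := by
    intro T
    rw [Finset.sup_eq_iSup]
    exact H99.Inv.iSup fun j => H99.Inv.iSup fun _ => hUi j
  have hCi : H99.Inv f C := H99.Inv.of_le_fix hCfix
  have htop' : C ⊔ Finset.univ.sup U = ⊤ := by
    rw [eq_top_iff, ← htop]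
    refine iSup_le fun o => ?_
    cases o with
    | none => exact le_sup_left
    | some j => exact le_sup_of_le_right (Finset.le_sup (f := U) (Finset.mem_univ j))
  have hdim : ∀ E ≤ C, ∀ T : Finset (Fin s),
      Module.finrank F ↥(E ⊔ T.sup U) = Module.finrank F E + T.card * a := by
    intro E hE T
    induction T using Finset.induction_on with
    | empty => rw [Finset.sup_empty, sup_bot_eq]; simp
    | insert i T hi ih =>
      rw [Finset.sup_insert, sup_comm (U i), ← sup_assoc,
        H99.finrank_sup_of_disjoint ((hdis T i hi).mono_left (sup_le_sup_right hE _)), ih,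
        hUdim, Finset.card_insert_of_notMem hi]
      ring
  have hV : Module.finrank F V = Module.finrank F C + s * a := by
    have := hdim C le_rfl Finset.univ
    rwa [htop', finrank_top, Finset.card_univ, Fintype.card_fin] at this
  constructor
  · rintro ⟨W, rfl, hW⟩
    have hWi : H99.Inv f W := H99.inv_iff_map_le.mpr hW
    have key : ∀ T : Finset (Fin s), ∃ k,
        Module.finrank F ↥(W ⊓ (C ⊔ T.sup U)) = Module.finrank F ↥(W ⊓ C) + k * a := by
      intro T
      induction T using Finset.induction_on with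
      | empty => exact ⟨0, by rw [Finset.sup_empty, sup_bot_eq]; simp⟩
      | insert i T hi ih =>
        obtain ⟨k, hk⟩ := ih
        have e1 : C ⊔ (insert i T).sup U = (C ⊔ T.sup U) ⊔ U i := by
          rw [Finset.sup_insert, sup_comm (U i), ← sup_assoc]
        have := H99.finrank_inv_step (W := W ⊓ ((C ⊔ T.sup U) ⊔ U i))
          (hWi.inf ((hCi.sup (hTi T)).sup (hUi i))) (hCi.sup (hTi T)) (hUi i) (hdis T i hi)
          inf_le_right (fun X hX hXi => hUirr i X hX (H99.inv_iff_map_le.mp hXi))
        rw [inf_assoc, inf_eq_right.mpr (le_sup_left : C ⊔ T.sup U ≤ (C ⊔ T.sup U) ⊔ U i), hk,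
          hUdim] at this
        rw [e1]
        rcases this with h | h
        · exact ⟨k, h⟩
        · exact ⟨k + 1, by rw [h]; ring⟩
    obtain ⟨k, hk⟩ := key Finset.univ
    rw [htop', inf_top_eq] at hk
    have hle : Module.finrank F ↥(W ⊓ C) ≤ Module.finrank F C :=
      Submodule.finrank_mono inf_le_right
    rcases Nat.eq_zero_or_pos k with rfl | hk0
    · left; omega
    · right
      refine ⟨by nlinarith, ?_⟩
      rw [hk, Nat.add_mul_mod_self_right]
      exact (Nat.mod_le _ _).trans hle
  · intro h
    have key : ∃ e k, e ≤ Module.finrank F C ∧ k ≤ s ∧ m = e + k * a := by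
      rcases h with h | ⟨h1, h2⟩
      · exact ⟨m, 0, h, Nat.zero_le _, by simp⟩
      · by_cases hk : m / a ≤ s
        · exact ⟨m % a, m / a, h2, hk, by rw [mul_comm]; exact (Nat.mod_add_div m a).symm⟩
        · have : s * a ≤ m := (Nat.le_div_iff_mul_le ha).mp (by omega)
          exact ⟨m - s * a, s, by omega, le_rfl, by omega⟩
    obtain ⟨e, k, he, hk, rfl⟩ := key
    obtain ⟨E, hE, hEd⟩ := H99.exists_le_finrank_eq C he
    obtain ⟨T, -, hT⟩ := Finset.exists_subset_card_eq (s := (Finset.univ : Finset (Fin s)))
      (n := k) (by simpa using hk)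
    refine ⟨E ⊔ T.sup U, by rw [hdim E hE, hEd, hT], H99.inv_iff_map_le.mp ?_⟩
    exact (H99.Inv.of_le_fix fun v hv => hCfix v (hE hv)).sup (hTi T)

end Cfsg.Agent.S5952
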