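import Cfsg.Statements.S5954
import Cfsg.Agent.Lib.Elusive.Herm
import Cfsg.Agent.Lib.Elusive.PSL

set_option autoImplicit false
open scoped MatrixGroups
open Cfsg

namespace Cfsg.Agent.S5954

open H99 H28 Module Polynomial

/-- Elements of prime order of PSU_n(q) with no fixed nondegenerate `m`-space. Here `T = PSU_n(q)` (`n ≥ 3`, `(n, q) ≠ (3, 2)`), realised through the matrices of determinant 1 over the field `F` with `q²` elements preserving the Hermitian form `h(u, v) = Σ u_i v_i^q`; an element of `T` of prime order `r` is such a matrix `x` with `x^r` scalar and `x` not scalar. For `r ≠ p` let `i` be the multiplicative order of `q` modulo `r`, `b = i/2` for `i` even and `b = i` for `i` odd, `c = i, i/2, 2i` according as `i ≡ 0, 2 (mod 4)` or `i` odd, and write `k = n mod c`, `ℓ = m mod b`, `ℓ' = m mod c`, `n' = ⌊n/b⌋`, `m' = ⌊m/b⌋`, `s = (r−1)/b`; `(a)_r` is the `r`-part of `a`. Let `1 ≤ m < n/2` and let `r` be a prime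 dividing the number of nondegenerate `m`-spaces. Then every element of `T` of order `r` fixes a nondegenerate `m`-space if and only if one of: (i) `r = p > 2` and every partition of `n` into parts of size at most `p` contains (as a sub-multiset) a partition of `m`; (ii) `r = p = 2` and (`n` is odd or `m` is even); (iii) `r = 2 ≠ p` and (`n` is odd, or `m` is even, or `(q+1)_2 ≥ (n)_2` and `q ≡ 3 (mod 4)`); (iv) `r ≠ p`, `r > 2`, and either `i ≠ 2`, `c ≤ m` and `k ≥ ℓ'`, or `i = 2` and (`r ∣ m` or `(q+1)_r ≥ (n)_r`). -/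
theorem result {F : Type*} [Field F] [Fintype F] {p : ℕ} [Fact p.Prime] [CharP F p] {q : ℕ} (hq : Fintype.card F = q ^ 2)
    (n m : ℕ) (hn : 3 ≤ n) (hT : (n, q) ≠ (3, 2)) (hm : 1 ≤ m) (hmn : 2 * m < n)
    (r : ℕ) [Fact r.Prime]
    (hrΩ : r ∣ Nat.card {W : Submodule F (Fin n → F) // Module.finrank F ↥W = m ∧ (∀ u ∈ W, u ≠ 0 → ∃ v ∈ W, Cfsg.hermForm n F q u v ≠ 0)})
    (i b c : ℕ) (hi : i = orderOf (q : ZMod r)) (hb : b = if Even i then i / 2 else i)
    (hc : c = if i % 4 = 0 then i else if i % 4 = 2 then i / 2 else 2 * i) :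
    (∀ x : Matrix.SpecialLinearGroup (Fin n) F, x ∈ Cfsg.SU n F q →
      (∃ z : F, ((x ^ r : Matrix.SpecialLinearGroup (Fin n) F) : Matrix (Fin n) (Fin n) F) = z • (1 : Matrix (Fin n) (Fin n) F)) →
      (∀ z : F, (x : Matrix (Fin n) (Fin n) F) ≠ z • (1 : Matrix (Fin n) (Fin n) F)) →
      ∃ W : Submodule F (Fin n → F), Module.finrank F ↥W = m ∧ (∀ u ∈ W, u ≠ 0 → ∃ v ∈ W, Cfsg.hermForm n F q u v ≠ 0) ∧
        W.map (Matrix.toLin' (x : Matrix (Fin n) (Fin n) F)) ≤ W) ↔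
    ((r = p ∧ 2 < p ∧ (∀ μ : Multiset ℕ, (∀ a ∈ μ, 0 < a ∧ a ≤ p) → μ.sum = n → ∃ ν : Multiset ℕ, ν ≤ μ ∧ ν.sum = m)) ∨
     (r = p ∧ p = 2 ∧ (Odd n ∨ Even m)) ∨
     (r = 2 ∧ p ≠ 2 ∧ (Odd n ∨ Even m ∨ (padicValNat 2 n ≤ padicValNat 2 (q + 1) ∧ q % 4 = 3))) ∨
     (r ≠ p ∧ 2 < r ∧ ((i ≠ 2 ∧ c ≤ m ∧ m % c ≤ n % c) ∨ (i = 2 ∧ (r ∣ m ∨ padicValNat r n ≤ padicValNat r (q + 1)))))) := by
  obtain ⟨σ, P, H, hB⟩ := exists_hp n hq
  have hn' : finrank F (Fin n → F) = n := by simp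
  have : Nontrivial (Fin n → F) := Module.nontrivial_of_finrank_pos (R := F) (by omega)
  have hr := (Fact.out : r.Prime)
  simp only [herm_nondeg_iff hB, ← inv_iff_map_le] at hrΩ ⊢
  rw [su_el_iff H hB r fun f => ∃ W : Submodule F (Fin n → F), finrank F W = m ∧ P.Nondeg W ∧ Inv f W]
  have hT : ∀ (f : (Fin n → F) →ₗ[F] (Fin n → F)) (c : F), c ≠ 0 →
      (∃ W : Submodule F (Fin n → F), finrank F W = m ∧ P.Nondeg W ∧ Inv (c • f) W) →
      ∃ W : Submodule F (Fin n → F), finrank F W = m ∧ P.Nondeg W ∧ Inv f W :=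
    fun f c hc ⟨W, h8, h9, h10⟩ => ⟨W, h8, h9, h10.of_smul hc⟩
  rcases eq_or_ne r p with rfl | hrp
  · rw [H.el_iff (H.char_not_dvd r) hT, H.dc.unip_iff H.ub r (by simp) H.exists_Λ (by simp)
      (by omega) (by simp), hn']
    simp only [Adm, false_imp_iff, implies_true, forall_const, and_true, true_and, ne_eq,
      not_true_eq_false, false_and, or_false]
    rcases eq_or_ne r 2 with rfl | h2
    · simpa using partition_two_iff (by omega)
    · simp [h2, lt_of_le_of_ne hr.two_le h2.symm]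
  have hr0 : (r : F) ≠ 0 := cast_ne_zero_of_ne hrp
  have hq0 : ¬ r ∣ q := fun h => not_dvd_card' hr0 (hq ▸ h.trans (dvd_pow_self q two_ne_zero))
  rcases eq_or_ne r 2 with rfl | h2
  · rw [H.nd_iff (by omega) (by omega), hn', ← even_iff_two_dvd, show 4 ∣ q + 1 ↔ q % 4 = 3 by omega]
    simp only [hrp, hrp.symm, false_and, false_or, ne_eq, not_false_eq_true, true_and, lt_self_iff_false,
      or_false, forall_const]
    rcases Nat.even_or_odd n with h3 | h3
    · simp [h3, Nat.not_odd_iff_even.mpr h3]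
    · simp [h3, Nat.not_even_iff_odd.mpr h3,
        padicValNat.eq_zero_of_not_dvd (fun h => Nat.not_even_iff_odd.mpr h3 (even_iff_two_dvd.mpr h))]
  have h3 : 2 < r := lt_of_le_of_ne hr.two_le h2.symm
  have h4 := (dvd_pow_add_one_iff (r := r) q 1).trans (pow_eq_neg_one_iff hq0 h2 1)
  have h5 := ord_pos hq0
  rw [← hi, pow_one, Nat.even_iff] at h4
  rw [← hi] at h5
  have h6 : r ∣ q + 1 ↔ i = 2 := h4.trans ⟨fun h => by
    rcases (by omega : i = 1 ∨ 1 < i) with h7 | h7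
    · omega
    · rw [Nat.mod_eq_of_lt h7] at h; omega, fun h => by simp [h]⟩
  by_cases h7 : i = 2
  · rw [H.nd_iff (h6.mpr h7) (by omega), hn']
    simp [h2, hrp, h3, h7]
  rw [H.el_iff (mt h6.mp h7) hT,
    H.dc.nd_iff (H.ss hr0 h2 hi hb hc) (one_dvd _) (one_dvd _) (by omega) hrΩ, hn']
  simp [h2, hrp, h3, h7]

end Cfsg.Agent.S5954
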