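import Cfsg.Statements.S5955
import Cfsg.Agent.Lib.Elusive.Sp

set_option autoImplicit false
open scoped MatrixGroups
open Cfsg

namespace Cfsg.Agent.S5955

open H99 H28 Module Polynomial

/-- Elements of prime order of PSp_n(q) with no fixed totally isotropic `m`-space. Here `T = PSp_n(q)` with `n = 2d ≥ 4`, `(n, q) ≠ (4, 2)`, realised through the symplectic matrices over the field `F` with `q` elements (preserving the standard alternating form); an element of `T` of prime order `r` is such a matrix `x` with `x^r` scalar and `x` not scalar. For `r ≠ p` let `i` be the multiplicative order of `q` modulo `r`, `c = i` for `i` even and `c = 2i` for `i` odd, and write `k = n mod c`, `ℓ = m mod i`, `ℓ' = m mod c`, `n' = ⌊n/i⌋`, `m' = ⌊m/i⌋`, `t = (r−1)/i`. Let `1 ≤ m ≤ n/2` and let `r` be a prime dividing the number of totally isotropic `m`-spaces. Then every element of `T` of order `r` fixes a totally isotropic `m`-space if and only if either (i) `r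 = 2 ≠ p` and (`m` is even or `q ≡ 1 (mod 4)`); or (ii) `r ≠ p`, `r > 2`, `i ≤ m`, `k ≥ 2ℓ`, and (`i` is odd or `n' − 2m' ≥ t`). -/
theorem result {F : Type*} [Field F] [Fintype F] {p : ℕ} [Fact p.Prime] [CharP F p] {q : ℕ} (hq : Fintype.card F = q)
    (d m : ℕ) (hd : 2 ≤ d) (hT : (d, q) ≠ (2, 2)) (hm : 1 ≤ m) (hmd : m ≤ d)
    (r : ℕ) [Fact r.Prime]
    (hrΩ : r ∣ Nat.card {W : Submodule F (Fin d ⊕ Fin d → F) // Module.finrank F ↥W = m ∧ (∀ u ∈ W, ∀ v ∈ W, Cfsg.sympForm d F u v = 0)})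
    (i c : ℕ) (hi : i = orderOf (q : ZMod r)) (hc : c = if Even i then i else 2 * i) :
    (∀ x : ↥(Matrix.symplecticGroup (Fin d) F),
      (∃ z : F, ((x ^ r : ↥(Matrix.symplecticGroup (Fin d) F)) : Matrix (Fin d ⊕ Fin d) (Fin d ⊕ Fin d) F) = z • (1 : Matrix (Fin d ⊕ Fin d) (Fin d ⊕ Fin d) F)) →
      (∀ z : F, (x : Matrix (Fin d ⊕ Fin d) (Fin d ⊕ Fin d) F) ≠ z • (1 : Matrix (Fin d ⊕ Fin d) (Fin d ⊕ Fin d) F)) →
      ∃ W : Submodule F (Fin d ⊕ Fin d → F), Module.finrank F ↥W = m ∧ (∀ u ∈ W, ∀ v ∈ W, Cfsg.sympForm d F u v = 0) ∧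
        W.map (Matrix.toLin' (x : Matrix (Fin d ⊕ Fin d) (Fin d ⊕ Fin d) F)) ≤ W) ↔
    ((r = 2 ∧ p ≠ 2 ∧ (Even m ∨ q % 4 = 1)) ∨
     (r ≠ p ∧ 2 < r ∧ i ≤ m ∧ 2 * (m % i) ≤ (2 * d) % c ∧ (Odd i ∨ (r - 1) / i + 2 * (m / i) ≤ (2 * d) / i))) := by
  have hP := spPQ_sep (m := d) (F := F)
  have hΛ := spPQ_Λ (m := d) (F := F)
  have hn := finrank_sp (F := F) (d := d)
  have hr := (Fact.out : r.Prime)
  have : Nontrivial (Fin d ⊕ Fin d → F) := Module.nontrivial_of_finrank_pos (R := F) (by omega)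
  simp only [sp_totSing_iff, ← inv_iff_map_le] at hrΩ ⊢
  rw [forall_sp_iff r fun f => ∃ W : Submodule F _, finrank F W = m ∧ (spPQ d F).TotSing W ∧ Inv f W]
  rcases eq_or_ne r p with rfl | hrp
  · exact absurd hrΩ (not_dvd_card_totSing r hP (by
      rw [alt_card hΛ, one_pow]; exact Nat.one_lt_pow (by omega) Finite.one_lt_card))
  have hr0 : (r : F) ≠ 0 := cast_ne_zero_of_ne hrp
  rcases eq_or_ne r 2 with rfl | hr2
  · have h2 : (2 : F) ≠ 0 := by simpa using hr0
    have hodd := FiniteField.odd_card_of_char_ne_two (F := F) (by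
      rw [ringChar.eq F p]; exact hrp.symm)
    have hsq := FiniteField.isSquare_neg_one_iff (F := F)
    rw [hq] at hodd hsq
    have hns : ¬ IsSquare (-1 : F) → ∀ d : F, d ^ 2 ≠ -1 := fun h d hd =>
      h ⟨d, by rw [← hd, pow_two]⟩
    simp only [true_and, lt_irrefl, false_and, and_false, or_false, ne_eq, hrp.symm,
      not_false_eq_true]
    constructor
    · intro h
      by_contra h1
      obtain ⟨U, U', h3, h4, h5, -⟩ := (alt_hyp hP hΛ (nondeg_top hP)).exists_halves hP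
      obtain ⟨g, h6, -, -, -, h7⟩ := exists_swap hP (h5 ▸ nondeg_top hP) h3 h4 (a := 1) (b := -1)
        (by simp [alt_ε hΛ])
      have h8 : g ^ 2 = (-1 : F) • 1 := LinearMap.ext fun v => by
        simpa [pow_two] using h7 v (h5 ▸ Submodule.mem_top)
      have h9 := hns (by rw [hsq]; omega)
      obtain ⟨W, h10, -, h11⟩ := h g h6 ⟨_, h8⟩ (ne_smul_one_of_not_pow h9 h8)
      exact h1 (Or.inl (even_iff_two_dvd.mpr (h10 ▸ dvd_finrank_of_irreducible h9 h8 h11)))
    rintro h f hf ⟨z, hz⟩ -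
    rcases sq_eq_one_of_pow hP hf hz with rfl | rfl
    · rw [one_smul] at hz
      have h1 := finrank_fixS_add hr0 hz
      obtain ⟨a, ha⟩ := (alt_hyp hP hΛ (nondeg_fixS hP hr0 hf hz)).even
      obtain ⟨U, h3, h4, h5⟩ := alt_hasTS hP hΛ (nondeg_movS hP hr0 hf hz) (k := m - min m a)
        (by omega)
      obtain ⟨W, h6, h7⟩ := exists_inv_totSing_add hr0 hf (alt_hasTS hP hΛ (nondeg_fixS hP hr0 hf hz)
        (k := min m a) (by omega)) h4 (inv_of_le_movS_two h3) h3
      exact ⟨W, by omega, h7⟩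
    by_cases h1 : IsSquare (-1 : F)
    · obtain ⟨ι, hι⟩ := h1
      have h3 : ∀ c : F, c * c = -1 → (spPQ d F).TotSing (LinearMap.ker (aeval f (X - C c))) :=
        fun c hc => totSing_of_eigen hf (c := c) (fun h => h2 (by
          simp only [RingHom.id_apply] at h; linear_combination hc - h)) fun v hv => by
            simpa [sub_eq_zero] using hv
      have h4 := finrank_inv_of_coprime (f := f) Inv.top (isCoprime_X_sub_C_of_isUnit_sub
        (a := ι) (b := -ι) (IsUnit.mk0 _ fun h => h2 (by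
          linear_combination (-2) * hι - ι * h))) fun w _ => by
        rw [show (X - C ι) * (X - C (-ι)) = X ^ 2 - C (-1) by rw [hι]; simp; ring,
          aeval_X_pow_sub_C hz]; rfl
      rw [top_inf_eq, top_inf_eq, finrank_top] at h4
      have h5 := (h3 (-ι) (by simp [hι])).two_mul_finrank_le hP
      obtain ⟨W, h6, h7⟩ := exists_le_finrank_eq (LinearMap.ker (aeval f (X - C ι))) (k := m)
        (by omega)
      exact ⟨W, h7, totSing_mono (h3 ι hι.symm) h6, Inv.of_eigen (c := ι) fun v hv => by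
        simpa [sub_eq_zero] using h6 hv⟩
    have hs := isSemisimple_of_pow hr0 (neg_ne_zero.mpr one_ne_zero) hz
    obtain ⟨U, M, h3, h4, -, -, h5, -, h6, h7⟩ := exists_core hP hs hf (nondeg_top hP) Inv.top
    have h8 : finrank F M ≤ 2 := by
      by_contra h8
      obtain ⟨w, hw, hw0, h9⟩ := exists_isotropic_system (P := spPQ d F) (fun _ : Unit => f) M
        (by simpa using h8)
      have h10 := h7 _ (pair_le hw (h4 w hw)) (inv_pair (c := -1) (by
        simpa [pow_two] using congrArg (fun g : _ →ₗ[F] _ => g w) hz)) ((alt_totSing hΛ).mpr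
          (pair_le (mem_perp_pair.mpr ⟨alt_self hΛ w, PQ.eq_zero_symm _ (h9 ())⟩)
            (mem_perp_pair.mpr ⟨h9 (), alt_self hΛ _⟩)))
      exact hw0 ((Submodule.mem_bot F).mp (h10 ▸ mem_span_pair'.mpr ⟨1, 0, by simp⟩))
    obtain ⟨k, rfl⟩ : Even m := h.resolve_right (by rw [hsq] at h1; omega)
    have h9 := dvd_finrank_of_irreducible (hns h1) hz h3
    rw [finrank_top] at h6
    obtain ⟨W, h10, h11, h12⟩ := exists_inv_finrank_mul hs (X_pow_sub_C_ne_zero two_pos (-1)) two_pos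
      (fun k hk hd => by
        rw [natDegree_eq_of_degree_eq (degree_eq_degree_of_associated (hk.associated_of_dvd
          (X_pow_sub_C_irreducible_of_prime hr (hns h1)) hd)), natDegree_X_pow_sub_C]) h3 (fun w _ => by rw [aeval_X_pow_sub_C hz]; rfl) k (by omega)
    exact ⟨W, by omega, totSing_mono h5 h11, h10⟩
  have H := ss_id hP (Ord.of_ne hrp hq hi) hr2 hc
  have hi0 := H.ord.pos
  have hc0 := H.pos
  have hce := even_c hc
  rw [forall_odd_iff hP (hr.odd_of_ne_two hr2) _ _ (fun _ h => h)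
    (fun f ⟨W, h1, h2, h3⟩ => ⟨W, h1, h2, h3.of_neg⟩) fun _ h _ => h]
  simp only [hr2, false_and, false_or, ne_eq, hrp, not_false_eq_true, true_and,
    show 2 < r by have := hr.two_le; omega]
  obtain ⟨W₀, -, hW₀, hW₀'⟩ := alt_hasTS hP hΛ (nondeg_top hP) (k := m) (by rw [finrank_top]; omega)
  have hci : c = i ∨ c = 2 * i := by split_ifs at hc <;> simp [hc]
  constructor
  · intro h
    have hcl : ∀ W W' : Submodule F (Fin d ⊕ Fin d → F), Cj (spPQ d F) W W' →
        finrank F W = m ∧ (spPQ d F).TotSing W → finrank F W' = m ∧ (spPQ d F).TotSing W' :=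
      fun W W' h1 h2 => ⟨h1.finrank_eq ▸ h2.1, h1.totSing h2.2⟩
    have htr : ∀ W W' : Submodule F (Fin d ⊕ Fin d → F), finrank F W = m ∧ (spPQ d F).TotSing W →
        finrank F W' = m ∧ (spPQ d F).TotSing W' → Cj (spPQ d F) W W' :=
      fun W W' h1 h2 => cj_totSing hP h1.2 h2.2 (h1.1.trans h2.1.symm)
    have him : i ≤ m := by
      by_contra h1
      refine not_dvd_card_sub hP hr0 _ hcl htr (fun f h2 h3 => ?_) hrΩ
      rcases eq_or_ne f 1 with rfl | h4
      · exact ⟨W₀, ⟨hW₀', hW₀⟩, Or.inl (by simp [fixS_eq_top_iff.mpr rfl])⟩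
      · obtain ⟨W, h5, h6, h7⟩ := h f h2 h3 h4
        exact ⟨W, ⟨h5, h6⟩, Or.inl (le_fixS_of_lt H.ord h3 h7 (by omega))⟩
    obtain ⟨f, h1, h2, h3⟩ := exists_elt_of_dvd_sub _ hcl htr ⟨W₀, hW₀', hW₀⟩ hrΩ
    obtain ⟨B, hB, hB'⟩ := H.exists_blk h1 h2 h3
    have key : ∀ e, 0 < e → e * c ≤ 2 * d → 2 * d - e * c < 2 * i →
        2 * (m % i) + e * c ≤ 2 * d ∧ 2 * (m / i * i) ≤ e * c ∧
          (c = i → 2 * (m / i) + (r - 1) / i ≤ e + 1) := fun e he h4 h5 => by
      obtain ⟨T, hT⟩ := alt_rsum_blk hP hΛ hc0 hB hB' (hn ▸ h4)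
      have h6 := hT.finrank_eq fun _ h => h.1
      obtain ⟨g, hg, h7⟩ := H.ts_bound hT
      obtain ⟨W, h8, h9, h10⟩ := h g hg.1 hg.2.1
        (hg.ne_one hP hr0 (ne_bot_of_finrank (by rw [h6]; positivity)))
      obtain ⟨u, t, h11, h12, h13, h14⟩ := h7 W h9 h10
      have h15 := h12.two_mul_le hP (hT.nondeg.perp hP)
      have h16 := (spPQ d F).finrank_perp_add hP T
      obtain ⟨rfl, rfl⟩ : m / i = t ∧ m % i = u :=
        (Nat.div_mod_unique hi0).mpr ⟨by rw [mul_comm]; omega, by omega⟩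
      have := Nat.div_pos him hi0
      exact ⟨by omega, h13, fun h => by have := h14 h; omega⟩
    have h4 := Nat.div_add_mod (2 * d) c
    have h5 := Nat.mod_lt (2 * d) hc0
    have h6 := Nat.div_pos (hn ▸ hB'.1 ▸ Submodule.finrank_le B) hc0
    rw [mul_comm] at h4
    obtain ⟨h7, h8, -⟩ := key _ h6 (by omega) (by omega)
    refine ⟨him, by omega, (Nat.even_or_odd i).symm.imp_right fun he => ?_⟩
    obtain rfl : c = i := by simpa [he] using hc
    have h9 := Nat.div_pos him hi0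
    rw [← mul_assoc] at h8
    have h10 := Nat.le_of_mul_le_mul_right h8 hi0
    have := (key (2 * d / c - 1) (by omega) (by rw [Nat.sub_one_mul]; omega)
      (by rw [Nat.sub_one_mul]; have := Nat.le_mul_of_pos_left c h6; omega)).2.2 rfl
    omega
  rintro ⟨h1, h2, h3⟩ f hf hfr -
  obtain ⟨T, a, h4, h5, h6, h7⟩ := H.ts_shape hf hfr
  obtain ⟨e, h8, h9⟩ := H.fix_shape hf hfr
  have h10 : 2 * d % c ≤ finrank F (fixS f) := by
    rw [← hn, h9, Nat.add_mul_mod_self_right]; exact Nat.mod_le _ _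
  have h11 := Nat.div_add_mod m i
  rcases le_total (m / i) T with h12 | h12
  · obtain ⟨W, h13, h14⟩ := h7 _ h12 (m % i) (alt_hasTS hP hΛ (nondeg_fixS hP hr0 hf hfr) (by omega))
    exact ⟨W, by rw [h13, mul_comm]; omega, h14⟩
  have h13 : T * i ≤ i * (m / i) := (Nat.mul_le_mul_right _ h12).trans_eq (mul_comm _ _)
  obtain ⟨W, h14, h15⟩ := h7 _ le_rfl (m - T * i) (alt_hasTS hP hΛ (nondeg_fixS hP hr0 hf hfr) (by
    rw [add_mul, mul_assoc] at h4
    rcases Nat.even_or_odd i with he | ho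
    · obtain rfl : c = i := by simpa [he] using hc
      have h14 := Nat.mul_le_mul_right c (h3.resolve_left (Nat.not_odd_iff_even.mpr he))
      have h15 := Nat.mul_le_mul_right c ((Nat.le_div_iff_mul_le hi0).mpr h5)
      have h16 := Nat.div_add_mod (2 * d) c
      rw [add_mul, mul_assoc, mul_comm (m / c), mul_comm (2 * d / c)] at h14
      omega
    · rw [h6 (by simpa [Nat.not_even_iff_odd.mpr ho] using hc)] at h4
      omega))
  exact ⟨W, by omega, h15⟩

end Cfsg.Agent.S5955
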