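import Cfsg.Statements.S5956
import Cfsg.Agent.Lib.Elusive.Dim

set_option autoImplicit false
open scoped MatrixGroups
open Cfsg

namespace Cfsg.Agent.S5956

open H99 H28 Module Polynomial

/-- Elements of prime order of PSp_n(q) with no fixed nondegenerate `m`-space. Here `T = PSp_n(q)` with `n = 2d ≥ 4`, `(n, q) ≠ (4, 2)`, realised through the symplectic matrices over the field `F` with `q` elements (preserving the standard alternating form); an element of `T` of prime order `r` is such a matrix `x` with `x^r` scalar and `x` not scalar. For `r ≠ p` let `i` be the multiplicative order of `q` modulo `r`, `c = i` for `i` even and `c = 2i` for `i` odd, and write `k = n mod c`, `ℓ = m mod i`, `ℓ' = m mod c`, `n' = ⌊n/i⌋`, `m' = ⌊m/i⌋`, `t = (r−1)/i`. Let `m` be even with `2 ≤ m < n/2` and let `r` be a prime dividing the number of nondegenerate `m`-spaces. Then every element of `T` of order `r` fixes a nondegenerate `m`-space if and only if one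 of: (i) `r = p > 2` and every partition of `n` into parts of size at most `p` in which every odd part has even multiplicity contains (as a sub-multiset) a partition of `m` in which every odd part has even multiplicity; (ii) `r = p = 2` and (`n ≡ 2 (mod 4)` or `m ≡ 0 (mod 4)`); (iii) `r = 2 ≠ p`; (iv) `r ≠ p`, `r > 2`, `c ≤ m` and `k ≥ ℓ'`. -/
theorem result {F : Type*} [Field F] [Fintype F] {p : ℕ} [Fact p.Prime] [CharP F p] {q : ℕ} (hq : Fintype.card F = q)
    (d m : ℕ) (hd : 2 ≤ d) (hT : (d, q) ≠ (2, 2)) (hm : 2 ≤ m) (hme : Even m) (hmd : m < d)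
    (r : ℕ) [Fact r.Prime]
    (hrΩ : r ∣ Nat.card {W : Submodule F (Fin d ⊕ Fin d → F) // Module.finrank F ↥W = m ∧ (∀ u ∈ W, u ≠ 0 → ∃ v ∈ W, Cfsg.sympForm d F u v ≠ 0)})
    (i c : ℕ) (hi : i = orderOf (q : ZMod r)) (hc : c = if Even i then i else 2 * i) :
    (∀ x : ↥(Matrix.symplecticGroup (Fin d) F),
      (∃ z : F, ((x ^ r : ↥(Matrix.symplecticGroup (Fin d) F)) : Matrix (Fin d ⊕ Fin d) (Fin d ⊕ Fin d) F) = z • (1 : Matrix (Fin d ⊕ Fin d) (Fin d ⊕ Fin d) F)) →
      (∀ z : F, (x : Matrix (Fin d ⊕ Fin d) (Fin d ⊕ Fin d) F) ≠ z • (1 : Matrix (Fin d ⊕ Fin d) (Fin d ⊕ Fin d) F)) →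
      ∃ W : Submodule F (Fin d ⊕ Fin d → F), Module.finrank F ↥W = m ∧ (∀ u ∈ W, u ≠ 0 → ∃ v ∈ W, Cfsg.sympForm d F u v ≠ 0) ∧
        W.map (Matrix.toLin' (x : Matrix (Fin d ⊕ Fin d) (Fin d ⊕ Fin d) F)) ≤ W) ↔
    ((r = p ∧ 2 < p ∧ (∀ μ : Multiset ℕ, (∀ a ∈ μ, 0 < a ∧ a ≤ p) → (∀ a : ℕ, Odd a → Even (μ.count a)) → μ.sum = 2 * d →
        ∃ ν : Multiset ℕ, ν ≤ μ ∧ ν.sum = m ∧ ∀ a : ℕ, Odd a → Even (ν.count a))) ∨
     (r = p ∧ p = 2 ∧ ((2 * d) % 4 = 2 ∨ m % 4 = 0)) ∨
     (r = 2 ∧ p ≠ 2) ∨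
     (r ≠ p ∧ 2 < r ∧ c ≤ m ∧ m % c ≤ (2 * d) % c)) := by
  have hP := spPQ_sep (m := d) (F := F)
  have hΛ := spPQ_Λ (m := d) (F := F)
  have hn := finrank_sp (F := F) (d := d)
  have hr := (Fact.out : r.Prime)
  have hp := (Fact.out : p.Prime)
  have : Nontrivial (Fin d ⊕ Fin d → F) := Module.nontrivial_of_finrank_pos (R := F) (by omega)
  have D := dc_alt hP hΛ
  simp only [sp_nondeg_iff, ← inv_iff_map_le] at hrΩ ⊢
  rw [forall_sp_iff r fun f => ∃ W : Submodule F _, finrank F W = m ∧ (spPQ d F).Nondeg W ∧ Inv f W]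
  obtain ⟨k, rfl⟩ := hme
  rcases eq_or_ne r 2 with rfl | hr2
  · rcases eq_or_ne p 2 with rfl | hp2
    swap
    · have h2 : (2 : F) ≠ 0 := by simpa using cast_ne_zero_of_ne (F := F) hp2.symm
      refine iff_of_true ?_ (Or.inr (Or.inr (Or.inl ⟨rfl, hp2⟩)))
      rintro f hf ⟨z, hz⟩ -
      obtain ⟨e, he⟩ := alt_planes hP hΛ h2 hf hz
      have h3 := he.finrank_eq fun _ h => h.2
      rw [finrank_top] at h3
      obtain ⟨W, -, h4⟩ := he.exists_le (e' := k) (by omega)
      exact ⟨W, by rw [h4.finrank_eq fun _ h => h.2]; omega, h4.nondeg, h4.inv fun _ h => h.1⟩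
    have h2 : (2 : F) = 0 := by simpa using CharP.cast_eq_zero F 2
    simp only [lt_irrefl, false_and, and_false, true_and, ne_eq, not_true_eq_false, or_false,
      false_or]
    constructor
    · intro h
      by_contra h1
      obtain ⟨f, h3, h4, h5⟩ := exists_at_hyp hP (fun x y => by
        rw [alt_symm hΛ]; linear_combination (-(spPQ d F).B x y) * h2)
        (alt_hyp hP hΛ (nondeg_top hP)) (by rw [finrank_top]; omega) top_ne_bot
      obtain ⟨W, h6, h7, h8⟩ := h f h3.iso ⟨1, by rw [h3.pow_char 2, one_smul]⟩ fun c hc => h4 (by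
        rcases sq_eq_one_of_pow (r := 1) hP h3.iso (by rwa [pow_one]) with rfl | rfl
        · simpa using hc
        · rw [hc, show (-1 : F) = 1 by linear_combination -h2, one_smul])
      obtain ⟨H, M, M', h9, h10, h11, -, h12, h13, rfl⟩ := h5 W h7 h8
      rw [PQ.perp_top _ hP, le_bot_iff] at h9
      have h14 := h12.finrank_eq
      rw [finrank_sup_orth h10.1 h13] at h6
      rw [h9, finrank_bot] at h14
      omega
    rintro h f hf ⟨z, hz⟩ -
    obtain rfl : z = 1 := by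
      rcases sq_eq_one_of_pow hP hf hz with rfl | rfl
      exacts [rfl, by linear_combination -h2]
    obtain ⟨A, B, T, T', h3, h4, h5, h6⟩ := alt_char_two hP hΛ h2 hf
      (fun v => by simpa [pow_two] using congrArg (fun g : _ →ₗ[F] _ => g v) hz)
      (nondeg_top hP) Inv.top
    have h7 := finrank_sup_orth h3.nondeg h5
    rw [h6, finrank_top, h3.finrank_eq fun _ h => h.1.2,
      h4.finrank_eq fun _ h => h.1.finrank_eq hP hf] at h7
    obtain ⟨U, h8, h9⟩ := h3.exists_le (e' := k - 2 * min B (k / 2)) (by omega)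
    obtain ⟨U', h10, h11⟩ := h4.exists_le (e' := min B (k / 2)) (min_le_left _ _)
    have h12 := le_perp_mono h5 h8 h10
    exact ⟨U ⊔ U', by
      rw [finrank_sup_orth h9.nondeg h12, h9.finrank_eq fun _ h => h.1.2,
        h11.finrank_eq fun _ h => h.1.finrank_eq hP hf]; omega, nondeg_sup h9.nondeg h11.nondeg h12,
      (h9.inv fun _ h => h.1.1).sup (h11.inv fun _ h => h.1.inv hz)⟩
  have h2 : 2 < r := by have := hr.two_le; omega
  rw [forall_odd_iff hP (hr.odd_of_ne_two hr2) _ _ (fun _ h => h)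
    (fun f ⟨W, h1, h2, h3⟩ => ⟨W, h1, h2, h3.of_neg⟩) fun _ h _ => h]
  rcases eq_or_ne r p with rfl | hrp
  · rw [D.unip_iff (ub_alt hΛ (by
      have := Fact.mk Nat.prime_two
      simpa using cast_ne_zero_of_ne (F := F) hr2.symm)) r
      (fun a h => even_iff_two_dvd.mp (Nat.not_odd_iff_even.mp h)) ⟨1, alt_q hΛ _, one_ne_zero⟩
      (Or.inl (alt_hyp hP hΛ (nondeg_top hP))) (by omega) fun _ => ⟨k, rfl⟩, hn]
    simp [h2, hr2, Adm]
  rw [D.nd_iff (ss_id hP (Ord.of_ne hrp hq hi) hr2 hc) (even_iff_two_dvd.mp (even_c hc))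
    ⟨k, by omega⟩ (by omega) hrΩ, hn]
  simp [h2, hr2, hrp]

end Cfsg.Agent.S5956
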