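import Cfsg.Statements.S5957
import Cfsg.Agent.Lib.Elusive.DecLin

set_option autoImplicit false
open scoped MatrixGroups
open Cfsg

namespace Cfsg.Agent.S5957

/-- Involutions of PSL_n(q) and imprimitive subgroups. Here `T = PSL_n(F)` for a field `F` with `q = p^f` elements (`n ≥ 2`, `(n, q) ≠ (2, 2), (2, 3)`), `n = a·t` with `t ≥ 2`, and Ω is the set of direct-sum decompositions of `F^n` into `t` subspaces of dimension `a` (unordered; their number is the number of ordered ones divided by `t!`), whose stabilizers are the imprimitive subgroups of type GL_a(q) ≀ S_t (maximal except in some small cases; maximality is not assumed); an element of `T` of prime order `r` (a matrix `x` of determinant 1 with `x^r` scalar, `x` not scalar) fixes a point of Ω when it permutes the summands of some such decomposition. If the number of such decompositions is even, then every involution of `T` stabilizes one of them (the action is 2-elusive). -/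
theorem result {F : Type*} [Field F] [Fintype F] {p : ℕ} [Fact p.Prime] [CharP F p] {q : ℕ} (hq : Fintype.card F = q)
    (n a t : ℕ) (hn : 2 ≤ n) (hT : (n, q) ≠ (2, 2) ∧ (n, q) ≠ (2, 3)) (hat : n = a * t) (ha : 1 ≤ a) (ht : 2 ≤ t)
    (hΩ : 2 ∣ Nat.card {D : Fin t → Submodule F (Fin n → F) // Cfsg.Geo.IsMDecomposition a D} / Nat.factorial t)
    (x : Matrix.SpecialLinearGroup (Fin n) F)
    (hx1 : ∃ z : F, ((x ^ 2 : Matrix.SpecialLinearGroup (Fin n) F) : Matrix (Fin n) (Fin n) F) = z • (1 : Matrix (Fin n) (Fin n) F))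
    (hx2 : ∀ z : F, (x : Matrix (Fin n) (Fin n) F) ≠ z • (1 : Matrix (Fin n) (Fin n) F)) :
    ∃ D : Fin t → Submodule F (Fin n → F), Cfsg.Geo.IsMDecomposition a D ∧
        ∃ σ : Equiv.Perm (Fin t), ∀ j, (D j).map (Matrix.toLin' (x : Matrix (Fin n) (Fin n) F)) = D (σ j) := by
  have hfin : Module.finrank F (Fin n → F) = t * a := by simp [hat, mul_comm]
  obtain ⟨z, hz⟩ := hx1
  rw [Matrix.SpecialLinearGroup.coe_pow, ← H99.toLin'_pow_eq_smul_one_iff] at hz
  set f := Matrix.toLin' (x : Matrix (Fin n) (Fin n) F)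
  have hz0 : z ≠ 0 := H99.ne_zero_of_det (by
    rw [LinearMap.det_toLin', x.det_coe]; exact one_ne_zero) hz (by simp; omega)
  have htop : Module.finrank F (⊤ : Submodule F (Fin n → F)) = t * a := by
    rw [finrank_top, hfin]
  have key : H99.LDec f a ⊤ t := by
    by_cases hsq : ∃ d : F, d ^ 2 = z
    · obtain ⟨d, rfl⟩ := hsq
      have hd0 : d ≠ 0 := by rintro rfl; simp at hz0
      have hg := H99.smul_pow_eq_one hd0 hz
      refine H99.Dec.of_smul (inv_ne_zero hd0) ?_
      by_cases hp : 2 = p
      · subst hp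
        have := H99.ldec_of_sq_zero (N := d⁻¹ • f - 1) (by rw [H99.sub_one_pow_char, hg, sub_self])
          (by rw [sub_add_cancel, hg]) ha t ⊤ H99.Inv.top htop
        rwa [sub_add_cancel] at this
      · have H : H99.Ord F 2 _ := H99.Ord.of_ne hp rfl rfl
        have h1 := Nat.dvd_one.mp H.dvd
        rw [h1] at H
        exact H99.ldec_of_shape H hg ha t ⊤ H99.Inv.top htop (by simp [Nat.mod_one])
    · push Not at hsq
      have hp : 2 ≠ p := by
        rintro rfl
        obtain ⟨d, hd⟩ := H99.exists_pow_char_eq (p := 2) z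
        exact hsq d hd
      exact H99.ldec_of_not_pow (H99.cast_ne_zero_of_ne hp) hsq hz ha t ⊤ H99.Inv.top htop
  obtain ⟨D, h1, h2, h3, -, -, h4⟩ := key.out (H99.injective_of_pow two_ne_zero hz0 hz) hfin
  exact ⟨D, ⟨ht, ha, h1, h2, h3⟩, h4⟩

end Cfsg.Agent.S5957
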