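import Cfsg.Statements.S5958
import Cfsg.Agent.Lib.Elusive.DecLin

set_option autoImplicit false
open scoped MatrixGroups
open Cfsg
open Pointwise

namespace Cfsg.Agent.S5958

/-- Elements of odd prime order of PSL_n(q) and imprimitive subgroups. Here `T = PSL_n(F)` for a field `F` with `q = p^f` elements (`n ≥ 2`, `(n, q) ≠ (2, 2), (2, 3)`), `n = a·t` with `t ≥ 2`, and Ω is the set of direct-sum decompositions of `F^n` into `t` subspaces of dimension `a` (unordered; their number is the number of ordered ones divided by `t!`), whose stabilizers are the imprimitive subgroups of type GL_a(q) ≀ S_t (maximal except in some small cases; maximality is not assumed); an element of `T` of prime order `r` (a matrix `x` of determinant 1 with `x^r` scalar, `x` not scalar) fixes a point of Ω when it permutes the summands of some such decomposition. Let `r ≠ p` be an odd prime dividing the number of such decompositions, let `c` be the multiplicative order of `q` modulo `r`, and write `k = n mod c`, `ℓ = a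 mod c`. Then every element of `T` of order `r` stabilizes such a decomposition if and only if either `a = 1`, `c = r − 1 > 1` and `n ≤ k·r`, or `c ≤ a` and `k = t·ℓ`. -/
theorem result {F : Type*} [Field F] [Fintype F] {p : ℕ} [Fact p.Prime] [CharP F p] {q : ℕ} (hq : Fintype.card F = q)
    (n a t : ℕ) (hn : 2 ≤ n) (hT : (n, q) ≠ (2, 2) ∧ (n, q) ≠ (2, 3)) (hat : n = a * t) (ha : 1 ≤ a) (ht : 2 ≤ t)
    (r : ℕ) [Fact r.Prime] (hr2 : r ≠ 2) (hrp : r ≠ p) (hΩ : r ∣ Nat.card {D : Fin t → Submodule F (Fin n → F) // Cfsg.Geo.IsMDecomposition a D} / Nat.factorial t)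
    (c : ℕ) (hc : c = orderOf (q : ZMod r)) :
    (∀ x : Matrix.SpecialLinearGroup (Fin n) F,
      (∃ z : F, ((x ^ r : Matrix.SpecialLinearGroup (Fin n) F) : Matrix (Fin n) (Fin n) F) = z • (1 : Matrix (Fin n) (Fin n) F)) →
      (∀ z : F, (x : Matrix (Fin n) (Fin n) F) ≠ z • (1 : Matrix (Fin n) (Fin n) F)) →
      ∃ D : Fin t → Submodule F (Fin n → F), Cfsg.Geo.IsMDecomposition a D ∧
        ∃ σ : Equiv.Perm (Fin t), ∀ j, (D j).map (Matrix.toLin' (x : Matrix (Fin n) (Fin n) F)) = D (σ j)) ↔
    ((a = 1 ∧ 1 < c ∧ c = r - 1 ∧ n ≤ (n % c) * r) ∨ (c ≤ a ∧ n % c = t * (a % c))) := by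
  have hfin : Module.finrank F (Fin n → F) = n := by simp
  have hfin' : Module.finrank F (Fin n → F) = t * a := by simp [hat, mul_comm]
  have htop : Module.finrank F (⊤ : Submodule F (Fin n → F)) = t * a := by
    rw [finrank_top, hfin']
  have H : H99.Ord F r c := H99.Ord.of_ne hrp hq hc
  have hc0 := H.pos
  have hr := (Fact.out : r.Prime)
  rw [H99.forall_sl_iff r fun f => ∃ D : Fin t → Submodule F (Fin n → F),
    Cfsg.Geo.IsMDecomposition a D ∧ ∃ σ : Equiv.Perm (Fin t), ∀ j, (D j).map f = D (σ j)]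
  have h0 : ∀ D : Fin t → Submodule F (Fin n → F), Cfsg.Geo.IsMDecomposition a D →
      ∀ j, D j ≠ ⊥ := fun D hD j => H99.ne_bot_of_finrank (by rw [hD.finrank_eq]; omega)
  constructor
  · intro h
    by_cases hc1 : c = 1
    · right; subst hc1; simp [ha, Nat.mod_one]
    have hcn : c ≤ n := by
      have h1 := H99.dvd_of_dvd_div hΩ (H99.factorial_dvd_card _ (fun D σ hD => ⟨hD.two_le, hD.pos,
        fun j => hD.finrank_eq _, hD.indep.comp σ.injective, by
          rw [← hD.iSup_eq_top]; exact σ.surjective.iSup_comp D⟩)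
        fun D hD => hD.indep.injective (h0 D hD))
      obtain ⟨D, h2, h3, h4, -⟩ := (H99.ldec_of_shape H (one_pow r) ha t ⊤ H99.Inv.top htop (by
        rw [H99.fixS_eq_top_iff.mpr rfl, inf_idem, htop]
        exact Nat.mul_le_mul_left _ (Nat.mod_le _ _))).out (fun _ _ h => h) hfin'
      have := H99.finite_equiv F (Fin n → F)
      have h5 := H99.card_dvd_card_of_trans (⊤ : Subgroup ((Fin n → F) ≃ₗ[F] (Fin n → F)))
        (Cfsg.Geo.IsMDecomposition a) (fun g _ D hD => ⟨hD.two_le, hD.pos,
          fun j => (H99.finrank_smul_submodule g _).trans (hD.finrank_eq j),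
          H99.iSupIndep_smul g hD.indep, H99.iSup_smul g hD.iSup_eq_top⟩)
        (a := D) ⟨ht, ha, h2, h3, h4⟩ fun D' hD' => by
          let e : ∀ j, D j ≃ₗ[F] D' j := fun j => LinearEquiv.ofFinrankEq _ _
            ((h2 j).trans (hD'.finrank_eq j).symm)
          obtain ⟨g, hg⟩ := H99.exists_equiv_map_eq h3 h4 hD'.indep hD'.iSup_eq_top e
          exact ⟨g, trivial, funext fun j => H99.map_eq_of_equiv (e j) (hg j)⟩
      obtain ⟨g, -, hg1, hg2⟩ := H99.exists_orderOf_of_dvd _ (h1.trans h5)
      exact hfin ▸ H.le_finrank (H99.coe_pow_eq_one hg1) (H99.coe_ne_one hg2)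
    obtain ⟨g, hg1, hg2, hg3, hg4⟩ := H99.exists_sl_fix_mod (V := Fin n → F) H hc1 (by omega)
    obtain ⟨D, hD, σ, hσ⟩ := h g hg1 ⟨1, by rw [hg2, one_smul]⟩ hg3
    rw [hfin] at hg4
    have hk := Nat.mod_lt n hc0
    have hinv : ∀ {g : (Fin n → F) →ₗ[F] (Fin n → F)} {D : Fin t → Submodule F (Fin n → F)}
        {σ : Equiv.Perm (Fin t)}, (∀ j, (D j).map g = D (σ j)) → ∀ j, σ j = j →
        H99.Inv g (D j) := fun hσ j hj => H99.inv_iff_map_le.mpr (by rw [hσ, hj])
    have hsmall : ∀ {g : (Fin n → F) →ₗ[F] (Fin n → F)} {W : Submodule F (Fin n → F)}, g ^ r = 1 →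
        H99.Inv g W → Module.finrank F W < c → W ≤ H99.fixS g := by
      intro g W hg hW hlt
      obtain ⟨j, -, h2⟩ := H99.finrank_inv_shape H hg hW
      obtain rfl : j = 0 := by
        by_contra h3
        have : c ≤ j * c := Nat.le_mul_of_pos_left _ (Nat.pos_of_ne_zero h3)
        omega
      exact inf_eq_left.mp (Submodule.eq_of_le_of_finrank_eq inf_le_left (by omega))
    rcases le_or_gt c a with hca | hca
    · refine Or.inr ⟨hca, ?_⟩
      have h1 : ∀ j, σ j = j := fun j => by
        by_contra hj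
        have := H99.finrank_le_fixS_of_moved hg2 hD.indep (h0 D hD) hσ hj
        rw [hD.finrank_eq] at this
        omega
      have h2 := H99.finrank_inf_ker_eq_sum hD.indep (fun j => (hinv hσ j (h1 j)).aeval
        (Polynomial.X - 1)) Finset.univ
      rw [Finset.sup_univ_eq_iSup, hD.iSup_eq_top, top_inf_eq, Finset.sum_congr rfl
        (g := fun _ => a % c) fun j _ => by
          rw [← hD.finrank_eq j]
          exact H99.finrank_inf_fixS_eq_mod H hg2 (by omega) (hinv hσ j (h1 j))] at h2
      rw [Finset.sum_const, Finset.card_univ, Fintype.card_fin, smul_eq_mul] at h2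
      rw [← hg4]
      exact h2
    · left
      obtain ⟨g', hg1', hg2', hg3', hg4'⟩ := H99.exists_sl_fix (V := Fin n → F) H hc1
        (e := n - c) (k := 1) one_ne_zero (by omega)
      obtain ⟨D', hD', σ', hσ'⟩ := h g' hg1' ⟨1, by rw [hg2', one_smul]⟩ hg3'
      have h1 : ∃ j, σ' j ≠ j := by
        by_contra h1
        push Not at h1
        have : H99.fixS g' = ⊤ := eq_top_iff.mpr (hD'.iSup_eq_top ▸ iSup_le fun j =>
          hsmall hg2' (hinv hσ' j (h1 j)) (by rw [hD'.finrank_eq]; exact hca))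
        rw [this, finrank_top] at hg4'
        omega
      obtain ⟨j, hj⟩ := h1
      have h2 := H99.finrank_le_movS_of_moved hg2' hD'.indep (h0 D' hD') hσ' hj
      have h3 := H99.finrank_fixS_add H.ne hg2'
      have h4 := Nat.le_of_dvd (by have := hr.two_le; omega) H.dvd
      rw [hD'.finrank_eq] at h2
      have h5 : (r - 1) * a ≤ (r - 1) * 1 := by omega
      have h6 : a = 1 := le_antisymm (Nat.le_of_mul_le_mul_left h5 (by omega)) ha
      subst h6
      refine ⟨rfl, hca, by omega, ?_⟩
      have h7 := H99.card_mul_le_fixS hg2 hD.indep (h0 D hD) hσ hD.finrank_eq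
        (fun j hj => hsmall hg2 (hinv hσ j hj) (by rw [hD.finrank_eq]; exact hca)) Finset.univ
        fun j _ => Finset.mem_univ _
      rw [Finset.sup_univ_eq_iSup, hD.iSup_eq_top, top_inf_eq, hg4, Finset.card_univ,
        Fintype.card_fin] at h7
      rw [mul_comm]
      omega
  · rintro h f hf1 ⟨z, hz⟩ -
    have hz0 : z ≠ 0 := H99.ne_zero_of_det (by rw [hf1]; exact one_ne_zero) hz (by omega)
    have key : H99.LDec f a ⊤ t := by
      by_cases hsq : ∃ d : F, d ^ r = z
      · obtain ⟨d, rfl⟩ := hsq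
        have hd0 : d ≠ 0 := by rintro rfl; exact hz0 (zero_pow hr.ne_zero)
        have hg := H99.smul_pow_eq_one hd0 hz
        refine H99.Dec.of_smul (inv_ne_zero hd0) ?_
        have h1 := H99.mod_le_finrank_fixS H hg H99.Inv.top
        rw [finrank_top, hfin] at h1
        rcases h with ⟨rfl, -, rfl, h2⟩ | ⟨-, h2⟩
        · refine H99.ldec_one H hg t ⊤ H99.Inv.top (by omega) ?_
          have := Nat.mul_le_mul_left r h1
          rw [mul_comm] at h2
          omega
        · exact H99.ldec_of_shape H hg ha t ⊤ H99.Inv.top htop (h2 ▸ h1)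
      · push Not at hsq
        exact H99.ldec_of_not_pow H.ne hsq hz ha t ⊤ H99.Inv.top htop
    obtain ⟨D, h1, h2, h3, -, -, h4⟩ := key.out (H99.injective_of_pow hr.ne_zero hz0 hz) hfin'
    exact ⟨D, ⟨ht, ha, h1, h2, h3⟩, h4⟩

end Cfsg.Agent.S5958
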