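import Cfsg.Statements.S5959
import Cfsg.Agent.Lib.Elusive.DecLin

set_option autoImplicit false
open scoped MatrixGroups
open Cfsg

namespace Cfsg.Agent.S5959

/-- Elements of order `p` of PSL_n(q) and imprimitive subgroups: a necessary condition. Here `T = PSL_n(F)` for a field `F` with `q = p^f` elements (`n ≥ 2`, `(n, q) ≠ (2, 2), (2, 3)`), `n = a·t` with `t ≥ 2`, and Ω is the set of direct-sum decompositions of `F^n` into `t` subspaces of dimension `a` (unordered; their number is the number of ordered ones divided by `t!`), whose stabilizers are the imprimitive subgroups of type GL_a(q) ≀ S_t (maximal except in some small cases; maximality is not assumed); an element of `T` of prime order `r` (a matrix `x` of determinant 1 with `x^r` scalar, `x` not scalar) fixes a point of Ω when it permutes the summands of some such decomposition. Suppose `p > 2` divides the number of such decompositions. If every element of `T` of order `p` stabilizes such a decomposition, then every partition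 of `n` into parts of size at most `p` in which the part `p` occurs fewer than `a` times contains (as a sub-multiset) a partition of `a`. -/
theorem result {F : Type*} [Field F] [Fintype F] {p : ℕ} [Fact p.Prime] [CharP F p] {q : ℕ} (hq : Fintype.card F = q)
    (n a t : ℕ) (hn : 2 ≤ n) (hT : (n, q) ≠ (2, 2) ∧ (n, q) ≠ (2, 3)) (hat : n = a * t) (ha : 1 ≤ a) (ht : 2 ≤ t)
    (hp : 2 < p) (hΩ : p ∣ Nat.card {D : Fin t → Submodule F (Fin n → F) // Cfsg.Geo.IsMDecomposition a D} / Nat.factorial t)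
    (h : ∀ x : Matrix.SpecialLinearGroup (Fin n) F,
      (∃ z : F, ((x ^ p : Matrix.SpecialLinearGroup (Fin n) F) : Matrix (Fin n) (Fin n) F) = z • (1 : Matrix (Fin n) (Fin n) F)) →
      (∀ z : F, (x : Matrix (Fin n) (Fin n) F) ≠ z • (1 : Matrix (Fin n) (Fin n) F)) →
      ∃ D : Fin t → Submodule F (Fin n → F), Cfsg.Geo.IsMDecomposition a D ∧
        ∃ σ : Equiv.Perm (Fin t), ∀ j, (D j).map (Matrix.toLin' (x : Matrix (Fin n) (Fin n) F)) = D (σ j)) :
    (∀ μ : Multiset ℕ, (∀ b ∈ μ, 0 < b ∧ b ≤ p) → μ.sum = n → μ.count p < a → ∃ ν : Multiset ℕ, ν ≤ μ ∧ ν.sum = a) := by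
  have hfin : Module.finrank F (Fin n → F) = n := by simp
  rw [H99.forall_sl_iff p fun f => ∃ D : Fin t → Submodule F (Fin n → F),
    Cfsg.Geo.IsMDecomposition a D ∧ ∃ σ : Equiv.Perm (Fin t), ∀ j, (D j).map f = D (σ j)] at h
  intro μ hμ hs hc
  by_cases h1 : ∃ b ∈ μ, 1 < b
  swap
  · obtain ⟨ν, h2, h3, -⟩ := H99.exists_le_sum_eq_of_le_one (fun b hb => (hμ b hb).1) h1
      (m := a) (by rw [hs, hat]; nlinarith)
    exact ⟨ν, h2, h3⟩
  obtain ⟨N, hN, hN0, hN1, hN2⟩ := H99.exists_unipotent (F := F) (V := Fin n → F) μ hμ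
    (hs.trans hfin.symm) h1
  obtain ⟨D, hD, σ, hσ⟩ := h _ (H99.det_eq_one_of_pow_char hN1) ⟨1, by rw [hN1, one_smul]⟩ hN2
  have h0 : ∀ j, D j ≠ ⊥ := fun j => H99.ne_bot_of_finrank (by rw [hD.finrank_eq]; omega)
  let j : Fin t := ⟨0, by omega⟩
  by_cases hj : σ j = j
  · obtain ⟨ν, h2, -, h3⟩ := hN.exists_le (K := p) (fun w _ => by rw [hN0]; rfl)
      (H99.inv_add_one_iff.mp (H99.inv_iff_map_le.mpr (by rw [hσ, hj])))
      (H99.inv_add_one_iff.mp (H99.inv_iSup_ne hσ hj)) (hD.indep j)
      (by rw [← hD.iSup_eq_top, iSup_split_single D j])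
    exact ⟨ν, h2, h3.trans (hD.finrank_eq j)⟩
  exfalso
  have h2 := H99.finrank_map_cyclotomic_of_moved one_ne_zero (by rw [hN1, one_smul]) hD.indep h0
    hσ hj
  obtain ⟨k, rfl⟩ : ∃ k, p = k + 1 := ⟨p - 1, by omega⟩
  have h3 : Polynomial.aeval (N + 1) (Polynomial.cyclotomic (k + 1) F) = N ^ k := by
    have : Polynomial.cyclotomic (k + 1) F = (Polynomial.X - 1) ^ k := by
      apply mul_left_cancel₀ (Polynomial.X_sub_C_ne_zero (1 : F))
      rw [map_one, ← H99.X_pow_sub_one_eq, ← pow_succ', sub_pow_char, one_pow]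
    simp [this]
  rw [h3, hD.finrank_eq] at h2
  have h4 := H99.finrank_inf_ker_add (N ^ k) ⊤
  have h5 := H99.sum_map_min_succ μ k
  have h6 := H99.card_filter_lt_succ μ k
  rw [H99.sum_map_min_of_le fun b hb => (hμ b hb).2, ← hN.2] at h5
  rw [Multiset.filter_eq_nil.mpr fun b hb => not_lt.mpr (hμ b hb).2, Multiset.card_zero] at h6
  have h7 : Module.finrank F ((D j).map (N ^ k)) ≤ Module.finrank F ((⊤ : Submodule F _).map (N ^ k)) :=
    Submodule.finrank_mono (Submodule.map_mono le_top)
  rw [finrank_top, hfin] at h4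
  omega

end Cfsg.Agent.S5959
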