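import Cfsg.Statements.S5960
import Cfsg.Agent.Lib.Elusive.Sp

set_option autoImplicit false
open scoped MatrixGroups
open Cfsg

namespace Cfsg.Agent.S5960

open H99 H28 Module Polynomial

/-- Involutions of PSp_n(q) and imprimitive subgroups. Here `T = PSp_n(q)`, `n = 2d ≥ 4`, `(n, q) ≠ (4, 2)`, realised through the symplectic matrices over the field `F` with `q` elements and the standard alternating form; `n = a·t` with `a` even and `t ≥ 2`, and Ω is the (nonempty) set of orthogonal decompositions of `F^n` into `t` nondegenerate subspaces of dimension `a` (unordered; counted as ordered ones divided by `t!`), whose stabilizers are the imprimitive subgroups of type Sp_a(q) ≀ S_t (maximality is not assumed); an element of `T` of prime order `r` (a symplectic matrix `x` with `x^r` scalar, `x` not scalar) fixes a point of Ω when it permutes the summands of some such decomposition. If the number of such decompositions is even, then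 every involution of `T` stabilizes one of them (the action is 2-elusive). -/
theorem result {F : Type*} [Field F] [Fintype F] {p : ℕ} [Fact p.Prime] [CharP F p] {q : ℕ} (hq : Fintype.card F = q)
    (d : ℕ) (hd : 2 ≤ d) (hT : (d, q) ≠ (2, 2))
    (a t : ℕ) (hat : 2 * d = a * t) (ha : 2 ≤ a) (hae : Even a) (ht : 2 ≤ t) (hΩ : 2 ∣ Nat.card {D : Fin t → Submodule F (Fin d ⊕ Fin d → F) // (Cfsg.Geo.IsMDecomposition a D ∧ (∀ j, ∀ u ∈ D j, u ≠ 0 → ∃ v ∈ D j, Cfsg.sympForm d F u v ≠ 0) ∧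
          (∀ j j', j ≠ j' → ∀ u ∈ D j, ∀ v ∈ D j', Cfsg.sympForm d F u v = 0))} / Nat.factorial t)
    (x : ↥(Matrix.symplecticGroup (Fin d) F))
    (hx1 : ∃ z : F, ((x ^ 2 : ↥(Matrix.symplecticGroup (Fin d) F)) : Matrix (Fin d ⊕ Fin d) (Fin d ⊕ Fin d) F) = z • (1 : Matrix (Fin d ⊕ Fin d) (Fin d ⊕ Fin d) F))
    (hx2 : ∀ z : F, (x : Matrix (Fin d ⊕ Fin d) (Fin d ⊕ Fin d) F) ≠ z • (1 : Matrix (Fin d ⊕ Fin d) (Fin d ⊕ Fin d) F)) :
    ∃ D : Fin t → Submodule F (Fin d ⊕ Fin d → F), (Cfsg.Geo.IsMDecomposition a D ∧ (∀ j, ∀ u ∈ D j, u ≠ 0 → ∃ v ∈ D j, Cfsg.sympForm d F u v ≠ 0) ∧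
          (∀ j j', j ≠ j' → ∀ u ∈ D j, ∀ v ∈ D j', Cfsg.sympForm d F u v = 0)) ∧
        ∃ σ : Equiv.Perm (Fin t), ∀ j, (D j).map (Matrix.toLin' (x : Matrix (Fin d ⊕ Fin d) (Fin d ⊕ Fin d) F)) = D (σ j) := by
  have hP := spPQ_sep (m := d) (F := F)
  have hΛ := spPQ_Λ (m := d) (F := F)
  have hn := finrank_sp (F := F) (d := d)
  have : Nontrivial (Fin d ⊕ Fin d → F) := Module.nontrivial_of_finrank_pos (R := F) (by omega)
  simp only [sp_nondeg_iff, sp_perp_iff]
  refine (forall_sp_iff 2 fun f => ∃ D : Fin t → Submodule F (Fin d ⊕ Fin d → F),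
    (Cfsg.Geo.IsMDecomposition a D ∧ (∀ j, (spPQ d F).Nondeg (D j)) ∧
      ∀ j j', j ≠ j' → D j' ≤ (spPQ d F).perp (D j)) ∧
    ∃ σ : Equiv.Perm (Fin t), ∀ j, (D j).map f = D (σ j)).mpr ?_ x hx1 hx2
  rintro f hf ⟨z, hz⟩ -
  have hz0 : z ≠ 0 := by rcases sq_eq_one_of_pow hP hf hz with rfl | rfl <;> simp
  obtain ⟨b, rfl⟩ := hae
  obtain ⟨A, B, T, T', h1, h2, h3, h4⟩ : ∃ A B T T', RSum (spPQ d F) (IPl f) A T ∧
      RSum (spPQ d F) (Swp (spPQ d F) f 2) B T' ∧ T' ≤ (spPQ d F).perp T ∧ T ⊔ T' = ⊤ := by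
    by_cases h2 : (2 : F) = 0
    · obtain rfl : z = 1 := by
        rcases sq_eq_one_of_pow hP hf hz with rfl | rfl
        exacts [rfl, by linear_combination -h2]
      obtain ⟨A, B, T, T', h1, h2, h3⟩ := alt_char_two hP hΛ h2 hf
        (fun v => by simpa [pow_two] using congrArg (fun g : _ →ₗ[F] _ => g v) hz)
        (nondeg_top hP) Inv.top
      exact ⟨A, B, T, T', h1.mono fun _ _ _ h => h.1, h2.mono fun _ _ _ h => h.1, h3⟩
    · obtain ⟨e, he⟩ := alt_planes hP hΛ h2 hf hz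
      exact ⟨e, 0, ⊤, ⊥, he, RSum.zero, bot_le, sup_bot_eq _⟩
  have h5 := finrank_sup_orth h1.nondeg h3
  rw [h4, finrank_top, h1.finrank_eq fun _ h => h.2,
    h2.finrank_eq fun _ h => h.finrank_eq hP hf] at h5
  have h6 := odec_of_swp hP hf hz0 hz two_pos (b := b) (by omega) t A B T T' h1 h2 h3 (by linarith)
  rw [h4, mul_two] at h6
  obtain ⟨D, h7, h8, h9, h10, h11, h12⟩ := h6.out (hf.injective hP) (by linarith)
  exact ⟨D, ⟨⟨ht, by omega, h7, h8, h9⟩, h10, h11⟩, h12⟩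

end Cfsg.Agent.S5960
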