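import Cfsg.Statements.S5961
import Cfsg.Agent.Lib.Elusive.Sp
import Cfsg.Agent.Lib.Elusive.Form3

set_option autoImplicit false
open scoped MatrixGroups
open Cfsg

namespace Cfsg.Agent.S5961

open H99 H28 Module Polynomial Pointwise

theorem odec_of_shape {F V : Type*} [Field F] [Fintype F] [AddCommGroup V] [Module F V]
    [FiniteDimensional F V] {P : PQ F V (RingHom.id F)} {r j c : ℕ} [Fact r.Prime]
    (H : SS P r j c) (hΛ : P.Λ = ⊤) (hce : Even c) {g : V →ₗ[F] V} (hg : Iso P g)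
    (hr : g ^ r = 1) {a : ℕ} (ha : 0 < a) (hae : Even a) (t : ℕ) : ∀ N : Submodule F V,
      P.Nondeg N → Inv g N → finrank F N = t * a → t * (a % c) ≤ finrank F ↥(N ⊓ fixS g) →
        ODec P g a N t := by
  have hP := H.sep
  have hr0 := H.ord.ne
  induction t with
  | zero =>
    intro N _ _ h _
    rw [eq_bot_of_finrank (N := N) (by simpa using h)]; exact Dec.bot
  | succ t ih =>
    intro N hN hNg h h1
    obtain ⟨k, hk, hn⟩ := H.nd_shape hg hr hN hNg
    have a1 := Nat.mod_add_div' a c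
    have b1 : min k (a / c) * c ≤ a / c * c := Nat.mul_le_mul_right _ (min_le_right _ _)
    have b3 : min k (a / c) * c ≤ k * c := Nat.mul_le_mul_right _ (min_le_left _ _)
    rw [add_mul, one_mul] at h h1
    obtain ⟨U, h2, h3, h4⟩ := alt_exists_nondeg hP hΛ (nondeg_inf_fixS hr0 hg hr hN hNg)
      (k := a - min k (a / c) * c) ((Nat.even_sub (by omega)).mpr (iff_of_true hae (hce.mul_left _)))
      (by rcases min_choice k (a / c) with h3 | h3 <;> rw [h3] <;> omega)
    obtain ⟨U', h5, h6, h7, h8⟩ := H.exists_nondeg hg hr (nondeg_inf_movS hr0 hg hr hN hNg)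
      (hNg.inf (inv_movS r g)) inf_le_right (t := min k (a / c)) (by omega)
    have h9 := le_perp_mono (movS_le_perp hr0 hg) (h2.trans inf_le_right) (h5.trans inf_le_right)
    have h10 := nondeg_sup h3 h7 h9
    have h11 := (inv_of_le_fixS (h2.trans inf_le_right)).sup h6
    have h12 := finrank_sup_orth h3 h9
    have h13 : U ⊔ U' ≤ N := sup_le (h2.trans inf_le_left) (h5.trans inf_le_left)
    have h14 := hNg.inf (hg.inv_perp hP h11)
    have h15 := finrank_inf_perp' h10 h13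
    have h16 := finrank_inf_fixS_compl h11 h14 (nondeg_disjoint h10 inf_le_right)
      (sup_inf_perp h10 h13)
    have h17 := finrank_inf_movS_compl r h11 h14 (nondeg_disjoint h10 inf_le_right)
      (sup_inf_perp h10 h13)
    have h18 := finrank_eq_fix_add_mov hr0 hr h14
    have h19 := finrank_eq_fix_add_mov hr0 hr h11
    have h20 := Submodule.finrank_mono (le_inf le_sup_left (h2.trans inf_le_right) :
      U ≤ (U ⊔ U') ⊓ fixS g)
    have h21 := Submodule.finrank_mono (le_inf le_sup_right (h5.trans inf_le_right) :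
      U' ≤ (U ⊔ U') ⊓ movS r g)
    have h22 : t * (a % c) ≤ t * a := Nat.mul_le_mul_left _ (Nat.mod_le _ _)
    have := ODec.add' (Dec.single (hg.injective hP) h11 (by omega) h10)
      (ih _ (nondeg_inf_perp hN h10 h13) h14 (by omega)
        (by rcases min_choice k (a / c) with h6 | h6 <;> rw [h6] at h4 h8 <;> omega)) ha h10
      inf_le_right
    rwa [sup_inf_perp h10 h13, add_comm] at this

/-- Elements of odd prime order of PSp_n(q) and imprimitive subgroups. Here `T = PSp_n(q)`, `n = 2d ≥ 4`, `(n, q) ≠ (4, 2)`, realised through the symplectic matrices over the field `F` with `q` elements and the standard alternating form; `n = a·t` with `a` even and `t ≥ 2`, and Ω is the (nonempty) set of orthogonal decompositions of `F^n` into `t` nondegenerate subspaces of dimension `a` (unordered; counted as ordered ones divided by `t!`), whose stabilizers are the imprimitive subgroups of type Sp_a(q) ≀ S_t (maximality is not assumed); an element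 of `T` of prime order `r` (a symplectic matrix `x` with `x^r` scalar, `x` not scalar) fixes a point of Ω when it permutes the summands of some such decomposition. Let `r ≠ p` be an odd prime dividing the number of such decompositions, let `i` be the multiplicative order of `q` modulo `r`, `c = i` if `i` is even and `c = 2i` if `i` is odd, and write `k = n mod c`, `ℓ = a mod c`. Then every element of `T` of order `r` stabilizes such a decomposition if and only if `c ≤ a` and `k = t·ℓ`. -/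
theorem result {F : Type*} [Field F] [Fintype F] {p : ℕ} [Fact p.Prime] [CharP F p] {q : ℕ} (hq : Fintype.card F = q)
    (d : ℕ) (hd : 2 ≤ d) (hT : (d, q) ≠ (2, 2))
    (a t : ℕ) (hat : 2 * d = a * t) (ha : 2 ≤ a) (hae : Even a) (ht : 2 ≤ t)
    (r : ℕ) [Fact r.Prime] (hr2 : r ≠ 2) (hrp : r ≠ p) (hΩ : r ∣ Nat.card {D : Fin t → Submodule F (Fin d ⊕ Fin d → F) // (Cfsg.Geo.IsMDecomposition a D ∧ (∀ j, ∀ u ∈ D j, u ≠ 0 → ∃ v ∈ D j, Cfsg.sympForm d F u v ≠ 0) ∧
          (∀ j j', j ≠ j' → ∀ u ∈ D j, ∀ v ∈ D j', Cfsg.sympForm d F u v = 0))} / Nat.factorial t)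
    (i c : ℕ) (hi : i = orderOf (q : ZMod r)) (hc : c = if Even i then i else 2 * i) :
    (∀ x : ↥(Matrix.symplecticGroup (Fin d) F),
      (∃ z : F, ((x ^ r : ↥(Matrix.symplecticGroup (Fin d) F)) : Matrix (Fin d ⊕ Fin d) (Fin d ⊕ Fin d) F) = z • (1 : Matrix (Fin d ⊕ Fin d) (Fin d ⊕ Fin d) F)) →
      (∀ z : F, (x : Matrix (Fin d ⊕ Fin d) (Fin d ⊕ Fin d) F) ≠ z • (1 : Matrix (Fin d ⊕ Fin d) (Fin d ⊕ Fin d) F)) →
      ∃ D : Fin t → Submodule F (Fin d ⊕ Fin d → F), (Cfsg.Geo.IsMDecomposition a D ∧ (∀ j, ∀ u ∈ D j, u ≠ 0 → ∃ v ∈ D j, Cfsg.sympForm d F u v ≠ 0) ∧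
          (∀ j j', j ≠ j' → ∀ u ∈ D j, ∀ v ∈ D j', Cfsg.sympForm d F u v = 0)) ∧
        ∃ σ : Equiv.Perm (Fin t), ∀ j, (D j).map (Matrix.toLin' (x : Matrix (Fin d ⊕ Fin d) (Fin d ⊕ Fin d) F)) = D (σ j)) ↔
    (c ≤ a ∧ (2 * d) % c = t * (a % c)) := by
  have hP := spPQ_sep (m := d) (F := F)
  have hΛ := spPQ_Λ (m := d) (F := F)
  have hn := finrank_sp (F := F) (d := d)
  have hr := (Fact.out : r.Prime)
  have : Nontrivial (Fin d ⊕ Fin d → F) := Module.nontrivial_of_finrank_pos (R := F) (by omega)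
  have H := ss_id hP (Ord.of_ne hrp hq hi) hr2 hc
  have hr0 := H.ord.ne
  have hc0 := H.pos
  have hce := even_c hc
  have hn' : finrank F (Fin d ⊕ Fin d → F) = t * a := by rw [hn, hat, mul_comm]
  simp only [sp_nondeg_iff, sp_perp_iff] at hΩ ⊢
  rw [forall_sp_iff r fun f => ∃ D : Fin t → Submodule F (Fin d ⊕ Fin d → F),
    (Cfsg.Geo.IsMDecomposition a D ∧ (∀ j, (spPQ d F).Nondeg (D j)) ∧
      ∀ j j', j ≠ j' → D j' ≤ (spPQ d F).perp (D j)) ∧
    ∃ σ : Equiv.Perm (Fin t), ∀ j, (D j).map f = D (σ j),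
    forall_odd_iff hP (hr.odd_of_ne_two hr2) _ _ (fun _ h => h)
      (fun f ⟨D, h1, σ, h2⟩ => ⟨D, h1, σ, fun j => by rw [← h2, Submodule.map_neg]⟩)
      fun _ h _ => h]
  have key : ∀ f, Iso (spPQ d F) f → f ^ r = 1 → t * (a % c) ≤ finrank F (fixS f) →
      ∃ D : Fin t → Submodule F (Fin d ⊕ Fin d → F),
        (Cfsg.Geo.IsMDecomposition a D ∧ (∀ j, (spPQ d F).Nondeg (D j)) ∧
          ∀ j j', j ≠ j' → D j' ≤ (spPQ d F).perp (D j)) ∧
        ∃ σ : Equiv.Perm (Fin t), ∀ j, (D j).map f = D (σ j) := fun f h1 h2 h3 => by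
    obtain ⟨D, h4, h5, h6, h7, h8, h9⟩ := (odec_of_shape H hΛ hce h1 h2 (by omega) hae t ⊤
      (nondeg_top hP) Inv.top (by rwa [finrank_top]) (by rwa [top_inf_eq])).out
      (h1.injective hP) hn'
    exact ⟨D, ⟨⟨ht, by omega, h4, h5, h6⟩, h7, h8⟩, h9⟩
  refine ⟨fun h => ?_, fun h f hf hfr _ => key f hf hfr ?_⟩
  swap
  · obtain ⟨e, -, h1⟩ := H.fix_shape hf hfr
    rw [← h.2, ← hn, h1, Nat.add_mul_mod_self_right]; exact Nat.mod_le _ _
  have h0 : ∀ D : Fin t → Submodule F (Fin d ⊕ Fin d → F), Cfsg.Geo.IsMDecomposition a D →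
      ∀ j, D j ≠ ⊥ := fun D hD j => ne_bot_of_finrank (by rw [hD.finrank_eq]; omega)
  have h1 := dvd_of_dvd_div hΩ (factorial_dvd_card _ (fun D σ hD => ⟨⟨hD.1.two_le, hD.1.pos,
    fun j => hD.1.finrank_eq _, hD.1.indep.comp σ.injective, by
      rw [← hD.1.iSup_eq_top]; exact σ.surjective.iSup_comp D⟩, fun j => hD.2.1 _,
      fun j j' h => hD.2.2 _ _ (σ.injective.ne h)⟩)
    fun D hD => hD.1.indep.injective (h0 D hD.1))
  obtain ⟨D₀, hD₀, -⟩ := key 1 Iso.one (one_pow _) (by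
    rw [fixS_eq_top_iff.mpr rfl, finrank_top, hn']
    exact Nat.mul_le_mul_left _ (Nat.mod_le _ _))
  obtain ⟨f, h2, h3, h4⟩ := exists_elt_of_dvd (P := spPQ d F) _ (fun g hg D hD => ⟨⟨hD.1.two_le,
    hD.1.pos, fun j => (finrank_smul_submodule g _).trans (hD.1.finrank_eq j),
      iSupIndep_smul g hD.1.indep, iSup_smul g hD.1.iSup_eq_top⟩,
      fun j => (Iso.of_mem hg).nondeg_map (hD.2.1 j),
      fun j j' h => (Iso.of_mem hg).le_perp_map (hD.2.2 j j' h)⟩)
    (fun D D' hD hD' => exists_isom_dec hD.1.indep hD.1.iSup_eq_top hD'.1.indep hD'.1.iSup_eq_top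
      hD.2.2 hD'.2.2 fun j => alt_cj hP hΛ (hD.2.1 j) (hD'.2.1 j)
        ((hD.1.finrank_eq j).trans (hD'.1.finrank_eq j).symm)) ⟨D₀, hD₀⟩ h1
  obtain ⟨B, hB, hB'⟩ := H.exists_blk h2 h3 h4
  have hinv : ∀ {g : (Fin d ⊕ Fin d → F) →ₗ[F] (Fin d ⊕ Fin d → F)}
      {D : Fin t → Submodule F (Fin d ⊕ Fin d → F)} {σ : Equiv.Perm (Fin t)},
      (∀ j, (D j).map g = D (σ j)) → ∀ j, σ j = j → Inv g (D j) :=
    fun hσ j hj => inv_iff_map_le.mpr (by rw [hσ, hj])
  have hca : c ≤ a := by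
    by_contra hca
    obtain ⟨h5, g, hg⟩ := hB'
    have h6 := hg.ne_one hP hr0 (ne_bot_of_finrank (by omega))
    obtain ⟨D, hD, σ, hσ⟩ := h g hg.1 hg.2.1 h6
    have h7 : ∃ j, σ j ≠ j := by
      by_contra h7
      push Not at h7
      exact h6 (fixS_eq_top_iff.mp (eq_top_iff.mpr (hD.1.iSup_eq_top ▸ iSup_le fun j =>
        H.le_fixS hg.1 hg.2.1 (hD.2.1 j) (hinv hσ j (h7 j)) (by rw [hD.1.finrank_eq]; omega))))
    obtain ⟨j, hj⟩ := h7
    have h8 := finrank_le_movS_of_moved hg.2.1 hD.1.indep (h0 D hD.1) hσ hj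
    rw [hD.1.finrank_eq, hg.movS_eq hP hr0, h5] at h8
    have h9 := Nat.mul_le_mul_left (r - 1) ha
    have h10 := H.ord.dvd
    have h11 := Nat.le_of_dvd (by have := hr.two_le; omega) h10
    split_ifs at hc with he
    · have := H.ord.pos; omega
    · have h12 : r - 1 = i := by omega
      exact he (h12 ▸ hr.even_sub_one hr2)
  refine ⟨hca, ?_⟩
  have h5 := Nat.div_add_mod (2 * d) c
  have h6 := Nat.mod_lt (2 * d) hc0
  rw [mul_comm] at h5
  obtain ⟨T, hT⟩ := alt_rsum_blk hP hΛ hc0 hB hB' (e := 2 * d / c) (by omega)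
  have h7 := hT.finrank_eq fun _ h => h.1
  obtain ⟨g, hg⟩ := hT.exists_mov hP
  have h8 := Nat.div_pos (hn ▸ hB'.1 ▸ Submodule.finrank_le B) hc0
  obtain ⟨D, hD, σ, hσ⟩ := h g hg.1 hg.2.1
    (hg.ne_one hP hr0 (ne_bot_of_finrank (by rw [h7]; positivity)))
  have h9 := finrank_fixS_add hr0 hg.2.1
  rw [hg.movS_eq hP hr0] at h9
  have h10 : ∀ j, σ j = j := fun j => by
    by_contra hj
    have := finrank_le_fixS_of_moved hg.2.1 hD.1.indep (h0 D hD.1) hσ hj
    rw [hD.1.finrank_eq] at this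
    omega
  have h11 := finrank_inf_ker_eq_sum hD.1.indep (fun j => (hinv hσ j (h10 j)).aeval (X - 1))
    Finset.univ
  rw [Finset.sup_univ_eq_iSup, hD.1.iSup_eq_top, top_inf_eq, Finset.sum_congr rfl
    (g := fun _ => a % c) fun j _ => by
      obtain ⟨s, -, h12⟩ := H.nd_shape hg.1 hg.2.1 (hD.2.1 j) (hinv hσ j (h10 j))
      have h13 := Submodule.finrank_mono (inf_le_right : D j ⊓ fixS g ≤ _)
      rw [← hD.1.finrank_eq j, h12, Nat.add_mul_mod_self_right, Nat.mod_eq_of_lt (by omega)]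
      rfl] at h11
  rw [Finset.sum_const, Finset.card_univ, Fintype.card_fin, smul_eq_mul] at h11
  rw [← h11]
  change _ = finrank F (fixS g)
  omega

end Cfsg.Agent.S5961
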