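import Cfsg.Statements.S5962
import Cfsg.Agent.Lib.Elusive.Sp
import Cfsg.Agent.Lib.Orth12.Forms

set_option autoImplicit false
open scoped MatrixGroups
open Cfsg

namespace Cfsg.Agent.S5962

open H99 H28 Module Polynomial

/-- Involutions of PSp_n(q), q odd, and the subgroups GL_{n/2}(q).2. Here `T = PSp_n(q)`, `n = 2d ≥ 4`, `q` odd, realised through the symplectic matrices over the field `F` with `q` elements; Ω is the set of unordered pairs `{U, W}` of complementary totally isotropic `d`-spaces (`F^n = U ⊕ W`), whose stabilizers are the subgroups of type GL_d(q).2 (maximal except in some small cases; maximality is not assumed); an element of `T` of prime order `r` (a symplectic matrix `x` with `x^r` scalar, `x` not scalar) fixes such a pair when it fixes or interchanges `U` and `W`. If the number of such pairs is even, every involution of `T` fixes one of them (the action is 2-elusive). -/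
theorem result {F : Type*} [Field F] [Fintype F] {p : ℕ} [Fact p.Prime] [CharP F p] {q : ℕ} (hq : Fintype.card F = q)
    (d : ℕ) (hd : 2 ≤ d) (hT : (d, q) ≠ (2, 2)) (hodd : Odd q)
    (hΩ : 2 ∣ Nat.card {P : Submodule F (Fin d ⊕ Fin d → F) × Submodule F (Fin d ⊕ Fin d → F) // IsCompl P.1 P.2 ∧ (∀ u ∈ P.1, ∀ v ∈ P.1, Cfsg.sympForm d F u v = 0) ∧ (∀ u ∈ P.2, ∀ v ∈ P.2, Cfsg.sympForm d F u v = 0)} / 2)
    (x : ↥(Matrix.symplecticGroup (Fin d) F))
    (hx1 : ∃ z : F, ((x ^ 2 : ↥(Matrix.symplecticGroup (Fin d) F)) : Matrix (Fin d ⊕ Fin d) (Fin d ⊕ Fin d) F) = z • (1 : Matrix (Fin d ⊕ Fin d) (Fin d ⊕ Fin d) F))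
    (hx2 : ∀ z : F, (x : Matrix (Fin d ⊕ Fin d) (Fin d ⊕ Fin d) F) ≠ z • (1 : Matrix (Fin d ⊕ Fin d) (Fin d ⊕ Fin d) F)) :
    ∃ U W : Submodule F (Fin d ⊕ Fin d → F), IsCompl U W ∧ (∀ u ∈ U, ∀ v ∈ U, Cfsg.sympForm d F u v = 0) ∧ (∀ u ∈ W, ∀ v ∈ W, Cfsg.sympForm d F u v = 0) ∧
        ((U.map (Matrix.toLin' (x : Matrix (Fin d ⊕ Fin d) (Fin d ⊕ Fin d) F)) = U ∧ W.map (Matrix.toLin' (x : Matrix (Fin d ⊕ Fin d) (Fin d ⊕ Fin d) F)) = W) ∨
         (U.map (Matrix.toLin' (x : Matrix (Fin d ⊕ Fin d) (Fin d ⊕ Fin d) F)) = W ∧ W.map (Matrix.toLin' (x : Matrix (Fin d ⊕ Fin d) (Fin d ⊕ Fin d) F)) = U)) := by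
  have hP := spPQ_sep (m := d) (F := F)
  have hΛ := spPQ_Λ (m := d) (F := F)
  have hn := finrank_sp (F := F) (d := d)
  have : Nontrivial (Fin d ⊕ Fin d → F) := Module.nontrivial_of_finrank_pos (R := F) (by omega)
  have h2 : (2 : F) ≠ 0 := H12.odd_card_iff.mp (hq ▸ hodd)
  have h2' : ((2 : ℕ) : F) ≠ 0 := by simpa using h2
  simp only [sp_totSing_iff]
  refine (forall_sp_iff 2 fun f => ∃ U W : Submodule F (Fin d ⊕ Fin d → F), IsCompl U W ∧
    (spPQ d F).TotSing U ∧ (spPQ d F).TotSing W ∧ ((U.map f = U ∧ W.map f = W) ∨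
      (U.map f = W ∧ W.map f = U))).mpr ?_ x hx1 hx2
  rintro f hf ⟨z, hz⟩ -
  have hc : ∀ U W : Submodule F (Fin d ⊕ Fin d → F), (spPQ d F).TotSing U → (spPQ d F).TotSing W →
      U ⊔ W = ⊤ → IsCompl U W := fun U W h1 h2 h3 =>
    ⟨(half_of_sup hP (h3 ▸ nondeg_top hP) h1.le_perp h2.le_perp).2.2, codisjoint_iff.mpr h3⟩
  rcases sq_eq_one_of_pow hP hf hz with rfl | rfl
  · rw [one_smul] at hz
    obtain ⟨U, W, h3, h4, h5, -⟩ := (alt_hyp hP hΛ (nondeg_fixS hP h2' hf hz)).exists_halves hP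
    obtain ⟨U', W', h6, h7, h8, -⟩ := (alt_hyp hP hΛ (nondeg_movS hP h2' hf hz)).exists_halves hP
    have h9 := movS_le_perp h2' hf
    have h10 := totSing_sup h3 h6 (le_perp_mono h9 (h5 ▸ le_sup_left) (h8 ▸ le_sup_left))
    have h11 := totSing_sup h4 h7 (le_perp_mono h9 (h5 ▸ le_sup_right) (h8 ▸ le_sup_right))
    exact ⟨_, _, hc _ _ h10 h11 (by rw [sup_sup_sup_comm, h5, h8, fixS_sup_movS h2' hz]), h10, h11,
      Or.inl ⟨((inv_of_le_fixS (h5 ▸ le_sup_left)).sup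
        (inv_of_le_movS_two (h8 ▸ le_sup_left))).map_eq (hf.injective hP),
        ((inv_of_le_fixS (h5 ▸ le_sup_right)).sup
          (inv_of_le_movS_two (h8 ▸ le_sup_right))).map_eq (hf.injective hP)⟩⟩
  obtain ⟨e, he⟩ := alt_planes_neg hP hΛ h2 hf fun v => by
    simpa [pow_two] using congrArg (fun g : _ →ₗ[F] _ => g v) hz
  obtain ⟨U, h3, h4⟩ := he.induction (C := fun _ T => ∃ U, (spPQ d F).TotSing U ∧ U ⊔ U.map f = T)
    ⟨⊥, totSing_bot, by simp⟩ (by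
      rintro _ _ _ - ⟨u, -, rfl⟩ - h5 ⟨U, h6, rfl⟩
      exact ⟨U ⊔ F ∙ u, totSing_sup h6 (totSing_singleton (alt_q hΛ _))
        (le_perp_mono h5 le_sup_left le_sup_left), by
          rw [Submodule.map_sup, sup_sup_sup_comm, Submodule.map_span, Set.image_singleton]⟩)
  exact ⟨U, _, hc _ _ h3 (hf.totSing_map h3) h4, h3, hf.totSing_map h3, Or.inr ⟨rfl, by
    rw [← Submodule.map_comp, ← Module.End.mul_eq_comp, ← pow_two, hz,
      Submodule.map_smul _ _ _ (neg_ne_zero.mpr one_ne_zero), Module.End.one_eq_id,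
      Submodule.map_id]⟩⟩

end Cfsg.Agent.S5962
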