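import Cfsg.Statements.S5963
import Cfsg.Agent.Lib.Elusive.Sp
import Cfsg.Agent.Lib.Elusive.Form3

set_option autoImplicit false
open scoped MatrixGroups
open Cfsg

namespace Cfsg.Agent.S5963

open H99 H28 Module Polynomial Pointwise

/-- Derangements of odd prime order of PSp_n(q), q odd, on pairs of complementary totally isotropic subspaces. Here `T = PSp_n(q)`, `n = 2d ≥ 4`, `q` odd, realised through the symplectic matrices over the field `F` with `q` elements; Ω is the set of unordered pairs `{U, W}` of complementary totally isotropic `d`-spaces (`F^n = U ⊕ W`), whose stabilizers are the subgroups of type GL_d(q).2 (maximal except in some small cases; maximality is not assumed); an element of `T` of prime order `r` (a symplectic matrix `x` with `x^r` scalar, `x` not scalar) fixes such a pair when it fixes or interchanges `U` and `W`. For every odd prime `r ≠ p` dividing the number of such pairs, some element of `T` of order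 `r` fixes no such pair (the action is never `r`-elusive for odd `r ≠ p`). -/
theorem result {F : Type*} [Field F] [Fintype F] {p : ℕ} [Fact p.Prime] [CharP F p] {q : ℕ} (hq : Fintype.card F = q)
    (d : ℕ) (hd : 2 ≤ d) (hT : (d, q) ≠ (2, 2)) (hodd : Odd q)
    (r : ℕ) [Fact r.Prime] (hr2 : r ≠ 2) (hrp : r ≠ p) (hΩ : r ∣ Nat.card {P : Submodule F (Fin d ⊕ Fin d → F) × Submodule F (Fin d ⊕ Fin d → F) // IsCompl P.1 P.2 ∧ (∀ u ∈ P.1, ∀ v ∈ P.1, Cfsg.sympForm d F u v = 0) ∧ (∀ u ∈ P.2, ∀ v ∈ P.2, Cfsg.sympForm d F u v = 0)} / 2) :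
    ∃ x : ↥(Matrix.symplecticGroup (Fin d) F),
      (∃ z : F, ((x ^ r : ↥(Matrix.symplecticGroup (Fin d) F)) : Matrix (Fin d ⊕ Fin d) (Fin d ⊕ Fin d) F) = z • (1 : Matrix (Fin d ⊕ Fin d) (Fin d ⊕ Fin d) F)) ∧
      (∀ z : F, (x : Matrix (Fin d ⊕ Fin d) (Fin d ⊕ Fin d) F) ≠ z • (1 : Matrix (Fin d ⊕ Fin d) (Fin d ⊕ Fin d) F)) ∧
      ¬ (∃ U W : Submodule F (Fin d ⊕ Fin d → F), IsCompl U W ∧ (∀ u ∈ U, ∀ v ∈ U, Cfsg.sympForm d F u v = 0) ∧ (∀ u ∈ W, ∀ v ∈ W, Cfsg.sympForm d F u v = 0) ∧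
        ((U.map (Matrix.toLin' (x : Matrix (Fin d ⊕ Fin d) (Fin d ⊕ Fin d) F)) = U ∧ W.map (Matrix.toLin' (x : Matrix (Fin d ⊕ Fin d) (Fin d ⊕ Fin d) F)) = W) ∨
         (U.map (Matrix.toLin' (x : Matrix (Fin d ⊕ Fin d) (Fin d ⊕ Fin d) F)) = W ∧ W.map (Matrix.toLin' (x : Matrix (Fin d ⊕ Fin d) (Fin d ⊕ Fin d) F)) = U))) := by
  have hP := spPQ_sep (m := d) (F := F)
  have hΛ := spPQ_Λ (m := d) (F := F)
  have hn := finrank_sp (F := F) (d := d)
  have hr := (Fact.out : r.Prime)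
  have : Nontrivial (Fin d ⊕ Fin d → F) := Module.nontrivial_of_finrank_pos (R := F) (by omega)
  simp only [sp_totSing_iff] at hΩ ⊢
  have H := ss_id hP (Ord.of_ne hrp hq rfl) hr2 rfl
  have hV := alt_hyp hP hΛ (nondeg_top hP)
  have h1 := dvd_of_dvd_div hΩ (two_dvd_card_pairs (TSPair (spPQ d F))
    (fun x h => ⟨h.1.symm, h.2.2, h.2.1⟩) fun x h h' => by
      have h2 := h.1.sup_eq_top
      have h3 := h.1.inf_eq_bot
      rw [h', sup_idem] at h2
      rw [h', inf_idem, h2] at h3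
      exact top_ne_bot h3)
  rcases H.cases with ⟨h2, -⟩ | ⟨-, h2⟩
  swap
  · exact absurd h1 (h2.not_dvd_card_pairs hP H.ord.ne hV)
  rw [h2] at H
  obtain ⟨U, W, h3, h4, h5, -⟩ := hV.exists_halves hP
  obtain ⟨f, h6, h7, h8⟩ := exists_elt_of_dvd (TSPair (spPQ d F)) (fun g hg x h => h.smul hg)
    (fun x y h h' => h.trans hP h') ⟨_, tsPair_of_sup hP h3 h4 h5⟩ h1
  obtain ⟨B, hB, h9, g, hg⟩ := H.exists_blk h6 h7 h8
  have hj := H.ord.pos
  by_contra h10
  push Not at h10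
  obtain ⟨U, W, h11, h12, h13, h14⟩ := (forall_sp_iff r fun f =>
    ∃ U W : Submodule F (Fin d ⊕ Fin d → F), IsCompl U W ∧
      (spPQ d F).TotSing U ∧ (spPQ d F).TotSing W ∧ ((U.map f = U ∧ W.map f = W) ∨
        (U.map f = W ∧ W.map f = U))).mp h10 g hg.1 ⟨1, by rw [hg.2.1, one_smul]⟩
    (ne_smul_of_odd hP (hr.odd_of_ne_two hr2) hg.1 hg.2.1
      (hg.ne_one hP H.ord.ne (ne_bot_of_finrank (by omega))))
  rcases h14 with ⟨h14, h15⟩ | ⟨h14, h15⟩
  · exact Blk.not_inv_pair H.ord hP hg h9 h12.le_perp h13.le_perp h11.sup_eq_top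
      (inv_iff_map_le.mpr h14.le) (inv_iff_map_le.mpr h15.le)
  · obtain ⟨k, hk⟩ := hr.odd_of_ne_two hr2
    have h16 := map_pow_of_swap h14 h15 k
    rw [← hk, hg.2.1, Module.End.one_eq_id, Submodule.map_id] at h16
    have h17 := h11.sup_eq_top
    have h18 := h11.inf_eq_bot
    rw [h16, sup_idem] at h17
    rw [h16, inf_idem, h17] at h18
    exact top_ne_bot h18

end Cfsg.Agent.S5963
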