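import Cfsg.Statements.S5964
import Cfsg.Agent.Lib.Elusive.SubEl

set_option autoImplicit false
open scoped MatrixGroups
open Cfsg

namespace Cfsg.Agent.S5964

open H99 H28 Module Polynomial

/-- Involutions of PSL_n(q) and subfield subgroups. Here `T = PSL_n(F)` for a field `F` with `q = p^f` elements (`n ≥ 2`, `(n, q) ≠ (2, 2), (2, 3)`), `F₀` is the subfield with `q₀` elements where `q = q₀^k` for a prime `k`, and `H` is the subgroup of matrices of determinant 1 lying in the subfield group of `F₀` (invertible matrices over `F₀` times scalars) — a maximal subgroup of type GL_n(q₀) (the case `n = 2`, `q₀ = 2` is excluded); Ω is the set of `T`-conjugates of `H` (cosets of `H`), so an element of `T` of prime order `r` (a matrix `x` of determinant 1 with `x^r` scalar, `x` not scalar) fixes a point of Ω when some conjugate of `x` by a matrix of determinant 1 lies in `H`. Suppose the index of `H` is even. Then every involution of `T` is conjugate in `T` into `H` if and only if either `q` is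 even, or `k = 2` and `(n)_2 ≤ (q − 1)_2`. (For `q` odd and `k` odd the index of `H` is odd, so that case does not arise.) -/
theorem result {F : Type*} [Field F] [Fintype F] {p : ℕ} [Fact p.Prime] [CharP F p] {q : ℕ} (hq : Fintype.card F = q)
    (n : ℕ) (hn : 2 ≤ n) (hT : (n, q) ≠ (2, 2) ∧ (n, q) ≠ (2, 3))
    (F₀ : Subfield F) (k q₀ : ℕ) (hk : k.Prime) (hF₀ : Nat.card ↥F₀ = q₀) (hqk : q = q₀ ^ k) (hC5 : ¬ (n = 2 ∧ q₀ = 2)) (hΩ : 2 ∣ ((Cfsg.Geo.subfieldSubgroup F₀ 1).comap (Matrix.SpecialLinearGroup.toGL : Matrix.SpecialLinearGroup (Fin n) F →* GL (Fin n) F)).index) :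
    (∀ x : Matrix.SpecialLinearGroup (Fin n) F,
      (∃ z : F, ((x ^ 2 : Matrix.SpecialLinearGroup (Fin n) F) : Matrix (Fin n) (Fin n) F) = z • (1 : Matrix (Fin n) (Fin n) F)) →
      (∀ z : F, (x : Matrix (Fin n) (Fin n) F) ≠ z • (1 : Matrix (Fin n) (Fin n) F)) →
      ∃ P : Matrix.SpecialLinearGroup (Fin n) F, P⁻¹ * x * P ∈ ((Cfsg.Geo.subfieldSubgroup F₀ 1).comap (Matrix.SpecialLinearGroup.toGL : Matrix.SpecialLinearGroup (Fin n) F →* GL (Fin n) F))) ↔
    (Odd q → (k = 2 ∧ padicValNat 2 n ≤ padicValNat 2 (q - 1))) := by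
  have : Nonempty (Fin n) := ⟨⟨0, by omega⟩⟩
  have := Fintype.ofFinite F₀
  rw [Nat.card_eq_fintype_card] at hF₀
  subst hF₀ hq
  rw [sl_el_iff, elB_iff (mem_subfield_iff F₀)]
  by_cases h2 : (2 : F) = 0
  · have : CharP F 2 := (CharP.charP_iff_prime_eq_zero Nat.prime_two).mpr (by simpa using h2)
    exact iff_of_true (sub_elB_two_char h2) fun h =>
      (Nat.not_even_iff_odd.mpr h (even_iff_two_dvd.mpr (char_dvd_card F 2))).elim
  have h3 : ((2 : ℕ) : F) ≠ 0 := by simpa using h2
  obtain rfl : 2 = k := by_contra fun h => by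
    obtain ⟨j, -, -, -, h4⟩ := exists_of_dvd_relIndex (mem_subfield_iff F₀) hk hqk h3 h
      (by rwa [index_comap_toGL] at hΩ)
    exact h4 ((two_dvd_card_sub_one (by simpa using cast_ne_zero_base (K := F₀) h3)).trans
      (by simpa using Nat.sub_dvd_pow_sub_pow (Fintype.card F₀) 1 j))
  have := not_dvd_card' h3
  rw [sub_elB_two_iff h2 hqk]
  simp [Nat.odd_iff.mpr (show Fintype.card F % 2 = 1 by omega)]

end Cfsg.Agent.S5964
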