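import Cfsg.Statements.S5972
import Cfsg.Agent.Lib.Elusive.QuadRow

set_option autoImplicit false
open scoped MatrixGroups
open Cfsg

namespace Cfsg.Agent.S5972

open H99 H28 Module Polynomial

/-- Elements of prime order of Ω_n(q), n = 2d+1 ≥ 7, q odd, with no fixed totally singular `m`-space. Here `T = Ω_n(q)` is realised as the commutator subgroup of the isometry group of the quadratic form `x₀² + Σ xᵢyᵢ` over the field `F` with `q` elements (it has trivial centre, so its elements of prime order `r` are used directly); let `1 ≤ m ≤ d` and let `r` be a prime dividing the number of totally singular `m`-spaces. For `r ≠ p` let `i` be the multiplicative order of `q` modulo `r`, `c = i` for `i` even and `c = 2i` for `i` odd, and write `k = n mod c`, `ℓ = m mod i`, `n' = ⌊n/i⌋`, `m' = ⌊m/i⌋`, `t = (r−1)/i`. Then every element of `T` of order `r` fixes some totally singular `m`-space if and only if either (i) `r = 2` and (`m < (n−1)/2` or `q ≡ 1 (mod 4)`); or (ii) `r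 ≠ p` is odd, `i ≤ m`, `k > 2ℓ`, and (`i` is odd or `n' − 2m' ≥ t`). -/
theorem result {F : Type*} [Field F] [Fintype F] {p : ℕ} [Fact p.Prime] [CharP F p] {q : ℕ} (hq : Fintype.card F = q) (hqodd : Odd q)
    (d m : ℕ) (hd : 3 ≤ d) (hm : 1 ≤ m) (hmd : m ≤ d)
    (r : ℕ) [Fact r.Prime]
    (hrΩ : r ∣ Nat.card {W : Submodule F (Unit ⊕ (Fin d ⊕ Fin d) → F) // Module.finrank F ↥W = m ∧ (∀ w ∈ W, Cfsg.quadFormOdd d F w = 0)})
    (i c : ℕ) (hi : i = orderOf (q : ZMod r)) (hc : c = if Even i then i else 2 * i) :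
    (∀ x : GL (Unit ⊕ (Fin d ⊕ Fin d)) F, x ∈ Cfsg.Geo.omegaGL (Cfsg.quadFormOdd d F) → orderOf x = r →
      ∃ W : Submodule F (Unit ⊕ (Fin d ⊕ Fin d) → F), Module.finrank F ↥W = m ∧ (∀ w ∈ W, Cfsg.quadFormOdd d F w = 0) ∧
        W.map (Matrix.toLin' (x : Matrix (Unit ⊕ (Fin d ⊕ Fin d)) (Unit ⊕ (Fin d ⊕ Fin d)) F)) ≤ W) ↔
    ((r = 2 ∧ (m < d ∨ q % 4 = 1)) ∨
     (r ≠ p ∧ 2 < r ∧ i ≤ m ∧ 2 * (m % i) < (2 * d + 1) % c ∧ (Odd i ∨ (r - 1) / i + 2 * (m / i) ≤ (2 * d + 1) / i))) := by
  have hp2 := ne_two_of_odd_card p hq hqodd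
  have h2 := two_ne_zero_of_ne (F := F) p hp2
  have hP : (qP (H12.QOdd F d)).B.SeparatingLeft := H12.nondeg_QOdd h2 d
  have hn := H12.finrank_odd (F := F) d
  have hG := H12.good_of_two_ne_zero hP h2
  have hδ := hyp_odd (F := F) d
  have hr2 := (Fact.out : r.Prime).two_le
  simp only [← H12.coe_QOdd, ← quad_totSing, ← inv_iff_map_le, ← and_assoc] at hrΩ ⊢
  rw [el_mat_iff' _ hP h2 (by rw [hn]; simp)]
  simp only [and_assoc]
  obtain ⟨h1, h3, h4⟩ := ts_el p hP hG hq hi hc hδ hn (by omega) (by omega) hrΩ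
  rcases eq_or_ne r 2 with rfl | h5
  · rw [(h3 rfl).2]
    have := (h3 rfl).1
    simp only [lt_irrefl, false_and, and_false, or_false, true_and, show ¬ (2 * d + 1) % 2 = 0 by omega,
      false_imp_iff, and_true, not_false_iff]
    omega
  obtain ⟨h6, h7⟩ := h4 h5
  have h8 := div_facts (c := c) (by split_ifs at hc <;> omega) (even_c hc) (2 * d + 1) m
  rw [h7]
  rcases Nat.even_or_odd i with h9 | h9
  · simp only [h5, h1, h9, Nat.not_odd_iff_even.mpr h9, false_and, false_or, true_and, ne_eq,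
      not_false_iff, false_iff]
    simp only [Nat.even_iff]
    omega
  · simp only [h5, h1, h9, Nat.not_even_iff_odd.mpr h9, false_and, false_or, true_and, ne_eq,
      not_false_iff, or_false, and_false, true_or, and_true]
    omega

end Cfsg.Agent.S5972
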