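import Cfsg.Statements.S5973
import Cfsg.Agent.Lib.Elusive.QuadRow

set_option autoImplicit false
open scoped MatrixGroups
open Cfsg

namespace Cfsg.Agent.S5973

open H99 H28 Module Polynomial

/-- Elements of prime order of PΩ⁺_n(q), n = 2d ≥ 8, with no fixed totally singular `m`-space, `m < n/2`. Here `T = PΩ⁺_n(q)` is realised through `Ω⁺_n(q)`, the commutator subgroup of the isometry group of the quadratic form `Σ xᵢyᵢ` over the field `F` with `q` elements; an element of `T` of prime order `r` is an element `x` of `Ω⁺_n(q)` with `x^r` scalar and `x` not scalar. Let `1 ≤ m < d` and let `r` be a prime dividing the number of totally singular `m`-spaces. For `r ≠ p` let `i` be the multiplicative order of `q` modulo `r`, `c = i` for `i` even and `c = 2i` for `i` odd, and write `k = n mod c`, `ℓ = m mod i`, `n' = ⌊n/i⌋`, `m' = ⌊m/i⌋`, `t = (r−1)/i`. Then every element of `T` of order `r` fixes some totally singular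 `m`-space if and only if one of: (i) `r = 2 ≠ p` and either `q ≡ 1 (mod 4)`, or `q ≡ 3 (mod 4)`, `m ≤ n/2 − 2` and (`m` even or `n ≡ 2 (mod 4)`); (ii) `r ≠ p` odd, `i` odd, `i ≤ m` and `k ≥ 2ℓ`; (iii) `r ≠ p` odd, `i` even, `i ≤ m`, `n' − 2m' ≥ t`, and one of: `i ≥ 2ℓ`, `k = 0`, `n/i` odd and `n' − 2m' > t`; or `k ≥ 2ℓ` and `n'` even; or `k > 2ℓ` and `n'` odd. -/
theorem result {F : Type*} [Field F] [Fintype F] {p : ℕ} [Fact p.Prime] [CharP F p] {q : ℕ} (hq : Fintype.card F = q)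
    (d m : ℕ) (hd : 4 ≤ d) (hm : 1 ≤ m) (hmd : m < d)
    (r : ℕ) [Fact r.Prime]
    (hrΩ : r ∣ Nat.card {W : Submodule F (Fin d ⊕ Fin d → F) // Module.finrank F ↥W = m ∧ (∀ w ∈ W, Cfsg.quadFormPlus d F w = 0)})
    (i c : ℕ) (hi : i = orderOf (q : ZMod r)) (hc : c = if Even i then i else 2 * i) :
    (∀ x : GL (Fin d ⊕ Fin d) F, x ∈ Cfsg.Geo.omegaGL (Cfsg.quadFormPlus d F) →
      (∃ z : F, ((x ^ r : GL (Fin d ⊕ Fin d) F) : Matrix (Fin d ⊕ Fin d) (Fin d ⊕ Fin d) F) = z • (1 : Matrix (Fin d ⊕ Fin d) (Fin d ⊕ Fin d) F)) →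
      (∀ z : F, (x : Matrix (Fin d ⊕ Fin d) (Fin d ⊕ Fin d) F) ≠ z • (1 : Matrix (Fin d ⊕ Fin d) (Fin d ⊕ Fin d) F)) →
      ∃ W : Submodule F (Fin d ⊕ Fin d → F), Module.finrank F ↥W = m ∧ (∀ w ∈ W, Cfsg.quadFormPlus d F w = 0) ∧
        W.map (Matrix.toLin' (x : Matrix (Fin d ⊕ Fin d) (Fin d ⊕ Fin d) F)) ≤ W) ↔
    ((r = 2 ∧ p ≠ 2 ∧ (q % 4 = 1 ∨ (q % 4 = 3 ∧ m + 2 ≤ d ∧ (Even m ∨ (2 * d) % 4 = 2)))) ∨
     (r ≠ p ∧ 2 < r ∧ Odd i ∧ i ≤ m ∧ 2 * (m % i) ≤ (2 * d) % c) ∨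
     (r ≠ p ∧ 2 < r ∧ Even i ∧ i ≤ m ∧ (r - 1) / i + 2 * (m / i) ≤ (2 * d) / i ∧
       ((2 * (m % i) ≤ i ∧ (2 * d) % c = 0 ∧ Odd ((2 * d) / i) ∧ (r - 1) / i + 2 * (m / i) < (2 * d) / i) ∨
        (2 * (m % i) ≤ (2 * d) % c ∧ Even ((2 * d) / i)) ∨
        (2 * (m % i) < (2 * d) % c ∧ Odd ((2 * d) / i))))) := by
  have hP : (qP (H12.QPlus F d)).B.SeparatingLeft := H12.nondeg_QPlus d
  have hn := H12.finrank_plus (F := F) d
  have hG := H12.good_of_finrank_ne hP (by omega)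
  have hδ := hyp_plus (F := F) d
  have hr2 := (Fact.out : r.Prime).two_le
  simp only [← H12.coe_QPlus, ← quad_totSing, ← inv_iff_map_le, ← and_assoc] at hrΩ ⊢
  rw [el_mat_iff]
  simp only [and_assoc]
  obtain ⟨h1, h3, h4⟩ := ts_el p hP hG hq hi hc hδ hn (by omega) (by omega) hrΩ
  rcases eq_or_ne r 2 with rfl | h5
  · rw [(h3 rfl).2]
    have := (h3 rfl).1
    simp only [lt_irrefl, false_and, and_false, or_false, true_and, and_true, not_false_iff, ne_eq,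
      h1.symm, not_true, true_iff, false_iff, Nat.even_iff]
    omega
  obtain ⟨h6, h7⟩ := h4 h5
  have h8 := div_facts (c := c) (by split_ifs at hc <;> omega) (even_c hc) (2 * d) m
  rw [h7]
  rcases Nat.even_or_odd i with h9 | h9
  · simp only [h5, h1, h9, Nat.not_odd_iff_even.mpr h9, false_and, false_or, true_and, ne_eq,
      not_false_iff, false_iff, true_iff, and_false]
    simp only [Nat.even_iff, Nat.odd_iff]
    omega
  · simp only [h5, h1, h9, Nat.not_even_iff_odd.mpr h9, false_and, false_or, true_and, ne_eq,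
      not_false_iff, or_false, and_false, true_or, and_true, not_true]
    omega

end Cfsg.Agent.S5973
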