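import Cfsg.Statements.S5974
import Cfsg.Agent.Lib.Elusive.QuadRow

set_option autoImplicit false
open scoped MatrixGroups
open Cfsg

namespace Cfsg.Agent.S5974

open H99 H28 Module Polynomial

set_option linter.unusedSimpArgs false

/-- Elements of prime order of PΩ⁺_n(q), n = 2d ≥ 8, with no fixed nondegenerate hyperbolic `m`-space. Here `T = PΩ⁺_n(q)` is realised through `Ω⁺_n(q)`, the commutator subgroup of the isometry group of `Q = Σ xᵢyᵢ` over the field `F` with `q` elements; an element of `T` of prime order `r` is an element `x` of `Ω⁺_n(q)` with `x^r` scalar and `x` not scalar. A hyperbolic `m`-space is a subspace `W` of even dimension `m` on which the polar form of `Q` is nondegenerate and which contains a totally singular subspace of dimension `m/2`. Let `m` be even with `2 ≤ m < n/2`, and let `r` be a prime dividing the number of hyperbolic `m`-spaces, with `r = 2` or `r ≠ p`. For `r ≠ p` let `i` be the multiplicative order of `q` modulo `r`,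 `c = i` for `i` even and `c = 2i` for `i` odd, and write `k = n mod c`, `ℓ' = m mod c`. Then every element of `T` of order `r` fixes some hyperbolic `m`-space if and only if one of: (i) `r = 2` and (`n ≡ 2 (mod 4)`, or `m ≡ 0 (mod 4)`, or `q ≡ 1 (mod 4)`); (ii) `r ≠ p` odd, `i` odd, `c ≤ m` and `k ≥ ℓ'`; (iii) `r ≠ p` odd, `i` even, and either `k = 0` and (`n/i` odd, or `ℓ' = 0` and `m/i` even), or `i ≤ m` and (`k > ℓ' > 0`, or `k = ℓ' > 0` and `(n + m − 2k)/i` even, or `k > ℓ' = 0` and `m/i` even). -/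
theorem result {F : Type*} [Field F] [Fintype F] {p : ℕ} [Fact p.Prime] [CharP F p] {q : ℕ} (hq : Fintype.card F = q)
    (d m : ℕ) (hd : 4 ≤ d) (hm : 2 ≤ m) (hme : Even m) (hmd : m < d)
    (r : ℕ) [Fact r.Prime] (hr : r = 2 ∨ r ≠ p)
    (hrΩ : r ∣ Nat.card {W : Submodule F (Fin d ⊕ Fin d → F) // (Module.finrank F ↥W = m ∧ (∀ u ∈ W, u ≠ 0 → ∃ v ∈ W, QuadraticMap.polar (Cfsg.quadFormPlus d F) u v ≠ 0) ∧
          ∃ U : Submodule F (Fin d ⊕ Fin d → F), U ≤ W ∧ 2 * Module.finrank F ↥U = m ∧ ∀ u ∈ U, Cfsg.quadFormPlus d F u = 0)})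
    (i c : ℕ) (hi : i = orderOf (q : ZMod r)) (hc : c = if Even i then i else 2 * i) :
    (∀ x : GL (Fin d ⊕ Fin d) F, x ∈ Cfsg.Geo.omegaGL (Cfsg.quadFormPlus d F) →
      (∃ z : F, ((x ^ r : GL (Fin d ⊕ Fin d) F) : Matrix (Fin d ⊕ Fin d) (Fin d ⊕ Fin d) F) = z • (1 : Matrix (Fin d ⊕ Fin d) (Fin d ⊕ Fin d) F)) →
      (∀ z : F, (x : Matrix (Fin d ⊕ Fin d) (Fin d ⊕ Fin d) F) ≠ z • (1 : Matrix (Fin d ⊕ Fin d) (Fin d ⊕ Fin d) F)) →
      ∃ W : Submodule F (Fin d ⊕ Fin d → F), (Module.finrank F ↥W = m ∧ (∀ u ∈ W, u ≠ 0 → ∃ v ∈ W, QuadraticMap.polar (Cfsg.quadFormPlus d F) u v ≠ 0) ∧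
          ∃ U : Submodule F (Fin d ⊕ Fin d → F), U ≤ W ∧ 2 * Module.finrank F ↥U = m ∧ ∀ u ∈ U, Cfsg.quadFormPlus d F u = 0) ∧
        W.map (Matrix.toLin' (x : Matrix (Fin d ⊕ Fin d) (Fin d ⊕ Fin d) F)) ≤ W) ↔
    ((r = 2 ∧ ((2 * d) % 4 = 2 ∨ m % 4 = 0 ∨ q % 4 = 1)) ∨
     (r ≠ p ∧ 2 < r ∧ Odd i ∧ c ≤ m ∧ m % c ≤ (2 * d) % c) ∨
     (r ≠ p ∧ 2 < r ∧ Even i ∧
       (((2 * d) % c = 0 ∧ (Odd ((2 * d) / i) ∨ (m % c = 0 ∧ Even (m / i)))) ∨
        (i ≤ m ∧ ((m % c < (2 * d) % c ∧ 0 < m % c) ∨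
                  ((2 * d) % c = m % c ∧ 0 < m % c ∧ Even ((2 * d + m - 2 * ((2 * d) % c)) / i)) ∨
                  (0 < (2 * d) % c ∧ m % c = 0 ∧ Even (m / i))))))) := by
  have hP : (qP (H12.QPlus F d)).B.SeparatingLeft := H12.nondeg_QPlus d
  have hn := H12.finrank_plus (F := F) d
  have hG := H12.good_of_finrank_ne hP (by omega)
  have hδ := hyp_plus (F := F) d
  have hr2 := (Fact.out : r.Prime).two_le
  obtain ⟨W, hW, hWm, hε, key⟩ := exists_ty hP hme (by omega) (by omega) True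
  simp only [← H12.coe_QPlus, plus_class_iff', key, ← inv_iff_map_le] at hrΩ ⊢
  rw [el_mat_iff]
  rcases eq_or_ne r 2 with rfl | h5
  · rcases ne_or_eq p 2 with hp2 | rfl
    · rw [nd_el_two p hP hp2 hq hW hδ hε hn hWm (by omega) (by simp [Nat.even_iff]; omega)]
      have := odd_card p hp2 hq
      simp only [lt_irrefl, false_and, and_false, or_false, true_and, and_true, not_false_iff, ne_eq,
        hp2, not_true, true_iff, false_iff, false_or, Nat.even_iff, Nat.odd_iff] at *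
      omega
    have h2 : (2 : F) = 0 := by simpa using CharP.cast_eq_zero F 2
    have h3 := FiniteField.even_card_of_char_two (F := F) (ringChar.eq F 2)
    have : Nontrivial (Fin d ⊕ Fin d → F) := Module.nontrivial_of_finrank_pos (R := F) (by omega)
    rw [Nat.even_iff] at hme
    simp only [lt_irrefl, false_and, and_false, or_false, true_and]
    refine ⟨fun h => ?_, fun h => (el_char_two hP h2).mpr fun f hf h4 _ => ?_⟩
    · by_contra h4
      obtain ⟨U, h6, M, h7, -, h8, -⟩ := h.exists_at 2 hP hG (fun _ h => h.nondeg hW)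
        (hδ.mpr trivial) (by rw [finrank_top]; omega) top_ne_bot
      rw [PQ.perp_top _ hP, le_bot_iff] at h7
      rw [h7, finrank_bot, ← h6.finrank_eq] at h8
      omega
    obtain ⟨x, y, z, h6, h7, h8⟩ := quad_char_two hP h2 hf.iso h4
    rw [hδ, true_iff, Nat.even_iff] at h7
    obtain ⟨U, h9, h10, h11, h12⟩ := h8 (m / 2 - 2 * min (m / 4) (y / 2 + z)) (by omega)
      (2 * (min (m / 4) (y / 2 + z) - min (m / 4) z)) (by omega) (min (m / 4) z) (by omega)
    exact ⟨U, (key U).mp ⟨by omega, h9, by simpa using h12⟩, h10⟩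
  have hrp := hr.resolve_left h5
  replace hr2 : 2 < r := by omega
  have g1 : 0 < m := by omega
  have g2 : m < 2 * d := by omega
  have g3 : 2 * m < 2 * d := by omega
  obtain ⟨hc0, hce, ⟨e, h3, h6, h7⟩, h4⟩ := nd_el_odd p hP hG hrp h5 hq hi hc hW hδ hε hn hWm
    g1 g2 (Or.inr (by simp)) hrΩ
  obtain ⟨f1, f2, f3, f4, f5, f6, f7, f8, f9, f10⟩ := div_facts hc0 hce (2 * d) m
  replace f8 := f8.mp g2
  replace f10 := f10.mp g1
  have f9 := f9.mp g3
  rw [h4]
  clear h4 hrΩ key hi hq hn hWm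
  rcases Nat.even_or_odd i with h9 | h9
  · obtain rfl : c = i := by simpa [h9] using hc
    simp only [h5, hrp, hr2, h9, f6, Nat.not_odd_iff_even.mpr h9, false_and, false_or, true_and, ne_eq,
      not_false_iff, false_iff, true_iff, and_false] at h3 h6 h7 ⊢
    simp only [Nat.even_iff, Nat.odd_iff] at *
    clear hc f6
    generalize (2 * d + m - 2 * ((2 * d) % c)) / c = X at *
    generalize (2 * d) / c = E, (2 * d) % c = k, m / c = M, m % c = l at *
    rcases lt_trichotomy l k with h | rfl | h <;> rcases Nat.eq_zero_or_pos l with h' | h' <;>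
      (try subst h') <;> simp_all <;> omega
  · simp only [h5, hrp, hr2, h9, f6, Nat.not_even_iff_odd.mpr h9, false_and, false_or, true_and, ne_eq,
      not_false_iff, or_false, and_false, true_or, and_true, not_true, iff_self, or_true, true_iff,
      false_iff, iff_true, iff_false, true_imp_iff] at h3 h6 h7 ⊢
    simp only [Nat.even_iff, Nat.odd_iff] at *
    clear hc f6 f7
    generalize (2 * d) / c = E, (2 * d) % c = k, m / c = M, m % c = l at *
    rcases lt_trichotomy l k with h | rfl | h <;> rcases Nat.eq_zero_or_pos l with h' | h' <;>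
      (try subst h') <;> simp_all <;> omega

end Cfsg.Agent.S5974
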