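import Cfsg.Statements.S5980
import Cfsg.Agent.Lib.Elusive.Ten

set_option autoImplicit false
open scoped MatrixGroups
open Cfsg

namespace Cfsg.Agent.S5980

open H99 H28 H11.Ten Module Polynomial

/-- Elements of prime order of PSp_n(q), q odd, and the stabilizers of tensor decompositions Sp_a(q) ⊗ O_b(q). Here `T = PSp_{2d}(F)` for a field `F` with `q` elements, `q` odd, `d ≥ 2`, realised through the matrices preserving the standard alternating form `f`; `2d = a·b` with `a` even, `b ≥ 3`, and the bijection `e` and change of basis `P` exhibit `f` as a non-zero scalar multiple of the tensor product of a non-degenerate alternating form `f₁` on `F^a` and a non-degenerate symmetric bilinear form `f₂` on `F^b`; `H` is the subgroup of `T` stabilizing this tensor decomposition (the elements of `T` in the conjugate by `P` of the group of Kronecker products) — a subgroup of type Sp_a(q) ⊗ O^ε_b(q) (maximality is not assumed). Ω is the set of cosets of `H` in `T`, so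 an element of `T` of prime order `r` (`x ∈ T` with `x^r` scalar, `x` not scalar) fixes a point of Ω exactly when some `T`-conjugate of `x` lies in `H`. Let `r` be a prime dividing the index of `H`. Then every element of `T` of order `r` fixes a point of Ω if and only if `r = 2` and `a = 2`. -/
theorem result {F : Type*} [Field F] [Fintype F] {p : ℕ} [Fact p.Prime] [CharP F p] {q : ℕ} (hq : Fintype.card F = q)
    (hodd : Odd q) (d : ℕ) (hd : 2 ≤ d) (a b : ℕ) (hab : 2 * d = a * b) (ha : Even a) (ha2 : 2 ≤ a) (hb : 3 ≤ b)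
    (e : (Fin d ⊕ Fin d) ≃ Fin a × Fin b) (P : GL (Fin d ⊕ Fin d) F)
    (f₁ : (Fin a → F) → (Fin a → F) → F) (f₂ : (Fin b → F) → (Fin b → F) → F)
    (hf₁ : Cfsg.Geo.IsSymplecticForm f₁) (hf₂ : Cfsg.Geo.IsSymmetricForm f₂)
    (hS : Cfsg.Geo.IsTensorFormStructure id (Cfsg.sympForm d F) f₁ f₂ e P)
    (r : ℕ) [Fact r.Prime]
    (hΩ : r ∣ (Cfsg.Geo.tensorProductSubgroup a b e P).relIndex (Cfsg.spGL d F)) :
    (∀ x ∈ Cfsg.spGL d F, (∃ z : F, ((x ^ r : GL (Fin d ⊕ Fin d) F) : Matrix (Fin d ⊕ Fin d) (Fin d ⊕ Fin d) F) = z • (1 : Matrix (Fin d ⊕ Fin d) (Fin d ⊕ Fin d) F)) →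
      (∀ z : F, (x : Matrix (Fin d ⊕ Fin d) (Fin d ⊕ Fin d) F) ≠ z • (1 : Matrix (Fin d ⊕ Fin d) (Fin d ⊕ Fin d) F)) →
      ∃ g ∈ Cfsg.spGL d F, g⁻¹ * x * g ∈ Cfsg.Geo.tensorProductSubgroup a b e P) ↔ (r = 2 ∧ a = 2) := by
  have : Nonempty (Fin a) := ⟨⟨0, by omega⟩⟩
  have : Nonempty (Fin b) := ⟨⟨0, by omega⟩⟩
  have h2 : (2 : F) ≠ 0 := H65.two_ne_zero_of_odd_card (hq ▸ hodd)
  obtain ⟨c, hc, h1⟩ := tensor_pure_bil hS hf₁.bilinear hf₂.bilinear
  obtain ⟨PU, h3, h4, h5⟩ := exists_alt_of_form hf₁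
  have h6 : ∀ u v, (qP (H97.bilOf hf₂.bilinear).toQuadraticMap).B u v = 2 * f₂ u v := fun u v => by
    rw [qP_B, LinearMap.BilinMap.polar_toQuadraticMap, H97.bilOf_apply, H97.bilOf_apply,
      hf₂.symm v u, two_mul]
  rw [conj_el_iff mem_spGL_iff (fun x _ => mem_ten_iff (by omega) (by omega) e P x)
    fun _ h => h.injective spPQ_sep]
  refine (ten_alt_elA_iff spPQ_sep rfl h3 h4 (Q := (H97.bilOf hf₂.bilinear).toQuadraticMap)
    (fun x hx => by_contra fun h0 => (hf₂.nondegenerate x h0).2.elim fun y hy =>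
      mul_ne_zero h2 hy ((h6 x y).symm.trans (hx y))) (κ := -c / 2)
    (div_ne_zero (neg_ne_zero.mpr hc) h2) (fun u w u' w' => ?_) h2 (by simpa using hb)
    (exists_elt_of_relIndex mem_spGL_iff hΩ)).trans (by rw [finrank_fin_fun])
  rw [spPQ_B, h1, h6, alt_symm h4, h5]
  simp only [LinearMap.smul_apply, H97.bilOf_apply, smul_eq_mul]
  field_simp
end Cfsg.Agent.S5980
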