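import Cfsg.Statements.S5983
import Cfsg.Agent.Lib.Elusive.Idx
import Cfsg.Agent.Lib.Elusive.QuadRow
import Cfsg.Agent.Lib.QF.Orthonormal
import Cfsg.Agent.Lib.Orth12.Asch1

set_option autoImplicit false
open scoped MatrixGroups
open Cfsg

namespace Cfsg.Agent.S5983

open H99 H28 Module Polynomial QuadraticMap

set_option linter.unusedSectionVars false

section

variable {F V : Type*} [Field F] [AddCommGroup V] [Module F V] [FiniteDimensional F V] [Fintype F]
  {Q Q' : QuadraticForm F V} {W : Submodule F V} {f : V →ₗ[F] V}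

theorem hyp_congr (hB : ∀ u v, polar Q' u v = polar Q u v) (h : ∀ v ∈ W, Q' v = Q v)
    (hW : Hyp (qP Q) W) : Hyp (qP Q') W := by
  obtain ⟨h1, U, h2, h3, h4⟩ := hW
  exact ⟨fun x hx h5 => h1 x hx fun y hy => (hB x y).symm.trans (h5 y hy), U, h2,
    quad_totSing.mpr fun u hu => (h u (h2 hu)).trans (h3.1 u hu), h4⟩

theorem sep_congr (hB : ∀ u v, polar Q' u v = polar Q u v) (hP : (qP Q).B.SeparatingLeft) :
    (qP Q').B.SeparatingLeft := fun x h => hP x fun y => (hB x y).symm.trans (h y)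

theorem hyp_top_iff (hP : (qP Q).B.SeparatingLeft) : Hyp (qP Q) ⊤ ↔ H66.IsPlusType Q :=
  ⟨fun ⟨_, U, _, h1, h2⟩ => ⟨U, h1.1, by rwa [finrank_top] at h2⟩, fun ⟨U, h1, h2⟩ =>
    ⟨nondeg_top hP, U, le_top, quad_totSing.mpr h1, by rwa [finrank_top]⟩⟩

theorem exists_change (hP : (qP Q).B.SeparatingLeft) (h2 : (2 : F) = 0) (hf : Iso (qP Q) f) {w : V}
    (hw : f w = w) (h0 : Q w ≠ 0) (ε : Prop) : ∃ Q' : QuadraticForm F V,
      (∀ u v, polar Q' u v = polar Q u v) ∧ Iso (qP Q') f ∧ (Hyp (qP Q') ⊤ ↔ ε) := by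
  obtain ⟨u, -, hu⟩ := exists_B_ne (nondeg_top hP) Submodule.mem_top (H12.ne_zero_of_Q_ne h0)
  have hs : ∀ x, (qP Q).B x x = 0 := fun x => by rw [qP_self, h2, zero_mul]
  have hg : (qP Q).B w w * (qP Q).B u u ≠ (qP Q).B w u * (qP Q).B u w := by
    rw [hs, zero_mul, qP_symm w u]; exact (mul_ne_zero hu hu).symm
  have hA := nondeg_pair hg
  have hd := finrank_pair hg
  have hd' := (qP Q).finrank_perp_add hP ((F ∙ w) ⊔ (F ∙ u))
  have he : Even (finrank F V) := by
    simpa using (alt_hyp (P := PQ.ofAlt (polarBilin Q) hs) hP rfl (nondeg_top hP)).even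
  have key : ∀ t : F, ∃ Q' : QuadraticForm F V, (∀ u v, polar Q' u v = polar Q u v) ∧
      Iso (qP Q') f ∧ (∀ a b, Q' (a • w + b • u) = a ^ 2 * Q w + a * b * polar Q w u + b ^ 2 * t) ∧
      (Hyp (qP Q') ⊤ ↔ (Hyp (qP Q') ((F ∙ w) ⊔ (F ∙ u)) ↔
        Hyp (qP Q) ((qP Q).perp ((F ∙ w) ⊔ (F ∙ u))))) := fun t => by
    obtain ⟨Q', hQ'⟩ : ∃ Q' : QuadraticForm F V, ∀ v, Q' v =
        Q v + (t - Q u) / polar Q w u ^ 2 * polar Q w v ^ 2 :=
      ⟨Q + ((t - Q u) / polar Q w u ^ 2) • linMulLin ((qP Q).B w) ((qP Q).B w), fun v => by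
        simp [qP_B, pow_two]⟩
    have h1 : ∀ x y, polar Q' x y = polar Q x y := fun x y => by
      rw [polar, hQ', hQ', hQ', polar_add_right, qP_add, qP_B]
      linear_combination ((t - Q u) / polar Q w u ^ 2 * polar Q w x * polar Q w y) * h2
    have h3 := sep_congr h1 hP
    have h4 : (qP Q').B = (qP Q).B := LinearMap.ext₂ h1
    have h5 : (qP Q').perp ((F ∙ w) ⊔ (F ∙ u)) = (qP Q).perp ((F ∙ w) ⊔ (F ∙ u)) := by
      rw [PQ.perp, h4]; rfl
    have h6 : (qP Q').Nondeg ((F ∙ w) ⊔ (F ∙ u)) := fun x hx h => hA x hx (h4 ▸ h)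
    have h7 : ∀ v ∈ (qP Q).perp ((F ∙ w) ⊔ (F ∙ u)), Q' v = Q v := fun v hv => by
      rw [hQ', ← qP_B w v, (mem_perp_pair.mp hv).1]; ring
    refine ⟨Q', h1, quad_iso.mpr fun v => ?_, fun a b => ?_, ?_⟩
    · rw [hQ', hQ', quad_iso.mp hf, ← qP_B w v, ← hf.B w v, hw, qP_B]
    · have h8 := hs w
      rw [qP_B] at hu h8
      rw [hQ', qP_add, H12.Q_smul, H12.Q_smul, qP_B]
      simp only [polar_add_right, polar_smul_left, polar_smul_right, h8, smul_eq_mul]
      field_simp; ring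
    · rw [← h6.isCompl.sup_eq_top, quad_hyp_sup h3 h6 (h6.perp h3) (by simp [hd])
        (by rw [h5, Nat.even_iff] at *; omega) le_rfl, h5]
      exact iff_congr Iff.rfl ⟨hyp_congr (fun x y => (h1 x y).symm) fun v hv => (h7 v hv).symm,
        hyp_congr h1 h7⟩
  rw [qP_B] at hu
  by_cases h : ε ↔ Hyp (qP Q) ((qP Q).perp ((F ∙ w) ⊔ (F ∙ u)))
  · obtain ⟨Q', h1, h3, h4, h5⟩ := key 0
    have := hyp_of_sing (Q := Q') (fun x hx h => hA x hx fun y hy => (h1 x y).symm.trans (h y hy)) hd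
      (mem_span_pair'.mpr ⟨0, 1, rfl⟩) (fun h => hu (by simpa using congrArg (polar Q w) h))
      (by rw [h4]; simp)
    exact ⟨Q', h1, h3, by tauto⟩
  · obtain ⟨ζ, hζ⟩ := H66.exists_aniso (F := F)
    obtain ⟨Q', h1, h3, h4, h5⟩ := key (ζ * polar Q w u ^ 2 / Q w)
    have := not_hyp_of_aniso (Q := Q') (ne_bot_of_finrank (hd ▸ two_ne_zero)) fun v hv h6 => by
      obtain ⟨a, b, rfl⟩ := mem_span_pair'.mp hv
      rw [h4] at h6
      field_simp at h6
      obtain ⟨h7, h8⟩ := hζ (a * Q w) (b * polar Q w u) (by linear_combination h6)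
      simp [(mul_eq_zero.mp h7).resolve_right h0, (mul_eq_zero.mp h8).resolve_right hu]
    exact ⟨Q', h1, h3, by tauto⟩

end

/-- Elements of prime order of PSp_n(q), q even, and the subgroups of orthogonal type. Here `T = Sp_{2d}(F)` for a field `F` of characteristic 2 with `q` elements (`d ≥ 2`, `(d, q) ≠ (2, 2)`), realised as the invertible matrices preserving the standard alternating form; `Q` is a non-degenerate quadratic form on `F^{2d}` whose polar form is that alternating form, and `H` is the subgroup of `T` preserving `Q` up to a scalar (equivalently preserving `Q`) — a subgroup of type O^±_{2d}(q) (maximality is not assumed); `Q` is of plus type when `F^{2d}` contains a `d`-dimensional subspace on which `Q` vanishes, of minus type otherwise. Ω is the set of cosets of `H` in `T`, so an element of `T` of prime order `r` (`x ∈ T` with `x^r` scalar, `x` not scalar) fixes a point of Ω exactly when some `T`-conjugate of `x`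 preserves `Q`. Let `r` be a prime dividing the index of `H`. Then every element of `T` of order `r` fixes a point of Ω if and only if `r = 2` and either `Q` is of plus type or `d` is odd. -/
theorem result {F : Type*} [Field F] [Fintype F] {p : ℕ} [Fact p.Prime] [CharP F p] {q : ℕ} (hq : Fintype.card F = q)
    (hp : p = 2) (d : ℕ) (hd : 2 ≤ d) (hT : (d, q) ≠ (2, 2)) (Q : (Fin d ⊕ Fin d → F) → F) (hQ : Cfsg.Geo.IsNondegenerateQuadraticForm Q)
    (hQf : ∀ u v, QuadraticMap.polar Q u v = Cfsg.sympForm d F u v)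
    (r : ℕ) [Fact r.Prime]
    (hΩ : r ∣ (Cfsg.Geo.quadSimilarityGroup Q).relIndex (Cfsg.spGL d F)) :
    (∀ x ∈ Cfsg.spGL d F, (∃ z : F, ((x ^ r : GL (Fin d ⊕ Fin d) F) : Matrix (Fin d ⊕ Fin d) (Fin d ⊕ Fin d) F) = z • (1 : Matrix (Fin d ⊕ Fin d) (Fin d ⊕ Fin d) F)) →
      (∀ z : F, (x : Matrix (Fin d ⊕ Fin d) (Fin d ⊕ Fin d) F) ≠ z • (1 : Matrix (Fin d ⊕ Fin d) (Fin d ⊕ Fin d) F)) →
      ∃ g ∈ Cfsg.spGL d F, g⁻¹ * x * g ∈ Cfsg.Geo.quadSimilarityGroup Q) ↔
    (r = 2 ∧ (Cfsg.Geo.IsPlusTypeOn Q ⊤ ∨ Odd d)) := by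
  subst hp
  obtain ⟨Q, rfl⟩ := H12.A.exists_quadraticForm hQ
  have hP : (qP Q).B.SeparatingLeft := H12.A.nondeg_of hQ
  have hS := spPQ_sep (m := d) (F := F)
  have hn := finrank_sp (F := F) (d := d)
  have h2 : (2 : F) = 0 := by simpa using CharP.cast_eq_zero F 2
  have : Nontrivial (Fin d ⊕ Fin d → F) := Module.nontrivial_of_finrank_pos (R := F) (by omega)
  have hB : ∀ x ∈ spGL d F, x ∈ Geo.quadSimilarityGroup Q ↔
      Iso (qP Q) (Matrix.toLin' (x : Matrix _ _ F)) := fun x hx => by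
    refine ⟨fun ⟨c, hc⟩ => quad_iso.mpr fun v => ?_, fun h => ⟨1, by simpa using quad_iso.mp h⟩⟩
    obtain ⟨u, hu⟩ := exists_ne (0 : Fin d ⊕ Fin d → F)
    obtain ⟨w, -, hw⟩ := exists_B_ne (nondeg_top hP) Submodule.mem_top hu
    have h1 : sympForm d F (x.val.mulVec u) (x.val.mulVec w) = sympForm d F u w := hx u w
    rw [← hQf, ← hQf, polar.eq_def, ← Matrix.mulVec_add, hc, hc, hc] at h1
    rw [Matrix.toLin'_apply, hc, mul_right_cancel₀ hw (show c * polar Q u w = 1 * polar Q u w by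
      rw [one_mul]; exact Eq.trans (by rw [polar]; ring) h1), one_mul]
  have hsp : ∀ {Q' : QuadraticForm F _} {f}, (∀ u v, polar Q' u v = polar Q u v) → Iso (qP Q') f →
      Iso (spPQ d F) f := fun h h1 => alt_iso rfl fun u v => by
    rw [spPQ_B, spPQ_B, ← hQf, ← hQf, ← h, ← h]; exact h1.B u v
  have hcj : ∀ (g : (Fin d ⊕ Fin d → F) ≃ₗ[F] (Fin d ⊕ Fin d → F)) f, Iso (spPQ d F) g →
      (∀ u v, polar (Q.comp g.symm.toLinearMap) u v = polar Q u v) ∧
      (Iso (qP Q) (g.symm.conj f) ↔ Iso (qP (Q.comp g.symm.toLinearMap)) f) := fun g f hg =>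
    ⟨fun u v => by
      rw [hQf, ← spPQ_B, ← g.apply_symm_apply u, ← g.apply_symm_apply v]
      exact (H66.polar_comp_of_isometry (Q' := Q.comp g.symm.toLinearMap) (Q := Q) g (by simp)
        _ _).trans ((hQf _ _).trans (hg.B _ _).symm), by
      rw [quad_iso, quad_iso]
      exact ⟨fun h v => by simpa using h (g.symm v), fun h v => by simpa using h (g v)⟩⟩
  have hone : ∀ {f} {k : ℕ} {c : F}, Iso (spPQ d F) f → f ^ k = c • 1 → c = 1 :=
    fun hf h => (sq_eq_one_of_pow hS hf h).elim id fun h => by rw [h]; linear_combination -h2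
  rw [conj_el_iff mem_spGL_iff hB fun _ h => h.injective hS, plusOn_iff Q (nondeg_top hP)]
  rcases eq_or_ne r 2 with rfl | hr2
  · rw [eq_self, true_and]
    refine ⟨fun h => or_iff_not_imp_right.mpr fun h1 => ?_, fun h f hf ⟨c, hc⟩ _ => ?_⟩
    · obtain ⟨U, -, h3, h4⟩ := alt_hasTS hS rfl (nondeg_top hS) (k := d) (by rw [finrank_top, hn])
      obtain ⟨f, h5, h6⟩ := exists_at (fun x y => by
        rw [alt_symm rfl]; linear_combination (-(spPQ d F).B x y) * h2) h3
        (h4.symm ▸ Nat.not_odd_iff_even.mp h1)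
      have h7 := (spPQ d F).finrank_perp_add hS U
      have h8 := finrank_map_sub_one f
      rw [← h6] at h7
      obtain ⟨g, hg, h9⟩ := h f h5.iso ⟨1, by rw [h5.pow_char 2, one_smul]⟩ fun c hc => by
        rw [hc, hone h5.iso ((pow_one _).trans hc), one_smul, fixS_eq_top_iff.mpr rfl,
          finrank_top] at h7
        omega
      obtain ⟨h10, h11⟩ := hcj g f hg
      have h12 : AT (qP (Q.comp g.symm.toLinearMap)) f := ⟨h11.mp h9, h5.sq, fun u =>
        (h10 _ _).trans ((hQf _ _).trans (h5.alt u))⟩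
      exact (hyp_top_iff hP).mpr (H66.IsPlusType.of_equiv ⟨_, (h12.totSing (W := ⊤)).1, by omega⟩
        g.symm fun _ h => h)
    obtain rfl := hone hf hc
    rw [one_smul] at hc
    obtain ⟨Q₁, h3, h4⟩ := H66.exists_invariant_quad_char_two Q f fun u v => by
      rw [hQf, hQf]; exact hf.B u v
    obtain ⟨Q', h5, h6, h7⟩ : ∃ Q' : QuadraticForm F _, (∀ u v, polar Q' u v = polar Q u v) ∧
        Iso (qP Q') f ∧ (Hyp (qP Q') ⊤ ↔ Hyp (qP Q) ⊤) := by
      have h5 := sep_congr h3 hP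
      by_cases h6 : ∃ w, f w = w ∧ Q₁ w ≠ 0
      · obtain ⟨w, h6, h7⟩ := h6
        obtain ⟨Q', h8, h9⟩ := exists_change h5 h2 (quad_iso.mpr h4) h6 h7 (Hyp (qP Q) ⊤)
        exact ⟨Q', fun u v => (h8 u v).trans (h3 u v), h9⟩
      push Not at h6
      have h7 : (qP Q₁).TotSing (fixS f) := quad_totSing.mpr fun w hw => h6 w (mem_fixS.mp hw)
      have h8 : ∀ v, f ((f - 1) v) = (f - 1) v := fun v => by
        simpa [pow_two, sub_eq_zero] using pow_char_apply (p := 2) hc v trivial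
      have h9 : AT (qP Q₁) f := ⟨quad_iso.mpr h4, h8, fun u => by
        have := qP_add (Q := Q₁) u ((f - 1) u)
        rw [h6 _ (h8 u), show u + (f - 1) u = f u by simp, h4] at this
        linear_combination -this⟩
      have h10 := finrank_map_sub_one f
      have h11 := h7.two_mul_finrank_le h5
      have h12 := Submodule.finrank_mono (show (⊤ : Submodule F _).map (f - 1) ≤ fixS f by
        rintro _ ⟨v, -, rfl⟩; exact mem_fixS.mpr (h8 v))
      have h13 := Nat.even_iff.mp (h9.even (nondeg_top h5) Inv.top)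
      exact ⟨Q₁, h3, h9.iso, iff_of_true ⟨nondeg_top h5, _, le_top, h7, by rw [finrank_top]; omega⟩
        (h.resolve_right (by rw [Nat.odd_iff]; omega))⟩
    have h8 := sep_congr h5 hP
    obtain ⟨g, hg⟩ := H66.exists_equiv_of_isPlusType_iff (H12.nondeg_iff.mp hP)
      (H12.nondeg_iff.mp h8) hn hn (by rw [← hyp_top_iff hP, ← hyp_top_iff h8, h7])
    refine ⟨g, alt_iso rfl fun u v => ?_, quad_iso.mpr fun v => ?_⟩
    · rw [spPQ_B, spPQ_B, ← hQf, ← hQf, ← h5]
      exact H66.polar_comp_of_isometry g hg u v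
    · rw [← hg, ← hg v, ← quad_iso.mp h6 (g v)]; simp
  refine iff_of_false (fun h => not_dvd_relIndex_lin mem_spGL_iff hB (fun S h1 h3 => ?_) hΩ)
    (by simp [hr2])
  have hr0 : (r : F) ≠ 0 := cast_ne_zero_of_ne hr2
  have := finite_equiv F (Fin d ⊕ Fin d → F)
  have := Fintype.ofFinite S
  obtain ⟨Q₀, h4⟩ : ∃ Q₀ : QuadraticForm F _, ∀ v, Q₀ v = ∑ s : S, Q (s.1 v) :=
    ⟨∑ s : S, Q.comp s.1.toLinearMap, fun v => by simp⟩
  have h5 : ∀ u v, polar Q₀ u v = polar Q u v := fun u v => by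
    obtain ⟨k, hk⟩ := h3.exists_card_eq
    obtain ⟨l, hl⟩ := ((Fact.out : r.Prime).odd_of_ne_two hr2).pow (n := k)
    rw [polar, h4, h4, h4, ← Finset.sum_sub_distrib, ← Finset.sum_sub_distrib,
      Finset.sum_congr rfl (g := fun _ => polar Q u v) fun s _ => by
        rw [map_add, ← polar, hQf, hQf]; exact (h1 s s.2).B u v, Finset.sum_const, Finset.card_univ,
      ← Nat.card_eq_fintype_card, hk, hl, nsmul_eq_mul]
    push_cast
    rw [h2]; ring
  have h6 := sep_congr h5 hP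
  have h7 : ∀ s ∈ S, Iso (qP Q₀) s := fun s hs => quad_iso.mpr fun v => by
    rw [h4, h4]
    exact Fintype.sum_equiv (Equiv.mulRight ⟨s, hs⟩) _ _ fun _ => rfl
  obtain ⟨f, h8, h9, h10⟩ := exists_fixS_eq h6 hr0 S (fun s hs => (h7 s hs).mem) h3
  rcases eq_or_ne f 1 with rfl | h11
  · exact ⟨1, Iso.one, fun s hs => quad_iso.mpr fun v =>
      congrArg Q ((h10 v).mp (mem_fixS.mpr rfl) s hs)⟩
  obtain ⟨g, hg, h12⟩ := h f (hsp h5 h8) ⟨1, by rw [h9, one_smul]⟩ fun c hc => h11 (by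
    rw [hc, hone (hsp h5 h8) ((pow_one _).trans hc), one_smul])
  refine ⟨g, hg, fun s hs => (hcj g s hg).2.mpr (quad_iso.mpr fun v => ?_)⟩
  obtain ⟨h13, h14⟩ := hcj g f hg
  obtain ⟨u, -, hu⟩ := exists_add_eq_of_mov hr0 (inv_movS r f) le_rfl (s v - v) (by
    rw [← perp_fixS h6 hr0 h8 h9]
    intro x hx
    rw [map_sub, ← (h7 s hs).B x v, LinearEquiv.coe_coe, (h10 x).mp hx s hs, sub_self])
  have h15 := quad_iso.mp (h14.mp h12) u
  have h16 := quad_iso.mp h8 u
  have h17 := quad_iso.mp (h7 s hs) v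
  rw [← hu, qP_add, qP_B] at h15 h16
  rw [LinearEquiv.coe_coe, ← add_sub_cancel v (s v), qP_add, qP_B] at h17 ⊢
  rw [h13] at h15 ⊢
  rw [h5] at h16 h17
  linear_combination h15 - h16 + h17

end Cfsg.Agent.S5983
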