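import Cfsg.Statements.S5984
import Cfsg.Agent.Lib.Elusive.Herm

set_option autoImplicit false
open scoped MatrixGroups
open Cfsg

namespace Cfsg.Agent.S5984

open H99 H28 Module Polynomial

/-- Elements of prime order of PSU_n(q) and the stabilizers of pairs of complementary totally singular subspaces. Here `T = PSU_n(q)` is realised through `SU_n(q)`, the matrices of determinant 1 over the field `F` with `q²` elements preserving the hermitian form `Σ uᵢ vᵢ^q`, with `n ≥ 4` even; `D` is a pair of complementary subspaces of dimension `n/2` on each of which the form vanishes identically, and `H` is the subgroup of `SU_n(q)` fixing or interchanging the two members — a subgroup of type GL_{n/2}(q²).2 (maximality is not assumed). Ω is the set of cosets of `H`, so an element of `T` of prime order `r` (`x ∈ SU_n(q)` with `x^r` scalar, `x` not scalar) fixes a point of Ω exactly when some `SU_n(q)`-conjugate of `x` lies in `H`. Let `r` be a prime dividing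 the index of `H`. Then every element of `T` of order `r` fixes a point of Ω if and only if `r = 2`, `q` is odd and `(q + 1)_2 ≤ (n)_2` (2-parts). -/
theorem result {F : Type*} [Field F] [Fintype F] {p : ℕ} [Fact p.Prime] [CharP F p] {q : ℕ} (hq : Fintype.card F = q ^ 2)
    (n : ℕ) (hn : 4 ≤ n) (he : Even n) (D : Fin 2 → Submodule F (Fin n → F)) (hD : Cfsg.Geo.IsMDecomposition (n / 2) D)
    (hDs : ∀ i, Cfsg.Geo.IsTotallySingularFor (Cfsg.hermForm n F q) (D i))
    (r : ℕ) [Fact r.Prime]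
    (hΩ : r ∣ (Cfsg.Geo.decompositionStabilizer D).relIndex (Cfsg.GU n F q ⊓ Cfsg.Geo.specialLinear (Fin n) F)) :
    (∀ x ∈ Cfsg.GU n F q ⊓ Cfsg.Geo.specialLinear (Fin n) F, (∃ z : F, ((x ^ r : GL (Fin n) F) : Matrix (Fin n) (Fin n) F) = z • (1 : Matrix (Fin n) (Fin n) F)) →
      (∀ z : F, (x : Matrix (Fin n) (Fin n) F) ≠ z • (1 : Matrix (Fin n) (Fin n) F)) →
      ∃ g ∈ Cfsg.GU n F q ⊓ Cfsg.Geo.specialLinear (Fin n) F, g⁻¹ * x * g ∈ Cfsg.Geo.decompositionStabilizer D) ↔
    (r = 2 ∧ Odd q ∧ padicValNat 2 (q + 1) ≤ padicValNat 2 n) := by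
  obtain ⟨σ, P, H, hB⟩ := exists_hp n hq
  have hn' : finrank F (Fin n → F) = n := by simp
  have : Nontrivial (Fin n → F) := Module.nontrivial_of_finrank_pos (R := F) (by omega)
  let A : ((Fin n → F) →ₗ[F] (Fin n → F)) → Prop := fun f => Iso P f ∧ LinearMap.det f = 1
  let B : ((Fin n → F) →ₗ[F] (Fin n → F)) → Prop := fun f =>
    ((D 0).map f = D 0 ∧ (D 1).map f = D 1) ∨ ((D 0).map f = D 1 ∧ (D 1).map f = D 0)
  have hA : ∀ x : GL (Fin n) F, x ∈ GU n F q ⊓ Geo.specialLinear (Fin n) F ↔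
      A (Matrix.toLin' (x : Matrix (Fin n) (Fin n) F)) :=
    fun x => and_congr (mem_gu_iff H hB x) (mem_sl_iff x)
  have hS : ∀ x ∈ GU n F q ⊓ Geo.specialLinear (Fin n) F, x ∈ Geo.decompositionStabilizer D ↔
      B (Matrix.toLin' (x : Matrix (Fin n) (Fin n) F)) := fun x _ => by
    refine ⟨fun ⟨π, h⟩ => ?_, fun h => ?_⟩
    · have h1 : ∀ π : Equiv.Perm (Fin 2), (π 0 = 0 ∧ π 1 = 1) ∨ (π 0 = 1 ∧ π 1 = 0) := by decide
      rcases h1 π with h1 | h1 <;> simp [B, h, h1]
    · rcases h with h | h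
      · exact ⟨1, Fin.forall_fin_two.mpr h⟩
      · exact ⟨Equiv.swap 0 1, Fin.forall_fin_two.mpr h⟩
  have hD' : TSPair P (D 0, D 1) := tsPair_of_sup H.sep ((herm_totSing_iff H hB).mp (hDs 0))
    ((herm_totSing_iff H hB).mp (hDs 1)) (by
      rw [← hD.iSup_eq_top, ← iSup_univ, ← Finset.coe_univ, show (Finset.univ : Finset (Fin 2)) = {0, 1} by decide]
      simp [iSup_or, iSup_sup_eq])
  have hm : ∀ (g : (Fin n → F) ≃ₗ[F] (Fin n → F)) (f : (Fin n → F) →ₗ[F] (Fin n → F))
      (U W : Submodule F (Fin n → F)),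
      U.map (g.symm.conj f) = W ↔ (U.map g.toLinearMap).map f = W.map g.toLinearMap := fun g f U W => by
    rw [← (Submodule.map_injective_of_injective g.injective).eq_iff, ← Submodule.map_comp,
      ← Submodule.map_comp]
    congr! 2
    ext; simp
  have h0 : (r : F) ≠ 0 → ¬ NSD P r := fun h0 h1 => not_dvd_relIndex_lin hA hS (fun S h2 h3 => by
    obtain ⟨U, W, h4, h5, h6, h7⟩ := h1.exists_fixed_pair H.sep h0
      (H.dc.hyp (nondeg_top H.sep) (by rwa [finrank_top, hn'])) S (fun s hs => (h2 s hs).1.mem) h3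
    obtain ⟨g, h8, rfl, rfl⟩ := H.exists_pair hD' (tsPair_of_sup H.sep h4 h5 h6)
    exact ⟨g, h8, fun s hs => Or.inl (by simp only [hm]; exact h7 s hs)⟩) hΩ
  have h1 : ∃ f, Iso P f ∧ f ^ r = 1 ∧ f ≠ 1 := by
    obtain ⟨x, h1, h2, h3⟩ := exists_orderOf_of_dvd _ (hΩ.trans (Subgroup.relIndex_dvd_card _ _))
    exact ⟨_, ((hA x).mp h1).1, by rw [toLin'_gl, ← coe_equiv_pow, ← map_pow, h2, map_one]; rfl,
      coe_ne_one ((map_ne_one_iff _ glEquiv.injective).mpr h3)⟩
  rw [conj_el_iff hA hS fun _ h => h.1.injective H.sep, ← congrArg (padicValNat 2) hn',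
    ← H.pair_iff (r := r) (by omega) (by rwa [hn']) h0 h1]
  refine forall₄_congr fun f _ _ _ => ⟨fun ⟨g, h1, h2⟩ => ⟨_, _, hD'.smul h1.1.mem, ?_⟩,
    fun ⟨U, W, h1, h2⟩ => ?_⟩
  · simp only [B, hm] at h2; exact h2
  · obtain ⟨g, h3, rfl, rfl⟩ := H.exists_pair hD' h1
    exact ⟨g, h3, by simpa only [B, hm] using h2⟩

end Cfsg.Agent.S5984
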