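import Cfsg.Statements.S5988
import Cfsg.Agent.Lib.Elusive.QuadRow

set_option autoImplicit false
open scoped MatrixGroups
open Cfsg

namespace Cfsg.Agent.S5988

open H99 H28 Module Polynomial

set_option linter.unusedSimpArgs false

/-- Elements of prime order of PΩ⁺_n(q) with no fixed elliptic `m`-space. Here `T = PΩ⁺_n(F)`, `n = 2d ≥ 8`, realised through `Ω⁺_n(q)`, the commutator subgroup of the isometry group of `Q = Σ xᵢyᵢ` over the field `F` with `q` elements; an element of `T` of prime order `r` is an element `x` of `Ω⁺_n(q)` with `x^r` scalar and `x` not scalar; a nondegenerate `m`-space (even `m`) is a subspace on which the polar form of `Q` is nondegenerate; it is hyperbolic if it contains an `m/2`-dimensional subspace on which `Q` vanishes, elliptic otherwise. Let `m` be even with `2 ≤ m < n/2` and let `r` be a prime dividing the number of elliptic `m`-spaces; for `r ≠ p` let `i` be the multiplicative order of `q` modulo `r`, `c = i` for `i`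 even and `c = 2i` for `i` odd, and write `k = n mod c`, `ℓ = m mod i`, `ℓ' = m mod c`, `n' = ⌊n/i⌋`, `m' = ⌊m/i⌋`, `t = (r−1)/i`. Then every element of `T` of order `r` fixes some elliptic `m`-space if and only if one of: (i) `r = 2 ≠ p` and either `n ≡ 0 (mod 4)`, `q ≡ 3 (mod 4)` and `m ≡ 2 (mod 4)`, or `n ≡ 2 (mod 4)` and `q ≢ 1 (mod 8)`; (ii) `r ≠ p` odd, `i` odd, `c ≤ m` and `k > ℓ' > 0`; (iii) `r ≠ p` odd, `i` even, and either `k = 0` and (`n/i` odd, or `ℓ' = 0` and `m/i` odd), or `i ≤ m` and (`k > ℓ' > 0`, or `k = ℓ' > 0` and `(n + m − 2k)/i` odd, or `k > ℓ' = 0` and `m/i` odd). (For `r = p` there is always an element of order `p` fixing no elliptic `m`-space.) -/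
theorem result {F : Type*} [Field F] [Fintype F] {p : ℕ} [Fact p.Prime] [CharP F p] {q : ℕ} (hq : Fintype.card F = q)
    (d m : ℕ) (hd : 4 ≤ d) (hm : 2 ≤ m) (hme : Even m) (hmd : m < d)
    (r : ℕ) [Fact r.Prime]
    (hrΩ : r ∣ Nat.card {W : Submodule F (Fin d ⊕ Fin d → F) // Module.finrank F ↥W = m ∧ Cfsg.Geo.IsNondegenerateOn (QuadraticMap.polar (Cfsg.quadFormPlus d F)) W ∧ ¬ Cfsg.Geo.IsPlusTypeOn (Cfsg.quadFormPlus d F) W})
    (i c : ℕ) (hi : i = orderOf (q : ZMod r)) (hc : c = if Even i then i else 2 * i) :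
    (∀ x : GL (Fin d ⊕ Fin d) F, x ∈ Cfsg.Geo.omegaGL (Cfsg.quadFormPlus d F) →
      (∃ z : F, ((x ^ r : GL (Fin d ⊕ Fin d) F) : Matrix (Fin d ⊕ Fin d) (Fin d ⊕ Fin d) F) = z • (1 : Matrix (Fin d ⊕ Fin d) (Fin d ⊕ Fin d) F)) →
      (∀ z : F, (x : Matrix (Fin d ⊕ Fin d) (Fin d ⊕ Fin d) F) ≠ z • (1 : Matrix (Fin d ⊕ Fin d) (Fin d ⊕ Fin d) F)) →
      ∃ W : Submodule F (Fin d ⊕ Fin d → F), (Module.finrank F ↥W = m ∧ Cfsg.Geo.IsNondegenerateOn (QuadraticMap.polar (Cfsg.quadFormPlus d F)) W ∧ ¬ Cfsg.Geo.IsPlusTypeOn (Cfsg.quadFormPlus d F) W) ∧ W.map (Matrix.toLin' (x : Matrix (Fin d ⊕ Fin d) (Fin d ⊕ Fin d) F)) ≤ W) ↔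
    ((r = 2 ∧ p ≠ 2 ∧ ((Even d ∧ q % 4 = 3 ∧ m % 4 = 2) ∨ (Odd d ∧ q % 8 ≠ 1))) ∨
     (r ≠ p ∧ 2 < r ∧ Odd i ∧ c ≤ m ∧ 0 < m % c ∧ m % c < (2 * d) % c) ∨
     (r ≠ p ∧ 2 < r ∧ Even i ∧
       (((2 * d) % c = 0 ∧ (Odd ((2 * d) / i) ∨ (m % c = 0 ∧ Odd (m / i)))) ∨
        (i ≤ m ∧ ((0 < m % c ∧ m % c < (2 * d) % c) ∨
                  (0 < m % c ∧ m % c = (2 * d) % c ∧ Odd ((2 * d + m - 2 * ((2 * d) % c)) / i)) ∨
                  (m % c = 0 ∧ 0 < (2 * d) % c ∧ Odd (m / i))))))) := by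
  have hP : (qP (H12.QPlus F d)).B.SeparatingLeft := H12.nondeg_QPlus d
  have hn := H12.finrank_plus (F := F) d
  have hG := H12.good_of_finrank_ne hP (by omega)
  have hδ := hyp_plus (F := F) d
  have hr2 := (Fact.out : r.Prime).two_le
  obtain ⟨W, hW, hWm, hε, key⟩ := exists_ty hP hme (by omega) (by omega) False
  simp only [← H12.coe_QPlus, minus_class_iff, key, ← inv_iff_map_le] at hrΩ ⊢
  rw [el_mat_iff]
  rcases eq_or_ne r p with rfl | hrp
  · refine iff_of_false (fun h => ?_) (by simp; omega)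
    obtain ⟨T, -, h3, h4⟩ := ((hδ.mpr trivial).hasTS (k := d) (by rw [finrank_top, hn])).of_le
      (l := 2 * (d / 2)) (by omega) |>.exists_hyp hP (nondeg_top hP)
    obtain ⟨U, h6, M, h7, h8, h9, h10⟩ := h.exists_at r hP hG (fun _ h => h.nondeg hW) h3
      (by omega) (ne_bot_of_finrank (by omega))
    have h11 := (qP (H12.QPlus F d)).finrank_perp_add hP T
    have h12 := Submodule.finrank_mono h7
    rw [← h6.finrank_eq, hWm] at h9
    rw [Nat.even_iff] at hme
    refine hε.mp ((h10.mpr ?_).cj h6.symm)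
    by_cases h13 : finrank F M = 0
    · exact eq_bot_of_finrank h13 ▸ Hyp.bot
    · rw [Submodule.eq_of_le_of_finrank_eq h7 (by omega), ← h3.sup_iff hP le_rfl,
        h3.1.isCompl.sup_eq_top]
      exact hδ.mpr trivial
  rcases eq_or_ne r 2 with rfl | h5
  · have hp2 := hrp.symm
    · rw [nd_el_two p hP hp2 hq hW hδ hε hn hWm (by omega) (by simp [Nat.even_iff]; omega)]
      have := odd_card p hp2 hq
      simp only [lt_irrefl, false_and, and_false, or_false, true_and, and_true, not_false_iff, ne_eq,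
        hp2, not_true, true_iff, false_iff, false_or, Nat.even_iff, Nat.odd_iff] at *
      omega
  replace hr2 : 2 < r := by omega
  have g1 : 0 < m := by omega
  have g2 : m < 2 * d := by omega
  have g3 : 2 * m < 2 * d := by omega
  obtain ⟨hc0, hce, ⟨e, h3, h6, h7⟩, h4⟩ := nd_el_odd p hP hG hrp h5 hq hi hc hW hδ hε hn hWm
    g1 g2 (Or.inr (by simp)) hrΩ
  obtain ⟨f1, f2, f3, f4, f5, f6, f7, f8, f9, f10⟩ := div_facts hc0 hce (2 * d) m
  replace f8 := f8.mp g2
  replace f10 := f10.mp g1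
  have f9 := f9.mp g3
  rw [h4]
  clear h4 hrΩ key hi hq hn hWm
  rcases Nat.even_or_odd i with h9 | h9
  · obtain rfl : c = i := by simpa [h9] using hc
    simp only [h5, hrp, hr2, h9, f6, Nat.not_odd_iff_even.mpr h9, false_and, false_or, true_and, ne_eq,
      not_false_iff, false_iff, true_iff, and_false] at h3 h6 h7 ⊢
    simp only [Nat.even_iff, Nat.odd_iff] at *
    clear hc f6
    generalize (2 * d + m - 2 * ((2 * d) % c)) / c = X at *
    generalize (2 * d) / c = E, (2 * d) % c = k, m / c = M, m % c = l at *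
    rcases lt_trichotomy l k with h | rfl | h <;> rcases Nat.eq_zero_or_pos l with h' | h' <;>
      (try subst h') <;> simp_all <;> omega
  · simp only [h5, hrp, hr2, h9, f6, Nat.not_even_iff_odd.mpr h9, false_and, false_or, true_and, ne_eq,
      not_false_iff, or_false, and_false, true_or, and_true, not_true, iff_self, or_true, true_iff,
      false_iff, iff_true, iff_false, true_imp_iff] at h3 h6 h7 ⊢
    simp only [Nat.even_iff, Nat.odd_iff] at *
    clear hc f6 f7
    generalize (2 * d) / c = E, (2 * d) % c = k, m / c = M, m % c = l at *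
    rcases lt_trichotomy l k with h | rfl | h <;> rcases Nat.eq_zero_or_pos l with h' | h' <;>
      (try subst h') <;> simp_all <;> omega

end Cfsg.Agent.S5988
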