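import Cfsg.Statements.S5991
import Cfsg.Agent.Lib.Elusive.QuadRow

set_option autoImplicit false
open scoped MatrixGroups
open Cfsg

namespace Cfsg.Agent.S5991

open H99 H28 Module Polynomial

set_option linter.unusedSimpArgs false

/-- Elements of prime order of PΩ⁻_n(q), q odd, with no fixed nondegenerate `m`-space of odd dimension. Here `T = PΩ⁻_n(F)`, `n = 2d ≥ 8`, realised through `Ω⁻_n(q)`, the commutator subgroup of the isometry group of `Q = Σ_{i<d−1} xᵢyᵢ + z₁² + a z₁z₂ + b z₂²` with `z₁² + a z₁z₂ + b z₂²` anisotropic, over the field `F` with `q` elements; an element of `T` of prime order `r` is an element `x` of `Ω⁻_n(q)` with `x^r` scalar and `x` not scalar; `q` and `m` are odd, `1 ≤ m < n/2`. The nondegenerate `m`-spaces fall into two isometry classes, each an orbit of `T`, with equivalent actions; fix one such space `W₀` and let Ω be the set of nondegenerate `m`-spaces isometric to `W₀`. Let `r` be a prime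 dividing the size of Ω; for `r ≠ p` let `i` be the multiplicative order of `q` modulo `r`, `c = i` for `i` even and `c = 2i` for `i` odd, and write `k = n mod c`, `ℓ = m mod i`, `ℓ' = m mod c`, `n' = ⌊n/i⌋`, `m' = ⌊m/i⌋`, `t = (r−1)/i`. Then every element of `T` of order `r` fixes a member of Ω if and only if one of: (i) `r = 2` and (`n ≡ 0 (mod 4)` or `q ≢ 7 (mod 8)`); (ii) `r ≠ p` odd, `i` odd, and `k = 0` or (`c ≤ m` and `k > ℓ' > 0`); (iii) `r ≠ p` odd, `i` even, and either `k = 0` and `n/i` even, or `k > 0`, `i ≤ m` and `k > ℓ' > 0`. (For `r = p` there is always an element of order `p` fixing no member of Ω.) -/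
theorem result {F : Type*} [Field F] [Fintype F] {p : ℕ} [Fact p.Prime] [CharP F p] {q : ℕ} (hq : Fintype.card F = q)
    (hodd : Odd q) (d m : ℕ) (hd : 4 ≤ d) (hm : Odd m) (hmd : m < d) (a b : F) (hab : ∀ x y : F, x ^ 2 + a * x * y + b * y ^ 2 = 0 → x = 0 ∧ y = 0)
    (W₀ : Submodule F ((Fin (d - 1) ⊕ Fin (d - 1)) ⊕ Fin 2 → F)) (hW₀ : Module.finrank F ↥W₀ = m ∧ Cfsg.Geo.IsNondegenerateOn (QuadraticMap.polar (Cfsg.quadFormMinus (d - 1) F a b)) W₀)
    (r : ℕ) [Fact r.Prime]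
    (hrΩ : r ∣ Nat.card {W : Submodule F ((Fin (d - 1) ⊕ Fin (d - 1)) ⊕ Fin 2 → F) // Module.finrank F ↥W = m ∧ Cfsg.Geo.IsNondegenerateOn (QuadraticMap.polar (Cfsg.quadFormMinus (d - 1) F a b)) W ∧ Cfsg.Geo.AreIsometricFor (Cfsg.quadFormMinus (d - 1) F a b) W W₀})
    (i c : ℕ) (hi : i = orderOf (q : ZMod r)) (hc : c = if Even i then i else 2 * i) :
    (∀ x : GL ((Fin (d - 1) ⊕ Fin (d - 1)) ⊕ Fin 2) F, x ∈ Cfsg.Geo.omegaGL (Cfsg.quadFormMinus (d - 1) F a b) →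
      (∃ z : F, ((x ^ r : GL ((Fin (d - 1) ⊕ Fin (d - 1)) ⊕ Fin 2) F) : Matrix ((Fin (d - 1) ⊕ Fin (d - 1)) ⊕ Fin 2) ((Fin (d - 1) ⊕ Fin (d - 1)) ⊕ Fin 2) F) = z • (1 : Matrix ((Fin (d - 1) ⊕ Fin (d - 1)) ⊕ Fin 2) ((Fin (d - 1) ⊕ Fin (d - 1)) ⊕ Fin 2) F)) →
      (∀ z : F, (x : Matrix ((Fin (d - 1) ⊕ Fin (d - 1)) ⊕ Fin 2) ((Fin (d - 1) ⊕ Fin (d - 1)) ⊕ Fin 2) F) ≠ z • (1 : Matrix ((Fin (d - 1) ⊕ Fin (d - 1)) ⊕ Fin 2) ((Fin (d - 1) ⊕ Fin (d - 1)) ⊕ Fin 2) F)) →
      ∃ W : Submodule F ((Fin (d - 1) ⊕ Fin (d - 1)) ⊕ Fin 2 → F), (Module.finrank F ↥W = m ∧ Cfsg.Geo.IsNondegenerateOn (QuadraticMap.polar (Cfsg.quadFormMinus (d - 1) F a b)) W ∧ Cfsg.Geo.AreIsometricFor (Cfsg.quadFormMinus (d - 1) F a b) W W₀) ∧ W.map (Matrix.toLin' (x : Matrix ((Fin (d - 1) ⊕ Fin (d - 1)) ⊕ Fin 2) ((Fin (d - 1) ⊕ Fin (d - 1)) ⊕ Fin 2) F)) ≤ W) ↔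
    ((r = 2 ∧ (Even d ∨ q % 8 ≠ 7)) ∨
     (r ≠ p ∧ 2 < r ∧ Odd i ∧ ((2 * d) % c = 0 ∨ (c ≤ m ∧ 0 < m % c ∧ m % c < (2 * d) % c))) ∨
     (r ≠ p ∧ 2 < r ∧ Even i ∧ (((2 * d) % c = 0 ∧ Even ((2 * d) / i)) ∨ (0 < (2 * d) % c ∧ i ≤ m ∧ 0 < m % c ∧ m % c < (2 * d) % c)))) := by
  have hP : (qP (H12.QMinus (d - 1) a b)).B.SeparatingLeft := H12.nondeg_QMinus hab _
  have hn : finrank F ((Fin (d - 1) ⊕ Fin (d - 1)) ⊕ Fin 2 → F) = 2 * d := by
    rw [H12.finrank_minus]; omega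
  have hG := H12.good_of_finrank_ne hP (by omega)
  have hδ := hyp_minus (d - 1) hab
  have hr2 := (Fact.out : r.Prime).two_le
  have hp2 := ne_two_of_odd_card p hq hodd
  simp only [← H12.coe_QMinus] at hW₀
  have key := fun W => isom_class_iff (W := W) _ hP hW₀
  simp only [← H12.coe_QMinus, key, ← inv_iff_map_le] at hrΩ ⊢
  rw [el_mat_iff]
  obtain ⟨hWm, hW⟩ := hW₀
  rw [quad_nd_iff₂] at hW
  have hε : Hyp (qP (H12.QMinus (d - 1) a b)) W₀ ↔ False := iff_false_intro fun h =>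
    Nat.not_even_iff_odd.mpr hm (hWm ▸ h.even)
  rcases eq_or_ne r p with rfl | hrp
  · exact iff_of_false (not_el_odd r hP hp2 hW (by rw [hn]; simp) (by omega) (hWm ▸ hm))
      (by simp [hp2])
  rw [Nat.odd_iff] at hm
  rcases eq_or_ne r 2 with rfl | h5
  · · rw [nd_el_two p hP hp2 hq hW hδ hε hn hWm (by omega) (by simp [Nat.even_iff]; omega)]
      have := odd_card p hp2 hq
      simp only [lt_irrefl, false_and, and_false, or_false, true_and, and_true, not_false_iff, ne_eq,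
        hp2, not_true, true_iff, false_iff, false_or, Nat.even_iff, Nat.odd_iff] at *
      omega
  replace hr2 : 2 < r := by omega
  have g1 : 0 < m := by omega
  have g2 : m < 2 * d := by omega
  have g3 : 2 * m < 2 * d := by omega
  obtain ⟨hc0, hce, ⟨e, h3, h6, h7⟩, h4⟩ := nd_el_odd p hP hG hrp h5 hq hi hc hW hδ hε hn hWm
    g1 g2 (Or.inr (by simp)) hrΩ
  obtain ⟨f1, f2, f3, f4, f5, f6, f7, f8, f9, f10⟩ := div_facts hc0 hce (2 * d) m
  replace f8 := f8.mp g2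
  replace f10 := f10.mp g1
  have f9 := f9.mp g3
  rw [h4]
  clear h4 hrΩ key hi hq hn hWm hab hP hG hδ hε hW
  rcases Nat.even_or_odd i with h9 | h9
  · obtain rfl : c = i := by simpa [h9] using hc
    simp only [h5, hrp, hr2, h9, f6, Nat.not_odd_iff_even.mpr h9, false_and, false_or, true_and, ne_eq,
      not_false_iff, false_iff, true_iff, and_false] at h3 h6 h7 ⊢
    simp only [Nat.even_iff, Nat.odd_iff] at *
    clear hc f6
    generalize (2 * d + m - 2 * ((2 * d) % c)) / c = X at *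
    generalize (2 * d) / c = E, (2 * d) % c = k, m / c = M, m % c = l at *
    rcases lt_trichotomy l k with h | rfl | h <;> rcases Nat.eq_zero_or_pos l with h' | h' <;>
      (try subst h') <;> simp_all <;> omega
  · simp only [h5, hrp, hr2, h9, f6, Nat.not_even_iff_odd.mpr h9, false_and, false_or, true_and, ne_eq,
      not_false_iff, or_false, and_false, true_or, and_true, not_true, iff_self, or_true, true_iff,
      false_iff, iff_true, iff_false, true_imp_iff] at h3 h6 h7 ⊢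
    simp only [Nat.even_iff, Nat.odd_iff] at *
    clear hc f6 f7
    generalize (2 * d) / c = E, (2 * d) % c = k, m / c = M, m % c = l at *
    rcases lt_trichotomy l k with h | rfl | h <;> rcases Nat.eq_zero_or_pos l with h' | h' <;>
      (try subst h') <;> simp_all <;> omega

end Cfsg.Agent.S5991
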