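import Cfsg.Statements.S5994
import Cfsg.Agent.Lib.Elusive.QuadRow

set_option autoImplicit false
open scoped MatrixGroups
open Cfsg

namespace Cfsg.Agent.S5994

open H99 H28 Module Polynomial

/-- A necessary condition for every element of order p of PΩ⁻_n(q), q odd, to fix an elliptic `m`-space. Here `T = PΩ⁻_n(F)`, `n = 2d ≥ 8`, realised through `Ω⁻_n(q)`, the commutator subgroup of the isometry group of `Q = Σ_{i<d−1} xᵢyᵢ + z₁² + a z₁z₂ + b z₂²` with `z₁² + a z₁z₂ + b z₂²` anisotropic, over the field `F` with `q` elements; an element of `T` of prime order `r` is an element `x` of `Ω⁻_n(q)` with `x^r` scalar and `x` not scalar; `q` is odd; a nondegenerate `m`-space (even `m`) is a subspace on which the polar form of `Q` is nondegenerate; it is hyperbolic if it contains an `m/2`-dimensional subspace on which `Q` vanishes, elliptic otherwise. Let `m` be even with `2 ≤ m ≤ n − 2` and suppose `p` divides the number of elliptic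 `m`-spaces. If every element of `T` of order `p` fixes some elliptic `m`-space, then `n ≡ m (mod 4)` and every partition of `n` into parts of size at most `p` in which every even part has even multiplicity contains (as a sub-multiset) a partition of `m` in which every even part has even multiplicity. -/
theorem result {F : Type*} [Field F] [Fintype F] {p : ℕ} [Fact p.Prime] [CharP F p] {q : ℕ} (hq : Fintype.card F = q) (hqodd : Odd q)
    (d m : ℕ) (hd : 4 ≤ d) (hm : 2 ≤ m) (hme : Even m) (hmn : m + 2 ≤ 2 * d) (a b : F) (hab : ∀ x y : F, x ^ 2 + a * x * y + b * y ^ 2 = 0 → x = 0 ∧ y = 0)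
    (hpΩ : p ∣ Nat.card {W : Submodule F ((Fin (d - 1) ⊕ Fin (d - 1)) ⊕ Fin 2 → F) // Module.finrank F ↥W = m ∧ Cfsg.Geo.IsNondegenerateOn (QuadraticMap.polar (Cfsg.quadFormMinus (d - 1) F a b)) W ∧ ¬ Cfsg.Geo.IsPlusTypeOn (Cfsg.quadFormMinus (d - 1) F a b) W}) :
    (∀ x : GL ((Fin (d - 1) ⊕ Fin (d - 1)) ⊕ Fin 2) F, x ∈ Cfsg.Geo.omegaGL (Cfsg.quadFormMinus (d - 1) F a b) →
      (∃ z : F, ((x ^ p : GL ((Fin (d - 1) ⊕ Fin (d - 1)) ⊕ Fin 2) F) : Matrix ((Fin (d - 1) ⊕ Fin (d - 1)) ⊕ Fin 2) ((Fin (d - 1) ⊕ Fin (d - 1)) ⊕ Fin 2) F) = z • (1 : Matrix ((Fin (d - 1) ⊕ Fin (d - 1)) ⊕ Fin 2) ((Fin (d - 1) ⊕ Fin (d - 1)) ⊕ Fin 2) F)) →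
      (∀ z : F, (x : Matrix ((Fin (d - 1) ⊕ Fin (d - 1)) ⊕ Fin 2) ((Fin (d - 1) ⊕ Fin (d - 1)) ⊕ Fin 2) F) ≠ z • (1 : Matrix ((Fin (d - 1) ⊕ Fin (d - 1)) ⊕ Fin 2) ((Fin (d - 1) ⊕ Fin (d - 1)) ⊕ Fin 2) F)) →
      ∃ W : Submodule F ((Fin (d - 1) ⊕ Fin (d - 1)) ⊕ Fin 2 → F), (Module.finrank F ↥W = m ∧ Cfsg.Geo.IsNondegenerateOn (QuadraticMap.polar (Cfsg.quadFormMinus (d - 1) F a b)) W ∧ ¬ Cfsg.Geo.IsPlusTypeOn (Cfsg.quadFormMinus (d - 1) F a b) W) ∧ W.map (Matrix.toLin' (x : Matrix ((Fin (d - 1) ⊕ Fin (d - 1)) ⊕ Fin 2) ((Fin (d - 1) ⊕ Fin (d - 1)) ⊕ Fin 2) F)) ≤ W) →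
    ((2 * d) % 4 = m % 4 ∧ (∀ μ : Multiset ℕ, (∀ e ∈ μ, 0 < e ∧ e ≤ p) → (∀ e : ℕ, Even e → Even (μ.count e)) → μ.sum = 2 * d →
        ∃ ν : Multiset ℕ, ν ≤ μ ∧ ν.sum = m ∧ ∀ e : ℕ, Even e → Even (ν.count e))) := by
  have hp2 := ne_two_of_odd_card p hq hqodd
  have hP : (qP (H12.QMinus (d - 1) a b)).B.SeparatingLeft := H12.nondeg_QMinus hab _
  have hn : finrank F ((Fin (d - 1) ⊕ Fin (d - 1)) ⊕ Fin 2 → F) = 2 * d := by
    rw [H12.finrank_minus]; omega
  have hG := H12.good_of_finrank_ne hP (by omega)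
  have hδ := hyp_minus (d - 1) hab
  simp only [← H12.coe_QMinus, minus_class_iff, ← inv_iff_map_le]
  rw [el_mat_iff]
  have hme' := Nat.even_iff.mp hme
  refine fun h => ⟨?_, fun μ h0 ha hs => ?_⟩
  · rcases Nat.mod_two_eq_zero_or_one d with h3 | h3
    · obtain ⟨U, h4, x, _, y, -, z, _, h5, -⟩ := h.exists_sml p hP hp2 (fun _ h => h.2.1) 1
        (d / 2 - 1) 1 (by omega) (by omega) (by omega)
      have := h4.1
      obtain rfl | rfl : z = 0 ∨ z = 1 := by omega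
      all_goals omega
    · obtain ⟨U, h4, x, _, y, -, z, _, h5, h6⟩ := h.exists_sml p hP hp2 (fun _ h => h.2.1) 2
        (d / 2) 0 (by omega) (by omega) (by omega)
      have := h4.1
      have := mt (fun h => h4.2.2.mp (h6 h (by omega))) id
      omega
  have key := fun (μ : Multiset ℕ) h0 ha hs hh => h.exists_le p (μ := μ) (m := m) hP hp2
    (fun _ h => ⟨h.2.1, h.1⟩) (by omega) h0 ha (Eq.trans hs hn.symm) fun h => absurd h hh
  by_cases h1 : ∀ a ∈ μ, Even a
  swap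
  · exact key μ h0 ha hs h1
  obtain ⟨x, hx⟩ := Multiset.exists_mem_of_ne_zero (s := μ) (by rintro rfl; simp at hs; omega)
  obtain ⟨μ₁, rfl⟩ := Multiset.exists_cons_of_mem hx
  obtain ⟨μ₂, rfl⟩ := Multiset.exists_cons_of_mem (s := μ₁) (a := x) (by
    have := ha x (h1 x hx)
    rw [Multiset.count_cons_self, Nat.even_iff] at this
    exact Multiset.count_pos.mp (by omega))
  have h2 := h0 x hx
  have h3 := Nat.even_iff.mp (h1 x hx)
  have h4 := Nat.odd_iff.mp ((Fact.out : p.Prime).odd_of_ne_two hp2)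
  have h5 : ∀ y ∈ μ₂, Even y := fun y hy => h1 y (by simp [hy])
  have h6 : ∀ y, Even y → y ≠ x + 1 ∧ y ≠ x - 1 := fun y hy => by rw [Nat.even_iff] at hy; omega
  obtain ⟨ν, h7, h8, h9⟩ := key ((x + 1) ::ₘ (x - 1) ::ₘ μ₂) (fun y hy => by
      simp only [Multiset.mem_cons] at hy
      rcases hy with rfl | rfl | hy
      exacts [by omega, by omega, h0 y (by simp [hy])])
    (fun y hy => by
      have := ha y hy
      simp only [Multiset.count_cons, (h6 y hy).1, (h6 y hy).2, if_false, Nat.even_iff] at this ⊢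
      split_ifs at this <;> omega) (by simp only [Multiset.sum_cons] at hs ⊢; omega)
    fun h => (h6 _ (h _ (Multiset.mem_cons_self _ _))).1 rfl
  have h10 : ∀ ν ≤ μ₂, ν.sum % 2 = 0 := fun ν h => Nat.mod_eq_zero_of_dvd
    (Multiset.dvd_sum fun y hy => (h5 y (Multiset.mem_of_le h hy)).two_dvd)
  by_cases h11 : x + 1 ∈ ν
  · obtain ⟨ν₁, rfl⟩ := Multiset.exists_cons_of_mem h11
    rw [Multiset.cons_le_cons_iff] at h7
    rw [Multiset.sum_cons] at h8
    by_cases h12 : x - 1 ∈ ν₁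
    · obtain ⟨ν₂, rfl⟩ := Multiset.exists_cons_of_mem h12
      rw [Multiset.cons_le_cons_iff] at h7
      refine ⟨x ::ₘ x ::ₘ ν₂, by simpa using h7, by simp only [Multiset.sum_cons] at h8 ⊢; omega,
        fun y hy => ?_⟩
      have := h9 y hy
      simp only [Multiset.count_cons, (h6 y hy).1, (h6 y hy).2, if_false, Nat.even_iff] at this ⊢
      split_ifs <;> omega
    · have := h10 _ ((Multiset.le_cons_of_notMem h12).mp h7)
      omega
  rw [Multiset.le_cons_of_notMem h11] at h7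
  by_cases h12 : x - 1 ∈ ν
  · obtain ⟨ν₁, rfl⟩ := Multiset.exists_cons_of_mem h12
    rw [Multiset.cons_le_cons_iff] at h7
    have := h10 _ h7
    rw [Multiset.sum_cons] at h8
    omega
  · rw [Multiset.le_cons_of_notMem h12] at h7
    exact ⟨ν, h7.trans ((Multiset.le_cons_self _ _).trans (Multiset.le_cons_self _ _)), h8, h9⟩

end Cfsg.Agent.S5994
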