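import Cfsg.Statements.S5995
import Cfsg.Agent.Lib.Elusive.QuadRow

set_option autoImplicit false
open scoped MatrixGroups
open Cfsg

namespace Cfsg.Agent.S5995

open H99 H28 Module Polynomial

/-- A necessary condition for every element of order p of Ω_n(q), nq odd, to fix a hyperbolic `m`-space. Here `T = Ω_n(F)`, `n = 2d+1 ≥ 7`, `q` odd, realised as the commutator subgroup of the isometry group of `Q = x₀² + Σ xᵢyᵢ` over the field `F` with `q` elements (trivial centre, so its elements of prime order `r` are used directly); a nondegenerate `m`-space (even `m`) is a subspace on which the polar form of `Q` is nondegenerate; it is hyperbolic if it contains an `m/2`-dimensional subspace on which `Q` vanishes, elliptic otherwise. Let `m` be even with `2 ≤ m ≤ n − 1` and suppose `p` divides the number of hyperbolic `m`-spaces. If every element of `T` of order `p` fixes some hyperbolic `m`-space, then `m ≡ 0 (mod 4)` and every partition of `n` into parts of size at most `p` in which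 every even part has even multiplicity contains (as a sub-multiset) a partition of `m` in which every even part has even multiplicity. -/
theorem result {F : Type*} [Field F] [Fintype F] {p : ℕ} [Fact p.Prime] [CharP F p] {q : ℕ} (hq : Fintype.card F = q) (hqodd : Odd q)
    (d m : ℕ) (hd : 3 ≤ d) (hm : 2 ≤ m) (hme : Even m) (hmn : m ≤ 2 * d)
    (hpΩ : p ∣ Nat.card {W : Submodule F (Unit ⊕ (Fin d ⊕ Fin d) → F) // Module.finrank F ↥W = m ∧ Cfsg.Geo.IsNondegenerateOn (QuadraticMap.polar (Cfsg.quadFormOdd d F)) W ∧ Cfsg.Geo.IsPlusTypeOn (Cfsg.quadFormOdd d F) W}) :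
    (∀ x : GL (Unit ⊕ (Fin d ⊕ Fin d)) F, x ∈ Cfsg.Geo.omegaGL (Cfsg.quadFormOdd d F) → orderOf x = p →
      ∃ W : Submodule F (Unit ⊕ (Fin d ⊕ Fin d) → F), (Module.finrank F ↥W = m ∧ Cfsg.Geo.IsNondegenerateOn (QuadraticMap.polar (Cfsg.quadFormOdd d F)) W ∧ Cfsg.Geo.IsPlusTypeOn (Cfsg.quadFormOdd d F) W) ∧ W.map (Matrix.toLin' (x : Matrix (Unit ⊕ (Fin d ⊕ Fin d)) (Unit ⊕ (Fin d ⊕ Fin d)) F)) ≤ W) →
    (m % 4 = 0 ∧ (∀ μ : Multiset ℕ, (∀ e ∈ μ, 0 < e ∧ e ≤ p) → (∀ e : ℕ, Even e → Even (μ.count e)) → μ.sum = 2 * d + 1 →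
        ∃ ν : Multiset ℕ, ν ≤ μ ∧ ν.sum = m ∧ ∀ e : ℕ, Even e → Even (ν.count e))) := by
  have hp2 := ne_two_of_odd_card p hq hqodd
  have h2 := two_ne_zero_of_ne (F := F) p hp2
  have hP : (qP (H12.QOdd F d)).B.SeparatingLeft := H12.nondeg_QOdd h2 d
  have hn := H12.finrank_odd (F := F) d
  have hG := H12.good_of_two_ne_zero hP h2
  have hδ := hyp_odd (F := F) d
  simp only [← H12.coe_QOdd, plus_class_iff, ← inv_iff_map_le]
  rw [el_mat_iff' _ hP h2 (by rw [hn]; simp)]
  refine fun h => ⟨?_, fun μ h0 ha hs => h.exists_le p hP hp2 (fun _ h => ⟨h.2.1, h.1⟩) (by omega)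
    h0 ha (hs.trans hn.symm) fun h1 => absurd (hs ▸ Multiset.dvd_sum fun a h => (h1 a h).two_dvd)
      (by omega)⟩
  rw [Nat.even_iff] at hme
  rcases Nat.mod_two_eq_zero_or_one d with h3 | h3
  · obtain ⟨T, -, h4, h5⟩ := quad_exists_hyp hP (nondeg_top hP) (k := d) (by rw [finrank_top]; omega)
    obtain ⟨U, h6, M, h7, -, h8, -⟩ := h.exists_at p hP hG (fun _ h => h.2.1) h4 (by omega)
      (ne_bot_of_finrank (by omega))
    have h11 := (qP (H12.QOdd F d)).finrank_perp_add hP T
    have h12 := Submodule.finrank_mono h7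
    have := h6.1
    omega
  · obtain ⟨U, h4, a, _, b, -, c, _, h5, -⟩ := h.exists_sml p hP hp2 (fun _ h => h.2.1) 0 (d / 2) 1
      (by omega) (by omega) (by omega)
    have := h4.1
    omega

end Cfsg.Agent.S5995
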