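import Cfsg.Statements.S5997
import Cfsg.Agent.Lib.Misc82.Q8Norm

set_option autoImplicit false
open scoped MatrixGroups
open Cfsg

namespace Cfsg.Agent.S5997


/-- Elements of prime order of PSL_2(p) and the normalizer of a quaternion subgroup. Here `T = PSL_2(F)` for the field `F` with `p` elements, `p ≥ 5` prime; `R` is a subgroup of GL_2(F) isomorphic to the quaternion group of order 8 (an absolutely irreducible 2-group of symplectic type), and `H` is the subgroup of matrices of determinant 1 normalizing `R` — a subgroup of type 2^{1+2}.O₂⁻(2), isomorphic modulo scalars to A₄ or S₄ (maximality is not assumed). Ω is the set of cosets of `H` in `T`, so an element of `T` of prime order `r` (a matrix `x` of determinant 1 with `x^r` scalar, `x` not scalar) fixes a point of Ω exactly when some conjugate of `x` by a matrix of determinant 1 normalizes `R`. Let `r` be a prime dividing the index of `H`. Then every element of `T` of order `r` fixes a point of Ω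 if and only if `r = 2` or `r = 3`. -/
theorem result {F : Type*} [Field F] [Fintype F] {p : ℕ} [Fact p.Prime] [CharP F p] (hF : Fintype.card F = p) (hp : 5 ≤ p)
    (R : Subgroup (GL (Fin 2) F)) (hR : Nonempty (↥R ≃* QuaternionGroup 2))
    (r : ℕ) [Fact r.Prime]
    (hΩ : r ∣ (Cfsg.Geo.subgroupNormalizer R).relIndex (Cfsg.Geo.specialLinear (Fin 2) F)) :
    (∀ x ∈ Cfsg.Geo.specialLinear (Fin 2) F, (∃ z : F, ((x ^ r : GL (Fin 2) F) : Matrix (Fin 2) (Fin 2) F) = z • (1 : Matrix (Fin 2) (Fin 2) F)) →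
      (∀ z : F, (x : Matrix (Fin 2) (Fin 2) F) ≠ z • (1 : Matrix (Fin 2) (Fin 2) F)) →
      ∃ g ∈ Cfsg.Geo.specialLinear (Fin 2) F, g⁻¹ * x * g ∈ Cfsg.Geo.subgroupNormalizer R) ↔ (r = 2 ∨ r = 3) := by
  obtain ⟨e⟩ := hR
  have h2 : (2 : F) ≠ 0 := H64.SL2.two_ne_zero_of_char p (by omega)
  have h3 : (3 : F) ≠ 0 := fun h => by
    have := Nat.le_of_dvd (by omega) ((CharP.cast_eq_zero_iff F p 3).1 h)
    omega
  obtain ⟨a, b, ha, hb, hab, ha', hb', hR⟩ := H82.exists_q8_gens h2 e
  have h4 : ∀ x : Matrix.SpecialLinearGroup (Fin 2) F, x ∈ Subgroup.center _ ↔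
      ∃ z : F, x.1 = z • (1 : Matrix (Fin 2) (Fin 2) F) := fun x => by
    rw [Matrix.SpecialLinearGroup.mem_center_iff]
    refine ⟨fun ⟨z, _, h⟩ => ⟨z, by rw [← h, Matrix.scalar_apply, Matrix.smul_one_eq_diagonal]⟩,
      fun ⟨z, h⟩ => ⟨z, by simpa [h] using x.2, by
        rw [h, Matrix.scalar_apply, Matrix.smul_one_eq_diagonal]⟩⟩
  have h0 : ∀ x : Matrix.SpecialLinearGroup (Fin 2) F, H64.SL2.tr x = 0 → H64.SL2.tr x ^ 2 ≠ 4 :=
    fun x hx => by
      rw [hx, zero_pow two_ne_zero, show (4 : F) = 2 * 2 by norm_num]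
      exact (mul_ne_zero h2 h2).symm
  have hr : r.Prime := Fact.out
  have hneg : Matrix.SpecialLinearGroup.toGL (-1 : Matrix.SpecialLinearGroup (Fin 2) F) = -1 :=
    Units.ext rfl
  constructor
  · intro h
    by_contra h5
    push Not at h5
    obtain ⟨⟨x, hx⟩, h6⟩ := exists_prime_orderOf_dvd_card' r (hΩ.trans (Subgroup.index_dvd_card _))
    rw [Subgroup.orderOf_mk] at h6
    obtain ⟨x, rfl⟩ := H82.range_toGL.ge hx
    have h7 : ∀ x : Matrix.SpecialLinearGroup (Fin 2) F,
        orderOf (Matrix.SpecialLinearGroup.toGL x) = r → x ∉ Subgroup.center _ := fun x h6 hc => by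
      refine h5.1 ((Nat.prime_dvd_prime_iff_eq hr Nat.prime_two).1 (h6 ▸ orderOf_dvd_of_pow_eq_one ?_))
      rw [← map_pow]
      rcases H64.SL2.mem_center_iff'.1 hc with rfl | rfl <;> simp
    obtain ⟨g, hg, h8⟩ := h _ hx ⟨1, by rw [← h6, pow_orderOf_eq_one]; simp⟩
      fun z hz => h7 x h6 ((h4 x).2 ⟨z, hz⟩)
    obtain ⟨g, rfl⟩ := H82.range_toGL.ge hg
    have h9 : orderOf (Matrix.SpecialLinearGroup.toGL (g⁻¹ * x * g)) = r := by
      rw [map_mul, map_mul, map_inv, ← h6]
      exact (MulAut.conj (Matrix.SpecialLinearGroup.toGL g)⁻¹).orderOf_eq _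
    rw [← map_inv, ← map_mul, ← map_mul] at h8
    have h10 := H82.comm_of_normalizes_q8 (R := R) (z := -1)
      (by rw [Nat.card_congr e.toEquiv, Nat.card_eq_fintype_card, QuaternionGroup.card])
      (by
        have := mul_mem ha' ha'
        rwa [← map_mul, H64.SL2.mul_self_eq_neg_one_of_tr ha, hneg] at this)
      (H82.gl2_ne_neg h2 1).symm H82.GL2_neg_one_central h5.1 h5.2 h8 (h9 ▸ pow_orderOf_eq_one _)
    have h11 := H64.SL2.commute_of_mem_centralizer (h := a) (k := b) (h7 _ h9)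
      (Subgroup.mem_centralizer_singleton_iff.2 (Matrix.SpecialLinearGroup.toGL_injective
        (by rw [map_mul, map_mul _ _ a]; exact h10 _ ha')))
      (Subgroup.mem_centralizer_singleton_iff.2 (Matrix.SpecialLinearGroup.toGL_injective
        (by rw [map_mul, map_mul _ _ b]; exact h10 _ hb')))
    rw [h11, ← neg_one_mul (b * a), right_eq_mul] at hab
    exact H64.SL2.neg_one_ne_one h2 hab
  rintro h x hx ⟨z, hz⟩ h5
  obtain ⟨x, rfl⟩ := H82.range_toGL.ge hx
  have h6 := (h4 (x ^ r)).2 ⟨z, by rw [← hz, ← map_pow]; rfl⟩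
  have h7 : x ∉ Subgroup.center _ := fun h => ((h4 x).1 h).elim h5
  suffices ∃ y, Matrix.SpecialLinearGroup.toGL y ∈ Subgroup.normalizer (R : Set (GL (Fin 2) F)) ∧
      H64.SL2.tr y ^ 2 ≠ 4 ∧ H64.SL2.tr y = H64.SL2.tr x by
    obtain ⟨y, h8, h9, h10⟩ := this
    obtain ⟨g, rfl⟩ := isConj_iff.1 (H64.SL2.isConj_of_tr_eq h9 h10)
    exact ⟨_, H82.range_toGL.le ⟨g, rfl⟩, by
      simpa [mul_assoc, Cfsg.Geo.subgroupNormalizer] using h8⟩
  rcases h with rfl | rfl
  · exact ⟨a, Subgroup.le_normalizer ha', h0 a ha,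
      ha.trans ((H64.SL2.mem_center_or_tr_eq_zero_of_sq (pow_two x ▸ h6)).resolve_left h7).symm⟩
  obtain ⟨y, e1, e2, e3⟩ := H64.SL2.exists_order_three_perm h2 ha hb (by
    have := H64.SL2.tr_mul_comm a b
    rw [hab, H64.SL2.tr_neg] at this
    rw [H64.SL2.tr_mul_comm]
    exact (mul_eq_zero.1 (by linear_combination -this)).resolve_left h2)
  have h8 : Matrix.SpecialLinearGroup.toGL y ∈ Subgroup.normalizer (R : Set (GL (Fin 2) F)) :=
    Subgroup.mem_normalizer_fintype fun n hn => by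
      obtain ⟨i, rfl | rfl⟩ := hR n hn
      · rw [← conj_pow, ← map_inv, ← map_mul, ← map_mul, e1]
        exact pow_mem hb' i
      · rw [← conj_mul, ← conj_pow, ← map_inv, ← map_mul, ← map_mul, ← map_mul, ← map_mul, e1, e2,
          map_mul]
        exact mul_mem (pow_mem hb' i) (mul_mem ha' hb')
  have h9 : Matrix.SpecialLinearGroup.toGL (-y) ∈ Subgroup.normalizer (R : Set (GL (Fin 2) F)) := by
    rw [← neg_one_mul, map_mul, hneg]
    exact mul_mem (Subgroup.center_le_normalizer _ H82.GL2_neg_one_central) h8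
  have h10 := H82.tr_sq_of_cube (x := y) (fun h => by
    rw [← Subgroup.mem_center_iff.1 h a, mul_inv_cancel_right] at e1
    rw [← e1, ← neg_one_mul (a * a), right_eq_mul] at hab
    exact H64.SL2.neg_one_ne_one h2 hab) (by
      rw [pow_three, ← mul_assoc, e3]; exact H64.SL2.neg_one_mem_center)
  have h11 : H64.SL2.tr y ^ 2 ≠ 4 := fun h => h3 (by
    rcases h10 with h' | h' <;> rw [h'] at h <;> linear_combination -h)
  rcases h10 with h10 | h10 <;> rcases H82.tr_sq_of_cube h7 h6 with h12 | h12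
  · exact ⟨y, h8, h11, h10.trans h12.symm⟩
  · exact ⟨-y, h9, by rwa [H64.SL2.tr_neg, neg_sq], by rw [H64.SL2.tr_neg, h10, h12]⟩
  · exact ⟨-y, h9, by rwa [H64.SL2.tr_neg, neg_sq], by rw [H64.SL2.tr_neg, h10, h12, neg_neg]⟩
  · exact ⟨y, h8, h11, h10.trans h12.symm⟩

end Cfsg.Agent.S5997
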